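import Mathlib
/-! The Baer trick: a group of class ≤ 2 whose commutators satisfy `c ^ (2 h + 1) = 1` becomes an
abelian group with `x + y = [x,y]^h x y`, with the same automorphisms. Also: a `p'`-group acting on
an abelian `p`-group. -/
open scoped commutatorElement
namespace Cfsg.Agent.Lib.BaerTrick

variable {K : Type*} [Group K]

/-- hypotheses -/
structure Hyp (K : Type*) [Group K] (h : ℕ) : Prop where
  cen : ∀ x y z : K, ⁅x, y⁆ * z = z * ⁅x, y⁆
  exp : ∀ x y : K, ⁅x, y⁆ ^ (2 * h + 1) = 1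

variable {h : ℕ}

theorem comm_mul_left (H : Hyp K h) (x y z : K) : ⁅x * y, z⁆ = ⁅x, z⁆ * ⁅y, z⁆ := by
  have h1 : ⁅x * y, z⁆ = x * ⁅y, z⁆ * x⁻¹ * ⁅x, z⁆ := by
    simp only [commutatorElement_def]; group
  rw [h1, ← H.cen y z x, mul_inv_cancel_right, H.cen]

theorem comm_mul_right (H : Hyp K h) (x y z : K) : ⁅x, y * z⁆ = ⁅x, y⁆ * ⁅x, z⁆ := by
  have h1 : ⁅x, y * z⁆ = ⁅x, y⁆ * (y * ⁅x, z⁆ * y⁻¹) := by
    simp only [commutatorElement_def]; group
  rw [h1, ← H.cen x z y, mul_inv_cancel_right]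

theorem comm_pow_left (H : Hyp K h) (a b : K) (n : ℕ) (z : K) : ⁅⁅a, b⁆ ^ n, z⁆ = 1 := by
  rw [commutatorElement_eq_one_iff_mul_comm]
  exact (Commute.pow_left (show Commute ⁅a, b⁆ z from H.cen a b z) n).eq

theorem comm_pow_right (H : Hyp K h) (a b : K) (n : ℕ) (z : K) : ⁅z, ⁅a, b⁆ ^ n⁆ = 1 := by
  rw [commutatorElement_eq_one_iff_mul_comm]
  exact (Commute.pow_left (show Commute ⁅a, b⁆ z from H.cen a b z) n).eq.symm

theorem pow_cen (H : Hyp K h) (a b : K) (n : ℕ) (z : K) : ⁅a, b⁆ ^ n * z = z * ⁅a, b⁆ ^ n :=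
  (Commute.pow_left (show Commute ⁅a, b⁆ z from H.cen a b z) n).eq

/-- the underlying set of the Baer group -/
structure Baer (K : Type*) where
  val : K

theorem Baer.ext' {a b : Baer K} (h : a.val = b.val) : a = b := by
  cases a; cases b; simp at h; rw [h]

/-- the Baer operation -/
def op (h : ℕ) (x y : K) : K := ⁅x, y⁆ ^ h * (x * y)

theorem op_assoc (H : Hyp K h) (x y z : K) : op h (op h x y) z = op h x (op h y z) := by
  unfold op
  rw [comm_mul_left H, comm_pow_left H, one_mul, comm_mul_left H, comm_mul_right H,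
    comm_pow_right H, one_mul, comm_mul_right H]
  have c1 : (⁅x, z⁆ * ⁅y, z⁆) ^ h = ⁅x, z⁆ ^ h * ⁅y, z⁆ ^ h :=
    (show Commute ⁅x, z⁆ ⁅y, z⁆ from H.cen _ _ _).mul_pow h
  have c2 : (⁅x, y⁆ * ⁅x, z⁆) ^ h = ⁅x, y⁆ ^ h * ⁅x, z⁆ ^ h :=
    (show Commute ⁅x, y⁆ ⁅x, z⁆ from H.cen _ _ _).mul_pow h
  rw [c1, c2]
  calc ⁅x, z⁆ ^ h * ⁅y, z⁆ ^ h * (⁅x, y⁆ ^ h * (x * y) * z)
      = (⁅x, z⁆ ^ h * (⁅y, z⁆ ^ h * ⁅x, y⁆ ^ h)) * (x * y * z) := by group
    _ = ((⁅x, z⁆ ^ h * ⁅x, y⁆ ^ h) * ⁅y, z⁆ ^ h) * (x * y * z) := by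
        rw [pow_cen H y z h (⁅x, y⁆ ^ h)]; group
    _ = ((⁅x, y⁆ ^ h * ⁅x, z⁆ ^ h) * ⁅y, z⁆ ^ h) * (x * y * z) := by
        rw [pow_cen H x z h (⁅x, y⁆ ^ h)]
    _ = ⁅x, y⁆ ^ h * ⁅x, z⁆ ^ h * (⁅y, z⁆ ^ h * x) * (y * z) := by group
    _ = ⁅x, y⁆ ^ h * ⁅x, z⁆ ^ h * (x * (⁅y, z⁆ ^ h * (y * z))) := by
        rw [pow_cen H y z h x]; group

theorem op_comm (H : Hyp K h) (x y : K) : op h x y = op h y x := by
  unfold op
  have h1 : ⁅y, x⁆ = ⁅x, y⁆⁻¹ := (commutatorElement_inv x y).symm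
  have h2 : x * y = ⁅x, y⁆ * (y * x) := by rw [commutatorElement_def]; group
  rw [h1, h2, inv_pow, ← mul_assoc, ← pow_succ]
  have h3 : ⁅x, y⁆ ^ h * ⁅x, y⁆ ^ (h + 1) = 1 := by
    rw [← pow_add]
    have : h + (h + 1) = 2 * h + 1 := by ring
    rw [this]; exact H.exp x y
  rw [eq_inv_of_mul_eq_one_right h3]

theorem one_op (x : K) : op h 1 x = x := by
  unfold op; simp

theorem op_one (x : K) : op h x 1 = x := by
  unfold op; simp

theorem inv_op (x : K) : op h x⁻¹ x = 1 := by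
  unfold op
  have : ⁅x⁻¹, x⁆ = 1 := by rw [commutatorElement_def]; group
  rw [this]; simp

/-- the Baer group -/
@[reducible] def commGroup (H : Hyp K h) : CommGroup (Baer K) where
  mul a b := ⟨op h a.val b.val⟩
  mul_assoc a b c := Baer.ext' (op_assoc H _ _ _)
  one := ⟨1⟩
  one_mul a := Baer.ext' (one_op _)
  mul_one a := Baer.ext' (op_one _)
  inv a := ⟨a.val⁻¹⟩
  inv_mul_cancel a := Baer.ext' (inv_op _)
  mul_comm a b := Baer.ext' (op_comm H _ _)

/-- automorphisms of `K` act on the Baer group -/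
def aut (H : Hyp K h) : MulAut K →* @MulAut (Baer K) (commGroup H).toMul :=
  letI := commGroup H
  { toFun := fun φ =>
      { toFun := fun a => ⟨φ a.val⟩
        invFun := fun a => ⟨φ.symm a.val⟩
        left_inv := fun a => Baer.ext' (φ.symm_apply_apply _)
        right_inv := fun a => Baer.ext' (φ.apply_symm_apply _)
        map_mul' := fun a b => Baer.ext' (by
          show φ (op h a.val b.val) = op h (φ a.val) (φ b.val)
          unfold op
          rw [map_mul, map_pow, map_commutatorElement, map_mul]) }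
    map_one' := rfl
    map_mul' := fun φ ψ => rfl }

/-- Coprime action on an abelian group: if `P`-fixed points are `Q`-fixed then `Q` acts trivially. -/
theorem trivial_of_fixed {V H : Type*} [CommGroup V] [Finite V] [Group H] [Finite H] {p : ℕ}
    [Fact p.Prime] (hV : ∃ n : ℕ, Nat.card V = p ^ n) (φ : H →* MulAut V) (P Q : Subgroup H)
    (hP : IsPGroup p P) (hQ : (Nat.card Q).Coprime p)
    (hPQ : P ≤ Subgroup.normalizer (Q : Set H))
    (hC : ∀ v : V, (∀ x ∈ P, φ x v = v) → ∀ y ∈ Q, φ y v = v) : ∀ y ∈ Q, ∀ v, φ y v = v := by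
  classical
  have hp : p.Prime := Fact.out
  have := Fintype.ofFinite Q
  let nm : V → V := fun v => ∏ q : Q, φ q v
  have nm_mul : ∀ v w, nm (v * w) = nm v * nm w := by
    intro v w
    simp only [nm, map_mul, Finset.prod_mul_distrib]
  have nm_one : nm 1 = 1 := by simp [nm]
  have nm_act : ∀ (m : Q) v, nm (φ m v) = nm v := by
    intro m v
    show ∏ q : Q, φ q (φ m v) = ∏ q : Q, φ q v
    refine Fintype.prod_equiv (Equiv.mulRight m) _ _ ?_
    intro n
    show φ n (φ m v) = φ ((n * m : Q) : H) v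
    rw [Subgroup.coe_mul, map_mul]; rfl
  have nm_k : ∀ k ∈ P, ∀ v, φ k (nm v) = nm (φ k v) := by
    intro k hk v
    show φ k (∏ q : Q, φ q v) = ∏ q : Q, φ q (φ k v)
    rw [map_prod]
    have hk' := hPQ hk
    let e : Q ≃ Q := (Q.normalizerMonoidHom ⟨k, hk'⟩).toEquiv
    refine Fintype.prod_equiv e _ _ ?_
    intro n
    have h1 : ((e n : Q) : H) = k * n * k⁻¹ := rfl
    rw [h1, map_mul, map_mul]
    show φ k (φ n v) = φ k (φ n (φ k⁻¹ (φ k v)))
    have h2 : φ k⁻¹ (φ k v) = v := by rw [map_inv]; exact MulAut.inv_apply_self _ _ _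
    rw [h2]
  let T : Subgroup V :=
    { carrier := {v | nm v = 1}
      one_mem' := nm_one
      mul_mem' := by
        intro a b ha hb
        show nm (a * b) = 1
        rw [nm_mul, show nm a = 1 from ha, show nm b = 1 from hb, one_mul]
      inv_mem' := by
        intro a ha
        show nm a⁻¹ = 1
        have h1 : nm (a * a⁻¹) = nm a * nm a⁻¹ := nm_mul a a⁻¹
        rw [mul_inv_cancel, nm_one, show nm a = 1 from ha, one_mul] at h1
        exact h1.symm }
  obtain ⟨n, hn⟩ := hV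
  have hVp : IsPGroup p V := IsPGroup.of_card hn
  have hfixT : ∀ v ∈ T, (∀ x ∈ P, φ x v = v) → v = 1 := by
    intro v hv hyv
    have h1 : ∀ q : Q, φ q v = v := fun q => hC v hyv q q.2
    have h2 : nm v = v ^ Nat.card Q := by
      show ∏ q : Q, φ q v = _
      rw [Finset.prod_congr rfl (fun q _ => h1 q), Finset.prod_const, Finset.card_univ, Nat.card_eq_fintype_card]
    have h3 : v ^ Nat.card Q = 1 := by rw [← h2]; exact hv
    have h4 : v ^ Nat.card V = 1 := pow_card_eq_one'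
    have h5 : orderOf v ∣ 1 := by
      have hc : (Nat.card Q).Coprime (Nat.card V) := by rw [hn]; exact Nat.Coprime.pow_right n hQ
      rw [← Nat.Coprime.gcd_eq_one hc]
      exact Nat.dvd_gcd (orderOf_dvd_of_pow_eq_one h3) (orderOf_dvd_of_pow_eq_one h4)
    rwa [Nat.dvd_one, orderOf_eq_one_iff] at h5
  have hinv : ∀ k ∈ P, ∀ v ∈ T, φ k v ∈ T := by
    intro k hk v hv
    show nm (φ k v) = 1
    rw [← nm_k k hk, show nm v = 1 from hv, map_one]
  let _ : MulAction P T :=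
    { smul := fun k v => ⟨φ k v, hinv k k.2 v v.2⟩
      one_smul := fun v => Subtype.ext (by
        show φ ((1 : P) : H) (v : V) = v
        rw [Subgroup.coe_one, map_one]; rfl)
      mul_smul := fun k l v => Subtype.ext (by
        show φ ((k * l : P) : H) (v : V) = φ k (φ l v)
        rw [Subgroup.coe_mul, map_mul]; rfl) }
  have hmod := hP.card_modEq_card_fixedPoints T
  have hfp : Nat.card (MulAction.fixedPoints P T) = 1 := by
    rw [Nat.card_eq_one_iff_unique]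
    constructor
    · constructor
      rintro ⟨a, ha⟩ ⟨b, hb⟩
      have h1 : ∀ c : T, c ∈ MulAction.fixedPoints P T → c = 1 := by
        intro c hc
        apply Subtype.ext
        exact hfixT c c.2 (fun x hx => congrArg Subtype.val (hc ⟨x, hx⟩))
      exact Subtype.ext ((h1 a ha).trans (h1 b hb).symm)
    · refine ⟨⟨1, ?_⟩⟩
      intro k
      apply Subtype.ext
      exact map_one (φ k)
  rw [hfp] at hmod
  have hTp : IsPGroup p T := hVp.to_subgroup T
  obtain ⟨k, hk⟩ := IsPGroup.iff_card.1 hTp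
  have hk0 : k = 0 := by
    by_contra hne
    rw [hk] at hmod
    have h1 : p ∣ p ^ k := dvd_pow_self p hne
    have h2 : 1 ≡ 0 [MOD p] := hmod.symm.trans (Nat.modEq_zero_iff_dvd.2 h1)
    exact hp.one_lt.ne' (Nat.dvd_one.1 (Nat.modEq_zero_iff_dvd.1 h2))
  rw [hk0, pow_zero] at hk
  have hT1 : T = ⊥ := Subgroup.card_eq_one.1 hk
  intro y hy v
  have h5 : φ y v * v⁻¹ ∈ T := by
    show nm (φ y v * v⁻¹) = 1
    rw [nm_mul, nm_act ⟨y, hy⟩, ← nm_mul, mul_inv_cancel, nm_one]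
  rw [hT1, Subgroup.mem_bot, mul_inv_eq_one] at h5
  exact h5

end Cfsg.Agent.Lib.BaerTrick
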