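import Mathlib
import Cfsg.Agent.Lib.Partition
import Cfsg.Agent.Lib.Frob
import Cfsg.Agent.Lib.CoprimeB
import Cfsg.Agent.Lib.CharFrobThm

/-! Frobenius groups acting on abelian groups: fixed points of the complement. -/

namespace Cfsg.Agent.Lib.FrobAct

open Subgroup Cfsg.Agent.Lib Cfsg.Agent.Lib.Basic

open scoped Pointwise

universe u
variable {G : Type u} [Group G]

theorem fixed_ne_bot [Finite G] (V F : Subgroup G) (hVab : IsMulCommutative V) (hV1 : V ≠ ⊥)
    (hFV : F ≤ normalizer (V : Set G)) (H : Subgroup ↥F) (hH : Cfsg.IsFrobeniusComplement H)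
    (hcop : (Nat.card V).Coprime (Nat.card (Cfsg.frobeniusKernel H)))
    (hCK : V ⊓ centralizer (Subtype.val '' Cfsg.frobeniusKernel H : Set G) = ⊥) :
    V ⊓ centralizer ((H.map F.subtype : Subgroup G) : Set G) ≠ ⊥ := by
  classical
  intro hCH
  have hTI : Frob.TI H := hH.2.2
  obtain ⟨N, hN, hNn, hNc⟩ := CharFrobThm.frobenius hTI
  letI : CommGroup V := { (inferInstance : Group V) with mul_comm := fun a b => hVab.is_comm.comm a b }
  set φ : F →* MulAut V := CoprimeB.act hFV with hφ
  have hφa : ∀ (f : F) (v : V), ((φ f v : V) : G) = (f : G) * v * (f : G)⁻¹ := fun f v => rfl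
  have hfixN : ∀ v : V, (∀ n ∈ N, φ n v = v) → v = 1 := by
    intro v hv
    have h1 : (v : G) ∈ V ⊓ centralizer (Subtype.val '' Cfsg.frobeniusKernel H : Set G) := by
      refine mem_inf.mpr ⟨v.2, mem_centralizer_iff.mpr ?_⟩
      rintro _ ⟨n, hn, rfl⟩
      rw [← hN] at hn
      have := congrArg Subtype.val (hv n hn)
      rw [hφa, mul_inv_eq_iff_eq_mul] at this
      exact this
    rw [hCK, mem_bot] at h1
    exact Subtype.ext h1
  have hfixH : ∀ v : V, (∀ n ∈ H, φ n v = v) → v = 1 := by
    intro v hv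
    have h1 : (v : G) ∈ V ⊓ centralizer ((H.map F.subtype : Subgroup G) : Set G) := by
      refine mem_inf.mpr ⟨v.2, mem_centralizer_iff.mpr ?_⟩
      rintro _ ⟨n, hn, rfl⟩
      have := congrArg Subtype.val (hv n hn)
      rw [hφa, mul_inv_eq_iff_eq_mul] at this
      exact this
    rw [hCH, mem_bot] at h1
    exact Subtype.ext h1
  haveI : Fintype (F ⧸ H) := Fintype.ofFinite _
  set S' : Finset (Subgroup F) := Finset.univ.image (fun q : F ⧸ H => MulAut.conj q.out • H) with hS'
  have hinj : Function.Injective (fun q : F ⧸ H => MulAut.conj q.out • H) := by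
    intro q r hqr
    obtain ⟨⟨h, hh⟩, hh0⟩ := (ne_bot_iff_exists_ne_one).mp hH.1
    have hh1 : h ≠ 1 := fun h1 => hh0 (Subtype.ext h1)
    have h1 : MulAut.conj q.out (h : F) ∈ MulAut.conj q.out • H := ⟨h, hh, rfl⟩
    have h2 : MulAut.conj q.out (h : F) ∈ MulAut.conj r.out • H := by
      have := hqr
      simp only at this
      rw [← this]; exact h1
    have h3 : MulAut.conj q.out (h : F) ≠ 1 := fun h0 => hh1 ((MulAut.conj q.out).injective (by rw [h0, map_one]))
    have h4 := hTI.mem_of_mem_conj h3 h1 h2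
    rw [← QuotientGroup.out_eq' q, ← QuotientGroup.out_eq' r]
    exact QuotientGroup.eq.mpr h4
  have hcard' : S'.card = H.index := by
    rw [hS', Finset.card_image_of_injective _ hinj, Finset.card_univ, ← Nat.card_eq_fintype_card]; rfl
  have hNdisj : ∀ g x : F, x ∈ N → x ∈ MulAut.conj g • H → x = 1 := by
    intro g x hx hxg
    have : x ∈ Cfsg.frobeniusKernel H := by rw [← hN]; exact hx
    rcases this with h | h
    · exact h
    · exact absurd hxg (h g)
  have hNS' : N ∉ S' := by
    intro hmem
    obtain ⟨q, -, hq⟩ := Finset.mem_image.mp hmem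
    apply hH.1
    rw [eq_bot_iff]
    intro h hh
    have h1 : MulAut.conj q.out h ∈ MulAut.conj q.out • H := ⟨h, hh, rfl⟩
    have h2 : MulAut.conj q.out h ∈ N := by rw [← hq]; exact h1
    have h3 := hNdisj _ _ h2 h1
    rw [mem_bot]
    exact (MulAut.conj q.out).injective (by rw [h3, map_one])
  have hcardN : Nat.card N = H.index := by
    rw [hNc.index_eq_card]
  have hcardS : (insert N S').card = Nat.card N + 1 := by
    rw [Finset.card_insert_of_notMem hNS', hcard', hcardN]
  have hone : ∀ v : V, v = 1 := by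
    intro v
    have h1 := Partition.prod_nrm φ (insert N S') ?_ ?_ v
    · have h2 : ∀ B ∈ insert N S', Partition.nrm φ B v = 1 := by
        intro B hB
        rw [Finset.mem_insert] at hB
        rcases hB with rfl | hB
        · exact hfixN _ fun n hn => Partition.nrm_fixed φ _ v hn
        · obtain ⟨q, -, rfl⟩ := Finset.mem_image.mp hB
          have h3 : φ q.out⁻¹ (Partition.nrm φ (MulAut.conj q.out • H) v) = 1 := by
            apply hfixH
            intro h hh
            have h4 : q.out * h * q.out⁻¹ ∈ MulAut.conj q.out • H := ⟨h, hh, rfl⟩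
            have h5 := Partition.nrm_fixed φ _ v h4
            have h6 : h * q.out⁻¹ = q.out⁻¹ * (q.out * h * q.out⁻¹) := by group
            calc φ h (φ q.out⁻¹ (Partition.nrm φ (MulAut.conj q.out • H) v))
                = φ (h * q.out⁻¹) (Partition.nrm φ (MulAut.conj q.out • H) v) := by rw [map_mul]; rfl
              _ = φ q.out⁻¹ (φ (q.out * h * q.out⁻¹) (Partition.nrm φ (MulAut.conj q.out • H) v)) := by
                  rw [h6, map_mul]; rfl
              _ = _ := by rw [h5]
          exact (φ q.out⁻¹).injective (by rw [h3, map_one])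
      have h7 : Partition.nrm φ ⊤ v = 1 := hfixN _ fun n _ => Partition.nrm_fixed φ _ v (mem_top n)
      rw [Finset.prod_congr rfl h2, Finset.prod_const_one, mul_one, h7, mul_one, hcardS, pow_succ] at h1
      have h8 : v ^ (Nat.card N) = 1 := by
        have : 1 * v = v ^ (Nat.card N) * v := by rw [one_mul]; exact h1
        exact (mul_right_cancel this).symm
      have h9 : orderOf v ∣ Nat.card N := orderOf_dvd_of_pow_eq_one h8
      have h10 : orderOf v ∣ Nat.card V := orderOf_dvd_natCard v
      have h11 : Nat.card (Cfsg.frobeniusKernel H) = Nat.card N := by rw [← hN]; rfl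
      rw [h11] at hcop
      exact orderOf_eq_one_iff.mp (Nat.eq_one_of_dvd_coprimes hcop h10 h9)
    · intro a ha
      by_cases hk : a ∈ Cfsg.frobeniusKernel H
      · exact ⟨N, Finset.mem_insert_self _ _, by rw [← hN] at hk; exact hk⟩
      · have : ∃ g : F, a ∈ MulAut.conj g • H := by
          by_contra hcon
          push Not at hcon
          exact hk (Or.inr hcon)
        obtain ⟨g, hg⟩ := this
        refine ⟨MulAut.conj ((QuotientGroup.mk g : F ⧸ H).out) • H, Finset.mem_insert_of_mem (Finset.mem_image.mpr ⟨_, Finset.mem_univ _, rfl⟩), ?_⟩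
        have h3 : (QuotientGroup.mk g : F ⧸ H).out⁻¹ * g ∈ H := QuotientGroup.eq.mp (QuotientGroup.out_eq' _)
        rw [Frob.conj_eq_of_mem h3]; exact hg
    · intro B hB C hC hne
      rw [Finset.mem_insert] at hB hC
      rw [eq_bot_iff]
      intro x hx
      rw [mem_bot]
      rcases hB with rfl | hB <;> rcases hC with rfl | hC
      · exact absurd rfl hne
      · obtain ⟨q, -, rfl⟩ := Finset.mem_image.mp hC
        exact hNdisj _ _ (mem_inf.mp hx).1 (mem_inf.mp hx).2
      · obtain ⟨q, -, rfl⟩ := Finset.mem_image.mp hB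
        exact hNdisj _ _ (mem_inf.mp hx).2 (mem_inf.mp hx).1
      · obtain ⟨q, -, rfl⟩ := Finset.mem_image.mp hB
        obtain ⟨r, -, rfl⟩ := Finset.mem_image.mp hC
        by_contra hx1
        exact hne (hTI.conj_eq hx1 (mem_inf.mp hx).1 (mem_inf.mp hx).2)
  apply hV1
  rw [eq_bot_iff]
  intro v hv
  rw [mem_bot]
  exact congrArg Subtype.val (hone ⟨v, hv⟩)

end Cfsg.Agent.Lib.FrobAct
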