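import Cfsg.Agent.Lib.ExSp

/-!
# Classification of extraspecial groups

* `iso_exp` : `S0098`.
* `iso_two` : `S0099`.
-/

universe u v w

open Subgroup
open scoped commutatorElement Pointwise

namespace Cfsg.Agent.Lib.ExSp

variable {E : Type*} [Group E] {p : ℕ} {z : E}

/-- the commutative case -/
theorem iso_cyc {E₁ : Type*} {E₂ : Type*} [Group E₁] [Group E₂] [Finite E₁] [Finite E₂] {p : ℕ} {z₁ : E₁} {z₂ : E₂}
    (D₁ : Dat p z₁) (D₂ : Dat p z₂) (h₁ : Nat.card E₁ = p) (h₂ : Nat.card E₂ = p) :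
    ∃ f : E₁ ≃* E₂, f z₁ = z₂ := by
  have h3 : ∀ x, x ∈ zpowers z₁ := by
    have : zpowers z₁ = ⊤ := eq_top_of_card_eq _ (by rw [Nat.card_zpowers, D₁.ord, h₁])
    intro x; rw [this]; trivial
  have h4 : ∀ x, x ∈ zpowers z₂ := by
    have : zpowers z₂ = ⊤ := eq_top_of_card_eq _ (by rw [Nat.card_zpowers, D₂.ord, h₂])
    intro x; rw [this]; trivial
  exact ⟨mulEquivOfOrderOfEq h3 h4 (D₁.ord.trans D₂.ord.symm), mulEquivOfOrderOfEq_apply_gen h3 h4 _⟩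

theorem Dat.card_of_comm [Finite E] (D : Dat p z) (h : ∀ x y : E, x * y = y * x) : Nat.card E = p := by
  have h1 : zpowers z = ⊤ := by rw [eq_top_iff]; exact fun x _ => D.cen x (h x)
  rw [← card_top, ← h1, Nat.card_zpowers, D.ord]

theorem Dat.comm_of_card [Finite E] (D : Dat p z) (h : Nat.card E = p) : ∀ x y : E, x * y = y * x := by
  have h1 : zpowers z = ⊤ := eq_top_of_card_eq _ (by rw [Nat.card_zpowers, D.ord, h])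
  intro x y
  exact (D.cc (by rw [h1]; trivial) x).eq

theorem iso_exp {p : ℕ} [hp : Fact p.Prime] (n : ℕ) : ∀ (E₁ : Type u) (E₂ : Type v) [Group E₁] [Group E₂]
    [Finite E₁] [Finite E₂] (z₁ : E₁) (z₂ : E₂) (_ : Dat p z₁) (_ : Dat p z₂) (_ : ∀ x : E₁, x ^ p = 1)
    (_ : ∀ x : E₂, x ^ p = 1) (_ : Nat.card E₁ = Nat.card E₂) (_ : Nat.card E₁ ≤ n), ∃ f : E₁ ≃* E₂, f z₁ = z₂ := by
  induction n with
  | zero => intro E₁ E₂ _ _ _ _ z₁ z₂ D₁ D₂ _ _ _ hn; exact absurd (Nat.le_zero.mp hn) Nat.card_pos.ne'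
  | succ n ih =>
    intro E₁ E₂ _ _ _ _ z₁ z₂ D₁ D₂ e₁ e₂ hc hn
    by_cases hab : ∀ x y : E₁, x * y = y * x
    · have h1 := D₁.card_of_comm hab
      exact iso_cyc D₁ D₂ h1 (hc ▸ h1)
    · have hab2 : ¬ ∀ x y : E₂, x * y = y * x := fun h =>
        hab (D₁.comm_of_card (hc.trans (D₂.card_of_comm h)))
      obtain ⟨x₁, y₁, h₁⟩ := D₁.exists_pair hab
      obtain ⟨x₂, y₂, h₂⟩ := D₂.exists_pair hab2
      have c1 := D₁.card_eq h₁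
      have c2 := D₂.card_eq h₂
      have h3 : 2 ^ 2 ≤ p ^ 2 := Nat.pow_le_pow_left hp.out.two_le 2
      have h4 : 0 < Nat.card (centralizer ({x₁, y₁} : Set E₁)) := Nat.card_pos
      have h5 : Nat.card (centralizer ({x₁, y₁} : Set E₁)) = Nat.card (centralizer ({x₂, y₂} : Set E₂)) := by
        rw [c1, c2] at hc
        exact Nat.eq_of_mul_eq_mul_left (pow_pos hp.out.pos 2) hc
      obtain ⟨ψ, hψ⟩ := ih _ _ _ _ (D₁.sub h₁) (D₂.sub h₂) (fun x => Subtype.ext (e₁ x))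
        (fun x => Subtype.ext (e₂ x)) h5 (by nlinarith)
      exact glue D₁ D₂ h₁ h₂ ⟨0, by rw [e₁, zpow_zero], by rw [e₂, zpow_zero]⟩
        ⟨0, by rw [e₁, zpow_zero], by rw [e₂, zpow_zero]⟩ ψ (by rw [hψ])

/-! ### two-groups -/

/-- dihedral type -/
def TD (z : E) : Prop := ∃ x y : E, ⁅x, y⁆ = z ∧ x ^ 2 = 1 ∧ y ^ 2 = 1

/-- quaternion type -/
def TQ (z : E) : Prop := ∃ x y : E, ⁅x, y⁆ = z ∧ x ^ 2 = z ∧ y ^ 2 = z

theorem Dat.sq (D : Dat 2 z) (x : E) : x ^ 2 = 1 ∨ x ^ 2 = z := by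
  obtain ⟨n, hn⟩ := mem_zpowers_iff.mp (D.pow_mem x)
  have hz : z ^ 2 = 1 := D.zp (mem_zpowers z)
  have hz2 : z ^ (2 : ℤ) = 1 := by exact_mod_cast hz
  rcases Int.even_or_odd' n with ⟨k, rfl | rfl⟩
  · left; rw [← hn, zpow_mul, hz2, one_zpow]
  · right; rw [← hn, zpow_add, zpow_mul, hz2, one_zpow, one_mul, zpow_one]

theorem Dat.zz (D : Dat 2 z) : z * z = 1 := by
  have hz : z ^ 2 = 1 := D.zp (mem_zpowers z)
  rwa [pow_two] at hz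

theorem Dat.mul_sq (D : Dat 2 z) {x y : E} (h : ⁅x, y⁆ = z) : (x * y) ^ 2 = x ^ 2 * y ^ 2 * z := by
  have h1 := D.swap h 1 1
  rw [zpow_one, zpow_one, mul_one, zpow_neg, zpow_one] at h1
  have h2 : z⁻¹ = z := inv_eq_of_mul_eq_one_right D.zz
  rw [h2] at h1
  calc (x * y) ^ 2 = x * (y * x) * y := by rw [pow_two]; simp only [mul_assoc]
    _ = x * (x * y * z) * y := by rw [h1]
    _ = x * x * (y * (z * y)) := by simp only [mul_assoc]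
    _ = x ^ 2 * y ^ 2 * z := by rw [← D.zc y, pow_two, pow_two]; simp only [mul_assoc]

theorem Dat.td_of (D : Dat 2 z) {x y : E} (h : ⁅x, y⁆ = z) (hx : x ^ 2 = 1) : TD z := by
  rcases D.sq y with hy | hy
  · exact ⟨x, y, h, hx, hy⟩
  · refine ⟨x, x * y, ?_, hx, ?_⟩
    · rw [D.mul_right, commutatorElement_self, one_mul, h]
    · rw [D.mul_sq h, hx, hy, one_mul, D.zz]

theorem Dat.td_or_tq (D : Dat 2 z) (h : ¬ ∀ x y : E, x * y = y * x) : TD z ∨ TQ z := by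
  obtain ⟨x, y, hxy⟩ := D.exists_pair h
  rcases D.sq x with hx | hx
  · exact Or.inl (D.td_of hxy hx)
  · rcases D.sq y with hy | hy
    · left
      refine D.td_of (x := y) (y := x) ?_ hy
      rw [← commutatorElement_inv, hxy]
      exact inv_eq_of_mul_eq_one_right D.zz
    · exact Or.inr ⟨x, y, hxy, hx, hy⟩

theorem Dat.td_of_card [Finite E] (D : Dat 2 z) (h : 8 < Nat.card E) : TD z := by
  have hnc : ¬ ∀ x y : E, x * y = y * x := fun h1 => by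
    have := D.card_of_comm h1
    omega
  rcases D.td_or_tq hnc with h1 | ⟨a, b, hab, ha, hb⟩
  · exact h1
  have h2 := D.card_eq hab
  have DK := D.sub hab
  have h3 : ¬ ∀ x y : centralizer ({a, b} : Set E), x * y = y * x := fun h3 => by
    have := DK.card_of_comm h3
    omega
  obtain ⟨c, d, hcd⟩ := DK.exists_pair h3
  have hcd' : ⁅(c : E), (d : E)⁆ = z := congrArg Subtype.val hcd
  rcases D.sq (c : E) with hc | hc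
  · exact D.td_of hcd' hc
  · have hca : Commute (c : E) a := (mem_centralizer_iff.mp c.2 _ (Or.inl rfl)).symm
    have hcb : Commute (c : E) b := (mem_centralizer_iff.mp c.2 _ (Or.inr rfl)).symm
    refine D.td_of (x := a * c) (y := b) ?_ ?_
    · rw [D.mul_left, hab, commutatorElement_eq_one_iff_mul_comm.mpr hcb.eq, mul_one]
    · rw [hca.symm.mul_pow, ha, hc, D.zz]

/-- glueing two groups of the same type and order -/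
theorem glue_td {E₁ : Type*} {E₂ : Type*} [Group E₁] [Group E₂] {z₁ x₁ y₁ : E₁} {z₂ x₂ y₂ : E₂}
    (D₁ : Dat 2 z₁) (D₂ : Dat 2 z₂) (h₁ : ⁅x₁, y₁⁆ = z₁) (h₂ : ⁅x₂, y₂⁆ = z₂)
    (a₁ : x₁ ^ 2 = 1) (a₂ : x₂ ^ 2 = 1) (b₁ : y₁ ^ 2 = 1) (b₂ : y₂ ^ 2 = 1)
    (h : ∃ ψ : centralizer ({x₁, y₁} : Set E₁) ≃* centralizer ({x₂, y₂} : Set E₂),
      ψ ⟨z₁, D₁.z_mem _⟩ = ⟨z₂, D₂.z_mem _⟩) :
    ∃ f : E₁ ≃* E₂, f z₁ = z₂ := by
  obtain ⟨ψ, hψ⟩ := h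
  exact glue D₁ D₂ h₁ h₂ ⟨0, by rw [a₁, zpow_zero], by rw [a₂, zpow_zero]⟩
    ⟨0, by rw [b₁, zpow_zero], by rw [b₂, zpow_zero]⟩ ψ (by rw [hψ])

theorem glue_tq {E₁ : Type*} {E₂ : Type*} [Group E₁] [Group E₂] {z₁ x₁ y₁ : E₁} {z₂ x₂ y₂ : E₂}
    (D₁ : Dat 2 z₁) (D₂ : Dat 2 z₂) (h₁ : ⁅x₁, y₁⁆ = z₁) (h₂ : ⁅x₂, y₂⁆ = z₂)
    (a₁ : x₁ ^ 2 = z₁) (a₂ : x₂ ^ 2 = z₂) (b₁ : y₁ ^ 2 = z₁) (b₂ : y₂ ^ 2 = z₂)
    (h : ∃ ψ : centralizer ({x₁, y₁} : Set E₁) ≃* centralizer ({x₂, y₂} : Set E₂),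
      ψ ⟨z₁, D₁.z_mem _⟩ = ⟨z₂, D₂.z_mem _⟩) :
    ∃ f : E₁ ≃* E₂, f z₁ = z₂ := by
  obtain ⟨ψ, hψ⟩ := h
  exact glue D₁ D₂ h₁ h₂ ⟨1, by rw [a₁, zpow_one], by rw [a₂, zpow_one]⟩
    ⟨1, by rw [b₁, zpow_one], by rw [b₂, zpow_one]⟩ ψ (by rw [hψ])

/-- same type, order eight -/
theorem iso_eight_td {E₁ : Type*} {E₂ : Type*} [Group E₁] [Group E₂] [Finite E₁] [Finite E₂] {z₁ : E₁} {z₂ : E₂}
    (D₁ : Dat 2 z₁) (D₂ : Dat 2 z₂) (c₁ : Nat.card E₁ = 8) (c₂ : Nat.card E₂ = 8) (t₁ : TD z₁) (t₂ : TD z₂) :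
    ∃ f : E₁ ≃* E₂, f z₁ = z₂ := by
  obtain ⟨x₁, y₁, h₁, a₁, b₁⟩ := t₁
  obtain ⟨x₂, y₂, h₂, a₂, b₂⟩ := t₂
  refine glue_td D₁ D₂ h₁ h₂ a₁ a₂ b₁ b₂ (iso_cyc (D₁.sub h₁) (D₂.sub h₂) ?_ ?_)
  · have := D₁.card_eq h₁; omega
  · have := D₂.card_eq h₂; omega

theorem iso_eight_tq {E₁ : Type*} {E₂ : Type*} [Group E₁] [Group E₂] [Finite E₁] [Finite E₂] {z₁ : E₁} {z₂ : E₂}
    (D₁ : Dat 2 z₁) (D₂ : Dat 2 z₂) (c₁ : Nat.card E₁ = 8) (c₂ : Nat.card E₂ = 8) (t₁ : TQ z₁) (t₂ : TQ z₂) :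
    ∃ f : E₁ ≃* E₂, f z₁ = z₂ := by
  obtain ⟨x₁, y₁, h₁, a₁, b₁⟩ := t₁
  obtain ⟨x₂, y₂, h₂, a₂, b₂⟩ := t₂
  refine glue_tq D₁ D₂ h₁ h₂ a₁ a₂ b₁ b₂ (iso_cyc (D₁.sub h₁) (D₂.sub h₂) ?_ ?_)
  · have := D₁.card_eq h₁; omega
  · have := D₂.card_eq h₂; omega

theorem iso_two (n : ℕ) : ∀ (E₁ : Type u) (E₂ : Type v) (E₃ : Type w) [Group E₁] [Group E₂] [Group E₃]
    [Finite E₁] [Finite E₂] [Finite E₃] (z₁ : E₁) (z₂ : E₂) (z₃ : E₃) (_ : Dat 2 z₁) (_ : Dat 2 z₂) (_ : Dat 2 z₃)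
    (_ : Nat.card E₁ = Nat.card E₂) (_ : Nat.card E₂ = Nat.card E₃) (_ : Nat.card E₁ ≤ n),
    (∃ f : E₁ ≃* E₂, f z₁ = z₂) ∨ (∃ f : E₂ ≃* E₃, f z₂ = z₃) ∨ (∃ f : E₁ ≃* E₃, f z₁ = z₃) := by
  induction n with
  | zero => intro E₁ E₂ E₃ _ _ _ _ _ _ z₁ z₂ z₃ D₁ D₂ D₃ _ _ hn; exact absurd (Nat.le_zero.mp hn) Nat.card_pos.ne'
  | succ n ih =>
    intro E₁ E₂ E₃ _ _ _ _ _ _ z₁ z₂ z₃ D₁ D₂ D₃ hc hc' hn
    by_cases hab : ∀ x y : E₁, x * y = y * x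
    · have h1 := D₁.card_of_comm hab
      exact Or.inl (iso_cyc D₁ D₂ h1 (hc ▸ h1))
    have hab2 : ¬ ∀ x y : E₂, x * y = y * x := fun h =>
      hab (D₁.comm_of_card (hc.trans (D₂.card_of_comm h)))
    have hab3 : ¬ ∀ x y : E₃, x * y = y * x := fun h =>
      hab (D₁.comm_of_card (hc.trans (hc'.trans (D₃.card_of_comm h))))
    by_cases h8 : 8 < Nat.card E₁
    · obtain ⟨x₁, y₁, h₁, a₁, b₁⟩ := D₁.td_of_card h8
      obtain ⟨x₂, y₂, h₂, a₂, b₂⟩ := D₂.td_of_card (hc ▸ h8)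
      obtain ⟨x₃, y₃, h₃, a₃, b₃⟩ := D₃.td_of_card (hc' ▸ hc ▸ h8)
      have c1 := D₁.card_eq h₁
      have c2 := D₂.card_eq h₂
      have c3 := D₃.card_eq h₃
      rcases ih _ _ _ _ _ _ (D₁.sub h₁) (D₂.sub h₂) (D₃.sub h₃) (by omega) (by omega) (by omega) with h | h | h
      · exact Or.inl (glue_td D₁ D₂ h₁ h₂ a₁ a₂ b₁ b₂ h)
      · exact Or.inr (Or.inl (glue_td D₂ D₃ h₂ h₃ a₂ a₃ b₂ b₃ h))
      · exact Or.inr (Or.inr (glue_td D₁ D₃ h₁ h₃ a₁ a₃ b₁ b₃ h))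
    · obtain ⟨x, y, hxy⟩ := D₁.exists_pair hab
      have h4 := D₁.card_eq hxy
      have h5 : 2 ≤ Nat.card (centralizer ({x, y} : Set E₁)) := by
        have h6 : Nat.card (zpowers z₁) ≤ Nat.card (centralizer ({x, y} : Set E₁)) :=
          card_le_of_le (zpowers_le.mpr (D₁.z_mem _))
        rwa [Nat.card_zpowers, D₁.ord] at h6
      have c1 : Nat.card E₁ = 8 := by omega
      have c2 : Nat.card E₂ = 8 := by omega
      have c3 : Nat.card E₃ = 8 := by omega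
      rcases D₁.td_or_tq hab with t1 | t1 <;> rcases D₂.td_or_tq hab2 with t2 | t2 <;>
        rcases D₃.td_or_tq hab3 with t3 | t3
      · exact Or.inl (iso_eight_td D₁ D₂ c1 c2 t1 t2)
      · exact Or.inl (iso_eight_td D₁ D₂ c1 c2 t1 t2)
      · exact Or.inr (Or.inr (iso_eight_td D₁ D₃ c1 c3 t1 t3))
      · exact Or.inr (Or.inl (iso_eight_tq D₂ D₃ c2 c3 t2 t3))
      · exact Or.inr (Or.inl (iso_eight_td D₂ D₃ c2 c3 t2 t3))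
      · exact Or.inr (Or.inr (iso_eight_tq D₁ D₃ c1 c3 t1 t3))
      · exact Or.inl (iso_eight_tq D₁ D₂ c1 c2 t1 t2)
      · exact Or.inl (iso_eight_tq D₁ D₂ c1 c2 t1 t2)

end Cfsg.Agent.Lib.ExSp
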