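import Cfsg.Agent.Lib.StabCl
import Cfsg.Agent.Lib.PNInd
import Cfsg.Agent.Lib.MinAct

/-!
The stable normal closure is normal in action-`p`-stable groups.
-/

set_option autoImplicit false
set_option linter.unusedSectionVars false
set_option linter.unusedVariables false

namespace Cfsg.Agent.Lib.StabClB

open Subgroup Cfsg.Agent.Lib Cfsg.Agent.Lib.QuadD Cfsg.Agent.Lib.StabCl
open scoped commutatorElement Pointwise

universe u v

variable {G : Type u} [Group G]

theorem maxEA_eq_of_le [Finite G] {p : ℕ} {X Y : Subgroup G} (h : ThompsonJ.maxEA p X ⊆ {A | A ≤ Y}) (hYX : Y ≤ X) :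
    ThompsonJ.maxEA p Y = ThompsonJ.maxEA p X := by
  ext A
  constructor
  · intro hA
    obtain ⟨B, hB⟩ := ThompsonJ.exists_maxEA p X
    refine ⟨hA.1.trans hYX, hA.2.1, fun D hD hDe => ?_⟩
    exact (hB.2.2 D hD hDe).trans (hA.2.2 B (h hB) hB.2.1)
  · intro hA
    exact ⟨h hA, hA.2.1, fun D hD hDe => hA.2.2 D (hD.trans hYX) hDe⟩

/-- the subgroup `W(S)` inside `G` -/
def Wc (p : ℕ) (S : Subgroup G) : Subgroup G := (Cfsg.stableNormalClosure p ↥S).map S.subtype

theorem Wc_le (p : ℕ) (S : Subgroup G) : Wc p S ≤ S := map_subtype_le _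

theorem ea_Wc [Finite G] (p : ℕ) (S : Subgroup G) : Cfsg.IsElementaryAbelian p (Wc p S) :=
  ThompsonJ.ea_map (ea_snc p) _

theorem normalizer_le_Wc [Finite G] (p : ℕ) (S : Subgroup G) : normalizer (S : Set G) ≤ normalizer (Wc p S : Set G) := by
  haveI := StabCl.char (S := S) p
  exact MinAct.normalizer_le_normalizer_char _

theorem Wc_no_quad [Finite G] {p : ℕ} [Fact p.Prime] {S : Subgroup G} (hS : IsPGroup p S) {x : G} (hx : x ∈ S)
    (hq : ⁅⁅Wc p S, zpowers x⁆, zpowers x⁆ = ⊥) : Wc p S ≤ centralizer {x} := by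
  have h1 : ⁅⁅Cfsg.stableNormalClosure p ↥S, zpowers (⟨x, hx⟩ : S)⁆, zpowers (⟨x, hx⟩ : S)⁆ = ⊥ := by
    rw [← Subgroup.map_eq_bot_iff_of_injective _ S.subtype_injective, map_quad]
    exact hq
  rintro _ ⟨w, hw, rfl⟩
  have h2 := no_quad hS _ h1 hw
  rw [mem_centralizer_singleton_iff] at h2 ⊢
  exact congrArg Subtype.val h2

/-- the section `O_p(G)/Φ(O_p(G))`: quadratic elements lie in `O_p(G)` -/
theorem mem_pCore_of_section [Finite G] {p : ℕ} [hp : Fact p.Prime]
    (hst : Cfsg.IsPStableOnSection p (Cfsg.pCore p G) ((frattini ↥(Cfsg.pCore p G)).map (Cfsg.pCore p G).subtype))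
    (hc : centralizer (Cfsg.pCore p G : Set G) ≤ Cfsg.pCore p G) {w : G}
    (hw : ⁅⁅Cfsg.pCore p G, zpowers w⁆, zpowers w⁆ = ⊥) : w ∈ Cfsg.pCore p G := by
  set O := Cfsg.pCore p G with hO
  set Φ := (frattini ↥O).map O.subtype with hΦ
  haveI hOn : O.Normal := Cores.pCore_normal p
  have hOp : IsPGroup p O := Cores.pCore_isPGroup p
  obtain ⟨D, hDn, hCD, ⟨k, hk⟩, hwD⟩ := hst w (by rw [hw]; exact bot_le)
  have hC0 : IsPGroup p (Cfsg.sectionKernel O Φ) := by
    apply PNInd.isPGroup_of_no_pprime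
    intro g hg hgo
    have h1 : zpowers g ≤ centralizer (O : Set G) := by
      apply Coprime.le_centralizer_of_frattini (A := zpowers g) (K := O) (by rw [normalizer_eq_top]; exact le_top)
      · rw [Nat.card_zpowers]
        have h2 : IsPGroup p (frattini O) := hOp.to_subgroup _
        obtain ⟨j, hj⟩ := h2.exists_card_eq
        rw [hj]; exact Nat.Coprime.pow_right j hgo
      · intro a ha y hy
        have ha' : a ∈ Cfsg.sectionKernel O Φ := (zpowers_le.mpr hg : zpowers g ≤ _) ha
        have h2 : QuotientGroup.mk' Φ a ∈ centralizer ((O.map (QuotientGroup.mk' Φ) : Subgroup (G ⧸ Φ)) : Set (G ⧸ Φ)) := ha'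
        have h3 := mem_centralizer_iff.mp h2 _ (mem_map_of_mem (QuotientGroup.mk' Φ) hy)
        have h4 : QuotientGroup.mk' Φ (a * y * a⁻¹ * y⁻¹) = 1 := by
          rw [map_mul, map_mul, map_mul, map_inv, map_inv, ← h3]; group
        exact (QuotientGroup.eq_one_iff _).mp h4
    have h2 : g ∈ O := hc (h1 (mem_zpowers g))
    obtain ⟨j, hj⟩ := hOp ⟨g, h2⟩
    refine PPart.eq_one_of (p := p) (a := j) ?_ hgo
    rw [orderOf_dvd_iff_pow_eq_one]
    exact congrArg Subtype.val hj
  have hDp : IsPGroup p D := HallHigman.isPGroup_of_relIndex (E := Cfsg.sectionKernel O Φ) (m := k) (hC0.to_le inf_le_left) (by rw [hk])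
  exact Cores.le_pCore hDn hDp hwD

/-- the analogue of the ZJ theorem -/
theorem Wc_normal [Finite G] {p : ℕ} [hp : Fact p.Prime] (hst : Cfsg.IsActionPStable p G)
    (hc : centralizer (Cfsg.pCore p G : Set G) ≤ Cfsg.pCore p G) (S : Sylow p G) : (Wc p (S : Subgroup G)).Normal := by
  obtain ⟨hst1, hst2, hst3⟩ := hst
  set O := Cfsg.pCore p G with hO
  haveI hOn : O.Normal := Cores.pCore_normal p
  have hOp : IsPGroup p O := Cores.pCore_isPGroup p
  have hOS : O ≤ S := Cores.pCore_le_sylow S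
  set W := Wc p (S : Subgroup G) with hW
  have hWS : W ≤ S := Wc_le p _
  have hWe := ThompsonJ.ea_iff.mp (ea_Wc p (S : Subgroup G))
  have hSW : (S : Subgroup G) ≤ normalizer (W : Set G) := le_normalizer.trans (normalizer_le_Wc p _)
  have hconj : ∀ s ∈ (S : Subgroup G), ∀ w ∈ W, s * w * s⁻¹ ∈ W := fun s hs w hw => QuadA.conj_mem_of hSW hs hw
  have hcommW : ∀ s ∈ (S : Subgroup G), ∀ w ∈ W, ⁅s, w⁆ ∈ W := fun s hs w hw => by
    rw [_root_.commutatorElement_def]
    exact W.mul_mem (hconj s hs w hw) (W.inv_mem hw)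
  -- Step 1
  have hWO : W ≤ O := by
    intro w hw
    apply mem_pCore_of_section hst2 hc
    rw [eq_bot_iff, commutator_le]
    intro x hx y hy
    have h1 : ⁅Cfsg.pCore p G, zpowers w⁆ ≤ W := by
      rw [commutator_le]
      intro a ha b hb
      exact hcommW a (hOS ha) b ((zpowers_le.mpr hw : zpowers w ≤ W) hb)
    rw [mem_bot, commutatorElement_eq_one_iff_mul_comm]
    exact hWe.1 x (h1 hx) y ((zpowers_le.mpr hw : zpowers w ≤ W) hy)
  -- Step 2
  set T := Subgroup.normalClosure (W : Set G) with hT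
  have hWT : W ≤ T := Subgroup.subset_normalClosure
  have hTO : T ≤ O := Subgroup.normalClosure_le_normal hWO
  have hconjO : ∀ g : G, ∀ w ∈ W, g * w * g⁻¹ ∈ centralizer (W : Set G) := by
    intro g w hw
    have h1 : g * w * g⁻¹ ∈ O := hOn.conj_mem _ (hWO hw) g
    have hq : ⁅⁅Wc p (S : Subgroup G), zpowers (g * w * g⁻¹)⁆, zpowers (g * w * g⁻¹)⁆ = ⊥ := by
      -- `[W, W^g] ≤ W^g`
      have h2 : ⁅Wc p (S : Subgroup G), zpowers (g * w * g⁻¹)⁆ ≤ W.map (MulAut.conj g).toMonoidHom := by
        rw [commutator_le]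
        intro a ha b hb
        have hb' : b ∈ W.map (MulAut.conj g).toMonoidHom :=
          (zpowers_le.mpr (mem_map_of_mem (MulAut.conj g).toMonoidHom hw) : zpowers (g * w * g⁻¹) ≤ _) hb
        obtain ⟨b', hb', rfl⟩ := hb'
        have h3 : g⁻¹ * a * g ∈ (S : Subgroup G) := by
          have := hOn.conj_mem _ (hWO ha) g⁻¹
          rw [inv_inv] at this
          exact hOS this
        refine ⟨⁅g⁻¹ * a * g, b'⁆, hcommW _ h3 b' hb', ?_⟩
        show g * ⁅g⁻¹ * a * g, b'⁆ * g⁻¹ = ⁅a, g * b' * g⁻¹⁆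
        rw [_root_.commutatorElement_def, _root_.commutatorElement_def]; group
      rw [eq_bot_iff, commutator_le]
      intro x hx y hy
      have hy' : y ∈ W.map (MulAut.conj g).toMonoidHom :=
        (zpowers_le.mpr (mem_map_of_mem (MulAut.conj g).toMonoidHom hw) : zpowers (g * w * g⁻¹) ≤ _) hy
      obtain ⟨x', hx', rfl⟩ := h2 hx
      obtain ⟨y', hy', rfl⟩ := hy'
      rw [mem_bot, commutatorElement_eq_one_iff_mul_comm, ← map_mul, ← map_mul, hWe.1 x' hx' y' hy']
    have h2 := Wc_no_quad S.2 (hOS h1) hq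
    rw [mem_centralizer_iff]
    intro y hy
    have h3 := h2 hy
    rw [mem_centralizer_singleton_iff] at h3
    exact h3
  have hTC : T ≤ centralizer (W : Set G) := by
    rw [hT, Subgroup.normalClosure, Subgroup.closure_le]
    intro v hv
    rw [Group.mem_conjugatesOfSet_iff] at hv
    obtain ⟨w, hw, hwv⟩ := hv
    rw [isConj_iff] at hwv
    obtain ⟨h, rfl⟩ := hwv
    exact hconjO h w hw
  have hTcomm : T ≤ centralizer (T : Set G) := by
    refine Subgroup.normalClosure_le_normal ?_
    intro w hw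
    exact mem_centralizer_iff.mpr fun y hy => (mem_centralizer_iff.mp (hTC hy) w hw).symm
  have hTab : ∀ x ∈ T, ∀ y ∈ T, x * y = y * x := fun x hx y hy => mem_centralizer_iff.mp (hTcomm hy) x hx
  have hTexp : ∀ x ∈ T, x ^ p = 1 := by
    let V : Subgroup G :=
      { carrier := {x | x ∈ T ∧ x ^ p = 1}
        one_mem' := ⟨one_mem _, one_pow p⟩
        mul_mem' := fun {a b} ha hb => ⟨mul_mem ha.1 hb.1, by
          have : Commute a b := hTab a ha.1 b hb.1
          rw [this.mul_pow, ha.2, hb.2, one_mul]⟩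
        inv_mem' := fun {a} ha => ⟨inv_mem ha.1, by rw [inv_pow, ha.2, inv_one]⟩ }
    haveI hVn : V.Normal := ⟨fun x hx g => ⟨(inferInstance : T.Normal).conj_mem _ hx.1 _, by rw [conj_pow, hx.2, mul_one, mul_inv_cancel]⟩⟩
    have h1 : T ≤ V := Subgroup.normalClosure_le_normal fun w hw => ⟨hWT hw, hWe.2 w hw⟩
    exact fun x hx => (h1 hx).2
  have hTe : Cfsg.IsElementaryAbelian p T := ThompsonJ.ea_iff.mpr ⟨hTab, hTexp⟩
  have hTst := hst1 T hTe
  haveI : (Cfsg.pCore p (G ⧸ centralizer (T : Set G))).Normal := Cores.pCore_normal p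
  -- Step 3
  have h3 : ∀ a ∈ (S : Subgroup G), ⁅⁅T, zpowers a⁆, zpowers a⁆ = ⊥ → a ∈ centralizer (T : Set G) := by
    intro a ha haq
    have haC := hTst a haq
    have h4 : T ≤ centralizer {a} := by
      rw [hT, Subgroup.normalClosure, Subgroup.closure_le]
      intro v hv
      rw [Group.mem_conjugatesOfSet_iff] at hv
      obtain ⟨w, hw, hwv⟩ := hv
      rw [isConj_iff] at hwv
      obtain ⟨g, rfl⟩ := hwv
      rw [SetLike.mem_coe, mem_centralizer_singleton_iff]
      obtain ⟨k, hk⟩ := S.2 ⟨a, ha⟩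
      obtain ⟨c, hc', hcS⟩ := exists_conj_mem (V := T) S (x := g⁻¹ * a * g) (by
        refine ⟨k, ?_⟩
        have : (g⁻¹ * a * g) = g⁻¹ * a * (g⁻¹)⁻¹ := by rw [inv_inv]
        have hk' : a ^ p ^ k = 1 := congrArg Subtype.val hk
        rw [this, conj_pow, hk', mul_one, mul_inv_cancel]) (by
        have h1 := this.conj_mem _ haC (QuotientGroup.mk g⁻¹)
        rw [← QuotientGroup.mk_mul, ← QuotientGroup.mk_inv, ← QuotientGroup.mk_mul, inv_inv] at h1
        exact h1)
      set y := c * (g⁻¹ * a * g) * c⁻¹ with hy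
      have hyq : ⁅⁅Wc p (S : Subgroup G), zpowers y⁆, zpowers y⁆ = ⊥ := by
        apply quad_mono hWT
        have e1 : y = (MulAut.conj (c * g⁻¹)).toMonoidHom a := by
          show y = (c * g⁻¹) * a * (c * g⁻¹)⁻¹
          rw [hy]; group
        have e2 : T.map (MulAut.conj (c * g⁻¹)).toMonoidHom = T := Subgroup.Normal.map_conj_eq _ _
        have e3 := map_quad (MulAut.conj (c * g⁻¹)).toMonoidHom T a
        rw [e2, haq, Subgroup.map_bot] at e3
        rw [e1]; exact e3.symm
      have h5 := Wc_no_quad S.2 hcS hyq hw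
      rw [mem_centralizer_singleton_iff] at h5
      have h6 : w * c = c * w := mem_centralizer_iff.mp hc' _ (hWT hw)
      have h7 : c⁻¹ * y * c * w = w * (c⁻¹ * y * c) := by
        calc c⁻¹ * y * c * w = c⁻¹ * y * (c * w) := by group
          _ = c⁻¹ * y * (w * c) := by rw [h6]
          _ = c⁻¹ * (y * w) * c := by group
          _ = c⁻¹ * (w * y) * c := by rw [h5]
          _ = c⁻¹ * (w * c) * (c⁻¹ * y * c) := by group
          _ = c⁻¹ * (c * w) * (c⁻¹ * y * c) := by rw [h6]
          _ = w * (c⁻¹ * y * c) := by group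
      have h8 : a = g * (c⁻¹ * y * c) * g⁻¹ := by rw [hy]; group
      rw [h8]
      calc g * w * g⁻¹ * (g * (c⁻¹ * y * c) * g⁻¹) = g * (w * (c⁻¹ * y * c)) * g⁻¹ := by group
        _ = g * (c⁻¹ * y * c * w) * g⁻¹ := by rw [h7]
        _ = g * (c⁻¹ * y * c) * g⁻¹ * (g * w * g⁻¹) := by group
    rw [mem_centralizer_iff]
    intro v hv
    have := h4 hv
    rwa [mem_centralizer_singleton_iff] at this
  -- Step 4
  have h4 : Cfsg.thompsonSubgroupOf p (S : Subgroup G) ≤ centralizer (T : Set G) := by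
    rw [ThompsonJ.J_eq]
    refine sSup_le fun A hA => ?_
    by_contra hne
    have hne' : ⁅T, A⁆ ≠ ⊥ := by
      rw [Ne, Coprime.commutator_eq_bot_iff_le_centralizer']; exact hne
    obtain ⟨hA1, hA2, hA3⟩ := QuadC.replacement (hTO.trans hOS) hTe (by rw [normalizer_eq_top]; exact le_top) hA
    apply hA3 hne'
    rw [Coprime.commutator_eq_bot_iff_le_centralizer']
    intro a ha
    apply h3 a (hA1.1 ha)
    rw [eq_bot_iff, ← hA2]
    exact commutator_mono (commutator_mono le_rfl (zpowers_le.mpr ha)) (zpowers_le.mpr ha)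
  -- Step 5
  set J := Cfsg.thompsonSubgroupOf p (S : Subgroup G) with hJ
  set C := centralizer (T : Set G) with hC
  have h5 : normalizer (((S : Subgroup G) ⊓ C : Subgroup G) : Set G) ≤ normalizer (J : Set G) := by
    have h6 : Cfsg.thompsonSubgroupOf p ((S : Subgroup G) ⊓ C) = J := by
      rw [hJ, ThompsonJ.J_eq, ThompsonJ.J_eq]
      rw [maxEA_eq_of_le (X := (S : Subgroup G)) (Y := (S : Subgroup G) ⊓ C) ?_ inf_le_left]
      intro A hA
      refine le_inf hA.1 (le_trans ?_ h4)
      rw [hJ, ThompsonJ.J_eq]; exact le_sSup hA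
    rw [← h6]
    exact ThompsonP.normalizer_le_J p _
  -- Step 6
  have hSN : (S : Subgroup G) ≤ normalizer (J : Set G) := le_normalizer.trans (ThompsonP.normalizer_le_J p _)
  have h6 : normalizer (J : Set G) ≤ normalizer (W : Set G) := by
    set N := normalizer (J : Set G) with hN
    let τ : (S : Subgroup G) →* N := inclusion hSN
    have hcomp : N.subtype.comp τ = (S : Subgroup G).subtype := by ext; rfl
    have hON : O.subgroupOf N ≤ Cfsg.pCore p N := by
      apply Cores.le_pCore
      · exact hOn.subgroupOf N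
      · exact hOp.comap_of_injective _ N.subtype_injective
    have hstab : Cfsg.IsStableEmbedding p τ := by
      refine ⟨inclusion_injective hSN, inferInstance, ?_, ?_, ?_, ?_⟩
      · refine ⟨S.subtype hSN, ?_⟩
        ext x
        constructor
        · intro hx
          exact ⟨⟨x.1, hx⟩, rfl⟩
        · rintro ⟨y, rfl⟩
          exact y.2
      · intro x hx
        apply hON
        have : (x : G) ∈ centralizer (O : Set G) := by
          rw [mem_centralizer_iff]
          intro y hy
          have h7 := mem_centralizer_iff.mp hx ⟨y, hSN (hOS hy)⟩ (hON hy)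
          exact congrArg Subtype.val h7
        exact hc this
      · have h7 : ((Cfsg.thompsonSubgroup p ↥(S : Subgroup G)).map τ).map N.subtype = J := by
          rw [Subgroup.map_map, hcomp]; rfl
        have h8 : (Cfsg.thompsonSubgroup p ↥(S : Subgroup G)).map τ = J.subgroupOf N := by
          apply Subgroup.map_injective N.subtype_injective
          rw [h7, map_subgroupOf_eq_of_le le_normalizer]
        rw [h8]
        exact normal_in_normalizer
      · intro V _ hV
        apply hst3 S V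
        rw [← hcomp, ← Subgroup.map_map]
        exact map_mono hV
    have h7 := normal_of_stable hstab
    have h8 : ((Cfsg.stableNormalClosure p ↥(S : Subgroup G)).map τ).map N.subtype = W := by
      rw [Subgroup.map_map, hcomp]; rfl
    rw [← h8]
    have h9 := Subgroup.le_normalizer_map N.subtype (H := (Cfsg.stableNormalClosure p ↥(S : Subgroup G)).map τ)
    rw [Subgroup.normalizer_eq_top, ← MonoidHom.range_eq_map, range_subtype] at h9
    exact h9
  -- Step 7
  rw [← normalizer_eq_top_iff, eq_top_iff]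
  intro g _
  obtain ⟨c, hc', n, hn, rfl⟩ := frattini_inf C S g
  refine mul_mem ?_ (h6 (h5 hn))
  exact centralizer_le_normalizer _ (centralizer_le hWT hc')

end Cfsg.Agent.Lib.StabClB
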