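import Cfsg.Agent.Lib.QPairC
import Cfsg.Prelude.Def_PLocal
import Cfsg.Agent.Lib.StabClB
import Cfsg.Agent.Lib.Nilp

/-!
`p`-stable actions from the absence of `SL₂(p)` sections.
-/

set_option autoImplicit false
set_option linter.unusedSectionVars false
set_option linter.unusedVariables false
set_option linter.style.haveILetI false

namespace Cfsg.Agent.Lib.QPairD

open Cfsg Cfsg.Agent.Lib.DickA Cfsg.Agent.Lib.DickB Cfsg.Agent.Lib.DickC Cfsg.Agent.Lib.DickD Cfsg.Agent.Lib.Involve
open Cfsg.Agent.Lib.QdA Cfsg.Agent.Lib.QdB Cfsg.Agent.Lib.QPairA Cfsg.Agent.Lib.QPairB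
open scoped commutatorElement

universe u v

variable {p : ℕ} [Fact p.Prime]

/-- non-faithful version -/
theorem stableOn_of (hp : p ≠ 2) {X : Type v} [Group X] [Finite X] {V : Subgroup X} [hVn : V.Normal]
    (hV : Cfsg.IsElementaryAbelian p V) (h : ¬ IsPStableOn p V) : Involves (S (ZMod p)) X := by
  classical
  unfold IsPStableOn at h
  push Not at h
  obtain ⟨a, hq, hna⟩ := h
  set C := Subgroup.centralizer (V : Set X) with hC
  have h1 : ∃ n : X ⧸ C, ¬ IsPGroup p (Subgroup.closure {(QuotientGroup.mk' C a), n * (QuotientGroup.mk' C a) * n⁻¹}) := by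
    by_contra hcon
    push Not at hcon
    exact hna (Cfsg.Agent.Lib.BaerSuzuki.mem_pCore hcon)
  obtain ⟨n, hn⟩ := h1
  obtain ⟨n, rfl⟩ := QuotientGroup.mk'_surjective C n
  have hb : ⁅⁅V, Subgroup.zpowers (n * a * n⁻¹)⁆, Subgroup.zpowers (n * a * n⁻¹)⁆ = ⊥ := by
    have e1 : Subgroup.zpowers (n * a * n⁻¹) = (Subgroup.zpowers a).map (MulAut.conj n).toMonoidHom := by
      rw [MonoidHom.map_zpowers]; rfl
    have e2 : V.map (MulAut.conj n).toMonoidHom = V := by
      ext v
      constructor
      · rintro ⟨w, hw, rfl⟩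
        exact hVn.conj_mem w hw n
      · intro hv
        refine ⟨n⁻¹ * v * n, ?_, ?_⟩
        · have := hVn.conj_mem v hv n⁻¹
          rwa [inv_inv] at this
        · change n * (n⁻¹ * v * n) * n⁻¹ = v
          group
    rw [e1]
    nth_rewrite 1 [← e2]
    rw [← Subgroup.map_commutator, ← Subgroup.map_commutator, hq, Subgroup.map_bot]
  have hall : ∀ x : X, x ∈ Subgroup.normalizer (V : Set X) := fun x => by
    rw [Subgroup.normalizer_eq_top_iff.2 hVn]; trivial
  obtain ⟨K, f, hK, hf'⟩ := pair_section hp hV (hall a) (hall (n * a * n⁻¹)) hq hb (by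
    by_contra hcon
    push Not at hcon
    refine hn ?_
    rintro ⟨g, hg⟩
    have h3 : (Subgroup.closure {a, n * a * n⁻¹}).map (QuotientGroup.mk' C) =
        Subgroup.closure {(QuotientGroup.mk' C a), (QuotientGroup.mk' C n) * (QuotientGroup.mk' C a) * (QuotientGroup.mk' C n)⁻¹} := by
      rw [MonoidHom.map_closure, Set.image_pair, map_mul, map_mul, map_inv]
    rw [← h3] at hg
    obtain ⟨x, hx, rfl⟩ := hg
    obtain ⟨k, hk⟩ := hcon _ hx
    refine ⟨k, Subtype.ext ?_⟩
    change (QuotientGroup.mk' C x) ^ p ^ k = 1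
    rw [← map_pow]
    exact (QuotientGroup.eq_one_iff _).2 hk)
  exact involves_iff.2 ⟨K, f, hf'⟩

/-- stability on a section from stability on the image in the quotient -/
theorem stableOnSection_of {X : Type v} [Group X] [Finite X] {K N : Subgroup X} [hN : N.Normal] [hKn : (K.map (QuotientGroup.mk' N)).Normal]
    (h : IsPStableOn p (K.map (QuotientGroup.mk' N))) : IsPStableOnSection p K N := by
  intro a ha
  set π := QuotientGroup.mk' N with hπ
  have hπs : Function.Surjective π := QuotientGroup.mk'_surjective N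
  set V := K.map π with hV
  set C := Subgroup.centralizer (V : Set (X ⧸ N)) with hC
  have h1 : ⁅⁅V, Subgroup.zpowers (π a)⁆, Subgroup.zpowers (π a)⁆ = ⊥ := by
    have e1 : Subgroup.zpowers (π a) = (Subgroup.zpowers a).map π := by rw [MonoidHom.map_zpowers]
    rw [e1, hV, ← Subgroup.map_commutator, ← Subgroup.map_commutator, Subgroup.map_eq_bot_iff, QuotientGroup.ker_mk']
    exact ha
  have h2 := h (π a) h1
  set ρ := QuotientGroup.mk' C with hρ
  have hρs : Function.Surjective ρ := QuotientGroup.mk'_surjective C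
  have hk : sectionKernel K N = (ρ.comp π).ker := by
    unfold sectionKernel
    rw [← MonoidHom.comap_ker, QuotientGroup.ker_mk']
  refine ⟨(pCore p ((X ⧸ N) ⧸ C)).comap (ρ.comp π), ?_, ?_, ?_, h2⟩
  · haveI : (pCore p ((X ⧸ N) ⧸ C)).Normal := inferInstance
    infer_instance
  · rw [hk]
    exact Subgroup.ker_le_comap _ _
  · have hp : IsPGroup p (pCore p ((X ⧸ N) ⧸ C)) := Cfsg.Agent.Lib.Cores.pCore_isPGroup p
    obtain ⟨k, hk'⟩ := IsPGroup.iff_card.1 hp
    refine ⟨k, ?_⟩
    have e2 : (ρ.comp π).ker = (⊥ : Subgroup ((X ⧸ N) ⧸ C)).comap (ρ.comp π) := (MonoidHom.comap_bot _).symm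
    rw [hk, e2, Subgroup.relIndex_comap, Subgroup.map_comap_eq_self_of_surjective (show Function.Surjective (ρ.comp π) from hρs.comp hπs), Subgroup.relIndex_bot_left]
    exact hk'

theorem actionPStable_of (hp : p ≠ 2) {G : Type v} [Group G] [Finite G] (hno : ¬ Involves (S (ZMod p)) G) :
    IsActionPStable p G := by
  classical
  refine ⟨fun V _ hV => by_contra (fun h => hno (stableOn_of hp hV h)), ?_, ?_⟩
  · set P := pCore p G with hP
    have hPp : IsPGroup p P := Cfsg.Agent.Lib.Cores.pCore_isPGroup p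
    set N := (frattini P).map P.subtype with hN
    have hea : IsElementaryAbelian p (P.map (QuotientGroup.mk' N)) := by
      rw [Cfsg.Agent.Lib.ThompsonJ.ea_iff]
      constructor
      · rintro _ ⟨x, hx, rfl⟩ _ ⟨y, hy, rfl⟩
        rw [← commutatorElement_eq_one_iff_mul_comm, ← map_commutatorElement]
        refine (QuotientGroup.eq_one_iff _).2 ?_
        have h1 := Cfsg.Agent.Lib.Nilp.commutator_le_frattini hPp
        have h2 : ⁅(⟨x, hx⟩ : P), (⟨y, hy⟩ : P)⁆ ∈ frattini P := by
          refine h1 ?_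
          rw [_root_.commutator_def]
          exact Subgroup.commutator_mem_commutator (Subgroup.mem_top _) (Subgroup.mem_top _)
        exact ⟨_, h2, rfl⟩
      · rintro _ ⟨x, hx, rfl⟩
        rw [← map_pow]
        refine (QuotientGroup.eq_one_iff _).2 ?_
        exact ⟨_, Cfsg.Agent.Lib.Nilp.pow_mem_frattini hPp ⟨x, hx⟩, rfl⟩
    haveI : (P.map (QuotientGroup.mk' N)).Normal := Subgroup.Normal.map inferInstance _ (QuotientGroup.mk'_surjective N)
    refine stableOnSection_of (by_contra fun h => hno (involves_trans (stableOn_of hp hea h) (involves_quot N)))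
  · intro S V _ hV
    refine by_contra fun h => hno (involves_trans (stableOn_of hp ?_ h) (involves_subgroup _))
    have h1 : IsElementaryAbelian p (V.map (Subgroup.normalizer (thompsonSubgroupOf p (S : Subgroup G) : Set G)).subtype) :=
      Cfsg.Agent.Lib.ThompsonJ.ea_mono (Cfsg.Agent.Lib.ThompsonJ.ea_map Cfsg.Agent.Lib.StabCl.ea_oct _) hV
    have h2 := Cfsg.Agent.Lib.ThompsonJ.ea_comap h1 (Subgroup.normalizer (thompsonSubgroupOf p (S : Subgroup G) : Set G)).subtype (Subgroup.subtype_injective _)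
    rwa [Subgroup.comap_map_eq_self_of_injective (Subgroup.subtype_injective _)] at h2

theorem not_involves_of_pSolvable (hp : 5 ≤ p) {G : Type v} [Group G] [Finite G] (h : IsPSolvable p G) :
    ¬ Involves (S (ZMod p)) G := by
  intro hi
  obtain ⟨K, f, hf⟩ := involves_iff.1 hi
  exact QPairC.not_pSolvable hp (PSol.of_surjective (PSol.subgroup h K) f hf)

theorem not_involves_of_sylow (hp : p ≠ 2) {G : Type v} [Group G] [Finite G] (h : ∀ T : Sylow 2 G, IsMulCommutative T) :
    ¬ Involves (S (ZMod p)) G := by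
  intro hi
  obtain ⟨K, f, hf⟩ := involves_iff.1 hi
  obtain ⟨Q, hQ, x, hx, y, hy, hxy⟩ := QPairC.exists_nonabelian (p := p) hp
  have h2 : Involves Q G := involves_trans (involves_subgroup Q) hi
  obtain ⟨T⟩ : Nonempty (Sylow 2 G) := inferInstance
  have h3 := involves_sylow hQ h2 T
  obtain ⟨R, g, hg⟩ := involves_iff.1 h3
  obtain ⟨r, hr⟩ := hg ⟨x, hx⟩
  obtain ⟨s, hs⟩ := hg ⟨y, hy⟩
  have h4 : r * s = s * r := Subtype.ext ((h T).is_comm.comm _ _)
  have h5 := congrArg g h4
  rw [map_mul, map_mul, hr, hs] at h5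
  exact hxy (congrArg Subtype.val h5)

end Cfsg.Agent.Lib.QPairD
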