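import Cfsg.Agent.Lib.ZJe
import Cfsg.Agent.Lib.QdF
import Cfsg.Agent.Lib.QPairD

/-!
`Z(J(P))`, elementary abelian version, as a functor: normal `p`-complements and control of fusion.
-/

set_option autoImplicit false
set_option linter.unusedSectionVars false
set_option linter.unusedVariables false

namespace Cfsg.Agent.Lib.ZJeB

open Subgroup Cfsg.Agent.Lib Cfsg.Agent.Lib.Involve Cfsg.Agent.Lib.SylRel
open scoped commutatorElement Pointwise

universe u

variable {G : Type u} [Group G]

theorem J_map_of_inj {H : Type u} [Group H] [Finite H] {p : ℕ} (f : G →* H) (hf : Function.Injective f) (X : Subgroup G) :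
    (Cfsg.thompsonSubgroupOf p X).map f = Cfsg.thompsonSubgroupOf p (X.map f) := by
  have hf' : ∀ x ∈ X, f x = 1 → x = 1 := fun x _ hx => hf (by rw [hx, map_one])
  rw [ZJe.J_eq, ZJe.J_eq]
  apply le_antisymm
  · rw [map_le_iff_le_comap]
    refine sSup_le fun A hA => ?_
    rw [← map_le_iff_le_comap]
    exact le_sSup (PStabZ.fam_map_of_inj hf' hA)
  · refine sSup_le fun B hB => ?_
    have h1 := PStabZ.fam_comap_of_inj hf' hB
    have h2 := map_mono (f := f) (le_sSup h1)
    rwa [PStabZ.map_comap_inf hB.1] at h2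

theorem map_inf_centralizer {H : Type u} [Group H] (f : G →* H) (hf : Function.Injective f) (X : Subgroup G) :
    (X ⊓ centralizer (X : Set G)).map f = X.map f ⊓ centralizer ((X.map f : Subgroup H) : Set H) := by
  ext y
  constructor
  · rintro ⟨x, hx, rfl⟩
    refine mem_inf.mpr ⟨mem_map_of_mem f (mem_inf.mp hx).1, mem_centralizer_iff.mpr ?_⟩
    rintro _ ⟨z, hz, rfl⟩
    rw [← map_mul, mem_centralizer_iff.mp (mem_inf.mp hx).2 z hz, map_mul]
  · intro hy
    obtain ⟨⟨x, hx, rfl⟩, hc⟩ := mem_inf.mp hy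
    refine ⟨x, mem_inf.mpr ⟨hx, mem_centralizer_iff.mpr fun z hz => hf ?_⟩, rfl⟩
    rw [map_mul, map_mul]
    exact mem_centralizer_iff.mp hc _ (mem_map_of_mem f hz)

theorem Zc_map_of_inj {H : Type u} [Group H] [Finite H] {p : ℕ} (f : G →* H) (hf : Function.Injective f) (X : Subgroup G) :
    (Cfsg.centerThompsonOf p X).map f = Cfsg.centerThompsonOf p (X.map f) := by
  unfold Cfsg.centerThompsonOf
  rw [map_inf_centralizer f hf, J_map_of_inj f hf]

theorem Zc_ne_bot [Finite G] {p : ℕ} [hp : Fact p.Prime] {X : Subgroup G} (hX : IsPGroup p X) (h : X ≠ ⊥) :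
    Cfsg.centerThompsonOf p X ≠ ⊥ := by
  have h1 : ZJ.Zf p X ≤ Cfsg.centerThompsonOf p X := by
    intro z hz
    obtain ⟨A, hA⟩ := ZJ.exists_fam p X
    refine mem_inf.mpr ⟨ZJe.le_J hA (ZJ.Zf_le_of_mem hA hz), ?_⟩
    rw [ZJe.J_eq, mem_centralizer_iff]
    intro x hx
    have h2 : sSup (ZJ.Fam p X) ≤ centralizer {z} := by
      refine sSup_le fun B hB => ?_
      intro b hb
      rw [mem_centralizer_singleton_iff]
      exact hB.2.1.1 b hb z (ZJ.Zf_le_of_mem hB hz)
    exact mem_centralizer_singleton_iff.mp (h2 hx)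
  have h2 : ZJ.Zf p X ≠ ⊥ := by
    -- a central element of order `p`
    haveI : Nontrivial X := (nontrivial_iff_ne_bot X).mpr h
    haveI := hX.center_nontrivial
    obtain ⟨k, hk, hk1⟩ := (IsPGroup.nontrivial_iff_card (hX.to_subgroup (center X))).mp inferInstance
    obtain ⟨x, hx⟩ := exists_prime_orderOf_dvd_card' (G := center X) p (by rw [hk1]; exact dvd_pow_self p hk.ne')
    intro hbot
    have h3 : ((x : X) : G) ∈ ZJ.Zf p X := by
      refine mem_sInf.mpr fun A hA => ZJe.mem_of_cent hA (x : X).2 ?_ ?_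
      · have := pow_orderOf_eq_one x
        rw [hx] at this
        exact congrArg (fun z : center X => ((z : X) : G)) this
      · rw [mem_centralizer_iff]
        intro a ha
        have := mem_center_iff.mp x.2 ⟨a, hA.1 ha⟩
        exact congrArg Subtype.val this
    rw [hbot, mem_bot] at h3
    have h4 : x = 1 := Subtype.ext (Subtype.ext h3)
    rw [h4, orderOf_one] at hx
    exact hp.out.one_lt.ne hx
  intro h3
  rw [h3, le_bot_iff] at h1
  exact h2 h1

theorem isCharPFunctor (p : ℕ) [Fact p.Prime] : Cfsg.IsCharPFunctor.{u} p (fun Q _ => Cfsg.centerThompsonOf p (⊤ : Subgroup Q)) := by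
  refine ⟨fun Q _ _ hQ hn => ?_, fun Q R _ _ _ hQ φ => ?_⟩
  · exact Zc_ne_bot (hQ.to_subgroup _) top_ne_bot
  · haveI : Finite R := Finite.of_equiv _ φ.toEquiv
    show (Cfsg.centerThompsonOf p (⊤ : Subgroup Q)).map φ.toMonoidHom = _
    rw [Zc_map_of_inj _ φ.injective, map_top_of_surjective _ φ.surjective]

theorem induced_eq [Finite G] {p : ℕ} (S : Subgroup G) :
    Cfsg.inducedFunctor (G := G) (fun Q _ => Cfsg.centerThompsonOf p (⊤ : Subgroup Q)) S = Cfsg.centerThompsonOf p S := by
  unfold Cfsg.inducedFunctor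
  have := Zc_map_of_inj (p := p) S.subtype S.subtype_injective ⊤
  rw [this, ← MonoidHom.range_eq_map, range_subtype]

/-- Glauberman–Thompson, `p` odd -/
theorem pNil_of_zje [Finite G] {p : ℕ} [hp : Fact p.Prime] (hp2 : p ≠ 2) (P : Sylow p G)
    (h : PNilp.PNil p (normalizer (Cfsg.centerThompsonOf p (P : Subgroup G) : Set G))) : PNilp.PNil p G := by
  refine PNInd.PN_ind (isCharPFunctor.{u} p) KThm.closed_true (fun X _ _ _ hc hq S hS hmax => ?_) G trivial P
    (SylRel.sylIn_of_sylow P) (by rw [induced_eq]; exact h)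
  rw [induced_eq]
  obtain ⟨Kb, hKbn, hKbc, k, hk⟩ := hq
  haveI := Cores.pCore_normal (G := X) p
  haveI := hKbn
  set f := QuotientGroup.mk' (Cfsg.pCore p X) with hf
  have hfs : Function.Surjective f := QuotientGroup.mk'_surjective _
  have hfk : f.ker = Cfsg.pCore p X := QuotientGroup.ker_mk' _
  have hi : ¬ p ∣ S.index := by
    have := hS.not_dvd
    rwa [relIndex_top_right] at this
  have hrel : ((Cfsg.pCore p X).relIndex (Kb.comap f)).Coprime p := by
    have h := Subgroup.relIndex_comap (f := f) ⊥ (Kb.comap f)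
    rw [MonoidHom.comap_bot, map_comap_eq_self_of_surjective hfs, relIndex_bot_left] at h
    have h2 : (Cfsg.pCore p X).relIndex (Kb.comap f) = Nat.card Kb := by
      rw [← h]; exact congrArg (fun z => Subgroup.relIndex z (Kb.comap f)) hfk.symm
    rw [h2]; exact hKbc
  have hst := ZPN.stable_of_max (K := Kb.comap f) hp2 (hS.isPGroup.toSylow hi) hmax
    (hfk.ge.trans (ker_le_comap f Kb)) hrel ⟨k, by rw [index_comap_of_surjective _ hfs, hk]⟩
  exact ZJe.zj_normal hp2 (hS.isPGroup.toSylow hi) hc (fun V _ hV => hst V hV)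

/-- strong fusion is controlled by `N(Z(J(P)))` in `Qd(p)`-free groups -/
theorem fusion [Finite G] {p : ℕ} [hp : Fact p.Prime] (hp2 : p ≠ 2) (hfree : ¬ Involves (Cfsg.qd p) G) (P : Sylow p G) {A : Set G}
    (hA : A ⊆ (P : Subgroup G)) {g : G} (hg : (fun a => g * a * g⁻¹) '' A ⊆ (P : Subgroup G)) :
    ∃ n ∈ normalizer (Cfsg.centerThompsonOf p (P : Subgroup G) : Set G), ∀ a ∈ A, n * a * n⁻¹ = g * a * g⁻¹ := by
  have hfs := QdF.fs_gen (p := p) (isCharPFunctor.{u} p) (fun X _ _ hst hc S hS => by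
    rw [induced_eq]
    have hi : ¬ p ∣ S.index := by
      have := hS.not_dvd
      rwa [relIndex_top_right] at this
    exact ZJe.zj_normal hp2 (hS.isPGroup.toSylow hi) hc (fun V _ hV => QdF.stableOn hst V hV))
    (PStab.sec_stable fun K R _ => QdF.stable_of_free hp2 (QdF.free_sec hfree K R))
  have h1 := hfs _ (sylIn_of_sylow P) (Subgroup.closure A) g ((Subgroup.closure_le _).2 hA) (by
      rw [MonoidHom.map_closure, Subgroup.closure_le]; exact hg)
  rw [CSecC.nw_singleton, induced_eq] at h1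
  obtain ⟨x, hx, h2⟩ := CSecC.fdec_single h1
  exact ⟨x, hx, fun a ha => (h2 a (Subgroup.subset_closure ha))⟩

end Cfsg.Agent.Lib.ZJeB
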