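import Mathlib
set_option autoImplicit false

namespace Cfsg.Agent.Lib.CyclicExt

universe u v

/-- **Cyclic extensions** (Hölder): for an endomorphism `β` of `N` fixing `u` with `β^n` the
conjugation by `u`, there is a group `Γ` containing `N` and an element `B` acting as `β` on `N`
with `B ^ n = u`, `N ∩ ⟨B⟩ = ⟨u⟩`, universal with these properties. -/
theorem exists_cyclic_ext {N : Type u} [Group N] (β : N →* N) (n : ℕ) (hn : 0 < n)
    (u : N) (hβu : β u = u) (hβ : ∀ x, β^[n] x = u * x * u⁻¹) :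
    ∃ (Γ : Type u) (_ : Group Γ) (ι : N →* Γ) (B : Γ), Function.Injective ι ∧
      (∀ x, B * ι x * B⁻¹ = ι (β x)) ∧ B ^ n = ι u ∧ ι.range.Normal ∧
      (∀ g : Γ, ∃ (x : N) (i : ℕ), i < n ∧ g = ι x * B ^ i) ∧
      (∀ i : ℕ, B ^ i ∈ ι.range → n ∣ i) ∧
      (∀ (H : Type v) [Group H] (f : N →* H) (b : H), (∀ x, b * f x * b⁻¹ = f (β x)) →
        b ^ n = f u → ∃ F : Γ →* H, (∀ x, F (ι x) = f x) ∧ F B = b) := by
  -- β is bijective
  have hbij : Function.Bijective β := by
    obtain ⟨k, rfl⟩ : ∃ k, n = k + 1 := ⟨n - 1, by omega⟩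
    have hb : Function.Bijective (β^[k + 1]) := by
      have : (β^[k + 1] : N → N) = MulAut.conj u := by
        funext x; rw [hβ, MulAut.conj_apply]
      rw [this]; exact (MulAut.conj u).bijective
    constructor
    · have := hb.1
      rw [Function.iterate_succ] at this
      exact Function.Injective.of_comp this
    · have := hb.2
      rw [Function.iterate_succ'] at this
      exact Function.Surjective.of_comp this
  let b' : MulAut N := MulEquiv.ofBijective β hbij
  have hb' : ∀ x, b' x = β x := fun x => rfl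
  have hb'n : ∀ x, (b' ^ n) x = u * x * u⁻¹ := by
    intro x
    rw [← hβ]
    have : ∀ k : ℕ, (b' ^ k) x = β^[k] x := by
      intro k
      induction k with
      | zero => rfl
      | succ k ih => rw [pow_succ', MulAut.mul_apply, ih, Function.iterate_succ_apply', hb']
    exact this n
  let φ : Multiplicative ℤ →* MulAut N := zpowersHom (MulAut N) b'
  have hφ1 : φ (Multiplicative.ofAdd 1) = b' := by simp [φ]
  have hφn : φ (Multiplicative.ofAdd (n : ℤ)) = b' ^ n := by simp [φ]
  obtain ⟨il, hil⟩ : ∃ il : N →* N ⋊[φ] Multiplicative ℤ, il = SemidirectProduct.inl := ⟨_, rfl⟩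
  obtain ⟨ir, hir0⟩ : ∃ ir : Multiplicative ℤ →* N ⋊[φ] Multiplicative ℤ,
    ir = SemidirectProduct.inr := ⟨_, rfl⟩
  have hconj : ∀ (k : Multiplicative ℤ) (x : N), ir k * il x * (ir k)⁻¹ = il (φ k x) := by
    intro k x
    rw [← map_inv, hil, hir0]
    exact (SemidirectProduct.inl_aut k x).symm
  obtain ⟨w, hw⟩ : ∃ w, w = il u⁻¹ * ir (Multiplicative.ofAdd (n : ℤ)) := ⟨_, rfl⟩
  have hw1 : ∀ x : N, w * il x * w⁻¹ = il x := by
    intro x
    have : w * il x * w⁻¹ = il u⁻¹ * (ir (Multiplicative.ofAdd (n : ℤ)) * il x *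
      (ir (Multiplicative.ofAdd (n : ℤ)))⁻¹) * (il u⁻¹)⁻¹ := by
      rw [hw]; group
    rw [this, hconj, hφn, hb'n, ← map_mul, ← map_inv, ← map_mul]
    congr 1
    group
  have hir : ∀ k : ℤ, ir (Multiplicative.ofAdd k) = ir (Multiplicative.ofAdd 1) ^ k := by
    intro k
    rw [← map_zpow, ← ofAdd_zsmul]; simp
  have hw2 : w * ir (Multiplicative.ofAdd 1) * w⁻¹ = ir (Multiplicative.ofAdd 1) := by
    have h1 : ir (Multiplicative.ofAdd 1) * il u⁻¹ * (ir (Multiplicative.ofAdd 1))⁻¹ = il u⁻¹ := by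
      rw [hconj, hφ1, hb', map_inv, hβu]
    have h2 : ir (Multiplicative.ofAdd 1) * il u⁻¹ = il u⁻¹ * ir (Multiplicative.ofAdd 1) := by
      rwa [mul_inv_eq_iff_eq_mul] at h1
    have h3 : w = il u⁻¹ * ir (Multiplicative.ofAdd 1) ^ (n : ℤ) := by
      rw [hw, hir]
    have h4 : Commute (ir (Multiplicative.ofAdd 1)) w := by
      rw [h3]
      exact (show Commute _ _ from h2).mul_right ((Commute.refl _).zpow_right _)
    rw [← h4.eq, mul_inv_cancel_right]
  have hgen : ∀ e : N ⋊[φ] Multiplicative ℤ, ∃ (x : N) (k : ℤ), e = il x * ir (Multiplicative.ofAdd 1) ^ k := by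
    intro e
    refine ⟨e.left, e.right.toAdd, ?_⟩
    rw [← hir, hil, hir0]
    exact (SemidirectProduct.inl_left_mul_inr_right e).symm
  have hwc : ∀ e : N ⋊[φ] Multiplicative ℤ, e * w = w * e := by
    intro e
    obtain ⟨x, k, rfl⟩ := hgen e
    have c1 : Commute (il x) w := by
      have := hw1 x
      rw [mul_inv_eq_iff_eq_mul] at this
      exact this.symm
    have c2 : Commute (ir (Multiplicative.ofAdd 1)) w := by
      have := hw2
      rw [mul_inv_eq_iff_eq_mul] at this
      exact this.symm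
    exact (c1.mul_left (c2.zpow_left k)).eq
  have hnorm : (Subgroup.zpowers w).Normal := by
    constructor
    rintro _ ⟨k, rfl⟩ g
    refine ⟨k, ?_⟩
    have : Commute g (w ^ k) := (show Commute g w from hwc g).zpow_right k
    change w ^ k = g * w ^ k * g⁻¹
    rw [this.eq, mul_inv_cancel_right]
  obtain ⟨q, hq⟩ : ∃ q : (N ⋊[φ] Multiplicative ℤ) →*
    (N ⋊[φ] Multiplicative ℤ) ⧸ Subgroup.zpowers w, q = QuotientGroup.mk' (Subgroup.zpowers w) :=
    ⟨_, rfl⟩
  have hqone : ∀ e, q e = 1 ↔ e ∈ Subgroup.zpowers w := by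
    intro e; rw [hq]; exact QuotientGroup.eq_one_iff e
  have hqs : Function.Surjective q := by rw [hq]; exact QuotientGroup.mk'_surjective _
  have hqw : q w = 1 := (hqone w).mpr (Subgroup.mem_zpowers w)
  have hBn : q (ir (Multiplicative.ofAdd 1)) ^ n = q (il u) := by
    have h5 : q (il u) * q w = q (ir (Multiplicative.ofAdd 1)) ^ n := by
      rw [← map_mul, ← map_pow, ← zpow_natCast (ir (Multiplicative.ofAdd 1)), ← hir]
      congr 1
      rw [hw, ← mul_assoc, ← map_mul, mul_inv_cancel, map_one, one_mul]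
    rw [← h5, hqw, mul_one]
  have hcj : ∀ x, q (ir (Multiplicative.ofAdd 1)) * q (il x) * (q (ir (Multiplicative.ofAdd 1)))⁻¹
      = q (il (β x)) := by
    intro x
    rw [← map_mul, ← map_inv, ← map_mul, hconj, hφ1]
    rfl
  have hrw : ∀ k : ℤ, SemidirectProduct.rightHom (w ^ k) = Multiplicative.ofAdd (n * k) := by
    intro k
    rw [map_zpow, hw, map_mul, hil, hir0]
    rw [SemidirectProduct.rightHom_inl, SemidirectProduct.rightHom_inr, one_mul, ← ofAdd_zsmul,
      smul_eq_mul, mul_comm]
  have hril : ∀ x, SemidirectProduct.rightHom (il x) = 1 := by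
    intro x; rw [hil]; exact SemidirectProduct.rightHom_inl x
  have hrir : ∀ x, SemidirectProduct.rightHom (ir x) = x := by
    intro x; rw [hir0]; exact SemidirectProduct.rightHom_inr x
  have hilinj : Function.Injective il := by rw [hil]; exact SemidirectProduct.inl_injective
  refine ⟨(N ⋊[φ] Multiplicative ℤ) ⧸ Subgroup.zpowers w, inferInstance, q.comp il, q (ir (Multiplicative.ofAdd 1)),
    ?_, hcj, hBn, ?_, ?_, ?_, ?_⟩
  · rw [injective_iff_map_eq_one]
    intro x hx
    have h6 : il x ∈ Subgroup.zpowers w := (hqone _).mp hx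
    obtain ⟨k, hk⟩ := h6
    have h7 := congrArg SemidirectProduct.rightHom hk
    simp only at h7
    rw [hrw, hril] at h7
    have h9 : (n : ℤ) * k = 0 := h7
    have h10 : k = 0 := by
      rcases mul_eq_zero.mp h9 with h | h
      · omega
      · exact h
    rw [h10] at hk
    simp only [zpow_zero] at hk
    exact hilinj (hk.symm.trans (map_one il).symm)
  · constructor
    rintro _ ⟨x, rfl⟩ g
    obtain ⟨e, rfl⟩ := hqs g
    obtain ⟨y, k, rfl⟩ := hgen e
    refine ⟨y * (φ (Multiplicative.ofAdd k) x) * y⁻¹, ?_⟩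
    change q (il _) = q _ * q (il x) * (q _)⁻¹
    rw [← map_mul, ← map_inv, ← map_mul, map_mul il, map_mul il, ← hconj, hir]
    congr 1
    rw [map_inv, mul_inv_rev]; simp only [mul_assoc]
  · intro g
    obtain ⟨e, rfl⟩ := hqs g
    obtain ⟨y, k, rfl⟩ := hgen e
    have hn' : (n : ℤ) ≠ 0 := by omega
    have h1 : k = (k / n) * n + k % n := by rw [Int.ediv_mul_add_emod]
    have h2 : 0 ≤ k % n := Int.emod_nonneg k hn'
    have h3 : k % n < n := Int.emod_lt_of_pos k (by omega)
    refine ⟨y * u ^ (k / n), (k % n).toNat, by omega, ?_⟩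
    change q (il y * ir (Multiplicative.ofAdd 1) ^ k) = q (il (y * u ^ (k / n))) * _
    have h4 : q (ir (Multiplicative.ofAdd 1)) ^ (k % n).toNat =
        q (ir (Multiplicative.ofAdd 1)) ^ (k % n) := by
      rw [← zpow_natCast, Int.toNat_of_nonneg h2]
    rw [h4, map_mul, map_mul, map_mul, map_zpow, map_zpow, map_zpow, ← hBn]
    conv_lhs => rw [h1]
    rw [zpow_add, mul_comm (k / n) (n : ℤ), zpow_mul, zpow_natCast, mul_assoc]
  · intro i hi
    obtain ⟨x, hx⟩ := hi
    have h1 : q ((il x)⁻¹ * ir (Multiplicative.ofAdd 1) ^ i) = 1 := by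
      rw [map_mul, map_inv, map_pow, ← hx]
      exact inv_mul_cancel _
    have h2 := (hqone _).mp h1
    obtain ⟨k, hk⟩ := h2
    have h7 := congrArg SemidirectProduct.rightHom hk
    simp only at h7
    rw [hrw, map_mul SemidirectProduct.rightHom, map_inv, map_pow, hril, hrir, inv_one, one_mul,
      ← ofAdd_nsmul] at h7
    have h10 : (n : ℤ) * k = i • (1 : ℤ) := h7
    rw [nsmul_eq_mul, mul_one] at h10
    exact Int.natCast_dvd_natCast.mp ⟨k, h10.symm⟩
  · intro H _ f b hf hbn
    let g : Multiplicative ℤ →* H := zpowersHom H b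
    have hg1 : g (Multiplicative.ofAdd 1) = b := by simp [g]
    have hcomp : ∀ k : Multiplicative ℤ, f.comp (φ k).toMonoidHom =
        (MulAut.conj (g k)).toMonoidHom.comp f := by
      have h1 : ∀ x : N, f (b' x) = b * f x * b⁻¹ := fun x => (hf x).symm
      have h2 : ∀ x : N, f (b'⁻¹ x) = b⁻¹ * f x * b := by
        intro x
        have := h1 (b'⁻¹ x)
        rw [MulAut.apply_inv_self] at this
        rw [this]; group
      suffices hh : ∀ j : ℤ, f.comp (φ (Multiplicative.ofAdd j)).toMonoidHom =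
        (MulAut.conj (g (Multiplicative.ofAdd j))).toMonoidHom.comp f from
        fun k => hh (Multiplicative.toAdd k)
      intro j
      have h3 : φ (Multiplicative.ofAdd j) = b' ^ j := by simp [φ]
      have h4 : g (Multiplicative.ofAdd j) = b ^ j := by simp [g]
      refine MonoidHom.ext fun x => ?_
      change f (φ (Multiplicative.ofAdd j) x) = g (Multiplicative.ofAdd j) * f x *
        (g (Multiplicative.ofAdd j))⁻¹
      rw [h3, h4]
      clear h3 h4
      induction j using Int.induction_on generalizing x with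
      | zero => simp
      | succ i ih =>
        rw [zpow_add_one, MulAut.mul_apply, ih, h1, zpow_add_one]
        group
      | pred i ih =>
        rw [zpow_sub_one, MulAut.mul_apply, ih, h2, zpow_sub_one]
        group
    let L : (N ⋊[φ] Multiplicative ℤ) →* H := SemidirectProduct.lift f g hcomp
    have hLl : ∀ x, L (il x) = f x := by
      intro x; rw [hil]; exact SemidirectProduct.lift_inl _ _ _ _
    have hLr : ∀ x, L (ir x) = g x := by
      intro x; rw [hir0]; exact SemidirectProduct.lift_inr _ _ _ _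
    have hLw : L w = 1 := by
      rw [hw, map_mul, hLl, hLr, map_inv, ← hbn]
      have : g (Multiplicative.ofAdd (n : ℤ)) = b ^ n := by simp [g]
      rw [this, inv_mul_cancel]
    have hker : Subgroup.zpowers w ≤ L.ker := by
      rw [Subgroup.zpowers_le]; exact hLw
    subst hq
    refine ⟨QuotientGroup.lift _ L hker, fun x => hLl x, ?_⟩
    change L (ir (Multiplicative.ofAdd 1)) = b
    rw [hLr, hg1]

end Cfsg.Agent.Lib.CyclicExt
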