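import Cfsg.Agent.Lib.RankTwoB
import Cfsg.Agent.Lib.CFunA

/-!
Huppert's criterion.
-/

set_option autoImplicit false
set_option linter.unusedSectionVars false
set_option linter.unusedVariables false

namespace Cfsg.Agent.Lib.RankTwoC

open Subgroup Cfsg.Agent.Lib Cfsg.Agent.Lib.PGrpA Cfsg.Agent.Lib.PGrpB Cfsg.Agent.Lib.PGrpE Cfsg.Agent.Lib.ClThree
  Cfsg.Agent.Lib.RankTwo Cfsg.Agent.Lib.RankTwoB
open scoped commutatorElement

universe u v

variable {G : Type u} [Group G]

theorem zpow_mem_of_not {p : ℕ} [hp : Fact p.Prime] {c : G} {m : ℕ} (hc : orderOf c = p ^ m) {k : ℤ} (hk : ¬ (p : ℤ) ∣ k) :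
    c ∈ zpowers (c ^ k) := by
  have h1 : IsCoprime k ((p : ℤ) ^ m) := by
    apply IsCoprime.pow_right
    exact ((Nat.prime_iff_prime_int.mp hp.out).coprime_iff_not_dvd.mpr hk).symm
  obtain ⟨u, v, huv⟩ := h1
  refine ⟨u, ?_⟩
  change (c ^ k) ^ u = c
  rw [← zpow_mul]
  have h2 : c ^ ((p : ℤ) ^ m) = 1 := by
    have := pow_orderOf_eq_one c
    rw [hc] at this
    rw [← zpow_natCast] at this
    push_cast at this
    exact this
  have h3 : k * u = 1 + (p : ℤ) ^ m * (-v) := by linarith [huv, mul_comm u k, mul_comm v ((p : ℤ) ^ m)]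
  rw [h3, zpow_add, zpow_one, zpow_mul, h2, one_zpow, mul_one]

/-- the characteristic subgroup `[G', G] (G')^p` -/
def KK (p : ℕ) (G : Type*) [Group G] : Subgroup G :=
  ⁅_root_.commutator G, (⊤ : Subgroup G)⁆ ⊔ closure {x : G | ∃ g ∈ _root_.commutator G, x = g ^ p}

instance KK_normal (p : ℕ) : (KK p G).Normal := by
  unfold KK
  haveI : (closure {x : G | ∃ g ∈ _root_.commutator G, x = g ^ p}).Normal := by
    refine ⟨fun x hx g => ?_⟩
    induction hx using closure_induction with
    | mem x hx =>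
      obtain ⟨y, hy, rfl⟩ := hx
      refine Subgroup.subset_closure ⟨g * y * g⁻¹, (inferInstance : (_root_.commutator G).Normal).conj_mem y hy g, ?_⟩
      rw [conj_pow]
    | one => rw [mul_one, mul_inv_cancel]; exact one_mem _
    | mul a b _ _ ha hb =>
      have : g * (a * b) * g⁻¹ = (g * a * g⁻¹) * (g * b * g⁻¹) := by group
      rw [this]; exact mul_mem ha hb
    | inv a _ ha =>
      have : g * a⁻¹ * g⁻¹ = (g * a * g⁻¹)⁻¹ := by group
      rw [this]; exact inv_mem ha
  infer_instance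

theorem metacyclic_lift [Finite G] {p : ℕ} [hp : Fact p.Prime] (hG : IsPGroup p G) {T : Subgroup G} [T.Normal] (hT : Nat.card T = p)
    (hTc : T ≤ center G) (hTK : T ≤ KK p G) (h : Cfsg.IsMetacyclic (G ⧸ T)) : Cfsg.IsMetacyclic G := by
  obtain ⟨Nb, hNbn, hc1, hc2⟩ := h
  set π := QuotientGroup.mk' T with hπ
  have hπs : Function.Surjective π := QuotientGroup.mk'_surjective T
  set N := Nb.comap π with hN
  haveI hNn : N.Normal := inferInstance
  have hTN : T ≤ N := by
    intro t ht
    change π t ∈ Nb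
    rw [show π t = 1 from (QuotientGroup.eq_one_iff t).mpr ht]
    exact one_mem _
  obtain ⟨bq, hbq⟩ := PGrpF.exists_gen hc1
  obtain ⟨b, hb⟩ := hπs bq
  have hbN : b ∈ N := by
    change π b ∈ Nb
    rw [hb, ← hbq]; exact mem_zpowers _
  have hNgen : ∀ n ∈ N, ∃ (k : ℤ), ∃ t ∈ T, n = b ^ k * t := by
    intro n hn
    have h1 : π n ∈ zpowers bq := by rw [hbq]; exact hn
    obtain ⟨k, hk⟩ := mem_zpowers_iff.mp h1
    rw [← hb, ← map_zpow] at hk
    refine ⟨k, (b ^ k)⁻¹ * n, ?_, by group⟩
    exact QuotientGroup.eq.mp hk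
  have hTcom : ∀ t ∈ T, ∀ g : G, Commute t g := fun t ht g => (mem_center_iff.mp (hTc ht) g).symm
  have hNc : ∀ x ∈ N, ∀ y ∈ N, x * y = y * x := by
    intro x hx y hy
    obtain ⟨k, t, ht, rfl⟩ := hNgen x hx
    obtain ⟨l, s, hs, rfl⟩ := hNgen y hy
    have h1 : Commute (b ^ k) (b ^ l) := Commute.zpow_zpow_self b k l
    exact ((h1.mul_right (hTcom s hs (b ^ k)).symm).mul_left ((hTcom t ht _))).eq
  -- generator of the top quotient
  obtain ⟨aq, haq⟩ := hc2.exists_generator
  obtain ⟨a', rfl⟩ := QuotientGroup.mk'_surjective Nb aq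
  obtain ⟨a, rfl⟩ := hπs a'
  have hGgen : ∀ g : G, ∃ (k : ℤ), ∃ n ∈ N, g = a ^ k * n := by
    intro g
    obtain ⟨k, hk⟩ := mem_zpowers_iff.mp (haq (QuotientGroup.mk' Nb (π g)))
    rw [← map_zpow] at hk
    have h1 := QuotientGroup.eq.mp hk
    refine ⟨k, (a ^ k)⁻¹ * g, ?_, by group⟩
    change π ((a ^ k)⁻¹ * g) ∈ Nb
    rw [map_mul, map_inv, map_zpow]
    exact h1
  set c := ⁅b, a⁆ with hc
  have hφ : ∀ n ∈ N, ∀ m ∈ N, ⁅n * m, a⁆ = ⁅n, a⁆ * ⁅m, a⁆ := by
    intro n hn m hm
    have h1 : n * (m * (a * m⁻¹ * a⁻¹)) = (m * (a * m⁻¹ * a⁻¹)) * n :=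
      hNc _ hn _ (mul_mem hm (hNn.conj_mem _ (inv_mem hm) a))
    have h2 : ⁅n, a⁆ * ⁅m, a⁆ = ⁅m, a⁆ * ⁅n, a⁆ := by
      refine hNc _ ?_ _ ?_
      · rw [_root_.commutatorElement_def, mul_assoc, mul_assoc, ← mul_assoc a]; exact mul_mem hn (hNn.conj_mem _ (inv_mem hn) a)
      · rw [_root_.commutatorElement_def, mul_assoc, mul_assoc, ← mul_assoc a]; exact mul_mem hm (hNn.conj_mem _ (inv_mem hm) a)
    rw [h2]
    calc ⁅n * m, a⁆ = n * (m * (a * m⁻¹ * a⁻¹)) * (a * n⁻¹ * a⁻¹) := by rw [_root_.commutatorElement_def]; group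
      _ = (m * (a * m⁻¹ * a⁻¹)) * n * (a * n⁻¹ * a⁻¹) := by rw [h1]
      _ = ⁅m, a⁆ * ⁅n, a⁆ := by rw [_root_.commutatorElement_def, _root_.commutatorElement_def]; group
  have hφt : ∀ t ∈ T, ⁅t, a⁆ = 1 := fun t ht => commutatorElement_eq_one_iff_mul_comm.mpr (hTcom t ht a).eq
  let φ : N →* G :=
    { toFun := fun n => ⁅(n : G), a⁆
      map_one' := by simp
      map_mul' := fun n m => hφ n n.2 m m.2 }
  have hφc : ∀ n ∈ N, ⁅n, a⁆ ∈ zpowers c := by
    intro n hn
    obtain ⟨k, t, ht, rfl⟩ := hNgen n hn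
    rw [hφ _ (zpow_mem hbN k) _ (hTN ht), hφt t ht, mul_one]
    have h1 : φ (⟨b, hbN⟩ ^ k) = (φ ⟨b, hbN⟩) ^ k := map_zpow _ _ _
    have h2 : φ (⟨b, hbN⟩ ^ k) = ⁅b ^ k, a⁆ := rfl
    rw [← h2, h1]
    exact zpow_mem (mem_zpowers c) k
  have hcN : c ∈ N := by
    rw [hc, _root_.commutatorElement_def, mul_assoc, mul_assoc, ← mul_assoc a]
    exact mul_mem hbN (hNn.conj_mem _ (inv_mem hbN) a)
  set C := zpowers c with hC
  have hCN : C ≤ N := zpowers_le.mpr hcN
  have haC : a ∈ normalizer (C : Set G) := by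
    refine CFunA.mem_normalizer_of_le ?_
    rw [hC, MonoidHom.map_zpowers, zpowers_le]
    change a * c * a⁻¹ ∈ C
    have h1 := hφc c⁻¹ (inv_mem hcN)
    have h2 : a * c * a⁻¹ = c * ⁅c⁻¹, a⁆ := by rw [_root_.commutatorElement_def]; group
    rw [h2]
    exact mul_mem (mem_zpowers c) h1
  haveI hCn : C.Normal := by
    rw [← normalizer_eq_top_iff, eq_top_iff]
    intro g _
    obtain ⟨k, n, hn, rfl⟩ := hGgen g
    refine mul_mem (zpow_mem haC k) ?_
    apply centralizer_le_normalizer
    rw [mem_centralizer_iff]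
    intro x hx
    exact hNc x (hCN hx) n hn
  have hG'C : _root_.commutator G ≤ C := by
    set ρ := QuotientGroup.mk' C with hρ
    have hab : Commute (ρ a) (ρ b) := by
      have h1 : ρ ⁅b, a⁆ = 1 := (QuotientGroup.eq_one_iff _).mpr (mem_zpowers c)
      rw [map_commutatorElement, commutatorElement_eq_one_iff_mul_comm] at h1
      exact h1.symm
    have haN : ∀ n ∈ N, Commute (ρ a) (ρ n) := by
      intro n hn
      obtain ⟨k, t, ht, rfl⟩ := hNgen n hn
      rw [map_mul, map_zpow]
      refine (hab.zpow_right k).mul_right ?_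
      exact ((hTcom t ht a).symm).map ρ
    rw [_root_.commutator_def, commutator_le]
    intro x _ y _
    obtain ⟨k, n, hn, rfl⟩ := hGgen x
    obtain ⟨l, m, hm, rfl⟩ := hGgen y
    refine (QuotientGroup.eq_one_iff _).mp ?_
    change ρ _ = 1
    rw [map_commutatorElement, commutatorElement_eq_one_iff_mul_comm, map_mul, map_mul, map_zpow, map_zpow]
    have h1 : Commute (ρ a ^ k) (ρ a ^ l) := Commute.zpow_zpow_self _ k l
    have h2 : Commute (ρ n) (ρ m) := (show Commute n m from hNc n hn m hm).map ρ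
    exact ((h1.mul_right ((haN m hm).zpow_left k)).mul_left (((haN n hn).zpow_left l).symm.mul_right h2)).eq
  obtain ⟨m, hm⟩ := (IsPGroup.iff_orderOf.mp hG) c
  have hKc : KK p G ≤ zpowers (c ^ p) := by
    unfold KK
    refine sup_le ?_ ?_
    · by_cases hC0 : C = ⊥
      · have : _root_.commutator G = ⊥ := by rw [eq_bot_iff, ← hC0]; exact hG'C
        rw [this, commutator_bot_left]; exact bot_le
      · have h1 : ⁅C, (⊤ : Subgroup G)⁆ < C := CoprimeB.commutator_lt_of_pgroup (hG.to_subgroup C) (hG.to_subgroup _) (by rw [normalizer_eq_top]) hC0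
        refine (commutator_mono hG'C le_rfl).trans ?_
        intro f hf
        obtain ⟨k, rfl⟩ := mem_zpowers_iff.mp (h1.le hf)
        by_cases hk : (p : ℤ) ∣ k
        · obtain ⟨l, rfl⟩ := hk
          rw [zpow_mul, zpow_natCast]
          exact zpow_mem (mem_zpowers _) l
        · exfalso
          have h2 := zpow_mem_of_not hm hk
          have h3 : c ∈ ⁅C, (⊤ : Subgroup G)⁆ := (zpowers_le.mpr hf) h2
          exact absurd (zpowers_le.mpr h3) (not_le_of_gt h1)
    · rw [closure_le]
      rintro _ ⟨g, hg, rfl⟩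
      obtain ⟨k, rfl⟩ := mem_zpowers_iff.mp (hG'C hg)
      change (c ^ k) ^ p ∈ zpowers (c ^ p)
      have e : (c ^ k) ^ p = (c ^ p) ^ k := by
        rw [← zpow_natCast, ← zpow_natCast, ← zpow_mul, ← zpow_mul, mul_comm]
      rw [e]
      exact zpow_mem (mem_zpowers _) k
  have hcb : c ^ p ∈ zpowers b := by
    obtain ⟨k, t, ht, hct⟩ := hNgen c hcN
    rw [hct, ((hTcom t ht (b ^ k)).symm).mul_pow]
    have h1 : t ^ p = 1 := by
      have h2 : (⟨t, ht⟩ : T) ^ Nat.card T = 1 := pow_card_eq_one'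
      rw [hT] at h2
      exact congrArg Subtype.val h2
    rw [h1, mul_one]
    exact pow_mem (zpow_mem (mem_zpowers b) k) p
  have hTb : T ≤ zpowers b := (hTK.trans hKc).trans (zpowers_le.mpr hcb)
  have hNb : N = zpowers b := by
    apply le_antisymm
    · intro n hn
      obtain ⟨k, t, ht, rfl⟩ := hNgen n hn
      exact mul_mem (zpow_mem (mem_zpowers b) k) (hTb ht)
    · exact zpowers_le.mpr hbN
  refine ⟨N, hNn, ?_, ⟨QuotientGroup.mk' N a, fun q => ?_⟩⟩
  · rw [hNb]; infer_instance
  · obtain ⟨g, rfl⟩ := QuotientGroup.mk'_surjective N q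
    obtain ⟨k, n, hn, rfl⟩ := hGgen g
    refine ⟨k, ?_⟩
    change (QuotientGroup.mk' N a) ^ k = QuotientGroup.mk' N (a ^ k * n)
    rw [map_mul, map_zpow, show QuotientGroup.mk' N n = 1 from (QuotientGroup.eq_one_iff n).mpr hn, mul_one]

theorem metacyclic_of_cyclic (h : IsCyclic G) : Cfsg.IsMetacyclic G := by
  refine ⟨⊤, inferInstance, ?_, ?_⟩
  · exact Subgroup.topEquiv.symm.isCyclic.mp h
  · haveI : Subsingleton (G ⧸ (⊤ : Subgroup G)) := QuotientGroup.subsingleton_quotient_top
    infer_instance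

theorem metacyclic_class_two [Finite G] {p : ℕ} [hp : Fact p.Prime] (hp2 : p ≠ 2) (hG : IsPGroup p G) (hK : KK p G = ⊥) (hO : Om p G) :
    Cfsg.IsMetacyclic G := by
  have hpp := hp.out
  have hK1 : ⁅_root_.commutator G, (⊤ : Subgroup G)⁆ = ⊥ := by
    rw [eq_bot_iff, ← hK]; exact le_sup_left
  have hK2 : ∀ g ∈ _root_.commutator G, g ^ p = 1 := by
    intro g hg
    have h1 : g ^ p ∈ KK p G := mem_sup_right (Subgroup.subset_closure ⟨g, hg, rfl⟩)
    rw [hK] at h1; exact h1
  have hcm : ∀ x y : G, ⁅x, y⁆ ∈ _root_.commutator G := fun x y => by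
    rw [_root_.commutator_def]; exact commutator_mem_commutator (mem_top _) (mem_top _)
  have h2 : Class2 G := class2_iff'.mpr hK1
  let P := h2.powHom hpp hp2 (fun x y => hK2 _ (hcm x y))
  have hP : ∀ x, P x = x ^ p := fun x => rfl
  set U := P.range with hU
  haveI hUn : U.Normal := by
    refine ⟨fun x hx g => ?_⟩
    obtain ⟨y, rfl⟩ := hx
    exact ⟨g * y * g⁻¹, by rw [hP, hP, conj_pow]⟩
  have hUΦ : ∀ x ∈ U, x ∈ frattini G := by
    rintro _ ⟨x, rfl⟩
    exact Nilp.pow_mem_frattini hG x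
  have hUi : U.index ≤ p ^ 2 := by
    have h3 : Nat.card P.ker ≤ p ^ 2 := by
      refine le_trans ?_ hO
      refine Subgroup.card_le_of_le ?_
      intro x hx
      exact Subgroup.subset_closure (MonoidHom.mem_ker.mp hx)
    have h4 : Nat.card G = Nat.card P.ker * Nat.card U := by rw [← P.ker.card_mul_index, index_ker]
    have h5 := U.card_mul_index
    rw [h4, mul_comm (Nat.card P.ker)] at h5
    rw [Nat.eq_of_mul_eq_mul_left Nat.card_pos h5]
    exact h3
  by_cases hcyc : IsCyclic G
  · exact metacyclic_of_cyclic hcyc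
  have hlt : ∀ M : Subgroup G, (∀ x ∈ M, x ∈ frattini G) → p < M.index := by
    intro M hM
    by_contra h
    exact hcyc (isCyclic_of_index hG hM (not_lt.mp h))
  have hΦU : ∀ x ∈ frattini G, x ∈ U := by
    have h3 : U ≤ frattini G := hUΦ
    have h4 := relIndex_mul_index h3
    have h5 := hlt (frattini G) (fun x hx => hx)
    obtain ⟨k, hk⟩ := hG.index (H := frattini G)
    have hk2 : 2 ≤ k := by
      rw [hk] at h5
      by_contra hcon
      have : k ≤ 1 := by omega
      have := Nat.pow_le_pow_right hpp.pos this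
      rw [pow_one] at this
      omega
    have h6 : p ^ 2 ≤ (frattini G).index := by rw [hk]; exact Nat.pow_le_pow_right hpp.pos hk2
    have h7 : U.relIndex (frattini G) ≤ 1 := by
      have h8 : U.relIndex (frattini G) * p ^ 2 ≤ 1 * p ^ 2 := by
        rw [one_mul]
        calc U.relIndex (frattini G) * p ^ 2 ≤ U.relIndex (frattini G) * (frattini G).index := Nat.mul_le_mul_left _ h6
          _ = U.index := h4
          _ ≤ p ^ 2 := hUi
      exact Nat.le_of_mul_le_mul_right h8 (pow_pos hpp.pos 2)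
    have h9 : U.relIndex (frattini G) = 1 := by
      have : U.relIndex (frattini G) ≠ 0 := fun h => by
        rw [h, zero_mul] at h4
        exact index_ne_zero_of_finite h4.symm
      omega
    exact relIndex_eq_one.mp h9
  have hG'U : _root_.commutator G ≤ U := fun x hx => hΦU x (Nilp.commutator_le_frattini hG hx)
  have hUp : p < U.index := hlt U hUΦ
  -- adding an element outside `U`
  have hadd : ∀ z : G, z ∉ U → (U ⊔ zpowers z).index ≤ p := by
    intro z hz
    have h3 : U < U ⊔ zpowers z := lt_of_le_of_ne le_sup_left (fun h => hz (by rw [h]; exact mem_sup_right (mem_zpowers z)))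
    have h4 := relIndex_mul_index h3.le
    obtain ⟨k, hk⟩ := hG.index (H := U ⊔ zpowers z)
    have h5 : 1 < U.relIndex (U ⊔ zpowers z) := by
      have h6 : U.relIndex (U ⊔ zpowers z) ≠ 0 := fun h => by
        rw [h, zero_mul] at h4
        exact index_ne_zero_of_finite h4.symm
      have h7 : U.relIndex (U ⊔ zpowers z) ≠ 1 := fun h => absurd (relIndex_eq_one.mp h) (not_le_of_gt h3)
      omega
    by_contra hcon
    push Not at hcon
    rw [hk] at hcon h4
    have hk2 : 2 ≤ k := by
      by_contra hc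
      have : k ≤ 1 := by omega
      have := Nat.pow_le_pow_right hpp.pos this
      rw [pow_one] at this
      omega
    have h6 : p ^ 2 ≤ p ^ k := Nat.pow_le_pow_right hpp.pos hk2
    have h7 : 1 * p ^ 2 < U.relIndex (U ⊔ zpowers z) * p ^ k :=
      Nat.mul_lt_mul_of_lt_of_le h5 h6 (pow_pos hpp.pos k)
    rw [h4, one_mul] at h7
    omega
  -- the derived group is cyclic
  have hG'c : ∃ c : G, _root_.commutator G ≤ zpowers c := by
    obtain ⟨x, hx⟩ : ∃ x, x ∉ U := by
      by_contra hcon
      push Not at hcon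
      have : U = ⊤ := by rw [eq_top_iff]; exact fun x _ => hcon x
      rw [this, index_top] at hUp
      have := hpp.one_lt
      omega
    have hx1 := hadd x hx
    obtain ⟨y, hy⟩ : ∃ y, U ⊔ zpowers x ⊔ zpowers y = ⊤ := by
      by_cases ht : U ⊔ zpowers x = ⊤
      · exact ⟨1, by rw [ht, top_sup_eq]⟩
      obtain ⟨y, hy⟩ : ∃ y, y ∉ U ⊔ zpowers x := by
        by_contra hcon
        push Not at hcon
        exact ht (by rw [eq_top_iff]; exact fun x _ => hcon x)
      refine ⟨y, ?_⟩
      have h3 : U ⊔ zpowers x < U ⊔ zpowers x ⊔ zpowers y :=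
        lt_of_le_of_ne le_sup_left (fun h => hy (by rw [h]; exact mem_sup_right (mem_zpowers y)))
      have h4 := relIndex_mul_index h3.le
      obtain ⟨k, hk⟩ := hG.index (H := U ⊔ zpowers x)
      have hk1 : k ≤ 1 := by
        rw [hk] at hx1
        exact (Nat.pow_le_pow_iff_right hpp.one_lt).mp (by rw [pow_one]; exact hx1)
      have h5 : (U ⊔ zpowers x).index ∣ p := by
        rw [hk]; exact (pow_dvd_pow p hk1).trans (by rw [pow_one])
      have h6 : (U ⊔ zpowers x).relIndex (U ⊔ zpowers x ⊔ zpowers y) ∣ p := (Dvd.intro _ h4).trans h5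
      have h7 : (U ⊔ zpowers x).relIndex (U ⊔ zpowers x ⊔ zpowers y) ≠ 1 := fun h => absurd (relIndex_eq_one.mp h) (not_le_of_gt h3)
      have h8 := (Nat.Prime.eq_one_or_self_of_dvd hpp _ h6).resolve_left h7
      rw [h8] at h4
      have h9 : p * (U ⊔ zpowers x ⊔ zpowers y).index ≤ p * 1 := by rw [h4, mul_one]; exact hx1
      have h10 := Nat.le_of_mul_le_mul_left h9 hpp.pos
      have h11 : (U ⊔ zpowers x ⊔ zpowers y).index ≠ 0 := index_ne_zero_of_finite
      exact index_eq_one.mp (by omega)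
    have hxy : (zpowers x ⊔ zpowers y) ⊔ frattini G = ⊤ := by
      rw [eq_top_iff, ← hy]
      refine sup_le (sup_le ?_ ?_) ?_
      · exact le_trans hUΦ le_sup_right
      · exact le_sup_left.trans le_sup_left
      · exact le_sup_right.trans le_sup_left
    have hgen := frattini_nongenerating hxy
    refine ⟨⁅x, y⁆, ?_⟩
    set c := ⁅x, y⁆ with hc
    have hcc : zpowers c ≤ center G := zpowers_le.mpr (h2 x y)
    haveI : (zpowers c).Normal := normal_of_center_card hcc
    set ρ := QuotientGroup.mk' (zpowers c) with hρ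
    have hab : Commute (ρ x) (ρ y) := by
      have h1 : ρ ⁅x, y⁆ = 1 := (QuotientGroup.eq_one_iff _).mpr (mem_zpowers c)
      rw [map_commutatorElement, commutatorElement_eq_one_iff_mul_comm] at h1
      exact h1
    have hcx : ∀ g : G, Commute (ρ x) (ρ g) := by
      intro g
      have hg : g ∈ zpowers x ⊔ zpowers y := by rw [hgen]; trivial
      have h3 : zpowers x ⊔ zpowers y ≤ (centralizer {ρ x}).comap ρ := by
        refine sup_le ?_ ?_
        · rw [zpowers_le, mem_comap, mem_centralizer_singleton_iff]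
        · rw [zpowers_le, mem_comap, mem_centralizer_singleton_iff]; exact hab.symm.eq
      have h4 := h3 hg
      rw [mem_comap, mem_centralizer_singleton_iff] at h4
      exact h4.symm
    have hcy : ∀ g : G, Commute (ρ y) (ρ g) := by
      intro g
      have hg : g ∈ zpowers x ⊔ zpowers y := by rw [hgen]; trivial
      have h3 : zpowers x ⊔ zpowers y ≤ (centralizer {ρ y}).comap ρ := by
        refine sup_le ?_ ?_
        · rw [zpowers_le, mem_comap, mem_centralizer_singleton_iff]; exact hab.eq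
        · rw [zpowers_le, mem_comap, mem_centralizer_singleton_iff]
      have h4 := h3 hg
      rw [mem_comap, mem_centralizer_singleton_iff] at h4
      exact h4.symm
    rw [_root_.commutator_def, commutator_le]
    intro u _ v _
    refine (QuotientGroup.eq_one_iff _).mp ?_
    change ρ _ = 1
    rw [map_commutatorElement, commutatorElement_eq_one_iff_mul_comm]
    have hu : u ∈ zpowers x ⊔ zpowers y := by rw [hgen]; trivial
    have h3 : zpowers x ⊔ zpowers y ≤ (centralizer {ρ v}).comap ρ := by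
      refine sup_le ?_ ?_
      · rw [zpowers_le, mem_comap, mem_centralizer_singleton_iff]; exact (hcx v).eq
      · rw [zpowers_le, mem_comap, mem_centralizer_singleton_iff]; exact (hcy v).eq
    have h4 := h3 hu
    rw [mem_comap, mem_centralizer_singleton_iff] at h4
    exact h4
  -- an element `z` outside `U` with `G' ≤ ⟨z⟩`
  obtain ⟨z, hzG, hzU⟩ : ∃ z : G, _root_.commutator G ≤ zpowers z ∧ z ∉ U := by
    obtain ⟨c, hc⟩ := hG'c
    obtain ⟨z, hz, hmax⟩ := Set.exists_max_image {z : G | _root_.commutator G ≤ zpowers z} (fun z => orderOf z) (Set.toFinite _) ⟨c, hc⟩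
    refine ⟨z, hz, fun hzU => ?_⟩
    obtain ⟨w, hw⟩ := hzU
    rw [hP] at hw
    have hw1 : _root_.commutator G ≤ zpowers w := hz.trans (by rw [← hw, zpowers_le]; exact pow_mem (mem_zpowers w) p)
    have h3 := hmax w hw1
    by_cases hw0 : w = 1
    · -- everything has order one
      rw [hw0, one_pow] at hw
      rw [← hw] at hz hmax
      have h4 : _root_.commutator G ≤ ⊥ := by
        have hz' : _root_.commutator G ≤ zpowers (1 : G) := hz
        rw [zpowers_one_eq_bot] at hz'; exact hz'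
      have h5 : ∀ g : G, g = 1 := by
        intro g
        have h6 := hmax g (h4.trans bot_le)
        simp only [orderOf_one] at h6
        have h7 := orderOf_pos g
        exact orderOf_eq_one_iff.mp (by omega)
      have h6 : U = ⊤ := by
        rw [eq_top_iff]
        intro g _
        rw [h5 g]; exact one_mem _
      rw [h6, index_top] at hUp
      have := hpp.one_lt
      omega
    · obtain ⟨m, hm⟩ := (IsPGroup.iff_orderOf.mp hG) w
      have hm0 : m ≠ 0 := by
        rintro rfl
        rw [pow_zero, orderOf_eq_one_iff] at hm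
        exact hw0 hm
      have h4 : orderOf z = p ^ (m - 1) := by
        rw [← hw, orderOf_pow' _ hpp.ne_zero, hm]
        have h5 : Nat.gcd (p ^ m) p = p := Nat.gcd_eq_right (dvd_pow_self p hm0)
        rw [h5]
        obtain ⟨l, rfl⟩ := Nat.exists_eq_succ_of_ne_zero hm0
        rw [Nat.succ_sub_one, pow_succ, Nat.mul_div_cancel _ hpp.pos]
      rw [h4, hm] at h3
      have h5 : p ^ (m - 1) < p ^ m := Nat.pow_lt_pow_right hpp.one_lt (by omega)
      omega
  haveI hzn : (zpowers z).Normal := by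
    refine ⟨fun x hx g => ?_⟩
    have h3 : g * x * g⁻¹ = ⁅g, x⁆ * x := by rw [_root_.commutatorElement_def]; group
    rw [h3]
    exact mul_mem (hzG (hcm g x)) hx
  refine ⟨zpowers z, hzn, inferInstance, ?_⟩
  set ρ := QuotientGroup.mk' (zpowers z) with hρ
  have hρs : Function.Surjective ρ := QuotientGroup.mk'_surjective _
  refine isCyclic_of_index (M := U.map ρ) (hG.to_quotient _) ?_ ?_
  · rintro _ ⟨_, ⟨x, rfl⟩, rfl⟩
    rw [hP, map_pow]
    exact Nilp.pow_mem_frattini (hG.to_quotient _) _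
  · rw [index_map, QuotientGroup.ker_mk', MonoidHom.range_eq_top.mpr hρs, index_top, mul_one]
    exact hadd z hzU

/-- S0639 -/
theorem metacyclic {p : ℕ} [hp : Fact p.Prime] (h3 : 3 < p) (n : ℕ) : ∀ (G : Type u) [Group G] [Finite G] (_ : Nat.card G ≤ n)
    (_ : IsPGroup p G) (_ : Om p G), Cfsg.IsMetacyclic G := by
  induction n with
  | zero => intro G _ _ h; have : 0 < Nat.card G := Nat.card_pos; omega
  | succ n ih =>
    intro G _ _ hcard hG hO
    by_cases hK : KK p G = ⊥
    · exact metacyclic_class_two (by omega) hG hK hO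
    · haveI := hG.isNilpotent
      have h1 := Nilp.normal_inf_center_ne_bot (KK p G) hK
      haveI : Nontrivial (KK p G ⊓ center G : Subgroup G) := (nontrivial_iff_ne_bot _).mpr h1
      obtain ⟨k, hk0, hk1⟩ := (IsPGroup.nontrivial_iff_card (hG.to_subgroup (KK p G ⊓ center G))).mp inferInstance
      obtain ⟨x, hx⟩ := exists_prime_orderOf_dvd_card' (G := (KK p G ⊓ center G : Subgroup G)) p (by rw [hk1]; exact dvd_pow_self p hk0.ne')
      set T := zpowers (x : G) with hT
      have hTle : T ≤ KK p G ⊓ center G := zpowers_le.mpr x.2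
      have hTc : T ≤ center G := hTle.trans inf_le_right
      have hTp : Nat.card T = p := by rw [hT, Nat.card_zpowers, orderOf_coe, hx]
      haveI hTn : T.Normal := normal_of_center_card hTc
      have h2 := om_quotient h3 hG hO hTp hTc
      have hlt : Nat.card (G ⧸ T) ≤ n := by
        have h4 := T.card_mul_index
        rw [hTp, index_eq_card] at h4
        have h5 : 0 < Nat.card (G ⧸ T) := Nat.card_pos
        have h6 : 1 < p := hp.out.one_lt
        nlinarith
      exact metacyclic_lift hG hTp hTc (hTle.trans inf_le_left) (ih (G ⧸ T) hlt (hG.to_quotient T) h2)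

end Cfsg.Agent.Lib.RankTwoC
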