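import Mathlib
set_option autoImplicit false

namespace Cfsg.Agent.Lib.HeisGrp

/-- `X × Y × T` with the multiplication twisted by a bimultiplicative `c : X → Y → T`. -/
structure Heis {X Y T : Type*} [Group X] [Group Y] [CommGroup T] (c : X →* (Y →* T)) where
  x : X
  y : Y
  t : T

variable {X Y T : Type*} [Group X] [Group Y] [CommGroup T] {c : X →* (Y →* T)}

theorem ext' {a b : Heis c} (h1 : a.x = b.x) (h2 : a.y = b.y) (h3 : a.t = b.t) : a = b := by
  cases a; cases b; simp_all

instance instGroupHeis : Group (Heis c) where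
  mul a b := ⟨a.x * b.x, a.y * b.y, a.t * b.t * c a.x b.y⟩
  one := ⟨1, 1, 1⟩
  inv a := ⟨a.x⁻¹, a.y⁻¹, a.t⁻¹ * c a.x a.y⟩
  mul_assoc a b d := by
    refine ext' (mul_assoc _ _ _) (mul_assoc _ _ _) ?_
    change a.t * b.t * c a.x b.y * d.t * c (a.x * b.x) d.y =
      a.t * (b.t * d.t * c b.x d.y) * c a.x (b.y * d.y)
    rw [map_mul, map_mul, MonoidHom.mul_apply]
    simp only [mul_assoc, mul_comm, mul_left_comm]
  one_mul a := by
    refine ext' (one_mul _) (one_mul _) ?_
    change 1 * a.t * c 1 a.y = a.t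
    rw [map_one, MonoidHom.one_apply, mul_one, one_mul]
  mul_one a := by
    refine ext' (mul_one _) (mul_one _) ?_
    change a.t * 1 * c a.x 1 = a.t
    rw [map_one, mul_one, mul_one]
  inv_mul_cancel a := by
    refine ext' (inv_mul_cancel _) (inv_mul_cancel _) ?_
    change a.t⁻¹ * c a.x a.y * a.t * c a.x⁻¹ a.y = 1
    rw [map_inv, MonoidHom.inv_apply]
    rw [mul_comm (a.t⁻¹), mul_assoc (c a.x a.y), inv_mul_cancel, mul_one, mul_inv_cancel]

@[simp] theorem mul_x (a b : Heis c) : (a * b).x = a.x * b.x := rfl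
@[simp] theorem mul_y (a b : Heis c) : (a * b).y = a.y * b.y := rfl
@[simp] theorem mul_t (a b : Heis c) : (a * b).t = a.t * b.t * c a.x b.y := rfl
@[simp] theorem one_x : (1 : Heis c).x = 1 := rfl
@[simp] theorem one_y : (1 : Heis c).y = 1 := rfl
@[simp] theorem one_t : (1 : Heis c).t = 1 := rfl
@[simp] theorem inv_x (a : Heis c) : (a⁻¹).x = a.x⁻¹ := rfl
@[simp] theorem inv_y (a : Heis c) : (a⁻¹).y = a.y⁻¹ := rfl
@[simp] theorem inv_t (a : Heis c) : (a⁻¹).t = a.t⁻¹ * c a.x a.y := rfl

/-- the embedding of `X` -/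
def inX : X →* Heis c where
  toFun x := ⟨x, 1, 1⟩
  map_one' := rfl
  map_mul' a b := by
    refine ext' rfl (by simp) ?_
    simp

/-- the embedding of `Y` -/
def inY : Y →* Heis c where
  toFun y := ⟨1, y, 1⟩
  map_one' := rfl
  map_mul' a b := by
    refine ext' (by simp) rfl ?_
    simp

/-- the embedding of `T` -/
def inT : T →* Heis c where
  toFun t := ⟨1, 1, t⟩
  map_one' := rfl
  map_mul' a b := by
    refine ext' (by simp) (by simp) ?_
    simp

@[simp] theorem inX_x (a : X) : (inX a : Heis c).x = a := rfl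
@[simp] theorem inX_y (a : X) : (inX a : Heis c).y = 1 := rfl
@[simp] theorem inX_t (a : X) : (inX a : Heis c).t = 1 := rfl
@[simp] theorem inY_x (a : Y) : (inY a : Heis c).x = 1 := rfl
@[simp] theorem inY_y (a : Y) : (inY a : Heis c).y = a := rfl
@[simp] theorem inY_t (a : Y) : (inY a : Heis c).t = 1 := rfl
@[simp] theorem inT_x (a : T) : (inT a : Heis c).x = 1 := rfl
@[simp] theorem inT_y (a : T) : (inT a : Heis c).y = 1 := rfl
@[simp] theorem inT_t (a : T) : (inT a : Heis c).t = a := rfl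

/-- the projection to `X × Y` -/
def proj : Heis c →* X × Y where
  toFun a := (a.x, a.y)
  map_one' := rfl
  map_mul' _ _ := rfl

@[simp] theorem proj_apply (a : Heis c) : proj a = (a.x, a.y) := rfl

open scoped commutatorElement in
theorem commutator_inX_inY (x : X) (y : Y) : ⁅(inX x : Heis c), (inY y : Heis c)⁆ = inT (c x y) := by
  rw [commutatorElement_def, mul_inv_eq_iff_eq_mul, mul_inv_eq_iff_eq_mul]
  refine ext' ?_ ?_ ?_
  · simp
  · simp
  · simp

theorem eq_mul (a : Heis c) : a = inY a.y * inX a.x * inT a.t := by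
  refine ext' ?_ ?_ ?_ <;> simp

end Cfsg.Agent.Lib.HeisGrp
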