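import Cfsg.Agent.Lib.ChiefNine
import Cfsg.Agent.Lib.TraceB
import Cfsg.Agent.Lib.CritD
import Cfsg.Agent.Lib.Quadratic
import Mathlib.Algebra.CharP.Lemmas

/-!
An elementary Hall–Higman type theorem: an element `a` with `(a - 1)^(p-1) = 0` centralizes every abelian
`p'`-group it normalizes.
-/

set_option autoImplicit false
set_option linter.unusedSectionVars false
set_option linter.style.haveILetI false
set_option linter.unusedVariables false

namespace Cfsg.Agent.Lib.AbHH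

open Cfsg
open scoped commutatorElement

universe u

section ring
variable {R : Type*} [Ring R] {p : ℕ} {Γ : Type*} [Group Γ]

theorem cj_pow (a x : Γ) (i : ℕ) : a ^ i * x * (a ^ i)⁻¹ * a ^ i = a ^ i * x := by group

theorem ring_key (hp : p.Prime) (hpR : ∀ r : R, p • r = 0) (ρ : Γ →* R) (Q : Subgroup Γ) (a : Γ)
    (haQ : ∀ x ∈ Q, a * x * a⁻¹ ∈ Q) (hcomm : ∀ x ∈ Q, ∀ y ∈ Q, ρ x * ρ y = ρ y * ρ x) {m : ℕ}
    (hm : ∀ x ∈ Q, ρ x ^ m = 1) (hcop : m.Coprime p) (ha : (ρ a - 1) ^ (p - 1) = 0) :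
    ∀ z ∈ Q, ρ (a * z * a⁻¹) = ρ z := by
  intro z hz
  rcases subsingleton_or_nontrivial R with hR | hR
  · exact Subsingleton.elim _ _
  haveI : Fact p.Prime := ⟨hp⟩
  haveI : CharP R p := by
    have h0 : (p : R) = 0 := by
      have := hpR 1
      rwa [nsmul_eq_mul, mul_one] at this
    exact ringChar.of_eq (CharP.ringChar_of_prime_eq_zero hp h0)
  have hAp : ρ a ^ p = 1 := by
    have h1 : (ρ a - 1) ^ p = 0 := by
      obtain ⟨k, rfl⟩ : ∃ k, p = k + 1 := ⟨p - 1, by have := hp.pos; omega⟩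
      rw [pow_succ]; rw [Nat.add_sub_cancel] at ha; rw [ha, zero_mul]
    rw [sub_pow_char_of_commute p (Commute.one_right _), one_pow, sub_eq_zero] at h1
    exact h1
  have haQi : ∀ i : ℕ, ∀ x ∈ Q, a ^ i * x * (a ^ i)⁻¹ ∈ Q := by
    intro i
    induction i with
    | zero => intro x hx; simpa using hx
    | succ i ih =>
      intro x hx
      have := haQ _ (ih x hx)
      have e : a ^ (i + 1) * x * (a ^ (i + 1))⁻¹ = a * (a ^ i * x * (a ^ i)⁻¹) * a⁻¹ := by rw [pow_succ']; group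
      rw [e]; exact this
  have hmove : ∀ (i : ℕ) (x : Γ), ρ a ^ i * ρ x = ρ (a ^ i * x * (a ^ i)⁻¹) * ρ a ^ i := by
    intro i x
    rw [← map_pow, ← map_mul, ← map_mul, cj_pow]
  set w := z⁻¹ * (a * z * a⁻¹) with hw
  have hwQ : w ∈ Q := Q.mul_mem (Q.inv_mem hz) (haQ z hz)
  -- existence of `y`
  have hy : ∀ k, 1 ≤ k → k < p → ∃ y ∈ Q, ρ (a ^ k * y * (a ^ k)⁻¹) = ρ y * ρ w := by
    intro k hk hkp
    have hkc : Nat.Coprime k p := (Nat.coprime_of_lt_prime (by omega) hkp hp).symm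
    have hex : ∀ l : ℕ, ∃ y ∈ Q, ρ (a ^ k * y * (a ^ k)⁻¹) = ρ y * (ρ z⁻¹ * ρ (a ^ (k * l) * z * (a ^ (k * l))⁻¹)) := by
      intro l
      induction l with
      | zero =>
        refine ⟨1, Q.one_mem, ?_⟩
        have : a ^ k * 1 * (a ^ k)⁻¹ = 1 := by group
        rw [this, ← map_mul]
        simp
      | succ l ih =>
        obtain ⟨y, hy, hyk⟩ := ih
        set zl := a ^ (k * l) * z * (a ^ (k * l))⁻¹ with hzl
        have hzlQ : zl ∈ Q := haQi _ z hz
        refine ⟨y * zl, Q.mul_mem hy hzlQ, ?_⟩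
        have e1 : a ^ k * (y * zl) * (a ^ k)⁻¹ = (a ^ k * y * (a ^ k)⁻¹) * (a ^ (k * (l + 1)) * z * (a ^ (k * (l + 1)))⁻¹) := by
          have : a ^ (k * (l + 1)) = a ^ k * a ^ (k * l) := by rw [← pow_add]; congr 1; ring
          rw [hzl, this]; group
        rw [e1, map_mul, hyk, map_mul ρ y zl]
        have e2 := hcomm z⁻¹ (Q.inv_mem hz) zl hzlQ
        rw [e2]
        simp only [mul_assoc]
    obtain ⟨l, hl⟩ : ∃ l, k * l % p = 1 := by
      obtain ⟨l, hl⟩ := Nat.exists_mul_mod_eq_one_of_coprime hkc hp.one_lt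
      exact ⟨l, hl.2⟩
    obtain ⟨y, hyQ, hyk⟩ := hex l
    refine ⟨y, hyQ, ?_⟩
    rw [hyk]
    have e1 : ρ a ^ (k * l) = ρ a := by
      rw [← Nat.div_add_mod (k * l) p, hl, pow_add, pow_mul, hAp, one_pow, one_mul, pow_one]
    have e2 : ρ (a ^ (k * l))⁻¹ = ρ a⁻¹ := by
      have h1 : ρ (a ^ (k * l))⁻¹ * ρ a = 1 := by
        rw [← e1, ← map_pow, ← map_mul, inv_mul_cancel, map_one]
      calc ρ (a ^ (k * l))⁻¹ = ρ (a ^ (k * l))⁻¹ * (ρ a * ρ a⁻¹) := by rw [← map_mul, mul_inv_cancel, map_one, mul_one]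
        _ = ρ a⁻¹ := by rw [← mul_assoc, h1, one_mul]
    have e3 : ρ (a ^ (k * l) * z * (a ^ (k * l))⁻¹) = ρ (a * z * a⁻¹) := by
      rw [map_mul, map_mul, e2, map_pow, e1, ← map_mul, ← map_mul]
    rw [e3, ← map_mul ρ z⁻¹]
  -- elimination
  have hcw : ∀ (n : ℕ), ∀ x ∈ Q, (1 - ρ w) ^ n * ρ x = ρ x * (1 - ρ w) ^ n := by
    intro n x hx
    have h1 : Commute (1 - ρ w) (ρ x) := by
      refine Commute.sub_left (Commute.one_left _) ?_
      exact hcomm w hwQ x hx
    exact (h1.pow_left n).eq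
  set c : ℕ → R := fun i => (-1) ^ (p - 1 - i) * ((p - 1).choose i : R) with hc
  have hcc : ∀ i (r : R), c i * r = r * c i := by
    intro i r
    have h1 : Commute ((-1 : R) ^ (p - 1 - i)) r := (Commute.neg_one_left r).pow_left _
    have h2 : Commute (((p - 1).choose i : ℕ) : R) r := Nat.cast_commute _ r
    exact (h1.mul_left h2).eq
  have hstart : ∑ i ∈ Finset.range p, c i * ρ a ^ i = 0 := by
    have h1 : (ρ a - 1) ^ (p - 1) = ∑ i ∈ Finset.range (p - 1 + 1), ρ a ^ i * (-1) ^ (p - 1 - i) * ((p - 1).choose i : R) := by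
      rw [sub_eq_add_neg]
      exact Commute.add_pow (Commute.neg_right (Commute.one_right _)) _
    rw [ha, Nat.sub_add_cancel hp.pos] at h1
    rw [h1]
    refine Finset.sum_congr rfl fun i _ => ?_
    rw [hcc, mul_assoc]
  have helim : ∀ n, n ≤ p - 1 → ∃ P : ℕ → R, (∀ i, ∀ x ∈ Q, P i * ρ x = ρ x * P i) ∧
      ∑ i ∈ Finset.range (p - n), P i * ρ a ^ i = 0 ∧ ∃ q ∈ Q, P 0 = c 0 * ρ q * (1 - ρ w) ^ n := by
    intro n
    induction n with
    | zero =>
      intro _
      refine ⟨c, fun i x _ => hcc i _, by simpa using hstart, 1, Q.one_mem, by simp⟩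
    | succ n ih =>
      intro hn
      obtain ⟨P, hP1, hP2, q, hq, hP3⟩ := ih (by omega)
      set k := p - (n + 1) with hk
      have hpk : p - n = k + 1 := by omega
      obtain ⟨y, hyQ, hyk⟩ := hy k (by omega) (by omega)
      refine ⟨fun i => P i * (ρ (a ^ i * y * (a ^ i)⁻¹) - ρ (a ^ k * y * (a ^ k)⁻¹)), ?_, ?_, q * y, Q.mul_mem hq hyQ, ?_⟩
      · intro i x hx
        have h1 : Commute (P i) (ρ x) := hP1 i x hx
        have h2 : Commute (ρ (a ^ i * y * (a ^ i)⁻¹) - ρ (a ^ k * y * (a ^ k)⁻¹)) (ρ x) :=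
          Commute.sub_left (hcomm _ (haQi i y hyQ) x hx) (hcomm _ (haQi k y hyQ) x hx)
        exact (h1.mul_left h2).eq
      · have h1 : ∑ i ∈ Finset.range (k + 1), P i * (ρ (a ^ i * y * (a ^ i)⁻¹) - ρ (a ^ k * y * (a ^ k)⁻¹)) * ρ a ^ i = 0 := by
          have h2 : ∀ i, P i * (ρ (a ^ i * y * (a ^ i)⁻¹) - ρ (a ^ k * y * (a ^ k)⁻¹)) * ρ a ^ i =
              (P i * ρ a ^ i) * ρ y - ρ (a ^ k * y * (a ^ k)⁻¹) * (P i * ρ a ^ i) := by
            intro i
            rw [mul_sub, sub_mul, mul_assoc (P i), ← hmove, hP1 i _ (haQi k y hyQ)]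
            simp only [mul_assoc]
          rw [Finset.sum_congr rfl (fun i _ => h2 i), Finset.sum_sub_distrib, ← Finset.sum_mul, ← Finset.mul_sum]
          rw [hpk] at hP2
          rw [hP2, zero_mul, mul_zero, sub_zero]
        rw [Finset.sum_range_succ, sub_self, mul_zero, zero_mul, add_zero] at h1
        exact h1
      · simp only [pow_zero, one_mul, inv_one, mul_one]
        rw [hyk, hP3]
        have h2 : ρ y - ρ y * ρ w = ρ y * (1 - ρ w) := by rw [mul_sub, mul_one]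
        calc c 0 * ρ q * (1 - ρ w) ^ n * (ρ y - ρ y * ρ w) = c 0 * ρ q * ((1 - ρ w) ^ n * ρ y) * (1 - ρ w) := by
              rw [h2]; simp only [mul_assoc]
          _ = c 0 * (ρ q * ρ y) * ((1 - ρ w) ^ n * (1 - ρ w)) := by rw [hcw n y hyQ]; simp only [mul_assoc]
          _ = c 0 * ρ (q * y) * (1 - ρ w) ^ (n + 1) := by rw [← map_mul, ← pow_succ]
  obtain ⟨P, -, hP2, q, hq, hP3⟩ := helim (p - 1) le_rfl
  have h1 : p - (p - 1) = 1 := by have := hp.pos; omega
  rw [h1, Finset.sum_range_one, pow_zero, mul_one, hP3] at hP2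
  have h2 : (1 - ρ w) ^ (p - 1) = 0 := by
    have h3 : (ρ q⁻¹ * (-1) ^ (p - 1)) * (c 0 * ρ q * (1 - ρ w) ^ (p - 1)) = (1 - ρ w) ^ (p - 1) := by
      have h4 : c 0 = (-1) ^ (p - 1) := by simp [hc]
      rw [h4, mul_assoc (ρ q⁻¹), ← mul_assoc ((-1 : R) ^ (p - 1)), ← mul_assoc ((-1 : R) ^ (p - 1)), ← pow_add,
        Even.neg_one_pow ⟨p - 1, rfl⟩, one_mul, ← mul_assoc, ← map_mul, inv_mul_cancel, map_one, one_mul]
    rw [← h3, hP2, mul_zero]
  have h3 : (1 - ρ w) ^ p = 0 := by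
    obtain ⟨k, rfl⟩ : ∃ k, p = k + 1 := ⟨p - 1, by have := hp.pos; omega⟩
    rw [pow_succ]; rw [Nat.add_sub_cancel] at h2; rw [h2, zero_mul]
  rw [sub_pow_char_of_commute p (Commute.one_left _), one_pow, sub_eq_zero] at h3
  have h4 : ρ w = 1 := by
    have h5 : orderOf (ρ w) ∣ p := orderOf_dvd_iff_pow_eq_one.2 h3.symm
    have h6 : orderOf (ρ w) ∣ m := orderOf_dvd_iff_pow_eq_one.2 (hm w hwQ)
    rw [← orderOf_eq_one_iff]
    exact Nat.eq_one_of_dvd_coprimes hcop h6 h5
  calc ρ (a * z * a⁻¹) = ρ (z * w) := by rw [hw]; congr 1; group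
    _ = ρ z := by rw [map_mul, h4, mul_one]

end ring

section grp
variable {X : Type*} [Group X]

theorem grp_key {U M : Subgroup X} [hUn : U.Normal] (hU : ∀ x ∈ U, ∀ y ∈ U, x * y = y * x) {p : ℕ} (hp : p.Prime)
    (hUp : ∀ x ∈ U, x ^ p = 1) {g : X} (hgM : ∀ x ∈ M, g * x * g⁻¹ ∈ M)
    (hM : ∀ x ∈ M, ∀ y ∈ M, ⁅x, y⁆ ∈ Subgroup.centralizer (U : Set X)) {m : ℕ} (hm : ∀ x ∈ M, x ^ m ∈ Subgroup.centralizer (U : Set X))
    (hcop : m.Coprime p) (hg : iterCommutator U (Subgroup.zpowers g) (p - 1) = ⊥) :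
    ∀ z ∈ M, ⁅g, z⁆ ∈ Subgroup.centralizer (U : Set X) := by
  let _ : CommGroup U := { mul_comm := fun x y => Subtype.ext (hU x x.2 y y.2) }
  let ρ : X →* AddMonoid.End (Additive U) := (Cfsg.Agent.Lib.Quadratic.toEnd U).comp MulAut.conjNormal
  have hρ : ∀ (g : X) (v : U), ρ g (Additive.ofMul v) = Additive.ofMul (MulAut.conjNormal g v) := fun g v => rfl
  have hker : ∀ g : X, ρ g = 1 ↔ g ∈ Subgroup.centralizer (U : Set X) := by
    intro g
    rw [Subgroup.mem_centralizer_iff]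
    constructor
    · intro h v hv
      have h4 := congrArg (fun f => Additive.toMul (f (Additive.ofMul (⟨v, hv⟩ : U)))) h
      have h5 := congrArg Subtype.val h4
      change g * v * g⁻¹ = v at h5
      rw [mul_inv_eq_iff_eq_mul] at h5
      exact h5.symm
    · intro h
      ext v
      change g * (v.toMul : X) * g⁻¹ = (v.toMul : X)
      rw [mul_inv_eq_iff_eq_mul]
      exact (h _ v.toMul.2).symm
  have hcomm : ∀ g h : X, ⁅g, h⁆ ∈ Subgroup.centralizer (U : Set X) ↔ ρ g * ρ h = ρ h * ρ g := by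
    intro g h
    rw [← hker, commutatorElement_def, map_mul, map_mul, map_mul]
    have e1 : ρ g⁻¹ * ρ g = 1 := by rw [← map_mul, inv_mul_cancel, map_one]
    have e2 : ρ h⁻¹ * ρ h = 1 := by rw [← map_mul, inv_mul_cancel, map_one]
    have e3 : ρ g * ρ g⁻¹ = 1 := by rw [← map_mul, mul_inv_cancel, map_one]
    have e4 : ρ h * ρ h⁻¹ = 1 := by rw [← map_mul, mul_inv_cancel, map_one]
    constructor
    · intro h5
      calc ρ g * ρ h = ρ g * ρ h * (ρ g⁻¹ * ρ h⁻¹ * (ρ h * ρ g)) := by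
            rw [mul_assoc (ρ g⁻¹), ← mul_assoc (ρ h⁻¹), e2, one_mul, e1, mul_one]
        _ = (ρ g * ρ h * ρ g⁻¹ * ρ h⁻¹) * (ρ h * ρ g) := by simp only [mul_assoc]
        _ = ρ h * ρ g := by rw [h5, one_mul]
    · intro h5
      rw [h5, mul_assoc (ρ h), e3, mul_one, e4]
  have hiter : ∀ (k : ℕ) (v : Additive U), (((ρ g - 1) ^ k) v).toMul.1 ∈ iterCommutator U (Subgroup.zpowers g) k := by
    intro k
    induction k with
    | zero => intro v; exact v.toMul.2
    | succ k ih =>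
      intro v
      have h1 := ih v
      set y := ((ρ g - 1) ^ k) v with hy
      have h2 : (((ρ g - 1) ^ (k + 1)) v) = (ρ g - 1) y := by
        rw [pow_succ', hy]; rfl
      have h3 : (((ρ g - 1) y).toMul : X) = g * y.toMul * g⁻¹ * (y.toMul : X)⁻¹ := by
        change ((MulAut.conjNormal g y.toMul / y.toMul : U) : X) = _
        rw [div_eq_mul_inv]
        rfl
      rw [h2, h3]
      show g * (y.toMul : X) * g⁻¹ * (y.toMul : X)⁻¹ ∈ ⁅iterCommutator U (Subgroup.zpowers g) k, Subgroup.zpowers g⁆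
      rw [Subgroup.commutator_comm]
      exact Subgroup.commutator_mem_commutator (Subgroup.mem_zpowers g) h1
  have ha : (ρ g - 1) ^ (p - 1) = 0 := by
    ext v
    have h1 := hiter (p - 1) v
    rw [hg, Subgroup.mem_bot] at h1
    exact h1
  have hpU : ∀ w : Additive U, p • w = 0 := by
    intro w
    have : Additive.ofMul (w.toMul ^ p) = 0 := by
      rw [show w.toMul ^ p = 1 from Subtype.ext (by rw [Subgroup.coe_pow]; exact hUp _ w.toMul.2)]; rfl
    exact this
  have hpR : ∀ r : AddMonoid.End (Additive U), p • r = 0 := by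
    intro r
    ext v
    have h4 : (p • r) v = p • (r v) := rfl
    rw [h4, hpU]; rfl
  intro z hz
  have h1 := ring_key hp hpR ρ M g hgM (fun x hx y hy => (hcomm x y).1 (hM x hx y hy)) (fun x hx => by
    rw [← map_pow]; exact (hker _).2 (hm x hx)) hcop ha z hz
  rw [hcomm, ← map_mul, ← map_mul]
  have e : g * z = (g * z * g⁻¹) * g := by group
  rw [e, map_mul, h1, ← map_mul]

end grp

section chief
variable {X : Type*} [Group X] [Finite X] {p : ℕ} [Fact p.Prime]
open Cfsg.Agent.Lib.ChiefNine Cfsg.Agent.Lib.SylRel Cfsg.Agent.Lib.CommNine Cfsg.Agent.Lib.CSecE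

/-- an element of a group with a normal series `p`, abelian `p'`, `p` which acts with small minimal polynomial on a chief
factor acts trivially -/
theorem chief_abelian {P M U V : Subgroup X} [hPn : P.Normal] [hMn : M.Normal] (hP : IsPGroup p P)
    (hMab : ⁅M, M⁆ ≤ P) {m : ℕ} (hcop : m.Coprime p) (hm : ∀ x ∈ M, x ^ m ∈ P) (hXM : ∃ k, M.index = p ^ k)
    (hUV : IsChiefFactor U V) (hU : IsPGroup p U) {g : X} (hg : IsPGroup p (Subgroup.zpowers g))
    (hiter : iterCommutator U (Subgroup.zpowers g) (p - 1) ≤ V) : ⁅U, Subgroup.zpowers g⁆ ≤ V := by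
  have hp : p.Prime := Fact.out
  have hel := Cfsg.Agent.Lib.TraceB.chief_elem hUV hU
  have htriv := chief_trivial hUV hU hP
  obtain ⟨h1, h2, h3, h4⟩ := hUV
  haveI := h2
  haveI := h3
  set C := cm U V with hC
  haveI hCn : C.Normal := cm_normal h2
  have hPC : P ≤ C := le_cm.2 htriv
  have hUC : ⁅U, C⁆ ≤ V := le_cm.1 le_rfl
  -- `g` centralizes `M` modulo `C`
  have hkey : Subgroup.zpowers g ≤ cm M C := by
    rw [Subgroup.zpowers_le]
    set π := QuotientGroup.mk' V with hπ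
    haveI : (U.map π).Normal := h2.map _ (QuotientGroup.mk'_surjective _)
    have hcent : ∀ x : X, π x ∈ Subgroup.centralizer ((U.map π : Subgroup (X ⧸ V)) : Set (X ⧸ V)) ↔ x ∈ C := fun x => Iff.rfl
    have h5 := grp_key (U := U.map π) (M := M.map π) (g := π g) (m := m) (p := p) (by
      rintro _ ⟨x, hx, rfl⟩ _ ⟨y, hy, rfl⟩
      have h6 : ⁅x, y⁆ ∈ V := hel.1 (Subgroup.commutator_mem_commutator hx hy)
      have h7 : π ⁅x, y⁆ = 1 := (QuotientGroup.eq_one_iff _).2 h6
      rw [map_commutatorElement, commutatorElement_eq_one_iff_mul_comm] at h7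
      exact h7) hp (by
      rintro _ ⟨x, hx, rfl⟩
      rw [← map_pow]
      exact (QuotientGroup.eq_one_iff _).2 (hel.2 x hx)) (by
      rintro _ ⟨x, hx, rfl⟩
      rw [← map_inv, ← map_mul, ← map_mul]
      exact ⟨_, hMn.conj_mem x hx g, rfl⟩) (by
      rintro _ ⟨x, hx, rfl⟩ _ ⟨y, hy, rfl⟩
      rw [← map_commutatorElement, hcent]
      exact hPC (hMab (Subgroup.commutator_mem_commutator hx hy))) (by
      rintro _ ⟨x, hx, rfl⟩
      rw [← map_pow, hcent]
      exact hPC (hm x hx)) hcop (by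
      rw [← MonoidHom.map_zpowers, ← iter_map, Subgroup.map_eq_bot_iff, QuotientGroup.ker_mk']
      exact hiter)
    -- conclude
    have h6 : ⁅M, Subgroup.closure {g}⁆ ≤ C := by
      rw [Subgroup.commutator_comm, ← Subgroup.zpowers_eq_closure]
      have h7 : Subgroup.zpowers g ≤ Subgroup.comap (QuotientGroup.mk' C) (Subgroup.centralizer ((M.map (QuotientGroup.mk' C) : Subgroup (X ⧸ C)) : Set (X ⧸ C))) := by
        rw [Subgroup.zpowers_le]
        show QuotientGroup.mk' C g ∈ Subgroup.centralizer ((M.map (QuotientGroup.mk' C) : Subgroup (X ⧸ C)) : Set (X ⧸ C))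
        rw [Subgroup.mem_centralizer_iff]
        rintro _ ⟨z, hz, rfl⟩
        have h8 : ⁅g, z⁆ ∈ C := by
          rw [← hcent, map_commutatorElement]
          exact h5 (π z) ⟨z, hz, rfl⟩
        have h9 : QuotientGroup.mk' C ⁅g, z⁆ = 1 := (QuotientGroup.eq_one_iff _).2 h8
        rw [map_commutatorElement, commutatorElement_eq_one_iff_mul_comm] at h9
        exact h9.symm
      have h8 : Subgroup.zpowers g ≤ cm M C := h7
      rw [Subgroup.commutator_comm]
      exact le_cm.1 h8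
    have h7 := le_cm.2 h6
    exact h7 (Subgroup.subset_closure rfl)
  set Y := cm M C with hY
  haveI hYn : Y.Normal := cm_normal hMn
  have hMY : ⁅M, Y⁆ ≤ C := le_cm.1 le_rfl
  obtain ⟨T, hT, hgT⟩ := exists_sylIn (p := p) (X := Subgroup.zpowers g) (H := ⊤) le_top hg
  have htopN : ∀ K : Subgroup X, K.Normal → (⊤ : Subgroup X) ≤ Subgroup.normalizer (K : Set X) := fun K hK => by
    rw [Subgroup.normalizer_eq_top_iff.2 hK]
  set D := T ⊓ Y with hD
  have hDp : IsPGroup p D := hT.isPGroup.to_le inf_le_left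
  set E := V ⊔ ⁅U, D⁆ with hE
  have hVU : V ≤ U := h1.le
  have hEU : E ≤ U := sup_le hVU (Subgroup.commutator_le_left U D)
  -- `T` normalizes `E`
  have hTE : T ≤ Subgroup.normalizer (E : Set X) := by
    refine sup_normalized (le_top.trans (htopN V h3)) (commutator_normalized (le_top.trans (htopN U h2)) ?_)
    exact inf_normalized Subgroup.le_normalizer (le_top.trans (htopN Y hYn))
  -- `M` normalizes `E`
  have hUDC : ∀ x : X, x ∈ M → ∀ u ∈ U, ∀ d ∈ D, x * ⁅u, d⁆ * x⁻¹ ∈ E := by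
    intro x hx u hu d hd
    have hc : ⁅x, d⁆ ∈ C := hMY (Subgroup.commutator_mem_commutator hx hd.2)
    set u' := x * u * x⁻¹ with hu'
    have hu'U : u' ∈ U := h2.conj_mem u hu x
    set c := ⁅x, d⁆ with hcdef
    have e : x * ⁅u, d⁆ * x⁻¹ = ⁅u', c⁆ * (⁅c, ⁅u', d⁆⁆ * ⁅u', d⁆) := by
      rw [hu', hcdef]
      simp only [commutatorElement_def]
      group
    rw [e]
    have hud : ⁅u', d⁆ ∈ ⁅U, D⁆ := Subgroup.commutator_mem_commutator hu'U hd
    refine Subgroup.mul_mem _ ((le_sup_left : V ≤ E) ?_) (Subgroup.mul_mem _ ((le_sup_left : V ≤ E) ?_) ((le_sup_right : ⁅U, D⁆ ≤ E) hud))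
    · exact hUC (Subgroup.commutator_mem_commutator hu'U hc)
    · have h5 : ⁅C, U⁆ ≤ V := by rw [Subgroup.commutator_comm]; exact hUC
      exact h5 (Subgroup.commutator_mem_commutator hc (Subgroup.commutator_le_left U D hud))
  have hME : M ≤ Subgroup.normalizer (E : Set X) := by
    have h5 : ∀ x ∈ M, E ≤ E.comap (MulAut.conj x).toMonoidHom := by
      intro x hx
      refine sup_le ?_ ?_
      · intro v hv
        exact (le_sup_left : V ≤ E) (h3.conj_mem v hv x)
      · rw [Subgroup.commutator_le]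
        intro u hu d hd
        exact hUDC x hx u hu d hd
    intro x hx
    refine Subgroup.mem_normalizer_iff.2 fun y => ⟨fun hy => h5 x hx hy, fun hy => ?_⟩
    have h6 := h5 x⁻¹ (M.inv_mem hx) hy
    have h7 : x⁻¹ * (x * y * x⁻¹) * x⁻¹⁻¹ ∈ E := h6
    have e : x⁻¹ * (x * y * x⁻¹) * x⁻¹⁻¹ = y := by group
    rwa [e] at h7
  have hTM : T ⊔ M = ⊤ := by
    have h5 : (T ⊔ M).index = 1 := by
      obtain ⟨k, hk⟩ := hXM
      have h6 : (T ⊔ M).index ∣ p ^ k := hk ▸ Subgroup.index_dvd_of_le le_sup_right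
      have h7 : ¬ p ∣ (T ⊔ M).index := fun h => by
        have h8 := hT.not_dvd
        rw [Subgroup.relIndex_top_right] at h8
        exact h8 (h.trans (Subgroup.index_dvd_of_le le_sup_left))
      obtain ⟨j, -, hj⟩ := (Nat.dvd_prime_pow hp).1 h6
      rw [hj] at h7 ⊢
      rcases j with _ | j
      · rfl
      · exact absurd (dvd_pow_self p (Nat.succ_ne_zero j)) h7
    exact Subgroup.index_eq_one.1 h5
  have hEn : E.Normal := by
    apply Subgroup.normalizer_eq_top_iff.1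
    rw [eq_top_iff, ← hTM]
    exact sup_le hTE hME
  have hEV : E = V := by
    rcases h4 E hEn le_sup_left hEU with h5 | h5
    · exact h5
    · exfalso
      have h6 : ⁅U.map (QuotientGroup.mk' V), D.map (QuotientGroup.mk' V)⁆ = U.map (QuotientGroup.mk' V) := by
        have h7 := congrArg (fun K : Subgroup X => K.map (QuotientGroup.mk' V)) h5
        simp only [hE, Subgroup.map_sup] at h7
        rwa [QuotientGroup.map_mk'_self, bot_sup_eq, Subgroup.map_commutator] at h7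
      have h7 : U.map (QuotientGroup.mk' V) ≠ ⊥ := by
        rw [Ne, Subgroup.map_eq_bot_iff, QuotientGroup.ker_mk']
        exact h1.not_ge
      haveI : (U.map (QuotientGroup.mk' V)).Normal := h2.map _ (QuotientGroup.mk'_surjective _)
      have h8 := Cfsg.Agent.Lib.CoprimeB.commutator_lt_of_pgroup (U := U.map (QuotientGroup.mk' V)) (P := D.map (QuotientGroup.mk' V))
        (hU.map _) (hDp.map _) (by rw [Subgroup.normalizer_eq_top]; exact le_top) h7
      exact h8.ne h6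
  have h5 : ⁅U, D⁆ ≤ V := by rw [← hEV]; exact le_sup_right
  exact (Subgroup.commutator_mono le_rfl (le_inf hgT hkey)).trans h5

end chief

end Cfsg.Agent.Lib.AbHH
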