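import Cfsg.Agent.Lib.AbHH
import Cfsg.Agent.Lib.PNInd

/-!
Groups with a normal series (p-group, abelian p'-group, p-group): stability and quadratic action.
-/

set_option autoImplicit false
set_option linter.unusedSectionVars false
set_option linter.style.haveILetI false
set_option linter.unusedVariables false

namespace Cfsg.Agent.Lib.AbStab

open Cfsg Cfsg.Agent.Lib.StrongEmb Cfsg.Agent.Lib.SylRel Cfsg.Agent.Lib.WCl Cfsg.Agent.Lib.CFunA Cfsg.Agent.Lib.CFunB
open Cfsg.Agent.Lib.CFunC Cfsg.Agent.Lib.CommNine Cfsg.Agent.Lib.CSecA Cfsg.Agent.Lib.CSecB Cfsg.Agent.Lib.CSecC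
open Cfsg.Agent.Lib.PNilp Cfsg.Agent.Lib.PNInd Cfsg.Agent.Lib.AbHH Cfsg.Agent.Lib.ChiefNine Cfsg.Agent.Lib.CSecE
open Cfsg.Agent.Lib.PStab
open scoped commutatorElement

universe u

/-- normal series `p`, abelian `p'`, `p` -/
def Ser (p : ℕ) (X : Type u) [Group X] : Prop :=
  ∃ P M : Subgroup X, P.Normal ∧ M.Normal ∧ IsPGroup p P ∧ ⁅M, M⁆ ≤ P ∧ (∃ m : ℕ, m.Coprime p ∧ ∀ x ∈ M, x ^ m ∈ P) ∧
    ∃ k, M.index = p ^ k

variable {p : ℕ} [Fact p.Prime]

theorem Ser.sub {X : Type u} [Group X] [Finite X] (h : Ser p X) (H : Subgroup X) : Ser p H := by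
  obtain ⟨P, M, hP, hM, hPp, hMM, ⟨m, hm, hmx⟩, k, hk⟩ := h
  haveI := hP
  haveI := hM
  refine ⟨P.subgroupOf H, M.subgroupOf H, inferInstance, inferInstance, hPp.comap_subtype, ?_, ⟨m, hm, fun x hx => ?_⟩, ?_⟩
  · rw [Subgroup.commutator_le]
    intro x hx y hy
    exact hMM (Subgroup.commutator_mem_commutator (Subgroup.mem_subgroupOf.1 hx) (Subgroup.mem_subgroupOf.1 hy))
  · exact hmx x hx
  · have h1 : (M.subgroupOf H).index ∣ p ^ k := by
      rw [← hk]
      exact Subgroup.relIndex_dvd_index_of_normal _ _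
    obtain ⟨j, -, hj⟩ := (Nat.dvd_prime_pow Fact.out).1 h1
    exact ⟨j, hj⟩

theorem Ser.surj {X Y : Type u} [Group X] [Group Y] (h : Ser p X) (f : X →* Y) (hf : Function.Surjective f) : Ser p Y := by
  obtain ⟨P, M, hP, hM, hPp, hMM, ⟨m, hm, hmx⟩, k, hk⟩ := h
  refine ⟨P.map f, M.map f, hP.map f hf, hM.map f hf, hPp.map f, ?_, ⟨m, hm, ?_⟩, ?_⟩
  · rw [← Subgroup.map_commutator]; exact Subgroup.map_mono hMM
  · rintro _ ⟨x, hx, rfl⟩
    exact ⟨x ^ m, hmx x hx, map_pow f x m⟩
  · have h1 : (M.map f).index ∣ p ^ k := hk ▸ Subgroup.index_map_dvd M hf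
    obtain ⟨j, -, hj⟩ := (Nat.dvd_prime_pow Fact.out).1 h1
    exact ⟨j, hj⟩

theorem le_of_sup_eq {X : Type u} [Group X] {S K M : Subgroup X} (hK : K ≤ M) (hSK : S ≤ Subgroup.normalizer (K : Set X))
    (hSM : S ⊓ M = ⊥) (hM : M ≤ K ⊔ S) : M = K := by
  refine le_antisymm ?_ hK
  intro x hx
  have h1 : x ∈ K ⊔ S := hM hx
  rw [← SetLike.mem_coe, Subgroup.coe_mul_of_right_le_normalizer_left _ _ hSK] at h1
  obtain ⟨k, hk, s, hs, rfl⟩ := h1
  have h2 : s ∈ S ⊓ M := ⟨hs, by
    have := M.mul_mem (M.inv_mem (hK hk)) hx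
    have e : k⁻¹ * (k * s) = s := by group
    rwa [e] at this⟩
  rw [hSM, Subgroup.mem_bot] at h2
  show k * s ∈ K
  rw [h2, mul_one]; exact hk

/-- a normal `p`-complement of a group with maximal Sylow `p`-subgroup is abelian -/
theorem coatom_abelian {X : Type u} [Group X] [Finite X] {S M : Subgroup X} [hMn : M.Normal] (hS : SylIn p S ⊤) (hco : IsCoatom S)
    (hM : (Nat.card M).Coprime p) : ⁅M, M⁆ = ⊥ := by
  have hp : p.Prime := Fact.out
  have hSM : S ⊓ M = ⊥ := inf_pprime_eq_bot ((Nat.Prime.coprime_iff_not_dvd hp).1 hM.symm) hS.isPGroup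
  have htopN : S ≤ Subgroup.normalizer (M : Set X) := by rw [Subgroup.normalizer_eq_top]; exact le_top
  -- a nontrivial invariant subgroup of `M` is `M`
  have hinv : ∀ K : Subgroup X, K ≤ M → S ≤ Subgroup.normalizer (K : Set X) → K ≠ ⊥ → M = K := by
    intro K hKM hSK hK
    have h1 : S ⊔ K = ⊤ := by
      apply hco.2
      refine lt_of_le_of_ne le_sup_left fun h => hK ?_
      have h2 : K ≤ S := by rw [h]; exact le_sup_right
      rw [eq_bot_iff, ← hSM]
      exact le_inf h2 hKM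
    exact le_of_sup_eq hKM hSK hSM (by rw [sup_comm, h1]; exact le_top)
  by_cases hM1 : M = ⊥
  · rw [hM1, Subgroup.commutator_bot_left]
  have hcard : Nat.card M ≠ 1 := fun h => hM1 (Subgroup.card_eq_one.1 h)
  obtain ⟨r, hr, hrM⟩ := Nat.exists_prime_and_dvd hcard
  haveI : Fact r.Prime := ⟨hr⟩
  haveI := hS.isPGroup.isNilpotent
  obtain ⟨R, hR⟩ := Cfsg.Agent.Lib.Coprime.exists_invariant_sylow htopN (by
    obtain ⟨k, hk⟩ := IsPGroup.iff_card.1 hS.isPGroup
    rw [hk]; exact Nat.Coprime.pow_left _ hM.symm) (Or.inl inferInstance) r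
  have hR1 : (R : Subgroup M).map M.subtype ≠ ⊥ := by
    rw [Ne, Subgroup.map_eq_bot_iff_of_injective _ M.subtype_injective]
    intro h
    have h1 := R.not_dvd_index
    rw [h, Subgroup.index_bot] at h1
    exact h1 hrM
  have hMR := hinv _ (Subgroup.map_subtype_le _) hR hR1
  have hMr : IsPGroup r M := hMR ▸ R.2.map _
  have h2 := Cfsg.Agent.Lib.CoprimeB.commutator_lt_of_pgroup hMr hMr Subgroup.le_normalizer hM1
  by_contra h3
  have h4 := hinv ⁅M, M⁆ h2.le (by
    haveI : (⁅M, M⁆).Normal := inferInstance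
    rw [Subgroup.normalizer_eq_top]; exact le_top) h3
  exact h2.ne h4.symm

/-- the structure of groups with `X / O_p(X)` `p`-nilpotent and maximal Sylow `p`-subgroup -/
theorem ser_of {X : Type u} [Group X] [Finite X] {S : Subgroup X} (hS : SylIn p S ⊤) (hco : IsCoatom S)
    (hn : PNil p (X ⧸ pCore p X)) : Ser p X := by
  haveI hPn := Cfsg.Agent.Lib.Cores.pCore_normal (G := X) p
  obtain ⟨M0, hM0, hc, k, hk⟩ := hn
  haveI := hM0
  have hPS : pCore p X ≤ S := pCore_le_syl hS
  set π := QuotientGroup.mk' (pCore p X) with hπ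
  have hco' : IsCoatom (S.map π) := by
    have hcm : (S.map π).comap π = S := by
      rw [Subgroup.comap_map_eq, QuotientGroup.ker_mk']
      exact sup_eq_left.2 hPS
    constructor
    · intro h
      rw [h, Subgroup.comap_top] at hcm
      exact hco.1 hcm.symm
    · intro K hK
      have h1 : S < K.comap π := by
        refine lt_of_le_of_ne (Subgroup.map_le_iff_le_comap.1 hK.le) fun h => hK.ne ?_
        rw [h, Subgroup.map_comap_eq_self_of_surjective (QuotientGroup.mk'_surjective _)]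
      have h2 := hco.2 _ h1
      rw [← Subgroup.map_comap_eq_self_of_surjective (QuotientGroup.mk'_surjective (pCore p X)) K]
      show (K.comap π).map π = ⊤
      rw [h2, Subgroup.map_top_of_surjective _ (QuotientGroup.mk'_surjective _)]
  have hab := coatom_abelian (sylIn_quot hS (pCore p X)) hco' hc
  refine ⟨pCore p X, M0.comap π, hPn, inferInstance, Cfsg.Agent.Lib.Cores.pCore_isPGroup p, ?_, ⟨Nat.card M0, hc, ?_⟩, k, ?_⟩
  · rw [Subgroup.commutator_le]
    intro x hx y hy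
    have h1 : ⁅π x, π y⁆ ∈ (⊥ : Subgroup (X ⧸ pCore p X)) := hab ▸ Subgroup.commutator_mem_commutator hx hy
    rw [Subgroup.mem_bot, ← map_commutatorElement] at h1
    exact (QuotientGroup.eq_one_iff _).1 h1
  · intro x hx
    have h1 : (⟨π x, hx⟩ : M0) ^ Nat.card M0 = 1 := pow_card_eq_one'
    have h2 : π x ^ Nat.card M0 = 1 := congrArg Subtype.val h1
    rw [← map_pow] at h2
    exact (QuotientGroup.eq_one_iff _).1 h2
  · rw [Subgroup.index_comap_of_surjective _ (QuotientGroup.mk'_surjective (pCore p X)), hk]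

theorem ser_chief {X : Type u} [Group X] [Finite X] (h : Ser p X) {U V : Subgroup X} (hUV : IsChiefFactor U V) (hU : IsPGroup p U)
    {g : X} (hg : IsPGroup p (Subgroup.zpowers g)) (hiter : iterCommutator U (Subgroup.zpowers g) (p - 1) ≤ V) :
    ⁅U, Subgroup.zpowers g⁆ ≤ V := by
  obtain ⟨P, M, hP, hM, hPp, hMM, ⟨m, hm, hmx⟩, hk⟩ := h
  haveI := hP
  haveI := hM
  exact chief_abelian hPp hMM hm hmx hk hUV hU hg hiter

theorem isPGroup_zpowers_of {X : Type u} [Group X] {g : X} {a : ℕ} (h : orderOf g ∣ p ^ a) : IsPGroup p (Subgroup.zpowers g) := by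
  obtain ⟨b, -, hb⟩ := (Nat.dvd_prime_pow Fact.out).1 h
  exact IsPGroup.of_card (n := b) (by rw [Nat.card_zpowers, hb])

/-- the subgroup acting trivially on the chief factors inside a normal `p`-subgroup -/
theorem exists_triv {N : Type u} [Group N] [Finite N] (hp2 : p ≠ 2) (hSer : Ser p N) {B : Subgroup N} [hBn : B.Normal]
    (hB : IsPGroup p B) {g : N} (hq : ⁅⁅B, Subgroup.zpowers g⁆, Subgroup.zpowers g⁆ = ⊥) :
    ∃ K : Subgroup N, K.Normal ∧ g ∈ K ∧ ∀ y ∈ K, (orderOf y).Coprime p → y ∈ Subgroup.centralizer (B : Set N) := by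
  have hp : p.Prime := Fact.out
  have hp3 : 2 ≤ p - 1 := by
    have := hp.two_le
    omega
  have hTr_iff : ∀ (y : N) (U V : Subgroup N) (hV : V.Normal), ⁅U, Subgroup.zpowers y⁆ ≤ V ↔ y ∈ cm U V := by
    intro y U V hV
    rw [← le_cm, Subgroup.zpowers_le]
  let K : Subgroup N :=
    { carrier := {y | ∀ U V : Subgroup N, IsChiefFactor U V → U ≤ B → ⁅U, Subgroup.zpowers y⁆ ≤ V}
      one_mem' := by
        intro U V hUV _
        haveI := hUV.2.2.1
        rw [hTr_iff _ _ _ inferInstance]; exact Subgroup.one_mem _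
      mul_mem' := by
        intro a b ha hb U V hUV hU
        haveI := hUV.2.2.1
        rw [hTr_iff _ _ _ inferInstance]
        exact Subgroup.mul_mem _ ((hTr_iff _ _ _ inferInstance).1 (ha U V hUV hU)) ((hTr_iff _ _ _ inferInstance).1 (hb U V hUV hU))
      inv_mem' := by
        intro a ha U V hUV hU
        haveI := hUV.2.2.1
        rw [hTr_iff _ _ _ inferInstance]
        exact Subgroup.inv_mem _ ((hTr_iff _ _ _ inferInstance).1 (ha U V hUV hU)) }
  refine ⟨K, ?_, ?_, ?_⟩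
  · refine ⟨fun n hn x U V hUV hU => ?_⟩
    haveI := hUV.2.2.1
    haveI := cm_normal (V := V) hUV.2.1
    rw [hTr_iff _ _ _ inferInstance]
    exact this.conj_mem _ ((hTr_iff _ _ _ inferInstance).1 (hn U V hUV hU)) x
  · obtain ⟨m, n, e1, ⟨a, ha⟩, hn⟩ := Cfsg.Agent.Lib.PPart.decomp p g
    have hsub : ∀ j : ℕ, Subgroup.zpowers (g ^ j) ≤ Subgroup.zpowers g := fun j => by
      rw [Subgroup.zpowers_le]; exact Subgroup.pow_mem _ (Subgroup.mem_zpowers _) _
    rw [e1]
    refine K.mul_mem ?_ ?_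
    · intro U V hUV hU
      haveI := hUV.2.2.1
      refine ser_chief hSer hUV (hB.to_le hU) (isPGroup_zpowers_of ha) ?_
      refine iter_le_of_le hp3 ?_
      show ⁅⁅U, Subgroup.zpowers (g ^ m)⁆, Subgroup.zpowers (g ^ m)⁆ ≤ V
      refine le_trans (Subgroup.commutator_mono (Subgroup.commutator_mono hU (hsub m)) (hsub m)) ?_
      rw [hq]; exact bot_le
    · -- the `p'`-part centralizes `B`
      have h1 : ⁅B, Subgroup.zpowers (g ^ n)⁆ = ⊥ := by
        have hcop : (Nat.card (Subgroup.zpowers (g ^ n))).Coprime (Nat.card B) := by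
          rw [Nat.card_zpowers]
          obtain ⟨j, hj⟩ := IsPGroup.iff_card.1 hB
          rw [hj]; exact Nat.Coprime.pow_right _ hn
        haveI := hB.isNilpotent
        have h2 := Cfsg.Agent.Lib.Coprime.commutator_commutator_eq (A := Subgroup.zpowers (g ^ n)) (K := B)
          (by rw [Subgroup.normalizer_eq_top]; exact le_top) hcop (Or.inr inferInstance)
        rw [← h2, eq_bot_iff, ← hq]
        exact Subgroup.commutator_mono (Subgroup.commutator_mono le_rfl (hsub n)) (hsub n)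
      intro U V hUV hU
      refine le_trans (Subgroup.commutator_mono hU le_rfl) ?_
      rw [h1]; exact bot_le
  · intro y hy ho
    have h1 := Cfsg.Agent.Lib.CritB.stable_centralizes (Z := ⊥) ho hB inferInstance (fun U V hUV hU _ => hy U V hUV hU)
      _ B rfl inferInstance le_rfl (Or.inr bot_le)
    rw [Subgroup.commutator_comm, Subgroup.commutator_eq_bot_iff_le_centralizer, Subgroup.zpowers_le] at h1
    exact h1

/-- stability -/
theorem Ser.stable {X : Type u} [Group X] [Finite X] (hp2 : p ≠ 2) (h : Ser p X) : IsNormalizerPStable p X := by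
  have hp : p.Prime := Fact.out
  rw [pstable_iff]
  intro B hB g hg hq
  set N := Subgroup.normalizer (B : Set X) with hN
  have hBN : B ≤ N := Subgroup.le_normalizer
  haveI hB'n : (B.subgroupOf N).Normal := Subgroup.normal_subgroupOf_of_le_normalizer le_rfl
  have hB'map : (B.subgroupOf N).map N.subtype = B := map_subtype_subgroupOf hBN
  obtain ⟨K, hKn, hgK, hcent⟩ := exists_triv hp2 (h.sub N) (B := B.subgroupOf N) hB.comap_subtype (g := ⟨g, hg⟩) (by
    rw [← Subgroup.map_eq_bot_iff_of_injective _ N.subtype_injective, Subgroup.map_commutator, Subgroup.map_commutator,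
      MonoidHom.map_zpowers, hB'map]
    exact hq)
  refine ⟨K.map N.subtype, Subgroup.map_subtype_le _, ?_, ⟨_, hgK, rfl⟩, ?_⟩
  · intro n hn
    refine mem_normalizer_of_le ?_
    rintro _ ⟨_, ⟨y, hy, rfl⟩, rfl⟩
    exact ⟨⟨n, hn⟩ * y * ⟨n, hn⟩⁻¹, hKn.conj_mem y hy _, rfl⟩
  · rintro _ ⟨y, hy, rfl⟩ ho
    have h1 := hcent y hy (by rwa [show orderOf (N.subtype y) = orderOf y from Subgroup.orderOf_coe y] at ho)
    rw [Subgroup.mem_centralizer_iff]
    intro b hb
    exact congrArg Subtype.val (Subgroup.mem_centralizer_iff.1 h1 ⟨b, hBN hb⟩ (Subgroup.mem_subgroupOf.2 hb))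

theorem Ser.sections {X : Type u} [Group X] [Finite X] (hp2 : p ≠ 2) (h : Ser p X) :
    ∀ (K R : Subgroup X) [hR : (R.subgroupOf K).Normal], IsNormalizerPStable p (K ⧸ R.subgroupOf K) := by
  intro K R _
  exact ((h.sub K).surj (QuotientGroup.mk' _) (QuotientGroup.mk'_surjective _)).stable hp2

end Cfsg.Agent.Lib.AbStab
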