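import Mathlib

set_option autoImplicit false
set_option linter.all false

namespace Cfsg.Agent.Lib.AltCent

open Equiv Equiv.Perm MulAction

theorem sign_hom_trivial {r : ℕ} (Φ : Perm (Fin r) →* ℤˣ) (σ : Perm (Fin r)) (hσ : σ ∈ alternatingGroup (Fin r)) : Φ σ = 1 := by
  rw [← Equiv.Perm.closure_three_cycles_eq_alternating] at hσ
  induction hσ using Subgroup.closure_induction with
  | mem x hx =>
    have h1 : x ^ 3 = 1 := by
      have := hx.orderOf
      rw [← this, pow_orderOf_eq_one]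
    have h2 : x = (x * x) * (x * x) := by
      calc x = x ^ 3 * x := by rw [h1, one_mul]
        _ = (x * x) * (x * x) := by simp [pow_succ, mul_assoc]
    rw [h2, map_mul]
    exact Int.units_mul_self _
  | one => exact map_one _
  | mul x y _ _ hx hy => rw [map_mul, hx, hy, one_mul]
  | inv x _ hx => rw [map_inv, hx, inv_one]

theorem main : ∃ f : ℕ → ℕ → ℕ, ∀ (m r : ℕ) (H : Subgroup ↥(alternatingGroup (Fin m))), f (Nat.card H) r ≤ m →
      ∃ K : Subgroup ↥(alternatingGroup (Fin m)), Nonempty (↥K ≃* ↥(alternatingGroup (Fin r))) ∧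
        K ≤ Subgroup.centralizer (H : Set ↥(alternatingGroup (Fin m))) := by
  classical
  refine ⟨fun n r => n * (2 ^ n * (r + 1)), ?_⟩
  intro m r H hm
  have : Fintype H := Fintype.ofFinite _
  have : Fintype (orbitRel.Quotient H (Fin m)) := Fintype.ofFinite _
  -- number of orbits
  have h1 : m ≤ Nat.card H * Fintype.card (orbitRel.Quotient H (Fin m)) := by
    have h2 : m = ∑ o : orbitRel.Quotient H (Fin m), Nat.card o.orbit := by
      rw [← Nat.card_sigma, ← Nat.card_congr (MulAction.selfEquivSigmaOrbits' H (Fin m)), Nat.card_eq_fintype_card, Fintype.card_fin]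
    have h3 : ∀ o : orbitRel.Quotient H (Fin m), Nat.card o.orbit ≤ Nat.card H := by
      intro o
      obtain ⟨x, rfl⟩ := Quotient.exists_rep o
      have h4 : Nat.card (orbit H x) ≤ Nat.card H := by
        rw [Nat.card_congr (orbitEquivQuotientStabilizer H x)]
        exact Nat.card_le_card_of_surjective _ (Quotient.mk''_surjective)
      exact h4
    calc m = ∑ o : orbitRel.Quotient H (Fin m), Nat.card o.orbit := h2
      _ ≤ ∑ o : orbitRel.Quotient H (Fin m), Nat.card H := Finset.sum_le_sum (fun o _ => h3 o)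
      _ = Nat.card H * Fintype.card (orbitRel.Quotient H (Fin m)) := by
        rw [Finset.sum_const, Finset.card_univ, smul_eq_mul, mul_comm]
  have h2 : Fintype.card (Set H) * (r + 1) ≤ Fintype.card (orbitRel.Quotient H (Fin m)) := by
    rw [Fintype.card_set, ← Nat.card_eq_fintype_card]
    exact Nat.le_of_mul_le_mul_left (hm.trans h1) Nat.card_pos
  obtain ⟨y, hy⟩ := Fintype.exists_le_card_fiber_of_mul_le_card (fun o : orbitRel.Quotient H (Fin m) => ((stabilizer H o.out : Subgroup H) : Set H)) h2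
  set s := Finset.univ.filter (fun o : orbitRel.Quotient H (Fin m) => ((stabilizer H o.out : Subgroup H) : Set H) = y) with hs
  have hsne : s.Nonempty := by
    rw [← Finset.card_pos]; omega
  obtain ⟨o0, ho0⟩ := hsne
  have hs' : ∀ o ∈ s, stabilizer H o.out = stabilizer H o0.out := by
    intro o ho
    rw [hs, Finset.mem_filter] at ho ho0
    apply SetLike.coe_injective
    rw [ho.2, ho0.2]
  let K0 : Subgroup H := stabilizer H o0.out
  -- embedding
  have hcs : Fintype.card (Fin r) ≤ Fintype.card s := by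
    rw [Fintype.card_fin, Fintype.card_coe]; omega
  obtain ⟨o⟩ : Nonempty (Fin r ↪ s) := Function.Embedding.nonempty_of_card_le hcs
  let x : Fin r → Fin m := fun i => (o i).1.out
  have hx : ∀ i, stabilizer H (x i) = K0 := fun i => hs' _ (o i).2
  have hxo : ∀ i, (Quotient.mk'' (x i) : orbitRel.Quotient H (Fin m)) = (o i).1 := fun i => Quotient.out_eq' _
  have hwd : ∀ (i : Fin r) (g h : H), QuotientGroup.leftRel K0 g h → g • x i = h • x i := by
    intro i g h hgh
    rw [QuotientGroup.leftRel_apply, ← hx i, mem_stabilizer_iff, mul_smul] at hgh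
    rw [inv_smul_eq_iff] at hgh
    exact hgh.symm
  let j : Fin r × (H ⧸ K0) → Fin m := fun p => Quotient.liftOn' p.2 (fun h => h • x p.1) (fun g h hgh => hwd p.1 g h hgh)
  have hj : ∀ i (h : H), j (i, (h : H ⧸ K0)) = h • x i := fun i h => rfl
  have hjinj : Function.Injective j := by
    rintro ⟨i, q⟩ ⟨i', q'⟩ hjj
    obtain ⟨g, rfl⟩ := QuotientGroup.mk_surjective q
    obtain ⟨h, rfl⟩ := QuotientGroup.mk_surjective q'
    rw [hj, hj] at hjj
    have e1 : i = i' := by
      apply o.injective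
      apply Subtype.ext
      rw [← hxo, ← hxo]
      apply Quotient.sound'
      show x i ∈ orbit H (x i')
      refine ⟨g⁻¹ * h, ?_⟩
      show (g⁻¹ * h) • x i' = x i
      rw [mul_smul, ← hjj, inv_smul_smul]
    subst e1
    have e2 : (g : H ⧸ K0) = (h : H ⧸ K0) := by
      rw [QuotientGroup.eq, ← hx i, mem_stabilizer_iff, mul_smul, ← hjj, inv_smul_smul]
    rw [e2]
  let J : Fin r × (H ⧸ K0) ↪ Fin m := ⟨j, hjinj⟩
  let θ : Perm (Fin r) →* Perm (Fin r × (H ⧸ K0)) :=
    { toFun := fun σ => Equiv.prodCongr σ (Equiv.refl _)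
      map_one' := rfl
      map_mul' := fun a b => rfl }
  let Φ : Perm (Fin r) →* Perm (Fin m) := (Equiv.Perm.viaEmbeddingHom J).comp θ
  have hΦ1 : ∀ σ i q, Φ σ (j (i, q)) = j (σ i, q) := by
    intro σ i q
    show (θ σ).viaEmbedding J (J (i, q)) = _
    rw [Equiv.Perm.viaEmbedding_apply]
    rfl
  have hΦ2 : ∀ σ y, y ∉ Set.range j → Φ σ y = y := by
    intro σ y hy
    exact Equiv.Perm.viaEmbedding_apply_of_notMem _ _ _ hy
  have hΦinj : Function.Injective Φ := by
    intro a b hab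
    ext i
    have h3 : Φ a (j (i, ((1 : H) : H ⧸ K0))) = Φ b (j (i, ((1 : H) : H ⧸ K0))) := by rw [hab]
    rw [hΦ1, hΦ1] at h3
    have h4 := hjinj h3
    have h5 : a i = b i := congrArg Prod.fst h4
    rw [h5]
  have hsign : ∀ σ : alternatingGroup (Fin r), Φ σ.1 ∈ alternatingGroup (Fin m) := by
    intro σ
    exact sign_hom_trivial (Equiv.Perm.sign.comp Φ) σ.1 σ.2
  let Ψ : alternatingGroup (Fin r) →* alternatingGroup (Fin m) := (Φ.comp (alternatingGroup (Fin r)).subtype).codRestrict _ hsign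
  have hΨ : Function.Injective Ψ := by
    intro a b hab
    apply Subtype.ext
    exact hΦinj (congrArg Subtype.val hab)
  refine ⟨Ψ.range, ⟨(MonoidHom.ofInjective hΨ).symm⟩, ?_⟩
  rintro _ ⟨σ, rfl⟩
  rw [Subgroup.mem_centralizer_iff]
  intro h hh
  apply Subtype.ext
  ext1 y
  show (h : Perm (Fin m)) (Φ σ.1 y) = Φ σ.1 ((h : Perm (Fin m)) y)
  by_cases hy : y ∈ Set.range j
  · obtain ⟨⟨i, q⟩, rfl⟩ := hy
    obtain ⟨g, rfl⟩ := QuotientGroup.mk_surjective q
    have e3 : ∀ i, (h : Perm (Fin m)) (j (i, (g : H ⧸ K0))) = j (i, (((⟨h, hh⟩ : H) * g : H) : H ⧸ K0)) := by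
      intro i
      rw [hj, hj, mul_smul]
      rfl
    rw [hΦ1, e3, e3, hΦ1]
  · have hy' : (h : Perm (Fin m)) y ∉ Set.range j := by
      rintro ⟨⟨i, q⟩, hiq⟩
      apply hy
      obtain ⟨g, rfl⟩ := QuotientGroup.mk_surjective q
      refine ⟨(i, (((⟨h, hh⟩ : H)⁻¹ * g : H) : H ⧸ K0)), ?_⟩
      rw [hj, mul_smul, ← hj, hiq]
      exact inv_smul_smul (⟨h, hh⟩ : H) y
    rw [hΦ2 _ _ hy, hΦ2 _ _ hy']

end Cfsg.Agent.Lib.AltCent
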