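import Mathlib
import Cfsg.Agent.Lib.BForm3
import Cfsg.Agent.Lib.Orth2

/-! Semisimple elements of odd order of orthogonal groups. -/

set_option linter.all false
set_option maxHeartbeats 400000

namespace Cfsg.Agent.Lib.BForm

open Cfsg.Agent.Lib.Orth QuadraticMap

section Orth

variable {F : Type*} [Field F] {V : Type*} [AddCommGroup V] [Module F V] [FiniteDimensional F V]

theorem polarBilin_nd {Q : QuadraticForm F V} (hQ : ND Q) : (QuadraticMap.polarBilin Q).Nondegenerate := hQ

theorem orth_conj [Finite F] {p : ℕ} [Fact p.Prime] [CharP F p] {Q : QuadraticForm F V} (hQ : ND Q) {T S : V ≃ₗ[F] V}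
    (hT : T ∈ O Q) (hS : S ∈ O Q) {N : ℕ} (hN : N.Coprime p) (hodd : Odd N) (hTN : (T : V →ₗ[F] V) ^ N = 1)
    (hSN : (S : V →ₗ[F] V) ^ N = 1)
    (k : V ≃ₗ[F] V) (hk : ∀ v, k (T v) = S (k v)) : ∃ g ∈ O Q, ∀ v, g (T v) = S (g v) := by
  classical
  set B : LinearMap.BilinForm F V := QuadraticMap.polarBilin Q with hB
  have hBa : ∀ x y, B x y = polar Q x y := fun x y => rfl
  have hBs : ∀ x y, B x y = B y x := fun x y => by rw [hBa, hBa, polar_comm]
  have hBnd : B.Nondegenerate := hQ
  set t : V →ₗ[F] V := T.toLinearMap with ht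
  set s : V →ₗ[F] V := S.toLinearMap with hs
  have hta : ∀ x, t x = T x := fun x => rfl
  have hsa : ∀ x, s x = S x := fun x => rfl
  have htB : ∀ x y, B (t x) (t y) = B x y := fun x y => polar_map hT x y
  have hsB : ∀ x y, B (s x) (s y) = B x y := fun x y => polar_map hS x y
  set P : V →ₗ[F] V := t - algebraMap F (Module.End F V) 1 with hP
  set R : V →ₗ[F] V := s - algebraMap F (Module.End F V) 1 with hR
  have hPa : ∀ x, P x = t x - x := by
    intro x
    rw [hP, LinearMap.sub_apply, Module.algebraMap_end_apply, one_smul]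
  have hRa : ∀ x, R x = s x - x := by
    intro x
    rw [hR, LinearMap.sub_apply, Module.algebraMap_end_apply, one_smul]
  have hPP : ∀ x, P (P x) = 0 → P x = 0 := by
    intro x hx
    have hPpol : P = Polynomial.aeval t (Polynomial.X - Polynomial.C (1 : F)) := by
      rw [map_sub, Polynomial.aeval_X, Polynomial.aeval_C]
    rw [hPpol] at hx ⊢
    exact semisimple_ker (p := p) hN hTN _ hx
  have hRR : ∀ x, R (R x) = 0 → R x = 0 := by
    intro x hx
    have hPpol : R = Polynomial.aeval s (Polynomial.X - Polynomial.C (1 : F)) := by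
      rw [map_sub, Polynomial.aeval_X, Polynomial.aeval_C]
    rw [hPpol] at hx ⊢
    exact semisimple_ker (p := p) hN hSN _ hx
  have hcP := isCompl_ker_range hPP
  have hcR := isCompl_ker_range hRR
  have hoP := orth_ker_range htB 1 (by ring)
  have hoR := orth_ker_range hsB 1 (by ring)
  have hinvP : ∀ x ∈ LinearMap.range P, t x ∈ LinearMap.range P := by
    rintro _ ⟨x, rfl⟩
    exact ⟨t x, by rw [hPa, hPa, map_sub]⟩
  have hinvR : ∀ x ∈ LinearMap.range R, s x ∈ LinearMap.range R := by
    rintro _ ⟨x, rfl⟩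
    exact ⟨s x, by rw [hRa, hRa, map_sub]⟩
  have hkr : (LinearMap.range P).map k.toLinearMap = LinearMap.range R := by
    ext y
    constructor
    · rintro ⟨_, ⟨x, rfl⟩, rfl⟩
      refine ⟨k x, ?_⟩
      show R (k x) = k (P x)
      rw [hPa, hRa, map_sub, hta, hk]
      rfl
    · rintro ⟨x, rfl⟩
      obtain ⟨z, rfl⟩ := k.surjective x
      refine ⟨P z, ⟨z, rfl⟩, ?_⟩
      show k (P z) = R (k z)
      rw [hPa, hRa, map_sub, hta, hk]
      rfl
  let kU : LinearMap.range P ≃ₗ[F] LinearMap.range R := LinearEquiv.ofSubmodules k _ _ hkr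
  have hkU : ∀ x, ((kU x : LinearMap.range R) : V) = k (x : V) := fun x => rfl
  have hunit : IsUnit ((t.restrict hinvP) * (t.restrict hinvP) - 1) := by
    apply isUnit_of_inj
    intro x hx
    have hx' : t (t (x : V)) = (x : V) := sub_eq_zero.mp (congrArg Subtype.val hx)
    have hpow : ∀ j : ℕ, (t ^ (2 * j)) (x : V) = (x : V) := by
      intro j
      induction j with
      | zero => rfl
      | succ j ih =>
        have e : 2 * (j + 1) = 2 * j + 1 + 1 := by ring
        rw [e, pow_succ, pow_succ]
        show (t ^ (2 * j)) (t (t (x : V))) = (x : V)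
        rw [hx', ih]
    obtain ⟨j, hj⟩ := hodd
    have h3 : t (x : V) = (x : V) := by
      have h4 : (t ^ N) (x : V) = (x : V) := by
        have : (t ^ N) = 1 := hTN
        rw [this]; rfl
      rw [hj, pow_succ'] at h4
      have h5 : (t * t ^ (2 * j)) (x : V) = t ((t ^ (2 * j)) (x : V)) := rfl
      rw [h5, hpow] at h4
      exact h4
    have h4 : (x : V) ∈ LinearMap.ker P := by rw [LinearMap.mem_ker, hPa, h3, sub_self]
    apply Subtype.ext
    have h5 := hcP.disjoint
    rw [Submodule.disjoint_def] at h5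
    exact h5 _ h4 x.2
  obtain ⟨k', hk1, hk2⟩ := iso_of_conj (B := B.restrict (LinearMap.range P)) (C := B.restrict (LinearMap.range R))
    (nondeg_restrict hBnd hcP.symm (fun x hx y hy => ((hoP y hy x hx).symm)))
    (nondeg_restrict hBnd hcR.symm (fun x hx y hy => ((hoR y hy x hx).symm))) 1
    (fun x y => by rw [one_mul]; exact hBs _ _) (fun x y => by rw [one_mul]; exact hBs _ _)
    (T := t.restrict hinvP) (S := s.restrict hinvR) (fun x y => htB _ _) (fun x y => hsB _ _) hunit kU
    (fun v => Subtype.ext (hk v))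
  have hk1' : ∀ v : LinearMap.range P, ((k' (t.restrict hinvP v) : LinearMap.range R) : V) = S ((k' v : LinearMap.range R) : V) :=
    fun v => congrArg Subtype.val (hk1 v)
  have hk2' : ∀ x y : LinearMap.range P, polar Q ((k' x : LinearMap.range R) : V) ((k' y : LinearMap.range R) : V) = polar Q (x : V) (y : V) :=
    fun x y => hk2 x y
  -- the quadratic form is preserved
  let f : LinearMap.range P → F := fun x => Q ((k' x : LinearMap.range R) : V) - Q (x : V)
  have hfadd : ∀ x y, f (x + y) = f x + f y := by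
    intro x y
    show Q ((k' (x + y) : LinearMap.range R) : V) - Q ((x + y : LinearMap.range P) : V) = _
    rw [map_add, Submodule.coe_add, Submodule.coe_add, map_add', map_add', hk2']
    ring
  have hfT : ∀ x, f (t.restrict hinvP x) = f x := by
    intro x
    show Q ((k' (t.restrict hinvP x) : LinearMap.range R) : V) - Q (t (x : V)) = _
    rw [hk1', hS, hta, hT]
  have hf0 : ∀ x, f x = 0 := by
    intro x
    -- `t - 1` is surjective on the range
    have hsurj : ∃ y : LinearMap.range P, t.restrict hinvP y - y = x := by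
      have hinj : Function.Injective (t.restrict hinvP - 1 : LinearMap.range P →ₗ[F] LinearMap.range P) := by
        rw [injective_iff_map_eq_zero]
        intro y hy
        have h3 : t (y : V) - (y : V) = 0 := congrArg Subtype.val hy
        have h4 : (y : V) ∈ LinearMap.ker P := by rw [LinearMap.mem_ker, hPa, h3]
        apply Subtype.ext
        have h5 := hcP.disjoint
        rw [Submodule.disjoint_def] at h5
        exact h5 _ h4 y.2
      obtain ⟨y, hy⟩ := (LinearMap.injective_iff_surjective.mp hinj) x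
      exact ⟨y, hy⟩
    obtain ⟨y, rfl⟩ := hsurj
    have h6 := hfadd (t.restrict hinvP y - y) y
    rw [sub_add_cancel, hfT] at h6
    have h7 : f (t.restrict hinvP y - y) + f y = 0 + f y := by rw [← h6, zero_add]
    exact add_right_cancel h7
  obtain ⟨g, hg, hgU⟩ := witt hQ (LinearMap.range P) ((LinearMap.range R).subtype ∘ₗ k'.toLinearMap)
    (Subtype.coe_injective.comp k'.injective) (by
      intro x
      have := hf0 x
      exact sub_eq_zero.mp this)
  have hgU' : ∀ x : LinearMap.range P, g (x : V) = ((k' x : LinearMap.range R) : V) := hgU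
  have hgB : ∀ x y, B (g x) (g y) = B x y := fun x y => polar_map hg x y
  refine ⟨g, hg, ?_⟩
  -- `g` maps `ker P` to `ker R`
  have hker : ∀ x ∈ LinearMap.ker P, S (g x) = g x := by
    intro x hx
    have h1 : ∀ y ∈ LinearMap.range R, B (g x) y = 0 := by
      intro y hy
      obtain ⟨z, hz⟩ := k'.surjective ⟨y, hy⟩
      have h2 : y = g (z : V) := by rw [hgU', hz]
      rw [h2, hgB]
      exact (hoP x hx _ z.2).1
    rw [← sub_eq_zero]
    apply hQ.eq_zero
    intro y
    show B (S (g x) - g x) y = 0
    obtain ⟨z, rfl⟩ := S.surjective y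
    rw [map_sub, LinearMap.sub_apply]
    have h3 : B (S (g x)) (S z) = B (g x) z := hsB _ _
    rw [h3]
    have h4 := h1 (R z) ⟨z, rfl⟩
    rw [hRa, map_sub, sub_eq_zero] at h4
    rw [sub_eq_zero]
    exact h4.symm
  intro v
  obtain ⟨a, b, rfl⟩ : ∃ (a : LinearMap.ker P) (b : LinearMap.range P), v = a + b :=
    ⟨((Submodule.prodEquivOfIsCompl _ _ hcP).symm v).1, ((Submodule.prodEquivOfIsCompl _ _ hcP).symm v).2,
      ((Submodule.prodEquivOfIsCompl _ _ hcP).apply_symm_apply v).symm⟩
  have ha : T (a : V) = (a : V) := by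
    have := a.2
    rw [LinearMap.mem_ker, hPa, sub_eq_zero] at this
    exact this
  rw [map_add, map_add, map_add, map_add, ha, hker _ a.2]
  congr 1
  have h1 : T (b : V) = ((t.restrict hinvP b : LinearMap.range P) : V) := rfl
  rw [h1, hgU', hk1', hgU']

end Orth

end Cfsg.Agent.Lib.BForm
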