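import Cfsg.Agent.Lib.BSuzI
import Cfsg.Agent.Lib.CharMod

/-!
The principal 2-block of a group with quaternion Sylow 2-subgroup, helper3.
-/

set_option autoImplicit false
set_option linter.style.haveILetI false
set_option linter.unusedVariables false
set_option linter.unusedSectionVars false
set_option linter.unusedDecidableInType false
set_option linter.unusedFintypeInType false
set_option linter.unusedSimpArgs false

namespace Cfsg.Agent.Lib.BSuz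
open Cfsg Cfsg.Agent.Lib.BlockQuotB Cfsg.Agent.Lib.BlockQuot Cfsg.Agent.Lib.BlockCov
open Cfsg.Agent.Lib.BlockM Cfsg.Agent.Lib.BlockHt Cfsg.Agent.Lib.BlockFirst
open Cfsg.Agent.Lib.BlockSecond Cfsg.Agent.Lib.BlockInd Cfsg.Agent.Lib.BlockNP
open Cfsg.Agent.Lib.BlockDeg Cfsg.Agent.Lib.BlockDef Cfsg.Agent.Lib.BlockRed
open Cfsg.Agent.Lib.BlockOrth Cfsg.Agent.Lib.BlockIdem Cfsg.Agent.Lib.BlockGA
open Cfsg.Agent.Lib.BlockLoc Cfsg.Agent.Lib.CharBasic Cfsg.Agent.Lib.BlockPP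
open Cfsg.Agent.Lib.PNilp Cfsg.Agent.Lib.QuatSyl Cfsg.Agent.Lib.CharLin
open scoped ComplexConjugate

universe u

section Local

variable {H : Type u} [Group H] [Finite H] {M : Ideal AlgInt} {S : Sylow 2 H} {a b : H}

theorem Loc.local_data' (h : Loc S a b) (hM : IsPModular 2 M) : ∃ (O : Finset (IrrCharacter H)) (P1 P2 : H → ℂ),
    O ⊆ B0 M H ∧ O.card + 4 = (B0 M H).card ∧ (∀ ψ ∈ O, ∀ g, ψ.1 (a ^ 2 * g) = - ψ.1 g) ∧
    (∀ v0 v : H, ¬ 2 ∣ orderOf v0 → ¬ 2 ∣ orderOf v → ∑ ψ ∈ O, ψ.1 v0 * ψ.1 v =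
      1 + P1 v0 * P1 v + P2 v0 * P2 v + (1 + P1 v0 + P2 v0) * (1 + P1 v + P2 v)) ∧
    (∀ ψ ∈ B0 M H, ∃ c0 c1 c2 : ℤ, ∀ v : H, ¬ 2 ∣ orderOf v → ψ.1 v = c0 + c1 * P1 v + c2 * P2 v) ∧
    (∀ c0 c1 c2 : ℂ, (∀ v : H, ¬ 2 ∣ orderOf v → c0 + c1 * P1 v + c2 * P2 v = 0) → c0 = 0 ∧ c1 = 0 ∧ c2 = 0) := by
  classical
  cases nonempty_fintype H
  have ht := triv_mem_B0 (G := H) hM
  have hA4 := h.a4
  choose n hn using fun χ : IrrCharacter H => int_val4 χ hA4 h.two_dvd (h.inv_eq χ)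
  have hnt : n (triv H) = 1 := by
    have h1 := hn (triv H)
    have h2 : (triv H).1 a = 1 := rfl
    rw [h2] at h1; exact_mod_cast h1.symm
  have hsum : ∑ χ ∈ B0 M H, n χ ^ 2 = 4 := by
    have h1 := QSkernel hM h.qs (Subgroup.mem_zpowers a) h.zne (Subgroup.mem_zpowers a) h.zne
    rw [if_pos (Or.inl rfl)] at h1
    have h2 : ((∑ χ ∈ B0 M H, n χ ^ 2 : ℤ) : ℂ) = 4 := by
      push_cast
      rw [show (4 : ℂ) = 2 ^ (1 + 1) by norm_num, ← h1]
      refine Finset.sum_congr rfl fun χ _ => ?_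
      rw [h.inv_eq, hn]; ring
    exact_mod_cast h2
  have hsum3 : ∑ χ ∈ (B0 M H).erase (triv H), n χ ^ 2 = 3 := by
    have h3 : n (triv H) ^ 2 + ∑ χ ∈ (B0 M H).erase (triv H), n χ ^ 2 = 4 := by
      rw [← hsum]; exact Finset.add_sum_erase (B0 M H) (fun k => n k ^ 2) ht
    rw [hnt] at h3; linarith
  obtain ⟨ψ1, h1, ψ2, h2, ψ3, h3, h12, h13, h23, e1, e2, e3, h0⟩ := int_three _ n hsum3
  have hz0 : ∀ χ ∈ (B0 M H).erase (triv H), χ ≠ ψ1 → χ ≠ ψ2 → χ ≠ ψ3 → ∀ g, χ.1 (a ^ 2 * g) = - χ.1 g := by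
    intro χ hχ hχ1 hχ2 hχ3
    rcases central_val h.cen h.zsq χ with h5 | h5
    · exfalso
      apply h.ne_of_ker hM (Finset.mem_of_mem_erase hχ) h5
      rw [hn, h0 χ hχ hχ1 hχ2 hχ3]; simp
    · exact h5
  have s1 := pm_sq e1
  have s2 := pm_sq e2
  have s3 := pm_sq e3
  have ne1 : ψ1.1 a ≠ 0 := by rw [hn]; rcases e1 with h | h <;> rw [h] <;> norm_num
  have ne2 : ψ2.1 a ≠ 0 := by rw [hn]; rcases e2 with h | h <;> rw [h] <;> norm_num
  have ne3 : ψ3.1 a ≠ 0 := by rw [hn]; rcases e3 with h | h <;> rw [h] <;> norm_num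
  have z1 := h.of_ne ne1
  have z2 := h.of_ne ne2
  have z3 := h.of_ne ne3
  -- the relation
  have rel : ∀ g : H, (pp 2 g) ^ 2 = 1 → 1 + (n ψ1 * ψ1.1 g + n ψ2 * ψ2.1 g + n ψ3 * ψ3.1 g) = 0 := by
    intro g hg
    have h5 : ∑ χ ∈ B0 M H, χ.1 a * χ.1 (g⁻¹)⁻¹ = 0 := by
      apply B0_orth hM
      rw [pp_eq_self Nat.prime_two (QStwo_pow h.qs (Subgroup.mem_zpowers a)), pp_inv Nat.prime_two]
      intro hcj
      apply h.zne
      obtain ⟨c, hc⟩ := isConj_iff.mp hcj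
      have h3 : a = c⁻¹ * (pp 2 g)⁻¹ * c := by rw [← hc]; group
      rw [h3]
      have : (c⁻¹ * (pp 2 g)⁻¹ * c) ^ 2 = c⁻¹ * ((pp 2 g) ^ 2)⁻¹ * c := by rw [sq, sq]; group
      rw [this, hg]; group
    rw [inv_inv, sum_four ht h1 h2 h3 h12 h13 h23 (fun χ => χ.1 a * χ.1 g) (by
      intro k hk hk1 hk2 hk3
      rw [hn, h0 k hk hk1 hk2 hk3]; simp)] at h5
    have et : (triv H).1 a = 1 := rfl
    have et' : (triv H).1 g = 1 := rfl
    rw [et, et', hn, hn, hn, one_mul] at h5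
    exact h5
  have relr : ∀ g : H, ¬ 2 ∣ orderOf g → 1 + (n ψ1 * ψ1.1 g + n ψ2 * ψ2.1 g + n ψ3 * ψ3.1 g) = 0 := by
    intro g hg
    apply rel
    rw [(pp_eq_one_iff Nat.prime_two g).mpr hg, one_pow]
  obtain ⟨d1, -, hd1⟩ := isIrr_one_eq ψ1.2
  obtain ⟨d2, -, hd2⟩ := isIrr_one_eq ψ2.2
  have hao : ∃ k, orderOf a = 2 ^ k := QStwo_pow h.qs (Subgroup.mem_zpowers a)
  have hm1 : ψ1 ∈ (B0 M H).erase (triv H) := h1
  have hm2 : ψ2 ∈ ((B0 M H).erase (triv H)).erase ψ1 := Finset.mem_erase.mpr ⟨h12.symm, h2⟩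
  have hm3 : ψ3 ∈ (((B0 M H).erase (triv H)).erase ψ1).erase ψ2 :=
    Finset.mem_erase.mpr ⟨h23.symm, Finset.mem_erase.mpr ⟨h13.symm, h3⟩⟩
  refine ⟨((((B0 M H).erase (triv H)).erase ψ1).erase ψ2).erase ψ3, fun g => n ψ1 * ψ1.1 g,
    fun g => n ψ2 * ψ2.1 g, ?_, ?_, ?_, ?_, ?_, ?_⟩
  · intro ψ hψ
    simp only [Finset.mem_erase] at hψ
    exact hψ.2.2.2.2
  · rw [Finset.card_erase_of_mem hm3, Finset.card_erase_of_mem hm2, Finset.card_erase_of_mem hm1,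
      Finset.card_erase_of_mem ht]
    have c1 : 0 < (B0 M H).card := Finset.card_pos.mpr ⟨_, ht⟩
    have c2 : 0 < ((B0 M H).erase (triv H)).card := Finset.card_pos.mpr ⟨_, hm1⟩
    have c3 : 0 < (((B0 M H).erase (triv H)).erase ψ1).card := Finset.card_pos.mpr ⟨_, hm2⟩
    have c4 : 0 < ((((B0 M H).erase (triv H)).erase ψ1).erase ψ2).card := Finset.card_pos.mpr ⟨_, hm3⟩
    rw [Finset.card_erase_of_mem ht] at c2
    rw [Finset.card_erase_of_mem hm1, Finset.card_erase_of_mem ht] at c3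
    rw [Finset.card_erase_of_mem hm2, Finset.card_erase_of_mem hm1, Finset.card_erase_of_mem ht] at c4
    omega
  · intro ψ hψ
    simp only [Finset.mem_erase] at hψ
    exact hz0 ψ (Finset.mem_erase.mpr ⟨hψ.2.2.2.1, hψ.2.2.2.2⟩) hψ.2.2.1 hψ.2.1 hψ.1
  · -- the kernel
    intro v0 v hv0 hv
    have hT' : ∑ ψ ∈ B0 M H, ψ.1 (a ^ 2 * v) * ψ.1 (v0⁻¹)⁻¹ = 0 := by
      apply B0_orth hM
      rw [(h.pp_z v).mpr ((pp_eq_one_iff Nat.prime_two v).mpr hv), pp_inv Nat.prime_two,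
        (pp_eq_one_iff Nat.prime_two v0).mpr hv0, inv_one]
      intro hcj
      exact h.zne (isConj_one_left.mp hcj)
    have h5 : ∑ ψ ∈ B0 M H, ψ.1 v0 * ψ.1 v = ∑ ψ ∈ B0 M H, ψ.1 v0 * (ψ.1 v + ψ.1 (a ^ 2 * v)) := by
      rw [← sub_eq_zero, ← Finset.sum_sub_distrib, ← neg_eq_zero, ← Finset.sum_neg_distrib, ← hT']
      refine Finset.sum_congr rfl fun ψ _ => ?_
      rw [inv_inv]; ring
    have h6 := h5
    rw [sum_four ht h1 h2 h3 h12 h13 h23 (fun ψ => ψ.1 v0 * (ψ.1 v + ψ.1 (a ^ 2 * v))) (by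
      intro k hk hk1 hk2 hk3
      rw [hz0 k hk hk1 hk2 hk3]; ring)] at h6
    have et : ∀ x, (triv H).1 x = 1 := fun x => rfl
    have hOsum : ∑ ψ ∈ B0 M H, ψ.1 v0 * ψ.1 v = (1 + ψ1.1 v0 * ψ1.1 v + ψ2.1 v0 * ψ2.1 v + ψ3.1 v0 * ψ3.1 v) +
        ∑ ψ ∈ ((((B0 M H).erase (triv H)).erase ψ1).erase ψ2).erase ψ3, ψ.1 v0 * ψ.1 v := by
      rw [← Finset.add_sum_erase _ _ ht, ← Finset.add_sum_erase _ _ hm1, ← Finset.add_sum_erase _ _ hm2,
        ← Finset.add_sum_erase _ _ hm3, et, et]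
      ring
    rw [hOsum] at h6
    simp only [et] at h6
    rw [z1, z2, z3] at h6
    have r0 := relr v0 hv0
    have r := relr v hv
    have f0 : (n ψ3 : ℂ) * ψ3.1 v0 = -(1 + n ψ1 * ψ1.1 v0 + n ψ2 * ψ2.1 v0) := by linear_combination r0
    have f : (n ψ3 : ℂ) * ψ3.1 v = -(1 + n ψ1 * ψ1.1 v + n ψ2 * ψ2.1 v) := by linear_combination r
    have g3 : ψ3.1 v0 * ψ3.1 v = (1 + n ψ1 * ψ1.1 v0 + n ψ2 * ψ2.1 v0) * (1 + n ψ1 * ψ1.1 v + n ψ2 * ψ2.1 v) := by
      have : ψ3.1 v0 * ψ3.1 v = ((n ψ3 : ℂ) * ψ3.1 v0) * ((n ψ3 : ℂ) * ψ3.1 v) := by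
        linear_combination (-(ψ3.1 v0 * ψ3.1 v)) * s3
      rw [this, f0, f]; ring
    have g1 : ψ1.1 v0 * ψ1.1 v = (n ψ1 * ψ1.1 v0) * (n ψ1 * ψ1.1 v) := by
      linear_combination (-(ψ1.1 v0 * ψ1.1 v)) * s1
    have g2 : ψ2.1 v0 * ψ2.1 v = (n ψ2 * ψ2.1 v0) * (n ψ2 * ψ2.1 v) := by
      linear_combination (-(ψ2.1 v0 * ψ2.1 v)) * s2
    linear_combination h6 + g1 + g2 + g3
  · -- integral combinations
    intro ψ hψ
    have hgen := gen_pq Nat.prime_two (isChar_of_irr ψ.2)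
    choose c hc using fun χ : IrrCharacter H => gen_int_inner hgen χ
    refine ⟨c (triv H) - c ψ3 * n ψ3, c ψ1 * n ψ1 - c ψ3 * n ψ3, c ψ2 * n ψ2 - c ψ3 * n ψ3, ?_⟩
    intro v hv
    have k1 : blockPart (principalBlock M H) ((fun g => ψ.1 (pq 2 g)) - ψ.1) v = 0 := by
      apply blockPart_vanish hM (isLoc_eB hM (principal_isPBlock M H))
      intro g hg
      rw [(pp_eq_one_iff Nat.prime_two v).mpr hv] at hg
      have hg1 : pp 2 g = 1 := isConj_one_right.mp hg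
      rw [Pi.sub_apply, pq_eq_self Nat.prime_two ((pp_eq_one_iff Nat.prime_two g).mp hg1), sub_self]
    rw [blockPart_sub, blockPart_irr_mem (mem_B0.mp hψ), blockPart_eq, ← B0_eq,
      sum_four ht h1 h2 h3 h12 h13 h23 (fun χ => classInner (fun g => ψ.1 (pq 2 g)) χ.1 * χ.1 v) (by
        intro k hk hk1 hk2 hk3
        have h6 : classInner (fun g => ψ.1 (pq 2 g)) k.1 = - classInner (fun g => ψ.1 (pq 2 g)) k.1 := by
          conv_lhs => rw [classInner_def, ← Equiv.sum_comp (Equiv.mulLeft (a ^ 2))]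
          rw [classInner_def, ← mul_neg, ← Finset.sum_neg_distrib]
          congr 1
          refine Finset.sum_congr rfl fun g _ => ?_
          rw [Equiv.coe_mulLeft]
          simp only [h.pq_z, hz0 k hk hk1 hk2 hk3, map_neg]
          ring
        have h7 : (2 : ℂ) * classInner (fun g => ψ.1 (pq 2 g)) k.1 = 0 := by linear_combination h6
        rcases mul_eq_zero.mp h7 with h8 | h8
        · norm_num at h8
        · rw [h8, zero_mul]), hc, hc, hc, hc] at k1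
    have et : (triv H).1 v = 1 := rfl
    rw [et] at k1
    have r := relr v hv
    push_cast
    linear_combination -k1 - (c ψ3 * ψ3.1 v) * s3 + (c ψ3 * n ψ3) * r - (c ψ1 * ψ1.1 v) * s1
        - (c ψ2 * ψ2.1 v) * s2
  · -- independence
    intro c0 c1 c2 hc
    set F : H → ℂ := c0 • (triv H).1 + (c1 * n ψ1) • ψ1.1 + (c2 * n ψ2) • ψ2.1 with hF
    have hFv : ∀ g, F g = c0 + c1 * (n ψ1 * ψ1.1 g) + c2 * (n ψ2 * ψ2.1 g) := by
      intro g
      have et : (triv H).1 g = 1 := rfl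
      simp only [hF, Pi.add_apply, Pi.smul_apply, smul_eq_mul, et]; ring
    have hF1 : ∀ g, (pp 2 g) ^ 2 = 1 → F g = 0 := by
      intro g hg
      rw [hFv]
      rcases h.pp_cases hg with h5 | h5
      · exact hc g ((pp_eq_one_iff Nat.prime_two g).mp h5)
      · rw [h.reg_z h5, z1, z2]
        exact hc _ (not_dvd_orderOf_pq Nat.prime_two g)
    have hF2 : ∀ g, (pp 2 g) ^ 2 ≠ 1 → F g = c0 + c1 + c2 := by
      intro g hg
      rw [hFv, h.val_a hM (Finset.mem_of_mem_erase h1) hg, h.val_a hM (Finset.mem_of_mem_erase h2) hg, hn, hn,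
        s1, s2]
      ring
    have o1 : classInner ψ1.1 ψ3.1 = 0 := irr_inner_ne ψ1.2 ψ3.2 (fun h5 => h13 (Subtype.ext h5))
    have o2 : classInner ψ2.1 ψ3.1 = 0 := irr_inner_ne ψ2.2 ψ3.2 (fun h5 => h23 (Subtype.ext h5))
    have ot : ∀ ψ ∈ (B0 M H).erase (triv H), classInner (triv H).1 ψ.1 = 0 := fun ψ hψ =>
      irr_inner_ne (triv H).2 ψ.2 (fun h5 => Finset.ne_of_mem_erase hψ (Subtype.ext h5.symm))
    have hin : classInner F ψ3.1 = 0 := by
      rw [hF, classInner_add_left, classInner_add_left, classInner_smul_left, classInner_smul_left,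
        classInner_smul_left, o1, o2, ot ψ3 h3]; ring
    have hc0 : c0 + c1 + c2 = 0 := by
      rw [classInner_def] at hin
      have h5 : ∀ g, F g * conj (ψ3.1 g) = if (pp 2 g) ^ 2 ≠ 1 then (c0 + c1 + c2) * n ψ3 else 0 := by
        intro g
        split_ifs with hg
        · rw [hF2 g hg, h.val_a hM (Finset.mem_of_mem_erase h3) hg, hn]; simp
        · rw [hF1 g (not_not.mp hg), zero_mul]
      rw [Finset.sum_congr rfl (fun g _ => h5 g), Finset.sum_ite, Finset.sum_const_zero, add_zero,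
        Finset.sum_const, nsmul_eq_mul] at hin
      have h6 : ((Finset.univ.filter (fun g : H => (pp 2 g) ^ 2 ≠ 1)).card : ℂ) ≠ 0 := by
        have : a ∈ Finset.univ.filter (fun g : H => (pp 2 g) ^ 2 ≠ 1) := by
          rw [Finset.mem_filter]
          refine ⟨Finset.mem_univ _, ?_⟩
          rw [pp_eq_self Nat.prime_two hao]; exact h.zne
        have := Finset.card_pos.mpr ⟨a, this⟩
        exact_mod_cast this.ne'
      rcases mul_eq_zero.mp hin with h7 | h7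
      · exact absurd h7 (inv_ne_zero card_ne_zero')
      · rcases mul_eq_zero.mp h7 with h8 | h8
        · exact absurd h8 h6
        · rcases mul_eq_zero.mp h8 with h9 | h9
          · exact h9
          · exfalso; rw [h9] at s3; simp at s3
    have hF0 : F = 0 := by
      funext g
      by_cases hg : (pp 2 g) ^ 2 = 1
      · exact hF1 g hg
      · rw [hF2 g hg, hc0]; rfl
    have i0 : classInner F (triv H).1 = c0 := by
      rw [hF, classInner_add_left, classInner_add_left, classInner_smul_left, classInner_smul_left,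
        classInner_smul_left, irr_inner_self (triv H).2,
        irr_inner_ne ψ1.2 (triv H).2 (fun h5 => Finset.ne_of_mem_erase h1 (Subtype.ext h5)),
        irr_inner_ne ψ2.2 (triv H).2 (fun h5 => Finset.ne_of_mem_erase h2 (Subtype.ext h5))]
      ring
    have i1 : classInner F ψ1.1 = c1 * n ψ1 := by
      rw [hF, classInner_add_left, classInner_add_left, classInner_smul_left, classInner_smul_left,
        classInner_smul_left, ot ψ1 h1, irr_inner_self ψ1.2,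
        irr_inner_ne ψ2.2 ψ1.2 (fun h5 => h12 (Subtype.ext h5.symm))]
      ring
    have i2 : classInner F ψ2.1 = c2 * n ψ2 := by
      rw [hF, classInner_add_left, classInner_add_left, classInner_smul_left, classInner_smul_left,
        classInner_smul_left, ot ψ2 h2, irr_inner_self ψ2.2,
        irr_inner_ne ψ1.2 ψ2.2 (fun h5 => h12 (Subtype.ext h5))]
      ring
    have iz : ∀ f : H → ℂ, classInner (0 : H → ℂ) f = 0 := by intro f; rw [classInner_def]; simp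
    rw [hF0, iz] at i0 i1 i2
    refine ⟨i0.symm, ?_, ?_⟩
    · linear_combination (-(n ψ1 : ℂ)) * i1 - c1 * s1
    · linear_combination (-(n ψ2 : ℂ)) * i2 - c2 * s2

theorem un1 {ι : Type*} [DecidableEq ι] (i j l : ι) : ({i, j} : Finset ι) ∪ {j, l} = {i, j, l} := by
  ext m; simp only [Finset.mem_union, Finset.mem_insert, Finset.mem_singleton]; tauto

theorem un2 {ι : Type*} [DecidableEq ι] (i j l : ι) : ({i, j} : Finset ι) ∪ {l, j} = {i, l, j} := by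
  ext m; simp only [Finset.mem_union, Finset.mem_insert, Finset.mem_singleton]; tauto

theorem un3 {ι : Type*} [DecidableEq ι] (i j l : ι) : ({i, j} : Finset ι) ∪ {i, l} = {j, i, l} := by
  ext m; simp only [Finset.mem_union, Finset.mem_insert, Finset.mem_singleton]; tauto

theorem un4 {ι : Type*} [DecidableEq ι] (i j l : ι) : ({i, j} : Finset ι) ∪ {l, i} = {j, l, i} := by
  ext m; simp only [Finset.mem_union, Finset.mem_insert, Finset.mem_singleton]; tauto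

set_option maxHeartbeats 400000 in
/-- two integer vectors of norm 2 and inner product 1 covering the index set: three indices -/
theorem card_three {ι : Type*} (s : Finset ι) (x y : ι → ℤ) (hx : ∑ i ∈ s, x i ^ 2 = 2) (hy : ∑ i ∈ s, y i ^ 2 = 2)
    (hxy : ∑ i ∈ s, x i * y i = 1) (hc : ∀ i ∈ s, x i ≠ 0 ∨ y i ≠ 0) : s.card = 3 := by
  classical
  obtain ⟨i, hi, j, hj, hij, ei, ej, h0⟩ := int_two s x hx
  obtain ⟨k, hk, l, hl, hkl, ek, el, h0'⟩ := int_two s y hy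
  have hs : s = {i, j} ∪ {k, l} := by
    ext m
    simp only [Finset.mem_union, Finset.mem_insert, Finset.mem_singleton]
    constructor
    · intro hm
      by_contra hcon
      push Not at hcon
      rcases hc m hm with h1 | h1
      · exact h1 (h0 m hm hcon.1.1 hcon.1.2)
      · exact h1 (h0' m hm hcon.2.1 hcon.2.2)
    · rintro ((rfl | rfl) | (rfl | rfl)) <;> assumption
  have hsum : ∑ m ∈ s, x m * y m = x i * y i + x j * y j := by
    rw [← Finset.add_sum_erase s _ hi, ← Finset.add_sum_erase (s.erase i) _ (Finset.mem_erase.mpr ⟨hij.symm, hj⟩),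
      Finset.sum_eq_zero (s := (s.erase i).erase j)]
    · ring
    · intro m hm
      simp only [Finset.mem_erase] at hm
      rw [h0 m hm.2.2 hm.2.1 hm.1]; ring
  rw [hsum] at hxy
  -- exactly one of i, j lies in {k, l}
  have hi' : (i = k ∨ i = l) ∨ y i = 0 := by
    by_cases h1 : i = k
    · exact Or.inl (Or.inl h1)
    · by_cases h2 : i = l
      · exact Or.inl (Or.inr h2)
      · exact Or.inr (h0' i hi h1 h2)
  have hj' : (j = k ∨ j = l) ∨ y j = 0 := by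
    by_cases h1 : j = k
    · exact Or.inl (Or.inl h1)
    · by_cases h2 : j = l
      · exact Or.inl (Or.inr h2)
      · exact Or.inr (h0' j hj h1 h2)
  have hyi : y i = 1 ∨ y i = -1 ∨ y i = 0 := by
    rcases hi' with (h | h) | h
    · rw [h]; rcases ek with h | h <;> simp [h]
    · rw [h]; rcases el with h | h <;> simp [h]
    · simp [h]
  have hyj : y j = 1 ∨ y j = -1 ∨ y j = 0 := by
    rcases hj' with (h | h) | h
    · rw [h]; rcases ek with h | h <;> simp [h]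
    · rw [h]; rcases el with h | h <;> simp [h]
    · simp [h]
  have hone : (y i = 0 ∧ y j ≠ 0) ∨ (y i ≠ 0 ∧ y j = 0) := by
    rcases ei with a1 | a1 <;> rcases ej with a2 | a2 <;> rcases hyi with a3 | a3 | a3 <;>
      rcases hyj with a4 | a4 | a4 <;> rw [a1, a2, a3, a4] at hxy <;> rw [a3, a4] <;> first | omega | simp
  have hyk : y k ≠ 0 := by rcases ek with h | h <;> rw [h] <;> norm_num
  have hyl : y l ≠ 0 := by rcases el with h | h <;> rw [h] <;> norm_num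
  rcases hone with ⟨b1, b2⟩ | ⟨b1, b2⟩
  · rcases hj' with (h1 | h1) | h1
    · subst h1
      have hil : i ≠ l := fun h => hyl (h ▸ b1)
      rw [hs]
      rw [un1]; exact Finset.card_eq_three.mpr ⟨i, j, l, hij, hil, hkl, rfl⟩
    · subst h1
      have hik : i ≠ k := fun h => hyk (h ▸ b1)
      rw [hs]
      rw [un2]; exact Finset.card_eq_three.mpr ⟨i, k, j, hik, hij, hkl, rfl⟩
    · exact absurd h1 b2
  · rcases hi' with (h1 | h1) | h1
    · subst h1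
      have hjl : j ≠ l := fun h => hyl (h ▸ b2)
      rw [hs]
      rw [un3]; exact Finset.card_eq_three.mpr ⟨j, i, l, hij.symm, hjl, hkl, rfl⟩
    · subst h1
      have hjk : j ≠ k := fun h => hyk (h ▸ b2)
      rw [hs]
      rw [un4]; exact Finset.card_eq_three.mpr ⟨j, k, i, hjk, hij.symm, hkl, rfl⟩
    · exact absurd h1 b1

theorem Loc.card_B0 (h : Loc S a b) (hM : IsPModular 2 M) : (B0 M H).card = 7 := by
  classical
  obtain ⟨O, P1, P2, hO, hcard, hneg, hker, hint, hind⟩ := h.local_data' hM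
  choose! c0 c1 c2 hc using hint
  have hOc : ∀ ψ ∈ O, ∀ v : H, ¬ 2 ∣ orderOf v → ψ.1 v = c0 ψ + c1 ψ * P1 v + c2 ψ * P2 v :=
    fun ψ hψ v hv => hc ψ (hO hψ) v hv
  obtain ⟨A00, hA00⟩ : ∃ A, A = ∑ ψ ∈ O, (c0 ψ : ℂ) * c0 ψ := ⟨_, rfl⟩
  obtain ⟨A01, hA01⟩ : ∃ A, A = ∑ ψ ∈ O, (c0 ψ : ℂ) * c1 ψ := ⟨_, rfl⟩
  obtain ⟨A02, hA02⟩ : ∃ A, A = ∑ ψ ∈ O, (c0 ψ : ℂ) * c2 ψ := ⟨_, rfl⟩
  obtain ⟨A11, hA11⟩ : ∃ A, A = ∑ ψ ∈ O, (c1 ψ : ℂ) * c1 ψ := ⟨_, rfl⟩
  obtain ⟨A12, hA12⟩ : ∃ A, A = ∑ ψ ∈ O, (c1 ψ : ℂ) * c2 ψ := ⟨_, rfl⟩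
  obtain ⟨A22, hA22⟩ : ∃ A, A = ∑ ψ ∈ O, (c2 ψ : ℂ) * c2 ψ := ⟨_, rfl⟩
  have key : ∀ v0 v : H, ¬ 2 ∣ orderOf v0 → ¬ 2 ∣ orderOf v →
      ((A00 - 2) + (A01 - 1) * P1 v0 + (A02 - 1) * P2 v0) +
      ((A01 - 1) + (A11 - 2) * P1 v0 + (A12 - 1) * P2 v0) * P1 v +
      ((A02 - 1) + (A12 - 1) * P1 v0 + (A22 - 2) * P2 v0) * P2 v = 0 := by
    intro v0 v hv0 hv
    have h1 := hker v0 v hv0 hv
    have h3 : ∑ ψ ∈ O, ψ.1 v0 * ψ.1 v =
        ∑ ψ ∈ O, ((c0 ψ : ℂ) * c0 ψ + ((c0 ψ : ℂ) * c1 ψ) * (P1 v0 + P1 v) + ((c0 ψ : ℂ) * c2 ψ) * (P2 v0 + P2 v) +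
        ((c1 ψ : ℂ) * c1 ψ) * (P1 v0 * P1 v) + ((c1 ψ : ℂ) * c2 ψ) * (P1 v0 * P2 v + P2 v0 * P1 v) +
        ((c2 ψ : ℂ) * c2 ψ) * (P2 v0 * P2 v)) := by
      refine Finset.sum_congr rfl fun ψ hψ => ?_
      rw [hOc ψ hψ v0 hv0, hOc ψ hψ v hv]; ring
    rw [h3, Finset.sum_add_distrib, Finset.sum_add_distrib, Finset.sum_add_distrib, Finset.sum_add_distrib,
      Finset.sum_add_distrib, ← Finset.sum_mul, ← Finset.sum_mul, ← Finset.sum_mul, ← Finset.sum_mul,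
      ← Finset.sum_mul, ← hA00, ← hA01, ← hA02, ← hA11, ← hA12, ← hA22] at h1
    linear_combination h1
  have k1 : ∀ v0 : H, ¬ 2 ∣ orderOf v0 → (A00 - 2) + (A01 - 1) * P1 v0 + (A02 - 1) * P2 v0 = 0 ∧
      (A01 - 1) + (A11 - 2) * P1 v0 + (A12 - 1) * P2 v0 = 0 ∧
      (A02 - 1) + (A12 - 1) * P1 v0 + (A22 - 2) * P2 v0 = 0 := fun v0 hv0 =>
    hind ((A00 - 2) + (A01 - 1) * P1 v0 + (A02 - 1) * P2 v0) ((A01 - 1) + (A11 - 2) * P1 v0 + (A12 - 1) * P2 v0)
      ((A02 - 1) + (A12 - 1) * P1 v0 + (A22 - 2) * P2 v0) (fun v hv => key v0 v hv0 hv)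
  have r0 := hind (A00 - 2) (A01 - 1) (A02 - 1) (fun v0 hv0 => (k1 v0 hv0).1)
  have r1 := hind (A01 - 1) (A11 - 2) (A12 - 1) (fun v0 hv0 => (k1 v0 hv0).2.1)
  have r2 := hind (A02 - 1) (A12 - 1) (A22 - 2) (fun v0 hv0 => (k1 v0 hv0).2.2)
  rw [hA00] at r0
  rw [hA11, hA12] at r1
  rw [hA22] at r2
  have a00 : ∑ ψ ∈ O, c0 ψ ^ 2 = 2 := by
    have h1 : ((∑ ψ ∈ O, c0 ψ ^ 2 : ℤ) : ℂ) = 2 := by
      push_cast
      rw [Finset.sum_congr rfl (fun ψ _ => sq _)]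
      linear_combination r0.1
    exact_mod_cast h1
  have a11 : ∑ ψ ∈ O, c1 ψ ^ 2 = 2 := by
    have h1 : ((∑ ψ ∈ O, c1 ψ ^ 2 : ℤ) : ℂ) = 2 := by
      push_cast
      rw [Finset.sum_congr rfl (fun ψ _ => sq _)]
      linear_combination r1.2.1
    exact_mod_cast h1
  have a22 : ∑ ψ ∈ O, c2 ψ ^ 2 = 2 := by
    have h1 : ((∑ ψ ∈ O, c2 ψ ^ 2 : ℤ) : ℂ) = 2 := by
      push_cast
      rw [Finset.sum_congr rfl (fun ψ _ => sq _)]
      linear_combination r2.2.2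
    exact_mod_cast h1
  have a12 : ∑ ψ ∈ O, c1 ψ * c2 ψ = 1 := by
    have h1 : ((∑ ψ ∈ O, c1 ψ * c2 ψ : ℤ) : ℂ) = 1 := by
      push_cast
      linear_combination r1.2.2
    exact_mod_cast h1
  have hthree : O.card = 3 := by
    apply card_three O c1 c2 a11 a22 a12
    intro ψ hψ
    by_contra hcon
    push Not at hcon
    obtain ⟨q1, q2⟩ := hcon
    -- `ψ` is linear
    have h1 : ∀ v : H, ¬ 2 ∣ orderOf v → ψ.1 v = c0 ψ := by
      intro v hv
      rw [hOc ψ hψ v hv, q1, q2]; simp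
    have h2 := h1 1 (by rw [orderOf_one]; norm_num)
    obtain ⟨d, hd, hd1⟩ := isIrr_one_eq ψ.2
    rw [hd1] at h2
    have h3 : (d : ℤ) = c0 ψ := by exact_mod_cast h2
    have h4 : c0 ψ ^ 2 ≤ 2 := by
      rw [← a00]
      exact Finset.single_le_sum (f := fun ψ => c0 ψ ^ 2) (fun _ _ => sq_nonneg _) hψ
    have h5 : d = 1 := by
      rw [← h3] at h4
      have : d ^ 2 ≤ 2 := by exact_mod_cast h4
      nlinarith
    rw [h5] at hd1
    obtain ⟨l, hl⟩ := exists_lin_of_one (isChar_of_irr ψ.2) (by rw [hd1]; simp)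
    have h6 := hneg ψ hψ 1
    rw [mul_one, hd1] at h6
    have h7 : a ^ 2 = a * b * a⁻¹ * b⁻¹ := by
      calc a ^ 2 = a * (a⁻¹)⁻¹ := by rw [inv_inv, sq]
        _ = a * (b * a * b⁻¹)⁻¹ := by rw [h.qs.hba]
        _ = _ := by group
    have h8 : ψ.1 (a ^ 2) = 1 := by
      rw [hl, h7]
      have : l (a * b * a⁻¹ * b⁻¹) = 1 := by
        rw [map_mul, map_mul, map_mul, map_inv, map_inv, mul_comm (l a) (l b)]; group
      simp only [this, Units.val_one]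
    rw [h8] at h6
    norm_num at h6
  omega

end Local

end Cfsg.Agent.Lib.BSuz
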