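import Mathlib
import Cfsg.Agent.Lib.GLSL
import Cfsg.Prelude.Def_ClassicalGeometry

/-! Maximal parabolics of `GL_n(q)`. -/

set_option linter.all false
set_option maxHeartbeats 400000

namespace Cfsg.Agent.Lib.Par

open Matrix

variable {F : Type*} [Field F]

/-- block form -/
theorem stab_iff {k m : ℕ} (g : GL (Fin (k + m)) F) :
    g ∈ Cfsg.stabilizing (Cfsg.glToMat (Fin (k + m)) F) {v : Fin (k + m) → F | ∀ i : Fin (k + m), k ≤ (i : ℕ) → v i = 0} ↔
      ∀ (i : Fin m) (j : Fin k), (g : Matrix (Fin (k + m)) (Fin (k + m)) F) (Fin.natAdd k i) (Fin.castAdd m j) = 0 := by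
  constructor
  · intro h i j
    have h1 : (Pi.single (Fin.castAdd m j) 1 : Fin (k + m) → F) ∈ {v : Fin (k + m) → F | ∀ i : Fin (k + m), k ≤ (i : ℕ) → v i = 0} := by
      intro l hl
      rw [Pi.single_apply, if_neg]
      intro h2
      rw [h2] at hl
      have := j.2
      simp at hl
      omega
    have h2 := (h _).mp h1 (Fin.natAdd k i) (by simp)
    have h3 : ((g : Matrix (Fin (k + m)) (Fin (k + m)) F).mulVec (Pi.single (Fin.castAdd m j) 1)) (Fin.natAdd k i) = 0 := h2
    rw [Matrix.mulVec_single_one] at h3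
    exact h3
  · intro h
    -- block triangular, so maps X to X; injective on finite-dimensional X
    have hmaps : ∀ v : Fin (k + m) → F, (∀ i : Fin (k + m), k ≤ (i : ℕ) → v i = 0) → ∀ i : Fin (k + m), k ≤ (i : ℕ) → (g : Matrix (Fin (k + m)) (Fin (k + m)) F).mulVec v i = 0 := by
      intro v hv i hi
      rw [Matrix.mulVec, dotProduct]
      apply Finset.sum_eq_zero
      intro l _
      by_cases hl : k ≤ (l : ℕ)
      · rw [hv l hl, mul_zero]
      · have hi' : i = Fin.natAdd k ⟨(i : ℕ) - k, by have := i.2; omega⟩ := by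
          apply Fin.ext
          simp
          omega
        have hl' : l = Fin.castAdd m ⟨(l : ℕ), by omega⟩ := by
          apply Fin.ext
          simp
        rw [hi', hl', h, zero_mul]
    let X : Submodule F (Fin (k + m) → F) :=
      { carrier := {v | ∀ i : Fin (k + m), k ≤ (i : ℕ) → v i = 0}
        add_mem' := by
          intro a b ha hb i hi
          rw [Pi.add_apply, ha i hi, hb i hi, add_zero]
        zero_mem' := fun i _ => rfl
        smul_mem' := by
          intro c a ha i hi
          rw [Pi.smul_apply, ha i hi, smul_zero] }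
    let T : (Fin (k + m) → F) →ₗ[F] (Fin (k + m) → F) := (g : Matrix (Fin (k + m)) (Fin (k + m)) F).mulVecLin
    have hT : Function.Injective T := Matrix.mulVec_injective_of_isUnit g.isUnit
    let R : X →ₗ[F] X := T.restrict (fun v hv => hmaps v hv)
    have hR : Function.Injective R := by
      intro a b h
      apply Subtype.ext
      apply hT
      exact congrArg Subtype.val h
    have hRs : Function.Surjective R := LinearMap.injective_iff_surjective.mp hR
    intro v
    constructor
    · exact hmaps v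
    · intro hv
      obtain ⟨w, hw⟩ := hRs ⟨_, hv⟩
      have h1 : T w = T v := congrArg Subtype.val hw
      have h2 := hT h1
      rw [← h2]
      exact w.2

/-- the block triangular matrices -/
noncomputable def stabE (k m : ℕ) : ↥(Cfsg.stabilizing (Cfsg.glToMat (Fin (k + m)) F) {v : Fin (k + m) → F | ∀ i : Fin (k + m), k ≤ (i : ℕ) → v i = 0}) ≃
    (GL (Fin k) F × GL (Fin m) F) × Matrix (Fin k) (Fin m) F := by
  classical
  let e : Fin k ⊕ Fin m ≃ Fin (k + m) := finSumFinEquiv
  -- matrices with zero lower left block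
  refine (?_ : _ ≃ {M : Matrix (Fin k ⊕ Fin m) (Fin k ⊕ Fin m) F // M.toBlocks₂₁ = 0 ∧ IsUnit M.det}).trans ?_
  · refine ⟨fun g => ⟨(g.1 : Matrix (Fin (k + m)) (Fin (k + m)) F).submatrix e e, ?_, ?_⟩, fun M => ⟨Matrix.GeneralLinearGroup.mkOfDetNeZero (M.1.submatrix e.symm e.symm) ?_, ?_⟩, ?_, ?_⟩
    · ext i j
      exact (stab_iff g.1).mp g.2 i j
    · rw [Matrix.det_submatrix_equiv_self]
      exact Matrix.isUnit_iff_isUnit_det _ |>.mp g.1.isUnit
    · rw [Matrix.det_submatrix_equiv_self]
      exact M.2.2.ne_zero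
    · rw [stab_iff]
      intro i j
      show M.1 (e.symm (Fin.natAdd k i)) (e.symm (Fin.castAdd m j)) = 0
      have h1 : e.symm (Fin.natAdd k i) = Sum.inr i := finSumFinEquiv_symm_apply_natAdd i
      have h2 : e.symm (Fin.castAdd m j) = Sum.inl j := finSumFinEquiv_symm_apply_castAdd j
      rw [h1, h2]
      exact congrFun (congrFun M.2.1 i) j
    · intro g
      apply Subtype.ext
      apply Units.ext
      show ((g.1 : Matrix (Fin (k + m)) (Fin (k + m)) F).submatrix e e).submatrix e.symm e.symm = g.1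
      rw [Matrix.submatrix_submatrix]
      simp
    · intro M
      apply Subtype.ext
      show (M.1.submatrix e.symm e.symm).submatrix e e = M.1
      rw [Matrix.submatrix_submatrix]
      simp
  · refine ⟨fun M => ((Matrix.GeneralLinearGroup.mkOfDetNeZero M.1.toBlocks₁₁ ?_, Matrix.GeneralLinearGroup.mkOfDetNeZero M.1.toBlocks₂₂ ?_), M.1.toBlocks₁₂),
      fun x => ⟨Matrix.fromBlocks x.1.1 x.2 0 x.1.2, ?_, ?_⟩, ?_, ?_⟩
    · have h := M.2.2.ne_zero
      rw [← Matrix.fromBlocks_toBlocks M.1, M.2.1, Matrix.det_fromBlocks_zero₂₁] at h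
      exact left_ne_zero_of_mul h
    · have h := M.2.2.ne_zero
      rw [← Matrix.fromBlocks_toBlocks M.1, M.2.1, Matrix.det_fromBlocks_zero₂₁] at h
      exact right_ne_zero_of_mul h
    · rw [Matrix.toBlocks_fromBlocks₂₁]
    · rw [Matrix.det_fromBlocks_zero₂₁]
      exact (Matrix.isUnit_iff_isUnit_det _ |>.mp x.1.1.isUnit).mul (Matrix.isUnit_iff_isUnit_det _ |>.mp x.1.2.isUnit)
    · intro M
      apply Subtype.ext
      show Matrix.fromBlocks M.1.toBlocks₁₁ M.1.toBlocks₁₂ 0 M.1.toBlocks₂₂ = M.1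
      have h := Matrix.fromBlocks_toBlocks M.1
      rw [M.2.1] at h
      exact h
    · intro x
      refine Prod.ext (Prod.ext (Units.ext ?_) (Units.ext ?_)) ?_
      · exact Matrix.toBlocks_fromBlocks₁₁ _ _ _ _
      · exact Matrix.toBlocks_fromBlocks₂₂ _ _ _ _
      · exact Matrix.toBlocks_fromBlocks₁₂ _ _ _ _

theorem card_stab [Fintype F] (k m : ℕ) : Nat.card ↥(Cfsg.stabilizing (Cfsg.glToMat (Fin (k + m)) F) {v : Fin (k + m) → F | ∀ i : Fin (k + m), k ≤ (i : ℕ) → v i = 0}) =
    Fintype.card F ^ (k * m) * (∏ i : Fin k, (Fintype.card F ^ k - Fintype.card F ^ (i : ℕ))) * ∏ i : Fin m, (Fintype.card F ^ m - Fintype.card F ^ (i : ℕ)) := by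
  classical
  rw [Nat.card_congr (stabE k m), Nat.card_prod, Nat.card_prod, Matrix.card_GL_field, Matrix.card_GL_field, Nat.card_eq_fintype_card (α := Matrix (Fin k) (Fin m) F)]
  have : Fintype.card (Matrix (Fin k) (Fin m) F) = Fintype.card F ^ (k * m) := by
    rw [mul_comm, pow_mul]
    show Fintype.card (Fin k → Fin m → F) = _
    rw [Fintype.card_fun, Fintype.card_fun, Fintype.card_fin, Fintype.card_fin]
  rw [this]
  ring

end Cfsg.Agent.Lib.Par
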