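import Mathlib
import Cfsg.Agent.Lib.Par1

/-! Maximality of the maximal parabolics of `GL_n(q)`. -/

set_option linter.all false
set_option maxHeartbeats 400000

namespace Cfsg.Agent.Lib.Par

open Matrix

variable {F : Type*} [Field F] {n : ℕ}

/-- the transvection `v ↦ v + φ(v) x` in `GL` -/
theorem exists_tv (φ : (Fin n → F) →ₗ[F] F) {x : Fin n → F} (hx : φ x = 0) :
    ∃ g : GL (Fin n) F, ∀ v, (g : Matrix (Fin n) (Fin n) F).mulVec v = v + φ v • x := by
  let T : (Fin n → F) →ₗ[F] (Fin n → F) := LinearMap.id + φ.smulRight x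
  let S : (Fin n → F) →ₗ[F] (Fin n → F) := LinearMap.id - φ.smulRight x
  have hT : ∀ v, T v = v + φ v • x := fun v => rfl
  have hS : ∀ v, S v = v - φ v • x := fun v => rfl
  have hTS : T.comp S = LinearMap.id := by
    apply LinearMap.ext
    intro v
    rw [LinearMap.comp_apply, hT, hS, map_sub, map_smul, hx, smul_zero, sub_zero, sub_add_cancel, LinearMap.id_apply]
  have hST : S.comp T = LinearMap.id := by
    apply LinearMap.ext
    intro v
    rw [LinearMap.comp_apply, hT, hS, map_add, map_smul, hx, smul_zero, add_zero, add_sub_cancel_right, LinearMap.id_apply]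
  refine ⟨⟨LinearMap.toMatrix' T, LinearMap.toMatrix' S, ?_, ?_⟩, ?_⟩
  · rw [← LinearMap.toMatrix'_comp, hTS, LinearMap.toMatrix'_id]
  · rw [← LinearMap.toMatrix'_comp, hST, LinearMap.toMatrix'_id]
  · intro v
    show (LinearMap.toMatrix' T).mulVec v = _
    rw [LinearMap.toMatrix'_mulVec, hT]

/-- the stabilizer of a subspace -/
def Stb (U : Submodule F (Fin n → F)) (g : GL (Fin n) F) : Prop := ∀ v, v ∈ U ↔ (g : Matrix (Fin n) (Fin n) F).mulVec v ∈ U

theorem stb_tv1 {U : Submodule F (Fin n → F)} {φ : (Fin n → F) →ₗ[F] F} {x : Fin n → F} {g : GL (Fin n) F}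
    (hg : ∀ v, (g : Matrix (Fin n) (Fin n) F).mulVec v = v + φ v • x) (hx : x ∈ U) : Stb U g := by
  intro v
  rw [hg]
  constructor
  · intro h; exact U.add_mem h (U.smul_mem _ hx)
  · intro h
    have := U.sub_mem h (U.smul_mem (φ v) hx)
    rwa [add_sub_cancel_right] at this

theorem stb_tv2 {U : Submodule F (Fin n → F)} {φ : (Fin n → F) →ₗ[F] F} {x : Fin n → F} {g : GL (Fin n) F}
    (hg : ∀ v, (g : Matrix (Fin n) (Fin n) F).mulVec v = v + φ v • x) (hx : φ x = 0) (hU : ∀ u ∈ U, φ u = 0) : Stb U g := by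
  intro v
  rw [hg]
  constructor
  · intro h; rw [hU v h, zero_smul, add_zero]; exact h
  · intro h
    have h1 : φ (v + φ v • x) = 0 := hU _ h
    rw [map_add, map_smul, hx, smul_zero, add_zero] at h1
    rwa [h1, zero_smul, add_zero] at h

theorem exists_scal {c : F} (hc : c ≠ 0) : ∃ g : GL (Fin n) F, (∀ v, (g : Matrix (Fin n) (Fin n) F).mulVec v = c • v) ∧ ∀ U : Submodule F (Fin n → F), Stb U g := by
  refine ⟨⟨c • 1, c⁻¹ • 1, ?_, ?_⟩, ?_, ?_⟩
  · rw [Matrix.smul_mul, Matrix.mul_smul, Matrix.one_mul, smul_smul, mul_inv_cancel₀ hc, one_smul]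
  · rw [Matrix.smul_mul, Matrix.mul_smul, Matrix.one_mul, smul_smul, inv_mul_cancel₀ hc, one_smul]
  · intro v
    show (c • (1 : Matrix (Fin n) (Fin n) F)).mulVec v = _
    rw [Matrix.smul_mulVec, Matrix.one_mulVec]
  · intro U v
    show _ ↔ (c • (1 : Matrix (Fin n) (Fin n) F)).mulVec v ∈ U
    rw [Matrix.smul_mulVec, Matrix.one_mulVec]
    exact (U.smul_mem_iff hc).symm

/-- a functional with prescribed values -/
theorem exists_dual {U : Submodule F (Fin n → F)} {v : Fin n → F} (hv : v ∉ U) : ∃ φ : (Fin n → F) →ₗ[F] F, φ v = 1 ∧ ∀ u ∈ U, φ u = 0 := by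
  obtain ⟨f, hf, hfU⟩ := Submodule.exists_le_ker_of_notMem hv
  refine ⟨(f v)⁻¹ • f, ?_, ?_⟩
  · rw [LinearMap.smul_apply, smul_eq_mul, inv_mul_cancel₀ hf]
  · intro u hu
    rw [LinearMap.smul_apply, LinearMap.mem_ker.mp (hfU hu), smul_zero]

/-- transitivity of the stabilizer -/
theorem trans_in {H : Subgroup (GL (Fin n) F)} {U : Submodule F (Fin n → F)} (hH : ∀ g, Stb U g → g ∈ H) {u u' : Fin n → F} (hu : u ∈ U) (hu' : u' ∈ U)
    (h0 : u ≠ 0) (h0' : u' ≠ 0) : ∃ g ∈ H, (g : Matrix (Fin n) (Fin n) F).mulVec u = u' := by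
  by_cases h : u ∈ Submodule.span F {u' - u}
  · -- dependent
    obtain ⟨c, hc⟩ := Submodule.mem_span_singleton.mp h
    have hc0 : c ≠ 0 := by rintro rfl; rw [zero_smul] at hc; exact h0 hc.symm
    have h1 : u' = (c⁻¹ * (c + 1)) • u := by
      have h2 : c • u' = (c + 1) • u := by
        rw [smul_sub] at hc
        rw [add_smul, one_smul]
        nth_rewrite 2 [← hc]
        abel
      rw [mul_smul, ← h2, smul_smul, inv_mul_cancel₀ hc0, one_smul]
    have h2 : c⁻¹ * (c + 1) ≠ 0 := by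
      intro h3
      rw [h3, zero_smul] at h1
      exact h0' h1
    obtain ⟨g, hg, hgU⟩ := exists_scal (n := n) h2
    exact ⟨g, hH g (hgU U), by rw [hg, ← h1]⟩
  · obtain ⟨φ, h1, h2⟩ := exists_dual h
    have h3 : φ (u' - u) = 0 := h2 _ (Submodule.mem_span_singleton_self _)
    obtain ⟨g, hg⟩ := exists_tv φ h3
    refine ⟨g, hH g (stb_tv1 hg (U.sub_mem hu' hu)), ?_⟩
    rw [hg, h1, one_smul, add_sub_cancel]

theorem trans_out {H : Subgroup (GL (Fin n) F)} {U : Submodule F (Fin n → F)} (hH : ∀ g, Stb U g → g ∈ H) {v v' : Fin n → F} (hv : v ∉ U) (hv' : v' ∉ U) :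
    ∃ g ∈ H, (g : Matrix (Fin n) (Fin n) F).mulVec v = v' := by
  have caseA : ∀ v v' : Fin n → F, v ∉ U → v' - v ∈ U → ∃ g ∈ H, (g : Matrix (Fin n) (Fin n) F).mulVec v = v' := by
    intro v v' hv h
    have h1 : v ∉ Submodule.span F {v' - v} := by
      intro h2
      exact hv ((Submodule.span_singleton_le_iff_mem _ _).mpr h h2)
    obtain ⟨φ, h2, h3⟩ := exists_dual h1
    have h4 : φ (v' - v) = 0 := h3 _ (Submodule.mem_span_singleton_self _)
    obtain ⟨g, hg⟩ := exists_tv φ h4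
    refine ⟨g, hH g (stb_tv1 hg h), ?_⟩
    rw [hg, h2, one_smul, add_sub_cancel]
  by_cases h : v ∈ U ⊔ Submodule.span F {v' - v}
  · obtain ⟨u, hu, w, hw, huw⟩ := Submodule.mem_sup.mp h
    obtain ⟨c, rfl⟩ := Submodule.mem_span_singleton.mp hw
    have hc0 : c ≠ 0 := by
      rintro rfl
      rw [zero_smul, add_zero] at huw
      rw [huw] at hu
      exact hv hu
    -- c v' = (1 + c) v - u
    have h1 : c • v' = (1 + c) • v - u := by
      ext i
      have h9 := congrFun huw i
      simp only [Pi.add_apply, Pi.smul_apply, Pi.sub_apply, smul_eq_mul] at h9 ⊢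
      linear_combination h9
    have h2 : (1 + c) ≠ 0 := by
      intro h2
      rw [h2, zero_smul, zero_sub] at h1
      apply hv'
      have h3 : v' = c⁻¹ • (-u) := by rw [← h1, smul_smul, inv_mul_cancel₀ hc0, one_smul]
      rw [h3]
      exact U.smul_mem _ (U.neg_mem hu)
    have h3 : c⁻¹ * (1 + c) ≠ 0 := mul_ne_zero (inv_ne_zero hc0) h2
    obtain ⟨g, hg, hgU⟩ := exists_scal (n := n) h3
    have h4 : (c⁻¹ * (1 + c)) • v ∉ U := fun h => hv ((U.smul_mem_iff h3).mp h)
    have h5 : v' - (c⁻¹ * (1 + c)) • v ∈ U := by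
      have : v' - (c⁻¹ * (1 + c)) • v = c⁻¹ • (-u) := by
        have h6 : v' = c⁻¹ • ((1 + c) • v - u) := by rw [← h1, smul_smul, inv_mul_cancel₀ hc0, one_smul]
        rw [h6, smul_sub, smul_smul, smul_neg]
        abel
      rw [this]
      exact U.smul_mem _ (U.neg_mem hu)
    obtain ⟨g', hg', hgv⟩ := caseA _ _ h4 h5
    refine ⟨g' * g, H.mul_mem hg' (hH g (hgU U)), ?_⟩
    rw [Units.val_mul, ← Matrix.mulVec_mulVec, hg, hgv]
  · obtain ⟨φ, h1, h2⟩ := exists_dual h
    have h3 : φ (v' - v) = 0 := h2 _ (Submodule.mem_sup_right (Submodule.mem_span_singleton_self _))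
    obtain ⟨g, hg⟩ := exists_tv φ h3
    refine ⟨g, hH g (stb_tv2 hg h3 (fun u hu => h2 u (Submodule.mem_sup_left hu))), ?_⟩
    rw [hg, h1, one_smul, add_sub_cancel]

/-- image of a subspace -/
def img (h : GL (Fin n) F) (U : Submodule F (Fin n → F)) : Submodule F (Fin n → F) := U.map (h : Matrix (Fin n) (Fin n) F).mulVecLin

theorem mulVec_inv (h : GL (Fin n) F) (v : Fin n → F) : (h : Matrix (Fin n) (Fin n) F).mulVec (((h⁻¹ : GL (Fin n) F) : Matrix (Fin n) (Fin n) F).mulVec v) = v := by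
  rw [Matrix.mulVec_mulVec, ← Units.val_mul, mul_inv_cancel, Units.val_one, Matrix.one_mulVec]

theorem inv_mulVec (h : GL (Fin n) F) (v : Fin n → F) : ((h⁻¹ : GL (Fin n) F) : Matrix (Fin n) (Fin n) F).mulVec ((h : Matrix (Fin n) (Fin n) F).mulVec v) = v := by
  rw [Matrix.mulVec_mulVec, ← Units.val_mul, inv_mul_cancel, Units.val_one, Matrix.one_mulVec]

theorem mem_img {h : GL (Fin n) F} {U : Submodule F (Fin n → F)} {v : Fin n → F} : v ∈ img h U ↔ ((h⁻¹ : GL (Fin n) F) : Matrix (Fin n) (Fin n) F).mulVec v ∈ U := by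
  constructor
  · rintro ⟨w, hw, rfl⟩
    show ((h⁻¹ : GL (Fin n) F) : Matrix (Fin n) (Fin n) F).mulVec ((h : Matrix (Fin n) (Fin n) F).mulVec w) ∈ U
    rw [inv_mulVec]; exact hw
  · intro hv
    exact ⟨_, hv, mulVec_inv h v⟩

theorem stb_img {h g : GL (Fin n) F} {U : Submodule F (Fin n → F)} (hg : Stb (img h U) g) : Stb U (h⁻¹ * g * h) := by
  intro v
  have h1 := hg ((h : Matrix (Fin n) (Fin n) F).mulVec v)
  rw [mem_img, mem_img, inv_mulVec] at h1
  rw [h1, Units.val_mul, Units.val_mul, ← Matrix.mulVec_mulVec, ← Matrix.mulVec_mulVec]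

theorem maximal {H : Subgroup (GL (Fin n) F)} {U : Submodule F (Fin n → F)} (hU0 : U ≠ ⊥) (hUt : U ≠ ⊤) (hH : ∀ g, Stb U g → g ∈ H)
    {h : GL (Fin n) F} (hh : h ∈ H) (hnot : ¬ Stb U h) (hdiag : ∀ g : GL (Fin n) F, (∀ i j, i ≠ j → (g : Matrix (Fin n) (Fin n) F) i j = 0) → g ∈ H) : H = ⊤ := by
  classical
  set W := img h U with hW
  have hHW : ∀ g, Stb W g → g ∈ H := by
    intro g hg
    have h1 := hH _ (stb_img hg)
    have h2 : g = h * (h⁻¹ * g * h) * h⁻¹ := by group
    rw [h2]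
    exact H.mul_mem (H.mul_mem hh h1) (H.inv_mem hh)
  have hrank : Module.finrank F W = Module.finrank F U := by
    rw [hW, img]
    exact (LinearEquiv.finrank_eq (Submodule.equivMapOfInjective _ (Matrix.mulVec_injective_of_isUnit h.isUnit) U)).symm
  have hne : W ≠ U := by
    intro h1
    apply hnot
    intro v
    constructor
    · intro hv
      rw [← h1]
      exact ⟨v, hv, rfl⟩
    · intro hv
      rw [← h1, hW, mem_img, inv_mulVec] at hv
      exact hv
  have hWU : ∃ a ∈ W, a ∉ U := by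
    by_contra hcon
    push Not at hcon
    exact hne (Submodule.eq_of_le_of_finrank_eq hcon hrank)
  have hUW : ∃ b ∈ U, b ∉ W := by
    by_contra hcon
    push Not at hcon
    exact hne (Submodule.eq_of_le_of_finrank_eq hcon hrank.symm).symm
  obtain ⟨a, haW, haU⟩ := hWU
  obtain ⟨b, hbU, hbW⟩ := hUW
  have hcU : a + b ∉ U := by
    intro h1
    apply haU
    have := U.sub_mem h1 hbU
    rwa [add_sub_cancel_right] at this
  have hcW : a + b ∉ W := by
    intro h1
    apply hbW
    have := W.sub_mem h1 haW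
    rwa [add_sub_cancel_left] at this
  have hb0 : b ≠ 0 := by rintro rfl; exact hbW W.zero_mem
  -- transitivity
  have htr : ∀ v : Fin n → F, v ≠ 0 → ∃ g ∈ H, (g : Matrix (Fin n) (Fin n) F).mulVec (a + b) = v := by
    intro v hv
    by_cases hvU : v ∈ U
    · obtain ⟨g, hg, h1⟩ := trans_out hHW hcW hbW
      obtain ⟨g', hg', h2⟩ := trans_in hH hbU hvU hb0 hv
      refine ⟨g' * g, H.mul_mem hg' hg, ?_⟩
      rw [Units.val_mul, ← Matrix.mulVec_mulVec, h1, h2]
    · exact trans_out hH hcU hvU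
  obtain ⟨u, hu, hu0⟩ := Submodule.exists_mem_ne_zero_of_ne_bot hU0
  have htr' : ∀ v : Fin n → F, v ≠ 0 → ∃ g ∈ H, (g : Matrix (Fin n) (Fin n) F).mulVec u = v := by
    intro v hv
    obtain ⟨g, hg, h1⟩ := htr v hv
    obtain ⟨g', hg', h2⟩ := htr u hu0
    refine ⟨g * g'⁻¹, H.mul_mem hg (H.inv_mem hg'), ?_⟩
    rw [Units.val_mul, ← Matrix.mulVec_mulVec, ← h2, inv_mulVec, h1]
  -- all transvections
  have htv : ∀ (ψ : (Fin n → F) →ₗ[F] F) (y : Fin n → F), ψ y = 0 → ∀ g : GL (Fin n) F, (∀ v, (g : Matrix (Fin n) (Fin n) F).mulVec v = v + ψ v • y) → g ∈ H := by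
    intro ψ y hy g hg
    by_cases hy0 : y = 0
    · have : g = 1 := by
        apply Units.ext
        have h1 : (g : Matrix (Fin n) (Fin n) F).mulVecLin = (1 : Matrix (Fin n) (Fin n) F).mulVecLin := by
          apply LinearMap.ext
          intro v
          show (g : Matrix (Fin n) (Fin n) F).mulVec v = (1 : Matrix (Fin n) (Fin n) F).mulVec v
          rw [hg, hy0, smul_zero, add_zero, Matrix.one_mulVec]
        exact (Matrix.toLin' (R := F)).injective h1
      rw [this]; exact H.one_mem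
    · obtain ⟨k, hk, h1⟩ := htr' y hy0
      have h2 : ∀ v, ((k⁻¹ * g * k : GL (Fin n) F) : Matrix (Fin n) (Fin n) F).mulVec v = v + (ψ.comp (k : Matrix (Fin n) (Fin n) F).mulVecLin) v • u := by
        intro v
        rw [Units.val_mul, Units.val_mul, ← Matrix.mulVec_mulVec, ← Matrix.mulVec_mulVec, hg, Matrix.mulVec_add, inv_mulVec, Matrix.mulVec_smul, ← h1, inv_mulVec]
        rfl
      have h3 := hH _ (stb_tv1 h2 hu)
      have h4 : g = k * (k⁻¹ * g * k) * k⁻¹ := by group
      rw [h4]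
      exact H.mul_mem (H.mul_mem hk h3) (H.inv_mem hk)
  -- conclusion
  rw [eq_top_iff]
  intro g _
  have key : ∀ M : Matrix (Fin n) (Fin n) F, M.det ≠ 0 → ∀ k : GL (Fin n) F, (k : Matrix (Fin n) (Fin n) F) = M → k ∈ H := by
    intro M hM
    refine Matrix.diagonal_transvection_induction_of_det_ne_zero (fun M => ∀ k : GL (Fin n) F, (k : Matrix (Fin n) (Fin n) F) = M → k ∈ H) M hM ?_ ?_ ?_
    · intro D _ k hk
      apply hdiag
      intro i j hij
      rw [hk, Matrix.diagonal_apply_ne _ hij]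
    · intro t k hk
      apply htv (t.c • LinearMap.proj t.j) (Pi.single t.i 1)
      · rw [LinearMap.smul_apply, LinearMap.proj_apply, Pi.single_eq_of_ne t.hij.symm, smul_zero]
      · intro v
        rw [hk, Matrix.TransvectionStruct.toMatrix, Matrix.transvection, Matrix.add_mulVec, Matrix.one_mulVec]
        congr 1
        ext i
        rw [Pi.smul_apply, LinearMap.smul_apply, LinearMap.proj_apply, smul_eq_mul, smul_eq_mul, Matrix.mulVec, dotProduct]
        by_cases hi : i = t.i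
        · subst hi
          rw [Finset.sum_eq_single t.j]
          · rw [Matrix.single_apply_same, Pi.single_eq_same, mul_one]
          · intro b _ hb
            rw [Matrix.single_apply_of_col_ne _ _ hb.symm, zero_mul]
          · intro hb; exact absurd (Finset.mem_univ _) hb
        · rw [Pi.single_eq_of_ne hi, mul_zero]
          apply Finset.sum_eq_zero
          intro b _
          rw [Matrix.single_apply_of_row_ne (Ne.symm hi), zero_mul]
    · intro A B hA hB ihA ihB k hk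
      have e : k = Matrix.GeneralLinearGroup.mkOfDetNeZero A hA * Matrix.GeneralLinearGroup.mkOfDetNeZero B hB := Units.ext hk
      rw [e]
      exact H.mul_mem (ihA _ rfl) (ihB _ rfl)
  exact key _ ((Matrix.isUnit_iff_isUnit_det _).mp g.isUnit).ne_zero g rfl

end Cfsg.Agent.Lib.Par
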