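import Mathlib
import Cfsg.Agent.Lib.Par2

/-! `S0772`, `S0773`. -/

set_option linter.all false
set_option maxHeartbeats 400000

namespace Cfsg.Agent.Lib.Par

open Matrix

variable {F : Type*} [Field F] {n : ℕ}

/-- the coordinate subspace -/
def cU (n k : ℕ) (F : Type*) [Field F] : Submodule F (Fin n → F) where
  carrier := {v | ∀ i : Fin n, k ≤ (i : ℕ) → v i = 0}
  add_mem' := by
    intro a b ha hb i hi
    rw [Pi.add_apply, ha i hi, hb i hi, add_zero]
  zero_mem' := fun i _ => rfl
  smul_mem' := by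
    intro c a ha i hi
    rw [Pi.smul_apply, ha i hi, smul_zero]

theorem mem_cU {k : ℕ} {v : Fin n → F} : v ∈ cU n k F ↔ ∀ i : Fin n, k ≤ (i : ℕ) → v i = 0 := Iff.rfl

theorem mem_stab {k : ℕ} {g : GL (Fin n) F} :
    g ∈ Cfsg.stabilizing (Cfsg.glToMat (Fin n) F) {v : Fin n → F | ∀ i : Fin n, k ≤ (i : ℕ) → v i = 0} ↔ Stb (cU n k F) g := Iff.rfl

theorem single_mem {k : ℕ} {i : Fin n} (hi : (i : ℕ) < k) : (Pi.single i 1 : Fin n → F) ∈ cU n k F := by
  intro j hj
  rw [Pi.single_apply, if_neg]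
  rintro rfl
  omega

theorem single_notMem {k : ℕ} {i : Fin n} (hi : k ≤ (i : ℕ)) : (Pi.single i 1 : Fin n → F) ∉ cU n k F := by
  intro h
  have := h i hi
  rw [Pi.single_eq_same] at this
  exact one_ne_zero this

theorem single_ne (i : Fin n) : (Pi.single i 1 : Fin n → F) ≠ 0 := by
  intro h
  have := congrFun h i
  rw [Pi.single_eq_same] at this
  exact one_ne_zero this

theorem s0772 (n k : ℕ) (hk0 : 0 < k) (hkn : k < n) : IsCoatom (Cfsg.stabilizing (Cfsg.glToMat (Fin n) F) {v : Fin n → F | ∀ i : Fin n, k ≤ (i : ℕ) → v i = 0}) := by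
  constructor
  · intro htop
    have h0 : (LinearMap.proj (⟨0, by omega⟩ : Fin n) : (Fin n → F) →ₗ[F] F) (Pi.single ⟨k, hkn⟩ 1) = 0 := by
      rw [LinearMap.proj_apply, Pi.single_eq_of_ne]
      intro h
      have := congrArg Fin.val h
      simp at this
      omega
    obtain ⟨g, hg⟩ := exists_tv _ h0
    have h1 : g ∈ Cfsg.stabilizing (Cfsg.glToMat (Fin n) F) {v : Fin n → F | ∀ i : Fin n, k ≤ (i : ℕ) → v i = 0} := by rw [htop]; trivial
    rw [mem_stab] at h1
    have h2 := (h1 (Pi.single ⟨0, by omega⟩ 1)).mp (single_mem hk0)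
    rw [hg, LinearMap.proj_apply, Pi.single_eq_same, one_smul] at h2
    have h3 := (cU n k F).sub_mem h2 (single_mem (F := F) (i := ⟨0, by omega⟩) hk0)
    rw [add_sub_cancel_left] at h3
    exact single_notMem (i := ⟨k, hkn⟩) le_rfl h3
  · intro H hlt
    have hle : ∀ g, Stb (cU n k F) g → g ∈ H := fun g hg => hlt.le (mem_stab.mpr hg)
    obtain ⟨h, hh, hnot⟩ := SetLike.exists_of_lt hlt
    rw [mem_stab] at hnot
    refine maximal (U := cU n k F) ?_ ?_ hle hh hnot ?_
    · intro hb
      have := single_mem (F := F) (n := n) (i := ⟨0, by omega⟩) hk0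
      rw [hb, Submodule.mem_bot] at this
      exact single_ne _ this
    · intro ht
      apply single_notMem (F := F) (n := n) (k := k) (i := ⟨k, hkn⟩) le_rfl
      rw [ht]; trivial
    · intro g hg
      obtain ⟨m, rfl⟩ := Nat.exists_eq_add_of_le hkn.le
      apply hlt.le
      rw [stab_iff]
      intro i j
      apply hg
      intro h
      have := congrArg Fin.val h
      simp at this
      have := j.2
      omega

theorem stab_iff' {k : ℕ} (hk : k ≤ n) {g : GL (Fin n) F} : Stb (cU n k F) g ↔ ∀ i j : Fin n, k ≤ (i : ℕ) → (j : ℕ) < k → (g : Matrix (Fin n) (Fin n) F) i j = 0 := by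
  obtain ⟨m, rfl⟩ := Nat.exists_eq_add_of_le hk
  have h1 := stab_iff (k := k) (m := m) g
  rw [mem_stab] at h1
  rw [h1]
  constructor
  · intro h i j hi hj
    have h2 := h ⟨(i : ℕ) - k, by have := i.2; omega⟩ ⟨(j : ℕ), hj⟩
    have e1 : Fin.natAdd k (⟨(i : ℕ) - k, by have := i.2; omega⟩ : Fin m) = i := by
      apply Fin.ext
      simp
      omega
    have e2 : Fin.castAdd m (⟨(j : ℕ), hj⟩ : Fin k) = j := by
      apply Fin.ext
      simp
    rwa [e1, e2] at h2
  · intro h i j
    exact h _ _ (by simp) (by simp)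

/-- inverse transpose composed with reversal -/
def sig (g : GL (Fin n) F) : GL (Fin n) F where
  val := (((g⁻¹ : GL (Fin n) F) : Matrix (Fin n) (Fin n) F)ᵀ).submatrix Fin.revPerm Fin.revPerm
  inv := ((g : Matrix (Fin n) (Fin n) F)ᵀ).submatrix Fin.revPerm Fin.revPerm
  val_inv := by
    rw [Matrix.submatrix_mul_equiv, ← Matrix.transpose_mul, ← Units.val_mul, mul_inv_cancel, Units.val_one, Matrix.transpose_one, Matrix.submatrix_one_equiv]
  inv_val := by
    rw [Matrix.submatrix_mul_equiv, ← Matrix.transpose_mul, ← Units.val_mul, inv_mul_cancel, Units.val_one, Matrix.transpose_one, Matrix.submatrix_one_equiv]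

theorem sig_mul (g h : GL (Fin n) F) : sig (g * h) = sig g * sig h := by
  apply Units.ext
  show (((((g * h)⁻¹ : GL (Fin n) F)) : Matrix (Fin n) (Fin n) F)ᵀ).submatrix Fin.revPerm Fin.revPerm =
    ((((g⁻¹ : GL (Fin n) F)) : Matrix (Fin n) (Fin n) F)ᵀ).submatrix Fin.revPerm Fin.revPerm * ((((h⁻¹ : GL (Fin n) F)) : Matrix (Fin n) (Fin n) F)ᵀ).submatrix Fin.revPerm Fin.revPerm
  rw [Matrix.submatrix_mul_equiv, ← Matrix.transpose_mul, ← Units.val_mul, _root_.mul_inv_rev]

theorem sig_sig (g : GL (Fin n) F) : sig (sig g) = g := by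
  apply Units.ext
  show ((((g : Matrix (Fin n) (Fin n) F)ᵀ).submatrix Fin.revPerm Fin.revPerm)ᵀ).submatrix Fin.revPerm Fin.revPerm = g
  ext i j
  simp

theorem sig_stb {k : ℕ} (hk : k ≤ n) {g : GL (Fin n) F} (hg : Stb (cU n k F) g) : Stb (cU n (n - k) F) (sig g) := by
  rw [stab_iff' (Nat.sub_le n k)]
  intro i j hi hj
  have h1 : Stb (cU n k F) g⁻¹ := by
    have : g ∈ Cfsg.stabilizing (Cfsg.glToMat (Fin n) F) {v : Fin n → F | ∀ i : Fin n, k ≤ (i : ℕ) → v i = 0} := mem_stab.mpr hg
    exact mem_stab.mp (Subgroup.inv_mem _ this)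
  rw [stab_iff' hk] at h1
  show ((g⁻¹ : GL (Fin n) F) : Matrix (Fin n) (Fin n) F) (Fin.rev j) (Fin.rev i) = 0
  apply h1
  · rw [Fin.val_rev]
    have := j.2
    omega
  · rw [Fin.val_rev]
    have := i.2
    omega

theorem finrank_cU {k : ℕ} (hk : k ≤ n) : Module.finrank F (cU n k F) = k := by
  classical
  have e : cU n k F ≃ₗ[F] (Fin k → F) :=
    { toFun := fun v i => v.1 ⟨(i : ℕ), lt_of_lt_of_le i.2 hk⟩
      map_add' := fun a b => rfl
      map_smul' := fun c a => rfl
      invFun := fun w => ⟨fun i => if h : (i : ℕ) < k then w ⟨i, h⟩ else 0, fun i hi => dif_neg (by omega)⟩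
      left_inv := by
        intro v
        apply Subtype.ext
        funext i
        show (if h : (i : ℕ) < k then v.1 ⟨(i : ℕ), _⟩ else 0) = v.1 i
        split_ifs with h
        · rfl
        · exact (v.2 i (by omega)).symm
      right_inv := by
        intro w
        funext i
        show (if h : (i : ℕ) < k then w ⟨(i : ℕ), h⟩ else 0) = w i
        rw [dif_pos i.2] }
  rw [e.finrank_eq, Module.finrank_fin_fun]

theorem s0773 (n k : ℕ) (hk0 : 0 < k) (hkn : k < n) (h2 : 2 * k ≠ n) : Nonempty (↥(Cfsg.stabilizing (Cfsg.glToMat (Fin n) F) {v : Fin n → F | ∀ i : Fin n, k ≤ (i : ℕ) → v i = 0}) ≃* ↥(Cfsg.stabilizing (Cfsg.glToMat (Fin n) F) {v : Fin n → F | ∀ i : Fin n, n - k ≤ (i : ℕ) → v i = 0})) ∧ ∀ g : Matrix.GeneralLinearGroup (Fin n) F, (Cfsg.stabilizing (Cfsg.glToMat (Fin n) F) {v : Fin n → F | ∀ i : Fin n, k ≤ (i : ℕ) → v i = 0}).map (MulAut.conj g).toMonoidHom ≠ Cfsg.stabilizing (Cfsg.glToMat (Fin n) F) {v : Fin n → F | ∀ i : Fin n, n - k ≤ (i : ℕ) → v i =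 0} := by
  constructor
  · refine ⟨{ toFun := fun g => ⟨sig g.1, mem_stab.mpr (sig_stb hkn.le (mem_stab.mp g.2))⟩, invFun := fun g => ⟨sig g.1, ?_⟩, left_inv := fun g => Subtype.ext (sig_sig _), right_inv := fun g => Subtype.ext (sig_sig _), map_mul' := fun a b => Subtype.ext (sig_mul _ _) }⟩
    have h1 := sig_stb (Nat.sub_le n k) (mem_stab.mp g.2)
    have e : n - (n - k) = k := by omega
    rw [e] at h1
    exact mem_stab.mpr h1
  · intro g heq
    set U := cU n k F with hU
    set U' := cU n (n - k) F with hU'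
    set W := img g U with hW
    have hinv : ∀ p : GL (Fin n) F, Stb U' p → ∀ w ∈ W, (p : Matrix (Fin n) (Fin n) F).mulVec w ∈ W := by
      intro p hp w hw
      have h1 : p ∈ (Cfsg.stabilizing (Cfsg.glToMat (Fin n) F) {v : Fin n → F | ∀ i : Fin n, k ≤ (i : ℕ) → v i = 0}).map (MulAut.conj g).toMonoidHom := by
        rw [heq]; exact mem_stab.mpr hp
      obtain ⟨h, hh, rfl⟩ := h1
      obtain ⟨u, hu, rfl⟩ := hw
      show ((g * h * g⁻¹ : GL (Fin n) F) : Matrix (Fin n) (Fin n) F).mulVec ((g : Matrix (Fin n) (Fin n) F).mulVec u) ∈ W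
      rw [Units.val_mul, Units.val_mul, ← Matrix.mulVec_mulVec, ← Matrix.mulVec_mulVec, inv_mulVec]
      exact ⟨_, (hh u).mp hu, rfl⟩
    let H := Cfsg.stabilizing (Cfsg.glToMat (Fin n) F) {v : Fin n → F | ∀ i : Fin n, n - k ≤ (i : ℕ) → v i = 0}
    have hH : ∀ p, Stb U' p → p ∈ H := fun p hp => mem_stab.mpr hp
    have hWrank : Module.finrank F W = k := by
      rw [hW, img, ← LinearEquiv.finrank_eq (Submodule.equivMapOfInjective _ (Matrix.mulVec_injective_of_isUnit g.isUnit) U), hU, finrank_cU hkn.le]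
    have hle : W ≤ U' := by
      by_contra hcon
      obtain ⟨w, hw, hwU⟩ := Set.not_subset.mp hcon
      have hall : ∀ v, v ∉ U' → v ∈ W := by
        intro v hv
        obtain ⟨p, hp, hpw⟩ := trans_out hH hwU hv
        rw [← hpw]
        exact hinv p (mem_stab.mp hp) w hw
      have htop : W = ⊤ := by
        rw [eq_top_iff]
        intro v _
        by_cases hv : v ∈ U'
        · have h3 : v + w ∉ U' := by
            intro h4
            apply hwU
            have := U'.sub_mem h4 hv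
            rwa [add_sub_cancel_left] at this
          have h4 := W.sub_mem (hall _ h3) hw
          rwa [add_sub_cancel_right] at h4
        · exact hall v hv
      rw [htop, finrank_top, Module.finrank_fin_fun] at hWrank
      omega
    have hWne : W ≠ ⊥ := by
      intro h3
      rw [h3, finrank_bot] at hWrank
      omega
    obtain ⟨w, hw, hw0⟩ := Submodule.exists_mem_ne_zero_of_ne_bot hWne
    have heq2 : W = U' := by
      apply le_antisymm hle
      intro u hu
      by_cases hu0 : u = 0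
      · rw [hu0]; exact W.zero_mem
      · obtain ⟨p, hp, hpw⟩ := trans_in hH (hle hw) hu hw0 hu0
        rw [← hpw]
        exact hinv p (mem_stab.mp hp) w hw
    rw [heq2, hU', finrank_cU (Nat.sub_le n k)] at hWrank
    omega

end Cfsg.Agent.Lib.Par
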