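import Mathlib
import Cfsg.Agent.Lib.Par3

/-! transitivity of `SL_n` on subspaces -/

set_option linter.all false
set_option maxHeartbeats 400000

namespace Cfsg.Agent.Lib.Par

open Matrix

variable {F : Type*} [Field F] {n : ℕ}

theorem exists_equiv {U₁ U₂ : Submodule F (Fin n → F)} (h : Module.finrank F U₁ = Module.finrank F U₂) :
    ∃ e : (Fin n → F) ≃ₗ[F] (Fin n → F), ∀ u ∈ U₁, e u ∈ U₂ := by
  classical
  obtain ⟨W₁, hW₁⟩ := U₁.exists_isCompl
  obtain ⟨W₂, hW₂⟩ := U₂.exists_isCompl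
  have hWr : Module.finrank F W₁ = Module.finrank F W₂ := by
    have h1 := Submodule.finrank_add_eq_of_isCompl hW₁
    have h2 := Submodule.finrank_add_eq_of_isCompl hW₂
    omega
  let e1 : U₁ ≃ₗ[F] U₂ := LinearEquiv.ofFinrankEq _ _ h
  let e2 : W₁ ≃ₗ[F] W₂ := LinearEquiv.ofFinrankEq _ _ hWr
  let e : (Fin n → F) ≃ₗ[F] (Fin n → F) := ((Submodule.prodEquivOfIsCompl U₁ W₁ hW₁).symm.trans (e1.prodCongr e2)).trans (Submodule.prodEquivOfIsCompl U₂ W₂ hW₂)
  have he1 : ∀ u : U₁, e u = (e1 u : Fin n → F) := by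
    intro u
    show Submodule.prodEquivOfIsCompl U₂ W₂ hW₂ ((e1.prodCongr e2) ((Submodule.prodEquivOfIsCompl U₁ W₁ hW₁).symm u)) = _
    rw [Submodule.prodEquivOfIsCompl_symm_apply_left]
    show Submodule.prodEquivOfIsCompl U₂ W₂ hW₂ (e1 u, e2 0) = _
    rw [map_zero, Submodule.coe_prodEquivOfIsCompl']
    simp
  refine ⟨e, fun u hu => ?_⟩
  have := he1 ⟨u, hu⟩
  rw [this]
  exact (e1 ⟨u, hu⟩).2

theorem exists_SL (hn : 1 ≤ n) {k : ℕ} (hk : k ≤ n) {U : Submodule F (Fin n → F)} (h : Module.finrank F U = k) :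
    ∃ s : Matrix.SpecialLinearGroup (Fin n) F, (cU n k F).map (s : Matrix (Fin n) (Fin n) F).mulVecLin = U := by
  classical
  obtain ⟨e, he⟩ := exists_equiv (U₁ := cU n k F) (U₂ := U) (by rw [finrank_cU hk, h])
  let M := LinearMap.toMatrix' (e : (Fin n → F) →ₗ[F] (Fin n → F))
  have hMe : ∀ v, M.mulVec v = e v := fun v => LinearMap.toMatrix'_mulVec _ v
  have hdet : M.det ≠ 0 := by
    have h1 : M * LinearMap.toMatrix' (e.symm : (Fin n → F) →ₗ[F] (Fin n → F)) = 1 := by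
      rw [← LinearMap.toMatrix'_comp]
      simp
    intro h2
    have h3 := congrArg Matrix.det h1
    rw [Matrix.det_mul, h2, zero_mul, Matrix.det_one] at h3
    exact zero_ne_one h3
  let D : Matrix (Fin n) (Fin n) F := Matrix.diagonal (fun i => if (i : ℕ) = 0 then (M.det)⁻¹ else 1)
  have hD : D.det = (M.det)⁻¹ := by
    rw [Matrix.det_diagonal, Finset.prod_eq_single (⟨0, by omega⟩ : Fin n)]
    · simp
    · intro b _ hb
      rw [if_neg]
      intro h1
      exact hb (Fin.ext h1)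
    · intro h1; exact absurd (Finset.mem_univ _) h1
  refine ⟨⟨M * D, by rw [Matrix.det_mul, hD, mul_inv_cancel₀ hdet]⟩, ?_⟩
  have hinj : Function.Injective (M * D).mulVecLin := by
    apply Matrix.mulVec_injective_of_isUnit
    rw [Matrix.isUnit_iff_isUnit_det, Matrix.det_mul, hD, mul_inv_cancel₀ hdet]
    exact isUnit_one
  apply Submodule.eq_of_le_of_finrank_eq
  · rintro _ ⟨v, hv, rfl⟩
    show (M * D).mulVec v ∈ U
    rw [← Matrix.mulVec_mulVec, hMe]
    apply he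
    intro i hi
    rw [Matrix.mulVec_diagonal, hv i hi, mul_zero]
  · rw [h]
    show Module.finrank F ((cU n k F).map (M * D).mulVecLin) = k
    rw [← LinearEquiv.finrank_eq (Submodule.equivMapOfInjective _ hinj (cU n k F)), finrank_cU hk]

theorem s2552 (n : ℕ) (hn : 1 ≤ n) (U₁ U₂ : Submodule F (Fin n → F)) (h : Module.finrank F U₁ = Module.finrank F U₂) : ∃ g : Matrix.SpecialLinearGroup (Fin n) F, U₁.map ((Matrix.SpecialLinearGroup.toLin' g : (Fin n → F) ≃ₗ[F] (Fin n → F)) : (Fin n → F) →ₗ[F] (Fin n → F)) = U₂ := by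
  have hk : Module.finrank F U₁ ≤ n := by
    have := Submodule.finrank_le U₁
    rwa [Module.finrank_fin_fun] at this
  obtain ⟨s, hs⟩ := exists_SL hn hk (U := U₁) rfl
  obtain ⟨t, ht⟩ := exists_SL hn hk (U := U₂) h.symm
  refine ⟨t * s⁻¹, ?_⟩
  have e : ((Matrix.SpecialLinearGroup.toLin' (t * s⁻¹) : (Fin n → F) ≃ₗ[F] (Fin n → F)) : (Fin n → F) →ₗ[F] (Fin n → F)) = ((t * s⁻¹ : Matrix.SpecialLinearGroup (Fin n) F) : Matrix (Fin n) (Fin n) F).mulVecLin := rfl
  rw [e, ← ht]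
  nth_rewrite 1 [← hs]
  rw [← Submodule.map_comp]
  congr 1
  apply LinearMap.ext
  intro v
  show ((t * s⁻¹ : Matrix.SpecialLinearGroup (Fin n) F) : Matrix (Fin n) (Fin n) F).mulVec ((s : Matrix (Fin n) (Fin n) F).mulVec v) = (t : Matrix (Fin n) (Fin n) F).mulVec v
  rw [Matrix.mulVec_mulVec, ← Matrix.SpecialLinearGroup.coe_mul, inv_mul_cancel_right]

end Cfsg.Agent.Lib.Par
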