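import Mathlib
import Cfsg.Agent.Lib.Par4

/-! Borel-Tits for `SL_n` in flag form. -/

set_option linter.all false
set_option maxHeartbeats 400000

namespace Cfsg.Agent.Lib.BTf

open Matrix

variable {F : Type*} [Field F] {n : ℕ}

/-- the ascending fixed point series -/
def W (U : Subgroup (Matrix.SpecialLinearGroup (Fin n) F)) : ℕ → Submodule F (Fin n → F)
  | 0 => ⊥
  | i + 1 =>
    { carrier := {v | ∀ u ∈ U, (u : Matrix (Fin n) (Fin n) F).mulVec v - v ∈ W U i}
      add_mem' := by
        intro a b ha hb u hu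
        rw [Matrix.mulVec_add, add_sub_add_comm]
        exact (W U i).add_mem (ha u hu) (hb u hu)
      zero_mem' := by
        intro u hu
        rw [Matrix.mulVec_zero, sub_zero]
        exact (W U i).zero_mem
      smul_mem' := by
        intro c a ha u hu
        rw [Matrix.mulVec_smul, ← smul_sub]
        exact (W U i).smul_mem c (ha u hu) }

variable {U : Subgroup (Matrix.SpecialLinearGroup (Fin n) F)}

theorem mem_W_succ {i : ℕ} {v : Fin n → F} : v ∈ W U (i + 1) ↔ ∀ u ∈ U, (u : Matrix (Fin n) (Fin n) F).mulVec v - v ∈ W U i := Iff.rfl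

theorem W_le (i : ℕ) : W U i ≤ W U (i + 1) := by
  induction i with
  | zero => exact bot_le
  | succ i ih =>
    intro v hv u hu
    exact ih (hv u hu)

theorem W_inv {i : ℕ} {v : Fin n → F} (hv : v ∈ W U i) {u : Matrix.SpecialLinearGroup (Fin n) F} (hu : u ∈ U) : (u : Matrix (Fin n) (Fin n) F).mulVec v ∈ W U i := by
  have h1 := W_le i hv u hu
  have h2 := (W U i).add_mem h1 hv
  rwa [sub_add_cancel] at h2

theorem W_lt [Fintype F] {p : ℕ} [Fact p.Prime] [CharP F p] (hU : IsPGroup p U) {i : ℕ} (hi : W U i ≠ ⊤) : W U i < W U (i + 1) := by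
  classical
  refine lt_of_le_of_ne (W_le i) (fun heq => ?_)
  -- action on the quotient
  let Q := (Fin n → F) ⧸ W U i
  letI act : MulAction U Q :=
    { smul := fun u q => (W U i).mapQ (W U i) (u.1 : Matrix (Fin n) (Fin n) F).mulVecLin (fun v hv => W_inv hv u.2) q
      one_smul := by
        intro q
        induction q using Submodule.Quotient.induction_on with | _ v =>
        exact congrArg Submodule.Quotient.mk (Matrix.one_mulVec v)
      mul_smul := by
        intro a b q
        induction q using Submodule.Quotient.induction_on with | _ v =>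
        exact congrArg Submodule.Quotient.mk (Matrix.mulVec_mulVec v (a.1 : Matrix (Fin n) (Fin n) F) (b.1 : Matrix (Fin n) (Fin n) F)).symm }
  have hsm : ∀ (u : U) (v : Fin n → F), u • (Submodule.Quotient.mk v : Q) = Submodule.Quotient.mk ((u.1 : Matrix (Fin n) (Fin n) F).mulVec v) := fun u v => rfl
  haveI : Finite Q := Quotient.finite _
  have hnt : Nontrivial Q := Submodule.Quotient.nontrivial_iff.mpr hi
  have hdvd : p ∣ Nat.card Q := by
    haveI : Fintype Q := Fintype.ofFinite _
    have h1 : Nat.card Q = Fintype.card F ^ Module.finrank F Q := by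
      rw [Nat.card_eq_fintype_card]
      exact Module.card_eq_pow_finrank
    obtain ⟨m, _, hm⟩ := FiniteField.card F p
    have h2 : 0 < Module.finrank F Q := Module.finrank_pos
    rw [h1, hm, ← pow_mul]
    exact dvd_pow_self p (by positivity)
  have h0 : (0 : Q) ∈ MulAction.fixedPoints U Q := by
    intro u
    show u • (Submodule.Quotient.mk (0 : Fin n → F) : Q) = Submodule.Quotient.mk 0
    rw [hsm, Matrix.mulVec_zero]
  obtain ⟨q, hq, hq0⟩ := hU.exists_fixed_point_of_prime_dvd_card_of_fixed_point Q hdvd h0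
  induction q using Submodule.Quotient.induction_on with | _ v =>
  apply hq0
  symm
  rw [Submodule.Quotient.mk_eq_zero]
  rw [heq]
  intro u hu
  have h3 := hq ⟨u, hu⟩
  rw [hsm, Submodule.Quotient.eq] at h3
  exact h3

theorem W_norm {i : ℕ} {g : Matrix.SpecialLinearGroup (Fin n) F} (hg : g ∈ Subgroup.normalizer (U : Set (Matrix.SpecialLinearGroup (Fin n) F))) :
    ∀ v ∈ W U i, (g : Matrix (Fin n) (Fin n) F).mulVec v ∈ W U i := by
  induction i with
  | zero =>
    intro v hv
    have hv0 : v = 0 := hv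
    rw [hv0, Matrix.mulVec_zero]
    exact (W U 0).zero_mem
  | succ i ih =>
    intro v hv u hu
    have h1 : g⁻¹ * u * g ∈ U := (Subgroup.mem_normalizer_iff''.mp hg u).mp hu
    have h2 := ih _ (hv _ h1)
    have h3 : (g : Matrix (Fin n) (Fin n) F).mulVec (((g⁻¹ * u * g : Matrix.SpecialLinearGroup (Fin n) F) : Matrix (Fin n) (Fin n) F).mulVec v - v) =
        (u : Matrix (Fin n) (Fin n) F).mulVec ((g : Matrix (Fin n) (Fin n) F).mulVec v) - (g : Matrix (Fin n) (Fin n) F).mulVec v := by
      rw [Matrix.mulVec_sub, Matrix.mulVec_mulVec, Matrix.mulVec_mulVec, ← Matrix.SpecialLinearGroup.coe_mul, ← Matrix.SpecialLinearGroup.coe_mul]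
      have : g * (g⁻¹ * u * g) = u * g := by group
      rw [this]
    rwa [h3] at h2

theorem s2391 [Fintype F] (p : ℕ) [Fact p.Prime] [CharP F p] (n : ℕ)
    (U : Subgroup (Matrix.SpecialLinearGroup (Fin n) F)) (hU : IsPGroup p ↥U) (hne : U ≠ ⊥) :
    ∃ (k : ℕ) (V : Fin (k + 2) → Submodule F (Fin n → F)), 1 ≤ k ∧ StrictMono V ∧ V 0 = ⊥ ∧ V (Fin.last (k + 1)) = ⊤ ∧
      (∀ g ∈ Subgroup.normalizer (U : Set (Matrix.SpecialLinearGroup (Fin n) F)), ∀ i, (V i).map (Matrix.mulVecLin (g : Matrix (Fin n) (Fin n) F)) = V i) ∧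
      (∀ u ∈ U, ∀ i : Fin (k + 1), ∀ v ∈ V i.succ, (u : Matrix (Fin n) (Fin n) F).mulVec v - v ∈ V (Fin.castSucc i)) := by
  classical
  have hex : ∃ m, W U m = ⊤ := by
    by_contra hcon
    push Not at hcon
    have h1 : ∀ m, m ≤ Module.finrank F (W U m) := by
      intro m
      induction m with
      | zero => exact Nat.zero_le _
      | succ m ih =>
        have := Submodule.finrank_lt_finrank_of_lt (W_lt hU (hcon m))
        omega
    have h2 := h1 (n + 1)
    have h3 := Submodule.finrank_le (W U (n + 1))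
    rw [Module.finrank_fin_fun] at h3
    omega
  let m := Nat.find hex
  have hm : W U m = ⊤ := Nat.find_spec hex
  have hmin : ∀ i < m, W U i ≠ ⊤ := fun i hi => Nat.find_min hex hi
  obtain ⟨x, hx, hx1⟩ : ∃ x : Matrix.SpecialLinearGroup (Fin n) F, x ∈ U ∧ x ≠ 1 := by
    obtain ⟨a, ha⟩ := Subgroup.ne_bot_iff_exists_ne_one.mp hne
    exact ⟨a.1, a.2, fun h => ha (Subtype.ext h)⟩
  have hm2 : 2 ≤ m := by
    by_contra hcon
    have h1 : W U 1 = ⊤ := by
      have h3 : m = 0 ∨ m = 1 := by omega
      rcases h3 with h3 | h3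
      · rw [h3] at hm
        exact top_le_iff.mp (hm ▸ W_le 0)
      · rw [h3] at hm; exact hm
    apply hx1
    apply Subtype.ext
    apply (Matrix.toLin' (R := F)).injective
    apply LinearMap.ext
    intro v
    have h2 : v ∈ W U 1 := by rw [h1]; trivial
    have h3 : (x : Matrix (Fin n) (Fin n) F).mulVec v - v = 0 := h2 x hx
    show (x : Matrix (Fin n) (Fin n) F).mulVec v = (1 : Matrix (Fin n) (Fin n) F).mulVec v
    rw [Matrix.one_mulVec]
    exact sub_eq_zero.mp h3
  obtain ⟨k, hk⟩ : ∃ k, m = k + 1 := ⟨m - 1, by omega⟩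
  refine ⟨k, fun i => W U (i : ℕ), by omega, ?_, rfl, ?_, ?_, ?_⟩
  · rw [Fin.strictMono_iff_lt_succ]
    intro i
    show W U (i : ℕ) < W U ((i : ℕ) + 1)
    apply W_lt hU
    apply hmin
    have := i.2
    omega
  · show W U (k + 1) = ⊤
    rw [← hk]; exact hm
  · intro g hg i
    apply Submodule.eq_of_le_of_finrank_eq
    · rintro _ ⟨v, hv, rfl⟩
      exact W_norm hg v hv
    · have hinj : Function.Injective (g : Matrix (Fin n) (Fin n) F).mulVecLin := by
        apply Matrix.mulVec_injective_of_isUnit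
        rw [Matrix.isUnit_iff_isUnit_det, g.det_coe]
        exact isUnit_one
      exact (LinearEquiv.finrank_eq (Submodule.equivMapOfInjective _ hinj _)).symm
  · intro u hu i v hv
    exact hv u hu

end Cfsg.Agent.Lib.BTf
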