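import Cfsg.Agent.Lib.BlockRey
import Cfsg.Agent.Lib.BlockKB
import Cfsg.Agent.Lib.BlockLar
import Cfsg.Agent.Lib.BlockMaxB
import Cfsg.Agent.Lib.BlockIndIn
import Cfsg.Agent.Lib.BlockBFM

import Cfsg.Agent.Lib.BlkH5A
import Cfsg.Agent.Lib.BlkH5B
import Cfsg.Agent.Lib.BlkH5C
import Cfsg.Agent.Lib.BlkH5D
import Cfsg.Agent.Lib.BlkH5E
import Cfsg.Agent.Lib.BlkH5F
import Cfsg.Agent.Lib.BlkH5G
import Cfsg.Agent.Lib.CharFS
import Cfsg.Agent.Lib.CharFSOdd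

/-!
The order formula.
-/

set_option autoImplicit false
set_option linter.style.haveILetI false
set_option linter.unusedVariables false
set_option linter.unusedSectionVars false
set_option linter.unusedDecidableInType false
set_option linter.unusedFintypeInType false
set_option linter.unusedSimpArgs false

namespace Cfsg.Agent.Lib.BlkH5H
open Cfsg Cfsg.Agent.Lib.BlockLoc Cfsg.Agent.Lib.BlockGA Cfsg.Agent.Lib.CharBasic
open Cfsg.Agent.Lib.BlockIdem Cfsg.Agent.Lib.BlockPP Cfsg.Agent.Lib.BlockOrth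
open Cfsg.Agent.Lib.BlockRed Cfsg.Agent.Lib.BlockDef Cfsg.Agent.Lib.BlockDeg
open Cfsg.Agent.Lib.BlockNP Cfsg.Agent.Lib.BlockInd Cfsg.Agent.Lib.BlockSecond
open Cfsg.Agent.Lib.BlockFirst Cfsg.Agent.Lib.BlockHt Cfsg.Agent.Lib.BlockM
open Cfsg.Agent.Lib.BlockCov Cfsg.Agent.Lib.BlockQuot Cfsg.Agent.Lib.CharKer
open Cfsg.Agent.Lib.BlockQuotB Cfsg.Agent.Lib.BlockMore Cfsg.Agent.Lib.BlockMoreB
open Cfsg.Agent.Lib.BlockTr Cfsg.Agent.Lib.CharNormal Cfsg.Agent.Lib.BlockCovB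
open Cfsg.Agent.Lib.BlockBP Cfsg.Agent.Lib.BlockInt Cfsg.Agent.Lib.BlockSum Cfsg.Agent.Lib.BlockRk
open Cfsg.Agent.Lib.BlockFusB Cfsg.Agent.Lib.BlockMax Cfsg.Agent.Lib.CharSplit Cfsg.Agent.Lib.CharBrauer
open Cfsg.Agent.Lib.CharInd Cfsg.Agent.Lib.BlockPC Cfsg.Agent.Lib.BlockPair Cfsg.Agent.Lib.BlockPairB
open Cfsg.Agent.Lib.BlockPairC Cfsg.Agent.Lib.BlockPairD Cfsg.Agent.Lib.BlockPairE
open Cfsg.Agent.Lib.BlockRey Cfsg.Agent.Lib.BlockPairF Cfsg.Agent.Lib.BlockFus Cfsg.Agent.Lib.BlockNilB Cfsg.Agent.Lib.BlockNil Cfsg.Agent.Lib.CharClifford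
open Cfsg.Agent.Lib.BlockKB Cfsg.Agent.Lib.BlockLar Cfsg.Agent.Lib.BlockMaxB Cfsg.Agent.Lib.BlockIndIn Cfsg.Agent.Lib.BlockBFM
open Cfsg.Agent.Lib.BlkH5A Cfsg.Agent.Lib.BlkH5B Cfsg.Agent.Lib.BlkH5C Cfsg.Agent.Lib.BlkH5D Cfsg.Agent.Lib.BlkH5E Cfsg.Agent.Lib.BlkH5F Cfsg.Agent.Lib.BlkH5G Cfsg.Agent.Lib.CharFS Cfsg.Agent.Lib.CharFSOdd
open scoped ComplexConjugate

section Order

variable {G : Type*} [Group G] [Finite G] {M : Ideal AlgInt}

theorem order_S (hM : IsPModular 2 M) {g₀ : ℕ} (hg₀ : Odd g₀) (hG : Nat.card G = 4 * g₀)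
    (hnc : ¬ ∃ N : Subgroup G, N.Normal ∧ Nat.card N = g₀) (P : Sylow 2 G) {J : G}
    (hJP : J ∈ (P : Subgroup G)) (hJ2 : orderOf J = 2) [DecidablePred (· ∈ principalBlock M G)] :
    (Nat.card G : ℂ) * (∑ χ ∈ Finset.univ.filter (· ∈ principalBlock M G), χ.1 J ^ 3 / χ.1 1) *
      (Nat.card (Subgroup.centralizer ((P : Subgroup G) : Set G)) : ℂ) ^ 2 =
      8 * (Nat.card (Subgroup.centralizer ({J} : Set G)) : ℂ) ^ 3 := by
  classical
  haveI := factP hM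
  cases nonempty_fintype G
  haveI : Fintype (Subgroup.centralizer ({J} : Set G)) := Fintype.ofFinite _
  obtain ⟨hP4, hexp, hone⟩ := four_structure hg₀ hG hnc P
  have hJJ : J * J = 1 := hexp J hJP
  have hJ1 : J ≠ 1 := fun h => by rw [h, orderOf_one] at hJ2; omega
  have hP4' : Nat.card (P : Subgroup G) = 4 := hP4
  have hV : IsKleinFour (P : Subgroup G) := klein_of_four hP4
    (fun x => Subtype.ext (hexp x x.2))
  have hab : ∀ x ∈ (P : Subgroup G), ∀ y ∈ (P : Subgroup G), x * y = y * x := by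
    intro x hx y hy
    have h1 := hexp _ ((P : Subgroup G).mul_mem hx hy)
    have h2 := hexp x hx
    have h3 := hexp y hy
    calc x * y = x * (x * y * (x * y)) * y := by rw [h1]; group
      _ = (x * x) * y * x * (y * y) := by group
      _ = y * x := by rw [h2, h3]; group
  -- the second generator
  obtain ⟨t₀, ht₀P, ht₀1, ht₀J⟩ : ∃ t ∈ (P : Subgroup G), t ≠ 1 ∧ t ≠ J := by
    by_contra hcon
    push Not at hcon
    have h1 : (Set.univ : Set (P : Subgroup G)) ⊆ {1, ⟨J, hJP⟩} := by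
      rintro ⟨t, ht⟩ -
      by_cases h : t = 1
      · left; exact Subtype.ext h
      · right; exact Subtype.ext (hcon t ht h)
    have h2 := Set.ncard_le_ncard h1 (Set.toFinite _)
    rw [Set.ncard_univ, hP4'] at h2
    have h3 : Set.ncard ({1, ⟨J, hJP⟩} : Set (P : Subgroup G)) ≤ 2 := (Set.ncard_insert_le _ _).trans (by rw [Set.ncard_singleton])
    omega
  have hcomm : Commute J t₀ := hab J hJP t₀ ht₀P
  have hCP : Subgroup.centralizer ((P : Subgroup G) : Set G) =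
      Subgroup.centralizer ({J} : Set G) ⊓ Subgroup.centralizer ({t₀} : Set G) := by
    ext g
    rw [Subgroup.mem_inf, mem_cent_iff, mem_cent_iff, Subgroup.mem_centralizer_iff]
    constructor
    · intro h
      exact ⟨(h J hJP).symm, (h t₀ ht₀P).symm⟩
    · rintro ⟨h1, h2⟩ x hx
      by_cases hx1 : x = 1
      · rw [hx1, one_mul, mul_one]
      by_cases hxJ : x = J
      · rw [hxJ]; exact h1.symm
      by_cases hxt : x = t₀
      · rw [hxt]; exact h2.symm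
      · rw [klein_third hV hJP ht₀P hx hJ1 ht₀1 (Ne.symm ht₀J) hx1 hxJ hxt]
        exact ((h1.mul_right h2).eq).symm
  obtain ⟨hr1, hf2⟩ := sylow_four_local hM P hP4 hexp hJ2
  obtain ⟨R, hRn, hR, hidx⟩ := reg_subgroup hM hr1
  rw [hf2] at hidx
  have hexp2 : ∀ g : G, (∃ k : ℕ, orderOf g = 2 ^ k) → g * g = 1 := by
    intro g hg
    have h1 : IsPGroup 2 (Subgroup.zpowers g) := (isPGroup_zpowers_iff Nat.prime_two g).2 hg
    obtain ⟨Q, hQ⟩ := h1.exists_le_sylow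
    obtain ⟨c, hc⟩ := MulAction.exists_smul_eq G Q P
    have h2 : c * g * c⁻¹ ∈ (P : Subgroup G) := by
      rw [← hc]
      exact Subgroup.mem_map.2 ⟨g, hQ (Subgroup.mem_zpowers g), rfl⟩
    have h3 := hexp _ h2
    calc g * g = c⁻¹ * (c * g * c⁻¹ * (c * g * c⁻¹)) * c := by group
      _ = 1 := by rw [h3]; group
  have hcount := count_pairs hJJ hJ1 (hexp t₀ ht₀P) ht₀1 ht₀J hcomm hone hexp2 hRn hR
    (by rw [hidx]; norm_num)
  rw [← hCP] at hcount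
  -- the class function
  set N : G → ℂ := fun g =>
    (Nat.card {p : G × G // IsConj J p.1 ∧ IsConj J p.2 ∧ p.1 * p.2 = g} : ℂ) with hN
  set K : ℂ := (Nat.card {x : G // IsConj J x} : ℂ) with hK
  have hJr : ∀ χ : IrrCharacter G, conj (χ.1 J) = χ.1 J := by
    intro χ
    rw [conj_irr, inv_eq_of_mul_eq_one_left hJJ]
  have hNex : N = ∑ χ : IrrCharacter G, (K * K / (Nat.card G : ℂ) * (χ.1 J ^ 2 / χ.1 1)) • χ.1 := by
    ext g
    have h1 : N g = conj (N g) := (Complex.conj_natCast _).symm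
    rw [h1, hN]
    dsimp only
    rw [CharFS.card_class_mul, Finset.sum_apply, map_mul, map_sum, Finset.mul_sum]
    refine Finset.sum_congr rfl (fun χ _ => ?_)
    rw [map_div₀, map_div₀, map_mul, map_mul, map_mul, Complex.conj_conj, hJr, Complex.conj_natCast,
      Complex.conj_natCast, Pi.smul_apply, smul_eq_mul]
    have h2 : conj (χ.1 1) = χ.1 1 := by rw [conj_irr, inv_one]
    rw [h2]
    ring
  have hNcl : IsClassFunction G N := by
    rw [hNex]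
    intro g x
    rw [Finset.sum_apply, Finset.sum_apply]
    refine Finset.sum_congr rfl (fun χ _ => ?_)
    rw [Pi.smul_apply, Pi.smul_apply, isChar_classFn (isChar_of_irr χ.2) g x]
  have hkey := key_formula hM (x := J) ⟨1, by rw [hJ2, pow_one]⟩ hr1 hNcl
  rw [blockPart_eq, hf2] at hkey
  have e1 : ∀ χ : IrrCharacter G, classInner N χ.1 = K * K / (Nat.card G : ℂ) * (χ.1 J ^ 2 / χ.1 1) := by
    intro χ
    rw [hNex, inner_sum_irr]
  simp_rw [e1] at hkey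
  have hcl : K * (Nat.card (Subgroup.centralizer ({J} : Set G)) : ℂ) = Nat.card G := by
    rw [hK, card_conj_class]
    exact_mod_cast Subgroup.index_mul_card (Subgroup.centralizer ({J} : Set G))
  have hcC : (Nat.card (Subgroup.centralizer ({J} : Set G)) : ℂ) ≠ 0 := card_ne_zero'
  have hcG : (Nat.card G : ℂ) ≠ 0 := card_ne_zero'
  have hcount' : (∑ c ∈ Finset.univ.filter (fun c : Subgroup.centralizer ({J} : Set G) =>
      ¬ 2 ∣ orderOf c), N (J * (c : G))) *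
      (Nat.card (Subgroup.centralizer ((P : Subgroup G) : Set G)) : ℂ) ^ 2 =
      2 * (Nat.card (Subgroup.centralizer ({J} : Set G)) : ℂ) ^ 2 := by
    have h := congrArg (fun n : ℕ => (n : ℂ)) hcount
    simp only [Nat.cast_mul, Nat.cast_pow, Nat.cast_sum, Nat.cast_ofNat] at h
    exact h
  set S : ℂ := ∑ χ ∈ Finset.univ.filter (· ∈ principalBlock M G), χ.1 J ^ 3 / χ.1 1 with hS
  have e2 : ∑ χ ∈ Finset.univ.filter (· ∈ principalBlock M G),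
      K * K / (Nat.card G : ℂ) * (χ.1 J ^ 2 / χ.1 1) * χ.1 J = K * K / (Nat.card G : ℂ) * S := by
    rw [hS, Finset.mul_sum]
    exact Finset.sum_congr rfl (fun χ _ => by ring)
  rw [e2] at hkey
  set c : ℂ := (Nat.card (Subgroup.centralizer ({J} : Set G)) : ℂ) with hc
  set m : ℂ := (Nat.card (Subgroup.centralizer ((P : Subgroup G) : Set G)) : ℂ) with hm
  set T : ℂ := ∑ c ∈ Finset.univ.filter (fun c : Subgroup.centralizer ({J} : Set G) =>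
      ¬ 2 ∣ orderOf c), N (J * (c : G)) with hT
  set g : ℂ := (Nat.card G : ℂ) with hg
  have e3 : ((2 ^ 2 : ℕ) : ℂ) = 4 := by norm_num
  rw [e3] at hkey
  have hKc : K = g / c := by rw [← hcl]; field_simp
  rw [hKc] at hkey
  have h5 : g * S = 4 * c * T := by
    field_simp at hkey
    linear_combination hkey
  rw [h5]
  linear_combination 4 * c * hcount'

/-- The values on the principal block. -/
theorem order_rel (hM : IsPModular 2 M) {g₀ : ℕ} (hg₀ : Odd g₀) (hG : Nat.card G = 4 * g₀)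
    (hnc : ¬ ∃ N : Subgroup G, N.Normal ∧ Nat.card N = g₀) (P : Sylow 2 G) {J : G}
    (hJP : J ∈ (P : Subgroup G)) (hJ2 : orderOf J = 2)
    (χ₁ χ₂ χ₃ : IrrCharacter G) (ε₁ ε₂ ε₃ : ℤ)
    (hB : principalBlock M G = {χ : IrrCharacter G | χ.1 = (fun _ => 1) ∨ χ = χ₁ ∨ χ = χ₂ ∨ χ = χ₃})
    (hdist : χ₁.1 ≠ (fun _ => 1) ∧ χ₂.1 ≠ (fun _ => 1) ∧ χ₃.1 ≠ (fun _ => 1) ∧ χ₁ ≠ χ₂ ∧ χ₁ ≠ χ₃ ∧
      χ₂ ≠ χ₃)
    (hval : χ₁.1 J = ε₁ ∧ χ₂.1 J = ε₂ ∧ χ₃.1 J = ε₃) :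
    1 + ε₁ * (charDegree χ₁.1 : ℤ) + ε₂ * charDegree χ₂.1 + ε₃ * charDegree χ₃.1 = 0 ∧
    (Nat.card G : ℂ) * (1 + ε₁ ^ 3 / charDegree χ₁.1 + ε₂ ^ 3 / charDegree χ₂.1 +
      ε₃ ^ 3 / charDegree χ₃.1) *
      (Nat.card (Subgroup.centralizer ((P : Subgroup G) : Set G)) : ℂ) ^ 2 =
      8 * (Nat.card (Subgroup.centralizer ({J} : Set G)) : ℂ) ^ 3 := by
  classical
  obtain ⟨h1, h2, h3, h4, h5, h6⟩ := hdist
  have hsum : ∀ f : IrrCharacter G → ℂ, ∑ χ ∈ Finset.univ.filter (· ∈ principalBlock M G), f χ =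
      f ⟨fun _ => 1, isIrr_trivial⟩ + f χ₁ + f χ₂ + f χ₃ := by
    intro f
    have e1 : Finset.univ.filter (· ∈ principalBlock M G) =
        {(⟨fun _ => 1, isIrr_trivial⟩ : IrrCharacter G), χ₁, χ₂, χ₃} := by
      ext χ
      rw [Finset.mem_filter, hB, Set.mem_ofPred_eq]
      simp only [Finset.mem_univ, true_and, Finset.mem_insert, Finset.mem_singleton]
      rw [Subtype.ext_iff (a2 := (⟨fun _ => 1, isIrr_trivial⟩ : IrrCharacter G))]
    rw [e1, Finset.sum_insert, Finset.sum_insert, Finset.sum_insert, Finset.sum_singleton]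
    · ring
    · rw [Finset.mem_singleton]; exact h6
    · simp only [Finset.mem_insert, Finset.mem_singleton, not_or]
      exact ⟨h4, h5⟩
    · simp only [Finset.mem_insert, Finset.mem_singleton, not_or]
      exact ⟨fun h => h1 (congrArg Subtype.val h).symm, fun h => h2 (congrArg Subtype.val h).symm,
        fun h => h3 (congrArg Subtype.val h).symm⟩
  obtain ⟨hP4, hexp, hone⟩ := four_structure hg₀ hG hnc P
  obtain ⟨u, hu, horth⟩ := klein_vals hM P hP4 hexp hone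
  have h7 := @horth inferInstance 1 (by rw [orderOf_one]; norm_num)
  rw [hsum] at h7
  have hB' : ∀ χ, χ = χ₁ ∨ χ = χ₂ ∨ χ = χ₃ → χ ∈ principalBlock M G := by
    intro χ h
    rw [hB]
    exact Or.inr h
  have hu' : ∀ χ ∈ principalBlock M G, χ.1 J = u χ := fun χ hχ => (hu χ hχ).2.1 J hJ2
  have hut : (u ⟨fun _ => 1, isIrr_trivial⟩ : ℂ) = 1 := (hu' _ (triv_mem hM)).symm
  rw [hut, ← hu' χ₁ (hB' _ (Or.inl rfl)), ← hu' χ₂ (hB' _ (Or.inr (Or.inl rfl))),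
    ← hu' χ₃ (hB' _ (Or.inr (Or.inr rfl))), hval.1, hval.2.1, hval.2.2, one_mul] at h7
  have h8 := order_S hM hg₀ hG hnc P hJP hJ2
  rw [hsum, hval.1, hval.2.1, hval.2.2] at h8
  have hcd : ∀ χ : IrrCharacter G, χ.1 1 = charDegree χ.1 := fun χ =>
    (charDegree_cast (isChar_of_irr χ.2)).symm
  have ht1 : (⟨fun _ => 1, isIrr_trivial⟩ : IrrCharacter G).1 1 = 1 := rfl
  rw [ht1, hcd χ₁, hcd χ₂, hcd χ₃] at h7
  rw [ht1, hcd χ₁, hcd χ₂, hcd χ₃] at h8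
  constructor
  · exact_mod_cast h7
  · rw [← h8]
    congr 3
    norm_num

/-- Clearing denominators. -/
theorem order_prod (hM : IsPModular 2 M) {g₀ : ℕ} (hg₀ : Odd g₀) (hG : Nat.card G = 4 * g₀)
    (hnc : ¬ ∃ N : Subgroup G, N.Normal ∧ Nat.card N = g₀) (P : Sylow 2 G) {J : G}
    (hJP : J ∈ (P : Subgroup G)) (hJ2 : orderOf J = 2)
    (χ₁ χ₂ χ₃ : IrrCharacter G) (ε₁ ε₂ ε₃ : ℤ)
    (hB : principalBlock M G = {χ : IrrCharacter G | χ.1 = (fun _ => 1) ∨ χ = χ₁ ∨ χ = χ₂ ∨ χ = χ₃})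
    (hdist : χ₁.1 ≠ (fun _ => 1) ∧ χ₂.1 ≠ (fun _ => 1) ∧ χ₃.1 ≠ (fun _ => 1) ∧ χ₁ ≠ χ₂ ∧ χ₁ ≠ χ₃ ∧
      χ₂ ≠ χ₃)
    (hε : (ε₁ = 1 ∨ ε₁ = -1) ∧ (ε₂ = 1 ∨ ε₂ = -1) ∧ (ε₃ = 1 ∨ ε₃ = -1))
    (hval : χ₁.1 J = ε₁ ∧ χ₂.1 J = ε₂ ∧ χ₃.1 J = ε₃) :
    (Nat.card G : ℤ) * (((charDegree χ₁.1 : ℤ) + ε₁) * (charDegree χ₂.1 + ε₂) *
      (charDegree χ₃.1 + ε₃)) *
      (Nat.card (Subgroup.centralizer ((P : Subgroup G) : Set G)) : ℤ) ^ 2 =
      8 * ((charDegree χ₁.1 : ℤ) * charDegree χ₂.1 * charDegree χ₃.1) *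
        (Nat.card (Subgroup.centralizer ({J} : Set G)) : ℤ) ^ 3 := by
  obtain ⟨h1, h2⟩ := order_rel hM hg₀ hG hnc P hJP hJ2 χ₁ χ₂ χ₃ ε₁ ε₂ ε₃ hB hdist hval
  have x1 : (charDegree χ₁.1 : ℂ) ≠ 0 := by exact_mod_cast charDegree_ne_zero χ₁.2
  have x2 : (charDegree χ₂.1 : ℂ) ≠ 0 := by exact_mod_cast charDegree_ne_zero χ₂.2
  have x3 : (charDegree χ₃.1 : ℂ) ≠ 0 := by exact_mod_cast charDegree_ne_zero χ₃.2
  have h3 : (1 : ℂ) + ε₁ * charDegree χ₁.1 + ε₂ * charDegree χ₂.1 + ε₃ * charDegree χ₃.1 = 0 := by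
    exact_mod_cast h1
  have e1 : (ε₁ : ℂ) ^ 2 = 1 := by
    rcases hε.1 with h | h <;> rw [h] <;> norm_num
  have e2 : (ε₂ : ℂ) ^ 2 = 1 := by
    rcases hε.2.1 with h | h <;> rw [h] <;> norm_num
  have e3 : (ε₃ : ℂ) ^ 2 = 1 := by
    rcases hε.2.2 with h | h <;> rw [h] <;> norm_num
  have key : (1 + (ε₁ : ℂ) ^ 3 / charDegree χ₁.1 + (ε₂ : ℂ) ^ 3 / charDegree χ₂.1 +
      (ε₃ : ℂ) ^ 3 / charDegree χ₃.1) *
      ((charDegree χ₁.1 : ℂ) * charDegree χ₂.1 * charDegree χ₃.1) =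
      ((charDegree χ₁.1 : ℂ) + ε₁) * (charDegree χ₂.1 + ε₂) * (charDegree χ₃.1 + ε₃) := by
    rw [pow_succ, pow_succ (ε₂ : ℂ), pow_succ (ε₃ : ℂ), e1, e2, e3]
    field_simp
    generalize (charDegree χ₁.1 : ℂ) = a at *
    generalize (charDegree χ₂.1 : ℂ) = b at *
    generalize (charDegree χ₃.1 : ℂ) = c at *
    generalize (ε₁ : ℂ) = r at *
    generalize (ε₂ : ℂ) = s at *
    generalize (ε₃ : ℂ) = t at *
    linear_combination (-(r * s * t)) * h3 + (a * s * t) * e1 + (r * b * t) * e2 + (r * s * c) * e3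
  have h4 : (Nat.card G : ℂ) * (((charDegree χ₁.1 : ℂ) + ε₁) * (charDegree χ₂.1 + ε₂) *
      (charDegree χ₃.1 + ε₃)) *
      (Nat.card (Subgroup.centralizer ((P : Subgroup G) : Set G)) : ℂ) ^ 2 =
      8 * ((charDegree χ₁.1 : ℂ) * charDegree χ₂.1 * charDegree χ₃.1) *
        (Nat.card (Subgroup.centralizer ({J} : Set G)) : ℂ) ^ 3 := by
    rw [← key]
    linear_combination ((charDegree χ₁.1 : ℂ) * charDegree χ₂.1 * charDegree χ₃.1) * h2
  exact_mod_cast h4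

end Order

end Cfsg.Agent.Lib.BlkH5H
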