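import Cfsg.Agent.Lib.BlockRey
import Cfsg.Agent.Lib.BlockKB
import Cfsg.Agent.Lib.BlockLar
import Cfsg.Agent.Lib.BlockMaxB
import Cfsg.Agent.Lib.BlockIndIn
import Cfsg.Agent.Lib.BlockBFM

import Cfsg.Agent.Lib.BlkH5A
import Cfsg.Agent.Lib.BlkH5B
import Cfsg.Agent.Lib.BlkH5C
import Cfsg.Agent.Lib.BlkH5D
import Cfsg.Agent.Lib.BlkH5E
import Cfsg.Agent.Lib.BlkH5F
import Cfsg.Agent.Lib.CharAvg
import Cfsg.Agent.Lib.CharGal

/-!
Contributions of subsections.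
-/

set_option autoImplicit false
set_option linter.style.haveILetI false
set_option linter.unusedVariables false
set_option linter.unusedSectionVars false
set_option linter.unusedDecidableInType false
set_option linter.unusedFintypeInType false
set_option linter.unusedSimpArgs false

namespace Cfsg.Agent.Lib.BlkH5J
open Cfsg Cfsg.Agent.Lib.BlockLoc Cfsg.Agent.Lib.BlockGA Cfsg.Agent.Lib.CharBasic
open Cfsg.Agent.Lib.BlockIdem Cfsg.Agent.Lib.BlockPP Cfsg.Agent.Lib.BlockOrth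
open Cfsg.Agent.Lib.BlockRed Cfsg.Agent.Lib.BlockDef Cfsg.Agent.Lib.BlockDeg
open Cfsg.Agent.Lib.BlockNP Cfsg.Agent.Lib.BlockInd Cfsg.Agent.Lib.BlockSecond
open Cfsg.Agent.Lib.BlockFirst Cfsg.Agent.Lib.BlockHt Cfsg.Agent.Lib.BlockM
open Cfsg.Agent.Lib.BlockCov Cfsg.Agent.Lib.BlockQuot Cfsg.Agent.Lib.CharKer
open Cfsg.Agent.Lib.BlockQuotB Cfsg.Agent.Lib.BlockMore Cfsg.Agent.Lib.BlockMoreB
open Cfsg.Agent.Lib.BlockTr Cfsg.Agent.Lib.CharNormal Cfsg.Agent.Lib.BlockCovB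
open Cfsg.Agent.Lib.BlockBP Cfsg.Agent.Lib.BlockInt Cfsg.Agent.Lib.BlockSum Cfsg.Agent.Lib.BlockRk
open Cfsg.Agent.Lib.BlockFusB Cfsg.Agent.Lib.BlockMax Cfsg.Agent.Lib.CharSplit Cfsg.Agent.Lib.CharBrauer
open Cfsg.Agent.Lib.CharInd Cfsg.Agent.Lib.BlockPC Cfsg.Agent.Lib.BlockPair Cfsg.Agent.Lib.BlockPairB
open Cfsg.Agent.Lib.BlockPairC Cfsg.Agent.Lib.BlockPairD Cfsg.Agent.Lib.BlockPairE
open Cfsg.Agent.Lib.BlockRey Cfsg.Agent.Lib.BlockPairF Cfsg.Agent.Lib.BlockFus Cfsg.Agent.Lib.BlockNilB Cfsg.Agent.Lib.BlockNil Cfsg.Agent.Lib.CharClifford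
open Cfsg.Agent.Lib.BlockKB Cfsg.Agent.Lib.BlockLar Cfsg.Agent.Lib.BlockMaxB Cfsg.Agent.Lib.BlockIndIn Cfsg.Agent.Lib.BlockBFM
open Cfsg.Agent.Lib.BlkH5A Cfsg.Agent.Lib.BlkH5B Cfsg.Agent.Lib.BlkH5C Cfsg.Agent.Lib.BlkH5D Cfsg.Agent.Lib.BlkH5E Cfsg.Agent.Lib.BlkH5F Cfsg.Agent.Lib.CharAvg Cfsg.Agent.Lib.CharGal
open scoped ComplexConjugate

section Avg

/-- Averages over the Galois conjugates of a sum of roots of unity. -/
theorem avg_roots {n : ℕ} [NeZero n] {ι : Type*} (s : Finset ι) (c : ι → ℤ) (μ : ι → ℂ)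
    (hμ : ∀ i ∈ s, μ i ^ n = 1) (h0 : ∑ i ∈ s, (c i : ℂ) * μ i ≠ 0) :
    (Fintype.card (ZMod n)ˣ : ℝ) ≤
      ∑ u : (ZMod n)ˣ, ‖∑ i ∈ s, (c i : ℂ) * μ i ^ (u : ZMod n).val‖ ^ 2 := by
  classical
  have hn0 : n ≠ 0 := NeZero.ne n
  set z : (ZMod n)ˣ → ℂ := fun u => ∑ i ∈ s, (c i : ℂ) * μ i ^ (u : ZMod n).val with hz
  have hint : ∀ u, IsIntegral ℤ (z u) := by
    intro u
    refine IsIntegral.sum _ (fun i hi => ?_)
    refine IsIntegral.mul ?_ ?_
    · exact isIntegral_algebraMap (R := ℤ) (x := c i)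
    · refine IsIntegral.pow ?_ _
      exact IsIntegral.of_pow (Nat.pos_of_ne_zero hn0) (by rw [hμ i hi]; exact isIntegral_one)
  have hmul : ∀ (k : ℕ) (hk : Nat.Coprime k n) (σ : ℂ ≃+* ℂ) (hσ : ∀ w : ℂ, w ^ n = 1 → σ w = w ^ k)
      (u : (ZMod n)ˣ), σ (z u) = z (u * ZMod.unitOfCoprime k hk) := by
    intro k hk σ hσ u
    rw [hz]
    dsimp only
    rw [map_sum]
    refine Finset.sum_congr rfl (fun i hi => ?_)
    rw [map_mul, map_intCast, map_pow, hσ _ (hμ i hi), ← pow_mul]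
    congr 1
    have h1 : k * (u : ZMod n).val ≡ ((u * ZMod.unitOfCoprime k hk : (ZMod n)ˣ) : ZMod n).val
        [MOD n] := by
      rw [← ZMod.natCast_eq_natCast_iff]
      push_cast
      rw [ZMod.natCast_zmod_val, ZMod.natCast_zmod_val, ZMod.coe_unitOfCoprime, mul_comm]
    have h2 : ∀ a b : ℕ, a ≡ b [MOD n] → μ i ^ a = μ i ^ b := by
      intro a b hab
      rw [← Nat.div_add_mod a n, ← Nat.div_add_mod b n, pow_add, pow_add, pow_mul, pow_mul, hμ i hi,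
        one_pow, one_pow, one_mul, one_mul]
      rw [hab]
    exact h2 _ _ h1
  have hz1 : z 1 = ∑ i ∈ s, (c i : ℂ) * μ i := by
    by_cases h1n : n = 1
    · rw [hz]
      dsimp only
      refine Finset.sum_congr rfl (fun i hi => ?_)
      have h1 := hμ i hi
      rw [h1n, pow_one] at h1
      rw [h1, one_pow]
    · rw [hz]
      dsimp only
      refine Finset.sum_congr rfl (fun i hi => ?_)
      have : ((1 : (ZMod n)ˣ) : ZMod n).val = 1 := by
        rw [Units.val_one]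
        haveI : Fact (1 < n) := ⟨by omega⟩
        exact ZMod.val_one n
      rw [this, pow_one]
  have hne : ∀ u, z u ≠ 0 := by
    intro u
    have hcop : Nat.Coprime (u : ZMod n).val n := ZMod.val_coe_unit_coprime u
    obtain ⟨σ, hσ⟩ := CharGal.exists_aut_pow n _ hn0 hcop
    have h1 := hmul _ hcop σ hσ 1
    have h2 : (1 : (ZMod n)ˣ) * ZMod.unitOfCoprime (u : ZMod n).val hcop = u := by
      rw [one_mul]
      apply Units.ext
      rw [ZMod.coe_unitOfCoprime, ZMod.natCast_zmod_val]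
    rw [h2] at h1
    rw [← h1]
    intro h3
    have h4 := (map_eq_zero σ).1 h3
    rw [hz1] at h4
    exact h0 h4
  obtain ⟨m, hm⟩ : ∃ m : ℤ, ∏ u : (ZMod n)ˣ, z u = m := by
    apply CharGal.isInt_of_fixed
    · exact IsIntegral.prod _ fun u _ => hint u
    · intro σ
      obtain ⟨k, hk, hσ⟩ := CharGal.exists_pow_of_aut n hn0 σ
      rw [map_prod]
      refine Fintype.prod_equiv (Equiv.mulRight (ZMod.unitOfCoprime k hk)) _ _ fun u => ?_
      rw [Equiv.coe_mulRight]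
      exact hmul k hk σ hσ u
  have hm0 : m ≠ 0 := by
    intro h
    rw [h, Int.cast_zero] at hm
    exact Finset.prod_ne_zero_iff.mpr (fun u _ => hne u) hm
  have hprod : 1 ≤ ∏ u : (ZMod n)ˣ, ‖z u‖ ^ 2 := by
    rw [Finset.prod_pow, ← norm_prod, hm, Complex.norm_intCast]
    have h4 : (1 : ℝ) ≤ |(m : ℝ)| := by
      have := Int.one_le_abs hm0
      exact_mod_cast this
    nlinarith
  have h5 := (CharAvg.sum_ge_card Finset.univ (fun u : (ZMod n)ˣ => ‖z u‖ ^ 2)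
    (fun u _ => by have := norm_pos_iff.mpr (hne u); positivity) hprod).1
  rw [Finset.card_univ] at h5
  exact h5

end Avg

section Contrib

variable {G : Type*} [Group G] [Finite G] {p : ℕ} {M : Ideal AlgInt}

theorem bf_lz (hM : IsPModular p M) {B : Set (IrrCharacter G)} (hB : IsPBlock M B) :
    ∃ (m : ℕ) (v : IrrCharacter G → ℕ), ¬ p ∣ m ∧ (∀ χ ∈ B, blockHeight p B χ.1 = 0 → ¬ p ∣ v χ) ∧
      ∀ χ ∈ B, ∀ ψ ∈ B, ∀ ξ ∈ B,
        (m : ResF hM) * ((bf p B χ ψ : ℤ) : ResF hM) = (v χ : ResF hM) * lz hM ξ ψ := by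
  classical
  cases nonempty_fintype G
  have hp := hM.1
  haveI := Fact.mk hp
  obtain ⟨m, hm⟩ := Nat.ordProj_dvd (Nat.card G) p
  have hmp : ¬ p ∣ m := by
    intro h
    have h1 : p ^ ((Nat.card G).factorization p + 1) ∣ Nat.card G := by
      rw [pow_succ]; conv_rhs => rw [hm]
      exact Nat.mul_dvd_mul_left _ h
    have := (hp.pow_dvd_iff_le_factorization Nat.card_pos.ne').1 h1
    omega
  have hv : ∀ χ : IrrCharacter G, χ ∈ B → ∃ v : ℕ,
      charDegree χ.1 * p ^ blockDefect p B = p ^ (Nat.card G).factorization p * v ∧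
      v.factorization p = blockHeight p B χ.1 ∧ v ≠ 0 := by
    intro χ hχ
    have hadd := fac_degree_add (p := p) hχ
    have hd0 := charDegree_ne_zero χ.2
    have h0 : charDegree χ.1 * p ^ blockDefect p B ≠ 0 := mul_ne_zero hd0 (pow_pos hp.pos _).ne'
    have hfac : (charDegree χ.1 * p ^ blockDefect p B).factorization p =
        (Nat.card G).factorization p + blockHeight p B χ.1 := by
      rw [Nat.factorization_mul hd0 (pow_pos hp.pos _).ne', Finsupp.add_apply,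
        hp.factorization_pow, Finsupp.single_eq_same, hadd]
    have hdv : p ^ (Nat.card G).factorization p ∣ charDegree χ.1 * p ^ blockDefect p B :=
      (hp.pow_dvd_iff_le_factorization h0).2 (by rw [hfac]; omega)
    obtain ⟨v, hv⟩ := hdv
    refine ⟨v, hv, ?_, ?_⟩
    · have hv0 : v ≠ 0 := by
        rintro rfl
        rw [mul_zero] at hv
        exact h0 hv
      rw [hv, Nat.factorization_mul (pow_pos hp.pos _).ne' hv0, Finsupp.add_apply,
        hp.factorization_pow, Finsupp.single_eq_same] at hfac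
      omega
    · rintro rfl
      rw [mul_zero] at hv
      exact h0 hv
  choose! v hv1 hv2 hv3 using hv
  refine ⟨m, v, hmp, ?_, ?_⟩
  · intro χ hχ h0 h
    have h1 := (hp.dvd_iff_one_le_factorization (hv3 χ hχ)).1 h
    rw [hv2 χ hχ, h0] at h1
    omega
  · intro χ hχ ψ hψ ξ hξ
    have h1 := classInner_rp (p := p) (blockDefect p B) χ ψ
    rw [bf_spec hM hB hχ] at h1
    have h2 : (m : ℂ) * (bf p B χ ψ : ℂ) = (v χ : ℂ) * om χ.1 (zr p ψ.1) := by
      have hpow : ((p ^ (Nat.card G).factorization p : ℕ) : ℂ) ≠ 0 :=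
        Nat.cast_ne_zero.2 (pow_pos hp.pos _).ne'
      apply mul_left_cancel₀ hpow
      have e1 : (Nat.card G : ℂ) = ((p ^ (Nat.card G).factorization p : ℕ) : ℂ) * m := by
        exact_mod_cast hm
      have e2 : (charDegree χ.1 : ℂ) * ((p ^ blockDefect p B : ℕ) : ℂ) =
          ((p ^ (Nat.card G).factorization p : ℕ) : ℂ) * v χ := by exact_mod_cast hv1 χ hχ
      rw [e1, ← charDegree_cast (isChar_of_irr χ.2)] at h1
      linear_combination h1 + om χ.1 (zr p ψ.1) * e2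
    have h3 := congrArg (red hM) h2
    rw [red_mul hM (loc_natCast hM _) (loc_intCast hM _), red_mul hM (loc_natCast hM _)
      (loc_om_zr hM χ ψ), red_natCast, red_natCast, red_intCast, ← lz_eq] at h3
    rw [h3, lz_congr hM hB hχ hξ ψ]

theorem contrib_ne (hM : IsPModular p M) {H : Subgroup G} [Fintype H] {b : Set (IrrCharacter H)}
    {B : Set (IrrCharacter G)} (hb : IsInducedBlock M H b B) {χ ψ : IrrCharacter G}
    (hχ : χ ∈ B) (hψ : ψ ∈ B) (h0 : blockHeight p B χ.1 = 0) (h0' : blockHeight p B ψ.1 = 0)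
    (n n' : IrrCharacter H → ℕ) (hn : ∀ ξ : IrrCharacter H, classInner (fun h : H => χ.1 h) ξ.1 = n ξ)
    (hn' : ∀ ξ : IrrCharacter H, classInner (fun h : H => ψ.1 h) ξ.1 = n' ξ)
    [DecidablePred (· ∈ b)] :
    ¬ (p : ℤ) ∣ ∑ ξ ∈ Finset.univ.filter (· ∈ b), ∑ η ∈ Finset.univ.filter (· ∈ b),
      ((n ξ : ℤ) * n' η * bf p b ξ η) := by
  classical
  obtain ⟨m, v, hm, hv, hbf⟩ := bf_lz hM hb.1
  have hpF : ∀ a : ℕ, ¬ p ∣ a → (a : ResF hM) ≠ 0 := by
    intro a ha h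
    exact ha ((CharP.cast_eq_zero_iff (ResF hM) p a).1 h)
  obtain ⟨ξ₀, hξ₀, hξ0⟩ := exists_height_zero (block_nonempty hM hb.1) p
  have key : ∀ (φ : IrrCharacter G) (hφ : φ ∈ B) (hφ0 : blockHeight p B φ.1 = 0)
      (k : IrrCharacter H → ℕ) (hk : ∀ ξ : IrrCharacter H, classInner (fun h : H => φ.1 h) ξ.1 = k ξ),
      ∑ η ∈ Finset.univ.filter (· ∈ b), (k η : ResF hM) * lz hM ξ₀ η ≠ 0 := by
    intro φ hφ hφ0 k hk
    obtain ⟨m', hm1, hm2, hm3⟩ := lam_res_zr hM ξ₀ φ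
    have hmk : ∀ ξ, m' ξ = k ξ := by
      intro ξ
      have := (hm1 ξ).symm.trans (hk ξ)
      exact_mod_cast this
    have h3 : ∑ ψ : IrrCharacter H, (m' ψ : ResF hM) * lz hM ξ₀ ψ =
        ∑ ψ ∈ Finset.univ.filter (· ∈ b), (m' ψ : ResF hM) * lz hM ξ₀ ψ := by
      rw [Finset.sum_filter]
      refine Finset.sum_congr rfl fun ψ _ => ?_
      by_cases hψ : ψ ∈ b
      · rw [if_pos hψ]
      · rw [if_neg hψ]
        have h4 : lz hM ξ₀ ψ = 0 := by
          apply lz_eq_zero hM (isPBlock_blockOf M ψ) (self_mem_blockOf hM ψ)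
          intro h'
          apply hψ
          rw [block_eq_of_mem_of_mem hM hb.1 (isPBlock_blockOf M ψ) hξ₀ h']
          exact self_mem_blockOf hM ψ
        rw [h4, mul_zero]
    rw [h3] at hm3
    simp_rw [hmk] at hm3
    rw [← hm3]
    have h3 := lam_of_induced hM hb hξ₀ hφ (rd_isCl hM (zr_isCl (p := p) (irr_cl φ)))
    rw [h3]
    exact (lz_ne_zero_iff hM hb.2.1 hφ hφ).2 hφ0
  intro hdvd
  have h1 : (((∑ ξ ∈ Finset.univ.filter (· ∈ b), ∑ η ∈ Finset.univ.filter (· ∈ b),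
      ((n ξ : ℤ) * n' η * bf p b ξ η) : ℤ)) : ResF hM) = 0 := by
    obtain ⟨t, ht⟩ := hdvd
    rw [ht]
    push_cast
    rw [CharP.cast_eq_zero, zero_mul]
  have h2 : (m : ResF hM) * (((∑ ξ ∈ Finset.univ.filter (· ∈ b), ∑ η ∈ Finset.univ.filter (· ∈ b),
      ((n ξ : ℤ) * n' η * bf p b ξ η) : ℤ)) : ResF hM) =
      (∑ ξ ∈ Finset.univ.filter (· ∈ b), (n ξ : ResF hM) * v ξ) *
      ∑ η ∈ Finset.univ.filter (· ∈ b), (n' η : ResF hM) * lz hM ξ₀ η := by
    push_cast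
    rw [Finset.mul_sum, Finset.sum_mul]
    refine Finset.sum_congr rfl (fun ξ hξ => ?_)
    rw [Finset.mul_sum, Finset.mul_sum]
    refine Finset.sum_congr rfl (fun η hη => ?_)
    have := hbf ξ (Finset.mem_filter.1 hξ).2 η (Finset.mem_filter.1 hη).2 ξ₀ hξ₀
    linear_combination (n ξ : ResF hM) * n' η * this
  rw [h1, mul_zero] at h2
  have h3 := key ψ hψ h0' n' hn'
  rcases mul_eq_zero.1 h2.symm with h4 | h4
  · -- the other factor
    have h5 : (v ξ₀ : ResF hM) * ∑ η ∈ Finset.univ.filter (· ∈ b), (n η : ResF hM) * lz hM ξ₀ η =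
        lz hM ξ₀ ξ₀ * ∑ ξ ∈ Finset.univ.filter (· ∈ b), (n ξ : ResF hM) * v ξ := by
      rw [Finset.mul_sum, Finset.mul_sum]
      refine Finset.sum_congr rfl (fun η hη => ?_)
      have hη' := (Finset.mem_filter.1 hη).2
      have e1 := hbf ξ₀ hξ₀ η hη' ξ₀ hξ₀
      have e2 := hbf η hη' ξ₀ hξ₀ ξ₀ hξ₀
      rw [bf_symm hM hb.1 hξ₀ hη'] at e1
      linear_combination (n η : ResF hM) * e2 - (n η : ResF hM) * e1
    rw [h4, mul_zero] at h5
    rcases mul_eq_zero.1 h5 with h6 | h6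
    · exact hpF _ (hv ξ₀ hξ₀ hξ0) h6
    · exact key χ hχ h0 n hn h6
  · exact h3 h4

/-- The value of a contribution (times `p ^ d`). -/
noncomputable def zc (p : ℕ) {H : Subgroup G} (b : Set (IrrCharacter H))
    (S : Finset (IrrCharacter H)) (lam : IrrCharacter H → ℂ) (n n' : IrrCharacter H → ℕ) (u : ℕ) : ℂ :=
  ∑ q ∈ S ×ˢ S, (((n q.1 : ℤ) * n' q.2 * bf p b q.1 q.2 : ℤ) : ℂ) * (lam q.1 * conj (lam q.2)) ^ u

theorem zc_conj (hM : IsPModular p M) {H : Subgroup G} {b : Set (IrrCharacter H)} (hb : IsPBlock M b)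
    {S : Finset (IrrCharacter H)} (hS : ∀ ξ ∈ S, ξ ∈ b) (lam : IrrCharacter H → ℂ)
    (n n' : IrrCharacter H → ℕ) (u : ℕ) :
    conj (zc p b S lam n n' u) = zc p b S lam n' n u := by
  classical
  unfold zc
  rw [map_sum, Finset.sum_product, Finset.sum_product, Finset.sum_comm]
  refine Finset.sum_congr rfl (fun ξ hξ => Finset.sum_congr rfl (fun η hη => ?_))
  dsimp only
  rw [map_mul, map_intCast, map_pow, map_mul, Complex.conj_conj, bf_symm hM hb (hS η hη) (hS ξ hξ)]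
  push_cast
  ring

theorem zc_eq (hM : IsPModular p M) {H : Subgroup G} [Fintype H] {b : Set (IrrCharacter H)}
    (hb : IsPBlock M b) [DecidablePred (· ∈ b)] (lam : IrrCharacter H → ℂ)
    (n n' : IrrCharacter H → ℕ) :
    (Nat.card H : ℂ) * zc p b (Finset.univ.filter (· ∈ b)) lam n n' 1 =
      ((p ^ blockDefect p b : ℕ) : ℂ) * ∑ z ∈ Finset.univ.filter (fun z : H => ¬ p ∣ orderOf z),
        (∑ ξ ∈ Finset.univ.filter (· ∈ b), (n ξ : ℂ) * lam ξ * ξ.1 z) *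
        conj (∑ ξ ∈ Finset.univ.filter (· ∈ b), (n' ξ : ℂ) * lam ξ * ξ.1 z) := by
  classical
  have hG0 : (Nat.card H : ℂ) ≠ 0 := Nat.cast_ne_zero.2 Nat.card_pos.ne'
  have e1 : ∀ ξ ∈ Finset.univ.filter (· ∈ b), ∀ η : IrrCharacter H,
      (Nat.card H : ℂ) * (bf p b ξ η : ℂ) = ((p ^ blockDefect p b : ℕ) : ℂ) *
        ∑ z ∈ Finset.univ.filter (fun z : H => ¬ p ∣ orderOf z), ξ.1 z * conj (η.1 z) := by
    intro ξ hξ η
    rw [← bf_spec hM hb (Finset.mem_filter.1 hξ).2 η, classInner_def, mul_inv_cancel_left₀ hG0,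
      Finset.mul_sum, Finset.sum_filter]
    refine Finset.sum_congr rfl (fun z _ => ?_)
    rw [rp_eq]
    dsimp only
    by_cases hz : p ∣ orderOf z
    · rw [if_pos hz, if_neg (not_not.2 hz), zero_mul]
    · rw [if_neg hz, if_pos hz, mul_assoc]
  unfold zc
  rw [Finset.mul_sum, Finset.sum_product]
  have e2 : ∀ ξ ∈ Finset.univ.filter (· ∈ b), ∀ η ∈ Finset.univ.filter (· ∈ b),
      (Nat.card H : ℂ) * ((((n ξ : ℤ) * n' η * bf p b ξ η : ℤ) : ℂ) * (lam ξ * conj (lam η)) ^ 1) =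
      ((p ^ blockDefect p b : ℕ) : ℂ) * ∑ z ∈ Finset.univ.filter (fun z : H => ¬ p ∣ orderOf z),
        ((n ξ : ℂ) * lam ξ * ξ.1 z) * conj ((n' η : ℂ) * lam η * η.1 z) := by
    intro ξ hξ η hη
    have h1 := e1 ξ hξ η
    push_cast
    rw [pow_one]
    have h2 : (Nat.card H : ℂ) * ((n ξ : ℂ) * n' η * (bf p b ξ η : ℂ) * (lam ξ * conj (lam η))) =
        ((n ξ : ℂ) * n' η * (lam ξ * conj (lam η))) * ((Nat.card H : ℂ) * (bf p b ξ η : ℂ)) := by ring
    rw [h2, h1, mul_left_comm, Finset.mul_sum]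
    push_cast
    congr 1
    refine Finset.sum_congr rfl (fun z _ => ?_)
    rw [map_mul, map_mul, Complex.conj_natCast]
    ring
  rw [Finset.sum_congr rfl (fun ξ hξ => Finset.sum_congr rfl (fun η hη => e2 ξ hξ η hη))]
  simp_rw [map_sum, Finset.sum_mul_sum, Finset.mul_sum]
  rw [Finset.sum_congr rfl (fun ξ _ => Finset.sum_comm), Finset.sum_comm]

/-- The sum of the norms of the values on the regular elements. -/
theorem bf_trace (hM : IsPModular p M) {H : Subgroup G} [Fintype H] {b : Set (IrrCharacter H)}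
    (hb : IsPBlock M b) [DecidablePred (· ∈ b)] :
    ∑ ξ ∈ Finset.univ.filter (· ∈ b), (bf p b ξ ξ : ℂ) =
      ((p ^ blockDefect p b : ℕ) : ℂ) * blockRank p b := by
  classical
  have hG0 : (Nat.card H : ℂ) ≠ 0 := Nat.cast_ne_zero.2 Nat.card_pos.ne'
  have e1 : ∀ ξ ∈ Finset.univ.filter (· ∈ b),
      (Nat.card H : ℂ) * (bf p b ξ ξ : ℂ) = ((p ^ blockDefect p b : ℕ) : ℂ) *
        ∑ z ∈ Finset.univ.filter (fun z : H => ¬ p ∣ orderOf z), ξ.1 z * conj (ξ.1 z) := by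
    intro ξ hξ
    rw [← bf_spec hM hb (Finset.mem_filter.1 hξ).2 ξ, classInner_def, mul_inv_cancel_left₀ hG0,
      Finset.mul_sum, Finset.sum_filter]
    refine Finset.sum_congr rfl (fun z _ => ?_)
    rw [rp_eq]
    dsimp only
    by_cases hz : p ∣ orderOf z
    · rw [if_pos hz, if_neg (not_not.2 hz), zero_mul]
    · rw [if_neg hz, if_pos hz, mul_assoc]
  apply mul_left_cancel₀ hG0
  have h1 := rank_sum hM hb
  rw [finsum_blk] at h1
  rw [Finset.mul_sum, Finset.sum_congr rfl e1, ← Finset.mul_sum, h1]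
  ring

/-- The double sum of the kernel. -/
theorem kernel_double (hM : IsPModular p M) {H : Subgroup G} [Fintype H] {b : Set (IrrCharacter H)}
    (hb : IsPBlock M b) [DecidablePred (· ∈ b)] :
    ∑ z ∈ Finset.univ.filter (fun z : H => ¬ p ∣ orderOf z),
      ∑ w ∈ Finset.univ.filter (fun z : H => ¬ p ∣ orderOf z),
      (∑ ξ ∈ Finset.univ.filter (· ∈ b), ξ.1 z * conj (ξ.1 w)) *
      (∑ ξ ∈ Finset.univ.filter (· ∈ b), ξ.1 w * conj (ξ.1 z)) =
      (Nat.card H : ℂ) ^ 2 * blockRank p b := by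
  classical
  have hG0 : (Nat.card H : ℂ) ≠ 0 := Nat.cast_ne_zero.2 Nat.card_pos.ne'
  have hp0 : ((p ^ blockDefect p b : ℕ) : ℂ) ≠ 0 := Nat.cast_ne_zero.2 (pow_pos hM.1.pos _).ne'
  have e1 : ∀ ξ ∈ Finset.univ.filter (· ∈ b), ∀ η : IrrCharacter H,
      (Nat.card H : ℂ) * (bf p b ξ η : ℂ) = ((p ^ blockDefect p b : ℕ) : ℂ) *
        ∑ z ∈ Finset.univ.filter (fun z : H => ¬ p ∣ orderOf z), ξ.1 z * conj (η.1 z) := by
    intro ξ hξ η
    rw [← bf_spec hM hb (Finset.mem_filter.1 hξ).2 η, classInner_def, mul_inv_cancel_left₀ hG0,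
      Finset.mul_sum, Finset.sum_filter]
    refine Finset.sum_congr rfl (fun z _ => ?_)
    rw [rp_eq]
    dsimp only
    by_cases hz : p ∣ orderOf z
    · rw [if_pos hz, if_neg (not_not.2 hz), zero_mul]
    · rw [if_neg hz, if_pos hz, mul_assoc]
  have e2 : ∑ z ∈ Finset.univ.filter (fun z : H => ¬ p ∣ orderOf z),
      ∑ w ∈ Finset.univ.filter (fun z : H => ¬ p ∣ orderOf z),
      (∑ ξ ∈ Finset.univ.filter (· ∈ b), ξ.1 z * conj (ξ.1 w)) *
      (∑ ξ ∈ Finset.univ.filter (· ∈ b), ξ.1 w * conj (ξ.1 z)) =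
      ∑ ξ ∈ Finset.univ.filter (· ∈ b), ∑ η ∈ Finset.univ.filter (· ∈ b),
      (∑ z ∈ Finset.univ.filter (fun z : H => ¬ p ∣ orderOf z), ξ.1 z * conj (η.1 z)) *
      (∑ z ∈ Finset.univ.filter (fun z : H => ¬ p ∣ orderOf z), η.1 z * conj (ξ.1 z)) := by
    simp_rw [Finset.sum_mul_sum]
    rw [Finset.sum_congr rfl (fun ξ _ => Finset.sum_comm)]
    rw [Finset.sum_comm]
    refine Finset.sum_congr rfl (fun ξ _ => ?_)
    rw [Finset.sum_congr rfl (fun z _ => Finset.sum_comm)]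
    rw [Finset.sum_comm]
    refine Finset.sum_congr rfl (fun η _ => ?_)
    refine Finset.sum_congr rfl (fun z _ => Finset.sum_congr rfl (fun w _ => ?_))
    ring
  rw [e2]
  apply mul_left_cancel₀ (pow_ne_zero 2 hp0)
  rw [Finset.mul_sum]
  have e3 : ∀ ξ ∈ Finset.univ.filter (· ∈ b),
      ((p ^ blockDefect p b : ℕ) : ℂ) ^ 2 * ∑ η ∈ Finset.univ.filter (· ∈ b),
      (∑ z ∈ Finset.univ.filter (fun z : H => ¬ p ∣ orderOf z), ξ.1 z * conj (η.1 z)) *
      (∑ z ∈ Finset.univ.filter (fun z : H => ¬ p ∣ orderOf z), η.1 z * conj (ξ.1 z)) =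
      (Nat.card H : ℂ) ^ 2 * (((p ^ blockDefect p b : ℕ) : ℂ) * (bf p b ξ ξ : ℂ)) := by
    intro ξ hξ
    have h1 := bf_mul hM hb (Finset.mem_filter.1 hξ).2 (Finset.mem_filter.1 hξ).2
    have h2 : ∑ ψ ∈ Finset.univ.filter (· ∈ b), (bf p b ξ ψ : ℂ) * (bf p b ξ ψ : ℂ) =
        ((p ^ blockDefect p b : ℕ) : ℂ) * (bf p b ξ ξ : ℂ) := by exact_mod_cast h1
    rw [← h2, Finset.mul_sum, Finset.mul_sum]
    refine Finset.sum_congr rfl (fun η hη => ?_)
    have h3 := e1 ξ hξ η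
    have h4 := e1 η hη ξ
    rw [bf_symm hM hb (Finset.mem_filter.1 hη).2 (Finset.mem_filter.1 hξ).2] at h4
    linear_combination -(Nat.card H : ℂ) * (bf p b ξ η : ℂ) * h4 -
      ((p ^ blockDefect p b : ℕ) : ℂ) * (∑ z ∈ Finset.univ.filter (fun z : H => ¬ p ∣ orderOf z),
        η.1 z * conj (ξ.1 z)) * h3
  rw [Finset.sum_congr rfl e3, ← Finset.mul_sum, ← Finset.mul_sum, bf_trace hM hb]
  ring

end Contrib

end Cfsg.Agent.Lib.BlkH5J
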