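import Cfsg.Agent.Lib.BlockRey
import Cfsg.Agent.Lib.BlockKB
import Cfsg.Agent.Lib.BlockLar
import Cfsg.Agent.Lib.BlockMaxB
import Cfsg.Agent.Lib.BlockIndIn
import Cfsg.Agent.Lib.BlockBFM

import Cfsg.Agent.Lib.BlkH5A
import Cfsg.Agent.Lib.BlkH5B
import Cfsg.Agent.Lib.BlkH5C
import Cfsg.Agent.Lib.BlkH5D
import Cfsg.Agent.Lib.BlkH5E
import Cfsg.Agent.Lib.BlkH5F
import Cfsg.Agent.Lib.BlkH5J
import Cfsg.Agent.Lib.CharAvg
import Cfsg.Agent.Lib.CharGal

/-!
Bounds from subsections.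
-/

set_option autoImplicit false
set_option linter.style.haveILetI false
set_option linter.unusedVariables false
set_option linter.unusedSectionVars false
set_option linter.unusedDecidableInType false
set_option linter.unusedFintypeInType false
set_option linter.unusedSimpArgs false

namespace Cfsg.Agent.Lib.BlkH5K
open Cfsg Cfsg.Agent.Lib.BlockLoc Cfsg.Agent.Lib.BlockGA Cfsg.Agent.Lib.CharBasic
open Cfsg.Agent.Lib.BlockIdem Cfsg.Agent.Lib.BlockPP Cfsg.Agent.Lib.BlockOrth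
open Cfsg.Agent.Lib.BlockRed Cfsg.Agent.Lib.BlockDef Cfsg.Agent.Lib.BlockDeg
open Cfsg.Agent.Lib.BlockNP Cfsg.Agent.Lib.BlockInd Cfsg.Agent.Lib.BlockSecond
open Cfsg.Agent.Lib.BlockFirst Cfsg.Agent.Lib.BlockHt Cfsg.Agent.Lib.BlockM
open Cfsg.Agent.Lib.BlockCov Cfsg.Agent.Lib.BlockQuot Cfsg.Agent.Lib.CharKer
open Cfsg.Agent.Lib.BlockQuotB Cfsg.Agent.Lib.BlockMore Cfsg.Agent.Lib.BlockMoreB
open Cfsg.Agent.Lib.BlockTr Cfsg.Agent.Lib.CharNormal Cfsg.Agent.Lib.BlockCovB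
open Cfsg.Agent.Lib.BlockBP Cfsg.Agent.Lib.BlockInt Cfsg.Agent.Lib.BlockSum Cfsg.Agent.Lib.BlockRk
open Cfsg.Agent.Lib.BlockFusB Cfsg.Agent.Lib.BlockMax Cfsg.Agent.Lib.CharSplit Cfsg.Agent.Lib.CharBrauer
open Cfsg.Agent.Lib.CharInd Cfsg.Agent.Lib.BlockPC Cfsg.Agent.Lib.BlockPair Cfsg.Agent.Lib.BlockPairB
open Cfsg.Agent.Lib.BlockPairC Cfsg.Agent.Lib.BlockPairD Cfsg.Agent.Lib.BlockPairE
open Cfsg.Agent.Lib.BlockRey Cfsg.Agent.Lib.BlockPairF Cfsg.Agent.Lib.BlockFus Cfsg.Agent.Lib.BlockNilB Cfsg.Agent.Lib.BlockNil Cfsg.Agent.Lib.CharClifford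
open Cfsg.Agent.Lib.BlockKB Cfsg.Agent.Lib.BlockLar Cfsg.Agent.Lib.BlockMaxB Cfsg.Agent.Lib.BlockIndIn Cfsg.Agent.Lib.BlockBFM
open Cfsg.Agent.Lib.BlkH5A Cfsg.Agent.Lib.BlkH5B Cfsg.Agent.Lib.BlkH5C Cfsg.Agent.Lib.BlkH5D Cfsg.Agent.Lib.BlkH5E Cfsg.Agent.Lib.BlkH5F Cfsg.Agent.Lib.BlkH5J Cfsg.Agent.Lib.CharAvg Cfsg.Agent.Lib.CharGal
open scoped ComplexConjugate

section Sub

variable {G : Type*} [Group G] [Finite G] {p : ℕ} {M : Ideal AlgInt}

/-- The ratio of the central element on a character of its centralizer. -/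
noncomputable def rat (y : G) (ξ : IrrCharacter (Subgroup.centralizer ({y} : Set G))) : ℂ :=
  ξ.1 ⟨y, mem_cent_iff.2 (Commute.refl y)⟩ / ξ.1 1

theorem y_central (y : G) (g : Subgroup.centralizer ({y} : Set G)) :
    Commute g (⟨y, mem_cent_iff.2 (Commute.refl y)⟩ : Subgroup.centralizer ({y} : Set G)) :=
  Subtype.ext (mem_cent_iff.1 g.2)

theorem rat_pow (y : G) (ξ : IrrCharacter (Subgroup.centralizer ({y} : Set G))) :
    rat y ξ ^ orderOf y = 1 := by
  unfold rat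
  rw [central_ratio_pow ξ (y_central y)]
  have h1 : (⟨y, mem_cent_iff.2 (Commute.refl y)⟩ : Subgroup.centralizer ({y} : Set G)) ^ orderOf y =
      1 := Subtype.ext (pow_orderOf_eq_one y)
  rw [h1, div_self (isIrr_one_ne_zero ξ.2)]

theorem part_eq {y : G} [Fintype (Subgroup.centralizer ({y} : Set G))] {χ : IrrCharacter G}
    {n : IrrCharacter (Subgroup.centralizer ({y} : Set G)) → ℕ}
    (hn : ∀ ξ : IrrCharacter (Subgroup.centralizer ({y} : Set G)),
      classInner (fun h : Subgroup.centralizer ({y} : Set G) => χ.1 h) ξ.1 = n ξ)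
    (b : Set (IrrCharacter (Subgroup.centralizer ({y} : Set G)))) [DecidablePred (· ∈ b)]
    (z : Subgroup.centralizer ({y} : Set G)) :
    blockPart b (fun c : Subgroup.centralizer ({y} : Set G) => χ.1 (y * (c : G))) z =
      ∑ ξ ∈ Finset.univ.filter (· ∈ b), (n ξ : ℂ) * rat y ξ * ξ.1 z := by
  classical
  have hyC : y ∈ Subgroup.centralizer ({y} : Set G) := mem_cent_iff.2 (Commute.refl y)
  set f : Subgroup.centralizer ({y} : Set G) → ℂ := fun c => χ.1 (y * (c : G)) with hf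
  have hres : (fun h : Subgroup.centralizer ({y} : Set G) => χ.1 h) =
      ∑ ψ : IrrCharacter (Subgroup.centralizer ({y} : Set G)), (n ψ : ℂ) • ψ.1 := by
    have h1 := classFn_expand (fun h : Subgroup.centralizer ({y} : Set G) => χ.1 h)
      (isChar_classFn (isChar_comp (Subgroup.centralizer ({y} : Set G)).subtype (isChar_of_irr χ.2)))
    simp_rw [hn] at h1
    exact h1
  have hfx : f = ∑ ψ : IrrCharacter (Subgroup.centralizer ({y} : Set G)),
      ((n ψ : ℂ) * rat y ψ) • ψ.1 := by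
    funext c
    have h1 := congrFun hres (⟨y, hyC⟩ * c)
    rw [Finset.sum_apply] at h1
    change χ.1 (y * (c : G)) = _ at h1
    change χ.1 (y * (c : G)) = _
    rw [h1, Finset.sum_apply]
    refine Finset.sum_congr rfl fun ψ _ => ?_
    rw [Pi.smul_apply, Pi.smul_apply, smul_eq_mul, smul_eq_mul, irr_mul_central ψ (y_central y) c]
    unfold rat
    ring
  rw [blockPart_eq]
  refine Finset.sum_congr rfl fun ψ _ => ?_
  rw [hfx, inner_sum_irr]

theorem contrib_sum (hM : IsPModular p M) {y : G} (hy : ∃ k, orderOf y = p ^ k)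
    {b : Set (IrrCharacter (Subgroup.centralizer ({y} : Set G)))} {B : Set (IrrCharacter G)}
    (hb : IsInducedBlock M (Subgroup.centralizer ({y} : Set G)) b B)
    [Fintype (Subgroup.centralizer ({y} : Set G))] [DecidablePred (· ∈ b)] [DecidablePred (· ∈ B)]
    {n : IrrCharacter G → IrrCharacter (Subgroup.centralizer ({y} : Set G)) → ℕ}
    (hn : ∀ χ : IrrCharacter G, ∀ ξ : IrrCharacter (Subgroup.centralizer ({y} : Set G)),
      classInner (fun h : Subgroup.centralizer ({y} : Set G) => χ.1 h) ξ.1 = n χ ξ) :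
    ∑ χ ∈ Finset.univ.filter (· ∈ B), ∑ ψ ∈ Finset.univ.filter (· ∈ B),
      zc p b (Finset.univ.filter (· ∈ b)) (rat y) (n χ) (n ψ) 1 *
      zc p b (Finset.univ.filter (· ∈ b)) (rat y) (n ψ) (n χ) 1 =
      ((p ^ (2 * blockDefect p b) * blockRank p b : ℕ) : ℂ) := by
  classical
  have hG0 : (Nat.card (Subgroup.centralizer ({y} : Set G)) : ℂ) ≠ 0 :=
    Nat.cast_ne_zero.2 Nat.card_pos.ne'
  apply mul_left_cancel₀ (pow_ne_zero 2 hG0)
  rw [Finset.mul_sum]
  set f : IrrCharacter G → Subgroup.centralizer ({y} : Set G) → ℂ := fun χ z =>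
    blockPart b (fun c : Subgroup.centralizer ({y} : Set G) => χ.1 (y * (c : G))) z with hf
  have e1 : ∀ χ ψ : IrrCharacter G, (Nat.card (Subgroup.centralizer ({y} : Set G)) : ℂ) *
      zc p b (Finset.univ.filter (· ∈ b)) (rat y) (n χ) (n ψ) 1 =
      ((p ^ blockDefect p b : ℕ) : ℂ) * ∑ z ∈ Finset.univ.filter
        (fun z : Subgroup.centralizer ({y} : Set G) => ¬ p ∣ orderOf z), f χ z * conj (f ψ z) := by
    intro χ ψ
    rw [zc_eq hM hb.1]
    congr 1
    refine Finset.sum_congr rfl (fun z _ => ?_)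
    rw [hf]
    dsimp only
    rw [part_eq (hn χ) b z, part_eq (hn ψ) b z]
  have e2 : ∀ χ ∈ Finset.univ.filter (· ∈ B),
      (Nat.card (Subgroup.centralizer ({y} : Set G)) : ℂ) ^ 2 *
      ∑ ψ ∈ Finset.univ.filter (· ∈ B),
      zc p b (Finset.univ.filter (· ∈ b)) (rat y) (n χ) (n ψ) 1 *
      zc p b (Finset.univ.filter (· ∈ b)) (rat y) (n ψ) (n χ) 1 =
      ((p ^ blockDefect p b : ℕ) : ℂ) ^ 2 * ∑ ψ ∈ Finset.univ.filter (· ∈ B),
        ∑ z ∈ Finset.univ.filter (fun z : Subgroup.centralizer ({y} : Set G) => ¬ p ∣ orderOf z),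
        ∑ w ∈ Finset.univ.filter (fun z : Subgroup.centralizer ({y} : Set G) => ¬ p ∣ orderOf z),
          (f χ z * conj (f χ w)) * (f ψ w * conj (f ψ z)) := by
    intro χ _
    rw [Finset.mul_sum, Finset.mul_sum]
    refine Finset.sum_congr rfl (fun ψ _ => ?_)
    have h1 := e1 χ ψ
    have h2 := e1 ψ χ
    calc _ = ((Nat.card (Subgroup.centralizer ({y} : Set G)) : ℂ) *
          zc p b (Finset.univ.filter (· ∈ b)) (rat y) (n χ) (n ψ) 1) *
          ((Nat.card (Subgroup.centralizer ({y} : Set G)) : ℂ) *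
          zc p b (Finset.univ.filter (· ∈ b)) (rat y) (n ψ) (n χ) 1) := by ring
      _ = ((p ^ blockDefect p b : ℕ) : ℂ) ^ 2 * ((∑ z ∈ Finset.univ.filter
        (fun z : Subgroup.centralizer ({y} : Set G) => ¬ p ∣ orderOf z), f χ z * conj (f ψ z)) *
        ∑ z ∈ Finset.univ.filter
        (fun z : Subgroup.centralizer ({y} : Set G) => ¬ p ∣ orderOf z), f ψ z * conj (f χ z)) := by
          rw [h1, h2]; ring
      _ = _ := by
          rw [Finset.sum_mul_sum]
          congr 1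
          refine Finset.sum_congr rfl (fun z _ => Finset.sum_congr rfl (fun w _ => ?_))
          ring
  rw [Finset.sum_congr rfl e2, ← Finset.mul_sum]
  have e3 : ∑ χ ∈ Finset.univ.filter (· ∈ B), ∑ ψ ∈ Finset.univ.filter (· ∈ B),
        ∑ z ∈ Finset.univ.filter (fun z : Subgroup.centralizer ({y} : Set G) => ¬ p ∣ orderOf z),
        ∑ w ∈ Finset.univ.filter (fun z : Subgroup.centralizer ({y} : Set G) => ¬ p ∣ orderOf z),
          (f χ z * conj (f χ w)) * (f ψ w * conj (f ψ z)) =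
      ∑ z ∈ Finset.univ.filter (fun z : Subgroup.centralizer ({y} : Set G) => ¬ p ∣ orderOf z),
        ∑ w ∈ Finset.univ.filter (fun z : Subgroup.centralizer ({y} : Set G) => ¬ p ∣ orderOf z),
        (∑ ξ ∈ Finset.univ.filter (· ∈ b), ξ.1 z * conj (ξ.1 w)) *
        (∑ ξ ∈ Finset.univ.filter (· ∈ b), ξ.1 w * conj (ξ.1 z)) := by
    rw [Finset.sum_congr rfl (fun χ _ => Finset.sum_comm), Finset.sum_comm]
    refine Finset.sum_congr rfl (fun z hz => ?_)
    rw [Finset.sum_congr rfl (fun χ _ => Finset.sum_comm), Finset.sum_comm]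
    refine Finset.sum_congr rfl (fun w hw => ?_)
    rw [← gram_block hM hy hb (Finset.mem_filter.1 hz).2 (Finset.mem_filter.1 hw).2,
      ← gram_block hM hy hb (Finset.mem_filter.1 hw).2 (Finset.mem_filter.1 hz).2,
      Finset.sum_mul_sum]
  rw [e3, kernel_double hM hb.1]
  push_cast
  ring

theorem zc_ne (hM : IsPModular p M) {y : G} (hy : ∃ k, orderOf y = p ^ k)
    {b : Set (IrrCharacter (Subgroup.centralizer ({y} : Set G)))} {B : Set (IrrCharacter G)}
    (hb : IsInducedBlock M (Subgroup.centralizer ({y} : Set G)) b B)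
    [Fintype (Subgroup.centralizer ({y} : Set G))] [DecidablePred (· ∈ b)]
    {n : IrrCharacter G → IrrCharacter (Subgroup.centralizer ({y} : Set G)) → ℕ}
    (hn : ∀ χ : IrrCharacter G, ∀ ξ : IrrCharacter (Subgroup.centralizer ({y} : Set G)),
      classInner (fun h : Subgroup.centralizer ({y} : Set G) => χ.1 h) ξ.1 = n χ ξ)
    {χ ψ : IrrCharacter G} (hχ : χ ∈ B) (hψ : ψ ∈ B) (h0 : blockHeight p B χ.1 = 0)
    (h0' : blockHeight p B ψ.1 = 0) :
    zc p b (Finset.univ.filter (· ∈ b)) (rat y) (n χ) (n ψ) 1 ≠ 0 := by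
  classical
  intro hz
  apply contrib_ne hM hb hχ hψ h0 h0' (n χ) (n ψ) (hn χ) (hn ψ)
  have hyo : ∃ k, orderOf (⟨y, mem_cent_iff.2 (Commute.refl y)⟩ :
      Subgroup.centralizer ({y} : Set G)) = p ^ k := by
    obtain ⟨k, hk⟩ := hy
    exact ⟨k, by rw [← Subgroup.orderOf_coe]; exact hk⟩
  have hyo' : ∃ k, orderOf (⟨y, mem_cent_iff.2 (Commute.refl y)⟩ :
      Subgroup.centralizer ({y} : Set G))⁻¹ = p ^ k := by
    rw [orderOf_inv]; exact hyo
  have h1 : ∀ ξ : IrrCharacter (Subgroup.centralizer ({y} : Set G)),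
      MemLocalIdeal M (rat y ξ - 1) := fun ξ => central_ratio_congr hM ξ (y_central y) hyo
  have h2 : ∀ ξ : IrrCharacter (Subgroup.centralizer ({y} : Set G)),
      MemLocalIdeal M (conj (rat y ξ) - 1) := by
    intro ξ
    have h3 := central_ratio_congr hM ξ (fun g => (y_central y g).inv_right) hyo'
    have h4 : conj (rat y ξ) = ξ.1 (⟨y, mem_cent_iff.2 (Commute.refl y)⟩ :
        Subgroup.centralizer ({y} : Set G))⁻¹ / ξ.1 1 := by
      unfold rat
      rw [map_div₀, conj_irr, conj_irr, inv_one]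
    rw [h4]
    exact h3
  have hloc : ∀ {z : ℂ}, MemLocalIdeal M (z - 1) → MemLocalRing M z := by
    intro z h
    have := loc_add hM (loc_of_max h) (loc_one hM)
    rwa [sub_add_cancel] at this
  have h3 : ∀ ξ η : IrrCharacter (Subgroup.centralizer ({y} : Set G)),
      red hM (rat y ξ * conj (rat y η)) = 1 := by
    intro ξ η
    rw [red_mul hM (hloc (h1 ξ)) (hloc (h2 η))]
    have e1 : red hM (rat y ξ) = 1 := by
      rw [← red_one hM, red_eq_iff hM (hloc (h1 ξ)) (loc_one hM)]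
      exact h1 ξ
    have e2 : red hM (conj (rat y η)) = 1 := by
      rw [← red_one hM, red_eq_iff hM (hloc (h2 η)) (loc_one hM)]
      exact h2 η
    rw [e1, e2, mul_one]
  have h4 := congrArg (red hM) hz
  unfold zc at h4
  rw [red_zero, red_sum hM _ _ (fun q _ => by
    rw [pow_one]
    exact loc_mul hM (loc_intCast hM _) (loc_mul hM (hloc (h1 _)) (hloc (h2 _))))] at h4
  have h5 : ∀ q ∈ (Finset.univ.filter (· ∈ b)) ×ˢ (Finset.univ.filter (· ∈ b)),
      red hM ((((n χ q.1 : ℤ) * n ψ q.2 * bf p b q.1 q.2 : ℤ) : ℂ) *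
        (rat y q.1 * conj (rat y q.2)) ^ 1) =
      (((n χ q.1 : ℤ) * n ψ q.2 * bf p b q.1 q.2 : ℤ) : ResF hM) := by
    intro q _
    rw [pow_one, red_mul hM (loc_intCast hM _) (loc_mul hM (hloc (h1 _)) (hloc (h2 _))), h3, mul_one,
      red_intCast]
  rw [Finset.sum_congr rfl h5, ← Int.cast_sum, Finset.sum_product] at h4
  exact (CharP.intCast_eq_zero_iff (ResF hM) p _).1 h4

end Sub

section Bound

variable {G : Type*} [Group G] [Finite G] {p : ℕ} {M : Ideal AlgInt}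

theorem card_sq_le (hM : IsPModular p M) {y : G} (hy : ∃ k, orderOf y = p ^ k)
    {b : Set (IrrCharacter (Subgroup.centralizer ({y} : Set G)))} {B : Set (IrrCharacter G)}
    (hb : IsInducedBlock M (Subgroup.centralizer ({y} : Set G)) b B) :
    Nat.card {χ : IrrCharacter G // χ ∈ B ∧ blockHeight p B χ.1 = 0} ^ 2 ≤
      p ^ (2 * blockDefect p b) * blockRank p b := by
  classical
  cases nonempty_fintype G
  haveI : Fintype (Subgroup.centralizer ({y} : Set G)) := Fintype.ofFinite _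
  haveI : NeZero (orderOf y) := ⟨(orderOf_pos y).ne'⟩
  obtain ⟨ξ₀, hξ₀⟩ := block_nonempty hM hb.1
  have hex : ∀ χ : IrrCharacter G, ∃ n : IrrCharacter (Subgroup.centralizer ({y} : Set G)) → ℕ,
      ∀ ξ : IrrCharacter (Subgroup.centralizer ({y} : Set G)),
      classInner (fun h : Subgroup.centralizer ({y} : Set G) => χ.1 h) ξ.1 = n ξ := by
    intro χ
    obtain ⟨m, hm, -⟩ := lam_res_zr hM ξ₀ χ
    exact ⟨m, hm⟩
  choose n hn using hex
  set S := Finset.univ.filter (· ∈ b) with hS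
  set Z : IrrCharacter G → IrrCharacter G → ℕ → ℂ := fun χ ψ u => zc p b S (rat y) (n χ) (n ψ) u
    with hZ
  have hμ : ∀ q : IrrCharacter (Subgroup.centralizer ({y} : Set G)) ×
      IrrCharacter (Subgroup.centralizer ({y} : Set G)),
      (rat y q.1 * conj (rat y q.2)) ^ orderOf y = 1 := by
    intro q
    rw [mul_pow, ← map_pow, rat_pow, rat_pow, map_one, mul_one]
  have hsum := contrib_sum hM hy hb hn
  -- Galois conjugates
  have hgal : ∀ u : (ZMod (orderOf y))ˣ,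
      ∑ χ ∈ Finset.univ.filter (· ∈ B), ∑ ψ ∈ Finset.univ.filter (· ∈ B),
        ‖Z χ ψ (u : ZMod (orderOf y)).val‖ ^ 2 =
      ((p ^ (2 * blockDefect p b) * blockRank p b : ℕ) : ℝ) := by
    intro u
    have hcop : Nat.Coprime (u : ZMod (orderOf y)).val (orderOf y) := ZMod.val_coe_unit_coprime u
    obtain ⟨σ, hσ⟩ := CharGal.exists_aut_pow (orderOf y) _ (orderOf_pos y).ne' hcop
    have h1 : ∀ χ ψ : IrrCharacter G, σ (Z χ ψ 1) = Z χ ψ (u : ZMod (orderOf y)).val := by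
      intro χ ψ
      rw [hZ]
      dsimp only
      unfold zc
      rw [map_sum]
      refine Finset.sum_congr rfl (fun q _ => ?_)
      rw [map_mul, map_intCast, pow_one, hσ _ (hμ q)]
    have h2 := congrArg σ hsum
    rw [map_natCast, map_sum] at h2
    have h3 : ∀ χ ψ : IrrCharacter G, ((‖Z χ ψ (u : ZMod (orderOf y)).val‖ ^ 2 : ℝ) : ℂ) =
        Z χ ψ (u : ZMod (orderOf y)).val * Z ψ χ (u : ZMod (orderOf y)).val := by
      intro χ ψ
      have h4 : Z ψ χ (u : ZMod (orderOf y)).val = conj (Z χ ψ (u : ZMod (orderOf y)).val) := by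
        rw [hZ]
        dsimp only
        rw [zc_conj hM hb.1 (fun ξ hξ => (Finset.mem_filter.1 hξ).2)]
      rw [h4, Complex.mul_conj, Complex.normSq_eq_norm_sq]
    have h5 : ((∑ χ ∈ Finset.univ.filter (· ∈ B), ∑ ψ ∈ Finset.univ.filter (· ∈ B),
        ‖Z χ ψ (u : ZMod (orderOf y)).val‖ ^ 2 : ℝ) : ℂ) =
        ((p ^ (2 * blockDefect p b) * blockRank p b : ℕ) : ℂ) := by
      rw [← h2]
      push_cast
      refine Finset.sum_congr rfl (fun χ _ => ?_)
      rw [map_sum]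
      refine Finset.sum_congr rfl (fun ψ _ => ?_)
      rw [map_mul]
      have h6 := h3 χ ψ
      push_cast at h6
      rw [h6]
      rw [← h1, ← h1]
    have h6 : ((∑ χ ∈ Finset.univ.filter (· ∈ B), ∑ ψ ∈ Finset.univ.filter (· ∈ B),
        ‖Z χ ψ (u : ZMod (orderOf y)).val‖ ^ 2 : ℝ) : ℂ) =
        (((p ^ (2 * blockDefect p b) * blockRank p b : ℕ) : ℝ) : ℂ) := by
      rw [h5]; push_cast; rfl
    exact Complex.ofReal_injective h6
  -- the bound
  set B₀ := Finset.univ.filter (fun χ : IrrCharacter G => χ ∈ B ∧ blockHeight p B χ.1 = 0) with hB₀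
  have hlow : ∀ χ ∈ B₀, ∀ ψ ∈ B₀, (Fintype.card (ZMod (orderOf y))ˣ : ℝ) ≤
      ∑ u : (ZMod (orderOf y))ˣ, ‖Z χ ψ (u : ZMod (orderOf y)).val‖ ^ 2 := by
    intro χ hχ ψ hψ
    have hχ' := (Finset.mem_filter.1 hχ).2
    have hψ' := (Finset.mem_filter.1 hψ).2
    have h1 := zc_ne hM hy hb hn hχ'.1 hψ'.1 hχ'.2 hψ'.2
    unfold zc at h1
    simp_rw [pow_one] at h1
    exact avg_roots (S ×ˢ S) (fun q => (n χ q.1 : ℤ) * n ψ q.2 * bf p b q.1 q.2)
      (fun q => rat y q.1 * conj (rat y q.2)) (fun q _ => hμ q) h1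
  have hB₀sub : B₀ ⊆ Finset.univ.filter (· ∈ B) := by
    intro χ hχ
    rw [Finset.mem_filter]
    exact ⟨Finset.mem_univ _, (Finset.mem_filter.1 hχ).2.1⟩
  have hcard : (B₀.card : ℝ) ^ 2 * (Fintype.card (ZMod (orderOf y))ˣ : ℝ) ≤
      (Fintype.card (ZMod (orderOf y))ˣ : ℝ) *
        ((p ^ (2 * blockDefect p b) * blockRank p b : ℕ) : ℝ) := by
    calc (B₀.card : ℝ) ^ 2 * (Fintype.card (ZMod (orderOf y))ˣ : ℝ) =
        ∑ χ ∈ B₀, ∑ ψ ∈ B₀, (Fintype.card (ZMod (orderOf y))ˣ : ℝ) := by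
          rw [Finset.sum_const, Finset.sum_const, nsmul_eq_mul, nsmul_eq_mul]; ring
      _ ≤ ∑ χ ∈ B₀, ∑ ψ ∈ B₀, ∑ u : (ZMod (orderOf y))ˣ,
          ‖Z χ ψ (u : ZMod (orderOf y)).val‖ ^ 2 :=
          Finset.sum_le_sum (fun χ hχ => Finset.sum_le_sum (fun ψ hψ => hlow χ hχ ψ hψ))
      _ ≤ ∑ χ ∈ Finset.univ.filter (· ∈ B), ∑ ψ ∈ Finset.univ.filter (· ∈ B),
          ∑ u : (ZMod (orderOf y))ˣ, ‖Z χ ψ (u : ZMod (orderOf y)).val‖ ^ 2 := by
          refine (Finset.sum_le_sum (fun χ _ => Finset.sum_le_sum_of_subset_of_nonneg hB₀sub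
            (fun ψ _ _ => Finset.sum_nonneg (fun u _ => by positivity)))).trans ?_
          exact Finset.sum_le_sum_of_subset_of_nonneg hB₀sub
            (fun χ _ _ => Finset.sum_nonneg (fun ψ _ => Finset.sum_nonneg (fun u _ => by positivity)))
      _ = ∑ u : (ZMod (orderOf y))ˣ, ∑ χ ∈ Finset.univ.filter (· ∈ B),
          ∑ ψ ∈ Finset.univ.filter (· ∈ B), ‖Z χ ψ (u : ZMod (orderOf y)).val‖ ^ 2 := by
          rw [Finset.sum_congr rfl (fun χ _ => Finset.sum_comm), Finset.sum_comm]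
      _ = _ := by
          rw [Finset.sum_congr rfl (fun u _ => hgal u), Finset.sum_const, nsmul_eq_mul,
            Finset.card_univ]
  have hpos : (0 : ℝ) < (Fintype.card (ZMod (orderOf y))ˣ : ℝ) := by
    exact_mod_cast Fintype.card_pos
  have hfin : (B₀.card : ℝ) ^ 2 ≤ ((p ^ (2 * blockDefect p b) * blockRank p b : ℕ) : ℝ) := by
    by_contra hcon
    push Not at hcon
    have := mul_lt_mul_of_pos_right hcon hpos
    rw [mul_comm] at this
    linarith
  have hcB : Nat.card {χ : IrrCharacter G // χ ∈ B ∧ blockHeight p B χ.1 = 0} = B₀.card := by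
    rw [Nat.card_eq_fintype_card, Fintype.card_subtype]
  rw [hcB]
  exact_mod_cast hfin

end Bound

end Cfsg.Agent.Lib.BlkH5K
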