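import Cfsg.Agent.Lib.BlockRey
import Cfsg.Agent.Lib.BlockKB
import Cfsg.Agent.Lib.BlockLar
import Cfsg.Agent.Lib.BlockMaxB
import Cfsg.Agent.Lib.BlockIndIn
import Cfsg.Agent.Lib.BlockBFM

import Cfsg.Agent.Lib.BlkH5L
import Cfsg.Agent.Lib.BlkH5P
import Cfsg.Agent.Lib.BlkH5Q
import Cfsg.Agent.Lib.BlkH5R
import Cfsg.Agent.Lib.BlkH5S
import Cfsg.Agent.Lib.BlkH5T
import Cfsg.Agent.Lib.BlkH5U
import Cfsg.Agent.Lib.BlkH5V
import Cfsg.Agent.Lib.BlkH5W
import Cfsg.Agent.Lib.BlkH5X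
import Cfsg.Agent.Lib.BlkH5Y
import Cfsg.Agent.Lib.BlockNilC
import Cfsg.Agent.Lib.BlockNilB
import Cfsg.Agent.Lib.BlockPairD
import Cfsg.Agent.Lib.BlockPairC
import Cfsg.Agent.Lib.BlockNP
import Cfsg.Agent.Lib.BlockIndIn

/-!
Harris-Knoerr, III.
-/

set_option autoImplicit false
set_option linter.style.haveILetI false
set_option linter.unusedVariables false
set_option linter.unusedSectionVars false
set_option linter.unusedDecidableInType false
set_option linter.unusedFintypeInType false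
set_option linter.unusedSimpArgs false

namespace Cfsg.Agent.Lib.BlkH5Z
open Cfsg Cfsg.Agent.Lib.BlockLoc Cfsg.Agent.Lib.BlockGA Cfsg.Agent.Lib.CharBasic
open Cfsg.Agent.Lib.BlockIdem Cfsg.Agent.Lib.BlockPP Cfsg.Agent.Lib.BlockOrth
open Cfsg.Agent.Lib.BlockRed Cfsg.Agent.Lib.BlockDef Cfsg.Agent.Lib.BlockDeg
open Cfsg.Agent.Lib.BlockNP Cfsg.Agent.Lib.BlockInd Cfsg.Agent.Lib.BlockSecond
open Cfsg.Agent.Lib.BlockFirst Cfsg.Agent.Lib.BlockHt Cfsg.Agent.Lib.BlockM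
open Cfsg.Agent.Lib.BlockCov Cfsg.Agent.Lib.BlockQuot Cfsg.Agent.Lib.CharKer
open Cfsg.Agent.Lib.BlockQuotB Cfsg.Agent.Lib.BlockMore Cfsg.Agent.Lib.BlockMoreB
open Cfsg.Agent.Lib.BlockTr Cfsg.Agent.Lib.CharNormal Cfsg.Agent.Lib.BlockCovB
open Cfsg.Agent.Lib.BlockBP Cfsg.Agent.Lib.BlockInt Cfsg.Agent.Lib.BlockSum Cfsg.Agent.Lib.BlockRk
open Cfsg.Agent.Lib.BlockFusB Cfsg.Agent.Lib.BlockMax Cfsg.Agent.Lib.CharSplit Cfsg.Agent.Lib.CharBrauer
open Cfsg.Agent.Lib.CharInd Cfsg.Agent.Lib.BlockPC Cfsg.Agent.Lib.BlockPair Cfsg.Agent.Lib.BlockPairB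
open Cfsg.Agent.Lib.BlockPairC Cfsg.Agent.Lib.BlockPairD Cfsg.Agent.Lib.BlockPairE
open Cfsg.Agent.Lib.BlockRey Cfsg.Agent.Lib.BlockPairF Cfsg.Agent.Lib.BlockFus Cfsg.Agent.Lib.BlockNilB Cfsg.Agent.Lib.BlockNil Cfsg.Agent.Lib.CharClifford
open Cfsg.Agent.Lib.BlockKB Cfsg.Agent.Lib.BlockLar Cfsg.Agent.Lib.BlockMaxB Cfsg.Agent.Lib.BlockIndIn Cfsg.Agent.Lib.BlockBFM
open Cfsg.Agent.Lib.BlkH5L Cfsg.Agent.Lib.BlkH5P Cfsg.Agent.Lib.BlkH5Q Cfsg.Agent.Lib.BlkH5R Cfsg.Agent.Lib.BlkH5S Cfsg.Agent.Lib.BlkH5T Cfsg.Agent.Lib.BlkH5U Cfsg.Agent.Lib.BlkH5V Cfsg.Agent.Lib.BlkH5W Cfsg.Agent.Lib.BlkH5X Cfsg.Agent.Lib.BlkH5Y Cfsg.Agent.Lib.BlockNilC Cfsg.Agent.Lib.BlockNilB Cfsg.Agent.Lib.BlockPairD Cfsg.Agent.Lib.BlockPairC Cfsg.Agent.Lib.BlockNP Cfsg.Agent.Lib.BlockIndIn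
open scoped ComplexConjugate

section HKc

variable {G : Type*} [Group G] [Fintype G] {p : ℕ} {M : Ideal AlgInt} {N : Subgroup G}
  [hN : N.Normal] [Fintype N] {Q : Subgroup G}

/-- Uniqueness in the Harris-Knörr correspondence. -/
theorem hk_unique (hM : IsPModular p M) (hQ : IsPGroup p Q) (hQN : Q ≤ N)
    [Fintype ((Subgroup.normalizer (Q : Set G) ⊓ N).subgroupOf
      (Subgroup.normalizer (Q : Set G)))]
    {e : Set (IrrCharacter ↥(Subgroup.normalizer (Q : Set G) ⊓ N))} (he : IsPBlock M e)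
    (heQ : IsDefectGroup p M e (Q.subgroupOf (Subgroup.normalizer (Q : Set G) ⊓ N)))
    {c₁ c₂ : Set (IrrCharacter ↥(Subgroup.normalizer (Q : Set G)))} (hc₁ : IsPBlock M c₁)
    (hc₂ : IsPBlock M c₂) (hce : Cov c₁ (eH e)) {B : Set (IrrCharacter G)}
    (hB₁ : IsInducedBlock M (Subgroup.normalizer (Q : Set G)) c₁ B)
    (hB₂ : IsInducedBlock M (Subgroup.normalizer (Q : Set G)) c₂ B) : c₁ = c₂ := by
  classical
  haveI := factP hM
  haveI : Fintype (Subgroup.normalizer (Q : Set G)) := Fintype.ofFinite _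
  haveI : Fintype (ConjClasses (Subgroup.normalizer (Q : Set G))) := Fintype.ofFinite _
  have hQH : Q ≤ (Subgroup.normalizer (Q : Set G)) := Subgroup.le_normalizer
  have heH : IsPBlock M (eH e) := isPBlock_trB hM _ he
  haveI : (Q.subgroupOf (Subgroup.normalizer (Q : Set G))).Normal := normal_subgroupOf (nrm_of_le_normalizer le_rfl)
  have hQHp : IsPGroup p (Q.subgroupOf (Subgroup.normalizer (Q : Set G))) :=
    hQ.comap_of_injective _ (Subgroup.subtype_injective _)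
  obtain ⟨n, hn⟩ := IsPGroup.iff_card.1 hQ
  -- the defect group of `c₁`
  have hD0 : IsDefectGroup p M (eH e) ((Q.subgroupOf (Subgroup.normalizer (Q : Set G))).subgroupOf (((Subgroup.normalizer (Q : Set G)) ⊓ N).subgroupOf (Subgroup.normalizer (Q : Set G)))) := by
    have h1 := isDefectGroup_trB hM (Subgroup.subgroupOfEquivOfLe (inf_le_left :
      (Subgroup.normalizer (Q : Set G)) ⊓ N ≤ (Subgroup.normalizer (Q : Set G)))).symm he heQ
    have h2 : (Q.subgroupOf ((Subgroup.normalizer (Q : Set G)) ⊓ N)).map (Subgroup.subgroupOfEquivOfLe (inf_le_left :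
        (Subgroup.normalizer (Q : Set G)) ⊓ N ≤ (Subgroup.normalizer (Q : Set G)))).symm.toMonoidHom = (Q.subgroupOf (Subgroup.normalizer (Q : Set G))).subgroupOf (((Subgroup.normalizer (Q : Set G)) ⊓ N).subgroupOf (Subgroup.normalizer (Q : Set G))) := by
      ext x
      rw [Subgroup.mem_subgroupOf, Subgroup.mem_subgroupOf, Subgroup.mem_map]
      constructor
      · rintro ⟨y, hy, rfl⟩
        exact Subgroup.mem_subgroupOf.1 hy
      · intro hx
        exact ⟨⟨((x : (Subgroup.normalizer (Q : Set G))) : G), Subgroup.mem_subgroupOf.1 x.2⟩, Subgroup.mem_subgroupOf.2 hx, rfl⟩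
    rw [h2] at h1
    exact h1
  have hQL : Q.subgroupOf (Subgroup.normalizer (Q : Set G)) ≤ ((Subgroup.normalizer (Q : Set G)) ⊓ N).subgroupOf (Subgroup.normalizer (Q : Set G)) := fun x hx =>
    Subgroup.mem_subgroupOf.2 (Subgroup.mem_inf.2 ⟨x.2, hQN (Subgroup.mem_subgroupOf.1 hx)⟩)
  obtain ⟨D, hD, hDQ⟩ := knorr_below hM hc₁ heH hce hQL hD0
  -- the support of the idempotent
  have hsupp : ∀ y : (Subgroup.normalizer (Q : Set G)), (eF hM c₁) y ≠ 0 → ∀ q ∈ Q, Commute q (y : G) := by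
    intro y hy q hq
    have h1 := eF_supp_normal hM hQHp (isLoc_eB hM hc₁) hy ⟨q, hQH hq⟩
      (Subgroup.mem_subgroupOf.2 hq)
    exact congrArg Subtype.val h1.eq
  -- fusion
  have hfus : ∀ y : (Subgroup.normalizer (Q : Set G)), (eF hM c₁) y ≠ 0 → ∀ h : (Subgroup.normalizer (Q : Set G)), (∀ q ∈ Q, Commute q (h : G)) →
      IsConj (y : G) (h : G) → IsConj y h := by
    intro y hy h hh hyh
    obtain ⟨g, hg⟩ := isConj_iff.1 hyh
    have hyQ := hsupp y hy
    let X : Subgroup G := Subgroup.centralizer ({(y : G)} : Set G) ⊓ N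
    have hQX : Q ≤ X := fun q hq => Subgroup.mem_inf.2 ⟨mem_cent_iff.2 (hyQ q hq), hQN hq⟩
    have hR : ∀ R : Subgroup G, Nat.card R = p ^ (n + 1) → R ≤ X → R ≤ (Subgroup.normalizer (Q : Set G)) → False := by
      intro R hRc hRX hRH
      have hRp : IsPGroup p (R.subgroupOf (Subgroup.normalizer (Q : Set G))) :=
        (IsPGroup.of_card hRc).comap_of_injective _ (Subgroup.subtype_injective _)
      obtain ⟨x, hx⟩ := defLe_of_eF_ne_zero hM hc₁ hD hy hRp (fun r hr =>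
        Subtype.ext (mem_cent_iff.1 (Subgroup.mem_inf.1 (hRX (Subgroup.mem_subgroupOf.1 hr))).1).eq)
      have h1 : SubConj (R.subgroupOf (Subgroup.normalizer (Q : Set G))) (Q.subgroupOf (Subgroup.normalizer (Q : Set G))) := by
        refine ⟨x, fun r hr => ?_⟩
        rw [← hDQ, Subgroup.mem_inf]
        refine ⟨hx r hr, ?_⟩
        have h2 : r ∈ ((Subgroup.normalizer (Q : Set G)) ⊓ N).subgroupOf (Subgroup.normalizer (Q : Set G)) := Subgroup.mem_subgroupOf.2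
          (Subgroup.mem_inf.2 ⟨r.2, (Subgroup.mem_inf.1
            (hRX (Subgroup.mem_subgroupOf.1 hr))).2⟩)
        exact normal_L.conj_mem r h2 x
      have h2 := h1.card_le
      rw [Nat.card_congr (Subgroup.subgroupOfEquivOfLe hRH).toEquiv,
        Nat.card_congr (Subgroup.subgroupOfEquivOfLe hQH).toEquiv, hRc, hn] at h2
      have h3 := Nat.pow_lt_pow_right hM.1.one_lt (Nat.lt_succ_self n)
      exact absurd h2 (not_le.2 h3)
    -- the conjugate of `Q`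
    set Q' : Subgroup G := Q.map (MulAut.conj g⁻¹).toMonoidHom with hQ'
    have hQ'X : Q' ≤ X := by
      intro z hz
      obtain ⟨q, hq, rfl⟩ := Subgroup.mem_map.1 hz
      refine Subgroup.mem_inf.2 ⟨mem_cent_iff.2 ?_, ?_⟩
      · change g⁻¹ * q * g⁻¹⁻¹ * y = y * (g⁻¹ * q * g⁻¹⁻¹)
        have h1 := (hh q hq).eq
        rw [← hg] at h1
        rw [inv_inv]
        calc g⁻¹ * q * g * y = g⁻¹ * (q * (g * y * g⁻¹)) * g := by group
          _ = g⁻¹ * (g * y * g⁻¹ * q) * g := by rw [h1]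
          _ = y * (g⁻¹ * q * g) := by group
      · exact hN.conj_mem _ (hQN hq) g⁻¹
    have hQ'c : Nat.card Q' = p ^ n := by rw [hQ', BlockDef.card_map_conj, hn]
    obtain ⟨x, hxX, hx⟩ := sylow_fusion hn hQX hR hQ'X hQ'c
    have hgx : g * x ∈ (Subgroup.normalizer (Q : Set G)) := by
      rw [Subgroup.mem_normalizer_iff]
      intro q
      rw [hx q, hQ', Subgroup.mem_map]
      constructor
      · rintro ⟨r, hr, hrq⟩
        have h1 : g⁻¹ * r * g⁻¹⁻¹ = x * q * x⁻¹ := hrq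
        have h2 : g * x * q * (g * x)⁻¹ = r := by
          calc g * x * q * (g * x)⁻¹ = g * (x * q * x⁻¹) * g⁻¹ := by group
            _ = g * (g⁻¹ * r * g⁻¹⁻¹) * g⁻¹ := by rw [h1]
            _ = r := by group
        rw [h2]; exact hr
      · intro hq
        refine ⟨_, hq, ?_⟩
        change g⁻¹ * (g * x * q * (g * x)⁻¹) * g⁻¹⁻¹ = x * q * x⁻¹
        group
    refine isConj_iff.2 ⟨⟨g * x, hgx⟩, Subtype.ext ?_⟩
    change g * x * y * (g * x)⁻¹ = h
    have h1 := (mem_cent_iff.1 (Subgroup.mem_inf.1 hxX).1).eq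
    calc g * x * y * (g * x)⁻¹ = g * (x * y) * x⁻¹ * g⁻¹ := by group
      _ = g * (y * x) * x⁻¹ * g⁻¹ := by rw [h1]
      _ = g * y * g⁻¹ := by group
      _ = h := hg
  -- the central element
  let z : GA (ResF hM) G := ∑ C : ConjClasses (Subgroup.normalizer (Q : Set G)), (eF hM c₁) (rpt C) •
    cs (ResF hM) ((rpt C : (Subgroup.normalizer (Q : Set G))) : G)
  have hz : IsCl z := IsCl.sum _ _ (fun C _ => (cs_isCl _).smul _)
  have hzr : resGA (Subgroup.normalizer (Q : Set G)) (trunc Q z) = eF hM c₁ := by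
    ext h
    rw [resGA_apply]
    by_cases hh : (h : G) ∈ Subgroup.centralizer (Q : Set G)
    · rw [trunc_pos hh]
      have hh' : ∀ q ∈ Q, Commute q (h : G) := fun q hq => Subgroup.mem_centralizer_iff.1 hh q hq
      change (∑ C : ConjClasses (Subgroup.normalizer (Q : Set G)), (eF hM c₁) (rpt C) • cs (ResF hM) ((rpt C : (Subgroup.normalizer (Q : Set G))) : G)) (h : G) = _
      rw [ga_sum, Finset.sum_eq_single (ConjClasses.mk h)]
      · have h1 : IsConj (rpt (ConjClasses.mk h)) h := by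
          rw [← ConjClasses.mk_eq_mk_iff_isConj, mk_rpt]
        have h2 : IsConj ((rpt (ConjClasses.mk h) : (Subgroup.normalizer (Q : Set G))) : G) (h : G) := by
          obtain ⟨x, hx⟩ := isConj_iff.1 h1
          exact isConj_iff.2 ⟨x, congrArg Subtype.val hx⟩
        rw [ga_smul, cs_apply, if_pos h2, mul_one]
        exact (eF_isCl hM c₁).eq_of_isConj h1
      · intro C _ hC
        rw [ga_smul]
        by_cases h0 : (eF hM c₁) (rpt C) = 0
        · rw [h0, zero_mul]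
        · rw [cs_apply, if_neg, mul_zero]
          intro h1
          apply hC
          have h2 := hfus _ h0 h hh' h1
          rw [← ConjClasses.mk_eq_mk_iff_isConj, mk_rpt] at h2
          exact h2
      · intro h; exact absurd (Finset.mem_univ _) h
    · rw [trunc_neg hh]
      symm
      by_contra h0
      exact hh (Subgroup.mem_centralizer_iff.2 (fun q hq => (hsupp h h0 q hq).eq))
  obtain ⟨χ, hχ⟩ := block_nonempty hM hB₁.2.1
  obtain ⟨ψ₁, hψ₁⟩ := block_nonempty hM hc₁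
  obtain ⟨ψ₂, hψ₂⟩ := block_nonempty hM hc₂
  have key : ∀ {c : Set (IrrCharacter (Subgroup.normalizer (Q : Set G)))} (ψ : IrrCharacter (Subgroup.normalizer (Q : Set G))), ψ ∈ c →
      IsInducedBlock M (Subgroup.normalizer (Q : Set G)) c B → lam hM χ.1 z = lam hM ψ.1 (eF hM c₁) := by
    intro c ψ hψ hB
    rw [← lam_of_induced hM hB hψ hχ hz, lam_res_trunc hM hQ hQH le_rfl ψ (fun x _ g => hz g x),
      hzr]
  have h1 := key ψ₁ hψ₁ hB₁
  have h2 := key ψ₂ hψ₂ hB₂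
  rw [lam_eF_mem hM (isLoc_eB hM hc₁) hψ₁] at h1
  by_contra hne
  have h3 : ψ₂ ∉ c₁ := fun h => hne (block_eq_of_mem_of_mem hM hc₁ hc₂ h hψ₂)
  rw [lam_eF_not_mem hM (isLoc_eB hM hc₁) h3, h1] at h2
  exact one_ne_zero h2

end HKc

end Cfsg.Agent.Lib.BlkH5Z
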