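import Cfsg.Agent.Lib.BlockRey
import Cfsg.Agent.Lib.BlockKB
import Cfsg.Agent.Lib.BlockLar
import Cfsg.Agent.Lib.BlockMaxB
import Cfsg.Agent.Lib.BlockIndIn
import Cfsg.Agent.Lib.BlockBFM

import Cfsg.Agent.Lib.BlkH6D
import Cfsg.Agent.Lib.BlockSum
import Cfsg.Agent.Lib.BlockOrth
import Cfsg.Agent.Lib.BlockPP
import Cfsg.Agent.Lib.BlockHt
import Cfsg.Agent.Lib.BlockQuotB
import Cfsg.Agent.Lib.BlockSecond
import Cfsg.Agent.Lib.BlockIdem
import Cfsg.Agent.Lib.BlockDeg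
import Cfsg.Agent.Lib.BlockGA
import Cfsg.Agent.Lib.CharBasic

/-!
Principal block columns and involutions.
-/

set_option autoImplicit false
set_option linter.style.haveILetI false
set_option linter.unusedVariables false
set_option linter.unusedSectionVars false
set_option linter.unusedDecidableInType false
set_option linter.unusedFintypeInType false
set_option linter.unusedSimpArgs false

namespace Cfsg.Agent.Lib.BlkH6E
open Cfsg Cfsg.Agent.Lib.BlockLoc Cfsg.Agent.Lib.BlockGA Cfsg.Agent.Lib.CharBasic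
open Cfsg.Agent.Lib.BlockIdem Cfsg.Agent.Lib.BlockPP Cfsg.Agent.Lib.BlockOrth
open Cfsg.Agent.Lib.BlockRed Cfsg.Agent.Lib.BlockDef Cfsg.Agent.Lib.BlockDeg
open Cfsg.Agent.Lib.BlockNP Cfsg.Agent.Lib.BlockInd Cfsg.Agent.Lib.BlockSecond
open Cfsg.Agent.Lib.BlockFirst Cfsg.Agent.Lib.BlockHt Cfsg.Agent.Lib.BlockM
open Cfsg.Agent.Lib.BlockCov Cfsg.Agent.Lib.BlockQuot Cfsg.Agent.Lib.CharKer
open Cfsg.Agent.Lib.BlockQuotB Cfsg.Agent.Lib.BlockMore Cfsg.Agent.Lib.BlockMoreB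
open Cfsg.Agent.Lib.BlockTr Cfsg.Agent.Lib.CharNormal Cfsg.Agent.Lib.BlockCovB
open Cfsg.Agent.Lib.BlockBP Cfsg.Agent.Lib.BlockInt Cfsg.Agent.Lib.BlockSum Cfsg.Agent.Lib.BlockRk
open Cfsg.Agent.Lib.BlockFusB Cfsg.Agent.Lib.BlockMax Cfsg.Agent.Lib.CharSplit Cfsg.Agent.Lib.CharBrauer
open Cfsg.Agent.Lib.CharInd Cfsg.Agent.Lib.BlockPC Cfsg.Agent.Lib.BlockPair Cfsg.Agent.Lib.BlockPairB
open Cfsg.Agent.Lib.BlockPairC Cfsg.Agent.Lib.BlockPairD Cfsg.Agent.Lib.BlockPairE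
open Cfsg.Agent.Lib.BlockRey Cfsg.Agent.Lib.BlockPairF Cfsg.Agent.Lib.BlockFus Cfsg.Agent.Lib.BlockNilB Cfsg.Agent.Lib.BlockNil Cfsg.Agent.Lib.CharClifford
open Cfsg.Agent.Lib.BlockKB Cfsg.Agent.Lib.BlockLar Cfsg.Agent.Lib.BlockMaxB Cfsg.Agent.Lib.BlockIndIn Cfsg.Agent.Lib.BlockBFM
open Cfsg.Agent.Lib.BlkH6D Cfsg.Agent.Lib.BlockSum Cfsg.Agent.Lib.BlockOrth Cfsg.Agent.Lib.BlockPP Cfsg.Agent.Lib.BlockHt Cfsg.Agent.Lib.BlockQuotB Cfsg.Agent.Lib.BlockSecond Cfsg.Agent.Lib.BlockIdem Cfsg.Agent.Lib.BlockDeg Cfsg.Agent.Lib.BlockGA Cfsg.Agent.Lib.CharBasic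
open scoped ComplexConjugate


section Ratio

theorem ratio_lemma {ι : Type*} (S : Finset ι) (n x y : ι → ℝ) (hx : ∀ i ∈ S, 0 < x i)
    (h1 : ∑ i ∈ S, n i * x i = 0) (h2 : ∑ i ∈ S, n i * y i = 0)
    (h3 : ∑ i ∈ S, n i * (y i ^ 2 / x i) = 0)
    (hu : ∀ i ∈ S, ∀ j ∈ S, n i < 0 → n j < 0 → i = j) {i₀ : ι} (hi₀ : i₀ ∈ S)
    (hn₀ : n i₀ ≠ 0) : ∃ r : ℝ, ∀ i ∈ S, n i ≠ 0 → y i = r * x i := by
  obtain ⟨i₁, hi₁, hn₁⟩ : ∃ i ∈ S, n i < 0 := by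
    by_contra hcon
    push Not at hcon
    have h4 := (Finset.sum_eq_zero_iff_of_nonneg (fun i hi => mul_nonneg (hcon i hi) (hx i hi).le)).1
      h1 i₀ hi₀
    rcases mul_eq_zero.1 h4 with h | h
    · exact hn₀ h
    · exact (hx i₀ hi₀).ne' h
  refine ⟨y i₁ / x i₁, ?_⟩
  set r := y i₁ / x i₁ with hr
  have e1 : ∑ i ∈ S, n i * ((y i - r * x i) ^ 2 / x i) = 0 := by
    have e2 : ∀ i ∈ S, n i * ((y i - r * x i) ^ 2 / x i) =
        n i * (y i ^ 2 / x i) - 2 * r * (n i * y i) + r ^ 2 * (n i * x i) := by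
      intro i hi
      have := (hx i hi).ne'
      field_simp
      ring
    rw [Finset.sum_congr rfl e2, Finset.sum_add_distrib, Finset.sum_sub_distrib, ← Finset.mul_sum,
      ← Finset.mul_sum, h1, h2, h3]
    ring
  have e3 : ∀ i ∈ S, 0 ≤ n i * ((y i - r * x i) ^ 2 / x i) := by
    intro i hi
    by_cases h : n i < 0
    · have : i = i₁ := hu i hi i₁ hi₁ h hn₁
      subst this
      have h5 : y i - r * x i = 0 := by
        rw [hr, div_mul_cancel₀ _ (hx i hi).ne', sub_self]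
      rw [h5]; simp
    · exact mul_nonneg (not_lt.1 h) (div_nonneg (sq_nonneg _) (hx i hi).le)
  intro i hi hni
  have e4 := (Finset.sum_eq_zero_iff_of_nonneg e3).1 e1 i hi
  rcases mul_eq_zero.1 e4 with h | h
  · exact absurd h hni
  · rcases div_eq_zero_iff.1 h with h | h
    · have := pow_eq_zero_iff (two_ne_zero) |>.1 h
      linarith
    · exact absurd h (hx i hi).ne'

end Ratio

section InvSum

variable {G : Type*} [Group G] [Finite G] {p : ℕ} {M : Ideal AlgInt}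

theorem inv_of_prod {t g : G} (ht : t * t = 1) (h : (cs ℂ t * cs ℂ t : GA ℂ G) g⁻¹ ≠ 0) :
    ∃ x : G, (x * t * x⁻¹) * g * (x * t * x⁻¹)⁻¹ = g⁻¹ := by
  classical
  cases nonempty_fintype G
  rw [ga_mul] at h
  obtain ⟨a, -, ha⟩ := Finset.exists_ne_zero_of_sum_ne_zero h
  have ha1 : IsConj t a := by
    by_contra hc
    apply ha
    rw [cs_apply, if_neg hc, zero_mul]
  have hb1 : IsConj t (a⁻¹ * g⁻¹) := by
    by_contra hc
    apply ha
    rw [cs_apply t (a⁻¹ * g⁻¹), if_neg hc, mul_zero]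
  obtain ⟨x, hx⟩ := isConj_iff.1 ha1
  obtain ⟨z, hz⟩ := isConj_iff.1 hb1
  have ha2 : a * a = 1 := by
    rw [← hx]
    have : x * t * x⁻¹ * (x * t * x⁻¹) = x * (t * t) * x⁻¹ := by group
    rw [this, ht]; group
  have hb2 : (a⁻¹ * g⁻¹) * (a⁻¹ * g⁻¹) = 1 := by
    rw [← hz]
    have : z * t * z⁻¹ * (z * t * z⁻¹) = z * (t * t) * z⁻¹ := by group
    rw [this, ht]; group
  refine ⟨x, ?_⟩
  rw [hx]
  have ha3 : a⁻¹ = a := inv_eq_of_mul_eq_one_left ha2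
  have h4 : a⁻¹ * g⁻¹ = g * a := by
    have := inv_eq_of_mul_eq_one_left hb2
    rw [← this]; group
  calc a * g * a⁻¹ = a * (g * a) := by rw [ha3]; group
    _ = a * (a⁻¹ * g⁻¹) := by rw [h4]
    _ = g⁻¹ := by group

theorem inv_sum (hM : IsPModular p M) {B : Set (IrrCharacter G)} (hl : IsLoc M (eB B)) {t v : G}
    (ht : t * t = 1) (hv : pp p v = v)
    (hno : ∀ g : G, (g * t * g⁻¹) * v * (g * t * g⁻¹)⁻¹ ≠ v⁻¹) [DecidablePred (· ∈ B)] :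
    ∑ χ ∈ Finset.univ.filter (· ∈ B), χ.1 t ^ 2 * χ.1 v / χ.1 1 = 0 := by
  classical
  cases nonempty_fintype G
  set c : GA ℂ G := cs ℂ t * cs ℂ t with hc
  set f : G → ℂ := fun g => c g⁻¹ with hf
  have h1 : blockPart B f v = 0 := by
    refine blockPart_vanish hM hl ?_
    intro g hg
    by_contra hne
    obtain ⟨x, hx⟩ := inv_of_prod ht hne
    obtain ⟨k, hk⟩ := isConj_iff.1 hg
    rw [hv] at hk
    have h2 := congrArg (pp p) hx
    rw [pp_conj, pp_inv hM.1, ← hk] at h2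
    apply hno (k⁻¹ * x)
    calc (k⁻¹ * x) * t * (k⁻¹ * x)⁻¹ * v * ((k⁻¹ * x) * t * (k⁻¹ * x)⁻¹)⁻¹
        = k⁻¹ * ((x * t * x⁻¹) * (k * v * k⁻¹) * (x * t * x⁻¹)⁻¹) * k := by group
      _ = k⁻¹ * (k * v * k⁻¹)⁻¹ * k := by rw [h2]
      _ = v⁻¹ := by group
  rw [blockPart_eq] at h1
  have h3 : ∀ χ : IrrCharacter G, classInner f χ.1 * χ.1 v =
      (Nat.card G : ℂ)⁻¹ * ((Subgroup.centralizer ({t} : Set G)).index : ℂ) ^ 2 *
        (χ.1 t ^ 2 * χ.1 v / χ.1 1) := by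
    intro χ
    have hχ1 : χ.1 1 ≠ 0 := isIrr_one_ne_zero χ.2
    have e1 : classInner f χ.1 = (Nat.card G : ℂ)⁻¹ * (χ.1 1 * om χ.1 c) := by
      rw [Cfsg.Agent.Lib.CharBasic.classInner_def, om_eq, mul_div_cancel₀ _ hχ1]
      congr 1
      refine Fintype.sum_equiv (Equiv.inv G) _ _ (fun g => ?_)
      rw [conj_irr]
      rfl
    rw [e1, hc, om_mul χ.2 (cs_isCl t), om_cs (irr_cl χ), centralChar]
    field_simp
  rw [Finset.sum_congr rfl (fun χ _ => h3 χ), ← Finset.mul_sum] at h1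
  rcases mul_eq_zero.1 h1 with h | h
  · exfalso
    rcases mul_eq_zero.1 h with h | h
    · rw [inv_eq_zero] at h
      exact (Nat.cast_ne_zero.2 (Nat.card_pos (α := G)).ne') h
    · have := pow_eq_zero_iff (two_ne_zero) |>.1 h
      exact (Nat.cast_ne_zero.2 (Subgroup.index_ne_zero_of_finite)) this
  · exact h

end InvSum

end Cfsg.Agent.Lib.BlkH6E
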