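import Cfsg.Agent.Lib.BlockRey
import Cfsg.Agent.Lib.BlockKB
import Cfsg.Agent.Lib.BlockLar
import Cfsg.Agent.Lib.BlockMaxB
import Cfsg.Agent.Lib.BlockIndIn
import Cfsg.Agent.Lib.BlockBFM

import Cfsg.Agent.Lib.BlkH6L
import Cfsg.Agent.Lib.BlkH6M
import Cfsg.Agent.Lib.BlkH6N
import Cfsg.Agent.Lib.BlkH6O
import Cfsg.Agent.Lib.BlkH6P
import Cfsg.Agent.Lib.BlkH6D
import Cfsg.Agent.Lib.BlkH5D
import Cfsg.Agent.Lib.BlkH5E
import Cfsg.Agent.Lib.BlkH5F

/-!
Index three: sums over linear characters.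
-/

set_option autoImplicit false
set_option linter.style.haveILetI false
set_option linter.unusedVariables false
set_option linter.unusedSectionVars false
set_option linter.unusedDecidableInType false
set_option linter.unusedFintypeInType false
set_option linter.unusedSimpArgs false

namespace Cfsg.Agent.Lib.BlkH6Q
open Cfsg Cfsg.Agent.Lib.BlockLoc Cfsg.Agent.Lib.BlockGA Cfsg.Agent.Lib.CharBasic
open Cfsg.Agent.Lib.BlockIdem Cfsg.Agent.Lib.BlockPP Cfsg.Agent.Lib.BlockOrth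
open Cfsg.Agent.Lib.BlockRed Cfsg.Agent.Lib.BlockDef Cfsg.Agent.Lib.BlockDeg
open Cfsg.Agent.Lib.BlockNP Cfsg.Agent.Lib.BlockInd Cfsg.Agent.Lib.BlockSecond
open Cfsg.Agent.Lib.BlockFirst Cfsg.Agent.Lib.BlockHt Cfsg.Agent.Lib.BlockM
open Cfsg.Agent.Lib.BlockCov Cfsg.Agent.Lib.BlockQuot Cfsg.Agent.Lib.CharKer
open Cfsg.Agent.Lib.BlockQuotB Cfsg.Agent.Lib.BlockMore Cfsg.Agent.Lib.BlockMoreB
open Cfsg.Agent.Lib.BlockTr Cfsg.Agent.Lib.CharNormal Cfsg.Agent.Lib.BlockCovB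
open Cfsg.Agent.Lib.BlockBP Cfsg.Agent.Lib.BlockInt Cfsg.Agent.Lib.BlockSum Cfsg.Agent.Lib.BlockRk
open Cfsg.Agent.Lib.BlockFusB Cfsg.Agent.Lib.BlockMax Cfsg.Agent.Lib.CharSplit Cfsg.Agent.Lib.CharBrauer
open Cfsg.Agent.Lib.CharInd Cfsg.Agent.Lib.BlockPC Cfsg.Agent.Lib.BlockPair Cfsg.Agent.Lib.BlockPairB
open Cfsg.Agent.Lib.BlockPairC Cfsg.Agent.Lib.BlockPairD Cfsg.Agent.Lib.BlockPairE
open Cfsg.Agent.Lib.BlockRey Cfsg.Agent.Lib.BlockPairF Cfsg.Agent.Lib.BlockFus Cfsg.Agent.Lib.BlockNilB Cfsg.Agent.Lib.BlockNil Cfsg.Agent.Lib.CharClifford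
open Cfsg.Agent.Lib.BlockKB Cfsg.Agent.Lib.BlockLar Cfsg.Agent.Lib.BlockMaxB Cfsg.Agent.Lib.BlockIndIn Cfsg.Agent.Lib.BlockBFM
open Cfsg.Agent.Lib.BlkH6L Cfsg.Agent.Lib.BlkH6M Cfsg.Agent.Lib.BlkH6N Cfsg.Agent.Lib.BlkH6O Cfsg.Agent.Lib.BlkH6P Cfsg.Agent.Lib.BlkH6D Cfsg.Agent.Lib.BlkH5D Cfsg.Agent.Lib.BlkH5E Cfsg.Agent.Lib.BlkH5F
open scoped ComplexConjugate


section TwoPart

variable {P : Type*} [CommGroup P] [Fintype P] {H : Subgroup (MulAut P)}

theorem three_elems (h3 : Nat.card H = 3) [Fintype H] [DecidableEq (MulAut P)] :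
    ∃ k : H, k ≠ 1 ∧ k * k * k = 1 ∧ ∀ f : H → ℂ, ∑ h : H, f h = f 1 + f k + f (k * k) := by
  classical
  haveI : Nontrivial H := Finite.one_lt_card_iff_nontrivial.1 (by omega)
  obtain ⟨k, hk⟩ := exists_ne (1 : H)
  have h1 : k ^ 3 = 1 := by rw [← h3]; exact pow_card_eq_one'
  have h2 : k * k * k = 1 := by rw [← h1, pow_three']
  have h4 : k * k ≠ 1 := by
    intro h
    rw [h, one_mul] at h2
    exact hk h2
  have h5 : k * k ≠ k := by
    intro h
    exact hk (mul_eq_left.1 h)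
  refine ⟨k, hk, h2, fun f => ?_⟩
  have h6 : (Finset.univ : Finset H) = {1, k, k * k} := by
    symm
    apply Finset.eq_univ_of_card
    rw [← Nat.card_eq_fintype_card, h3]
    exact Finset.card_eq_three.2 ⟨1, k, k * k, hk.symm, h4.symm, h5.symm, rfl⟩
  rw [h6, Finset.sum_insert, Finset.sum_insert, Finset.sum_singleton]
  · ring
  · rw [Finset.mem_singleton]; exact h5.symm
  · rw [Finset.mem_insert, Finset.mem_singleton, not_or]; exact ⟨hk.symm, h4.symm⟩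

theorem prod_orbit (hfree : ∀ h ∈ H, h ≠ 1 → ∀ u : P, h u = u → u = 1) {k : H} (hk : k ≠ 1)
    (hk3 : k * k * k = 1) (t : P) :
    t * (k : MulAut P) t * ((k * k : H) : MulAut P) t = 1 := by
  refine hfree k k.2 (fun h => hk (Subtype.ext h)) _ ?_
  have h1 : (k : MulAut P) (((k * k : H) : MulAut P) t) = t := by
    have h2 : ((k * k * k : H) : MulAut P) t = t := by rw [hk3]; rfl
    have h3 : (k * k * k : H) = k * (k * k) := mul_assoc _ _ _
    rw [h3] at h2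
    exact h2
  have h2 : (k : MulAut P) ((k : MulAut P) t) = ((k * k : H) : MulAut P) t := rfl
  rw [map_mul, map_mul, h1, h2, mul_comm _ t, ← mul_assoc]

theorem exists_three (hfree : ∀ h ∈ H, h ≠ 1 → ∀ u : P, h u = u → u = 1) (h3 : Nat.card H = 3)
    [Fintype H] (hq : 4 < Nat.card P) {t : P} (ht : t * t = 1) (ht1 : t ≠ 1) :
    ∃ ψ : P →* ℂˣ, ψ ≠ 1 ∧ ∑ h : H, ((ψ ((h : MulAut P) t) : ℂˣ) : ℂ) = 3 := by
  classical
  haveI : Fintype (P →* ℂˣ) := Fintype.ofFinite _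
  obtain ⟨k, hk, hk3, hsum⟩ := three_elems h3
  by_contra hn
  push Not at hn
  have h1 : ∀ ψ : P →* ℂˣ, ψ ≠ 1 → ∑ h : H, ((ψ ((h : MulAut P) t) : ℂˣ) : ℂ) = -1 := by
    intro ψ hψ
    have h2 := hn ψ hψ
    rw [hsum] at h2 ⊢
    have e : ∀ s : P, s * s = 1 → ((ψ s : ℂˣ) : ℂ) = 1 ∨ ((ψ s : ℂˣ) : ℂ) = -1 := by
      intro s hs
      apply mul_self_eq_one_iff.1
      rw [← Units.val_mul, ← map_mul, hs, map_one, Units.val_one]
    have hht : ∀ h : MulAut P, (h t) * (h t) = 1 := fun h => by rw [← map_mul, ht, map_one]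
    have hp := prod_orbit hfree hk hk3 t
    have hp2 : ((ψ t : ℂˣ) : ℂ) * ((ψ ((k : MulAut P) t) : ℂˣ) : ℂ) *
        ((ψ (((k * k : H) : MulAut P) t) : ℂˣ) : ℂ) = 1 := by
      rw [← Units.val_mul, ← Units.val_mul, ← map_mul, ← map_mul, hp, map_one, Units.val_one]
    have h11 : ((1 : H) : MulAut P) t = t := rfl
    rw [h11] at h2 ⊢
    rcases e t ht with e1 | e1 <;> rcases e _ (hht (k : MulAut P)) with e2 | e2 <;>
      rcases e _ (hht ((k * k : H) : MulAut P)) with e3 | e3 <;>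
      rw [e1, e2, e3] at hp2 h2 ⊢ <;>
      first
      | (exfalso; revert hp2; norm_num; done)
      | (norm_num; done)
      | (exfalso; exact h2 (by norm_num))
  have h2 : ∑ ψ : P →* ℂˣ, ∑ h : H, ((ψ ((h : MulAut P) t) : ℂˣ) : ℂ) = 0 := by
    rw [Finset.sum_comm]
    refine Finset.sum_eq_zero (fun h _ => ?_)
    rw [sum_dual, if_neg]
    intro h'
    exact ht1 ((map_eq_one_iff _ (h : MulAut P).injective).1 h')
  rw [← Finset.add_sum_erase _ _ (Finset.mem_univ (1 : P →* ℂˣ)),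
    Finset.sum_congr rfl (fun ψ hψ => h1 ψ (Finset.ne_of_mem_erase hψ)), Finset.sum_const,
    Finset.card_erase_of_mem (Finset.mem_univ _), Finset.card_univ, ← Nat.card_eq_fintype_card,
    card_dual] at h2
  simp only [MonoidHom.one_apply, Units.val_one, Finset.sum_const, Finset.card_univ,
    nsmul_eq_mul, mul_one] at h2
  rw [← Nat.card_eq_fintype_card, h3, Nat.cast_sub (by omega)] at h2
  push_cast at h2
  have h4 : (Nat.card P : ℂ) = ((4 : ℕ) : ℂ) := by push_cast; linear_combination -h2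
  have h5 : Nat.card P = 4 := by exact_mod_cast h4
  omega

theorem exists_outside (h3 : Nat.card H = 3) [Fintype H] (hq : 4 < Nat.card P) (t : P) :
    ∃ z : P, z ≠ 1 ∧ ∀ h : H, (h : MulAut P) t ≠ z := by
  classical
  by_contra hn
  push Not at hn
  have h1 : (Finset.univ : Finset P) ⊆ insert 1 (Finset.univ.image (fun h : H => (h : MulAut P) t)) := by
    intro z _
    by_cases hz : z = 1
    · rw [hz]; exact Finset.mem_insert_self _ _
    · obtain ⟨h, hh⟩ := hn z hz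
      exact Finset.mem_insert_of_mem (Finset.mem_image.2 ⟨h, Finset.mem_univ _, hh⟩)
  have h2 := Finset.card_le_card h1
  have h4 := Finset.card_insert_le (1 : P) (Finset.univ.image (fun h : H => (h : MulAut P) t))
  have h5 : (Finset.univ.image (fun h : H => (h : MulAut P) t)).card ≤ 3 := by
    refine Finset.card_image_le.trans ?_
    rw [Finset.card_univ, ← Nat.card_eq_fintype_card, h3]
  rw [Finset.card_univ, ← Nat.card_eq_fintype_card] at h2
  omega

theorem orbit_mul (hfree : ∀ h ∈ H, h ≠ 1 → ∀ u : P, h u = u → u = 1) (h3 : Nat.card H = 3)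
    {t : P} (ht : t * t = 1) (h h' : H) :
    (h : MulAut P) t * (h' : MulAut P) t = 1 ∨ ∃ g : H, (g : MulAut P) t =
      (h : MulAut P) t * (h' : MulAut P) t := by
  classical
  by_cases he : h = h'
  · left
    rw [he, ← map_mul, ht, map_one]
  · right
    -- reduce to the product of three
    have h1 : h⁻¹ * h' ≠ 1 := fun h'' => he (inv_mul_eq_one.1 h'')
    have h2 : (h⁻¹ * h') * (h⁻¹ * h') * (h⁻¹ * h') = 1 := by
      have : (h⁻¹ * h') ^ 3 = 1 := by rw [← h3]; exact pow_card_eq_one'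
      rw [← this, pow_three']
    have h4 := prod_orbit hfree h1 h2 t
    refine ⟨h * ((h⁻¹ * h') * (h⁻¹ * h')), ?_⟩
    have h5 : (((h⁻¹ * h') * (h⁻¹ * h') : H) : MulAut P) t =
        t * ((h⁻¹ * h' : H) : MulAut P) t := by
      have h6 := eq_inv_of_mul_eq_one_right h4
      rw [h6]
      have h7 : t⁻¹ = t := inv_eq_of_mul_eq_one_left ht
      have h8 : (((h⁻¹ * h' : H) : MulAut P) t)⁻¹ = ((h⁻¹ * h' : H) : MulAut P) t :=
        inv_eq_of_mul_eq_one_left (by rw [← map_mul, ht, map_one])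
      rw [mul_inv, h7, h8]
    change (h : MulAut P) ((((h⁻¹ * h') * (h⁻¹ * h') : H) : MulAut P) t) = _
    rw [h5, map_mul]
    congr 1
    have h9 : h * (h⁻¹ * h') = h' := by group
    change ((h * (h⁻¹ * h') : H) : MulAut P) t = _
    rw [h9]

theorem triple_sum (hfree : ∀ h ∈ H, h ≠ 1 → ∀ u : P, h u = u → u = 1) (h3 : Nat.card H = 3)
    [Fintype H] [Fintype (P →* ℂˣ)] [DecidableEq (P →* ℂˣ)] {t z : P} (ht : t * t = 1)
    (hz1 : z ≠ 1) (hz : ∀ h : H, (h : MulAut P) t ≠ z) :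
    ∑ ψ ∈ (Finset.univ : Finset (P →* ℂˣ)).erase 1, (∑ h : H, ((ψ ((h : MulAut P) z) : ℂˣ) : ℂ)) *
      (∑ h : H, ((ψ ((h : MulAut P) t) : ℂˣ) : ℂ)) ^ 2 = -27 := by
  classical
  have h1 : ∑ ψ : P →* ℂˣ, (∑ h : H, ((ψ ((h : MulAut P) z) : ℂˣ) : ℂ)) *
      (∑ h : H, ((ψ ((h : MulAut P) t) : ℂˣ) : ℂ)) ^ 2 = 0 := by
    have h2 : ∀ ψ : P →* ℂˣ, (∑ h : H, ((ψ ((h : MulAut P) z) : ℂˣ) : ℂ)) *
      (∑ h : H, ((ψ ((h : MulAut P) t) : ℂˣ) : ℂ)) ^ 2 =
      ∑ h : H, ∑ h' : H, ∑ h'' : H, ((ψ ((h : MulAut P) z * ((h' : MulAut P) t *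
        (h'' : MulAut P) t)) : ℂˣ) : ℂ) := by
      intro ψ
      rw [sq, Finset.sum_mul_sum, Finset.sum_mul]
      refine Finset.sum_congr rfl (fun h _ => ?_)
      rw [Finset.mul_sum]
      refine Finset.sum_congr rfl (fun h' _ => ?_)
      rw [Finset.mul_sum]
      refine Finset.sum_congr rfl (fun h'' _ => ?_)
      rw [map_mul, map_mul, Units.val_mul, Units.val_mul]
    rw [Finset.sum_congr rfl (fun ψ _ => h2 ψ), Finset.sum_comm]
    refine Finset.sum_eq_zero (fun h _ => ?_)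
    rw [Finset.sum_comm]
    refine Finset.sum_eq_zero (fun h' _ => ?_)
    rw [Finset.sum_comm]
    refine Finset.sum_eq_zero (fun h'' _ => ?_)
    rw [sum_dual, if_neg]
    intro hc
    rcases orbit_mul hfree h3 ht h' h'' with h4 | ⟨g, hg⟩
    · rw [h4, mul_one] at hc
      exact hz1 ((map_eq_one_iff _ (h : MulAut P).injective).1 hc)
    · rw [← hg] at hc
      have h5 : (h : MulAut P) z = ((g : MulAut P) t) := by
        rw [eq_inv_of_mul_eq_one_left hc]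
        exact inv_eq_of_mul_eq_one_left (by rw [← map_mul, ht, map_one])
      apply hz (h⁻¹ * g)
      change (h : MulAut P)⁻¹ ((g : MulAut P) t) = z
      rw [← h5, MulAut.inv_apply_self]
  rw [← Finset.add_sum_erase _ _ (Finset.mem_univ (1 : P →* ℂˣ))] at h1
  simp only [MonoidHom.one_apply, Units.val_one, Finset.sum_const, Finset.card_univ,
    nsmul_eq_mul, mul_one] at h1
  rw [← Nat.card_eq_fintype_card, h3] at h1
  push_cast at h1
  linear_combination h1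

end TwoPart

end Cfsg.Agent.Lib.BlkH6Q
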