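import Cfsg.Agent.Lib.BlockRey
import Cfsg.Agent.Lib.BlockKB
import Cfsg.Agent.Lib.BlockLar
import Cfsg.Agent.Lib.BlockMaxB
import Cfsg.Agent.Lib.BlockIndIn
import Cfsg.Agent.Lib.BlockBFM

import Cfsg.Agent.Lib.BlkH6L
import Cfsg.Agent.Lib.BlkH6M
import Cfsg.Agent.Lib.BlkH6N
import Cfsg.Agent.Lib.BlkH6O
import Cfsg.Agent.Lib.BlkH6P
import Cfsg.Agent.Lib.BlkH6Q
import Cfsg.Agent.Lib.BlkH6D
import Cfsg.Agent.Lib.BlkH5D
import Cfsg.Agent.Lib.BlkH5E
import Cfsg.Agent.Lib.BlkH5F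

/-!
Index three: reduction and fusion.
-/

set_option autoImplicit false
set_option linter.style.haveILetI false
set_option linter.unusedVariables false
set_option linter.unusedSectionVars false
set_option linter.unusedDecidableInType false
set_option linter.unusedFintypeInType false
set_option linter.unusedSimpArgs false

namespace Cfsg.Agent.Lib.BlkH6R
open Cfsg Cfsg.Agent.Lib.BlockLoc Cfsg.Agent.Lib.BlockGA Cfsg.Agent.Lib.CharBasic
open Cfsg.Agent.Lib.BlockIdem Cfsg.Agent.Lib.BlockPP Cfsg.Agent.Lib.BlockOrth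
open Cfsg.Agent.Lib.BlockRed Cfsg.Agent.Lib.BlockDef Cfsg.Agent.Lib.BlockDeg
open Cfsg.Agent.Lib.BlockNP Cfsg.Agent.Lib.BlockInd Cfsg.Agent.Lib.BlockSecond
open Cfsg.Agent.Lib.BlockFirst Cfsg.Agent.Lib.BlockHt Cfsg.Agent.Lib.BlockM
open Cfsg.Agent.Lib.BlockCov Cfsg.Agent.Lib.BlockQuot Cfsg.Agent.Lib.CharKer
open Cfsg.Agent.Lib.BlockQuotB Cfsg.Agent.Lib.BlockMore Cfsg.Agent.Lib.BlockMoreB
open Cfsg.Agent.Lib.BlockTr Cfsg.Agent.Lib.CharNormal Cfsg.Agent.Lib.BlockCovB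
open Cfsg.Agent.Lib.BlockBP Cfsg.Agent.Lib.BlockInt Cfsg.Agent.Lib.BlockSum Cfsg.Agent.Lib.BlockRk
open Cfsg.Agent.Lib.BlockFusB Cfsg.Agent.Lib.BlockMax Cfsg.Agent.Lib.CharSplit Cfsg.Agent.Lib.CharBrauer
open Cfsg.Agent.Lib.CharInd Cfsg.Agent.Lib.BlockPC Cfsg.Agent.Lib.BlockPair Cfsg.Agent.Lib.BlockPairB
open Cfsg.Agent.Lib.BlockPairC Cfsg.Agent.Lib.BlockPairD Cfsg.Agent.Lib.BlockPairE
open Cfsg.Agent.Lib.BlockRey Cfsg.Agent.Lib.BlockPairF Cfsg.Agent.Lib.BlockFus Cfsg.Agent.Lib.BlockNilB Cfsg.Agent.Lib.BlockNil Cfsg.Agent.Lib.CharClifford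
open Cfsg.Agent.Lib.BlockKB Cfsg.Agent.Lib.BlockLar Cfsg.Agent.Lib.BlockMaxB Cfsg.Agent.Lib.BlockIndIn Cfsg.Agent.Lib.BlockBFM
open Cfsg.Agent.Lib.BlkH6L Cfsg.Agent.Lib.BlkH6M Cfsg.Agent.Lib.BlkH6N Cfsg.Agent.Lib.BlkH6O Cfsg.Agent.Lib.BlkH6P Cfsg.Agent.Lib.BlkH6Q Cfsg.Agent.Lib.BlkH6D Cfsg.Agent.Lib.BlkH5D Cfsg.Agent.Lib.BlkH5E Cfsg.Agent.Lib.BlkH5F
open scoped ComplexConjugate


section Red

variable {G : Type*} [Group G] [Finite G] {p : ℕ} {M : Ideal AlgInt}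

theorem card_le_sq {X : Set (IrrCharacter G)} {a : IrrCharacter G → ℤ}
    (h : ∀ χ ∈ X, a χ ≠ 0) : (Nat.card X : ℤ) ≤ ∑ᶠ χ ∈ X, a χ ^ 2 := by
  classical
  rw [finsum_blk X]
  have h1 : (Nat.card X : ℤ) = ∑ χ ∈ Finset.univ.filter (· ∈ X), (1 : ℤ) := by
    rw [Finset.sum_const, nsmul_eq_mul, mul_one, Nat.card_eq_fintype_card, Fintype.card_subtype]
  rw [h1]
  refine Finset.sum_le_sum (fun χ hχ => ?_)
  have h2 := h χ (Finset.mem_filter.1 hχ).2
  have h3 : 0 < a χ ^ 2 := by positivity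
  omega

theorem single_le_sq {X : Set (IrrCharacter G)} {a : IrrCharacter G → ℤ} {χ : IrrCharacter G}
    (h : χ ∈ X) : a χ ^ 2 ≤ ∑ᶠ χ ∈ X, a χ ^ 2 := by
  classical
  rw [finsum_blk X]
  exact Finset.single_le_sum (f := fun χ => a χ ^ 2) (fun _ _ => sq_nonneg _)
    (Finset.mem_filter.2 ⟨Finset.mem_univ _, h⟩)

theorem card_eq_sq {X : Set (IrrCharacter G)} {a : IrrCharacter G → ℤ}
    (h : ∀ χ ∈ X, a χ ^ 2 = 1) : ∑ᶠ χ ∈ X, a χ ^ 2 = (Nat.card X : ℤ) := by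
  classical
  rw [finsum_blk X]
  rw [Finset.sum_congr rfl (fun χ hχ => h χ (Finset.mem_filter.1 hχ).2), Finset.sum_const,
    nsmul_eq_mul, mul_one, Nat.card_eq_fintype_card, Fintype.card_subtype]

theorem finsum_const_mul {Y : Set (IrrCharacter G)} {f : IrrCharacter G → ℂ} {c : ℂ}
    (h : ∀ χ ∈ Y, f χ = c) : ∑ᶠ χ ∈ Y, f χ = (Nat.card Y : ℂ) * c := by
  classical
  rw [finsum_blk Y, Finset.sum_congr rfl (fun χ hχ => h χ (Finset.mem_filter.1 hχ).2),
    Finset.sum_const, nsmul_eq_mul, Nat.card_eq_fintype_card, Fintype.card_subtype]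

theorem three_out (hM : IsPModular p M) [Fact p.Prime] (P : Sylow p G)
    (hab : ∀ x ∈ (P : Subgroup G), ∀ y ∈ (P : Subgroup G), x * y = y * x)
    (hm2 : 3 + 1 < Nat.card P)
    (hCN : (Subgroup.centralizer ((P : Subgroup G) : Set G)).relIndex
      (Subgroup.normalizer ((P : Subgroup G) : Set G)) = 3)
    (hfrob : ∀ y : G, y ∈ (P : Subgroup G) → y ≠ 1 →
      Subgroup.centralizer ({y} : Set G) ⊓ Subgroup.normalizer ((P : Subgroup G) : Set G) ≤
      Subgroup.centralizer ((P : Subgroup G) : Set G)) [Fintype (P : Subgroup G)]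
    [DecidablePred (· ∈ principalBlock M G)] :
    letI := cg (P : Subgroup G) hab
    ∃ (mult : IrrCharacter G → ((P : Subgroup G) →* ℂˣ) → ℤ)
      (a : IrrCharacter G → ℤ) (δ : ℤ) (ζ : ((P : Subgroup G) →* ℂˣ) → IrrCharacter G),
      Dat (P : Subgroup G).normalizerMonoidHom.range mult
        (fun χ (u : (P : Subgroup G)) => if χ ∈ principalBlock M G then χ.1 (u : G) else 0) ∧
      (∀ χ, χ ∉ principalBlock M G → ∀ ψ, mult χ ψ = 0) ∧
      BlkH6M.Out (P : Subgroup G).normalizerMonoidHom.range mult a 0 δ ζ := by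
  classical
  cases nonempty_fintype G
  letI := cg (P : Subgroup G) hab
  obtain ⟨mult, hD, h0⟩ := pr_dat hM P hab hfrob
  have hH : Nat.card (P : Subgroup G).normalizerMonoidHom.range = 3 := by rw [card_nh, hCN]
  obtain ⟨a, d, δ, ζ, hO⟩ := pr_out hM P hab (by rw [hH]; exact hm2) mult hD
  obtain ⟨X, Y, r, hr, hr2, hδ, hXY, hdis, hcY, htX, hat, hX, hζ, hη, hinj, hval, hnorm, hrel⟩ :=
    pr_full_of hM P hab 3 (by norm_num) hm2 hCN hfrob mult hD h0 a d δ ζ hO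
  by_cases hd : d = 0
  · subst hd
    exact ⟨mult, a, δ, ζ, hD, h0, hO⟩
  have hS1 : a (triv G) ^ 2 ≤ ∑ᶠ χ ∈ X, a χ ^ 2 := single_le_sq htX
  rw [hat] at hS1
  have hSX := card_le_sq (fun χ hχ => (hX χ hχ).1)
  set S := ∑ᶠ χ ∈ X, a χ ^ 2 with hS
  have hr2' : (2 : ℤ) ≤ r := by exact_mod_cast hr2
  have hδ2 : δ * δ = 1 := by rcases hδ with h | h <;> rw [h] <;> rfl
  have hd2 : d ^ 2 = (δ * d) ^ 2 := by linear_combination (-d ^ 2) * hδ2
  have hnorm' : S + (r : ℤ) * d ^ 2 - 2 * (δ * d) = 3 := by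
    push_cast at hnorm
    linear_combination hnorm
  have hk : δ * d = 1 := by
    generalize hkk : δ * d = k at *
    have h1 : (r : ℤ) * k ^ 2 - 2 * k ≤ 2 := by rw [← hd2]; linarith
    have hk0 : k ≠ 0 := by
      intro h
      rw [h] at hd2
      exact hd (pow_eq_zero_iff (two_ne_zero)|>.1 (by rw [hd2]; ring))
    have h2 : 2 * k ^ 2 - 2 * k ≤ 2 := by nlinarith [sq_nonneg k]
    have h3 : -1 < k := by nlinarith
    have h4 : k < 2 := by nlinarith
    omega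
  have hdδ : d = δ := by
    have : δ * (δ * d) = δ := by rw [hk, mul_one]
    linear_combination this - d * hδ2
  have hd1 : d ^ 2 = 1 := by rw [hd2, hk]; rfl
  have hSr : S + r = 5 := by
    rw [hd1] at hnorm
    have : 2 * δ * d = 2 := by linear_combination 2 * hk
    push_cast at hnorm
    linarith
  have hr4 : r ≤ 4 := by
    have : (r : ℤ) ≤ 4 := by linarith
    exact_mod_cast this
  have hr3 : r ≠ 3 := by
    rintro rfl
    have hq : Nat.card P = 10 := by omega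
    obtain ⟨k, hk⟩ := IsPGroup.iff_card.1 P.isPGroup'
    have hq' : Nat.card P = p ^ k := hk
    rw [hq] at hq'
    have h2 : p = 2 := ((Nat.prime_dvd_prime_iff_eq Nat.prime_two hM.1).1
      (Nat.prime_two.dvd_of_dvd_pow (hq' ▸ (by norm_num : 2 ∣ 10)))).symm
    have h5 : p = 5 := ((Nat.prime_dvd_prime_iff_eq Nat.prime_five hM.1).1
      (Nat.prime_five.dvd_of_dvd_pow (hq' ▸ (by norm_num : 5 ∣ 10)))).symm
    omega
  have hr4' : r ≠ 4 := by
    rintro rfl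
    have hS1' : S = 1 := by push_cast at hSr; linarith
    have hX1 : Nat.card X ≤ 1 := by
      have : (Nat.card X : ℤ) ≤ 1 := by rw [← hS1']; exact hSX
      exact_mod_cast this
    have hXt : X = {triv G} := by
      haveI : Subsingleton X := Finite.card_le_one_iff_subsingleton.1 hX1
      ext χ
      rw [Set.mem_singleton_iff]
      constructor
      · intro h
        exact congrArg Subtype.val (Subsingleton.elim (⟨χ, h⟩ : X) ⟨triv G, htX⟩)
      · rintro rfl; exact htX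
    have hrel1 := hrel (fun χ => χ.1 1) (fun u hu hu1 => by
      rw [finsum_blk]
      exact pr_orth hM P hu hu1 (by rw [orderOf_one]; exact hM.1.not_dvd_one))
    have hYne : Y.Nonempty := by
      have : 0 < Nat.card Y := by omega
      exact Set.nonempty_coe_sort.1 (Finite.card_pos_iff.1 this)
    obtain ⟨η, hηY⟩ := hYne
    have hδC : (δ : ℂ) * (δ : ℂ) = 1 := by exact_mod_cast congrArg (Int.cast : ℤ → ℂ) hδ2
    have hc : ∀ χ ∈ Y, χ.1 1 = η.1 1 := by
      intro χ hχ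
      have e1 := hrel1 χ hχ
      have e2 := hrel1 η hηY
      rw [← e2] at e1
      exact mul_left_cancel₀ (left_ne_zero_of_mul_eq_one hδC) e1
    have e3 := hrel1 η hηY
    rw [finsum_const_mul hc, hXt, finsum_mem_singleton, hat, hcY, hdδ] at e3
    have e4 : (triv G).1 1 = 1 := rfl
    rw [e4, irr_one_eq] at e3
    have e5 : δ * (charDegree η.1 : ℤ) = 1 * 1 + δ * (4 * charDegree η.1) := by
      have : ((δ * (charDegree η.1 : ℤ) : ℤ) : ℂ) = ((1 * 1 + δ * (4 * charDegree η.1) : ℤ) : ℂ) := by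
        push_cast at e3 ⊢
        linear_combination e3
      exact_mod_cast this
    rcases hδ with h | h <;> rw [h] at e5 <;> omega
  have hr22 : r = 2 := by omega
  have hcr := hO.card_range hD
  rw [hH, ← hr] at hcr
  have hcr2 : Nat.card {χ : IrrCharacter G | ∃ ψ : (P : Subgroup G) →* ℂˣ, ψ ≠ 1 ∧ ζ ψ = χ} = 2 := by
    rw [hr22] at hcr
    omega
  obtain ⟨a', ζ', hO'⟩ := out_swap hO hdδ hcr2
  exact ⟨mult, a', -δ, ζ', hD, h0, hO'⟩

end Red

section Fus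

variable {G : Type*} [Group G] [Finite G] {p : ℕ} {M : Ideal AlgInt}

/-- With an odd index, no involution-like element inverts a nontrivial element of `P`. -/
theorem sq_of_inverted [Fact p.Prime] (P : Sylow p G)
    (hab : ∀ x ∈ (P : Subgroup G), ∀ y ∈ (P : Subgroup G), x * y = y * x)
    (hCN : Nat.card (P : Subgroup G).normalizerMonoidHom.range = 3) {u x : G}
    (hu : u ∈ (P : Subgroup G)) (hx : x * u * x⁻¹ = u⁻¹) : u * u = 1 := by
  obtain ⟨n, hn, hnu⟩ := sylow_fusion P hab hu ((P : Subgroup G).inv_mem hu)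
    (isConj_iff.2 ⟨x, hx⟩)
  set h : (P : Subgroup G).normalizerMonoidHom.range :=
    ⟨(P : Subgroup G).normalizerMonoidHom ⟨n, hn⟩, ⟨_, rfl⟩⟩ with hh
  have h3 : h ^ 3 = 1 := by rw [← hCN]; exact pow_card_eq_one'
  have h1 : (h : MulAut (P : Subgroup G)) ⟨u, hu⟩ = (⟨u, hu⟩ : (P : Subgroup G))⁻¹ := Subtype.ext hnu
  have h2 : (h : MulAut (P : Subgroup G)) ((h : MulAut (P : Subgroup G)) ⟨u, hu⟩) = ⟨u, hu⟩ := by
    rw [h1, map_inv, h1, inv_inv]
  have h4 : (h : MulAut (P : Subgroup G)) ((h : MulAut (P : Subgroup G))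
      ((h : MulAut (P : Subgroup G)) ⟨u, hu⟩)) = ⟨u, hu⟩ := by
    have h5 : ((h ^ 3 : (P : Subgroup G).normalizerMonoidHom.range) : MulAut (P : Subgroup G))
        ⟨u, hu⟩ = ⟨u, hu⟩ := by rw [h3]; rfl
    rw [pow_three] at h5
    exact h5
  rw [h2, h1] at h4
  have h6 : u⁻¹ = u := congrArg Subtype.val h4
  calc u * u = u⁻¹ * u := by rw [h6]
    _ = 1 := inv_mul_cancel u

/-- The product of two conjugates of an involution of `P` inside a section. -/
theorem no_pair (hM : IsPModular p M) [Fact p.Prime] (P : Sylow p G)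
    (hab : ∀ x ∈ (P : Subgroup G), ∀ y ∈ (P : Subgroup G), x * y = y * x)
    (hCN : Nat.card (P : Subgroup G).normalizerMonoidHom.range = 3)
    {t z : G} (ht : t * t = 1) (hz : z ∈ (P : Subgroup G))
    (hr1 : blockRank p (principalBlock M (Subgroup.centralizer ({z} : Set G))) = 1)
    (hzP : p ^ (Nat.card (Subgroup.centralizer ({z} : Set G))).factorization p = Nat.card P)
    {c x y : G} (hc : Commute z c) (hcp : ¬ p ∣ orderOf c) (hx : IsConj t x) (hy : IsConj t y)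
    (hxy : x * y = z * c) (hpt : p = 2 ∧ t ∈ (P : Subgroup G)) :
    ∃ v v' : G, v ∈ (P : Subgroup G) ∧ v' ∈ (P : Subgroup G) ∧ IsConj t v ∧ IsConj t v' ∧
      v * v' = z := by
  classical
  obtain ⟨rfl, htP⟩ := hpt
  obtain ⟨g, rfl⟩ := isConj_iff.1 hx
  obtain ⟨g', rfl⟩ := isConj_iff.1 hy
  have hxx : (g * t * g⁻¹) * (g * t * g⁻¹) = 1 := by
    calc (g * t * g⁻¹) * (g * t * g⁻¹) = g * (t * t) * g⁻¹ := by group
      _ = 1 := by rw [ht]; group
  have hyy : (g' * t * g'⁻¹) * (g' * t * g'⁻¹) = 1 := by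
    calc (g' * t * g'⁻¹) * (g' * t * g'⁻¹) = g' * (t * t) * g'⁻¹ := by group
      _ = 1 := by rw [ht]; group
  generalize hxe : g * t * g⁻¹ = x at *
  generalize hye : g' * t * g'⁻¹ = y at *
  have hxi : x⁻¹ = x := inv_eq_of_mul_eq_one_left hxx
  have hyi : y⁻¹ = y := inv_eq_of_mul_eq_one_left hyy
  -- x inverts z * c, hence z
  have hinv : x * (z * c) * x⁻¹ = (z * c)⁻¹ := by
    rw [← hxy, mul_inv_rev, hxi, hyi]
    calc x * (x * y) * x = (x * x) * y * x := by group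
      _ = y * x := by rw [hxx, one_mul]
  have hpz : pp 2 (z * c) = z := by
    symm
    exact eq_pp_of_isPPart hM.1 ⟨c, rfl, hc, pow_of_mem hM.1 P hz, hcp⟩
  have hinvz : x * z * x⁻¹ = z⁻¹ := by
    have := pp_conj 2 (z * c) x
    rw [hinv, pp_inv hM.1, hpz] at this
    exact this.symm
  have hzz := sq_of_inverted P hab hCN hz hinvz
  have hzi : z⁻¹ = z := inv_eq_of_mul_eq_one_left hzz
  have hxC : x ∈ Subgroup.centralizer ({z} : Set G) := by
    rw [Subgroup.mem_centralizer_singleton_iff]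
    rw [hzi] at hinvz
    exact mul_inv_eq_iff_eq_mul.1 hinvz
  have hcC : c ∈ Subgroup.centralizer ({z} : Set G) := by
    rw [Subgroup.mem_centralizer_singleton_iff]
    exact hc.symm.eq
  have hzC : z ∈ Subgroup.centralizer ({z} : Set G) := by
    rw [Subgroup.mem_centralizer_singleton_iff]
  have hyC : y ∈ Subgroup.centralizer ({z} : Set G) := by
    have h1 : y = x⁻¹ * (z * c) := by rw [← hxy]; group
    rw [h1]
    exact Subgroup.mul_mem _ (Subgroup.inv_mem _ hxC) (Subgroup.mul_mem _ hzC hcC)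
  have hle : (P : Subgroup G) ≤ Subgroup.centralizer ({z} : Set G) := by
    intro w hw
    rw [Subgroup.mem_centralizer_singleton_iff]
    exact hab w hw z hz
  obtain ⟨R, hRn, hR, hidx⟩ := BlkH5F.reg_subgroup hM hr1
  rw [hzP] at hidx
  let f : (P : Subgroup G) →* (Subgroup.centralizer ({z} : Set G)) ⧸ R :=
    (QuotientGroup.mk' R).comp (Subgroup.inclusion hle)
  have hf : Function.Injective f := by
    rw [injective_iff_map_eq_one]
    intro w hw
    have h1 : Subgroup.inclusion hle w ∈ R := (QuotientGroup.eq_one_iff _).1 hw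
    have h2 := (hR _).1 h1
    obtain ⟨k, hk⟩ := pow_of_mem hM.1 P w.2
    have h3 : orderOf (Subgroup.inclusion hle w) = orderOf (w : G) := by
      rw [← Subgroup.orderOf_coe, Subgroup.coe_inclusion]
    rw [h3, hk] at h2
    have h4 : k = 0 := by
      by_contra hk0
      exact h2 (dvd_pow_self 2 hk0)
    rw [h4, pow_zero, orderOf_eq_one_iff] at hk
    exact Subtype.ext hk
  have hsurj : Function.Surjective f := by
    have h1 : Nat.card ((Subgroup.centralizer ({z} : Set G)) ⧸ R) = Nat.card P := hidx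
    exact ((Nat.bijective_iff_injective_and_card f).2 ⟨hf, h1.symm⟩).2
  have hcomm : ∀ a b : (Subgroup.centralizer ({z} : Set G)) ⧸ R, a * b = b * a := by
    intro a b
    obtain ⟨a, rfl⟩ := hsurj a
    obtain ⟨b, rfl⟩ := hsurj b
    rw [← map_mul, ← map_mul]
    congr 1
    exact Subtype.ext (hab a a.2 b b.2)
  -- every involution of the centralizer is congruent to a conjugate in `P`
  have key : ∀ w (hw : w ∈ Subgroup.centralizer ({z} : Set G)), w * w = 1 → IsConj t w →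
      ∃ v ∈ (P : Subgroup G), IsConj t v ∧ ∃ hv : v ∈ Subgroup.centralizer ({z} : Set G),
        (QuotientGroup.mk' R) ⟨v, hv⟩ = (QuotientGroup.mk' R) ⟨w, hw⟩ := by
    intro w hw hww htw
    have h1 : ∃ k : ℕ, orderOf (⟨w, hw⟩ : Subgroup.centralizer ({z} : Set G)) = 2 ^ k := by
      have h2 : orderOf (⟨w, hw⟩ : Subgroup.centralizer ({z} : Set G)) ∣ 2 ^ 1 := by
        apply orderOf_dvd_of_pow_eq_one
        rw [pow_one, sq]
        exact Subtype.ext hww
      obtain ⟨k, -, hk⟩ := (Nat.dvd_prime_pow Nat.prime_two).1 h2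
      exact ⟨k, hk⟩
    have h3 : IsPGroup 2 (Subgroup.zpowers (⟨w, hw⟩ : Subgroup.centralizer ({z} : Set G))) :=
      (isPGroup_zpowers_iff Nat.prime_two _).2 h1
    obtain ⟨Q, hQ⟩ := h3.exists_le_sylow
    obtain ⟨s, hs⟩ := MulAction.exists_smul_eq (Subgroup.centralizer ({z} : Set G)) Q (P.subtype hle)
    have h4 : s * ⟨w, hw⟩ * s⁻¹ ∈ ((P.subtype hle : Sylow 2 (Subgroup.centralizer ({z} : Set G))) :
        Subgroup (Subgroup.centralizer ({z} : Set G))) := by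
      rw [← hs]
      exact ⟨⟨w, hw⟩, hQ (Subgroup.mem_zpowers _), rfl⟩
    rw [Sylow.coe_subtype, Subgroup.mem_subgroupOf] at h4
    refine ⟨(s * ⟨w, hw⟩ * s⁻¹ : Subgroup.centralizer ({z} : Set G)), h4,
      htw.trans (isConj_iff.2 ⟨s, rfl⟩), (s * ⟨w, hw⟩ * s⁻¹ : Subgroup.centralizer ({z} : Set G)).2, ?_⟩
    change (QuotientGroup.mk' R) (s * ⟨w, hw⟩ * s⁻¹) = _
    rw [map_mul, map_mul, hcomm (QuotientGroup.mk' R s), mul_assoc, ← map_mul, mul_inv_cancel,
      map_one, mul_one]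
  obtain ⟨v, hvP, hv1, hvC, hvq⟩ := key x hxC hxx (isConj_iff.2 ⟨g, hxe⟩)
  obtain ⟨v', hvP', hv1', hvC', hvq'⟩ := key y hyC hyy (isConj_iff.2 ⟨g', hye⟩)
  refine ⟨v, v', hvP, hvP', hv1, hv1', ?_⟩
  have h5 : f (⟨v, hvP⟩ * ⟨v', hvP'⟩) = f ⟨z, hz⟩ := by
    rw [map_mul]
    have e1 : f ⟨v, hvP⟩ = (QuotientGroup.mk' R) ⟨v, hvC⟩ := rfl
    have e2 : f ⟨v', hvP'⟩ = (QuotientGroup.mk' R) ⟨v', hvC'⟩ := rfl
    have e3 : f ⟨z, hz⟩ = (QuotientGroup.mk' R) ⟨z, hzC⟩ := rfl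
    rw [e1, e2, e3, hvq, hvq', ← map_mul]
    have e4 : (⟨x, hxC⟩ * ⟨y, hyC⟩ : Subgroup.centralizer ({z} : Set G)) = ⟨z, hzC⟩ * ⟨c, hcC⟩ :=
      Subtype.ext hxy
    rw [e4, map_mul]
    have e5 : (QuotientGroup.mk' R) (⟨c, hcC⟩ : Subgroup.centralizer ({z} : Set G)) = 1 :=
      (QuotientGroup.eq_one_iff _).2 ((hR _).2 (by rwa [Subgroup.orderOf_mk]))
    rw [e5, mul_one]
  exact congrArg Subtype.val (hf h5)

end Fus

end Cfsg.Agent.Lib.BlkH6R
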