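import Cfsg.Agent.Lib.BlockRey
import Cfsg.Agent.Lib.BlockKB
import Cfsg.Agent.Lib.BlockLar
import Cfsg.Agent.Lib.BlockMaxB
import Cfsg.Agent.Lib.BlockIndIn
import Cfsg.Agent.Lib.BlockBFM

import Cfsg.Agent.Lib.BlkH6L
import Cfsg.Agent.Lib.BlkH6M
import Cfsg.Agent.Lib.BlkH6N
import Cfsg.Agent.Lib.BlkH6O
import Cfsg.Agent.Lib.BlkH6P
import Cfsg.Agent.Lib.BlkH6Q
import Cfsg.Agent.Lib.BlkH6R
import Cfsg.Agent.Lib.BlkH6D
import Cfsg.Agent.Lib.BlkH5D
import Cfsg.Agent.Lib.BlkH5E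
import Cfsg.Agent.Lib.BlkH5F

/-!
Index three: involutions.
-/

set_option autoImplicit false
set_option linter.style.haveILetI false
set_option linter.unusedVariables false
set_option linter.unusedSectionVars false
set_option linter.unusedDecidableInType false
set_option linter.unusedFintypeInType false
set_option linter.unusedSimpArgs false

namespace Cfsg.Agent.Lib.BlkH6S
open Cfsg Cfsg.Agent.Lib.BlockLoc Cfsg.Agent.Lib.BlockGA Cfsg.Agent.Lib.CharBasic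
open Cfsg.Agent.Lib.BlockIdem Cfsg.Agent.Lib.BlockPP Cfsg.Agent.Lib.BlockOrth
open Cfsg.Agent.Lib.BlockRed Cfsg.Agent.Lib.BlockDef Cfsg.Agent.Lib.BlockDeg
open Cfsg.Agent.Lib.BlockNP Cfsg.Agent.Lib.BlockInd Cfsg.Agent.Lib.BlockSecond
open Cfsg.Agent.Lib.BlockFirst Cfsg.Agent.Lib.BlockHt Cfsg.Agent.Lib.BlockM
open Cfsg.Agent.Lib.BlockCov Cfsg.Agent.Lib.BlockQuot Cfsg.Agent.Lib.CharKer
open Cfsg.Agent.Lib.BlockQuotB Cfsg.Agent.Lib.BlockMore Cfsg.Agent.Lib.BlockMoreB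
open Cfsg.Agent.Lib.BlockTr Cfsg.Agent.Lib.CharNormal Cfsg.Agent.Lib.BlockCovB
open Cfsg.Agent.Lib.BlockBP Cfsg.Agent.Lib.BlockInt Cfsg.Agent.Lib.BlockSum Cfsg.Agent.Lib.BlockRk
open Cfsg.Agent.Lib.BlockFusB Cfsg.Agent.Lib.BlockMax Cfsg.Agent.Lib.CharSplit Cfsg.Agent.Lib.CharBrauer
open Cfsg.Agent.Lib.CharInd Cfsg.Agent.Lib.BlockPC Cfsg.Agent.Lib.BlockPair Cfsg.Agent.Lib.BlockPairB
open Cfsg.Agent.Lib.BlockPairC Cfsg.Agent.Lib.BlockPairD Cfsg.Agent.Lib.BlockPairE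
open Cfsg.Agent.Lib.BlockRey Cfsg.Agent.Lib.BlockPairF Cfsg.Agent.Lib.BlockFus Cfsg.Agent.Lib.BlockNilB Cfsg.Agent.Lib.BlockNil Cfsg.Agent.Lib.CharClifford
open Cfsg.Agent.Lib.BlockKB Cfsg.Agent.Lib.BlockLar Cfsg.Agent.Lib.BlockMaxB Cfsg.Agent.Lib.BlockIndIn Cfsg.Agent.Lib.BlockBFM
open Cfsg.Agent.Lib.BlkH6L Cfsg.Agent.Lib.BlkH6M Cfsg.Agent.Lib.BlkH6N Cfsg.Agent.Lib.BlkH6O Cfsg.Agent.Lib.BlkH6P Cfsg.Agent.Lib.BlkH6Q Cfsg.Agent.Lib.BlkH6R Cfsg.Agent.Lib.BlkH6D Cfsg.Agent.Lib.BlkH5D Cfsg.Agent.Lib.BlkH5E Cfsg.Agent.Lib.BlkH5F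
open scoped ComplexConjugate


section Inv

variable {G : Type*} [Group G] [Finite G] {p : ℕ} {M : Ideal AlgInt}

theorem finsum_three {X : Set (IrrCharacter G)} {χ₂ χ₃ : IrrCharacter G}
    (hX : X = {triv G, χ₂, χ₃}) (h12 : triv G ≠ χ₂) (h13 : triv G ≠ χ₃) (h23 : χ₂ ≠ χ₃)
    (f : IrrCharacter G → ℂ) : ∑ᶠ χ ∈ X, f χ = f (triv G) + f χ₂ + f χ₃ := by
  classical
  have e1 : X = ((({triv G, χ₂, χ₃} : Finset (IrrCharacter G))) : Set (IrrCharacter G)) := by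
    rw [hX]; simp
  rw [e1, finsum_mem_coe_finset, Finset.sum_insert, Finset.sum_insert, Finset.sum_singleton]
  · ring
  · rw [Finset.mem_singleton]; exact h23
  · rw [Finset.mem_insert, Finset.mem_singleton, not_or]; exact ⟨h12, h13⟩

theorem three_inv_core (hM : IsPModular p M) [Fact p.Prime] (P : Sylow p G)
    (hab : ∀ x ∈ (P : Subgroup G), ∀ y ∈ (P : Subgroup G), x * y = y * x)
    (hm2 : 3 + 1 < Nat.card P)
    (hCN : (Subgroup.centralizer ((P : Subgroup G) : Set G)).relIndex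
      (Subgroup.normalizer ((P : Subgroup G) : Set G)) = 3)
    (hfrob : ∀ y : G, y ∈ (P : Subgroup G) → y ≠ 1 →
      Subgroup.centralizer ({y} : Set G) ⊓ Subgroup.normalizer ((P : Subgroup G) : Set G) ≤
      Subgroup.centralizer ((P : Subgroup G) : Set G))
    {a : IrrCharacter G → ℤ} {δ : ℤ} {ζ : ((P : Subgroup G) →* ℂˣ) → IrrCharacter G}
    {X Y : Set (IrrCharacter G)} (hδ : δ = 1 ∨ δ = -1)
    (hXY : principalBlock M G = X ∪ Y) (hdis : Disjoint X Y) (htX : triv G ∈ X)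
    (hat : a (triv G) = 1)
    (hXv : ∀ χ ∈ X, (a χ = 1 ∨ a χ = -1) ∧ ∀ z y : G, IsPPart p z y → y ∈ (P : Subgroup G) → y ≠ 1 →
        χ.1 z = (a χ : ℂ))
    (hζ : ∀ ψ : (P : Subgroup G) →* ℂˣ, ψ ≠ 1 → ζ ψ ∈ Y)
    (hη : ∀ η ∈ Y, ∃ ψ : (P : Subgroup G) →* ℂˣ, ψ ≠ 1 ∧ ζ ψ = η)
    (hinj : ∀ ψ ψ' : (P : Subgroup G) →* ℂˣ, ψ ≠ 1 → ψ' ≠ 1 →
      (ζ ψ = ζ ψ' ↔ NRel (P : Subgroup G) ψ ψ'))
    (hval : ∀ ψ : (P : Subgroup G) →* ℂˣ, ψ ≠ 1 → ∀ (z : G) (y : (P : Subgroup G)),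
        IsPPart p z (y : G) → (y : G) ≠ 1 → (ζ ψ).1 z = (δ : ℂ) *
          ∑ᶠ ψ' ∈ {ψ' : (P : Subgroup G) →* ℂˣ | NRel (P : Subgroup G) ψ ψ'}, ((ψ' y : ℂˣ) : ℂ))
    (hrel : ∀ f : IrrCharacter G → ℂ, (∀ u ∈ (P : Subgroup G), u ≠ 1 →
        ∑ᶠ χ ∈ principalBlock M G, χ.1 u * f χ = 0) → ∀ η ∈ Y,
          (δ : ℂ) * f η = ∑ᶠ χ ∈ X, (a χ : ℂ) * f χ)
    {χ₂ χ₃ : IrrCharacter G} (hX : X = {triv G, χ₂, χ₃}) (h12 : triv G ≠ χ₂) (h13 : triv G ≠ χ₃)
    (h23 : χ₂ ≠ χ₃) {t : G} (ht2 : orderOf t = 2)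
    (hgen : ∀ K : Subgroup G, K.Normal → t ∈ K → K = ⊤) (htP : p = 2 → t ∈ (P : Subgroup G)) :
    a χ₂ * a χ₃ * (-δ) = 1 ∧ (a χ₂ = -1 ∨ a χ₃ = -1 ∨ -δ = -1) ∧
      ∀ η ∈ Y, IsSquare ((charDegree η.1 : ℤ) * ((charDegree χ₂.1 : ℤ) * (charDegree χ₃.1 : ℤ))) := by
  classical
  cases nonempty_fintype G
  have hH : Nat.card (P : Subgroup G).normalizerMonoidHom.range = 3 := by rw [card_nh, hCN]
  have htt : t * t = 1 := by rw [← sq, ← ht2]; exact pow_orderOf_eq_one t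
  have ht1 : t ≠ 1 := fun h => by rw [h, orderOf_one] at ht2; omega
  have hχ₂X : χ₂ ∈ X := by rw [hX]; simp
  have hχ₃X : χ₃ ∈ X := by rw [hX]; simp
  have hne2 : χ₂.1 ≠ fun _ => 1 := fun h => h12 (Subtype.ext h.symm)
  have hne3 : χ₃.1 ≠ fun _ => 1 := fun h => h13 (Subtype.ext h.symm)
  have hneY : ∀ η ∈ Y, η.1 ≠ fun _ => 1 := by
    intro η hη' h
    have : η = triv G := Subtype.ext h
    exact Set.disjoint_left.1 hdis htX (this ▸ hη')
  have hδ2 : δ * δ = 1 := by rcases hδ with h | h <;> rw [h] <;> rfl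
  have hδC : (δ : ℂ) * (δ : ℂ) = 1 := by exact_mod_cast congrArg (Int.cast : ℤ → ℂ) hδ2
  have hδC0 : (δ : ℂ) ≠ 0 := left_ne_zero_of_mul_eq_one hδC
  -- the degree relation
  have hrel1 : ∀ η ∈ Y, (δ : ℂ) * η.1 1 = 1 + (a χ₂ : ℂ) * χ₂.1 1 + (a χ₃ : ℂ) * χ₃.1 1 := by
    intro η hη'
    have h1 := hrel (fun χ => χ.1 1) (fun u hu hu1 => by
      rw [finsum_blk]
      exact pr_orth hM P hu hu1 (by rw [orderOf_one]; exact hM.1.not_dvd_one)) η hη'
    rw [finsum_three hX h12 h13 h23, hat] at h1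
    rw [h1]
    have e : (triv G).1 1 = 1 := rfl
    rw [e]
    push_cast
    ring
  have hdeg : ∀ η ∈ Y, ∀ η' ∈ Y, charDegree η.1 = charDegree η'.1 := by
    intro η h1 η' h2
    have e1 := hrel1 η h1
    rw [← hrel1 η' h2] at e1
    have e2 := mul_left_cancel₀ hδC0 e1
    rw [irr_one_eq, irr_one_eq] at e2
    exact_mod_cast e2
  have hd1 : ∀ η ∈ Y, 1 + a χ₂ * (charDegree χ₂.1 : ℤ) + a χ₃ * (charDegree χ₃.1 : ℤ) +
      (-δ) * (charDegree η.1 : ℤ) = 0 := by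
    intro η hη'
    have e1 := hrel1 η hη'
    rw [irr_one_eq, irr_one_eq, irr_one_eq] at e1
    have : ((1 + a χ₂ * (charDegree χ₂.1 : ℤ) + a χ₃ * (charDegree χ₃.1 : ℤ) +
      (-δ) * (charDegree η.1 : ℤ) : ℤ) : ℂ) = 0 := by
      push_cast
      linear_combination -e1
    exact_mod_cast this
  obtain ⟨u₂, hu2, -⟩ := inv_int htt χ₂
  obtain ⟨u₃, hu3, -⟩ := inv_int htt χ₃
  have hlt2 := inv_lt htt hgen hne2 hu2
  have hlt3 := inv_lt htt hgen hne3 hu3
  have hx2 : (0 : ℤ) < charDegree χ₂.1 := by exact_mod_cast charDegree_pos χ₂.2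
  have hx3 : (0 : ℤ) < charDegree χ₃.1 := by exact_mod_cast charDegree_pos χ₃.2
  -- the key data
  have hkey : ∃ η₀ ∈ Y, ∃ w : ℤ, w < (charDegree η₀.1 : ℤ) ∧
      1 + a χ₂ * u₂ + a χ₃ * u₃ + (-δ) * w = 0 ∧
      (1 : ℚ) + a χ₂ * ((u₂ : ℚ) ^ 2 / (charDegree χ₂.1 : ℤ)) +
        a χ₃ * ((u₃ : ℚ) ^ 2 / (charDegree χ₃.1 : ℤ)) +
        ((-δ : ℤ) : ℚ) * ((w : ℚ) ^ 2 / (charDegree η₀.1 : ℤ)) = 0 := by
    have hcast : ∀ (η₀ : IrrCharacter G) (w : ℤ),
        (1 : ℂ) + a χ₂ * ((u₂ : ℂ) ^ 2 / (charDegree χ₂.1)) +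
        a χ₃ * ((u₃ : ℂ) ^ 2 / (charDegree χ₃.1)) +
        (-δ) * ((w : ℂ) ^ 2 / (charDegree η₀.1)) = 0 →
        (1 : ℚ) + a χ₂ * ((u₂ : ℚ) ^ 2 / (charDegree χ₂.1 : ℤ)) +
        a χ₃ * ((u₃ : ℚ) ^ 2 / (charDegree χ₃.1 : ℤ)) +
        ((-δ : ℤ) : ℚ) * ((w : ℚ) ^ 2 / (charDegree η₀.1 : ℤ)) = 0 := by
      intro η₀ w h
      have h2 : (((1 : ℚ) + a χ₂ * ((u₂ : ℚ) ^ 2 / (charDegree χ₂.1 : ℤ)) +
        a χ₃ * ((u₃ : ℚ) ^ 2 / (charDegree χ₃.1 : ℤ)) +
        ((-δ : ℤ) : ℚ) * ((w : ℚ) ^ 2 / (charDegree η₀.1 : ℤ)) : ℚ) : ℂ) = 0 := by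
        push_cast
        exact h
      exact_mod_cast h2
    by_cases hp2 : p = 2
    · -- `p = 2`
      subst hp2
      have htP' := htP rfl
      letI := cg (P : Subgroup G) hab
      haveI : Fintype (P : Subgroup G) := Fintype.ofFinite _
      haveI : Fintype ((P : Subgroup G) →* ℂˣ) := Fintype.ofFinite _
      haveI : Fintype (P : Subgroup G).normalizerMonoidHom.range := Fintype.ofFinite _
      have hfree := nh_free (P : Subgroup G) hfrob
      set τ : (P : Subgroup G) := ⟨t, htP'⟩ with hτ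
      have hττ : τ * τ = 1 := Subtype.ext htt
      have hτ1 : τ ≠ 1 := fun h => ht1 (congrArg Subtype.val h)
      have hq4 : 4 < Nat.card (P : Subgroup G) := hm2
      have hSv : ∀ ψ : (P : Subgroup G) →* ℂˣ, ψ ≠ 1 → ∀ y : (P : Subgroup G), y ≠ 1 →
          (ζ ψ).1 (y : G) = (δ : ℂ) *
            ∑ h : (P : Subgroup G).normalizerMonoidHom.range,
              ((ψ ((h : MulAut (P : Subgroup G)) y) : ℂˣ) : ℂ) := by
        intro ψ hψ y hy
        rw [hval ψ hψ (y : G) y ⟨1, mul_one _, Commute.one_right _, pow_of_mem hM.1 P y.2,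
          by rw [orderOf_one]; exact hM.1.not_dvd_one⟩ (fun h => hy (Subtype.ext h))]
        congr 1
        have h1 : {ψ' : (P : Subgroup G) →* ℂˣ | NRel (P : Subgroup G) ψ ψ'} =
            {ψ' : (P : Subgroup G) →* ℂˣ | Rel (P : Subgroup G).normalizerMonoidHom.range ψ ψ'} := by
          ext ψ'
          exact nrel_iff (P : Subgroup G) hab ψ ψ'
        rw [h1, rel_sum hfree hψ (fun ψ' => ((ψ' y : ℂˣ) : ℂ))]
        rfl
      have hppτ : IsPPart 2 t t := ⟨1, mul_one _, Commute.one_right _, pow_of_mem hM.1 P htP',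
          by rw [orderOf_one]; exact hM.1.not_dvd_one⟩
      have hu2' : u₂ = a χ₂ := by
        have := (hXv χ₂ hχ₂X).2 t t hppτ htP' ht1
        rw [hu2] at this
        exact_mod_cast this
      have hu3' : u₃ = a χ₃ := by
        have := (hXv χ₃ hχ₃X).2 t t hppτ htP' ht1
        rw [hu3] at this
        exact_mod_cast this
      obtain ⟨ψ₀, hψ₀, hψ₀3⟩ := exists_three hfree hH hq4 hττ hτ1
      have hη₀Y := hζ ψ₀ hψ₀
      have hη₀t : (ζ ψ₀).1 t = ((3 * δ : ℤ) : ℂ) := by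
        have := hSv ψ₀ hψ₀ τ hτ1
        rw [hψ₀3] at this
        rw [← show (τ : G) = t from rfl, this]
        push_cast
        ring
      refine ⟨ζ ψ₀, hη₀Y, 3 * δ, inv_lt htt hgen (hneY _ hη₀Y) hη₀t, ?_, hcast _ _ ?_⟩
      · have e2 : a χ₂ * a χ₂ = 1 := by rcases (hXv χ₂ hχ₂X).1 with h | h <;> rw [h] <;> rfl
        have e3 : a χ₃ * a χ₃ = 1 := by rcases (hXv χ₃ hχ₃X).1 with h | h <;> rw [h] <;> rfl
        rw [hu2', hu3']
        linear_combination e2 + e3 - 3 * hδ2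
      · obtain ⟨z, hz1, hz⟩ := exists_outside hH hq4 τ
        have hzP : (z : G) ∈ (P : Subgroup G) := z.2
        have hz1' : (z : G) ≠ 1 := fun h => hz1 (Subtype.ext h)
        obtain ⟨hr1, hrP⟩ := cent_rank hM P hab hzP (hfrob z hzP hz1')
        have hS := S_zero hM htt (pow_of_mem hM.1 P hzP) hr1 (by
          intro c hc hcp x y hx hy hxy
          obtain ⟨v, v', hv, hv', hcv, hcv', hvv⟩ := no_pair hM P hab hH htt hzP hr1 hrP hc hcp hx hy
            hxy ⟨rfl, htP'⟩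
          obtain ⟨n, hn, hnv⟩ := sylow_fusion P hab htP' hv hcv
          obtain ⟨n', hn', hnv'⟩ := sylow_fusion P hab htP' hv' hcv'
          have e1 : ((⟨(P : Subgroup G).normalizerMonoidHom ⟨n, hn⟩, ⟨_, rfl⟩⟩ :
            (P : Subgroup G).normalizerMonoidHom.range) : MulAut (P : Subgroup G)) τ = ⟨v, hv⟩ :=
            Subtype.ext hnv
          have e2 : ((⟨(P : Subgroup G).normalizerMonoidHom ⟨n', hn'⟩, ⟨_, rfl⟩⟩ :
            (P : Subgroup G).normalizerMonoidHom.range) : MulAut (P : Subgroup G)) τ = ⟨v', hv'⟩ :=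
            Subtype.ext hnv'
          have e3 := orbit_mul hfree hH hττ ⟨(P : Subgroup G).normalizerMonoidHom ⟨n, hn⟩, ⟨_, rfl⟩⟩
            ⟨(P : Subgroup G).normalizerMonoidHom ⟨n', hn'⟩, ⟨_, rfl⟩⟩
          rw [e1, e2] at e3
          have e4 : (⟨v, hv⟩ * ⟨v', hv'⟩ : (P : Subgroup G)) = z := Subtype.ext hvv
          rw [e4] at e3
          rcases e3 with e3 | ⟨g, hg⟩
          · exact hz1 e3
          · exact hz g hg)
        -- split the sum
        have hsplit : ∑ χ ∈ Finset.univ.filter (· ∈ principalBlock M G),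
            χ.1 (z : G) * (χ.1 t ^ 2 / χ.1 1) =
            ∑ᶠ χ ∈ X, χ.1 (z : G) * (χ.1 t ^ 2 / χ.1 1) +
            ∑ᶠ χ ∈ Y, χ.1 (z : G) * (χ.1 t ^ 2 / χ.1 1) := by
          rw [← finsum_blk (principalBlock M G), hXY]
          exact finsum_mem_union hdis (Set.toFinite _) (Set.toFinite _)
        rw [hsplit, finsum_three hX h12 h13 h23] at hS
        have hppz : IsPPart 2 (z : G) (z : G) := ⟨1, mul_one _, Commute.one_right _,
          pow_of_mem hM.1 P hzP, by rw [orderOf_one]; exact hM.1.not_dvd_one⟩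
        rw [(hXv χ₂ hχ₂X).2 _ _ hppz hzP hz1', (hXv χ₃ hχ₃X).2 _ _ hppz hzP hz1'] at hS
        have e0 : (triv G).1 (z : G) * ((triv G).1 t ^ 2 / (triv G).1 1) = 1 := by
          change (1 : ℂ) * ((1 : ℂ) ^ 2 / 1) = 1
          norm_num
        rw [e0, hu2, hu3, irr_one_eq, irr_one_eq] at hS
        -- the sum over the exceptional characters
        have hYs : ∑ᶠ χ ∈ Y, χ.1 (z : G) * (χ.1 t ^ 2 / χ.1 1) =
            -9 * δ / (charDegree (ζ ψ₀).1 : ℂ) := by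
          have f1 : ∑ ψ ∈ (Finset.univ : Finset ((P : Subgroup G) →* ℂˣ)).erase 1,
              (ζ ψ).1 (z : G) * ((ζ ψ).1 t ^ 2 / (ζ ψ).1 1) =
              3 * ∑ᶠ χ ∈ Y, χ.1 (z : G) * (χ.1 t ^ 2 / χ.1 1) := by
            rw [finsum_blk Y, ← Finset.sum_fiberwise_of_maps_to
              (s := (Finset.univ : Finset ((P : Subgroup G) →* ℂˣ)).erase 1)
              (t := Finset.univ.filter (· ∈ Y)) (g := ζ)
              (fun ψ hψ => Finset.mem_filter.2 ⟨Finset.mem_univ _, hζ ψ (Finset.ne_of_mem_erase hψ)⟩),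
              Finset.mul_sum]
            refine Finset.sum_congr rfl (fun η hηm => ?_)
            obtain ⟨ψ₁, hψ₁, rfl⟩ := hη η (Finset.mem_filter.1 hηm).2
            have f2 : ∀ ψ ∈ ((Finset.univ : Finset ((P : Subgroup G) →* ℂˣ)).erase 1).filter
                (fun ψ => ζ ψ = ζ ψ₁), (ζ ψ).1 (z : G) * ((ζ ψ).1 t ^ 2 / (ζ ψ).1 1) =
                (ζ ψ₁).1 (z : G) * ((ζ ψ₁).1 t ^ 2 / (ζ ψ₁).1 1) := by
              intro ψ hψ
              rw [(Finset.mem_filter.1 hψ).2]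
            rw [Finset.sum_congr rfl f2, Finset.sum_const, nsmul_eq_mul]
            congr 1
            have f3 := rel_sum hfree hψ₁ (fun _ => (1 : ℂ))
            rw [Finset.sum_const, Finset.card_univ, nsmul_eq_mul, mul_one,
              ← Nat.card_eq_fintype_card, hH] at f3
            have f4 : ∑ᶠ ψ' ∈ {ψ' : (P : Subgroup G) →* ℂˣ |
                Rel (P : Subgroup G).normalizerMonoidHom.range ψ₁ ψ'}, (1 : ℂ) =
                ∑ ψ' ∈ ((Finset.univ : Finset ((P : Subgroup G) →* ℂˣ)).erase 1).filter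
                (fun ψ => ζ ψ = ζ ψ₁), (1 : ℂ) := by
              rw [← finsum_mem_coe_finset]
              congr 1
              ext ψ'
              refine finsum_congr_Prop ?_ (fun _ => rfl)
              simp only [Set.mem_ofPred_eq, Finset.coe_filter, Finset.mem_erase, Finset.mem_univ,
                and_true, eq_iff_iff]
              constructor
              · intro h
                have h' : ψ' ≠ 1 := Rel.ne_one h.symm hψ₁
                exact ⟨h', ((hinj ψ₁ ψ' hψ₁ h').2 ((nrel_iff (P : Subgroup G) hab ψ₁ ψ').2 h)).symm⟩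
              · rintro ⟨h', h''⟩
                exact (nrel_iff (P : Subgroup G) hab ψ₁ ψ').1 ((hinj ψ₁ ψ' hψ₁ h').1 h''.symm)
            rw [f4, Finset.sum_const, nsmul_eq_mul, mul_one] at f3
            rw [f3]
            norm_num
          have f5 : ∑ ψ ∈ (Finset.univ : Finset ((P : Subgroup G) →* ℂˣ)).erase 1,
              (ζ ψ).1 (z : G) * ((ζ ψ).1 t ^ 2 / (ζ ψ).1 1) =
              (δ : ℂ) / (charDegree (ζ ψ₀).1 : ℂ) * (-27) := by
            rw [← triple_sum hfree hH hττ hz1 hz, Finset.mul_sum]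
            refine Finset.sum_congr rfl (fun ψ hψ => ?_)
            have hψ1 := Finset.ne_of_mem_erase hψ
            rw [hSv ψ hψ1 z hz1, ← show (τ : G) = t from rfl, hSv ψ hψ1 τ hτ1, irr_one_eq,
              hdeg _ (hζ ψ hψ1) _ hη₀Y]
            have hδ3 : (δ : ℂ) * (δ : ℂ) ^ 2 = δ := by linear_combination (δ : ℂ) * hδC
            linear_combination (∑ h : (P : Subgroup G).normalizerMonoidHom.range,
              ((ψ ((h : MulAut (P : Subgroup G)) z) : ℂˣ) : ℂ)) *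
              (∑ h : (P : Subgroup G).normalizerMonoidHom.range,
              ((ψ ((h : MulAut (P : Subgroup G)) τ) : ℂˣ) : ℂ)) ^ 2 /
              (charDegree (ζ ψ₀).1 : ℂ) * hδ3
          rw [f5] at f1
          linear_combination -f1 / 3
        rw [hYs] at hS
        push_cast
        have hδ3 : (δ : ℂ) * (δ : ℂ) ^ 2 = δ := by linear_combination (δ : ℂ) * hδC
        linear_combination hS - 9 / (charDegree (ζ ψ₀).1 : ℂ) * hδ3
    · -- `p` odd
      have htp : ¬ p ∣ orderOf t := by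
        rw [ht2]
        intro h
        exact hp2 ((Nat.prime_dvd_prime_iff_eq hM.1 Nat.prime_two).1 h)
      haveI : Nontrivial (P : Subgroup G) := Finite.one_lt_card_iff_nontrivial.1 (by
        have : 3 + 1 < Nat.card (P : Subgroup G) := hm2
        omega)
      have hψ : ∃ ψ : (P : Subgroup G) →* ℂˣ, ψ ≠ 1 := by
        letI := cg (P : Subgroup G) hab
        obtain ⟨x, hx⟩ := exists_ne (1 : (P : Subgroup G))
        obtain ⟨φ, hφ⟩ := CommGroup.exists_apply_ne_one_of_hasEnoughRootsOfUnity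
          (P : Subgroup G) ℂ hx
        refine ⟨φ, fun h => hφ ?_⟩
        rw [h]
        rfl
      obtain ⟨ψ₀, hψ₀⟩ := hψ
      have hη₀Y := hζ ψ₀ hψ₀
      obtain ⟨w, hw, -⟩ := inv_int htt (ζ ψ₀)
      refine ⟨ζ ψ₀, hη₀Y, w, inv_lt htt hgen (hneY _ hη₀Y) hw, ?_, hcast _ _ ?_⟩
      · have h1 := hrel (fun χ => χ.1 t) (fun u hu hu1 => by
          rw [finsum_blk]
          exact pr_orth hM P hu hu1 htp) _ hη₀Y
        rw [finsum_three hX h12 h13 h23, hat, hw, hu2, hu3] at h1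
        have e : (triv G).1 t = 1 := rfl
        rw [e] at h1
        have h2 : ((1 + a χ₂ * u₂ + a χ₃ * u₃ + (-δ) * w : ℤ) : ℂ) = 0 := by
          push_cast at h1 ⊢
          linear_combination -h1
        exact_mod_cast h2
      · have h1 := hrel (fun χ => χ.1 t ^ 2 / χ.1 1) (fun u hu hu1 => by
          rw [finsum_blk]
          refine S_zero hM htt (pow_of_mem hM.1 P hu) (cent_rank hM P hab hu (hfrob u hu hu1)).1 ?_
          intro c hc hcp x y hx hy hxy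
          obtain ⟨g, rfl⟩ := isConj_iff.1 hx
          obtain ⟨g', rfl⟩ := isConj_iff.1 hy
          have hxx : (g * t * g⁻¹) * (g * t * g⁻¹) = 1 := by
            calc (g * t * g⁻¹) * (g * t * g⁻¹) = g * (t * t) * g⁻¹ := by group
              _ = 1 := by rw [htt]; group
          have hyy : (g' * t * g'⁻¹) * (g' * t * g'⁻¹) = 1 := by
            calc (g' * t * g'⁻¹) * (g' * t * g'⁻¹) = g' * (t * t) * g'⁻¹ := by group
              _ = 1 := by rw [htt]; group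
          generalize g * t * g⁻¹ = x at *
          generalize g' * t * g'⁻¹ = y at *
          have hxi : x⁻¹ = x := inv_eq_of_mul_eq_one_left hxx
          have hyi : y⁻¹ = y := inv_eq_of_mul_eq_one_left hyy
          have hinv : x * (u * c) * x⁻¹ = (u * c)⁻¹ := by
            rw [← hxy, mul_inv_rev, hxi, hyi]
            calc x * (x * y) * x = (x * x) * y * x := by group
              _ = y * x := by rw [hxx, one_mul]
          have hpz : pp p (u * c) = u := by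
            symm
            exact eq_pp_of_isPPart hM.1 ⟨c, rfl, hc, pow_of_mem hM.1 P hu, hcp⟩
          have hinvz : x * u * x⁻¹ = u⁻¹ := by
            have := pp_conj p (u * c) x
            rw [hinv, pp_inv hM.1, hpz] at this
            exact this.symm
          have hzz := sq_of_inverted P hab hH hu hinvz
          obtain ⟨k, hk⟩ := pow_of_mem hM.1 P hu
          have h5 : orderOf u ∣ 2 := orderOf_dvd_of_pow_eq_one (by rw [sq]; exact hzz)
          rw [hk] at h5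
          have h6 : k = 0 := by
            by_contra hk0
            have : p ∣ 2 := (dvd_pow_self p hk0).trans h5
            exact hp2 ((Nat.prime_dvd_prime_iff_eq hM.1 Nat.prime_two).1 this)
          rw [h6, pow_zero, orderOf_eq_one_iff] at hk
          exact hu1 hk) _ hη₀Y
        have e : (triv G).1 t ^ 2 / (triv G).1 1 = 1 := by
          change (1 : ℂ) ^ 2 / 1 = 1
          norm_num
        rw [finsum_three hX h12 h13 h23, hat, e, hw, hu2, hu3, irr_one_eq, irr_one_eq,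
          irr_one_eq] at h1
        push_cast at h1
        linear_combination -h1
  obtain ⟨η₀, hη₀Y, w, hw, hD2, hD3⟩ := hkey
  have hz : (0 : ℤ) < charDegree η₀.1 := by exact_mod_cast charDegree_pos η₀.2
  have hγ : -δ = 1 ∨ -δ = -1 := by rcases hδ with h | h <;> rw [h] <;> simp
  obtain ⟨r1, r2, r3⟩ := three_weights hx2 hx3 hz (hXv χ₂ hχ₂X).1 (hXv χ₃ hχ₃X).1 hγ hlt2 hlt3 hw
    (hd1 η₀ hη₀Y) hD2 hD3
  refine ⟨r1, r2, fun η hη' => ?_⟩
  rw [hdeg η hη' η₀ hη₀Y]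
  exact r3

end Inv

end Cfsg.Agent.Lib.BlkH6S
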