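import Cfsg.Agent.Lib.BlockRey
import Cfsg.Agent.Lib.BlockKB
import Cfsg.Agent.Lib.BlockLar
import Cfsg.Agent.Lib.BlockMaxB
import Cfsg.Agent.Lib.BlockIndIn
import Cfsg.Agent.Lib.BlockBFM

import Cfsg.Agent.Lib.BlkH8A
import Cfsg.Agent.Lib.Coprime
import Cfsg.Agent.Lib.Nilp

/-!
Blocks of G / D' for a normal p-subgroup D.
-/

set_option autoImplicit false
set_option linter.style.haveILetI false
set_option linter.unusedVariables false
set_option linter.unusedSectionVars false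
set_option linter.unusedDecidableInType false
set_option linter.unusedFintypeInType false
set_option linter.unusedSimpArgs false

namespace Cfsg.Agent.Lib.BlkH8M
open Cfsg Cfsg.Agent.Lib.BlockLoc Cfsg.Agent.Lib.BlockGA Cfsg.Agent.Lib.CharBasic
open Cfsg.Agent.Lib.BlockIdem Cfsg.Agent.Lib.BlockPP Cfsg.Agent.Lib.BlockOrth
open Cfsg.Agent.Lib.BlockRed Cfsg.Agent.Lib.BlockDef Cfsg.Agent.Lib.BlockDeg
open Cfsg.Agent.Lib.BlockNP Cfsg.Agent.Lib.BlockInd Cfsg.Agent.Lib.BlockSecond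
open Cfsg.Agent.Lib.BlockFirst Cfsg.Agent.Lib.BlockHt Cfsg.Agent.Lib.BlockM
open Cfsg.Agent.Lib.BlockCov Cfsg.Agent.Lib.BlockQuot Cfsg.Agent.Lib.CharKer
open Cfsg.Agent.Lib.BlockQuotB Cfsg.Agent.Lib.BlockMore Cfsg.Agent.Lib.BlockMoreB
open Cfsg.Agent.Lib.BlockTr Cfsg.Agent.Lib.CharNormal Cfsg.Agent.Lib.BlockCovB
open Cfsg.Agent.Lib.BlockBP Cfsg.Agent.Lib.BlockInt Cfsg.Agent.Lib.BlockSum Cfsg.Agent.Lib.BlockRk
open Cfsg.Agent.Lib.BlockFusB Cfsg.Agent.Lib.BlockMax Cfsg.Agent.Lib.CharSplit Cfsg.Agent.Lib.CharBrauer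
open Cfsg.Agent.Lib.CharInd Cfsg.Agent.Lib.BlockPC Cfsg.Agent.Lib.BlockPair Cfsg.Agent.Lib.BlockPairB
open Cfsg.Agent.Lib.BlockPairC Cfsg.Agent.Lib.BlockPairD Cfsg.Agent.Lib.BlockPairE
open Cfsg.Agent.Lib.BlockRey Cfsg.Agent.Lib.BlockPairF Cfsg.Agent.Lib.BlockFus Cfsg.Agent.Lib.BlockNilB Cfsg.Agent.Lib.BlockNil Cfsg.Agent.Lib.CharClifford
open Cfsg.Agent.Lib.BlockKB Cfsg.Agent.Lib.BlockLar Cfsg.Agent.Lib.BlockMaxB Cfsg.Agent.Lib.BlockIndIn Cfsg.Agent.Lib.BlockBFM
open Cfsg.Agent.Lib.BlkH8A Cfsg.Agent.Lib.Coprime Cfsg.Agent.Lib.Nilp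
open scoped ComplexConjugate

open Cfsg.Agent.Lib.BlkH8A

section Der

variable {G H : Type*} [Group G] [Group H] [Finite G] [Finite H] {p : ℕ} {M : Ideal AlgInt}

theorem commute_of_der [Fact p.Prime] {D : Subgroup G} [D.Normal] (hD : IsPGroup p D) {g : G}
    (hg : ¬ p ∣ orderOf g) (h : ∀ k ∈ D, g * k * g⁻¹ * k⁻¹ ∈ ⁅D, D⁆) :
    ∀ k ∈ D, Commute k g := by
  have hder : ⁅D, D⁆ ≤ (frattini D).map D.subtype := by
    have h1 := Subgroup.map_mono (f := D.subtype) (Cfsg.Agent.Lib.Nilp.commutator_le_frattini hD)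
    rwa [commutator_def, Subgroup.map_commutator, ← MonoidHom.range_eq_map, Subgroup.range_subtype] at h1
  haveI : (⁅D, D⁆ : Subgroup G).Normal := inferInstance
  -- the set of elements acting trivially on `D / D'` is closed
  have hA : ∀ a ∈ Subgroup.zpowers g, ∀ k ∈ D, a * k * a⁻¹ * k⁻¹ ∈ (frattini D).map D.subtype := by
    intro a ha k hk
    refine hder ?_
    have h2 : ∀ k ∈ D, (QuotientGroup.mk (g * k * g⁻¹) : G ⧸ ⁅D, D⁆) = QuotientGroup.mk k := by
      intro k hk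
      have := h k hk
      rw [← div_eq_mul_inv, ← QuotientGroup.eq_iff_div_mem] at this
      exact this
    have h3 : Subgroup.zpowers (QuotientGroup.mk g : G ⧸ ⁅D, D⁆) ≤
        Subgroup.centralizer ({(QuotientGroup.mk k : G ⧸ ⁅D, D⁆)} : Set (G ⧸ ⁅D, D⁆)) := by
      rw [Subgroup.zpowers_le, Subgroup.mem_centralizer_iff]
      intro x hx
      rw [Set.mem_singleton_iff] at hx
      subst hx
      have h4 := h2 k hk
      rw [QuotientGroup.mk_mul, QuotientGroup.mk_mul, QuotientGroup.mk_inv, mul_inv_eq_iff_eq_mul] at h4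
      exact h4.symm
    obtain ⟨n, rfl⟩ := ha
    have h5 : (QuotientGroup.mk g : G ⧸ ⁅D, D⁆) ^ n ∈
        Subgroup.centralizer ({(QuotientGroup.mk k : G ⧸ ⁅D, D⁆)} : Set (G ⧸ ⁅D, D⁆)) :=
      h3 (Subgroup.zpow_mem _ (Subgroup.mem_zpowers _) n)
    rw [Subgroup.mem_centralizer_iff] at h5
    have h6 := h5 _ rfl
    rw [← div_eq_mul_inv, ← QuotientGroup.eq_iff_div_mem]
    change (QuotientGroup.mk (g ^ n * k * (g ^ n)⁻¹) : G ⧸ ⁅D, D⁆) = QuotientGroup.mk k
    rw [QuotientGroup.mk_mul, QuotientGroup.mk_mul, QuotientGroup.mk_inv, QuotientGroup.mk_zpow,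
      mul_inv_eq_iff_eq_mul]
    exact h6.symm
  have hcop : (Nat.card (Subgroup.zpowers g)).Coprime (Nat.card (frattini D)) := by
    rw [Nat.card_zpowers]
    obtain ⟨n, hn⟩ := IsPGroup.iff_card.1 hD
    have h1 : Nat.card (frattini D) ∣ p ^ n := hn ▸ Subgroup.card_subgroup_dvd_card _
    exact Nat.Coprime.coprime_dvd_right h1
      (Nat.Coprime.pow_right n ((Nat.Prime.coprime_iff_not_dvd Fact.out).2 hg).symm)
  have hfin := Cfsg.Agent.Lib.Coprime.le_centralizer_of_frattini (A := Subgroup.zpowers g) (K := D)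
    (by rw [Subgroup.normalizer_eq_top]; exact le_top) hcop hA
  intro k hk
  exact Subgroup.mem_centralizer_iff.1 (hfin (Subgroup.mem_zpowers g)) k hk

/-- Inflation from `G / D'` reflects blocks when `D` is a normal `p`-subgroup. -/
theorem sameBlock_of_infl_der (hM : IsPModular p M) (f : G →* H) (hf : Function.Surjective f)
    {D : Subgroup G} [D.Normal] (hD : IsPGroup p D) (hker : f.ker = ⁅D, D⁆)
    {χ ψ : IrrCharacter H} (h : SameBlock M (inflI f hf χ).1 (inflI f hf ψ).1) :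
    SameBlock M χ.1 ψ.1 := by
  classical
  haveI := factP hM
  have hB := isPBlock_blockOf M χ
  have hl := isLoc_eB hM hB
  have hle : f.ker ≤ D := by rw [hker]; exact Subgroup.commutator_le_left D D
  have hkp : IsPGroup p f.ker := hD.to_le hle
  haveI hDn : (D.map f).Normal := Subgroup.Normal.map inferInstance f hf
  have hDp : IsPGroup p (D.map f) := hD.map f
  -- `lam χ` and `lam ψ` agree on classes of regular elements
  have hreg : ∀ h0 : H, ¬ p ∣ orderOf h0 →
      lam hM χ.1 (cs (ResF hM) h0) = lam hM ψ.1 (cs (ResF hM) h0) := by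
    intro h0 hh0
    by_cases hcase : ∀ n ∈ D.map f, Commute n h0
    swap
    · have e1 : lam hM χ.1 (cs (ResF hM) h0) = 0 := by
        by_contra hne
        exact hcase (commute_of_lam_ne_zero hM hDp hne)
      have e2 : lam hM ψ.1 (cs (ResF hM) h0) = 0 := by
        by_contra hne
        exact hcase (commute_of_lam_ne_zero hM hDp hne)
      rw [e1, e2]
    obtain ⟨g0, hg0⟩ := hf h0
    set g := pq p g0 with hgdef
    have hg : f g = h0 := by
      have h1 : pp p (f g0) = f (pp p g0) := pp_map hM.1 f g0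
      rw [hg0, (pp_eq_one_iff hM.1 h0).2 hh0] at h1
      have h2 := pp_mul_pq p g0
      have h3 := congrArg f h2
      rw [map_mul, ← h1, one_mul, hg0] at h3
      exact h3
    have hgr : ¬ p ∣ orderOf g := not_dvd_orderOf_pq hM.1 g0
    have hgc : ∀ n ∈ f.ker, Commute n g := by
      intro n hn
      refine commute_of_der hD hgr (fun k hk => ?_) n (hle hn)
      rw [← hker, MonoidHom.mem_ker]
      have := hcase (f k) (Subgroup.mem_map_of_mem f hk)
      rw [map_mul, map_mul, map_mul, map_inv, map_inv, hg, ← this.eq]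
      group
    rw [← hg, ← mapGA_cs (k := ResF hM) f hf hkp hgr hgc, ← lam_comp hM f hf χ (cs_isCl g),
      ← lam_comp hM f hf ψ (cs_isCl g)]
    exact lam_eq_of_sameBlock hM (inflI f hf χ).2 (inflI f hf ψ).2 h (cs_isCl g)
  -- hence they agree on the block idempotent
  have h1 : lam hM ψ.1 (eF hM (blockOf M χ.1)) = lam hM χ.1 (eF hM (blockOf M χ.1)) := by
    haveI : Fintype (ConjClasses H) := Fintype.ofFinite _
    have e := eq_sum_cs (eF_isCl hM (blockOf M χ.1))
    have h2 := lam_sum hM χ.2 (Finset.univ : Finset (ConjClasses H))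
      (fun C => (eF hM (blockOf M χ.1)) (Quotient.out C) • cs (ResF hM) (Quotient.out C))
      (fun C _ => (cs_isCl _).smul _)
    have h3 := lam_sum hM ψ.2 (Finset.univ : Finset (ConjClasses H))
      (fun C => (eF hM (blockOf M χ.1)) (Quotient.out C) • cs (ResF hM) (Quotient.out C))
      (fun C _ => (cs_isCl _).smul _)
    have h4 := (congrArg (lam hM χ.1) e).trans h2
    have h5 := (congrArg (lam hM ψ.1) e).trans h3
    rw [h4, h5]
    refine Finset.sum_congr rfl fun C _ => ?_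
    rw [lam_smul hM χ.2 _ (cs_isCl _), lam_smul hM ψ.2 _ (cs_isCl _)]
    by_cases h6 : (eF hM (blockOf M χ.1)) (Quotient.out C) = 0
    · rw [h6, zero_mul, zero_mul]
    · rw [hreg _ (not_dvd_orderOf_of_eF hM hl h6)]
  rw [lam_eF_mem hM hl (self_mem_blockOf hM χ)] at h1
  by_contra hne
  have h2 : ψ ∉ blockOf M χ.1 := hne
  rw [lam_eF_not_mem hM hl h2] at h1
  exact zero_ne_one h1

end Der

end Cfsg.Agent.Lib.BlkH8M
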