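import Cfsg.Agent.Lib.BlockRey
import Cfsg.Agent.Lib.BlockKB
import Cfsg.Agent.Lib.BlockLar
import Cfsg.Agent.Lib.BlockMaxB
import Cfsg.Agent.Lib.BlockIndIn
import Cfsg.Agent.Lib.BlockBFM

import Cfsg.Agent.Lib.BlkH8A
import Cfsg.Agent.Lib.BlkH8F
import Cfsg.Agent.Lib.BlkH5C
import Cfsg.Agent.Lib.PSol
import Cfsg.Agent.Lib.PSolB
import Cfsg.Agent.Lib.Cores
import Cfsg.Agent.Lib.HallHigman
import Cfsg.Agent.Lib.BlkH8O

/-!
Norm square sums over principal blocks.
-/

set_option autoImplicit false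
set_option linter.style.haveILetI false
set_option linter.unusedVariables false
set_option linter.unusedSectionVars false
set_option linter.unusedDecidableInType false
set_option linter.unusedFintypeInType false
set_option linter.unusedSimpArgs false

namespace Cfsg.Agent.Lib.BlkH8P
open Cfsg Cfsg.Agent.Lib.BlockLoc Cfsg.Agent.Lib.BlockGA Cfsg.Agent.Lib.CharBasic
open Cfsg.Agent.Lib.BlockIdem Cfsg.Agent.Lib.BlockPP Cfsg.Agent.Lib.BlockOrth
open Cfsg.Agent.Lib.BlockRed Cfsg.Agent.Lib.BlockDef Cfsg.Agent.Lib.BlockDeg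
open Cfsg.Agent.Lib.BlockNP Cfsg.Agent.Lib.BlockInd Cfsg.Agent.Lib.BlockSecond
open Cfsg.Agent.Lib.BlockFirst Cfsg.Agent.Lib.BlockHt Cfsg.Agent.Lib.BlockM
open Cfsg.Agent.Lib.BlockCov Cfsg.Agent.Lib.BlockQuot Cfsg.Agent.Lib.CharKer
open Cfsg.Agent.Lib.BlockQuotB Cfsg.Agent.Lib.BlockMore Cfsg.Agent.Lib.BlockMoreB
open Cfsg.Agent.Lib.BlockTr Cfsg.Agent.Lib.CharNormal Cfsg.Agent.Lib.BlockCovB
open Cfsg.Agent.Lib.BlockBP Cfsg.Agent.Lib.BlockInt Cfsg.Agent.Lib.BlockSum Cfsg.Agent.Lib.BlockRk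
open Cfsg.Agent.Lib.BlockFusB Cfsg.Agent.Lib.BlockMax Cfsg.Agent.Lib.CharSplit Cfsg.Agent.Lib.CharBrauer
open Cfsg.Agent.Lib.CharInd Cfsg.Agent.Lib.BlockPC Cfsg.Agent.Lib.BlockPair Cfsg.Agent.Lib.BlockPairB
open Cfsg.Agent.Lib.BlockPairC Cfsg.Agent.Lib.BlockPairD Cfsg.Agent.Lib.BlockPairE
open Cfsg.Agent.Lib.BlockRey Cfsg.Agent.Lib.BlockPairF Cfsg.Agent.Lib.BlockFus Cfsg.Agent.Lib.BlockNilB Cfsg.Agent.Lib.BlockNil Cfsg.Agent.Lib.CharClifford
open Cfsg.Agent.Lib.BlockKB Cfsg.Agent.Lib.BlockLar Cfsg.Agent.Lib.BlockMaxB Cfsg.Agent.Lib.BlockIndIn Cfsg.Agent.Lib.BlockBFM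
open Cfsg.Agent.Lib.BlkH8A Cfsg.Agent.Lib.BlkH8F Cfsg.Agent.Lib.BlkH5C Cfsg.Agent.Lib.PSol Cfsg.Agent.Lib.PSolB Cfsg.Agent.Lib.Cores Cfsg.Agent.Lib.HallHigman Cfsg.Agent.Lib.BlkH8O
open scoped ComplexConjugate

open Cfsg.Agent.Lib.BlkH8A Cfsg.Agent.Lib.BlkH8F Cfsg.Agent.Lib.BlkH5C Cfsg.Agent.Lib.BlkH8O

section Lam

variable {G : Type*} [Group G] [Finite G] {p : ℕ} {M : Ideal AlgInt}

theorem exists_pow_inv {k : ℕ} (hk : Nat.Coprime k (Nat.card G)) : ∃ m : ℕ, ∀ g : G, (g ^ k) ^ m = g := by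
  have hpos : 0 < Nat.card G := Nat.card_pos
  refine ⟨k ^ (Nat.totient (Nat.card G) - 1), fun g => ?_⟩
  have h1 : k ^ Nat.totient (Nat.card G) ≡ 1 [MOD Nat.card G] := Nat.ModEq.pow_totient hk
  have h2 : k * k ^ (Nat.totient (Nat.card G) - 1) = k ^ Nat.totient (Nat.card G) := by
    rw [← pow_succ', Nat.sub_add_cancel (Nat.totient_pos.2 hpos)]
  rw [← pow_mul, h2]
  have h3 : g ^ (k ^ Nat.totient (Nat.card G)) = g ^ 1 :=
    pow_eq_pow_iff_modEq.2 (h1.of_dvd (orderOf_dvd_natCard g))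
  rw [h3, pow_one]

theorem powI_principal (hM : IsPModular p M) {k : ℕ} (hk : Nat.Coprime k (Nat.card G))
    {χ : IrrCharacter G} (hχ : χ ∈ principalBlock M G) : powI hk χ ∈ principalBlock M G := by
  obtain ⟨m, hm⟩ := exists_pow_inv hk
  intro g
  have h := hχ (g ^ k)
  have h1 : Subgroup.centralizer ({g ^ k} : Set G) = Subgroup.centralizer ({g} : Set G) := by
    apply le_antisymm
    · intro x hx
      rw [Subgroup.mem_centralizer_iff] at hx ⊢
      intro y hy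
      rw [Set.mem_singleton_iff] at hy
      subst hy
      have h2 : Commute (y ^ k) x := hx _ rfl
      have h3 := h2.pow_left m
      rw [hm] at h3
      exact h3
    · intro x hx
      rw [Subgroup.mem_centralizer_iff] at hx ⊢
      intro y hy
      rw [Set.mem_singleton_iff] at hy
      subst hy
      have h2 : Commute g x := hx _ rfl
      exact h2.pow_left k
  have h2 : centralChar (fun _ : G => (1 : ℂ)) (g ^ k) = centralChar (fun _ : G => (1 : ℂ)) g := by
    simp only [centralChar, h1]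
  have h3 : centralChar χ.1 (g ^ k) = centralChar (powI hk χ).1 g := by
    simp only [centralChar, h1, powI_apply, one_pow]
  rw [h2, h3] at h
  exact h

theorem powI_injective {k : ℕ} (hk : Nat.Coprime k (Nat.card G)) :
    Function.Injective (powI (G := G) hk) := by
  obtain ⟨m, hm⟩ := exists_pow_inv hk
  intro χ ψ h
  apply Subtype.ext
  funext g
  have h1 := congrArg (fun θ : IrrCharacter G => θ.1 (g ^ m)) h
  simp only [powI_apply] at h1
  rw [← pow_mul, mul_comm, pow_mul, hm] at h1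
  exact h1

/-- The norm square sum of the principal block is an integer. -/
theorem lam_int (hM : IsPModular p M) (x : G) [DecidablePred (· ∈ principalBlock M G)] :
    ∃ n : ℤ, ∑ χ ∈ Finset.univ.filter (· ∈ principalBlock M G), χ.1 x * conj (χ.1 x) = n := by
  classical
  refine Cfsg.Agent.Lib.CharGal.isInt_of_fixed _ ?_ fun σ => ?_
  · refine IsIntegral.sum _ fun χ _ => ?_
    rw [conj_irr]
    exact (char_isIntegral (isChar_of_irr χ.2) x).mul (char_isIntegral (isChar_of_irr χ.2) x⁻¹)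
  · obtain ⟨k, hk, hσ⟩ := Cfsg.Agent.Lib.CharGal.exists_pow_of_aut (Nat.card G) Nat.card_pos.ne' σ
    have hval : ∀ (χ : IrrCharacter G) (g : G), σ (χ.1 g) = χ.1 (g ^ k) := by
      intro χ g
      refine Cfsg.Agent.Lib.CharGal.galois_pow σ k (isChar_of_irr χ.2) g fun z hz => hσ z ?_
      obtain ⟨c, hc⟩ := orderOf_dvd_natCard g
      rw [hc, pow_mul, hz, one_pow]
    rw [map_sum]
    have hs : ∀ χ ∈ Finset.univ.filter (· ∈ principalBlock M G), σ (χ.1 x * conj (χ.1 x)) =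
        (powI hk χ).1 x * conj ((powI hk χ).1 x) := by
      intro χ _
      rw [map_mul, conj_irr, hval, hval, conj_irr, powI_apply, powI_apply]
    rw [Finset.sum_congr rfl hs]
    have hmap : ∀ χ ∈ Finset.univ.filter (· ∈ principalBlock M G),
        powI hk χ ∈ Finset.univ.filter (· ∈ principalBlock M G) := by
      intro χ hχ
      rw [Finset.mem_filter] at hχ ⊢
      exact ⟨Finset.mem_univ _, powI_principal hM hk hχ.2⟩
    have hinj : Set.InjOn (powI hk) (Finset.univ.filter (· ∈ principalBlock M G) : Finset (IrrCharacter G)) :=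
      (powI_injective hk).injOn
    refine Finset.sum_nbij (powI hk) hmap hinj ?_ fun _ _ => rfl
    exact Finset.surjOn_of_injOn_of_card_le _ (fun χ hχ => hmap χ hχ) hinj le_rfl

end Lam

end Cfsg.Agent.Lib.BlkH8P
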