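import Mathlib
import Cfsg.Agent.Lib.Symp4

/-! The Borel subgroup of the symplectic group. -/

set_option linter.all false
set_option maxHeartbeats 1000000

namespace Cfsg.Agent.Lib.Bo

open Matrix Cfsg.Agent.Lib.Symp

variable {F : Type*} [Field F] {m : ℕ}

/-- upper triangular invertible matrices -/
abbrev UT (m : ℕ) (F : Type*) [Field F] := {A : Matrix (Fin m) (Fin m) F // A.det ≠ 0 ∧ ∀ i j : Fin m, j < i → A i j = 0}

theorem card_pairs : Nat.card {p : Fin m × Fin m // p.1 < p.2} = ∑ i ∈ Finset.range m, i := by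
  have e : {p : Fin m × Fin m // p.1 < p.2} ≃ Σ j : Fin m, Fin j.val :=
    { toFun := fun p => ⟨p.1.2, ⟨p.1.1.val, p.2⟩⟩
      invFun := fun x => ⟨(⟨x.2.val, x.2.2.trans x.1.2⟩, x.1), x.2.2⟩
      left_inv := fun p => rfl
      right_inv := fun x => rfl }
  rw [Nat.card_congr e, Nat.card_sigma, ← Fin.sum_univ_eq_sum_range]
  exact Finset.sum_congr rfl (fun j _ => by rw [Nat.card_eq_fintype_card, Fintype.card_fin])

/-- upper triangular matrix with given entries -/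
def mk (d : Fin m → Fˣ) (u : {p : Fin m × Fin m // p.1 < p.2} → F) : Matrix (Fin m) (Fin m) F :=
  Matrix.of (fun i j => if h : i < j then u ⟨(i, j), h⟩ else if i = j then (d i : F) else 0)

theorem mk_low (d : Fin m → Fˣ) (u : {p : Fin m × Fin m // p.1 < p.2} → F) (i j : Fin m) (h : j < i) : mk d u i j = 0 := by
  rw [mk, Matrix.of_apply, dif_neg (not_lt.mpr h.le), if_neg (ne_of_gt h)]

theorem mk_diag (d : Fin m → Fˣ) (u : {p : Fin m × Fin m // p.1 < p.2} → F) (i : Fin m) : mk d u i i = d i := by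
  rw [mk, Matrix.of_apply, dif_neg (lt_irrefl i), if_pos rfl]

theorem mk_up (d : Fin m → Fˣ) (u : {p : Fin m × Fin m // p.1 < p.2} → F) (i j : Fin m) (h : i < j) : mk d u i j = u ⟨(i, j), h⟩ := by
  rw [mk, Matrix.of_apply, dif_pos h]

theorem det_ut (A : Matrix (Fin m) (Fin m) F) (h : ∀ i j : Fin m, j < i → A i j = 0) : A.det = ∏ i, A i i :=
  Matrix.det_of_upperTriangular (fun i j hij => h i j hij)

theorem card_UT [Fintype F] : Nat.card (UT m F) = (Fintype.card F - 1) ^ m * Fintype.card F ^ (∑ i ∈ Finset.range m, i) := by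
  classical
  let f : (Fin m → Fˣ) × ({p : Fin m × Fin m // p.1 < p.2} → F) → UT m F := fun x => ⟨mk x.1 x.2, by
    rw [det_ut _ (mk_low x.1 x.2)]
    exact Finset.prod_ne_zero_iff.mpr (fun i _ => by rw [mk_diag]; exact (x.1 i).ne_zero), mk_low x.1 x.2⟩
  have hf : Function.Bijective f := by
    constructor
    · rintro ⟨d, u⟩ ⟨d', u'⟩ h
      have h1 : mk d u = mk d' u' := congrArg Subtype.val h
      apply Prod.ext
      · funext i
        apply Units.ext
        have := congrFun (congrFun h1 i) i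
        rwa [mk_diag, mk_diag] at this
      · funext p
        obtain ⟨⟨i, j⟩, hij⟩ := p
        have := congrFun (congrFun h1 i) j
        rwa [mk_up d u i j hij, mk_up d' u' i j hij] at this
    · rintro ⟨A, hA1, hA2⟩
      rw [det_ut A hA2] at hA1
      have hne : ∀ i, A i i ≠ 0 := fun i => Finset.prod_ne_zero_iff.mp hA1 i (Finset.mem_univ i)
      refine ⟨(fun i => Units.mk0 (A i i) (hne i), fun p => A p.1.1 p.1.2), ?_⟩
      apply Subtype.ext
      apply Matrix.ext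
      intro i j
      show mk _ _ i j = A i j
      rcases lt_trichotomy i j with h | h | h
      · rw [mk_up _ _ i j h]
      · subst h; rw [mk_diag]; rfl
      · rw [mk_low _ _ i j h, hA2 i j h]
  rw [← Nat.card_congr (Equiv.ofBijective f hf), Nat.card_prod, Nat.card_fun, Nat.card_fun, card_pairs, Nat.card_units, Nat.card_eq_fintype_card (α := F), Nat.card_eq_fintype_card (α := Fin m), Fintype.card_fin]

/-- symmetric matrices -/
abbrev Sy (m : ℕ) (F : Type*) [Field F] := {S : Matrix (Fin m) (Fin m) F // Sᵀ = S}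

theorem card_Sy [Fintype F] : Nat.card (Sy m F) = Fintype.card F ^ (∑ i ∈ Finset.range (m + 1), i) := by
  classical
  have e : Sy m F ≃ (Sym2 (Fin m) → F) :=
    (Equiv.subtypeEquivRight (fun S => ⟨fun h a b => by
      have := congrFun (congrFun h b) a
      exact this, fun h => by
      apply Matrix.ext
      intro i j
      exact h j i⟩)).trans (Sym2.lift (α := Fin m) (β := F))
  rw [Nat.card_congr e, Nat.card_fun, Nat.card_eq_fintype_card (α := F), Nat.card_eq_fintype_card (α := Sym2 (Fin m)), Sym2.card, Fintype.card_fin, Finset.sum_range_id, Nat.choose_two_right]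

theorem mem_borel_iff [Finite F] (g : Matrix.symplecticGroup (Fin m) F) :
    g ∈ (⨅ k : Fin m, Cfsg.stabilizing (Cfsg.spToMat m F) {v : Fin m ⊕ Fin m → F | (∀ i : Fin m, (k : ℕ) < (i : ℕ) → v (Sum.inl i) = 0) ∧ ∀ i : Fin m, v (Sum.inr i) = 0}) ↔
      (∀ i j : Fin m, (g : Matrix (Fin m ⊕ Fin m) (Fin m ⊕ Fin m) F) (Sum.inr i) (Sum.inl j) = 0) ∧ ∀ i j : Fin m, j < i → (g : Matrix (Fin m ⊕ Fin m) (Fin m ⊕ Fin m) F) (Sum.inl i) (Sum.inl j) = 0 := by
  rw [Subgroup.mem_iInf]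
  constructor
  · intro h
    have h1 : ∀ j : Fin m, (∀ i : Fin m, (j : ℕ) < (i : ℕ) → (g : Matrix (Fin m ⊕ Fin m) (Fin m ⊕ Fin m) F) (Sum.inl i) (Sum.inl j) = 0) ∧ ∀ i : Fin m, (g : Matrix (Fin m ⊕ Fin m) (Fin m ⊕ Fin m) F) (Sum.inr i) (Sum.inl j) = 0 := by
      intro j
      have h2 := (h j (Pi.single (Sum.inl j) 1)).mp (by
        refine ⟨fun i hi => ?_, fun i => ?_⟩
        · rw [Pi.single_eq_of_ne]
          intro h3
          have := Sum.inl_injective h3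
          subst this
          exact lt_irrefl _ hi
        · rw [Pi.single_eq_of_ne]
          exact Sum.inr_ne_inl)
      have h3 : Cfsg.spToMat m F g *ᵥ Pi.single (Sum.inl j) 1 = fun i => (g : Matrix (Fin m ⊕ Fin m) (Fin m ⊕ Fin m) F) i (Sum.inl j) := by
        exact Matrix.mulVec_single_one _ _
      rw [h3] at h2
      exact h2
    exact ⟨fun i j => (h1 j).2 i, fun i j hij => (h1 j).1 i hij⟩
  · rintro ⟨h1, h2⟩ k
    -- forward inclusion
    have hfw : ∀ v : Fin m ⊕ Fin m → F, ((∀ i : Fin m, (k : ℕ) < (i : ℕ) → v (Sum.inl i) = 0) ∧ ∀ i : Fin m, v (Sum.inr i) = 0) →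
        ((∀ i : Fin m, (k : ℕ) < (i : ℕ) → ((g : Matrix (Fin m ⊕ Fin m) (Fin m ⊕ Fin m) F) *ᵥ v) (Sum.inl i) = 0) ∧ ∀ i : Fin m, ((g : Matrix (Fin m ⊕ Fin m) (Fin m ⊕ Fin m) F) *ᵥ v) (Sum.inr i) = 0) := by
      rintro v ⟨hv1, hv2⟩
      refine ⟨fun i hi => ?_, fun i => ?_⟩
      · rw [Matrix.mulVec, dotProduct, Fintype.sum_sum_type]
        have e1 : ∀ j : Fin m, (g : Matrix (Fin m ⊕ Fin m) (Fin m ⊕ Fin m) F) (Sum.inl i) (Sum.inl j) * v (Sum.inl j) = 0 := by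
          intro j
          rcases le_or_gt (j : ℕ) (k : ℕ) with hj | hj
          · rw [h2 i j (lt_of_le_of_lt hj hi), zero_mul]
          · rw [hv1 j hj, mul_zero]
        have e2 : ∀ j : Fin m, (g : Matrix (Fin m ⊕ Fin m) (Fin m ⊕ Fin m) F) (Sum.inl i) (Sum.inr j) * v (Sum.inr j) = 0 := by
          intro j
          rw [hv2 j, mul_zero]
        rw [Finset.sum_eq_zero (fun j _ => e1 j), Finset.sum_eq_zero (fun j _ => e2 j), add_zero]
      · rw [Matrix.mulVec, dotProduct, Fintype.sum_sum_type]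
        have e1 : ∀ j : Fin m, (g : Matrix (Fin m ⊕ Fin m) (Fin m ⊕ Fin m) F) (Sum.inr i) (Sum.inl j) * v (Sum.inl j) = 0 := by
          intro j
          rw [h1 i j, zero_mul]
        have e2 : ∀ j : Fin m, (g : Matrix (Fin m ⊕ Fin m) (Fin m ⊕ Fin m) F) (Sum.inr i) (Sum.inr j) * v (Sum.inr j) = 0 := by
          intro j
          rw [hv2 j, mul_zero]
        rw [Finset.sum_eq_zero (fun j _ => e1 j), Finset.sum_eq_zero (fun j _ => e2 j), add_zero]
    intro v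
    refine ⟨hfw v, fun hv => ?_⟩
    let X := {v : Fin m ⊕ Fin m → F // (∀ i : Fin m, (k : ℕ) < (i : ℕ) → v (Sum.inl i) = 0) ∧ ∀ i : Fin m, v (Sum.inr i) = 0}
    let φ : X → X := fun v => ⟨(g : Matrix (Fin m ⊕ Fin m) (Fin m ⊕ Fin m) F) *ᵥ v.1, hfw v.1 v.2⟩
    have hφ : Function.Injective φ := by
      intro a b hab
      exact Subtype.ext (mulVec_injective g (congrArg Subtype.val hab))
    obtain ⟨u, hu⟩ := Finite.injective_iff_surjective.mp hφ ⟨(g : Matrix (Fin m ⊕ Fin m) (Fin m ⊕ Fin m) F) *ᵥ v, hv⟩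
    have h3 : u.1 = v := mulVec_injective g (congrArg Subtype.val hu)
    rw [← h3]
    exact u.2

theorem symp_block (A B D : Matrix (Fin m) (Fin m) F) : Matrix.fromBlocks A B 0 D ∈ Matrix.symplecticGroup (Fin m) F ↔ D * Aᵀ = 1 ∧ (B * Aᵀ)ᵀ = B * Aᵀ := by
  rw [SymplecticGroup.mem_iff, Matrix.J, Matrix.fromBlocks_transpose, Matrix.fromBlocks_multiply, Matrix.fromBlocks_multiply, Matrix.fromBlocks_inj]
  simp only [mul_zero, mul_one, zero_mul, zero_add, add_zero, Matrix.transpose_zero, mul_neg, neg_mul, neg_zero, Matrix.transpose_mul, Matrix.transpose_transpose]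
  constructor
  · rintro ⟨h1, h2, h3, _⟩
    refine ⟨h3, ?_⟩
    rw [← sub_eq_add_neg, sub_eq_zero] at h1
    exact h1.symm
  · rintro ⟨h1, h2⟩
    refine ⟨?_, ?_, h1, trivial⟩
    · rw [← sub_eq_add_neg, sub_eq_zero]
      exact h2.symm
    · have h3 := congrArg Matrix.transpose h1
      rw [Matrix.transpose_mul, Matrix.transpose_transpose, Matrix.transpose_one] at h3
      rw [h3]

theorem s0774 {F : Type*} [Field F] [Fintype F] {q : ℕ} (hF : Fintype.card F = q) (m : ℕ) : Nat.card ↥(⨅ k : Fin m, Cfsg.stabilizing (Cfsg.spToMat m F) {v : Fin m ⊕ Fin m → F | (∀ i : Fin m, (k : ℕ) < (i : ℕ) → v (Sum.inl i) = 0) ∧ ∀ i : Fin m, v (Sum.inr i) = 0}) = q ^ (m ^ 2) * (q - 1) ^ m := by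
  classical
  have hinv : ∀ A : Matrix (Fin m) (Fin m) F, A.det ≠ 0 → (Aᵀ)⁻¹ * Aᵀ = 1 := by
    intro A hA
    exact Matrix.nonsing_inv_mul _ (by rw [Matrix.det_transpose]; exact isUnit_iff_ne_zero.mpr hA)
  let f : UT m F × Sy m F → ↥(⨅ k : Fin m, Cfsg.stabilizing (Cfsg.spToMat m F) {v : Fin m ⊕ Fin m → F | (∀ i : Fin m, (k : ℕ) < (i : ℕ) → v (Sum.inl i) = 0) ∧ ∀ i : Fin m, v (Sum.inr i) = 0}) :=
    fun x => ⟨⟨Matrix.fromBlocks x.1.1 (x.2.1 * (x.1.1ᵀ)⁻¹) 0 (x.1.1ᵀ)⁻¹, by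
      rw [symp_block]
      refine ⟨hinv _ x.1.2.1, ?_⟩
      rw [mul_assoc, hinv _ x.1.2.1, mul_one]
      exact x.2.2⟩, (mem_borel_iff _).mpr ⟨fun i j => rfl, x.1.2.2⟩⟩
  have hf : Function.Bijective f := by
    constructor
    · rintro ⟨⟨A, hA1, hA2⟩, ⟨S, hS⟩⟩ ⟨⟨A', hA1', hA2'⟩, ⟨S', hS'⟩⟩ h
      have h1 : Matrix.fromBlocks A (S * (Aᵀ)⁻¹) 0 (Aᵀ)⁻¹ = Matrix.fromBlocks A' (S' * (A'ᵀ)⁻¹) 0 (A'ᵀ)⁻¹ := congrArg Subtype.val (congrArg Subtype.val h)
      obtain ⟨e1, e2, _, _⟩ := Matrix.fromBlocks_inj.mp h1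
      subst e1
      have e3 : S = S' := by
        have := congrArg (· * Aᵀ) e2
        change S * (Aᵀ)⁻¹ * Aᵀ = S' * (Aᵀ)⁻¹ * Aᵀ at this
        rwa [mul_assoc, mul_assoc, hinv _ hA1, mul_one, mul_one] at this
      subst e3
      rfl
    · rintro ⟨g, hg⟩
      obtain ⟨h1, h2⟩ := (mem_borel_iff g).mp hg
      have hblk : (g : Matrix (Fin m ⊕ Fin m) (Fin m ⊕ Fin m) F) = Matrix.fromBlocks (g : Matrix (Fin m ⊕ Fin m) (Fin m ⊕ Fin m) F).toBlocks₁₁ (g : Matrix (Fin m ⊕ Fin m) (Fin m ⊕ Fin m) F).toBlocks₁₂ 0 (g : Matrix (Fin m ⊕ Fin m) (Fin m ⊕ Fin m) F).toBlocks₂₂ := by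
        conv_lhs => rw [← Matrix.fromBlocks_toBlocks (g : Matrix (Fin m ⊕ Fin m) (Fin m ⊕ Fin m) F)]
        congr 1
        apply Matrix.ext
        intro i j
        exact h1 i j
      have hmem := g.2
      rw [hblk, symp_block] at hmem
      obtain ⟨h3, h4⟩ := hmem
      set A := (g : Matrix (Fin m ⊕ Fin m) (Fin m ⊕ Fin m) F).toBlocks₁₁ with hA
      set B := (g : Matrix (Fin m ⊕ Fin m) (Fin m ⊕ Fin m) F).toBlocks₁₂ with hB
      set D := (g : Matrix (Fin m ⊕ Fin m) (Fin m ⊕ Fin m) F).toBlocks₂₂ with hD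
      have hdet : A.det ≠ 0 := by
        intro h0
        have := congrArg Matrix.det h3
        rw [Matrix.det_mul, Matrix.det_transpose, h0, mul_zero, Matrix.det_one] at this
        exact zero_ne_one this
      have hDe : (Aᵀ)⁻¹ = D := Matrix.inv_eq_left_inv h3
      refine ⟨(⟨A, hdet, fun i j hij => h2 i j hij⟩, ⟨B * Aᵀ, h4⟩), ?_⟩
      apply Subtype.ext
      apply Subtype.ext
      show Matrix.fromBlocks A (B * Aᵀ * (Aᵀ)⁻¹) 0 (Aᵀ)⁻¹ = (g : Matrix (Fin m ⊕ Fin m) (Fin m ⊕ Fin m) F)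
      rw [hblk, hDe, mul_assoc, mul_eq_one_comm.mp h3, mul_one]
  rw [← Nat.card_congr (Equiv.ofBijective f hf), Nat.card_prod, card_UT, card_Sy, hF, mul_assoc, ← pow_add, mul_comm]
  congr 2
  rw [Finset.sum_range_succ, ← add_assoc, ← mul_two, Finset.sum_range_id_mul_two]
  rcases Nat.eq_zero_or_pos m with rfl | h
  · rfl
  · obtain ⟨k, rfl⟩ : ∃ k, m = k + 1 := ⟨m - 1, by omega⟩
    rw [Nat.add_sub_cancel]; ring

end Cfsg.Agent.Lib.Bo
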