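import Cfsg.Agent.Lib.InvolB
import Cfsg.Agent.Lib.ClassSizes
import Cfsg.Agent.S0237
import Cfsg.Agent.S0238

/-!
# Brauer–Fowler counting
-/

set_option autoImplicit false

namespace Cfsg.Agent.Lib.BrFow

open Subgroup Cfsg.Agent.Lib.Basic Cfsg.Agent.Lib.Invol Cfsg.Agent.Lib.InvolB

variable {G : Type*} [Group G]

/-- the extended centralizer -/
def extCent (x : G) : Subgroup G where
  carrier := {g | g * x * g⁻¹ = x ∨ g * x * g⁻¹ = x⁻¹}
  one_mem' := Or.inl (by simp)
  mul_mem' := by
    intro a b ha hb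
    have e : a * b * x * (a * b)⁻¹ = a * (b * x * b⁻¹) * a⁻¹ := by group
    have e2 : a * x⁻¹ * a⁻¹ = (a * x * a⁻¹)⁻¹ := by group
    rcases ha with ha | ha <;> rcases hb with hb | hb
    · left; show a * b * x * (a * b)⁻¹ = x; rw [e, hb, ha]
    · right; show a * b * x * (a * b)⁻¹ = x⁻¹; rw [e, hb, e2, ha]
    · right; show a * b * x * (a * b)⁻¹ = x⁻¹; rw [e, hb, ha]
    · left; show a * b * x * (a * b)⁻¹ = x; rw [e, hb, e2, ha, inv_inv]
  inv_mem' := by
    intro a ha
    rcases ha with ha | ha
    · left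
      show a⁻¹ * x * a⁻¹⁻¹ = x
      nth_rewrite 1 [← ha]; group
    · right
      show a⁻¹ * x * a⁻¹⁻¹ = x⁻¹
      have : x⁻¹ = a⁻¹ * (a * x * a⁻¹)⁻¹ * a := by group
      rw [this, ha]; group

theorem mem_extCent {x g : G} : g ∈ extCent x ↔ g * x * g⁻¹ = x ∨ g * x * g⁻¹ = x⁻¹ := Iff.rfl

theorem card_extCent [Finite G] {x : G} (hreal : IsConj x x⁻¹) (hx : x ≠ x⁻¹) :
    Nat.card (extCent x) = 2 * Nat.card (centralizer ({x} : Set G)) := by
  classical
  have h1 : Nat.card (extCent x) = Nat.card {g : G // g * x * g⁻¹ = x} +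
      Nat.card {g : G // g * x * g⁻¹ = x⁻¹} := by
    haveI := Fintype.ofFinite G
    rw [← Nat.card_sum]
    refine Nat.card_congr ((subtypeOrEquiv _ _ ?_))
    rw [disjoint_iff]
    ext g
    simp only [Pi.inf_apply, inf_Prop_eq, Pi.bot_apply, Prop.bot_eq_false, iff_false, not_and]
    intro h1 h2
    exact hx (h1.symm.trans h2)
  have h2 : Nat.card {g : G // g * x * g⁻¹ = x} = Nat.card (centralizer ({x} : Set G)) := by
    refine Nat.card_congr (Equiv.subtypeEquivRight fun g => ?_)
    rw [mem_centralizer_singleton_iff]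
    constructor
    · intro h
      calc g * x = (g * x * g⁻¹) * g := by group
        _ = x * g := by rw [h]
    · intro h; rw [h]; group
  rw [h1, h2, Cfsg.Agent.S0237.result x hreal, two_mul]

/-- **Brauer–Fowler** counting inequality -/
theorem count [Finite G] (hZ : Odd (Nat.card (center G))) (hno : ∀ H : Subgroup G, H.index ≠ 2)
    (t : ℕ) (ht : ∀ H : Subgroup G, H ≠ ⊤ → t ≤ H.index) :
    2 * t * (Nat.card {s : G // orderOf s = 2}) ^ 2 + 2 * t * Nat.card {s : G // orderOf s = 2} +
      Nat.card G ≤ Nat.card G ^ 2 + Nat.card G * Nat.card {s : G // orderOf s = 2} := by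
  classical
  haveI := Fintype.ofFinite G
  obtain ⟨m, hm⟩ : ∃ m, m = Nat.card {s : G // orderOf s = 2} := ⟨_, rfl⟩
  obtain ⟨g, hg⟩ : ∃ g, g = Nat.card G := ⟨_, rfl⟩
  rw [← hm, ← hg]
  let c : G → ℕ := fun x => Nat.card {p : G × G // orderOf p.1 = 2 ∧ orderOf p.2 = 2 ∧ p.1 * p.2 = x}
  have hsum : ∑ x : G, c x = m ^ 2 := by
    let I := {s : G // orderOf s = 2}
    let F : I × I → G := fun p => p.1.1 * p.2.1
    have h1 : Nat.card (I × I) = m ^ 2 := by rw [Nat.card_prod, ← hm, pow_two]
    rw [← h1, ← Nat.card_congr (Equiv.sigmaFiberEquiv F), Nat.card_sigma]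
    refine Finset.sum_congr rfl fun x _ => ?_
    exact Nat.card_congr ⟨fun p => ⟨(⟨p.1.1, p.2.1⟩, ⟨p.1.2, p.2.2.1⟩), p.2.2.2⟩,
      fun p => ⟨(p.1.1.1, p.1.2.1), p.1.1.2, p.1.2.2, p.2⟩, fun _ => rfl, fun _ => rfl⟩
  -- an involution is not central
  have hnc : ∀ x : G, orderOf x = 2 → centralizer ({x} : Set G) ≠ ⊤ := by
    intro x hx h
    have hcen : x ∈ center G := by
      rw [mem_center_iff]
      intro y
      have : y ∈ centralizer ({x} : Set G) := by rw [h]; trivial
      exact mem_centralizer_singleton_iff.mp this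
    have h1 := orderOf_dvd_natCard (⟨x, hcen⟩ : center G)
    rw [← orderOf_coe] at h1
    change orderOf x ∣ _ at h1
    rw [hx] at h1
    exact absurd hZ (Nat.not_odd_iff_even.mpr (even_iff_two_dvd.mpr h1))
  have hpt : ∀ x : G, 2 * t * c x + (if orderOf x = 2 then 4 * t else 0) + (if x = 1 then g else 0) ≤
      g + (if orderOf x = 2 then g else 0) + (if x = 1 then 2 * t * m else 0) := by
    intro x
    by_cases hx1 : x = 1
    · subst hx1
      have h1 : c 1 ≤ m := by
        rw [hm]
        refine Nat.card_le_card_of_injective (fun p => ⟨p.1.1, p.2.1⟩) ?_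
        rintro ⟨⟨a, b⟩, ha, hb, hab⟩ ⟨⟨c, d⟩, hc, hd, hcd⟩ h
        have h1 : a = c := Subtype.mk.inj h
        simp only at ha hb hab hc hd hcd
        subst h1
        have : b = d := mul_left_cancel (hab.trans hcd.symm)
        subst this
        rfl
      have h2 : orderOf (1 : G) ≠ 2 := by rw [orderOf_one]; omega
      rw [if_neg h2, if_neg h2, if_pos rfl, if_pos rfl]
      have := Nat.mul_le_mul_left (2 * t) h1
      omega
    · rw [if_neg hx1, if_neg hx1]
      by_cases hx2 : orderOf x = 2
      · rw [if_pos hx2, if_pos hx2]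
        have h1 := (Cfsg.Agent.S0238.result x).2.2 hx2
        change c x + 2 ≤ _ at h1
        have h2 := ht _ (hnc x hx2)
        have h3 := (centralizer ({x} : Set G)).card_mul_index
        rw [← hg] at h3
        have h4 : t * (c x + 2) ≤ g := by
          rw [← h3, mul_comm (Nat.card _)]
          exact Nat.mul_le_mul h2 h1
        nlinarith
      · rw [if_neg hx2, if_neg hx2]
        have hxi : x ≠ x⁻¹ := by
          intro h
          apply hx2
          apply orderOf_eq_two _ hx1
          nth_rewrite 1 [h]; exact inv_mul_cancel x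
        by_cases hr : IsConj x x⁻¹
        · have h1 := (Cfsg.Agent.S0238.result x).1
          change c x ≤ _ at h1
          have hE := card_extCent hr hxi
          have hEi := (extCent x).card_mul_index
          have hC := (centralizer ({x} : Set G)).card_mul_index
          have hEt : extCent x ≠ ⊤ := by
            intro h
            apply hno (centralizer ({x} : Set G))
            rw [h, Subgroup.card_top] at hE
            rw [hE, mul_comm 2] at hC
            exact Nat.eq_of_mul_eq_mul_left Nat.card_pos hC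
          have h2 := ht _ hEt
          rw [hE, ← hg] at hEi
          have h4 : 2 * t * c x ≤ g := by
            calc 2 * t * c x ≤ 2 * t * Nat.card (centralizer ({x} : Set G)) := Nat.mul_le_mul_left _ h1
              _ = 2 * Nat.card (centralizer ({x} : Set G)) * t := by ring
              _ ≤ 2 * Nat.card (centralizer ({x} : Set G)) * (extCent x).index :=
                Nat.mul_le_mul_left _ h2
              _ = g := hEi
          omega
        · have h1 := (Cfsg.Agent.S0238.result x).2.1 hr
          change c x = 0 at h1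
          rw [h1]; omega
  have hs := Finset.sum_le_sum (fun x (_ : x ∈ (Finset.univ : Finset G)) => hpt x)
  simp only [Finset.sum_add_distrib, ← Finset.mul_sum, hsum] at hs
  have hI : ∀ k : ℕ, ∑ x : G, (if orderOf x = 2 then k else 0) = m * k := by
    intro k
    rw [Finset.sum_ite, Finset.sum_const, Finset.sum_const_zero, add_zero, smul_eq_mul, hm,
      Nat.card_eq_fintype_card, Fintype.card_subtype]
  have h1 : ∀ k : ℕ, ∑ x : G, (if x = 1 then k else 0) = k := by
    intro k
    rw [Finset.sum_ite_eq' Finset.univ (1 : G)]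
    simp
  rw [hI, hI, h1, h1, Finset.sum_const, Finset.card_univ, ← Nat.card_eq_fintype_card, ← hg,
    smul_eq_mul] at hs
  nlinarith

/-- minimal index of a proper subgroup -/
theorem exists_min_index [Finite G] [Nontrivial G] : ∃ H : Subgroup G, H ≠ ⊤ ∧
    ∀ K : Subgroup G, K ≠ ⊤ → H.index ≤ K.index := by
  have hne : ({H : Subgroup G | H ≠ ⊤}).Nonempty := ⟨⊥, bot_ne_top⟩
  obtain ⟨H, hH, hmin⟩ := Set.exists_min_image {H : Subgroup G | H ≠ ⊤} (fun H => H.index)
    (Set.toFinite _) hne
  exact ⟨H, hH, fun K hK => hmin K hK⟩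

end Cfsg.Agent.Lib.BrFow
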