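import Cfsg.Agent.Lib.HallSysB

/-!
Carter subgroups of finite solvable groups.
-/

set_option autoImplicit false
set_option linter.unusedSectionVars false
set_option linter.unusedVariables false

namespace Cfsg.Agent.Lib.CarterA

open Subgroup Cfsg.Agent.Lib Cfsg.Agent.Lib.Hall Cfsg.Agent.Lib.HallSys Cfsg.Agent.Lib.HallSysB
open scoped commutatorElement Pointwise

universe u v

variable {G : Type u} [Group G]

theorem nil_of_injective {C : Type u} {Q : Type v} [Group C] [Group Q] (f : C →* Q) (hf : Function.Injective f)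
    (hQ : Group.IsNilpotent Q) : Group.IsNilpotent C := by
  haveI : Group.IsNilpotent f.range := inferInstance
  exact Group.nilpotent_of_mulEquiv (MonoidHom.ofInjective hf).symm

/-- Carter subgroup of a subgroup `R` -/
def CIn (C R : Subgroup G) : Prop := C ≤ R ∧ Group.IsNilpotent C ∧ normalizer (C : Set G) ⊓ R ≤ C

theorem cIn_top_iff {C : Subgroup G} : CIn C ⊤ ↔ Cfsg.IsCarterSubgroup C :=
  ⟨fun ⟨_, h1, h2⟩ => ⟨h1, le_antisymm (by rwa [inf_top_eq] at h2) le_normalizer⟩,
    fun ⟨h1, h2⟩ => ⟨le_top, h1, by rw [h2]; exact inf_le_left⟩⟩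

theorem cIn_subgroupOf {C R : Subgroup G} (h : CIn C R) : CIn (C.subgroupOf R) ⊤ := by
  obtain ⟨h1, h2, h3⟩ := h
  refine ⟨le_top, ?_, ?_⟩
  · haveI := h2
    exact Group.nilpotent_of_mulEquiv (subgroupOfEquivOfLe h1).symm
  · rintro ⟨x, hx⟩ ⟨hx1', -⟩
    have hx1 : (⟨x, hx⟩ : R) ∈ normalizer (C.subgroupOf R : Set R) := hx1'
    have h4 : x ∈ normalizer (C : Set G) := by
      rw [mem_normalizer_iff] at hx1
      rw [mem_normalizer_iff]
      intro y
      constructor
      · intro hy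
        exact (hx1 ⟨y, h1 hy⟩).mp hy
      · intro hy
        have h5 : y ∈ R := by
          have h6 := R.mul_mem (R.mul_mem (R.inv_mem hx) (h1 hy)) hx
          have e : x⁻¹ * (x * y * x⁻¹) * x = y := by group
          rwa [e] at h6
        exact (hx1 ⟨y, h5⟩).mpr hy
    exact h3 ⟨h4, hx⟩

theorem cIn_map {R : Subgroup G} {C : Subgroup R} (h : CIn C ⊤) : CIn (C.map R.subtype) R := by
  obtain ⟨-, h2, h3⟩ := h
  refine ⟨map_subtype_le _, ?_, ?_⟩
  · haveI := h2
    exact Cores.isNilpotent_map R.subtype h2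
  · rintro x ⟨hx1', hxR⟩
    have hx1 : x ∈ normalizer ((C.map R.subtype : Subgroup G) : Set G) := hx1'
    have hgoal : (⟨x, hxR⟩ : R) ∈ normalizer (C : Set R) := by
      rw [mem_normalizer_iff] at hx1 ⊢
      intro y
      have h4 : ∀ z : R, z ∈ C ↔ (z : G) ∈ C.map R.subtype := fun z =>
        ⟨fun hz => ⟨z, hz, rfl⟩, fun ⟨w, hw, hwz⟩ => by rwa [← Subtype.ext hwz]⟩
      rw [h4, h4]
      exact hx1 y
    exact ⟨⟨x, hxR⟩, h3 ⟨hgoal, mem_top _⟩, rfl⟩

theorem CIn.smul {C R : Subgroup G} (h : CIn C R) (g : G) : CIn (MulAut.conj g • C) (MulAut.conj g • R) := by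
  obtain ⟨h1, h2, h3⟩ := h
  refine ⟨smul_mono g h1, Cores.isNilpotent_map _ h2, ?_⟩
  rintro x ⟨hx', hxR'⟩
  have hx : x ∈ normalizer ((MulAut.conj g • C : Subgroup G) : Set G) := hx'
  have hxR : x ∈ MulAut.conj g • R := hxR'
  rw [mem_normalizer_smul] at hx
  rw [Subgroup.mem_pointwise_smul_iff_inv_smul_mem] at hxR
  rw [Subgroup.mem_pointwise_smul_iff_inv_smul_mem]
  have : (MulAut.conj g)⁻¹ • x = g⁻¹ * x * g := by
    rw [← map_inv, MulAut.smul_def, MulAut.conj_apply, inv_inv]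
  rw [this] at hxR ⊢
  exact h3 ⟨hx, hxR⟩

theorem CIn.of_le {C R T : Subgroup G} (h : CIn C T) (hCR : C ≤ R) (hRT : R ≤ T) : CIn C R :=
  ⟨hCR, h.2.1, (inf_le_inf_left _ hRT).trans h.2.2⟩

/-- conjugacy of Carter subgroups of `R` -/
def Cj (R : Subgroup G) : Prop := ∀ C D : Subgroup G, CIn C R → CIn D R → ∃ x ∈ R, MulAut.conj x • C = D

theorem cj_of_top {R : Subgroup G} (h : Cj (⊤ : Subgroup R)) : Cj R := by
  intro C D hC hD
  obtain ⟨x, -, hx⟩ := h _ _ (cIn_subgroupOf hC) (cIn_subgroupOf hD)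
  refine ⟨x, x.2, ?_⟩
  have h3 : (MulAut.conj x • C.subgroupOf R).map R.subtype = MulAut.conj (x : G) • ((C.subgroupOf R).map R.subtype) := by
    ext y
    constructor
    · rintro ⟨_, ⟨z, hz, rfl⟩, rfl⟩
      exact ⟨z, ⟨z, hz, rfl⟩, rfl⟩
    · rintro ⟨_, ⟨z, hz, rfl⟩, rfl⟩
      exact ⟨_, ⟨z, hz, rfl⟩, rfl⟩
  rw [hx, map_subgroupOf_eq_of_le hC.1, map_subgroupOf_eq_of_le hD.1] at h3
  exact h3.symm

/-- `CN` is self-normalizing -/
theorem sup_self_norm {C N T : Subgroup G} [N.Normal] (hC : CIn C T) (hNT : N ≤ T) (hcj : Cj (C ⊔ N)) :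
    normalizer ((C ⊔ N : Subgroup G) : Set G) ⊓ T ≤ C ⊔ N := by
  rintro g ⟨hg, hgT⟩
  have h1 : CIn C (C ⊔ N) := hC.of_le le_sup_left (sup_le hC.1 hNT)
  have h2 : MulAut.conj g • (C ⊔ N) = C ⊔ N := Coprime.conj_smul_eq_of_mem_normalizer hg
  have h3 := h1.smul g
  rw [h2] at h3
  obtain ⟨x, hx, hxC⟩ := hcj C _ h1 h3
  have h4 : x⁻¹ * g ∈ normalizer (C : Set G) := by
    apply Coprime.mem_normalizer_of_conj_smul_eq
    rw [map_mul, mul_smul, ← hxC, map_inv, inv_smul_smul]
  have h5 : x⁻¹ * g ∈ C := hC.2.2 ⟨h4, T.mul_mem (T.inv_mem ((sup_le hC.1 hNT) hx)) hgT⟩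
  have e : g = x * (x⁻¹ * g) := by group
  rw [e]; exact mul_mem hx (mem_sup_left h5)

/-- image of a Carter subgroup -/
theorem map_carter {C N T : Subgroup G} [N.Normal] (hC : CIn C T) (hNT : N ≤ T) (hcj : Cj (C ⊔ N)) :
    CIn (C.map (QuotientGroup.mk' N)) (T.map (QuotientGroup.mk' N)) := by
  set π := QuotientGroup.mk' N with hπ
  have hπs : Function.Surjective π := QuotientGroup.mk'_surjective N
  have hπk : π.ker = N := QuotientGroup.ker_mk' N
  refine ⟨map_mono hC.1, Cores.isNilpotent_map π hC.2.1, ?_⟩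
  rintro _ ⟨hy, x, hx, rfl⟩
  have h1 : x ∈ normalizer ((C ⊔ N : Subgroup G) : Set G) := by
    have h2 : (C ⊔ N : Subgroup G) = (C.map π).comap π := by rw [comap_map_eq, hπk]
    rw [h2, mem_normalizer_iff]
    intro y
    rw [mem_comap, mem_comap, map_mul, map_mul, map_inv]
    exact mem_normalizer_iff.mp hy (π y)
  have h2 := sup_self_norm hC hNT hcj ⟨h1, hx⟩
  rw [sup_comm, Basic.mem_sup_iff_left (N := N) (by rw [normalizer_eq_top]; exact le_top)] at h2
  obtain ⟨n, hn, c, hc, rfl⟩ := h2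
  rw [map_mul, show π n = 1 from (QuotientGroup.eq_one_iff n).2 hn, one_mul]
  exact mem_map_of_mem π hc

/-- in a nilpotent group the only Carter subgroup is everything -/
theorem eq_of_nilpotent {C T : Subgroup G} (hC : CIn C T) (hT : Group.IsNilpotent T) : C = T := by
  by_contra hne
  have h1 := PNilp.lt_inf_normalizer hT (lt_of_le_of_ne hC.1 hne)
  rw [inf_comm] at h1
  exact absurd hC.2.2 (not_le_of_gt h1)

/-- the situation of a minimal normal subgroup with nilpotent quotient -/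
theorem nil_of_normal [Finite G] {N : Subgroup G} [N.Normal] {q : ℕ} (hq : q.Prime) (hN : IsPGroup q N)
    (hGN : Group.IsNilpotent (G ⧸ N)) {K : Subgroup G} (hK : HC q K) (hKn : K.Normal) : Group.IsNilpotent G := by
  haveI : Fact q.Prime := ⟨hq⟩
  apply PNilp.isNilpotent_of_forall_pNil
  intro r hr
  haveI : Fact r.Prime := ⟨hr⟩
  by_cases hrq : r = q
  · subst hrq
    exact ⟨K, hKn, hK.2, hK.1⟩
  · exact (pNil_of_isNilpotent hr hGN).of_quotient N (Cores.card_coprime_of_isPGroup_ne hq hr (Ne.symm hrq) hN)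

theorem key [Finite G] (hG : Group.IsSolvable G) (hnn : ¬ Group.IsNilpotent G) {N : Subgroup G} [hNn : N.Normal] (hN0 : N ≠ ⊥)
    (hmin : ∀ M : Subgroup G, M.Normal → M ≤ N → M = ⊥ ∨ M = N) {q : ℕ} (hq : q.Prime) (hNq : IsPGroup q N)
    (hNab : ∀ x ∈ N, ∀ y ∈ N, x * y = y * x) (hGN : Group.IsNilpotent (G ⧸ N)) {K : Subgroup G} (hK : HC q K) :
    N ⊔ normalizer (K : Set G) = ⊤ ∧ normalizer (K : Set G) ⊓ N = ⊥ ∧ CIn (normalizer (K : Set G)) ⊤ := by
  haveI : Fact q.Prime := ⟨hq⟩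
  set π := QuotientGroup.mk' N with hπ
  have hπs : Function.Surjective π := QuotientGroup.mk'_surjective N
  have hπk : π.ker = N := QuotientGroup.ker_mk' N
  have hKb : (K.map π).Normal := HC.normal_of_pNil hq (hK.map hq π hπs) (pNil_of_isNilpotent hq hGN)
  have hM : (K ⊔ N).Normal := by
    have : (K ⊔ N : Subgroup G) = (K.map π).comap π := by rw [comap_map_eq, hπk]
    rw [this]; exact hKb.comap π
  have h1 : N ⊔ normalizer (K : Set G) = ⊤ := by
    rw [eq_top_iff]
    intro g _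
    have h2 : MulAut.conj g • K ≤ K ⊔ N := by
      rintro _ ⟨k, hk, rfl⟩
      exact hM.conj_mem _ (mem_sup_left hk) g
    obtain ⟨m, hm, hmK⟩ := conj_in hG hq hK (hK.conj_smul hq g) le_sup_left h2
    rw [sup_comm, Basic.mem_sup_iff_left (N := N) (by rw [normalizer_eq_top]; exact le_top)] at hm
    obtain ⟨n, hn, k, hk, rfl⟩ := hm
    have h3 : n⁻¹ * g ∈ normalizer (K : Set G) := by
      apply Coprime.mem_normalizer_of_conj_smul_eq
      rw [map_mul, mul_smul, ← hmK, map_inv, map_mul, mul_smul, Coprime.conj_smul_eq_of_mem_normalizer (le_normalizer hk),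
        inv_smul_smul]
    have e : g = n * (n⁻¹ * g) := by group
    rw [e]; exact mul_mem (mem_sup_left hn) (mem_sup_right h3)
  set C := normalizer (K : Set G) with hC
  have hnormal : ∀ X : Subgroup G, X ≤ N → C ≤ normalizer (X : Set G) → X.Normal := by
    intro X hXN hCX
    rw [← normalizer_eq_top_iff, eq_top_iff, ← h1]
    refine sup_le ?_ hCX
    intro n hn
    rw [mem_normalizer_iff]
    intro y
    constructor
    · intro hy
      rw [hNab n hn y (hXN hy), mul_assoc, mul_inv_cancel, mul_one]; exact hy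
    · intro hy
      have hyN : y ∈ N := by
        have := hNn.conj_mem _ (hXN hy) n⁻¹
        have e : n⁻¹ * (n * y * n⁻¹) * n⁻¹⁻¹ = y := by group
        rwa [e] at this
      rw [hNab n hn y hyN, mul_assoc, mul_inv_cancel, mul_one] at hy; exact hy
  have h2 : C ⊓ N = ⊥ := by
    have h3 : (C ⊓ N).Normal := hnormal _ inf_le_right (QuadA.le_normalizer_inf le_normalizer (by rw [normalizer_eq_top]; exact le_top))
    rcases hmin _ h3 inf_le_right with h4 | h4
    · exact h4
    · exfalso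
      have h5 : N ≤ C := by rw [← h4]; exact inf_le_left
      rw [sup_eq_right.mpr h5] at h1
      exact hnn (nil_of_normal hq hNq hGN hK (normalizer_eq_top_iff.mp h1))
  refine ⟨h1, h2, le_top, ?_, ?_⟩
  · -- `C` nilpotent
    haveI := hGN
    refine nil_of_injective (π.comp C.subtype) ?_ hGN
    rw [injective_iff_map_eq_one]
    intro x hx
    have h3 : (x : G) ∈ C ⊓ N := ⟨x.2, (QuotientGroup.eq_one_iff _).mp hx⟩
    rw [h2, mem_bot] at h3
    exact Subtype.ext h3
  · rintro g ⟨hg', -⟩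
    have hg : g ∈ normalizer (C : Set G) := hg'
    have hgt : g ∈ N ⊔ C := by rw [h1]; exact mem_top g
    rw [Basic.mem_sup_iff_left (N := N) (by rw [normalizer_eq_top]; exact le_top)] at hgt
    obtain ⟨n, hn, c, hc, rfl⟩ := hgt
    have hnn' : n ∈ normalizer (C : Set G) := by
      have := mul_mem hg (inv_mem (le_normalizer hc : c ∈ normalizer (C : Set G)))
      rwa [mul_inv_cancel_right] at this
    have hZn : (N ⊓ centralizer (C : Set G)).Normal := by
      apply hnormal _ inf_le_left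
      apply QuadA.le_normalizer_inf (by rw [normalizer_eq_top]; exact le_top)
      exact le_normalizer.trans QuadA.normalizer_centralizer_le
    have hnZ : n ∈ N ⊓ centralizer (C : Set G) := by
      refine ⟨hn, mem_centralizer_iff.mpr fun y hy => ?_⟩
      have h3 : n * y * n⁻¹ * y⁻¹ ∈ C ⊓ N := by
        refine ⟨C.mul_mem ((mem_normalizer_iff.mp hnn' y).mp hy) (C.inv_mem hy), ?_⟩
        have e : n * y * n⁻¹ * y⁻¹ = n * (y * n⁻¹ * y⁻¹) := by group
        rw [e]; exact N.mul_mem hn (hNn.conj_mem _ (N.inv_mem hn) y)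
      rw [h2, mem_bot, mul_inv_eq_one, mul_inv_eq_iff_eq_mul] at h3
      exact h3.symm
    rcases hmin _ hZn inf_le_left with h4 | h4
    · rw [h4, mem_bot] at hnZ
      rw [hnZ, one_mul]; exact hc
    · exfalso
      have h5 : N ≤ centralizer (K : Set G) := by
        rw [← h4]
        exact inf_le_right.trans (centralizer_le (le_normalizer : K ≤ C))
      have h6 : N ≤ C := h5.trans (centralizer_le_normalizer _)
      rw [inf_eq_right.mpr h6] at h2
      exact hN0 h2

/-- a nilpotent supplement of `N` is the normalizer of a Hall complement -/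
theorem eq_normalizer [Finite G] (hG : Group.IsSolvable G) (hnn : ¬ Group.IsNilpotent G) {N : Subgroup G} [hNn : N.Normal] (hN0 : N ≠ ⊥)
    (hmin : ∀ M : Subgroup G, M.Normal → M ≤ N → M = ⊥ ∨ M = N) {q : ℕ} (hq : q.Prime) (hNq : IsPGroup q N)
    (hNab : ∀ x ∈ N, ∀ y ∈ N, x * y = y * x) (hGN : Group.IsNilpotent (G ⧸ N)) {C : Subgroup G} (hC : Group.IsNilpotent C)
    (hCN : C ⊔ N = ⊤) {K : Subgroup G} (hKC : K ≤ C) (hKh : (Nat.card K).Coprime q) (hKi : ∃ k, K.relIndex C = q ^ k) :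
    HC q K ∧ C = normalizer (K : Set G) := by
  haveI : Fact q.Prime := ⟨hq⟩
  -- `C` has `q`-power index
  have hCi : ∃ k, C.index = q ^ k := by
    obtain ⟨k, hk⟩ := hNq.exists_card_eq
    have h1 : C.index ∣ q ^ k := by
      rw [← hk]
      have h2 : C.relIndex (N ⊔ C) = C.relIndex N := CoprimeB.relIndex_sup_of_normalizes (by rw [Subgroup.normalizer_eq_top N]; exact le_top)
      rw [sup_comm, hCN, relIndex_top_right] at h2
      rw [h2]
      exact Subgroup.relIndex_dvd_card C N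
    obtain ⟨j, -, hj⟩ := (Nat.dvd_prime_pow hq).mp h1
    exact ⟨j, hj⟩
  have hK : HC q K := by
    obtain ⟨a, ha⟩ := hKi
    obtain ⟨b, hb⟩ := hCi
    refine ⟨⟨a + b, ?_⟩, hKh⟩
    rw [← Subgroup.relIndex_mul_index hKC, ha, hb, pow_add]
  refine ⟨hK, ?_⟩
  obtain ⟨h1, h2, h3⟩ := key hG hnn hN0 hmin hq hNq hNab hGN hK
  -- `K` is normal in `C`
  have h4 : C ≤ normalizer (K : Set G) := by
    have h5 : HC q (K.subgroupOf C) := by
      refine ⟨hKi, ?_⟩
      rw [← ThompsonJ.card_map_inj _ C.subtype_injective, map_subgroupOf_eq_of_le hKC]; exact hKh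
    have h6 := HC.normal_of_pNil hq h5 (pNil_of_isNilpotent hq hC)
    exact (normal_subgroupOf_iff_le_normalizer hKC).mp h6
  apply le_antisymm h4
  intro x hx
  have hxt : x ∈ C ⊔ N := by rw [hCN]; exact mem_top x
  rw [sup_comm, Basic.mem_sup_iff_left (N := N) (by rw [normalizer_eq_top]; exact le_top)] at hxt
  obtain ⟨n, hn, c, hc, rfl⟩ := hxt
  have h5 : n ∈ normalizer (K : Set G) ⊓ N := by
    refine ⟨?_, hn⟩
    have := mul_mem hx (inv_mem (h4 hc))
    rwa [mul_inv_cancel_right] at this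
  rw [h2, mem_bot] at h5
  rw [h5, one_mul]; exact hc

end Cfsg.Agent.Lib.CarterA
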