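import Cfsg.Agent.Lib.CarterA

/-!
Carter subgroups: existence, conjugacy, relation with system normalizers.
-/

set_option autoImplicit false
set_option linter.unusedSectionVars false
set_option linter.unusedVariables false

namespace Cfsg.Agent.Lib.CarterB

open Subgroup Cfsg.Agent.Lib Cfsg.Agent.Lib.Hall Cfsg.Agent.Lib.HallSys Cfsg.Agent.Lib.HallSysB Cfsg.Agent.Lib.CarterA
open scoped commutatorElement Pointwise

universe u v

variable {G : Type u} [Group G]

theorem normalizer_smul (X : Subgroup G) (g : G) :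
    normalizer ((MulAut.conj g • X : Subgroup G) : Set G) = MulAut.conj g • normalizer (X : Set G) := by
  ext x
  rw [mem_normalizer_smul, Subgroup.mem_pointwise_smul_iff_inv_smul_mem]
  have : (MulAut.conj g)⁻¹ • x = g⁻¹ * x * g := by
    rw [← map_inv, MulAut.smul_def, MulAut.conj_apply, inv_inv]
  rw [this]

theorem map_smul {N : Subgroup G} [N.Normal] (X : Subgroup G) (g : G) :
    (MulAut.conj g • X).map (QuotientGroup.mk' N) = MulAut.conj (QuotientGroup.mk' N g) • X.map (QuotientGroup.mk' N) := by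
  ext y
  constructor
  · rintro ⟨_, ⟨x, hx, rfl⟩, rfl⟩
    exact ⟨_, ⟨x, hx, rfl⟩, rfl⟩
  · rintro ⟨_, ⟨x, hx, rfl⟩, rfl⟩
    exact ⟨_, ⟨x, hx, rfl⟩, rfl⟩

theorem sup_eq_comap {N : Subgroup G} [N.Normal] (X : Subgroup G) : X ⊔ N = (X.map (QuotientGroup.mk' N)).comap (QuotientGroup.mk' N) := by
  rw [comap_map_eq, QuotientGroup.ker_mk']

theorem nil_top_iff : Group.IsNilpotent (⊤ : Subgroup G) ↔ Group.IsNilpotent G :=
  ⟨fun h => Group.nilpotent_of_mulEquiv topEquiv, fun h => Group.nilpotent_of_mulEquiv topEquiv.symm⟩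

/-- data of a minimal normal subgroup of a solvable group -/
theorem exists_min [Finite G] (hG : Group.IsSolvable G) (hnn : ¬ Group.IsNilpotent G) :
    ∃ N : Subgroup G, N.Normal ∧ N ≠ ⊥ ∧ (∀ M : Subgroup G, M.Normal → M ≤ N → M = ⊥ ∨ M = N) ∧
      (∀ x ∈ N, ∀ y ∈ N, x * y = y * x) ∧ ∃ q : ℕ, q.Prime ∧ IsPGroup q N := by
  haveI : Nontrivial G := by
    by_contra h
    rw [not_nontrivial_iff_subsingleton] at h
    exact hnn inferInstance
  obtain ⟨N, hN, hN0, hmin⟩ := Basic.exists_minimal_normal' (G := G)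
  haveI := hN
  obtain ⟨hab, q, hq, hqpow⟩ := Nilp.minimal_normal_solvable_elementary (G := G) (N := N) inferInstance hN0 hmin
  exact ⟨N, hN, hN0, hmin, Nilp.isMulCommutative_iff_forall.mp hab, q, hq, isPGroup_of_exp hqpow⟩

/-- existence and conjugacy of Carter subgroups -/
theorem main (n : ℕ) : ∀ (G : Type u) [Group G] [Finite G], Group.IsSolvable G → Nat.card G ≤ n →
    (∃ C : Subgroup G, CIn C ⊤) ∧ Cj (⊤ : Subgroup G) := by
  induction n with
  | zero => intro G _ _ _ h; exact absurd h (by have := Nat.card_pos (α := G); omega)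
  | succ n ih =>
    intro G _ _ hG hcard
    by_cases hnil : Group.IsNilpotent G
    · have ht : Group.IsNilpotent (⊤ : Subgroup G) := nil_top_iff.mpr hnil
      refine ⟨⟨⊤, le_top, ht, inf_le_right⟩, fun C D hC hD => ⟨1, mem_top _, ?_⟩⟩
      rw [eq_of_nilpotent hC ht, eq_of_nilpotent hD ht, map_one, one_smul]
    obtain ⟨N, hNn, hN0, hmin, hNab, q, hq, hNq⟩ := exists_min hG hnil
    haveI := hNn
    set π := QuotientGroup.mk' N with hπ
    have hπs : Function.Surjective π := QuotientGroup.mk'_surjective N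
    have hπk : π.ker = N := QuotientGroup.ker_mk' N
    obtain ⟨hexQ, hcjQ⟩ := ih (G ⧸ N) inferInstance (by have := Basic.card_quotient_lt hN0; omega)
    have hsub : ∀ R : Subgroup G, R ≠ ⊤ → (∃ C : Subgroup R, CIn C ⊤) ∧ Cj R := by
      intro R hR
      obtain ⟨h1, h2⟩ := ih R inferInstance (by have := Basic.card_lt_of_ne_top hR; omega)
      exact ⟨h1, cj_of_top h2⟩
    by_cases hGN : Group.IsNilpotent (G ⧸ N)
    · -- nilpotent quotient
      obtain ⟨K, hK⟩ := exists_hc hG hq
      refine ⟨⟨_, (key hG hnil hN0 hmin hq hNq hNab hGN hK).2.2⟩, ?_⟩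
      have hform : ∀ C : Subgroup G, CIn C ⊤ → ∃ K : Subgroup G, HC q K ∧ C = normalizer (K : Set G) := by
        intro C hC
        have h1 : C ⊔ N = ⊤ := by
          by_contra h1
          apply h1
          have h2 := map_carter hC le_top (hsub _ h1).2
          rw [map_top_of_surjective _ hπs] at h2
          have h3 := eq_of_nilpotent h2 (nil_top_iff.mpr hGN)
          rw [sup_eq_comap, h3, comap_top]
        obtain ⟨K', hK'⟩ := exists_hc (G := C) inferInstance hq
        refine ⟨K'.map C.subtype, eq_normalizer hG hnil hN0 hmin hq hNq hNab hGN hC.2.1 h1 (map_subtype_le _) ?_ ?_⟩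
        · rw [ThompsonJ.card_map_inj _ C.subtype_injective]; exact hK'.2
        · have : (K'.map C.subtype).relIndex C = K'.index := by
            rw [relIndex, subgroupOf, comap_map_eq_self_of_injective C.subtype_injective]
          rw [this]; exact hK'.1
      intro C D hC hD
      obtain ⟨K1, hK1, rfl⟩ := hform C hC
      obtain ⟨K2, hK2, rfl⟩ := hform D hD
      obtain ⟨m, -, hm⟩ := conj_in hG hq hK1 hK2 le_top le_top
      exact ⟨m, mem_top _, by rw [← normalizer_smul, hm]⟩
    · have hne : ∀ C : Subgroup G, CIn C ⊤ → C ⊔ N ≠ ⊤ := by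
        intro C hC h1
        apply hGN
        have h2 : C.map π = ⊤ := by
          rw [← map_comap_eq_self_of_surjective hπs (C.map π), ← sup_eq_comap, h1, map_top_of_surjective _ hπs]
        have h3 := Cores.isNilpotent_map π hC.2.1
        rw [h2] at h3
        exact nil_top_iff.mp h3
      constructor
      · obtain ⟨Rb, hRb⟩ := hexQ
        set R := Rb.comap π with hR
        have hRm : R.map π = Rb := map_comap_eq_self_of_surjective hπs Rb
        have hNR : N ≤ R := hπk.ge.trans (ker_le_comap π Rb)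
        have hRt : R ≠ ⊤ := by
          intro h
          apply hGN
          have h1 : Rb = ⊤ := by rw [← hRm, h, map_top_of_surjective _ hπs]
          have h2 := hRb.2.1
          rw [h1] at h2
          exact nil_top_iff.mp h2
        obtain ⟨C', hC'⟩ := (hsub R hRt).1
        have hC := cIn_map hC'
        set C := C'.map R.subtype with hCdef
        have hCR : C ⊔ N ≤ R := sup_le hC.1 hNR
        have hCNt : C ⊔ N ≠ ⊤ := fun h => hRt (top_le_iff.mp (h ▸ hCR))
        have h1 := map_carter hC hNR (hsub _ hCNt).2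
        rw [hRm] at h1
        have h2 := eq_of_nilpotent h1 hRb.2.1
        have h3 : C ⊔ N = R := by rw [sup_eq_comap, ← hπ, h2]
        refine ⟨C, le_top, hC.2.1, ?_⟩
        rintro g ⟨hg', -⟩
        have hg : g ∈ normalizer (C : Set G) := hg'
        have h4 : π g ∈ normalizer (Rb : Set (G ⧸ N)) := by
          rw [← h2]
          exact Subgroup.le_normalizer_map π (mem_map_of_mem π hg)
        have h5 : π g ∈ Rb := hRb.2.2 ⟨h4, mem_top _⟩
        exact hC.2.2 ⟨hg, h5⟩
      · intro C D hC hD
        have h1 := map_carter hC le_top (hsub _ (hne C hC)).2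
        have h2 := map_carter hD le_top (hsub _ (hne D hD)).2
        rw [map_top_of_surjective _ hπs] at h1 h2
        obtain ⟨y, -, hy⟩ := hcjQ _ _ h1 h2
        obtain ⟨g, rfl⟩ := hπs y
        rw [← map_smul] at hy
        have h3 : (MulAut.conj g • C) ⊔ N = D ⊔ N := by rw [sup_eq_comap, sup_eq_comap, hy]
        have h4 : CIn (MulAut.conj g • C) ⊤ := by
          have := hC.smul g
          rwa [show MulAut.conj g • (⊤ : Subgroup G) = ⊤ from Subgroup.map_top_of_surjective _ (MulAut.conj g).surjective] at this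
        obtain ⟨x, -, hx⟩ := (hsub _ (hne D hD)).2 (MulAut.conj g • C) D
          (h4.of_le (by rw [← h3]; exact le_sup_left) le_top) (hD.of_le le_sup_left le_top)
        exact ⟨x * g, mem_top _, by rw [map_mul, mul_smul, hx]⟩

theorem exists_carter [Finite G] (hG : Group.IsSolvable G) : ∃ C : Subgroup G, CIn C ⊤ := (main _ G hG le_rfl).1

theorem cj [Finite G] (hG : Group.IsSolvable G) (R : Subgroup G) : Cj R := by
  haveI : Group.IsSolvable R := inferInstance
  exact cj_of_top (main _ R inferInstance le_rfl).2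

/-- the system reduces into `C` -/
def Red (K : Nat.Primes → Subgroup G) (C : Subgroup G) : Prop := ∀ p : Nat.Primes, ∃ k, (K p).relIndex C = (p : ℕ) ^ k

theorem pow_of_dvd {p : ℕ} (hp : p.Prime) {m k : ℕ} (h : m ∣ p ^ k) : ∃ j, m = p ^ j := by
  obtain ⟨j, -, hj⟩ := (Nat.dvd_prime_pow hp).mp h
  exact ⟨j, hj⟩

theorem sysNorm_le_carter (n : ℕ) : ∀ (G : Type u) [Group G] [Finite G], Group.IsSolvable G → Nat.card G ≤ n →
    ∀ (K : Nat.Primes → Subgroup G), Cfsg.IsComplementSystem K → ∀ C : Subgroup G, CIn C ⊤ → Red K C →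
      Cfsg.systemNormalizer K ≤ C := by
  induction n with
  | zero => intro G _ _ _ h; exact absurd h (by have := Nat.card_pos (α := G); omega)
  | succ n ih =>
    intro G _ _ hG hcard K hK C hC hred
    have hKs := sys_iff.mp hK
    by_cases hnil : Group.IsNilpotent G
    · rw [eq_of_nilpotent hC (nil_top_iff.mpr hnil)]; exact le_top
    obtain ⟨N, hNn, hN0, hmin, hNab, q, hq, hNq⟩ := exists_min hG hnil
    haveI := hNn
    haveI : Fact q.Prime := ⟨hq⟩
    set π := QuotientGroup.mk' N with hπ
    have hπs : Function.Surjective π := QuotientGroup.mk'_surjective N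
    have hπk : π.ker = N := QuotientGroup.ker_mk' N
    have h1 := map_carter hC le_top (cj hG (C ⊔ N))
    rw [map_top_of_surjective _ hπs] at h1
    have h2 := ih (G ⧸ N) inferInstance (by have := Basic.card_quotient_lt hN0; omega) _ (sys_map hK π hπs) _ h1 (by
      intro p
      obtain ⟨k, hk⟩ := hred p
      apply pow_of_dvd p.2 (k := k)
      rw [← hk, ← Subgroup.relIndex_comap]
      exact Subgroup.relIndex_dvd_of_le_left _ (le_comap_map π (K p)))
    rw [sysNorm_quotient hG hK N] at h2
    have h3 : Cfsg.systemNormalizer K ≤ C ⊔ N := by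
      rw [sup_eq_comap, ← map_le_iff_le_comap]; exact h2
    by_cases hR : C ⊔ N = ⊤
    · have h4 : C.map π = ⊤ := by
        rw [← map_comap_eq_self_of_surjective hπs (C.map π), ← sup_eq_comap, hR, map_top_of_surjective _ hπs]
      have hGN : Group.IsNilpotent (G ⧸ N) := by
        have h5 := Cores.isNilpotent_map π hC.2.1
        rw [h4] at h5
        exact nil_top_iff.mp h5
      obtain ⟨h5, h6⟩ := eq_normalizer hG hnil hN0 hmin hq hNq hNab hGN hC.2.1 hR (K := K ⟨q, hq⟩ ⊓ C) inf_le_right
        (Nat.Coprime.coprime_dvd_left (card_dvd_of_le inf_le_left) (hKs ⟨q, hq⟩).2)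
        (by rw [inf_relIndex_right]; exact hred ⟨q, hq⟩)
      have h7 : K ⟨q, hq⟩ ⊓ C = K ⟨q, hq⟩ := HC.eq_of_le hq h5 (hKs ⟨q, hq⟩).2 inf_le_left
      rw [h6, h7]
      exact sysNorm_le K ⟨q, hq⟩
    · set R := C ⊔ N with hRdef
      have hRrel : ∀ p : Nat.Primes, ∃ k, (K p).relIndex R = (p : ℕ) ^ k := by
        intro p
        by_cases hpq : (p : ℕ) = q
        · obtain ⟨k, hk⟩ := hred p
          obtain ⟨j, hj⟩ := hNq.exists_card_eq
          have e1 : C.relIndex R ∣ q ^ j := by
            have e2 : C.relIndex (N ⊔ C) = C.relIndex N := CoprimeB.relIndex_sup_of_normalizes (by rw [Subgroup.normalizer_eq_top N]; exact le_top)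
            rw [hRdef, sup_comm, e2, ← hj]
            exact Subgroup.relIndex_dvd_card C N
          have e3 : (K p).relIndex R ∣ (K p ⊓ C).relIndex R := Subgroup.relIndex_dvd_of_le_left _ inf_le_left
          have e4 := Subgroup.relIndex_mul_relIndex (K p ⊓ C) C R inf_le_right le_sup_left
          rw [inf_relIndex_right, hk] at e4
          apply pow_of_dvd p.2 (k := k + j)
          refine e3.trans ?_
          rw [← e4, pow_add]
          exact Nat.mul_dvd_mul_left _ (by rw [hpq]; exact e1)
        · have hNK : N ≤ K p := HC.le_of_normal p.2 (hKs p) (Cores.card_coprime_of_isPGroup_ne hq p.2 (fun h => hpq h.symm) hNq)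
          obtain ⟨k, hk⟩ := hred p
          refine ⟨k, ?_⟩
          have e1 : K p = ((K p).map π).comap π := by
            rw [comap_map_eq, hπk, sup_eq_left.mpr hNK]
          have e2 : (C ⊔ N).map π = C.map π := by
            rw [sup_eq_comap, ← hπ, map_comap_eq_self_of_surjective hπs]
          rw [← hk, hRdef]
          calc (K p).relIndex (C ⊔ N) = (((K p).map π).comap π).relIndex (C ⊔ N) := by rw [← e1]
            _ = ((K p).map π).relIndex ((C ⊔ N).map π) := Subgroup.relIndex_comap _ _ _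
            _ = ((K p).map π).relIndex (C.map π) := by rw [e2]
            _ = (((K p).map π).comap π).relIndex C := (Subgroup.relIndex_comap _ _ _).symm
            _ = (K p).relIndex C := by rw [← e1]
      have hK' : Cfsg.IsComplementSystem (fun p => (K p).subgroupOf R) := by
        rw [sys_iff]
        intro p
        refine ⟨hRrel p, ?_⟩
        rw [← ThompsonJ.card_map_inj _ R.subtype_injective, subgroupOf_map_subtype]
        exact Nat.Coprime.coprime_dvd_left (card_dvd_of_le inf_le_left) (hKs p).2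
      have h4 := ih R inferInstance (by have := Basic.card_lt_of_ne_top hR; omega) _ hK' (C.subgroupOf R)
        (cIn_subgroupOf (hC.of_le le_sup_left le_top)) (by
          intro p
          obtain ⟨k, hk⟩ := hred p
          refine ⟨k, ?_⟩
          rw [← hk, Subgroup.relIndex_subgroupOf le_sup_left])
      intro x hx
      have hxR : x ∈ R := h3 hx
      have h5 : (⟨x, hxR⟩ : R) ∈ Cfsg.systemNormalizer (fun p => (K p).subgroupOf R) := by
        unfold Cfsg.systemNormalizer at hx ⊢
        rw [mem_iInf] at hx ⊢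
        intro p
        rw [mem_normalizer_iff]
        intro y
        exact mem_normalizer_iff.mp (hx p) (y : G)
      exact h4 h5

theorem exists_red [Finite G] (hG : Group.IsSolvable G) (C : Subgroup G) : ∃ K : Nat.Primes → Subgroup G,
    Cfsg.IsComplementSystem K ∧ Red K C := by
  have : ∀ p : Nat.Primes, ∃ H : Subgroup G, HC (p : ℕ) H ∧ ∃ k, H.relIndex C = (p : ℕ) ^ k := by
    intro p
    obtain ⟨P, hP⟩ := exists_hc (G := C) inferInstance p.2
    obtain ⟨H, hH, hPH⟩ := exists_hc_ge hG p.2 (X := P.map C.subtype) (by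
      rw [ThompsonJ.card_map_inj _ C.subtype_injective]; exact hP.2)
    refine ⟨H, hH, ?_⟩
    obtain ⟨⟨k, hk⟩, -⟩ := hP
    apply pow_of_dvd p.2 (k := k)
    have e : (P.map C.subtype).relIndex C = P.index := by
      rw [relIndex, subgroupOf, comap_map_eq_self_of_injective C.subtype_injective]
    rw [← hk, ← e]
    exact Subgroup.relIndex_dvd_of_le_left _ hPH
  choose K hK using this
  exact ⟨K, sys_iff.mpr fun p => (hK p).1, fun p => (hK p).2⟩

theorem carter_conj [Finite G] (hG : Group.IsSolvable G) {C D : Subgroup G} (hC : CIn C ⊤) (hD : CIn D ⊤) :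
    ∃ g : G, MulAut.conj g • C = D := by
  obtain ⟨g, -, hg⟩ := cj hG ⊤ C D hC hD
  exact ⟨g, hg⟩

theorem smul_top (g : G) : MulAut.conj g • (⊤ : Subgroup G) = ⊤ := Subgroup.map_top_of_surjective _ (MulAut.conj g).surjective

theorem smul_top_carter {C : Subgroup G} (hC : CIn C ⊤) (g : G) : CIn (MulAut.conj g • C) ⊤ := by
  have := hC.smul g
  rwa [smul_top] at this

/-- the system normalizers of a group of nilpotent length at most two are the Carter subgroups -/
theorem eq_sysNorm [Finite G] (hG : Group.IsSolvable G) {F : Subgroup G} [hFn : F.Normal] (hF : Group.IsNilpotent F)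
    (hGF : Group.IsNilpotent (G ⧸ F)) {C : Subgroup G} (hC : CIn C ⊤) {K : Nat.Primes → Subgroup G}
    (hK : Cfsg.IsComplementSystem K) (hred : Red K C) : C = Cfsg.systemNormalizer K := by
  have hKs := sys_iff.mp hK
  refine le_antisymm ?_ (sysNorm_le_carter _ G hG le_rfl K hK C hC hred)
  set π := QuotientGroup.mk' F with hπ
  have hπs : Function.Surjective π := QuotientGroup.mk'_surjective F
  have hCF : C ⊔ F = ⊤ := by
    have h1 := map_carter hC le_top (cj hG (C ⊔ F))
    rw [map_top_of_surjective _ hπs] at h1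
    have h2 := eq_of_nilpotent h1 (nil_top_iff.mpr hGF)
    rw [sup_eq_comap, h2, comap_top]
  unfold Cfsg.systemNormalizer
  refine le_iInf fun p => ?_
  haveI : Fact (p : ℕ).Prime := ⟨p.2⟩
  -- the `p'`-part of `F`
  set E := (Cfsg.pPrimeCore (p : ℕ) F).map F.subtype with hE
  haveI : (Cfsg.pPrimeCore (p : ℕ) F).Characteristic := Cores.pPrimeCore_characteristic p
  haveI hEn : E.Normal := by rw [hE]; infer_instance
  have hEc : (Nat.card E).Coprime p := by
    rw [hE, ThompsonJ.card_map_inj _ F.subtype_injective]; exact Cores.pPrimeCore_coprime p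
  obtain ⟨a, ha⟩ : ∃ k, E.relIndex F = (p : ℕ) ^ k := by
    obtain ⟨k, hk⟩ := PNilp.pNil_iff_core.1 (pNil_of_isNilpotent p.2 hF)
    refine ⟨k, ?_⟩
    rw [← hk, hE, relIndex, subgroupOf, comap_map_eq_self_of_injective F.subtype_injective]
  -- `T = E (K_p ∩ C)`
  have hQn : C ≤ normalizer ((K p ⊓ C : Subgroup G) : Set G) := by
    obtain ⟨k, hk⟩ := hred p
    have h5 : HC (p : ℕ) ((K p ⊓ C).subgroupOf C) := by
      refine ⟨⟨k, ?_⟩, ?_⟩
      · show (K p ⊓ C).relIndex C = _
        rw [inf_relIndex_right, hk]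
      · rw [← ThompsonJ.card_map_inj _ C.subtype_injective, map_subgroupOf_eq_of_le inf_le_right]
        exact Nat.Coprime.coprime_dvd_left (card_dvd_of_le inf_le_left) (hKs p).2
    have h6 := HC.normal_of_pNil p.2 h5 (pNil_of_isNilpotent p.2 hC.2.1)
    exact (normal_subgroupOf_iff_le_normalizer inf_le_right).mp h6
  have hTle : E ⊔ (K p ⊓ C) ≤ K p := sup_le (HC.le_of_normal p.2 (hKs p) hEc) inf_le_left
  have hTn : C ≤ normalizer ((E ⊔ (K p ⊓ C) : Subgroup G) : Set G) := by
    intro c hc
    have e1 : MulAut.conj c • E = E := Coprime.conj_smul_eq_of_mem_normalizer (by rw [Subgroup.normalizer_eq_top E]; exact mem_top c)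
    have e2 := Coprime.conj_smul_eq_of_mem_normalizer (hQn hc)
    apply Coprime.mem_normalizer_of_conj_smul_eq
    rw [Subgroup.smul_sup, e1, e2]
  have hTi : ∃ k, (E ⊔ (K p ⊓ C)).index = (p : ℕ) ^ k := by
    -- `|G : EC|` and `|EC : T|`
    obtain ⟨b, hb⟩ := hred p
    have h1 : (E ⊔ C).index ∣ (p : ℕ) ^ a := by
      have h2 : (E ⊔ C).relIndex (F ⊔ C) ∣ E.relIndex F := by
        have e1 : F ⊔ C = F ⊔ (E ⊔ C) := by
          rw [← sup_assoc, sup_eq_left.mpr (map_subtype_le _ : E ≤ F)]
        have e2 : (E ⊔ C).relIndex (F ⊔ (E ⊔ C)) = (E ⊔ C).relIndex F :=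
          CoprimeB.relIndex_sup_of_normalizes (by rw [Subgroup.normalizer_eq_top F]; exact le_top)
        rw [e1, e2]
        exact Subgroup.relIndex_dvd_of_le_left _ le_sup_left
      rw [sup_comm F C, hCF, relIndex_top_right, ha] at h2
      exact h2
    have h3 : (E ⊔ (K p ⊓ C)).relIndex (E ⊔ C) ∣ (p : ℕ) ^ b := by
      have e1 : E ⊔ C = (E ⊔ (K p ⊓ C)) ⊔ C := by
        rw [sup_assoc, sup_eq_right.mpr (inf_le_right : K p ⊓ C ≤ C)]
      rw [e1, Basic.index_sup_of_normalizes hTn]
      refine (Subgroup.relIndex_dvd_of_le_left _ (le_sup_right : K p ⊓ C ≤ _)).trans ?_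
      rw [inf_relIndex_right, hb]
    apply pow_of_dvd p.2 (k := b + a)
    have h4 : E ⊔ (K p ⊓ C) ≤ E ⊔ C := sup_le_sup_left inf_le_right _
    rw [← Subgroup.relIndex_mul_index h4, pow_add]
    exact mul_dvd_mul h3 h1
  rw [← HC.eq_of_le' p.2 (hKs p) hTi hTle]
  exact hTn

theorem sysNorm_system_smul [Finite G] {K : Nat.Primes → Subgroup G} (hK : Cfsg.IsComplementSystem K) (g : G) :
    Cfsg.IsComplementSystem (fun p => MulAut.conj g • K p) := by
  rw [sys_iff] at hK ⊢
  exact fun p => (hK p).conj_smul p.2 g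

theorem exists_ge_sysNorm [Finite G] (hG : Group.IsSolvable G) {K : Nat.Primes → Subgroup G} (hK : Cfsg.IsComplementSystem K) :
    ∃ C : Subgroup G, Cfsg.IsCarterSubgroup C ∧ Cfsg.systemNormalizer K ≤ C := by
  obtain ⟨C, hC⟩ := exists_carter hG
  obtain ⟨L, hL, hred⟩ := exists_red hG C
  obtain ⟨g, hg⟩ := HallSys.sys_conj hG hL hK
  refine ⟨MulAut.conj g • C, CarterA.cIn_top_iff.mp (smul_top_carter hC g), ?_⟩
  have h1 := sysNorm_le_carter _ G hG le_rfl L hL C hC hred
  have h2 : K = fun p => MulAut.conj g • L p := by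
    funext p; exact (hg p).symm
  rw [h2, HallSys.sysNorm_smul]
  exact HallSys.smul_mono g h1

theorem carter_of_sysNorm [Finite G] (hG : Group.IsSolvable G) {F : Subgroup G} [hFn : F.Normal] (hF : Group.IsNilpotent F)
    (hGF : Group.IsNilpotent (G ⧸ F)) {K : Nat.Primes → Subgroup G} (hK : Cfsg.IsComplementSystem K) :
    Cfsg.IsCarterSubgroup (Cfsg.systemNormalizer K) := by
  obtain ⟨C, hC⟩ := exists_carter hG
  obtain ⟨L, hL, hred⟩ := exists_red hG C
  obtain ⟨g, hg⟩ := HallSys.sys_conj hG hL hK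
  have h1 := eq_sysNorm hG hF hGF hC hL hred
  have h2 : K = fun p => MulAut.conj g • L p := by
    funext p; exact (hg p).symm
  rw [h2, HallSys.sysNorm_smul, ← h1]
  exact CarterA.cIn_top_iff.mp (smul_top_carter hC g)

end Cfsg.Agent.Lib.CarterB
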