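import Mathlib
import Cfsg.Prelude.Def_ClassicalGeometry

/-! Small facts about the classical groups. -/

set_option linter.all false
set_option maxHeartbeats 400000

namespace Cfsg.Agent.Lib.Cg

open Matrix
open scoped MatrixGroups

theorem s0796 {G X : Type*} [Group G] [Finite G] [MulAction G X] [FaithfulSMul G X] (hprim : MulAction.IsPreprimitive G X) (x : X)
    (A : Subgroup G) (hA : A ≤ MulAction.stabilizer G x) (hAn : (A.subgroupOf (MulAction.stabilizer G x)).Normal)
    (hgen : Subgroup.normalClosure (A : Set G) = ⊤) (K : Subgroup G) [hKn : K.Normal] (hK : K ≠ ⊥) :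
    ∃ (B : Subgroup A) (_ : B.Normal), Nonempty (G ⧸ K ≃* A ⧸ B) := by
  classical
  -- K is transitive
  have htr : MulAction.IsPretransitive K X := by
    haveI := hprim
    apply MulAction.IsQuasiPreprimitive.isPretransitive_of_normal (G := G)
    intro h
    apply hK
    rw [eq_bot_iff]
    intro k hk
    rw [Subgroup.mem_bot]
    apply FaithfulSMul.eq_of_smul_eq_smul (α := X)
    intro y
    have : y ∈ MulAction.fixedPoints K X := by rw [h]; trivial
    rw [one_smul]
    exact this ⟨k, hk⟩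
  -- A normalised by the stabilizer
  have hAH : ∀ h ∈ MulAction.stabilizer G x, ∀ a ∈ A, h * a * h⁻¹ ∈ A := by
    intro h hh a ha
    have := hAn.conj_mem ⟨a, hA ha⟩ ha ⟨h, hh⟩
    exact this
  have hdec : ∀ g : G, ∃ k ∈ K, ∃ h ∈ MulAction.stabilizer G x, g = k * h := by
    intro g
    obtain ⟨k, hk⟩ := htr.exists_smul_eq x (g • x)
    refine ⟨k.1, k.2, k.1⁻¹ * g, ?_, by group⟩
    rw [MulAction.mem_stabilizer_iff, mul_smul, ← hk]
    show (k.1)⁻¹ • k.1 • x = x
    rw [inv_smul_smul]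
  have hsup : A ⊔ K = ⊤ := by
    have hn : (A ⊔ K).Normal := by
      constructor
      intro z hz g
      rw [Subgroup.mem_sup_of_normal_right] at hz ⊢
      obtain ⟨a, ha, k, hk, rfl⟩ := hz
      obtain ⟨k', hk', h, hh, rfl⟩ := hdec g
      refine ⟨h * a * h⁻¹, hAH h hh a ha, (h * a * h⁻¹)⁻¹ * (k' * h * (a * k) * (k' * h)⁻¹), ?_, by group⟩
      have e : (h * a * h⁻¹)⁻¹ * (k' * h * (a * k) * (k' * h)⁻¹) =
          ((h * a * h⁻¹)⁻¹ * k' * (h * a * h⁻¹)) * (h * k * h⁻¹) * k'⁻¹ := by group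
      rw [e]
      refine K.mul_mem (K.mul_mem ?_ (hKn.conj_mem k hk h)) (K.inv_mem hk')
      have := hKn.conj_mem k' hk' (h * a * h⁻¹)⁻¹
      rwa [inv_inv] at this
    rw [eq_top_iff, ← hgen]
    exact Subgroup.normalClosure_le_normal (fun a ha => (le_sup_left : A ≤ A ⊔ K) ha)
  let f : A →* G ⧸ K := (QuotientGroup.mk' K).comp A.subtype
  have hf : Function.Surjective f := by
    intro z
    obtain ⟨g, rfl⟩ := QuotientGroup.mk'_surjective K z
    have hg : g ∈ A ⊔ K := by rw [hsup]; trivial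
    rw [Subgroup.mem_sup_of_normal_right] at hg
    obtain ⟨a, ha, k, hk, rfl⟩ := hg
    refine ⟨⟨a, ha⟩, ?_⟩
    show QuotientGroup.mk' K a = QuotientGroup.mk' K (a * k)
    rw [map_mul, (QuotientGroup.eq_one_iff k).mpr hk |> fun h => (h : QuotientGroup.mk' K k = 1), mul_one]
  exact ⟨f.ker, inferInstance, ⟨(QuotientGroup.quotientKerEquivOfSurjective f hf).symm⟩⟩

theorem s0769 {F : Type*} [Field F] [Fintype F] {q : ℕ} (hF : Fintype.card F = q) (n : ℕ) :
    Nat.card {g : Matrix.GeneralLinearGroup (Fin n) F // ∀ i j : Fin n, i < j → (g : Matrix (Fin n) (Fin n) F) i j = 0} =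
      q ^ (n * (n - 1) / 2) * (q - 1) ^ n := by
  classical
  let M : (Fin n → Fˣ) × ((i : Fin n) → Fin (i : ℕ) → F) → Matrix (Fin n) (Fin n) F := fun p => Matrix.of (fun i j =>
    if h : (j : ℕ) < (i : ℕ) then p.2 i ⟨j, h⟩ else if i = j then (p.1 i : F) else 0)
  have hlow : ∀ p, ∀ i j : Fin n, i < j → M p i j = 0 := by
    intro p i j hij
    show (if h : (j : ℕ) < (i : ℕ) then p.2 i ⟨j, h⟩ else if i = j then (p.1 i : F) else 0) = 0
    have h1 : ¬ (j : ℕ) < (i : ℕ) := by have : (i : ℕ) < j := hij; omega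
    rw [dif_neg h1, if_neg hij.ne]
  have hdiag : ∀ p i, M p i i = (p.1 i : F) := by
    intro p i
    show (if h : (i : ℕ) < (i : ℕ) then p.2 i ⟨i, h⟩ else if i = i then (p.1 i : F) else 0) = _
    rw [dif_neg (lt_irrefl _), if_pos rfl]
  have hdet : ∀ p, (M p).det ≠ 0 := by
    intro p
    rw [Matrix.det_of_lowerTriangular _ (fun i j hij => hlow p i j hij)]
    exact Finset.prod_ne_zero_iff.mpr (fun i _ => by rw [hdiag]; exact (p.1 i).ne_zero)
  let f : (Fin n → Fˣ) × ((i : Fin n) → Fin (i : ℕ) → F) → {g : Matrix.GeneralLinearGroup (Fin n) F // ∀ i j : Fin n, i < j → (g : Matrix (Fin n) (Fin n) F) i j = 0} :=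
    fun p => ⟨Matrix.GeneralLinearGroup.mkOfDetNeZero (M p) (hdet p), hlow p⟩
  have hbij : Function.Bijective f := by
    constructor
    · intro p p' h
      have h1 : M p = M p' := congrArg (fun z => ((z.1 : Matrix.GeneralLinearGroup (Fin n) F) : Matrix (Fin n) (Fin n) F)) h
      refine Prod.ext ?_ ?_
      · funext i
        apply Units.ext
        rw [← hdiag, ← hdiag, h1]
      · funext i j
        have h2 := congrFun (congrFun h1 i) ⟨j, j.2.trans i.2⟩
        have h3 : ∀ p : (Fin n → Fˣ) × ((i : Fin n) → Fin (i : ℕ) → F), M p i ⟨j, j.2.trans i.2⟩ = p.2 i j := by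
          intro p
          show (if h : (j : ℕ) < (i : ℕ) then p.2 i ⟨j, h⟩ else _) = _
          rw [dif_pos j.2]
        rwa [h3, h3] at h2
    · rintro ⟨g, hg⟩
      have hd : (g : Matrix (Fin n) (Fin n) F).det ≠ 0 := ((Matrix.isUnit_iff_isUnit_det _).mp g.isUnit).ne_zero
      rw [Matrix.det_of_lowerTriangular _ (fun i j hij => hg i j hij), Finset.prod_ne_zero_iff] at hd
      refine ⟨⟨fun i => Units.mk0 ((g : Matrix (Fin n) (Fin n) F) i i) (hd i (Finset.mem_univ _)), fun i j => (g : Matrix (Fin n) (Fin n) F) i ⟨j, j.2.trans i.2⟩⟩, ?_⟩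
      apply Subtype.ext
      apply Units.ext
      funext i j
      show (if h : (j : ℕ) < (i : ℕ) then (g : Matrix (Fin n) (Fin n) F) i ⟨j, _⟩ else if i = j then (g : Matrix (Fin n) (Fin n) F) i i else 0) = _
      split_ifs with h1 h2
      · rfl
      · rw [h2]
      · have h3 : i < j := by
          have : (i : ℕ) ≠ j := fun h => h2 (Fin.ext h)
          show (i : ℕ) < j
          omega
        exact (hg i j h3).symm
  rw [← Nat.card_congr (Equiv.ofBijective f hbij), Nat.card_prod, Nat.card_eq_fintype_card, Nat.card_eq_fintype_card, Fintype.card_fun, Fintype.card_fin,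
    Fintype.card_units, hF, Fintype.card_pi]
  have h1 : ∀ i : Fin n, Fintype.card (Fin (i : ℕ) → F) = q ^ (i : ℕ) := by
    intro i
    rw [Fintype.card_fun, Fintype.card_fin, hF]
  rw [Finset.prod_congr rfl (fun i _ => h1 i), Finset.prod_pow_eq_pow_sum, Fin.sum_univ_eq_sum_range (fun i => i), Finset.sum_range_id, mul_comm]

end Cfsg.Agent.Lib.Cg
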