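import Mathlib
import Cfsg.Prelude.Def_ClassicalGeometry

/-! Small facts about the classical groups. -/

set_option linter.all false
set_option maxHeartbeats 400000

namespace Cfsg.Agent.Lib.Cg

open Matrix
open scoped MatrixGroups LinearAlgebra.Projectivization

variable {F : Type*} [Field F]

/-- rank one matrices -/
theorem exists_outer {ι κ : Type} [Fintype ι] [DecidableEq ι] [Fintype κ] [DecidableEq κ] {N : Matrix ι κ F} (h : N.rank = 1) :
    ∃ (w : ι → F) (φ : κ → F), N = Matrix.vecMulVec w φ := by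
  have h1 : Module.finrank F (LinearMap.range N.mulVecLin) = 1 := h
  obtain ⟨w, hw0, hw⟩ := finrank_eq_one_iff'.mp h1
  have h2 : ∀ j, ∃ c : F, c • w = ⟨N.mulVecLin (Pi.single j 1), LinearMap.mem_range_self _ _⟩ := fun j => hw _
  choose φ hφ using h2
  refine ⟨w.1, φ, ?_⟩
  ext i j
  have h3 := congrFun (congrArg Subtype.val (hφ j)) i
  have h4 : (N.mulVecLin (Pi.single j 1)) i = N i j := by
    rw [Matrix.mulVecLin_apply, Matrix.mulVec_single_one]
    rfl
  rw [Matrix.vecMulVec_apply]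
  change φ j * w.1 i = (N.mulVecLin (Pi.single j 1)) i at h3
  rw [← h4, ← h3, mul_comm]

theorem s0839 (n : ℕ) (t : Matrix.SpecialLinearGroup (Fin (n + 2)) F) (ht : Cfsg.IsTransvection (t : Matrix (Fin (n + 2)) (Fin (n + 2)) F)) :
    ∃ (g : Matrix.SpecialLinearGroup (Fin (n + 2)) F) (v : Fin (n + 2) → F), v 0 = 0 ∧
      ((g⁻¹ * t * g : Matrix.SpecialLinearGroup (Fin (n + 2)) F) : Matrix (Fin (n + 2)) (Fin (n + 2)) F) = 1 + Matrix.vecMulVec v (Pi.single 0 1) := by
  classical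
  obtain ⟨w, φ, hN⟩ := exists_outer ht.1
  have hN0 : Matrix.vecMulVec w φ ≠ 0 := by
    intro h
    have := ht.1
    rw [hN, h, Matrix.rank_zero] at this
    exact absurd this (by norm_num)
  have hφ0 : φ ≠ 0 := by
    rintro rfl
    apply hN0
    ext i j
    simp [Matrix.vecMulVec_apply]
  have hφw : φ ⬝ᵥ w = 0 := by
    have h1 := ht.2
    rw [hN, Matrix.vecMulVec_mul_vecMulVec] at h1
    by_contra h2
    apply hN0
    rw [Matrix.vecMulVec_smul] at h1
    rcases smul_eq_zero.mp h1 with h3 | h3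
    · exact absurd h3 h2
    · exact h3
  let e0 : Fin (n + 2) → F := Pi.single 0 1
  have he0 : e0 ≠ 0 := by
    intro h
    have := congrFun h 0
    simp [e0] at this
  obtain ⟨h, hh⟩ := MulAction.exists_smul_eq (Matrix.SpecialLinearGroup (Fin (n + 2)) F) (Projectivization.mk F φ hφ0) (Projectivization.mk F e0 he0)
  rw [Projectivization.smul_mk, Projectivization.mk_eq_mk_iff'] at hh
  obtain ⟨c, hc⟩ := hh
  have hc' : (h : Matrix (Fin (n + 2)) (Fin (n + 2)) F) *ᵥ φ = c • e0 := hc.symm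
  let g : Matrix.SpecialLinearGroup (Fin (n + 2)) F := h.transpose
  have hg : (g : Matrix (Fin (n + 2)) (Fin (n + 2)) F) = (h : Matrix (Fin (n + 2)) (Fin (n + 2)) F)ᵀ := rfl
  have h1 : φ ᵥ* (g : Matrix (Fin (n + 2)) (Fin (n + 2)) F) = c • e0 := by
    rw [hg, Matrix.vecMul_transpose, hc']
  refine ⟨g, c • ((g⁻¹ : Matrix.SpecialLinearGroup (Fin (n + 2)) F) : Matrix (Fin (n + 2)) (Fin (n + 2)) F) *ᵥ w, ?_, ?_⟩
  · have h2 : (c • ((g⁻¹ : Matrix.SpecialLinearGroup (Fin (n + 2)) F) : Matrix (Fin (n + 2)) (Fin (n + 2)) F) *ᵥ w) 0 = (c • e0) ⬝ᵥ (((g⁻¹ : Matrix.SpecialLinearGroup (Fin (n + 2)) F) : Matrix (Fin (n + 2)) (Fin (n + 2)) F) *ᵥ w) := by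
      simp [e0]
    rw [h2, ← h1, Matrix.dotProduct_mulVec, Matrix.vecMul_vecMul, ← Matrix.SpecialLinearGroup.coe_mul, mul_inv_cancel, Matrix.SpecialLinearGroup.coe_one, Matrix.vecMul_one, hφw]
  · have h2 : (t : Matrix (Fin (n + 2)) (Fin (n + 2)) F) = 1 + Matrix.vecMulVec w φ := by rw [← hN]; abel
    rw [Matrix.SpecialLinearGroup.coe_mul, Matrix.SpecialLinearGroup.coe_mul, h2, mul_add, add_mul, mul_one, ← Matrix.SpecialLinearGroup.coe_mul, inv_mul_cancel,
      Matrix.SpecialLinearGroup.coe_one, Matrix.mul_vecMulVec, Matrix.vecMulVec_mul, h1, Matrix.vecMulVec_smul, Matrix.smul_vecMulVec]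

end Cfsg.Agent.Lib.Cg
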