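import Mathlib
import Cfsg.Prelude.Def_ClassicalGeometry

/-! Small facts about the classical groups. -/

set_option linter.all false
set_option maxHeartbeats 400000

namespace Cfsg.Agent.Lib.Cg

open Matrix
open scoped MatrixGroups

variable {F : Type*} [Field F]

theorem sp_iff {m : ℕ} {A B C D : Matrix (Fin m) (Fin m) F} (hB : B = 0) (hC : C = 0) :
    Matrix.fromBlocks A B C D ∈ Matrix.symplecticGroup (Fin m) F ↔ A * Dᵀ = 1 := by
  subst hB; subst hC
  rw [SymplecticGroup.mem_iff, Matrix.J, Matrix.fromBlocks_transpose, Matrix.fromBlocks_multiply, Matrix.fromBlocks_multiply]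
  simp only [mul_zero, zero_mul, add_zero, zero_add, mul_one, mul_neg, neg_mul, Matrix.transpose_zero, neg_zero]
  rw [Matrix.fromBlocks_inj]
  constructor
  · rintro ⟨_, h, _, _⟩
    exact neg_injective h
  · intro h
    refine ⟨rfl, by rw [h], ?_, rfl⟩
    have := congrArg Matrix.transpose h
    rwa [Matrix.transpose_mul, Matrix.transpose_transpose, Matrix.transpose_one] at this

/-- the block diagonal embedding -/
def bd (m : ℕ) (F : Type*) [Field F] : GL (Fin m) F →* Matrix.symplecticGroup (Fin m) F where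
  toFun g := ⟨Matrix.fromBlocks (g : Matrix (Fin m) (Fin m) F) 0 0 (((g⁻¹ : GL (Fin m) F) : Matrix (Fin m) (Fin m) F)ᵀ), by
    rw [sp_iff rfl rfl, Matrix.transpose_transpose, ← Units.val_mul, mul_inv_cancel, Units.val_one]⟩
  map_one' := by
    apply Subtype.ext
    show Matrix.fromBlocks ((1 : GL (Fin m) F) : Matrix (Fin m) (Fin m) F) 0 0 (((1⁻¹ : GL (Fin m) F) : Matrix (Fin m) (Fin m) F)ᵀ) = 1
    rw [inv_one, Units.val_one, Matrix.transpose_one, Matrix.fromBlocks_one]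
  map_mul' := by
    intro g h
    apply Subtype.ext
    show Matrix.fromBlocks ((g * h : GL (Fin m) F) : Matrix (Fin m) (Fin m) F) 0 0 ((((g * h)⁻¹ : GL (Fin m) F) : Matrix (Fin m) (Fin m) F)ᵀ) =
      Matrix.fromBlocks (g : Matrix (Fin m) (Fin m) F) 0 0 (((g⁻¹ : GL (Fin m) F) : Matrix (Fin m) (Fin m) F)ᵀ) *
      Matrix.fromBlocks (h : Matrix (Fin m) (Fin m) F) 0 0 (((h⁻¹ : GL (Fin m) F) : Matrix (Fin m) (Fin m) F)ᵀ)
    rw [Matrix.fromBlocks_multiply, _root_.mul_inv_rev, Units.val_mul, Units.val_mul, Matrix.transpose_mul]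
    simp only [mul_zero, zero_mul, add_zero, zero_add]

theorem bd_coe (m : ℕ) (g : GL (Fin m) F) : ((bd m F g : Matrix.symplecticGroup (Fin m) F) : Matrix (Fin m ⊕ Fin m) (Fin m ⊕ Fin m) F) =
    Matrix.fromBlocks (g : Matrix (Fin m) (Fin m) F) 0 0 (((g⁻¹ : GL (Fin m) F) : Matrix (Fin m) (Fin m) F)ᵀ) := rfl

theorem bd_inj (m : ℕ) : Function.Injective (bd m F) := by
  intro g h hgh
  have h1 := congrArg Subtype.val hgh
  rw [bd_coe, bd_coe, Matrix.fromBlocks_inj] at h1
  exact Units.ext h1.1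

theorem s0778 (m : ℕ) :
    Nonempty (↥(Cfsg.stabilizing (Cfsg.spToMat m F) {v : Fin m ⊕ Fin m → F | ∀ i : Fin m, v (Sum.inr i) = 0} ⊓
      Cfsg.stabilizing (Cfsg.spToMat m F) {v : Fin m ⊕ Fin m → F | ∀ i : Fin m, v (Sum.inl i) = 0}) ≃* Matrix.GeneralLinearGroup (Fin m) F) := by
  classical
  have hmul : ∀ (A B C D : Matrix (Fin m) (Fin m) F) (v : Fin m ⊕ Fin m → F),
      Matrix.fromBlocks A B C D *ᵥ v = Sum.elim (A *ᵥ (v ∘ Sum.inl) + B *ᵥ (v ∘ Sum.inr)) (C *ᵥ (v ∘ Sum.inl) + D *ᵥ (v ∘ Sum.inr)) :=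
    fun A B C D v => Matrix.fromBlocks_mulVec A B C D v
  have h1 : ∀ (g : GL (Fin m) F) (v : Fin m ⊕ Fin m → F), (∀ i, v (Sum.inr i) = 0) → ∀ i, (((bd m F g : Matrix.symplecticGroup (Fin m) F) : Matrix (Fin m ⊕ Fin m) (Fin m ⊕ Fin m) F) *ᵥ v) (Sum.inr i) = 0 := by
    intro g v hv i
    have hv' : v ∘ Sum.inr = 0 := funext hv
    rw [bd_coe, hmul, Sum.elim_inr, hv', Matrix.zero_mulVec, Matrix.mulVec_zero, add_zero]
    rfl
  have h2 : ∀ (g : GL (Fin m) F) (v : Fin m ⊕ Fin m → F), (∀ i, v (Sum.inl i) = 0) → ∀ i, (((bd m F g : Matrix.symplecticGroup (Fin m) F) : Matrix (Fin m ⊕ Fin m) (Fin m ⊕ Fin m) F) *ᵥ v) (Sum.inl i) = 0 := by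
    intro g v hv i
    have hv' : v ∘ Sum.inl = 0 := funext hv
    rw [bd_coe, hmul, Sum.elim_inl, hv', Matrix.zero_mulVec, Matrix.mulVec_zero, add_zero]
    rfl
  have hinv : ∀ (g : GL (Fin m) F) (v : Fin m ⊕ Fin m → F), ((bd m F g⁻¹ : Matrix.symplecticGroup (Fin m) F) : Matrix (Fin m ⊕ Fin m) (Fin m ⊕ Fin m) F) *ᵥ
      (((bd m F g : Matrix.symplecticGroup (Fin m) F) : Matrix (Fin m ⊕ Fin m) (Fin m ⊕ Fin m) F) *ᵥ v) = v := by
    intro g v
    rw [Matrix.mulVec_mulVec, ← Submonoid.coe_mul, ← map_mul, inv_mul_cancel, map_one, Submonoid.coe_one, Matrix.one_mulVec]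
  have hrange : (bd m F).range = Cfsg.stabilizing (Cfsg.spToMat m F) {v : Fin m ⊕ Fin m → F | ∀ i : Fin m, v (Sum.inr i) = 0} ⊓
      Cfsg.stabilizing (Cfsg.spToMat m F) {v : Fin m ⊕ Fin m → F | ∀ i : Fin m, v (Sum.inl i) = 0} := by
    ext g
    constructor
    · rintro ⟨u, rfl⟩
      refine ⟨fun v => ⟨fun hv => h1 u v hv, fun hv => ?_⟩, fun v => ⟨fun hv => h2 u v hv, fun hv => ?_⟩⟩
      · have := h1 u⁻¹ _ hv
        intro i
        rw [← hinv u v]
        exact this i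
      · have := h2 u⁻¹ _ hv
        intro i
        rw [← hinv u v]
        exact this i
    · rintro ⟨hg1, hg2⟩
      obtain ⟨A, B, C, D, hABCD⟩ : ∃ A B C D : Matrix (Fin m) (Fin m) F, (g : Matrix (Fin m ⊕ Fin m) (Fin m ⊕ Fin m) F) = Matrix.fromBlocks A B C D :=
        ⟨_, _, _, _, (Matrix.fromBlocks_toBlocks _).symm⟩
      have hC : C = 0 := by
        ext i j
        have h3 := (hg1 (Sum.elim (Pi.single j 1) 0)).mp (fun i => rfl) i
        change ((g : Matrix (Fin m ⊕ Fin m) (Fin m ⊕ Fin m) F) *ᵥ (Sum.elim (Pi.single j 1) 0)) (Sum.inr i) = 0 at h3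
        rw [hABCD, hmul, Sum.elim_inr, Sum.elim_comp_inl, Sum.elim_comp_inr, Matrix.mulVec_zero, add_zero, Matrix.mulVec_single_one] at h3
        exact h3
      have hB : B = 0 := by
        ext i j
        have h3 := (hg2 (Sum.elim 0 (Pi.single j 1))).mp (fun i => rfl) i
        change ((g : Matrix (Fin m ⊕ Fin m) (Fin m ⊕ Fin m) F) *ᵥ (Sum.elim 0 (Pi.single j 1))) (Sum.inl i) = 0 at h3
        rw [hABCD, hmul, Sum.elim_inl, Sum.elim_comp_inl, Sum.elim_comp_inr, Matrix.mulVec_zero, zero_add, Matrix.mulVec_single_one] at h3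
        exact h3
      have hg := g.2
      rw [hABCD, sp_iff hB hC] at hg
      refine ⟨⟨A, Dᵀ, hg, mul_eq_one_comm.mp hg⟩, ?_⟩
      apply Subtype.ext
      rw [hABCD, hB, hC]
      rfl
  exact ⟨(MulEquiv.subgroupCongr hrange).symm.trans (MonoidHom.ofInjective (bd_inj m)).symm⟩

theorem mem_diag {n : ℕ} {g : GL (Fin n) F} : g ∈ ((Units.map (Matrix.diagonalRingHom (Fin n) F).toMonoidHom).range : Subgroup (GL (Fin n) F)) ↔
    ∃ d : Fin n → F, (g : Matrix (Fin n) (Fin n) F) = Matrix.diagonal d := by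
  constructor
  · rintro ⟨u, rfl⟩
    exact ⟨u, rfl⟩
  · rintro ⟨d, hd⟩
    have hdet : (Matrix.diagonal d).det ≠ 0 := by
      rw [← hd]; exact ((Matrix.isUnit_iff_isUnit_det _).mp g.isUnit).ne_zero
    rw [Matrix.det_diagonal, Finset.prod_ne_zero_iff] at hdet
    refine ⟨⟨d, fun i => (d i)⁻¹, funext fun i => mul_inv_cancel₀ (hdet i (Finset.mem_univ _)), funext fun i => inv_mul_cancel₀ (hdet i (Finset.mem_univ _))⟩, ?_⟩
    apply Units.ext
    exact hd.symm

theorem s0770 (hF : ∃ a : F, a ≠ 0 ∧ a ≠ 1) (n : ℕ) (g : Matrix.GeneralLinearGroup (Fin n) F) :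
    g ∈ Subgroup.normalizer (((Units.map (Matrix.diagonalRingHom (Fin n) F).toMonoidHom).range : Subgroup (Matrix.GeneralLinearGroup (Fin n) F)) : Set (Matrix.GeneralLinearGroup (Fin n) F)) ↔
      ∀ i : Fin n, ∃! j : Fin n, (g : Matrix (Fin n) (Fin n) F) i j ≠ 0 := by
  classical
  have hrow : ∀ i, ∃ j, (g : Matrix (Fin n) (Fin n) F) i j ≠ 0 := by
    intro i
    by_contra hcon
    push Not at hcon
    have h1 : ((g : Matrix (Fin n) (Fin n) F) * ((g⁻¹ : GL (Fin n) F) : Matrix (Fin n) (Fin n) F)) i i = 1 := by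
      rw [← Units.val_mul, mul_inv_cancel, Units.val_one, Matrix.one_apply_eq]
    rw [Matrix.mul_apply, Finset.sum_eq_zero (fun j _ => by rw [hcon j, zero_mul])] at h1
    exact zero_ne_one h1
  have hcol : ∀ j, ∃ i, (g : Matrix (Fin n) (Fin n) F) i j ≠ 0 := by
    intro j
    by_contra hcon
    push Not at hcon
    have h1 : (((g⁻¹ : GL (Fin n) F) : Matrix (Fin n) (Fin n) F) * (g : Matrix (Fin n) (Fin n) F)) j j = 1 := by
      rw [← Units.val_mul, inv_mul_cancel, Units.val_one, Matrix.one_apply_eq]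
    rw [Matrix.mul_apply, Finset.sum_eq_zero (fun i _ => by rw [hcon i, mul_zero])] at h1
    exact zero_ne_one h1
  have hconj : ∀ (t : GL (Fin n) F) (s : Fin n → F), ((g * t * g⁻¹ : GL (Fin n) F) : Matrix (Fin n) (Fin n) F) = Matrix.diagonal s ↔
      (g : Matrix (Fin n) (Fin n) F) * (t : Matrix (Fin n) (Fin n) F) = Matrix.diagonal s * (g : Matrix (Fin n) (Fin n) F) := by
    intro t s
    constructor
    · intro h
      rw [← h, ← Units.val_mul, ← Units.val_mul, inv_mul_cancel_right]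
    · intro h
      rw [Units.val_mul, Units.val_mul, h, mul_assoc, ← Units.val_mul, mul_inv_cancel, Units.val_one, mul_one]
  rw [Subgroup.mem_normalizer_iff]
  constructor
  · intro h i
    obtain ⟨j, hj⟩ := hrow i
    refine ⟨j, hj, ?_⟩
    intro k hk
    by_contra hkj
    obtain ⟨a, ha0, ha1⟩ := hF
    let d : Fin n → F := fun l => if l = j then a else 1
    have hd : ∀ l, d l ≠ 0 := by
      intro l
      show (if l = j then a else 1) ≠ 0
      split_ifs
      · exact ha0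
      · exact one_ne_zero
    let t : GL (Fin n) F := Units.map (Matrix.diagonalRingHom (Fin n) F).toMonoidHom ⟨d, fun i => (d i)⁻¹, funext fun i => mul_inv_cancel₀ (hd i), funext fun i => inv_mul_cancel₀ (hd i)⟩
    have ht : (t : Matrix (Fin n) (Fin n) F) = Matrix.diagonal d := rfl
    obtain ⟨s, hs⟩ := mem_diag.mp ((h t).mp (mem_diag.mpr ⟨d, ht⟩))
    rw [hconj, ht] at hs
    have h1 := congrFun (congrFun hs i) j
    have h2 := congrFun (congrFun hs i) k
    rw [Matrix.mul_diagonal, Matrix.diagonal_mul, mul_comm] at h1 h2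
    have h3 := mul_right_cancel₀ hj h1
    have h4 := mul_right_cancel₀ hk h2
    apply ha1
    have h5 : d j = a := if_pos rfl
    have h6 : d k = 1 := if_neg hkj
    rw [← h5, h3, ← h4, h6]
  · intro h t
    choose σ hσ using h
    have hσ1 : ∀ i, (g : Matrix (Fin n) (Fin n) F) i (σ i) ≠ 0 := fun i => (hσ i).1
    have hσ2 : ∀ i k, (g : Matrix (Fin n) (Fin n) F) i k ≠ 0 → k = σ i := fun i k hk => (hσ i).2 k hk
    have hsurj : Function.Surjective σ := by
      intro k
      obtain ⟨i, hi⟩ := hcol k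
      exact ⟨i, (hσ2 i k hi).symm⟩
    have hbij : Function.Bijective σ := ⟨Finite.injective_iff_surjective.mpr hsurj, hsurj⟩
    let e := Equiv.ofBijective σ hbij
    have key : ∀ s d : Fin n → F, (∀ i, s i = d (σ i)) → (g : Matrix (Fin n) (Fin n) F) * Matrix.diagonal d = Matrix.diagonal s * (g : Matrix (Fin n) (Fin n) F) := by
      intro s d hsd
      ext i k
      rw [Matrix.mul_diagonal, Matrix.diagonal_mul, hsd, mul_comm]
      by_cases hk : (g : Matrix (Fin n) (Fin n) F) i k = 0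
      · rw [hk, mul_zero, mul_zero]
      · rw [hσ2 i k hk]
    rw [mem_diag, mem_diag]
    constructor
    · rintro ⟨d, hd⟩
      refine ⟨fun i => d (σ i), ?_⟩
      rw [hconj, hd]
      exact key _ _ (fun i => rfl)
    · rintro ⟨s, hs⟩
      rw [hconj] at hs
      refine ⟨fun k => s (e.symm k), ?_⟩
      have h1 := key s (fun k => s (e.symm k)) (fun i => by
        show s i = s (e.symm (e i))
        rw [Equiv.symm_apply_apply])
      rw [← h1] at hs
      have h2 : ((g⁻¹ : GL (Fin n) F) : Matrix (Fin n) (Fin n) F) * ((g : Matrix (Fin n) (Fin n) F) * (t : Matrix (Fin n) (Fin n) F)) = ((g⁻¹ : GL (Fin n) F) : Matrix (Fin n) (Fin n) F) * ((g : Matrix (Fin n) (Fin n) F) * Matrix.diagonal (fun k => s (e.symm k))) := by rw [hs]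
      rwa [← mul_assoc, ← mul_assoc, ← Units.val_mul, inv_mul_cancel, Units.val_one, one_mul, one_mul] at h2

end Cfsg.Agent.Lib.Cg
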