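import Cfsg.Agent.Lib.CharRam
import Cfsg.Agent.Lib.CharExc
import Cfsg.Agent.Lib.BlockPP

set_option autoImplicit false

namespace Cfsg.Agent.Lib.CharBL

open Cfsg Cfsg.Agent.Lib.CharBasic Cfsg.Agent.Lib.CharInd Cfsg.Agent.Lib.CharLin
open Cfsg.Agent.Lib.CharGC Cfsg.Agent.Lib.CharCo Cfsg.Agent.Lib.CharExc
open scoped ComplexConjugate

noncomputable section

section Central

variable {A : Type*} [Group A] [Finite A]

theorem exists_central_hom (Z : Subgroup A) (hZ : ∀ z ∈ Z, ∀ g : A, z * g = g * z) {a : A → ℂ}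
    (ha : IsIrrCharacter A a) : ∃ l : Z →* ℂˣ, ∀ (z : Z) (g : A), a (z * g) = l z * a g := by
  obtain ⟨n, ρ, hρ, rfl⟩ := ha
  have h1 : ∀ z : Z, ∃ c : ℂ, ρ z = c • (LinearMap.id : (Fin n → ℂ) →ₗ[ℂ] (Fin n → ℂ)) := by
    intro z
    exact CharInt.center_scalar ρ _ (Subgroup.mem_center_iff.mpr fun g => (hZ z z.2 g).symm)
  choose c hc using h1
  have hnt : Nontrivial (Fin n → ℂ) := ((isIrreducible_iff ρ).mp hρ).1
  obtain ⟨v, hv⟩ := exists_ne (0 : Fin n → ℂ)
  have hinj : ∀ x y : ℂ, x • v = y • v → x = y := fun x y h => smul_left_injective ℂ hv h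
  let f : Z →* ℂ :=
    { toFun := c
      map_one' := by
        apply hinj
        have := congrArg (fun T => T v) (hc 1)
        simpa using this.symm
      map_mul' := by
        intro z w
        apply hinj
        have h1 := congrArg (fun T => T v) (hc (z * w))
        have h2 := congrArg (fun T => T v) (hc z)
        have h3 := congrArg (fun T => T v) (hc w)
        simp only [LinearMap.smul_apply, LinearMap.id_apply] at h1 h2 h3
        rw [← h1, Subgroup.coe_mul, map_mul, Module.End.mul_apply, h3, map_smul, h2, smul_smul,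
          mul_comm] }
  refine ⟨f.toHomUnits, fun z g => ?_⟩
  change LinearMap.trace ℂ _ (ρ (z * g)) = c z * LinearMap.trace ℂ _ (ρ g)
  rw [map_mul, hc z]
  have : (c z • (LinearMap.id : (Fin n → ℂ) →ₗ[ℂ] (Fin n → ℂ))) * ρ g = c z • ρ g := by
    ext v; simp
  rw [this, map_smul, smul_eq_mul]

end Central

section Main

variable {G : Type*} [Group G] [Fintype G] {P C N : Subgroup G} {pr : C →* P}

/-- Set-up: `P` abelian TI with centralizer `C`, normalizer `N` and projection `pr : C → P`. -/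
structure St (P C N : Subgroup G) (pr : C →* P) : Prop where
  hPC : P ≤ C
  hCN : C ≤ N
  norC : N ≤ Subgroup.normalizer (C : Set G)
  norP : ∀ x ∈ N, ∀ y ∈ P, x * y * x⁻¹ ∈ P
  cent : ∀ y ∈ P, ∀ c ∈ C, y * c = c * y
  pr_id : ∀ y : C, (y : G) ∈ P → ((pr y : P) : G) = y
  pr_conj : ∀ (g : G) (c c' : C), (c' : G) = g * c * g⁻¹ →
    ((pr c' : P) : G) = g * (pr c : P) * g⁻¹
  ti : ∀ g : G, ∀ y ∈ P, y ≠ 1 → g * y * g⁻¹ ∈ P → g ∈ N
  free : ∀ x ∈ N, ∀ y ∈ P, y ≠ 1 → x * y * x⁻¹ = y → x ∈ C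

/-- Twist by a linear character of `P`. -/
def tw (pr : C →* P) (l : P →* ℂˣ) (a : IrrCharacter C) : IrrCharacter C :=
  ⟨linFn (l.comp pr) * a.1, isIrr_linFn_mul _ a.2⟩

theorem tw_apply (l : P →* ℂˣ) (a : IrrCharacter C) (c : C) :
    (tw pr l a).1 c = (l (pr c) : ℂ) * a.1 c := rfl

theorem tw_vanish (l m : P →* ℂˣ) (a : IrrCharacter C) (c : C) (hc : pr c = 1) :
    ((tw pr l a).1 - (tw pr m a).1) c = 0 := by
  rw [Pi.sub_apply, tw_apply, tw_apply, hc, map_one, map_one, sub_self]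

theorem tw_vanish' (m : P →* ℂˣ) (a : IrrCharacter C) (c : C) (hc : pr c = 1) :
    (a.1 - (tw pr m a).1) c = 0 := by
  rw [Pi.sub_apply, tw_apply, hc, map_one, Units.val_one, one_mul, sub_self]

theorem res_ind (S : St P C N pr) [Fintype N] {ζ : C → ℂ} (hv : ∀ c, pr c = 1 → ζ c = 0) (c : C) :
    indFun C ζ c = (Nat.card C : ℂ)⁻¹ * ∑ x : N, ζ (cE C (S.norC x.2) c) := by
  classical
  rw [indFun_apply]
  congr 1
  have h1 : ∑ x : G, extendByZero C ζ (x⁻¹ * c * x) = ∑ x : G, extendByZero C ζ (x * c * x⁻¹) :=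
    Fintype.sum_equiv (Equiv.inv G) _ _ fun x => by simp
  rw [h1]
  have h2 : ∑ x : G, extendByZero C ζ (x * c * x⁻¹) =
      ∑ x ∈ Finset.univ.filter (· ∈ N), extendByZero C ζ (x * c * x⁻¹) := by
    symm
    apply Finset.sum_subset (Finset.subset_univ _)
    intro x _ hx
    have hxN : x ∉ N := fun h => hx (Finset.mem_filter.mpr ⟨Finset.mem_univ _, h⟩)
    by_cases hC : x * c * x⁻¹ ∈ C
    · rw [ext_mem C ζ hC]
      apply hv
      by_contra hne
      have h3 := S.pr_conj x c ⟨_, hC⟩ rfl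
      apply hxN
      apply S.ti x (pr c : P) (pr c).2
      · intro h4
        apply hne
        rw [h4, mul_one, mul_inv_cancel] at h3
        exact Subtype.ext h3
      · rw [← h3]; exact Subtype.prop _
    · exact ext_notMem C ζ hC
  rw [h2, Finset.sum_subtype (Finset.univ.filter (· ∈ N)) (p := (· ∈ N)) (fun x => by simp)]
  refine Finset.sum_congr rfl fun x _ => ?_
  exact ext_mem C ζ _

theorem inner_ind (S : St P C N pr) [Fintype N] [Fintype C] {ζ ζ' : C → ℂ}
    (hv : ∀ c, pr c = 1 → ζ' c = 0) :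
    classInner (indFun C ζ) (indFun C ζ') =
      (Nat.card C : ℂ)⁻¹ * ∑ x : N, classInner ζ (cjS C (S.norC x.2) ζ') := by
  rw [reciprocity C ζ _ (indFun_classFn C ζ')]
  have h1 : (fun c : C => indFun C ζ' c) =
      (Nat.card C : ℂ)⁻¹ • ∑ x : N, cjS C (S.norC x.2) ζ' := by
    funext c
    rw [res_ind S hv c, Pi.smul_apply, Finset.sum_apply, smul_eq_mul]
    rfl
  rw [h1, classInner_smul_right, classInner_sum_right, map_inv₀, Complex.conj_natCast]

/-- The number of elements of `N` carrying `a` to `b`. -/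
def wt (S : St P C N pr) (a b : IrrCharacter C) : ℕ :=
  Nat.card {x : N // cjI C (S.norC x.2) a = b}

theorem sum_inner_eq (S : St P C N pr) [Fintype N] [Fintype C] (a b : IrrCharacter C) :
    ∑ x : N, classInner a.1 (cjS C (S.norC x.2) b.1) = wt S b a := by
  classical
  have h1 : ∀ x : N, classInner a.1 (cjS C (S.norC x.2) b.1) =
      if cjI C (S.norC x.2) b = a then 1 else 0 := by
    intro x
    rw [← cjI_coe, irr_inner' a (cjI C (S.norC x.2) b)]
    by_cases h : a = cjI C (S.norC x.2) b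
    · rw [if_pos h, if_pos h.symm]
    · rw [if_neg h, if_neg (fun h' => h h'.symm)]
  simp only [h1, Finset.sum_boole]
  rw [wt, Nat.card_eq_fintype_card, Fintype.card_subtype]

theorem sum_inner_eq' (S : St P C N pr) [Fintype N] [Fintype C] (a b : IrrCharacter C) :
    ∑ x : N, classInner (cjS C (S.norC x.2) b.1) a.1 = wt S b a := by
  have h1 : ∀ x : N, classInner (cjS C (S.norC x.2) b.1) a.1 =
      conj (classInner a.1 (cjS C (S.norC x.2) b.1)) := fun x => (classInner_conj_symm _ _).symm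
  simp only [h1, ← map_sum]
  rw [sum_inner_eq, Complex.conj_natCast]

theorem inner_D (S : St P C N pr) {a a' b b' : IrrCharacter C}
    (hv : ∀ c, pr c = 1 → (b.1 - b'.1) c = 0) :
    classInner (indFun C (a.1 - a'.1)) (indFun C (b.1 - b'.1)) =
      (Nat.card C : ℂ)⁻¹ * ((wt S b a : ℂ) - wt S b a' - wt S b' a + wt S b' a') := by
  have : Fintype N := Fintype.ofFinite _
  have : Fintype C := Fintype.ofFinite _
  rw [inner_ind S hv]
  have h1 : ∀ x : N, classInner (a.1 - a'.1) (cjS C (S.norC x.2) (b.1 - b'.1)) =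
      classInner a.1 (cjS C (S.norC x.2) b.1) - classInner a'.1 (cjS C (S.norC x.2) b.1) -
      classInner a.1 (cjS C (S.norC x.2) b'.1) + classInner a'.1 (cjS C (S.norC x.2) b'.1) := by
    intro x
    have h2 : cjS C (S.norC x.2) (b.1 - b'.1) =
        cjS C (S.norC x.2) b.1 - cjS C (S.norC x.2) b'.1 := rfl
    rw [h2, classInner_sub_left, classInner_sub_right, classInner_sub_right]
    ring
  simp only [h1, Finset.sum_add_distrib, Finset.sum_sub_distrib]
  rw [sum_inner_eq S a b, sum_inner_eq S a' b, sum_inner_eq S a b', sum_inner_eq S a' b']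

theorem inner_res (S : St P C N pr) [Fintype C] {a a' : IrrCharacter C}
    (hv : ∀ c, pr c = 1 → (a.1 - a'.1) c = 0) (b : IrrCharacter C) :
    classInner (fun c : C => indFun C (a.1 - a'.1) c) b.1 =
      (Nat.card C : ℂ)⁻¹ * ((wt S a b : ℂ) - wt S a' b) := by
  have : Fintype N := Fintype.ofFinite _
  have h1 : (fun c : C => indFun C (a.1 - a'.1) c) =
      (Nat.card C : ℂ)⁻¹ • ∑ x : N, (cjS C (S.norC x.2) a.1 - cjS C (S.norC x.2) a'.1) := by
    funext c
    rw [res_ind S hv c, Pi.smul_apply, Finset.sum_apply, smul_eq_mul]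
    rfl
  rw [h1, classInner_smul_left, classInner_sum_left]
  simp only [classInner_sub_left, Finset.sum_sub_distrib]
  rw [sum_inner_eq' S b a, sum_inner_eq' S b a']

theorem cjI_inv_cancel (S : St P C N pr) {x : G} (hx : x ∈ N) {a b : IrrCharacter C}
    (h : cjI C (S.norC hx) a = b) : cjI C (S.norC (inv_mem hx)) b = a := by
  have h1 : (1 : G) ∈ Subgroup.normalizer (C : Set G) := one_mem _
  have h2 : x * x⁻¹ ∈ Subgroup.normalizer (C : Set G) := by rw [mul_inv_cancel]; exact h1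
  rw [← h, ← cjI_mul (S.norC hx) (S.norC (inv_mem hx)) h2]
  have : ∀ (y : G) (hy : y ∈ Subgroup.normalizer (C : Set G)), y = 1 → cjI C hy a = a := by
    rintro y hy rfl
    exact cjI_one hy a
  exact this _ h2 (mul_inv_cancel x)

theorem wt_symm (S : St P C N pr) (a b : IrrCharacter C) : wt S a b = wt S b a := by
  apply Nat.card_congr
  refine
    { toFun := fun x => ⟨x.1⁻¹, cjI_inv_cancel S x.1.2 x.2⟩
      invFun := fun x => ⟨x.1⁻¹, cjI_inv_cancel S x.1.2 x.2⟩
      left_inv := fun x => by ext; simp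
      right_inv := fun x => by ext; simp }

theorem wt_le (S : St P C N pr) (a b : IrrCharacter C) : wt S a b ≤ Nat.card N :=
  Nat.card_le_card_of_injective _ Subtype.val_injective

theorem sum_wt (S : St P C N pr) (a : IrrCharacter C) : ∑ b, wt S a b = Nat.card N := by
  classical
  have : Fintype N := Fintype.ofFinite _
  have h1 : ∀ b, wt S a b = (Finset.univ.filter (fun x : N => cjI C (S.norC x.2) a = b)).card := by
    intro b
    rw [wt, Nat.card_eq_fintype_card, Fintype.card_subtype]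
  simp only [h1]
  rw [← Finset.card_eq_sum_card_fiberwise (fun _ _ => Finset.mem_coe.mpr (Finset.mem_univ _)),
    Finset.card_univ, Nat.card_eq_fintype_card]

/-- Non-trivial on `P`. -/
def Ntr (P : Subgroup G) (a : IrrCharacter C) : Prop := ∃ y : C, (y : G) ∈ P ∧ a.1 y ≠ a.1 1

theorem ntr_cjI (S : St P C N pr) {x : G} (hx : x ∈ N) {a : IrrCharacter C} (h : Ntr P a) :
    Ntr P (cjI C (S.norC hx) a) := by
  obtain ⟨y, hy, hne⟩ := h
  refine ⟨(cE C (S.norC hx)).symm y, ?_, ?_⟩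
  · have h1 := S.norP x⁻¹ (inv_mem hx) y hy
    rw [inv_inv] at h1
    exact h1
  · rw [cjI_apply, cjI_apply, MulEquiv.apply_symm_apply, map_one]
    exact hne

/-- An element of `N` fixing a character non-trivial on `P` lies in `C`. -/
theorem mem_of_cjI_eq (S : St P C N pr) {x : G} (hx : x ∈ N) {a : IrrCharacter C} (h : Ntr P a)
    (hfix : cjI C (S.norC hx) a = a) : x ∈ C := by
  by_contra hxC
  obtain ⟨l, hl⟩ := exists_central_hom (P.subgroupOf C) (fun z hz g => by
    apply Subtype.ext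
    exact S.cent _ hz g g.2) a.2
  obtain ⟨y, hy, hne⟩ := h
  -- the map `y ↦ x y x⁻¹ y⁻¹` on `P`
  have hPcomm : ∀ u ∈ P, ∀ v ∈ P, u * v = v * u := fun u hu v hv => S.cent u hu v (S.hPC hv)
  let f : P → P := fun u => ⟨x * u * x⁻¹ * (u : G)⁻¹, P.mul_mem (S.norP x hx u u.2) (P.inv_mem u.2)⟩
  have hfinj : Function.Injective f := by
    intro u v huv
    have h1 : x * u * x⁻¹ * (u : G)⁻¹ = x * v * x⁻¹ * (v : G)⁻¹ := congrArg Subtype.val huv
    have h2 : x * ((u : G) * (v : G)⁻¹) * x⁻¹ = u * (v : G)⁻¹ := by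
      have h3 : x * u * x⁻¹ = x * v * x⁻¹ * ((v : G)⁻¹ * u) := by
        rw [← mul_assoc, ← h1]; group
      calc x * ((u : G) * (v : G)⁻¹) * x⁻¹ = (x * u * x⁻¹) * (x * v * x⁻¹)⁻¹ := by group
        _ = (x * v * x⁻¹) * ((v : G)⁻¹ * u) * (x * v * x⁻¹)⁻¹ := by rw [h3]
        _ = ((v : G)⁻¹ * u) * (x * v * x⁻¹) * (x * v * x⁻¹)⁻¹ := by
            rw [hPcomm _ (S.norP x hx v v.2) _ (P.mul_mem (P.inv_mem v.2) u.2)]
        _ = (v : G)⁻¹ * u := by group
        _ = _ := hPcomm _ (P.inv_mem v.2) _ u.2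
    by_contra huv'
    apply hxC
    apply S.free x hx _ (P.mul_mem u.2 (P.inv_mem v.2)) _ h2
    intro h4
    exact huv' (Subtype.ext (mul_inv_eq_one.mp h4))
  obtain ⟨u, hu⟩ := Finite.surjective_of_injective hfinj ⟨y, hy⟩
  have hu' : x * u * x⁻¹ * (u : G)⁻¹ = y := congrArg Subtype.val hu
  let uC : P.subgroupOf C := ⟨⟨u, S.hPC u.2⟩, u.2⟩
  let yC : P.subgroupOf C := ⟨y, hy⟩
  have h1 : a.1 (cE C (S.norC hx) (uC : C)) = a.1 (uC : C) := congrFun (congrArg Subtype.val hfix) _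
  have h2 : cE C (S.norC hx) (uC : C) = (yC : C) * (uC : C) := by
    apply Subtype.ext
    rw [cE_coe]
    change x * u * x⁻¹ = y * u
    rw [← hu']; group
  rw [h2, hl yC (uC : C)] at h1
  have h3 : (l uC : ℂ) * a.1 1 = a.1 (uC : C) := by
    have := hl uC 1
    rw [mul_one] at this
    exact this.symm
  have h4 : a.1 (uC : C) ≠ 0 := by
    rw [← h3]
    exact mul_ne_zero (Units.ne_zero _) (isIrr_one_ne_zero a.2)
  have h5 : (l yC : ℂ) = 1 := by
    have : (l yC : ℂ) * a.1 (uC : C) = 1 * a.1 (uC : C) := by rw [one_mul]; exact h1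
    exact mul_right_cancel₀ h4 this
  apply hne
  have := hl yC 1
  rw [mul_one, h5, one_mul] at this
  exact this

/-- Conjugacy under `N`. -/
def Cnj (S : St P C N pr) (a b : IrrCharacter C) : Prop := ∃ x, ∃ hx : x ∈ N, cjI C (S.norC hx) a = b

theorem cjI_cjI (S : St P C N pr) {x y : G} (hx : x ∈ N) (hy : y ∈ N) (a : IrrCharacter C) :
    cjI C (S.norC hy) (cjI C (S.norC hx) a) = cjI C (S.norC (mul_mem hx hy)) a :=
  (cjI_mul (S.norC hx) (S.norC hy) (S.norC (mul_mem hx hy)) a).symm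

theorem Cnj.symm {S : St P C N pr} {a b : IrrCharacter C} (h : Cnj S a b) : Cnj S b a := by
  obtain ⟨x, hx, h⟩ := h
  exact ⟨x⁻¹, inv_mem hx, cjI_inv_cancel S hx h⟩

theorem Cnj.refl (S : St P C N pr) (a : IrrCharacter C) : Cnj S a a :=
  ⟨1, one_mem _, cjI_one _ a⟩

theorem Cnj.trans {S : St P C N pr} {a b c : IrrCharacter C} (h : Cnj S a b) (h' : Cnj S b c) :
    Cnj S a c := by
  obtain ⟨x, hx, rfl⟩ := h
  obtain ⟨y, hy, rfl⟩ := h'
  exact ⟨x * y, mul_mem hx hy, (cjI_cjI S hx hy a).symm⟩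

theorem wt_of_not_cnj {S : St P C N pr} {a b : IrrCharacter C} (h : ¬ Cnj S a b) :
    wt S a b = 0 := by
  rw [wt, Nat.card_eq_zero]
  left
  exact ⟨fun x => h ⟨x.1, x.1.2, x.2⟩⟩

theorem wt_of_cnj {S : St P C N pr} {a b : IrrCharacter C} (h : Cnj S a b) (hn : Ntr P a) :
    wt S a b = Nat.card C := by
  obtain ⟨x₀, hx₀, rfl⟩ := h
  symm
  apply Nat.card_congr
  refine
    { toFun := fun c => ⟨⟨(c : G) * x₀, mul_mem (S.hCN c.2) hx₀⟩, by
        rw [← cjI_cjI S (S.hCN c.2) hx₀, cjI_of_mem c.2]⟩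
      invFun := fun x => ⟨x.1 * x₀⁻¹, by
        apply mem_of_cjI_eq S (mul_mem x.1.2 (inv_mem hx₀)) hn
        rw [← cjI_cjI S x.1.2 (inv_mem hx₀)]
        have h1 := x.2
        rw [h1]
        exact cjI_inv_cancel S hx₀ rfl⟩
      left_inv := fun c => by ext; simp
      right_inv := fun x => by ext; simp }

end Main

section Mult

variable {G : Type*} [Group G] [Fintype G] {P C N : Subgroup G} {pr : C →* P}

/-- Multiplicity of `a` in the restriction of `χ`. -/
def mu (χ : IrrCharacter G) (a : IrrCharacter C) : ℕ :=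
  (ci_nat (CharInd.isChar_res C (isChar_of_irr χ.2)) a.2).choose

theorem mu_spec [Fintype C] (χ : IrrCharacter G) (a : IrrCharacter C) :
    classInner (fun c : C => χ.1 c) a.1 = mu χ a := by
  rw [← ci_eq]
  exact (ci_nat (CharInd.isChar_res C (isChar_of_irr χ.2)) a.2).choose_spec

theorem D_coeff (χ : IrrCharacter G) (a b : IrrCharacter C) :
    classInner (indFun C (a.1 - b.1)) χ.1 = (((mu χ a : ℤ) - mu χ b : ℤ) : ℂ) := by
  have : Fintype C := Fintype.ofFinite _
  rw [reciprocity C _ _ (isChar_classFn (isChar_of_irr χ.2)), classInner_sub_left,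
    ← classInner_conj_symm, ← classInner_conj_symm _ b.1, mu_spec, mu_spec]
  simp

theorem D_gen (a b : IrrCharacter C) : IsGeneralizedCharacter G (indFun C (a.1 - b.1)) :=
  isGen_ind C (gen_sub (gen_of_irr a.2) (gen_of_irr b.2))

theorem D_one {a b : IrrCharacter C} (h : a.1 1 = b.1 1) : indFun C (a.1 - b.1) 1 = 0 := by
  rw [indFun_one, Pi.sub_apply, h, sub_self, mul_zero]

theorem D_sum (a b a' b' : IrrCharacter C) :
    classInner (indFun C (a.1 - b.1)) (indFun C (a'.1 - b'.1)) =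
      ((∑ χ : IrrCharacter G, ((mu χ a : ℤ) - mu χ b) * ((mu χ a' : ℤ) - mu χ b') : ℤ) : ℂ) := by
  rw [classFn_inner_eq_sum (indFun_classFn C _) (indFun_classFn C _)]
  simp only [D_coeff]
  push_cast
  exact Finset.sum_congr rfl fun χ _ => by simp

theorem D_int (S : St P C N pr) {a a' b b' : IrrCharacter C}
    (hv : ∀ c, pr c = 1 → (b.1 - b'.1) c = 0) :
    (Nat.card C : ℤ) * ∑ χ : IrrCharacter G, ((mu χ a : ℤ) - mu χ a') * ((mu χ b : ℤ) - mu χ b') =
      (wt S b a : ℤ) - wt S b a' - wt S b' a + wt S b' a' := by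
  have h1 := inner_D S (a := a) (a' := a') hv
  rw [D_sum] at h1
  have hC : (Nat.card C : ℂ) ≠ 0 := Nat.cast_ne_zero.mpr Nat.card_pos.ne'
  rw [eq_inv_mul_iff_mul_eq₀ hC] at h1
  exact_mod_cast h1

theorem mu_cnj {S : St P C N pr} (χ : IrrCharacter G) {a b : IrrCharacter C} (h : Cnj S a b) :
    mu χ a = mu χ b := by
  have : Fintype C := Fintype.ofFinite _
  obtain ⟨x, hx, rfl⟩ := h
  have h1 := mu_spec χ a
  have h2 := mu_spec χ (cjI C (S.norC hx) a)
  have h3 : (fun c : C => χ.1 c) = cjS C (S.norC hx) (fun c : C => χ.1 c) := by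
    funext c
    change χ.1 c = χ.1 (x * c * x⁻¹)
    exact (isChar_classFn (isChar_of_irr χ.2) _ _).symm
  rw [h3, cjI_coe] at h2
  have h4 := CharGC.inner_equiv (cE C (S.norC hx)) (fun c : C => χ.1 c) a.1
  have h5 : classInner (cjS C (S.norC hx) (fun c : C => χ.1 c)) (cjS C (S.norC hx) a.1) =
      classInner (fun c : C => χ.1 c) a.1 := h4
  rw [h5, h1] at h2
  exact_mod_cast h2

/-- Degree formula. -/
theorem deg_sum (χ : IrrCharacter G) :
    charDegree χ.1 = ∑ a : IrrCharacter C, mu χ a * charDegree a.1 := by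
  have : Fintype C := Fintype.ofFinite _
  have h1 := congrFun (char_eq_sum_inner (CharInd.isChar_res C (isChar_of_irr χ.2))) 1
  rw [Finset.sum_apply] at h1
  simp only [Pi.smul_apply, smul_eq_mul, mu_spec] at h1
  have h2 : (charDegree χ.1 : ℂ) = χ.1 1 := CharGlaub2.charDegree_cast (isChar_of_irr χ.2)
  have h3 : ∀ a : IrrCharacter C, a.1 1 = (charDegree a.1 : ℂ) := fun a =>
    (CharGlaub2.charDegree_cast (isChar_of_irr a.2)).symm
  simp only [h3] at h1
  have h4 : χ.1 ((1 : C) : G) = χ.1 1 := rfl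
  rw [h4, ← h2] at h1
  exact_mod_cast h1

theorem deg_pos {A : Type*} [Group A] (a : IrrCharacter A) : 1 ≤ charDegree a.1 := by
  rw [Nat.one_le_iff_ne_zero]
  intro h
  have h2 : (charDegree a.1 : ℂ) = a.1 1 := CharGlaub2.charDegree_cast (isChar_of_irr a.2)
  rw [h, Nat.cast_zero] at h2
  exact isIrr_one_ne_zero a.2 h2.symm

theorem deg_ge (χ : IrrCharacter G) (s : Finset (IrrCharacter C)) :
    ∑ a ∈ s, mu χ a ≤ charDegree χ.1 := by
  rw [deg_sum (C := C) χ]
  calc ∑ a ∈ s, mu χ a ≤ ∑ a : IrrCharacter C, mu χ a :=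
        Finset.sum_le_sum_of_subset (Finset.subset_univ _)
    _ ≤ _ := Finset.sum_le_sum fun a _ => Nat.le_mul_of_pos_right _ (deg_pos a)

/-- The trivial character. -/
def one (A : Type*) [Group A] : IrrCharacter A := ⟨fun _ => 1, isIrr_trivial⟩

theorem one_not_ntr : ¬ Ntr P (one C) := by
  rintro ⟨y, _, h⟩
  exact h rfl

theorem one_cjI (S : St P C N pr) {x : G} (hx : x ∈ N) : cjI C (S.norC hx) (one C) = one C := rfl

theorem wt_one (S : St P C N pr) : wt S (one C) (one C) = Nat.card N := by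
  exact Nat.card_congr (Equiv.subtypeUnivEquiv fun x => one_cjI S x.2)

theorem Cnj.ntr {S : St P C N pr} {a b : IrrCharacter C} (h : Cnj S a b) (ha : Ntr P a) :
    Ntr P b := by
  obtain ⟨x, hx, rfl⟩ := h
  exact ntr_cjI S hx ha

theorem ntr_tw (S : St P C N pr) {φ : IrrCharacter C} (hφ : ¬ Ntr P φ) {l : P →* ℂˣ}
    (hl : l ≠ 1) : Ntr P (tw pr l φ) := by
  have h1 : ∃ y : P, l y ≠ 1 := by
    by_contra hcon
    push Not at hcon
    exact hl (MonoidHom.ext hcon)
  obtain ⟨y, hy⟩ := h1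
  refine ⟨⟨y, S.hPC y.2⟩, y.2, ?_⟩
  have h2 : pr ⟨y, S.hPC y.2⟩ = y := Subtype.ext (S.pr_id ⟨y, S.hPC y.2⟩ y.2)
  rw [tw_apply, tw_apply, h2, map_one, map_one, Units.val_one, one_mul]
  have h3 : φ.1 ⟨y, S.hPC y.2⟩ = φ.1 1 := by
    by_contra hne
    exact hφ ⟨⟨y, S.hPC y.2⟩, y.2, hne⟩
  rw [h3]
  intro h4
  have h5 : (l y : ℂ) = 1 := mul_right_cancel₀ (isIrr_one_ne_zero φ.2) (h4.trans (one_mul _).symm)
  exact hy (Units.ext h5)

theorem tw_one (a : IrrCharacter C) : tw pr 1 a = a := by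
  apply Subtype.ext
  funext c
  rw [tw_apply, MonoidHom.one_apply, Units.val_one, one_mul]

theorem tw_tw (l m : P →* ℂˣ) (a : IrrCharacter C) : tw pr l (tw pr m a) = tw pr (l * m) a := by
  apply Subtype.ext
  funext c
  rw [tw_apply, tw_apply, tw_apply, MonoidHom.mul_apply, Units.val_mul, mul_assoc]

theorem exists_tw (S : St P C N pr) (a : IrrCharacter C) :
    ∃ (l : P →* ℂˣ) (φ : IrrCharacter C), ¬ Ntr P φ ∧ a = tw pr l φ := by
  obtain ⟨l, hl⟩ := exists_central_hom (P.subgroupOf C) (fun z hz g => by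
    apply Subtype.ext
    exact S.cent _ hz g g.2) a.2
  let i : P →* P.subgroupOf C :=
    { toFun := fun y => ⟨⟨y, S.hPC y.2⟩, y.2⟩
      map_one' := rfl
      map_mul' := fun _ _ => rfl }
  refine ⟨l.comp i, tw pr (l.comp i)⁻¹ a, ?_, ?_⟩
  · rintro ⟨y, hy, hne⟩
    apply hne
    have h2 : pr y = ⟨y, hy⟩ := Subtype.ext (S.pr_id y hy)
    rw [tw_apply, tw_apply, h2, map_one, map_one, Units.val_one, one_mul]
    have h3 := hl ⟨y, hy⟩ 1
    rw [mul_one] at h3
    have h4 : a.1 y = (l (i ⟨y, hy⟩) : ℂ) * a.1 1 := h3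
    rw [h4, ← mul_assoc, MonoidHom.inv_apply, MonoidHom.comp_apply, ← Units.val_mul,
      inv_mul_cancel, Units.val_one, one_mul]
  · rw [tw_tw]
    have h5 : l.comp i * (l.comp i)⁻¹ = 1 := by ext g; simp
    rw [h5, tw_one]

theorem tw_inj (S : St P C N pr) {φ : IrrCharacter C} (hφ : ¬ Ntr P φ) :
    Function.Injective (fun l : P →* ℂˣ => tw pr l φ) := by
  intro l m h
  ext y
  have h2 : pr ⟨y, S.hPC y.2⟩ = y := Subtype.ext (S.pr_id ⟨y, S.hPC y.2⟩ y.2)
  have h3 := congrFun (congrArg Subtype.val h) ⟨y, S.hPC y.2⟩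
  simp only [tw_apply, h2] at h3
  have h4 : φ.1 ⟨y, S.hPC y.2⟩ = φ.1 1 := by
    by_contra hne
    exact hφ ⟨⟨y, S.hPC y.2⟩, y.2, hne⟩
  rw [h4] at h3
  exact mul_right_cancel₀ (isIrr_one_ne_zero φ.2) h3

theorem card_lam (S : St P C N pr) : Nat.card (P →* ℂˣ) = Nat.card P := by
  rw [card_hom_units]
  have h2 : commutator P = ⊥ := by
    rw [commutator_def, Subgroup.commutator_eq_bot_iff_le_centralizer]
    intro x _
    rw [Subgroup.mem_centralizer_iff]
    intro y _
    exact Subtype.ext (S.cent y y.2 x (S.hPC x.2))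
  rw [h2, Subgroup.index_bot]

theorem tw_deg (l : P →* ℂˣ) (a : IrrCharacter C) : (tw pr l a).1 1 = a.1 1 := by
  rw [tw_apply, map_one, map_one, Units.val_one, one_mul]

theorem exists_zero (S : St P C N pr) (χ : IrrCharacter G) {φ : IrrCharacter C} (hφ : ¬ Ntr P φ)
    (hd : charDegree χ.1 + 1 < Nat.card P) : ∃ l : P →* ℂˣ, l ≠ 1 ∧ mu χ (tw pr l φ) = 0 := by
  classical
  by_contra hcon
  push Not at hcon
  have : Fintype (P →* ℂˣ) := Fintype.ofFinite _
  have h1 := deg_ge χ ((Finset.univ.erase (1 : P →* ℂˣ)).image (fun l => tw pr l φ))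
  rw [Finset.sum_image (fun l _ m _ h => tw_inj S hφ h)] at h1
  have h2 : (Finset.univ.erase (1 : P →* ℂˣ)).card • 1 ≤
      ∑ l ∈ Finset.univ.erase (1 : P →* ℂˣ), mu χ (tw pr l φ) :=
    Finset.card_nsmul_le_sum _ _ _ fun l hl => Nat.one_le_iff_ne_zero.mpr
      (hcon l (Finset.ne_of_mem_erase hl))
  rw [Finset.card_erase_of_mem (Finset.mem_univ _), Finset.card_univ, ← Nat.card_eq_fintype_card,
    card_lam S, smul_eq_mul, mul_one] at h2
  omega

theorem card_cnj (S : St P C N pr) {a : IrrCharacter C} (ha : Ntr P a)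
    [DecidablePred (fun b => Cnj S a b)] :
    (Finset.univ.filter (fun b => Cnj S a b)).card = C.relIndex N := by
  have h1 := sum_wt S a
  have h2 : ∀ b, wt S a b = if Cnj S a b then Nat.card C else 0 := by
    intro b
    by_cases h : Cnj S a b
    · rw [if_pos h, wt_of_cnj h ha]
    · rw [if_neg h, wt_of_not_cnj h]
  simp only [h2] at h1
  rw [← Finset.sum_filter, Finset.sum_const, smul_eq_mul, ← CharClifford.relIndex_mul_card' C N S.hCN]
    at h1
  exact Nat.eq_of_mul_eq_mul_right Nat.card_pos h1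

theorem card_cnj_tw (S : St P C N pr) {φ : IrrCharacter C} (hφ : ¬ Ntr P φ) {b : IrrCharacter C}
    (hb : Ntr P b) [Fintype (P →* ℂˣ)] [DecidablePred (fun m : P →* ℂˣ => Cnj S (tw pr m φ) b)] :
    (Finset.univ.filter (fun m : P →* ℂˣ => Cnj S (tw pr m φ) b)).card ≤ C.relIndex N := by
  classical
  rw [← card_cnj S hb]
  apply Finset.card_le_card_of_injOn (fun m => tw pr m φ)
  · intro m hm
    rw [Finset.mem_coe, Finset.mem_filter] at hm ⊢
    exact ⟨Finset.mem_univ _, hm.2.symm⟩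
  · intro l _ m _ h
    exact tw_inj S hφ h

end Mult

section Exc

variable {G : Type*} [Group G] [Fintype G] {P C N : Subgroup G} {pr : C →* P}

theorem vt (S : St P C N pr) (φ : IrrCharacter C) (l m : P →* ℂˣ) :
    ∀ c, pr c = 1 → ((tw pr l φ).1 - (tw pr m φ).1) c = 0 := fun c hc => tw_vanish l m φ c hc

theorem norm_of_not_cnj (S : St P C N pr) {φ : IrrCharacter C} (hφ : ¬ Ntr P φ) {l m : P →* ℂˣ}
    (hl : l ≠ 1) (hm : m ≠ 1) (h : ¬ Cnj S (tw pr l φ) (tw pr m φ)) :
    classInner (indFun C ((tw pr l φ).1 - (tw pr m φ).1))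
      (indFun C ((tw pr l φ).1 - (tw pr m φ).1)) = 2 := by
  have hC : (Nat.card C : ℂ) ≠ 0 := Nat.cast_ne_zero.mpr Nat.card_pos.ne'
  rw [inner_D S (vt S φ l m), wt_of_cnj (Cnj.refl S _) (ntr_tw S hφ hl),
    wt_of_cnj (Cnj.refl S _) (ntr_tw S hφ hm), wt_of_not_cnj h,
    wt_of_not_cnj (fun h' => h h'.symm), inv_mul_eq_iff_eq_mul₀ hC]
  push_cast
  ring

theorem D_eq_zero_of_cnj (S : St P C N pr) {φ : IrrCharacter C} (hφ : ¬ Ntr P φ)
    {l m : P →* ℂˣ} (hl : l ≠ 1) (hm : m ≠ 1) (h : Cnj S (tw pr l φ) (tw pr m φ)) :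
    indFun C ((tw pr l φ).1 - (tw pr m φ).1) = 0 := by
  apply classInner_self_eq_zero
  rw [inner_D S (vt S φ l m), wt_of_cnj (Cnj.refl S _) (ntr_tw S hφ hl),
    wt_of_cnj (Cnj.refl S _) (ntr_tw S hφ hm), wt_of_cnj h (ntr_tw S hφ hl),
    wt_of_cnj h.symm (ntr_tw S hφ hm)]
  ring

theorem exists_pair (S : St P C N pr) {φ : IrrCharacter C} (hφ : ¬ Ntr P φ) {l m : P →* ℂˣ}
    (hl : l ≠ 1) (hm : m ≠ 1) (h : ¬ Cnj S (tw pr l φ) (tw pr m φ)) :
    ∃ χ ψ : IrrCharacter G, χ ≠ ψ ∧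
      indFun C ((tw pr l φ).1 - (tw pr m φ).1) = χ.1 - ψ.1 :=
  norm_two (D_gen _ _) (norm_of_not_cnj S hφ hl hm h) (D_one (by rw [tw_deg, tw_deg]))

theorem coeff_pair {χ ψ ξ : IrrCharacter G} {a b : IrrCharacter C}
    (h : indFun C (a.1 - b.1) = χ.1 - ψ.1) [Decidable (χ = ξ)] [Decidable (ψ = ξ)] :
    (mu ξ a : ℤ) - mu ξ b = (if χ = ξ then 1 else 0) - (if ψ = ξ then 1 else 0) := by
  have h1 := D_coeff ξ a b
  rw [h, classInner_sub_left, irr_inner' χ ξ, irr_inner' ψ ξ] at h1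
  have h2 : (((if χ = ξ then (1 : ℤ) else 0) - (if ψ = ξ then 1 else 0) : ℤ) : ℂ) =
      (((mu ξ a : ℤ) - mu ξ b : ℤ) : ℂ) := by
    rw [← h1]
    push_cast
    rfl
  exact_mod_cast h2.symm

theorem exists_kappa (S : St P C N pr) {φ : IrrCharacter C} (hφ : ¬ Ntr P φ) {l m : P →* ℂˣ}
    (hl : l ≠ 1) (hm : m ≠ 1) {ξ : IrrCharacter G} (h : mu ξ (tw pr l φ) = 1)
    (h' : mu ξ (tw pr m φ) = 0) :
    ∃ κ : IrrCharacter G, κ ≠ ξ ∧ indFun C ((tw pr l φ).1 - (tw pr m φ).1) = ξ.1 - κ.1 := by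
  classical
  have hn : ¬ Cnj S (tw pr l φ) (tw pr m φ) := by
    intro hc
    have := mu_cnj ξ hc
    omega
  obtain ⟨χ, ψ, hne, heq⟩ := exists_pair S hφ hl hm hn
  have h1 := coeff_pair (ξ := ξ) heq
  rw [h, h'] at h1
  by_cases h2 : χ = ξ
  · subst h2
    exact ⟨ψ, hne.symm, heq⟩
  · rw [if_neg h2] at h1
    split_ifs at h1 <;> omega

theorem mu_le_one (S : St P C N pr) {φ : IrrCharacter C} (hφ : ¬ Ntr P φ) {l m : P →* ℂˣ}
    (hl : l ≠ 1) (hm : m ≠ 1) {ξ : IrrCharacter G}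
    (h' : mu ξ (tw pr m φ) = 0) : mu ξ (tw pr l φ) ≤ 1 := by
  classical
  by_cases hc : Cnj S (tw pr l φ) (tw pr m φ)
  · have := mu_cnj ξ hc
    omega
  · obtain ⟨χ, ψ, hne, heq⟩ := exists_pair S hφ hl hm hc
    have h1 := coeff_pair (ξ := ξ) heq
    rw [h'] at h1
    split_ifs at h1 <;> omega

theorem dichotomy (S : St P C N pr) {φ : IrrCharacter C} (hφ : ¬ Ntr P φ) (ξ : IrrCharacter G) :
    (∀ l m : P →* ℂˣ, l ≠ 1 → m ≠ 1 → mu ξ (tw pr l φ) = 1 → mu ξ (tw pr m φ) = 1 →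
      Cnj S (tw pr l φ) (tw pr m φ)) ∨
    (∀ l m : P →* ℂˣ, l ≠ 1 → m ≠ 1 → mu ξ (tw pr l φ) = 0 → mu ξ (tw pr m φ) = 0 →
      Cnj S (tw pr l φ) (tw pr m φ)) := by
  classical
  by_contra hcon
  push Not at hcon
  obtain ⟨⟨l, m, hl, hm, hl1, hm1, hlm⟩, k, n, hk, hn, hk0, hn0, hkn⟩ := hcon
  obtain ⟨κ, hκ, h1⟩ := exists_kappa S hφ hl hk hl1 hk0
  obtain ⟨κ', hκ', h2⟩ := exists_kappa S hφ hm hn hm1 hn0
  have h3 := inner_D S (a := tw pr l φ) (a' := tw pr k φ) (vt S φ m n)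
  have e1 : ¬ Cnj S (tw pr m φ) (tw pr l φ) := fun h => hlm h.symm
  have e2 : ¬ Cnj S (tw pr m φ) (tw pr k φ) := by
    intro h; have := mu_cnj ξ h; omega
  have e3 : ¬ Cnj S (tw pr n φ) (tw pr l φ) := by
    intro h; have := mu_cnj ξ h; omega
  have e4 : ¬ Cnj S (tw pr n φ) (tw pr k φ) := fun h => hkn h.symm
  rw [h1, h2, wt_of_not_cnj e1, wt_of_not_cnj e2, wt_of_not_cnj e3, wt_of_not_cnj e4,
    inner_diff, if_pos rfl, if_neg hκ'.symm, if_neg hκ] at h3
  split_ifs at h3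
  · norm_num at h3
  · norm_num at h3

/-- The exceptional family through `ξ`. -/
theorem exc (S : St P C N pr) {ξ : IrrCharacter G} {φ : IrrCharacter C} (hφ : ¬ Ntr P φ)
    {l₀ l₁ : P →* ℂˣ} (hl₀ : l₀ ≠ 1) (hl₁ : l₁ ≠ 1) (h0 : mu ξ (tw pr l₀ φ) ≠ 0)
    (h1 : mu ξ (tw pr l₁ φ) = 0) :
    ∃ (ls : P →* ℂˣ) (κ : (P →* ℂˣ) → IrrCharacter G), ls ≠ 1 ∧
      ((mu ξ (tw pr ls φ) = 1 ∧
          ∀ m, m ≠ 1 → indFun C ((tw pr ls φ).1 - (tw pr m φ).1) = ξ.1 - (κ m).1) ∨
        (mu ξ (tw pr ls φ) = 0 ∧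
          (∀ m, m ≠ 1 → ¬ Cnj S (tw pr m φ) (tw pr ls φ) → mu ξ (tw pr m φ) = 1) ∧
          ∀ m, m ≠ 1 → indFun C ((tw pr m φ).1 - (tw pr ls φ).1) = ξ.1 - (κ m).1)) := by
  classical
  have hle : ∀ m : P →* ℂˣ, m ≠ 1 → mu ξ (tw pr m φ) ≤ 1 := fun m hm => mu_le_one S hφ hm hl₁ h1
  have h01 : mu ξ (tw pr l₀ φ) = 1 := by have := hle l₀ hl₀; omega
  rcases dichotomy S hφ ξ with hA | hB
  · have key : ∀ m : P →* ℂˣ, m ≠ 1 → ∃ κ : IrrCharacter G,
        indFun C ((tw pr l₀ φ).1 - (tw pr m φ).1) = ξ.1 - κ.1 := by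
      intro m hm
      by_cases hc : mu ξ (tw pr m φ) = 1
      · refine ⟨ξ, ?_⟩
        rw [D_eq_zero_of_cnj S hφ hl₀ hm (hA l₀ m hl₀ hm h01 hc), sub_self]
      · have h2 : mu ξ (tw pr m φ) = 0 := by have := hle m hm; omega
        obtain ⟨κ, -, h3⟩ := exists_kappa S hφ hl₀ hm h01 h2
        exact ⟨κ, h3⟩
    refine ⟨l₀, fun m => if h : m ≠ 1 then (key m h).choose else ξ, hl₀, Or.inl ⟨h01, ?_⟩⟩
    intro m hm
    simp only [dif_pos hm]
    exact (key m hm).choose_spec
  · have key : ∀ m : P →* ℂˣ, m ≠ 1 → ∃ κ : IrrCharacter G,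
        indFun C ((tw pr m φ).1 - (tw pr l₁ φ).1) = ξ.1 - κ.1 := by
      intro m hm
      by_cases hc : mu ξ (tw pr m φ) = 0
      · refine ⟨ξ, ?_⟩
        rw [D_eq_zero_of_cnj S hφ hm hl₁ (hB m l₁ hm hl₁ hc h1), sub_self]
      · have h2 : mu ξ (tw pr m φ) = 1 := by have := hle m hm; omega
        obtain ⟨κ, -, h3⟩ := exists_kappa S hφ hm hl₁ h2 h1
        exact ⟨κ, h3⟩
    refine ⟨l₁, fun m => if h : m ≠ 1 then (key m h).choose else ξ, hl₁, Or.inr ⟨h1, ?_, ?_⟩⟩
    · intro m hm hc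
      by_contra hne
      have h2 : mu ξ (tw pr m φ) = 0 := by have := hle m hm; omega
      exact hc (hB m l₁ hm hl₁ h2 h1)
    · intro m hm
      simp only [dif_pos hm]
      exact (key m hm).choose_spec

/-- Restriction of a pair. -/
theorem mu_pair (S : St P C N pr) {φ : IrrCharacter C} {l m : P →* ℂˣ} {χ ψ : IrrCharacter G}
    (h : indFun C ((tw pr l φ).1 - (tw pr m φ).1) = χ.1 - ψ.1) (b : IrrCharacter C) :
    (Nat.card C : ℤ) * ((mu χ b : ℤ) - mu ψ b) = (wt S (tw pr l φ) b : ℤ) - wt S (tw pr m φ) b := by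
  have : Fintype C := Fintype.ofFinite _
  have h1 := inner_res S (vt S φ l m) b
  have h2 : (fun c : C => indFun C ((tw pr l φ).1 - (tw pr m φ).1) c) =
      (fun c : C => χ.1 c) - (fun c : C => ψ.1 c) := by
    rw [h]; rfl
  rw [h2, classInner_sub_left, mu_spec, mu_spec] at h1
  have hC : (Nat.card C : ℂ) ≠ 0 := Nat.cast_ne_zero.mpr Nat.card_pos.ne'
  rw [eq_inv_mul_iff_mul_eq₀ hC] at h1
  exact_mod_cast h1

/-- Fibres of `κ`. -/
theorem cnj_of_D_zero (S : St P C N pr) {φ : IrrCharacter C} (hφ : ¬ Ntr P φ) {l m : P →* ℂˣ}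
    (hl : l ≠ 1) (hm : m ≠ 1) (h : indFun C ((tw pr l φ).1 - (tw pr m φ).1) = 0) :
    Cnj S (tw pr l φ) (tw pr m φ) := by
  by_contra hc
  have h1 := norm_of_not_cnj S hφ hl hm hc
  rw [h, classInner_zero_left] at h1
  norm_num at h1

end Exc

section Claim

variable {G : Type*} [Group G] [Fintype G] {P C N : Subgroup G} {pr : C →* P}

theorem mu_one (a : IrrCharacter C) [Decidable (a = one C)] :
    mu (one G) a = if a = one C then 1 else 0 := by
  classical
  have : Fintype C := Fintype.ofFinite _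
  have h1 := mu_spec (one G) a
  have h2 : (fun c : C => (one G).1 c) = (one C).1 := rfl
  rw [h2, irr_inner' (one C) a] at h1
  by_cases h : a = one C
  · rw [if_pos h]
    rw [if_pos h.symm] at h1
    exact_mod_cast h1.symm
  · rw [if_neg h]
    rw [if_neg (fun h' => h h'.symm)] at h1
    exact_mod_cast h1.symm

/-- Coefficients of `(1 - λ)^G - 1`. -/
def bb (pr : C →* P) (l : P →* ℂˣ) (χ : IrrCharacter G) : ℤ :=
  (mu χ (one C) : ℤ) - mu χ (tw pr l (one C)) - (mu χ (one C) : ℤ) * 0 -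
    (by classical exact if χ = one G then 1 else 0)

theorem bb_eq (l : P →* ℂˣ) (χ : IrrCharacter G) [Decidable (χ = one G)] :
    bb pr l χ = (mu χ (one C) : ℤ) - mu χ (tw pr l (one C)) - (if χ = one G then 1 else 0) := by
  rw [bb, mul_zero, sub_zero]
  congr 1
  split_ifs <;> rfl

theorem tw_one_ne (S : St P C N pr) {l : P →* ℂˣ} (hl : l ≠ 1) : tw pr l (one C) ≠ one C := by
  intro h
  exact one_not_ntr (P := P) (h ▸ ntr_tw S one_not_ntr hl)

theorem sum_bb_sq (S : St P C N pr) {l : P →* ℂˣ} (hl : l ≠ 1) :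
    ∑ χ : IrrCharacter G, bb pr l χ ^ 2 = (C.relIndex N : ℤ) := by
  classical
  have hn := ntr_tw S one_not_ntr hl
  have hc : ¬ Cnj S (one C) (tw pr l (one C)) := fun h => one_not_ntr (P := P) (h.symm.ntr hn)
  have h1 := D_int S (a := one C) (a' := tw pr l (one C)) (b := one C) (b' := tw pr l (one C))
    (fun c hc => tw_vanish' l (one C) c hc)
  rw [wt_one, wt_of_not_cnj hc, wt_of_not_cnj (fun h => hc h.symm),
    wt_of_cnj (Cnj.refl S _) hn, ← CharClifford.relIndex_mul_card' C N S.hCN] at h1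
  have hC : (Nat.card C : ℤ) ≠ 0 := Nat.cast_ne_zero.mpr Nat.card_pos.ne'
  have h2 : ∑ χ : IrrCharacter G, ((mu χ (one C) : ℤ) - mu χ (tw pr l (one C))) *
      ((mu χ (one C) : ℤ) - mu χ (tw pr l (one C))) = (C.relIndex N : ℤ) + 1 := by
    apply mul_left_cancel₀ hC
    rw [h1]
    push_cast
    ring
  have h3 : ∀ χ : IrrCharacter G, bb pr l χ ^ 2 =
      ((mu χ (one C) : ℤ) - mu χ (tw pr l (one C))) *
      ((mu χ (one C) : ℤ) - mu χ (tw pr l (one C))) +
      (if χ = one G then (1 - 2 * ((mu χ (one C) : ℤ) - mu χ (tw pr l (one C)))) else 0) := by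
    intro χ
    rw [bb_eq]
    split_ifs <;> ring
  simp only [h3, Finset.sum_add_distrib, h2, Finset.sum_ite_eq', Finset.mem_univ, if_true]
  rw [mu_one, mu_one, if_pos rfl, if_neg (tw_one_ne S hl)]
  push_cast
  ring

theorem sum_bb_deg (S : St P C N pr) {l : P →* ℂˣ} (hl : l ≠ 1) :
    ∑ χ : IrrCharacter G, bb pr l χ * (charDegree χ.1 : ℤ) = -1 := by
  classical
  obtain ⟨c, hc1, hc2⟩ := exists_coeff (D_gen (G := G) (one C) (tw pr l (one C)))
  have h1 : ∀ χ, c χ = (mu χ (one C) : ℤ) - mu χ (tw pr l (one C)) := by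
    intro χ
    have := hc1 χ
    rw [D_coeff] at this
    exact_mod_cast this.symm
  have h2 := congrFun hc2 1
  rw [D_one (by rw [tw_deg]), Finset.sum_apply] at h2
  simp only [Pi.smul_apply, smul_eq_mul] at h2
  have h3 : ∀ χ : IrrCharacter G, χ.1 1 = (charDegree χ.1 : ℂ) := fun χ =>
    (CharGlaub2.charDegree_cast (isChar_of_irr χ.2)).symm
  simp only [h3] at h2
  have h4 : ∑ χ : IrrCharacter G, c χ * (charDegree χ.1 : ℤ) = 0 := by exact_mod_cast h2.symm
  have h5 : ∀ χ : IrrCharacter G, bb pr l χ * (charDegree χ.1 : ℤ) =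
      c χ * (charDegree χ.1 : ℤ) - (if χ = one G then (charDegree χ.1 : ℤ) else 0) := by
    intro χ
    rw [bb_eq, h1]
    split_ifs <;> ring
  simp only [h5, Finset.sum_sub_distrib, h4, Finset.sum_ite_eq', Finset.mem_univ, if_true]
  have h6 : charDegree (one G).1 = 1 := by
    have := CharGlaub2.charDegree_cast (isChar_of_irr (one G).2)
    have h7 : (one G).1 1 = (1 : ℂ) := rfl
    rw [h7] at this
    exact_mod_cast this
  rw [h6]
  norm_num

theorem no_big (S : St P C N pr) {l : P →* ℂˣ} (hl : l ≠ 1) (I : Finset (IrrCharacter G))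
    (hI : ∀ χ ∈ I, 1 ≤ bb pr l χ) (hcard : C.relIndex N ≤ I.card) : False := by
  classical
  have h1 := sum_bb_sq S hl
  have h2 := sum_bb_deg S hl
  have h3 : (I.card : ℤ) ≤ ∑ χ ∈ I, bb pr l χ ^ 2 := by
    calc (I.card : ℤ) = ∑ _χ ∈ I, (1 : ℤ) := by simp
      _ ≤ _ := Finset.sum_le_sum fun χ hχ => by nlinarith [hI χ hχ]
  have h4 : ∑ χ ∈ I, bb pr l χ ^ 2 + ∑ χ ∈ Iᶜ, bb pr l χ ^ 2 = (C.relIndex N : ℤ) := by
    rw [Finset.sum_add_sum_compl, h1]
  have h5 : ∑ χ ∈ Iᶜ, bb pr l χ ^ 2 ≤ 0 := by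
    have : (C.relIndex N : ℤ) ≤ I.card := by exact_mod_cast hcard
    linarith
  have h6 : ∀ χ ∈ Iᶜ, bb pr l χ = 0 := by
    intro χ hχ
    have h7 : ∑ χ ∈ Iᶜ, bb pr l χ ^ 2 = 0 :=
      le_antisymm h5 (Finset.sum_nonneg fun _ _ => sq_nonneg _)
    have := (Finset.sum_eq_zero_iff_of_nonneg (fun _ _ => sq_nonneg _)).mp h7 χ hχ
    exact pow_eq_zero_iff (two_ne_zero) |>.mp this
  have h7 : 0 ≤ ∑ χ ∈ I, bb pr l χ * (charDegree χ.1 : ℤ) :=
    Finset.sum_nonneg fun χ hχ => mul_nonneg (by linarith [hI χ hχ]) (Nat.cast_nonneg _)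
  rw [← Finset.sum_add_sum_compl I, Finset.sum_eq_zero (s := Iᶜ) (fun χ hχ => by
    rw [h6 χ hχ, zero_mul]), add_zero] at h2
  omega

theorem card_fam (S : St P C N pr) {φ : IrrCharacter C} (hφ : ¬ Ntr P φ)
    (κ : (P →* ℂˣ) → IrrCharacter G) [DecidableEq (IrrCharacter G)] (M : Finset (P →* ℂˣ))
    (hM : ∀ m ∈ M, m ≠ 1)
    (hκ : ∀ m ∈ M, ∀ m' ∈ M, κ m = κ m' → Cnj S (tw pr m φ) (tw pr m' φ)) :
    M.card ≤ C.relIndex N * (M.image κ).card := by
  classical
  have : Fintype (P →* ℂˣ) := Fintype.ofFinite _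
  apply Finset.card_le_mul_card_image
  intro a ha
  obtain ⟨m₀, hm₀, rfl⟩ := Finset.mem_image.mp ha
  refine le_trans (Finset.card_le_card ?_) (card_cnj_tw S hφ (ntr_tw S hφ (hM m₀ hm₀)))
  intro m hm
  obtain ⟨h1, h2⟩ := Finset.mem_filter.mp hm
  exact Finset.mem_filter.mpr ⟨Finset.mem_univ _, hκ m h1 m₀ hm₀ h2⟩

theorem no_big' (S : St P C N pr) (he : C.relIndex N * C.relIndex N + 1 < Nat.card P)
    {φ : IrrCharacter C} (hφ : ¬ Ntr P φ) {l : P →* ℂˣ} (hl : l ≠ 1)
    (κ : (P →* ℂˣ) → IrrCharacter G) (M : Finset (P →* ℂˣ)) (hM : ∀ m ∈ M, m ≠ 1)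
    (hκ : ∀ m ∈ M, ∀ m' ∈ M, κ m = κ m' → Cnj S (tw pr m φ) (tw pr m' φ))
    (hb : ∀ m ∈ M, 1 ≤ bb pr l (κ m)) (hcard : Nat.card P ≤ M.card + 1 + C.relIndex N) : False := by
  classical
  have h1 := card_fam S hφ κ M hM hκ
  apply no_big S hl (M.image κ)
  · intro χ hχ
    obtain ⟨m, hm, rfl⟩ := Finset.mem_image.mp hχ
    exact hb m hm
  · by_contra hlt
    push Not at hlt
    have h2 : C.relIndex N * (M.image κ).card + C.relIndex N ≤ C.relIndex N * C.relIndex N := by
      nlinarith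
    omega

theorem D_sub_eq (a b c : IrrCharacter C) : indFun C (a.1 - b.1) =
    indFun C (a.1 - c.1) - indFun C (b.1 - c.1) := by
  rw [indFun_sub, indFun_sub, indFun_sub]
  abel

theorem kappa_ne_one {φ : IrrCharacter C} {l m : P →* ℂˣ} {ξ κ : IrrCharacter G}
    (h : indFun C ((tw pr l φ).1 - (tw pr m φ).1) = ξ.1 - κ.1) {a : IrrCharacter C}
    (ha : a ≠ one C) (h1 : mu ξ a ≠ 0) (h2 : mu ξ (one C) ≠ 0) : κ ≠ one G := by
  classical
  rintro rfl
  have h3 := congrFun h 1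
  rw [D_one (by rw [tw_deg, tw_deg]), Pi.sub_apply] at h3
  have h4 : ξ.1 1 = 1 := (sub_eq_zero.mp h3.symm)
  have h5 := CharGlaub2.charDegree_cast (isChar_of_irr ξ.2)
  rw [h4] at h5
  have h6 : charDegree ξ.1 = 1 := by exact_mod_cast h5
  have h7 := deg_ge ξ {a, one C}
  rw [Finset.sum_pair ha, h6] at h7
  omega

theorem claim (S : St P C N pr) (he : C.relIndex N * C.relIndex N + 1 < Nat.card P)
    {ξ : IrrCharacter G} (hξP : ∃ a : IrrCharacter C, mu ξ a ≠ 0 ∧ Ntr P a) (hd : charDegree ξ.1 + 1 < Nat.card P) :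
    mu ξ (one C) * (Nat.card P - C.relIndex N) ≤ charDegree ξ.1 := by
  classical
  have : Fintype (P →* ℂˣ) := Fintype.ofFinite _
  by_cases hc0 : mu ξ (one C) = 0
  · rw [hc0, zero_mul]; exact Nat.zero_le _
  obtain ⟨a, ha, han⟩ := hξP
  obtain ⟨l', φ, hφ, rfl⟩ := exists_tw S a
  have hl' : l' ≠ 1 := by
    rintro rfl
    rw [tw_one] at han
    exact hφ han
  obtain ⟨l₁, hl₁, h1⟩ := exists_zero S ξ hφ hd
  obtain ⟨lam, hlam, hlam0⟩ := exists_zero S ξ (one_not_ntr (C := C)) hd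
  obtain ⟨ls, κ, hls, hcase⟩ := exc S hφ hl' hl₁ ha h1
  have hane : tw pr l' φ ≠ one C := fun h => one_not_ntr (P := P) (h ▸ han)
  have hlamn := ntr_tw S (one_not_ntr (C := C)) hlam
  have hcardU : (Finset.univ.erase (1 : P →* ℂˣ)).card + 1 = Nat.card P := by
    rw [Finset.card_erase_of_mem (Finset.mem_univ _), Finset.card_univ, ← Nat.card_eq_fintype_card,
      card_lam S]
    have : 0 < Nat.card P := Nat.card_pos
    omega
  have hCpos : (0 : ℤ) < Nat.card C := by exact_mod_cast Nat.card_pos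
  have w1 : ∀ m : P →* ℂˣ, m ≠ 1 → wt S (tw pr m φ) (one C) = 0 := by
    intro m hm
    apply wt_of_not_cnj
    intro h
    exact one_not_ntr (P := P) (h.ntr (ntr_tw S hφ hm))
  rcases hcase with ⟨hs1, hD⟩ | ⟨hs0, hall, hD⟩
  · -- positive sign
    exfalso
    let M : Finset (P →* ℂˣ) := (Finset.univ.erase 1) \
      (Finset.univ.filter (fun m => Cnj S (tw pr m φ) (tw pr lam (one C))))
    have hM1 : ∀ m ∈ M, m ≠ 1 := fun m hm =>
      Finset.ne_of_mem_erase (Finset.mem_sdiff.mp hm).1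
    have hM2 : ∀ m ∈ M, ¬ Cnj S (tw pr m φ) (tw pr lam (one C)) := fun m hm h =>
      (Finset.mem_sdiff.mp hm).2 (Finset.mem_filter.mpr ⟨Finset.mem_univ _, h⟩)
    apply no_big' S he hφ hlam κ M hM1
    · intro m hm m' hm' heq
      apply cnj_of_D_zero S hφ (hM1 m hm) (hM1 m' hm')
      have e1 := hD m (hM1 m hm)
      have e2 := hD m' (hM1 m' hm')
      rw [heq, ← e2] at e1
      rw [indFun_sub, indFun_sub, sub_right_inj] at e1
      rw [indFun_sub, e1, sub_self]
    · intro m hm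
      have e1 := mu_pair S (hD m (hM1 m hm)) (one C)
      rw [w1 ls hls, w1 m (hM1 m hm)] at e1
      have e2 : (mu (κ m) (one C) : ℤ) = mu ξ (one C) := by
        have : (Nat.card C : ℤ) * ((mu ξ (one C) : ℤ) - mu (κ m) (one C)) = 0 := by
          rw [e1]; norm_num
        rcases mul_eq_zero.mp this with h | h
        · omega
        · omega
      have e3 := mu_pair S (hD m (hM1 m hm)) (tw pr lam (one C))
      have e4 : ¬ Cnj S (tw pr ls φ) (tw pr lam (one C)) := by
        intro h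
        have := mu_cnj ξ h
        omega
      rw [wt_of_not_cnj e4, wt_of_not_cnj (hM2 m hm), hlam0] at e3
      have e5 : (mu (κ m) (tw pr lam (one C)) : ℤ) = 0 := by
        have : (Nat.card C : ℤ) * (((0 : ℕ) : ℤ) - mu (κ m) (tw pr lam (one C))) = 0 := by
          rw [e3]; norm_num
        rcases mul_eq_zero.mp this with h | h
        · omega
        · push_cast at h; omega
      rw [bb_eq, e2, e5, if_neg (kappa_ne_one (hD m (hM1 m hm)) hane ha hc0)]
      omega
    · have e1 := Finset.card_sdiff_add_card (s := Finset.univ.erase (1 : P →* ℂˣ))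
        (t := Finset.univ.filter (fun m => Cnj S (tw pr m φ) (tw pr lam (one C))))
      have e2 : (Finset.univ.erase (1 : P →* ℂˣ)).card ≤ ((Finset.univ.erase (1 : P →* ℂˣ)) ∪
        (Finset.univ.filter (fun m => Cnj S (tw pr m φ) (tw pr lam (one C))))).card :=
        Finset.card_le_card Finset.subset_union_left
      have e3 := card_cnj_tw S hφ hlamn
      have e4 : M.card = ((Finset.univ.erase (1 : P →* ℂˣ)) \
        (Finset.univ.filter (fun m => Cnj S (tw pr m φ) (tw pr lam (one C))))).card := rfl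
      omega
  · -- negative sign
    have hκc : ∀ m m' : P →* ℂˣ, m ≠ 1 → m' ≠ 1 → κ m = κ m' → Cnj S (tw pr m φ) (tw pr m' φ) := by
      intro m m' hm hm' heq
      apply cnj_of_D_zero S hφ hm hm'
      have e1 := hD m hm
      have e2 := hD m' hm'
      rw [heq, ← e2] at e1
      rw [D_sub_eq _ _ (tw pr ls φ), e1, sub_self]
    have hmu1 : ∀ m : P →* ℂˣ, m ≠ 1 → (mu (κ m) (one C) : ℤ) = mu ξ (one C) := by
      intro m hm
      have e1 := mu_pair S (hD m hm) (one C)
      rw [w1 ls hls, w1 m hm] at e1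
      have : (Nat.card C : ℤ) * ((mu ξ (one C) : ℤ) - mu (κ m) (one C)) = 0 := by
        rw [e1]; norm_num
      rcases mul_eq_zero.mp this with h | h
      · omega
      · omega
    have hmul : ∀ m : P →* ℂˣ, m ≠ 1 → (Nat.card C : ℤ) * mu (κ m) (tw pr lam (one C)) =
        (wt S (tw pr ls φ) (tw pr lam (one C)) : ℤ) - wt S (tw pr m φ) (tw pr lam (one C)) := by
      intro m hm
      have e3 := mu_pair S (hD m hm) (tw pr lam (one C))
      rw [hlam0] at e3
      push_cast at e3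
      linarith
    by_cases hcn : Cnj S (tw pr ls φ) (tw pr lam (one C))
    · by_cases hc2 : 2 ≤ mu ξ (one C)
      · exfalso
        apply no_big' S he hφ hlam κ (Finset.univ.erase 1)
          (fun m hm => Finset.ne_of_mem_erase hm)
          (fun m hm m' hm' => hκc m m' (Finset.ne_of_mem_erase hm) (Finset.ne_of_mem_erase hm'))
        · intro m hm
          have hm1 := Finset.ne_of_mem_erase hm
          have e1 := hmul m hm1
          rw [wt_of_cnj hcn (ntr_tw S hφ hls)] at e1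
          have e2 : (mu (κ m) (tw pr lam (one C)) : ℤ) ≤ 1 := by
            have h0 : (0 : ℤ) ≤ wt S (tw pr m φ) (tw pr lam (one C)) := Nat.cast_nonneg _
            by_contra hlt
            push Not at hlt
            nlinarith
          rw [bb_eq, hmu1 m hm1, if_neg (kappa_ne_one (hD m hm1) hane ha hc0)]
          have : (2 : ℤ) ≤ mu ξ (one C) := by exact_mod_cast hc2
          omega
        · omega
      · have hc1 : mu ξ (one C) = 1 := by omega
        rw [hc1, one_mul]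
        -- degree bound
        let T : Finset (P →* ℂˣ) := (Finset.univ.erase 1) \
          (Finset.univ.filter (fun m => Cnj S (tw pr m φ) (tw pr ls φ)))
        have hT1 : ∀ m ∈ T, m ≠ 1 := fun m hm =>
          Finset.ne_of_mem_erase (Finset.mem_sdiff.mp hm).1
        have hT2 : ∀ m ∈ T, mu ξ (tw pr m φ) = 1 := fun m hm => hall m (hT1 m hm) fun h =>
          (Finset.mem_sdiff.mp hm).2 (Finset.mem_filter.mpr ⟨Finset.mem_univ _, h⟩)
        have hTn : one C ∉ T.image (fun m => tw pr m φ) := by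
          intro h
          obtain ⟨m, hm, h2⟩ := Finset.mem_image.mp h
          exact one_not_ntr (P := P) (h2 ▸ ntr_tw S hφ (hT1 m hm))
        have e0 := deg_ge ξ (insert (one C) (T.image (fun m => tw pr m φ)))
        rw [Finset.sum_insert hTn, hc1, Finset.sum_image (fun l _ m _ h => tw_inj S hφ h),
          Finset.sum_congr rfl hT2, Finset.sum_const, smul_eq_mul, mul_one] at e0
        have e1 := Finset.card_sdiff_add_card (s := Finset.univ.erase (1 : P →* ℂˣ))
          (t := Finset.univ.filter (fun m => Cnj S (tw pr m φ) (tw pr ls φ)))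
        have e2 : (Finset.univ.erase (1 : P →* ℂˣ)).card ≤ ((Finset.univ.erase (1 : P →* ℂˣ)) ∪
          (Finset.univ.filter (fun m => Cnj S (tw pr m φ) (tw pr ls φ)))).card :=
          Finset.card_le_card Finset.subset_union_left
        have e3 := card_cnj_tw S hφ (ntr_tw S hφ hls)
        have e4 : T.card = ((Finset.univ.erase (1 : P →* ℂˣ)) \
          (Finset.univ.filter (fun m => Cnj S (tw pr m φ) (tw pr ls φ)))).card := rfl
        omega
    · exfalso
      apply no_big' S he hφ hlam κ (Finset.univ.erase 1)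
        (fun m hm => Finset.ne_of_mem_erase hm)
        (fun m hm m' hm' => hκc m m' (Finset.ne_of_mem_erase hm) (Finset.ne_of_mem_erase hm'))
      · intro m hm
        have hm1 := Finset.ne_of_mem_erase hm
        have e1 := hmul m hm1
        rw [wt_of_not_cnj hcn, Nat.cast_zero, zero_sub] at e1
        have e2 : (mu (κ m) (tw pr lam (one C)) : ℤ) ≤ 0 := by
          have h0 : (0 : ℤ) ≤ wt S (tw pr m φ) (tw pr lam (one C)) := Nat.cast_nonneg _
          by_contra hlt
          push Not at hlt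
          have := mul_pos hCpos hlt
          omega
        rw [bb_eq, hmu1 m hm1, if_neg (kappa_ne_one (hD m hm1) hane ha hc0)]
        omega
      · omega

end Claim

section Fin

variable {G : Type*} [Group G] [Fintype G] {P C N : Subgroup G} {pr : C →* P}

theorem e_le (S : St P C N pr) {χ : IrrCharacter G} {a : IrrCharacter C} (ha : mu χ a ≠ 0)
    (hn : Ntr P a) : C.relIndex N ≤ charDegree χ.1 := by
  classical
  have h1 := deg_ge χ (Finset.univ.filter (fun b => Cnj S a b))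
  have h2 : ∀ b ∈ Finset.univ.filter (fun b => Cnj S a b), 1 ≤ mu χ b := by
    intro b hb
    rw [← mu_cnj χ (Finset.mem_filter.mp hb).2]
    omega
  have h3 := Finset.card_nsmul_le_sum _ _ _ h2
  rw [card_cnj S hn, smul_eq_mul, mul_one] at h3
  exact h3.trans h1

theorem main (S : St P C N pr) {χ : IrrCharacter G}
    (hχP : ∃ a : IrrCharacter C, mu χ a ≠ 0 ∧ Ntr P a)
    (hd : charDegree χ.1 ^ 2 + 1 < Nat.card P)
    (hK : ∀ ξ : IrrCharacter G, ξ ≠ one G → ∃ a : IrrCharacter C, mu ξ a ≠ 0 ∧ Ntr P a) :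
    C.relIndex N = 1 ∧ IsIrrCharacter C (fun c : C => χ.1 c) := by
  classical
  have : Fintype C := Fintype.ofFinite _
  obtain ⟨a, ha, han⟩ := hχP
  have he := e_le S ha han
  set e := C.relIndex N with hedef
  have hepos : 1 ≤ e := by
    rw [Nat.one_le_iff_ne_zero]
    intro h0
    have := CharClifford.relIndex_mul_card' C N S.hCN
    rw [← hedef, h0, zero_mul] at this
    exact Nat.card_pos.ne' this.symm
  have hee : e * e + 1 < Nat.card P := by nlinarith
  -- the character `α`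
  set α : G → ℂ := χ.1 * (fun g => conj (χ.1 g)) with hαdef
  have hα : IsCharacter G α := by
    apply isChar_mul (isChar_of_irr χ.2)
    have h1 : (fun g => conj (χ.1 g)) = fun g => χ.1 g⁻¹ := by
      funext g; exact (char_inv (isChar_of_irr χ.2) g).symm
    rw [h1]
    exact isChar_dual (isChar_of_irr χ.2)
  choose m hm using fun ξ : IrrCharacter G => exists_nat_inner hα ξ.2
  have hα1 : α 1 = (charDegree χ.1 : ℂ) ^ 2 := by
    rw [hαdef, Pi.mul_apply, ← CharGlaub2.charDegree_cast (isChar_of_irr χ.2), Complex.conj_natCast,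
      sq]
  have hsum := char_eq_sum_inner hα
  simp only [hm] at hsum
  -- degree
  have hdeg : charDegree χ.1 ^ 2 = ∑ ξ : IrrCharacter G, m ξ * charDegree ξ.1 := by
    have h1 := congrFun hsum 1
    rw [hα1, Finset.sum_apply] at h1
    simp only [Pi.smul_apply, smul_eq_mul] at h1
    have h2 : ∀ ξ : IrrCharacter G, ξ.1 1 = (charDegree ξ.1 : ℂ) := fun ξ =>
      (CharGlaub2.charDegree_cast (isChar_of_irr ξ.2)).symm
    simp only [h2] at h1
    exact_mod_cast h1
  have hm1 : m (one G) = 1 := by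
    have h1 := hm (one G)
    have h2 : classInner α (one G).1 = classInner χ.1 χ.1 := by
      rw [classInner_def, classInner_def]
      congr 1
      refine Finset.sum_congr rfl fun g _ => ?_
      change χ.1 g * conj (χ.1 g) * conj (1 : ℂ) = _
      rw [map_one, mul_one]
    rw [h2, irr_inner_self χ.2] at h1
    exact_mod_cast h1.symm
  have hd1 : charDegree (one G).1 = 1 := by
    have := CharGlaub2.charDegree_cast (isChar_of_irr (one G).2)
    have h7 : (one G).1 1 = (1 : ℂ) := rfl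
    rw [h7] at this
    exact_mod_cast this
  -- multiplicity of the trivial character of `C`
  set E := ∑ b : IrrCharacter C, mu χ b * mu χ b with hE
  have hEE : E = ∑ ξ : IrrCharacter G, m ξ * mu ξ (one C) := by
    have h1 : classInner (fun c : C => α c) (one C).1 = (E : ℂ) := by
      have h2 : classInner (fun c : C => α c) (one C).1 =
          classInner (fun c : C => χ.1 c) (fun c : C => χ.1 c) := by
        rw [classInner_def, classInner_def]
        congr 1
        refine Finset.sum_congr rfl fun g _ => ?_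
        change χ.1 g * conj (χ.1 g) * conj (1 : ℂ) = _
        rw [map_one, mul_one]
      have hcf : IsClassFunction C (fun c : C => χ.1 c) :=
        isChar_classFn (CharInd.isChar_res C (isChar_of_irr χ.2))
      rw [h2, classFn_inner_eq_sum hcf hcf, hE]
      simp only [mu_spec, Complex.conj_natCast]
      push_cast
      rfl
    have h3 : (fun c : C => α c) = ∑ ξ : IrrCharacter G, (m ξ : ℂ) • (fun c : C => ξ.1 c) := by
      funext c
      have := congrFun hsum c
      rw [this, Finset.sum_apply, Finset.sum_apply]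
      rfl
    rw [h3, classInner_sum_left] at h1
    simp only [classInner_smul_left, mu_spec] at h1
    exact_mod_cast h1.symm
  have hEe : e ≤ E := by
    have h2 : ∀ b ∈ Finset.univ.filter (fun b => Cnj S a b), 1 ≤ mu χ b * mu χ b := by
      intro b hb
      rw [← mu_cnj χ (Finset.mem_filter.mp hb).2]
      have : 1 ≤ mu χ a := by omega
      nlinarith
    have h3 := Finset.card_nsmul_le_sum _ _ _ h2
    rw [card_cnj S han, smul_eq_mul, mul_one] at h3
    exact h3.trans (Finset.sum_le_sum_of_subset (Finset.subset_univ _))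
  -- the key inequality
  have hkey : (E - 1) * (Nat.card P - e) ≤ charDegree χ.1 ^ 2 - 1 := by
    have h1 : E - 1 = ∑ ξ ∈ Finset.univ.erase (one G), m ξ * mu ξ (one C) := by
      rw [hEE, ← Finset.add_sum_erase _ _ (Finset.mem_univ (one G)), hm1, mu_one, if_pos rfl]
      omega
    have h2 : charDegree χ.1 ^ 2 - 1 = ∑ ξ ∈ Finset.univ.erase (one G), m ξ * charDegree ξ.1 := by
      rw [hdeg, ← Finset.add_sum_erase _ _ (Finset.mem_univ (one G)), hm1, hd1]
      omega
    rw [h1, h2, Finset.sum_mul]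
    refine Finset.sum_le_sum fun ξ hξ => ?_
    by_cases hm0 : m ξ = 0
    · rw [hm0]; simp
    · rw [mul_assoc]
      apply Nat.mul_le_mul_left
      apply claim S hee (hK ξ (Finset.ne_of_mem_erase hξ))
      have h3 : m ξ * charDegree ξ.1 ≤ charDegree χ.1 ^ 2 := by
        rw [hdeg]
        exact Finset.single_le_sum (f := fun ξ : IrrCharacter G => m ξ * charDegree ξ.1)
          (fun _ _ => Nat.zero_le _) (Finset.mem_univ ξ)
      have h4 : charDegree ξ.1 ≤ m ξ * charDegree ξ.1 := Nat.le_mul_of_pos_left _ (by omega)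
      omega
  have hE1 : E = 1 := by
    by_contra hne
    have hE2 : 2 ≤ E := by omega
    have hp : e + 1 ≤ Nat.card P := by nlinarith
    obtain ⟨q, hq⟩ : ∃ q, Nat.card P = e + 1 + q := ⟨Nat.card P - (e + 1), by omega⟩
    have h5 : Nat.card P - e = q + 1 := by omega
    rw [h5] at hkey
    obtain ⟨F, hF⟩ : ∃ F, E = F + 2 := ⟨E - 2, by omega⟩
    have h6 : E - 1 = F + 1 := by omega
    rw [h6] at hkey
    have h7 : e ≤ F + 2 := by omega
    have h8 : e + q ≤ (F + 1) * (q + 1) + 1 := by nlinarith [Nat.zero_le (F * q)]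
    have h9 : 1 ≤ charDegree χ.1 ^ 2 := Nat.one_le_pow _ _ (deg_pos χ)
    omega
  refine ⟨by omega, ?_⟩
  have hcf := CharInd.isChar_res C (isChar_of_irr χ.2)
  apply norm_one_pos (gen_of_char hcf)
  · rw [classFn_inner_eq_sum (isChar_classFn hcf) (isChar_classFn hcf)]
    simp only [mu_spec, Complex.conj_natCast]
    have h1 : ((E : ℕ) : ℂ) = 1 := by rw [hE1]; norm_num
    rw [hE] at h1
    push_cast at h1
    exact h1
  · have h1 : χ.1 ((1 : C) : G) = (charDegree χ.1 : ℂ) :=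
      (CharGlaub2.charDegree_cast (isChar_of_irr χ.2)).symm
    rw [h1, Complex.natCast_re]
    have := deg_pos χ
    exact_mod_cast this

theorem exists_ntr (χ : IrrCharacter G) {y : C} (hy : (y : G) ∈ P) (h : χ.1 y ≠ χ.1 1) :
    ∃ a : IrrCharacter C, mu χ a ≠ 0 ∧ Ntr P a := by
  have : Fintype C := Fintype.ofFinite _
  by_contra hcon
  push Not at hcon
  apply h
  have h1 := char_eq_sum_inner (CharInd.isChar_res C (isChar_of_irr χ.2))
  simp only [mu_spec] at h1
  have h2 := congrFun h1 y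
  have h3 := congrFun h1 1
  rw [Finset.sum_apply] at h2 h3
  simp only [Pi.smul_apply, smul_eq_mul] at h2 h3
  have h4 : χ.1 ((1 : C) : G) = χ.1 1 := rfl
  rw [h4] at h3
  rw [h2, h3]
  refine Finset.sum_congr rfl fun a _ => ?_
  by_cases h0 : mu χ a = 0
  · rw [h0]; simp
  · have h5 := hcon a h0
    have h6 : a.1 y = a.1 1 := by
      by_contra hne
      exact h5 ⟨y, hy, hne⟩
    rw [h6]

end Fin

end

end Cfsg.Agent.Lib.CharBL
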