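import Cfsg.Agent.Lib.CharBL

set_option autoImplicit false

namespace Cfsg.Agent.Lib.CharBL2

open Cfsg Cfsg.Agent.Lib.CharBasic Cfsg.Agent.Lib.CharInd Cfsg.Agent.Lib.CharLin
open Cfsg.Agent.Lib.CharGC Cfsg.Agent.Lib.CharCo Cfsg.Agent.Lib.CharExc Cfsg.Agent.Lib.CharBL
open Cfsg.Agent.Lib.BlockPP
open scoped ComplexConjugate

noncomputable section

variable {G : Type*} [Group G] [Finite G] {p : ℕ} [hp : Fact p.Prime]

/-- The hypothesis: centralizers of non-identity elements of `P` are equal to `C(P)`. -/
def Star (P : Sylow p G) : Prop := ∀ x ∈ (P : Subgroup G), x ≠ 1 →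
  Subgroup.centralizer ({x} : Set G) = Subgroup.centralizer ((P : Subgroup G) : Set G)

theorem Star.comm {P : Sylow p G} (h : Star P) : ∀ x ∈ (P : Subgroup G), ∀ y ∈ (P : Subgroup G),
    x * y = y * x := by
  intro x hx y hy
  by_cases hx1 : x = 1
  · rw [hx1, one_mul, mul_one]
  · have h1 : x ∈ Subgroup.centralizer ({x} : Set G) := by
      rw [Subgroup.mem_centralizer_singleton_iff]
    rw [h x hx hx1, Subgroup.mem_centralizer_iff] at h1
    exact (h1 y hy).symm

theorem Star.le {P : Sylow p G} (h : Star P) :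
    (P : Subgroup G) ≤ Subgroup.centralizer ((P : Subgroup G) : Set G) := by
  intro x hx
  rw [Subgroup.mem_centralizer_iff]
  intro y hy
  exact h.comm y hy x hx

/-- `p`-elements of the centralizer lie in `P`. -/
theorem mem_of_pElement (P : Sylow p G) {w : G}
    (hw : w ∈ Subgroup.centralizer ((P : Subgroup G) : Set G)) (hpw : ∃ k, orderOf w = p ^ k) :
    w ∈ (P : Subgroup G) := by
  have h1 : IsPGroup p (Subgroup.zpowers w) := (isPGroup_zpowers_iff hp.out w).mpr hpw
  have h2 : (P : Subgroup G) ≤ Subgroup.normalizer (Subgroup.zpowers w : Set G) := by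
    intro y hy
    rw [Subgroup.mem_normalizer_iff]
    have h3 : y * w = w * y := Subgroup.mem_centralizer_iff.mp hw y hy
    intro z
    constructor
    · rintro ⟨i, rfl⟩
      refine ⟨i, ?_⟩
      have : Commute y (w ^ i) := (show Commute y w from h3).zpow_right i
      simp only
      rw [this.eq, mul_inv_cancel_right]
    · rintro ⟨i, hi⟩
      refine ⟨i, ?_⟩
      have : Commute y (w ^ i) := (show Commute y w from h3).zpow_right i
      simp only at hi ⊢
      have h4 : z = y⁻¹ * w ^ i * y := by rw [hi]; group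
      rw [h4, mul_assoc, ← this.eq, inv_mul_cancel_left]
  have h3 : IsPGroup p ((P : Subgroup G) ⊔ Subgroup.zpowers w : Subgroup G) :=
    P.2.to_sup_of_normal_right' h1 h2
  have h4 := P.3 h3 le_sup_left
  rw [← h4]
  exact Subgroup.mem_sup_right (Subgroup.mem_zpowers w)

/-- The `p`-part is multiplicative on the centralizer of an abelian Sylow subgroup. -/
theorem pp_mul_central (P : Sylow p G) (C : Subgroup G)
    (hC : C = Subgroup.centralizer ((P : Subgroup G) : Set G))
    (hle : (P : Subgroup G) ≤ C) (c d : C) :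
    pp p (c * d) = pp p c * pp p d := by
  let PC : Sylow p C := P.subtype hle
  have hPC : ∀ x : C, x ∈ (PC : Subgroup C) ↔ (x : G) ∈ (P : Subgroup G) := fun x => by
    rw [Sylow.coe_subtype, Subgroup.mem_subgroupOf]
  have hcent : ∀ x ∈ (PC : Subgroup C), ∀ g : C, x * g = g * x := by
    intro x hx g
    apply Subtype.ext
    have hg : (g : G) ∈ Subgroup.centralizer ((P : Subgroup G) : Set G) := hC ▸ g.2
    exact Subgroup.mem_centralizer_iff.mp hg x ((hPC x).mp hx)
  have hNC : Subgroup.normalizer ((PC : Subgroup C) : Set C) ≤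
      Subgroup.centralizer ((PC : Subgroup C) : Set C) := by
    intro g _
    rw [Subgroup.mem_centralizer_iff]
    intro x hx
    exact hcent x hx g
  have hcomp := MonoidHom.ker_transferSylow_isComplement' PC hNC
  set V := (MonoidHom.transferSylow PC hNC).ker with hV
  have hVp : ¬ p ∣ Nat.card V := MonoidHom.not_dvd_card_ker_transferSylow PC hNC
  have hdec : ∀ g : C, ∃ v ∈ V, ∃ y ∈ (PC : Subgroup C), v * y = g := by
    intro g
    obtain ⟨⟨v, y⟩, h⟩ := hcomp.2 g
    exact ⟨v, v.2, y, y.2, h⟩
  have hppv : ∀ v ∈ V, ∀ y ∈ (PC : Subgroup C), pp p (v * y) = y := by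
    intro v hv y hy
    have h1 : Commute y v := hcent y hy v
    rw [← h1.eq]
    apply pp_mul_eq hp.out h1
    · exact exists_orderOf_of_mem hp.out PC.2 hy
    · intro hdvd
      apply hVp
      have h2 : orderOf v = orderOf (⟨v, hv⟩ : V) := Subgroup.orderOf_coe ⟨v, hv⟩
      rw [h2] at hdvd
      exact hdvd.trans (orderOf_dvd_natCard _)
  obtain ⟨v, hv, y, hy, rfl⟩ := hdec c
  obtain ⟨w, hw, z, hz, rfl⟩ := hdec d
  rw [hppv v hv y hy, hppv w hw z hz]
  have h1 : v * y * (w * z) = v * w * (y * z) := by
    rw [mul_assoc, ← mul_assoc y, hcent y hy w]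
    group
  rw [h1, hppv _ (V.mul_mem hv hw) _ (PC.1.mul_mem hy hz)]

/-- The projection. -/
def prS (P : Sylow p G)
    (hle : (P : Subgroup G) ≤ Subgroup.centralizer ((P : Subgroup G) : Set G)) :
    Subgroup.centralizer ((P : Subgroup G) : Set G) →* (P : Subgroup G) where
  toFun c := ⟨pp p (c : G), mem_of_pElement P (pp_mem c.2) (exists_orderOf_pp hp.out _)⟩
  map_one' := Subtype.ext (by
    change pp p (1 : G) = 1
    exact pp_one p)
  map_mul' c d := Subtype.ext (by
    have h := congrArg Subtype.val (pp_mul_central P _ rfl hle c d)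
    rw [pp_coe, Subgroup.coe_mul, Subgroup.coe_mul, pp_coe, pp_coe] at h
    exact h)

theorem prS_coe (P : Sylow p G)
    (hle : (P : Subgroup G) ≤ Subgroup.centralizer ((P : Subgroup G) : Set G))
    (c : Subgroup.centralizer ((P : Subgroup G) : Set G)) : ((prS P hle c : (P : Subgroup G)) : G) =
      pp p (c : G) := rfl

theorem setup {P : Sylow p G} (h : Star P) :
    St (P : Subgroup G) (Subgroup.centralizer ((P : Subgroup G) : Set G))
      (Subgroup.normalizer ((P : Subgroup G) : Set G)) (prS P h.le) where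
  hPC := h.le
  hCN := Subgroup.centralizer_le_normalizer _
  norC := by
    apply le_normalizer_of
    intro x hx c hc
    rw [Subgroup.mem_centralizer_iff]
    intro y hy
    have h1 : x⁻¹ * y * x ∈ (P : Subgroup G) := by
      have := (Subgroup.mem_normalizer_iff.mp (inv_mem hx) y).mp hy
      rwa [inv_inv] at this
    have h2 := Subgroup.mem_centralizer_iff.mp hc _ h1
    calc y * (x * c * x⁻¹) = x * ((x⁻¹ * y * x) * c) * x⁻¹ := by group
      _ = x * (c * (x⁻¹ * y * x)) * x⁻¹ := by rw [h2]
      _ = _ := by group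
  norP x hx y hy := (Subgroup.mem_normalizer_iff.mp hx y).mp hy
  cent y hy c hc := Subgroup.mem_centralizer_iff.mp hc y hy
  pr_id y hy := by
    rw [prS_coe]
    exact pp_eq_self hp.out (exists_orderOf_of_mem hp.out P.2 hy)
  pr_conj g c c' hc := by
    rw [prS_coe, prS_coe, hc]
    exact pp_conj p _ _
  ti g y hy hy1 hgy := by
    have hz1 : g * y * g⁻¹ ≠ 1 := by
      intro h0
      apply hy1
      have : y = g⁻¹ * (g * y * g⁻¹) * g := by group
      rw [this, h0]; group
    -- `g P g⁻¹ ≤ C(g y g⁻¹) = C(P)`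
    have h1 : ∀ w ∈ (P : Subgroup G), g * w * g⁻¹ ∈ (P : Subgroup G) := by
      intro w hw
      apply mem_of_pElement P
      · rw [← h _ hgy hz1, Subgroup.mem_centralizer_singleton_iff]
        have h2 := h.comm w hw y hy
        calc g * w * g⁻¹ * (g * y * g⁻¹) = g * (w * y) * g⁻¹ := by group
          _ = g * (y * w) * g⁻¹ := by rw [h2]
          _ = _ := by group
      · obtain ⟨k, hk⟩ := exists_orderOf_of_mem hp.out P.2 hw
        refine ⟨k, ?_⟩
        rw [← hk]
        exact orderOf_injective (MulAut.conj g).toMonoidHom (MulAut.conj g).injective w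
    have h2 : (P : Subgroup G).map (MulAut.conj g).toMonoidHom = P := by
      apply Subgroup.eq_of_le_of_card_ge
      · rintro _ ⟨w, hw, rfl⟩
        exact h1 w hw
      · rw [Subgroup.card_map_of_injective (show Function.Injective (MulAut.conj g).toMonoidHom from
          (MulAut.conj g).injective)]
    rw [Subgroup.mem_normalizer_iff]
    intro w
    refine ⟨h1 w, fun hw => ?_⟩
    rw [← h2] at hw
    obtain ⟨w', hw', heq⟩ := hw
    have : w' = w := (MulAut.conj g).injective heq
    rwa [← this]
  free x hx y hy hy1 hfix := by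
    rw [← h y hy hy1, Subgroup.mem_centralizer_singleton_iff]
    have : x * y = y * x := by
      calc x * y = (x * y * x⁻¹) * x := by group
        _ = y * x := by rw [hfix]
    exact this

theorem ker_ne_top {ξ : IrrCharacter G} (hξ : ξ.1 ≠ fun _ => 1) (K : Subgroup G)
    (hK : ∀ g ∈ K, ξ.1 g = ξ.1 1) : K ≠ ⊤ := by
  rintro rfl
  have : Fintype G := Fintype.ofFinite _
  have h1 : ξ.1 = (ξ.1 1) • (fun _ : G => (1 : ℂ)) := by
    funext g
    rw [Pi.smul_apply, smul_eq_mul, mul_one]
    exact hK g (Subgroup.mem_top g)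
  have h2 := irr_inner_ne ξ.2 isIrr_trivial hξ
  rw [h1, classInner_smul_left, irr_inner_self isIrr_trivial, mul_one] at h2
  exact isIrr_one_ne_zero ξ.2 h2

theorem alt {P : Sylow p G} (h : Star P) (χ : IrrCharacter G)
    (h1 : χ.1 ≠ fun _ => 1) (hdeg : charDegree χ.1 ^ 2 + 1 < Nat.card P) :
    (∃ K : Subgroup G, K.Normal ∧ K ≠ ⊤ ∧ (P : Subgroup G) ≤ K) ∨
      ((∃ N : Subgroup G, N.Normal ∧ N.index = Nat.card P) ∧ charDegree χ.1 = 1) := by
  classical
  have : Fintype G := Fintype.ofFinite _
  by_cases hex : ∃ ξ : IrrCharacter G, ξ.1 ≠ (fun _ => 1) ∧ ∀ y ∈ (P : Subgroup G), ξ.1 y = ξ.1 1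
  · obtain ⟨ξ, hξ1, hξ⟩ := hex
    left
    refine ⟨CharKer.kerChar ξ.1 (isChar_of_irr ξ.2), CharKer.kerChar_normal _,
      ker_ne_top hξ1 _ fun g hg => (CharKer.mem_kerChar _).mp hg, fun y hy => ?_⟩
    exact (CharKer.mem_kerChar _).mpr (hξ y hy)
  · push Not at hex
    have S := setup h
    have hall : ∀ ξ : IrrCharacter G, ξ.1 ≠ (fun _ => 1) →
        ∃ a : IrrCharacter (Subgroup.centralizer ((P : Subgroup G) : Set G)),
          mu ξ a ≠ 0 ∧ Ntr (P : Subgroup G) a := by
      intro ξ hξ
      obtain ⟨y, hy, hne⟩ := hex ξ hξ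
      exact exists_ntr ξ (y := ⟨y, h.le hy⟩) hy hne
    obtain ⟨he, hirr⟩ := main S (hall χ h1) hdeg (fun ξ hξ => hall ξ fun h0 =>
      hξ (Subtype.ext h0))
    have hNC := Subgroup.relIndex_eq_one.mp he
    by_cases hd1 : charDegree χ.1 = 1
    · right
      refine ⟨⟨(MonoidHom.transferSylow P hNC).ker, inferInstance, ?_⟩, hd1⟩
      exact (MonoidHom.ker_transferSylow_isComplement' P hNC).symm.index_eq_card
    · left
      set α : G → ℂ := χ.1 * (fun g => conj (χ.1 g)) with hαdef
      have hα : IsCharacter G α := by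
        apply isChar_mul (isChar_of_irr χ.2)
        have h1 : (fun g => conj (χ.1 g)) = fun g => χ.1 g⁻¹ := by
          funext g; exact (char_inv (isChar_of_irr χ.2) g).symm
        rw [h1]
        exact isChar_dual (isChar_of_irr χ.2)
      refine ⟨CharKer.kerChar α hα, CharKer.kerChar_normal _, ?_, ?_⟩
      · intro htop
        have h2 := irr_inner_self χ.2
        have h3 : ∀ g : G, χ.1 g * conj (χ.1 g) = (charDegree χ.1 : ℂ) ^ 2 := by
          intro g
          have h4 : g ∈ CharKer.kerChar α hα := by rw [htop]; exact Subgroup.mem_top g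
          have h5 := (CharKer.mem_kerChar hα).mp h4
          have h6 : α 1 = (charDegree χ.1 : ℂ) ^ 2 := by
            rw [hαdef, Pi.mul_apply, ← CharGlaub2.charDegree_cast (isChar_of_irr χ.2),
              Complex.conj_natCast, sq]
          rw [h6] at h5
          exact h5
        rw [classInner_def] at h2
        simp only [h3, Finset.sum_const, Finset.card_univ, nsmul_eq_mul] at h2
        rw [← Nat.card_eq_fintype_card, ← mul_assoc, inv_mul_cancel₀ card_ne_zero', one_mul] at h2
        have h7 : charDegree χ.1 ^ 2 = 1 := by exact_mod_cast h2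
        exact hd1 (by
          have h8 : charDegree χ.1 ∣ 1 := by rw [← h7]; exact dvd_pow_self _ two_ne_zero
          exact Nat.dvd_one.mp h8)
      · intro y hy
        rw [CharKer.mem_kerChar]
        obtain ⟨l, hl⟩ := exists_central_hom
          ((P : Subgroup G).subgroupOf (Subgroup.centralizer ((P : Subgroup G) : Set G)))
          (fun z hz g => Subtype.ext (S.cent _ hz g g.2)) hirr
        have h2 := hl ⟨⟨y, h.le hy⟩, hy⟩ 1
        rw [mul_one] at h2
        have h3 : χ.1 y = (l ⟨⟨y, h.le hy⟩, hy⟩ : ℂ) * χ.1 1 := h2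
        have h4 := linFn_norm l ⟨⟨y, h.le hy⟩, hy⟩
        rw [linFn_apply] at h4
        simp only [hαdef, Pi.mul_apply, h3, map_mul]
        calc _ = ((l ⟨⟨y, h.le hy⟩, hy⟩ : ℂ) * conj (l ⟨⟨y, h.le hy⟩, hy⟩ : ℂ)) *
              (χ.1 1 * conj (χ.1 1)) := by ring
          _ = _ := by rw [h4, one_mul]

end

universe u

noncomputable section

theorem small {p : ℕ} [hp : Fact p.Prime] (n : ℕ) : ∀ {G : Type u} [Group G] [Finite G],
    Nat.card G = n → ∀ (P : Sylow p G), Star P → ∀ (χ : G → ℂ), IsCharacter G χ →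
    (∀ g, χ g = χ 1 → g = 1) → charDegree χ ^ 2 + 1 < Nat.card P → (P : Subgroup G).Normal := by
  induction n using Nat.strong_induction_on with
  | _ n ih =>
  intro G _ _ hn P h χ hχ hf hdeg
  classical
  have : Fintype G := Fintype.ofFinite _
  by_cases hex : ∃ ξ : IrrCharacter G, classInner χ ξ.1 ≠ 0 ∧ charDegree ξ.1 ≠ 1
  · obtain ⟨ξ, hξ, hξ1⟩ := hex
    have h1 : charDegree ξ.1 ≤ charDegree χ := by
      have h2 := degree_le_of_constituent hχ ξ.2 hξ
      rw [← CharGlaub2.charDegree_cast hχ, ← CharGlaub2.charDegree_cast (isChar_of_irr ξ.2),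
        Complex.natCast_re, Complex.natCast_re] at h2
      exact_mod_cast h2
    have h2 : ξ.1 ≠ fun _ => 1 := by
      intro h0
      apply hξ1
      have h3 := CharGlaub2.charDegree_cast (isChar_of_irr ξ.2)
      have h4 : ξ.1 1 = (1 : ℂ) := by rw [h0]
      rw [h4] at h3
      exact_mod_cast h3
    rcases alt h ξ h2 (by nlinarith) with ⟨K, hKn, hKt, hPK⟩ | ⟨-, h3⟩
    · let PK : Sylow p K := P.subtype hPK
      have hPKm : ∀ x : K, x ∈ (PK : Subgroup K) ↔ (x : G) ∈ (P : Subgroup G) := fun x => by
        rw [Sylow.coe_subtype, Subgroup.mem_subgroupOf]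
      have hcard : Nat.card PK = Nat.card P :=
        Nat.card_congr (Subgroup.subgroupOfEquivOfLe hPK).toEquiv
      have hstar : Star PK := by
        intro x hx hx1
        have hx' := (hPKm x).mp hx
        have hx1' : (x : G) ≠ 1 := fun h0 => hx1 (Subtype.ext h0)
        have hc := h x hx' hx1'
        apply le_antisymm
        · intro y hy
          rw [Subgroup.mem_centralizer_singleton_iff] at hy
          rw [Subgroup.mem_centralizer_iff]
          intro z hz
          have h4 : (y : G) ∈ Subgroup.centralizer ({(x : G)} : Set G) := by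
            rw [Subgroup.mem_centralizer_singleton_iff]
            exact congrArg Subtype.val hy
          rw [hc, Subgroup.mem_centralizer_iff] at h4
          exact Subtype.ext (h4 z ((hPKm z).mp hz))
        · intro y hy
          rw [Subgroup.mem_centralizer_singleton_iff]
          exact (Subgroup.mem_centralizer_iff.mp hy x hx).symm
      have hlt : Nat.card K < n := by
        rw [← hn]
        exact lt_of_le_of_ne (Subgroup.card_le_card_group K) fun h0 =>
          hKt (Subgroup.eq_top_of_card_eq K h0)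
      have hch := CharInd.isChar_res K hχ
      have hdg : charDegree (fun k : K => χ k) = charDegree χ := by
        have e1 := CharGlaub2.charDegree_cast hch
        have e2 := CharGlaub2.charDegree_cast hχ
        have e3 : χ ((1 : K) : G) = χ 1 := rfl
        rw [e3, ← e2] at e1
        exact_mod_cast e1
      have hres := ih _ hlt rfl PK hstar (fun k : K => χ k) hch
        (fun k hk => Subtype.ext (hf k hk)) (by rw [hdg, hcard]; exact hdeg)
      have hchar : (PK : Subgroup K).Characteristic := Sylow.characteristic_of_normal PK hres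
      have hnorm : ((PK : Subgroup K).map K.subtype).Normal :=
        ConjAct.normal_of_characteristic_of_normal
      have hmap : (PK : Subgroup K).map K.subtype = P := by
        rw [Sylow.coe_subtype, Subgroup.map_subgroupOf_eq_of_le hPK]
      rwa [hmap] at hnorm
    · exact absurd h3 hξ1
  · push Not at hex
    have hcomm : ∀ a b : G, a * b = b * a := by
      intro a b
      have h1 : a * b * (b * a)⁻¹ = 1 := by
        apply hf
        have h2 := char_eq_sum_inner hχ
        have h3 : ∀ g : G, χ g = ∑ ξ : IrrCharacter G, classInner χ ξ.1 * ξ.1 g := by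
          intro g
          have := congrFun h2 g
          rw [Finset.sum_apply] at this
          exact this
        rw [h3, h3 1]
        refine Finset.sum_congr rfl fun ξ _ => ?_
        by_cases h0 : classInner χ ξ.1 = 0
        · rw [h0, zero_mul, zero_mul]
        · have h4 := hex ξ h0
          have h5 := CharGlaub2.charDegree_cast (isChar_of_irr ξ.2)
          rw [h4, Nat.cast_one] at h5
          obtain ⟨l, hl⟩ := exists_lin_of_one (isChar_of_irr ξ.2) h5.symm
          rw [hl]
          simp only [map_mul, map_inv, map_one, mul_comm (l b) (l a), mul_inv_cancel]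
      exact mul_inv_eq_one.mp h1
    refine ⟨fun y hy g => ?_⟩
    rw [hcomm g y, mul_inv_cancel_right]
    exact hy

end

end Cfsg.Agent.Lib.CharBL2
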