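import Cfsg.Agent.Lib.CharUniqN
import Cfsg.Agent.Lib.ConjCover
import Cfsg.Agent.Lib.PSol
import Cfsg.Agent.Lib.Cores

set_option autoImplicit false
set_option maxHeartbeats 400000

namespace Cfsg.Agent.Lib.CharIM

open Cfsg Module Cfsg.Agent.Lib.CharBasic Cfsg.Agent.Lib.CharInd Cfsg.Agent.Lib.CharLin Cfsg.Agent.Lib.CharInt
open Cfsg.Agent.Lib.BlockDeg Cfsg.Agent.Lib.CharUniqN
open Cfsg.Agent.Lib.CharNormal Cfsg.Agent.Lib.CharClifford Cfsg.Agent.Lib.CharKer

noncomputable section

universe u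

theorem quot_deg {G : Type*} [Group G] [Finite G] {p : ℕ} (N : Subgroup G) [hN : N.Normal]
    (hdeg : ∀ φ : G → ℂ, IsIrrCharacter G φ → ¬ p ∣ charDegree φ) :
    ∀ φ : G ⧸ N → ℂ, IsIrrCharacter (G ⧸ N) φ → ¬ p ∣ charDegree φ := by
  intro φ hφ h
  apply hdeg _ (isIrr_infl N hφ)
  have h1 : charDegree (fun g : G => φ (g : G ⧸ N)) = charDegree φ := by
    apply charDegree_eq
    rw [charDegree_cast (isChar_of_irr hφ)]; rfl
  rw [h1]; exact h

theorem res_deg {G : Type*} [Group G] [Fintype G] {p : ℕ} (N : Subgroup G) [hN : N.Normal]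
    (hdeg : ∀ φ : G → ℂ, IsIrrCharacter G φ → ¬ p ∣ charDegree φ) :
    ∀ φ : N → ℂ, IsIrrCharacter N φ → ¬ p ∣ charDegree φ := by
  classical
  intro θ hθ h
  letI : Fintype N := Fintype.ofFinite _
  obtain ⟨ψ, hψ⟩ := char_ne_zero_exists_constituent (isChar_ind N (isChar_of_irr hθ)) (by
    intro h
    have h1 := congrFun h 1
    rw [indFun_one] at h1
    rcases mul_eq_zero.mp h1 with h2 | h2
    · exact Subgroup.index_ne_zero_of_finite (Nat.cast_eq_zero.mp h2)
    · exact isIrr_one_ne_zero hθ h2)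
  rw [reciprocity N _ _ (isChar_classFn (isChar_of_irr ψ.2))] at hψ
  have hψ' : classInner (fun n : N => ψ.1 n) θ ≠ 0 := by
    intro h
    apply hψ
    rw [← classInner_conj_symm, h, map_zero]
  have h1 := degree_eq ψ.2 hθ hψ'
  obtain ⟨a, ha⟩ := exists_nat_inner (isChar_res N (isChar_of_irr ψ.2)) hθ
  rw [ha, ← charDegree_cast (isChar_of_irr hθ), ← charDegree_cast (isChar_of_irr ψ.2)] at h1
  have h2 : charDegree ψ.1 = a * (inertia θ).index * charDegree θ := by exact_mod_cast h1
  exact hdeg _ ψ.2 (by rw [h2]; exact h.mul_left _)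

/-- a `p`-group with all degrees prime to `p` is abelian -/
theorem comm_of_deg {A : Type*} [Group A] [Finite A] {p : ℕ} [hp : Fact p.Prime] (hA : IsPGroup p A)
    (hdeg : ∀ φ : A → ℂ, IsIrrCharacter A φ → ¬ p ∣ charDegree φ) : ∀ a b : A, a * b = b * a := by
  classical
  by_contra hno
  push Not at hno
  letI : Fintype A := Fintype.ofFinite _
  obtain ⟨β₀, hβ₀, hβ₀1⟩ := exists_nonlinear hno
  apply hdeg _ hβ₀
  have h2 := charDegree_dvd hβ₀
  obtain ⟨k, hk⟩ := IsPGroup.iff_card.mp hA
  rw [hk] at h2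
  obtain ⟨j, -, hj⟩ := (Nat.dvd_prime_pow hp.out).mp h2
  rw [hj]
  apply dvd_pow_self
  rintro rfl
  apply hβ₀1
  rw [← charDegree_cast (isChar_of_irr hβ₀), hj, pow_zero, Nat.cast_one]

theorem compl_case {G : Type*} [Group G] [Fintype G] {p : ℕ} [hp : Fact p.Prime]
    (N : Subgroup G) [hN : N.Normal] (hNc : (Nat.card N).Coprime p) {k : ℕ} (hidx : N.index = p ^ k)
    (hdeg : ∀ φ : G → ℂ, IsIrrCharacter G φ → ¬ p ∣ charDegree φ) (P : Sylow p G) :
    (P : Subgroup G).Normal ∧ ∀ a ∈ (P : Subgroup G), ∀ b ∈ (P : Subgroup G), a * b = b * a := by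
  classical
  have hab : ∀ a b : G ⧸ N, a * b = b * a :=
    comm_of_deg (IsPGroup.of_card (show Nat.card (G ⧸ N) = p ^ k from hidx)) (quot_deg N hdeg)
  obtain ⟨a, ha⟩ := IsPGroup.iff_card.mp P.isPGroup'
  have hPi : ¬ p ∣ (P : Subgroup G).index := P.not_dvd_index
  by_cases ha0 : a = 0
  · rw [ha0, pow_zero, Subgroup.card_eq_one] at ha
    rw [ha]
    refine ⟨inferInstance, fun a ha b hb => ?_⟩
    rw [Subgroup.mem_bot.mp ha, Subgroup.mem_bot.mp hb]
  have hcop : (Nat.card N).Coprime (Nat.card (P : Subgroup G)) := by rw [ha]; exact hNc.pow_right _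
  have hNP : N ⊔ (P : Subgroup G) = ⊤ := by
    rw [← Subgroup.index_eq_one]
    have h1 : (N ⊔ (P : Subgroup G)).index ∣ p ^ k := by
      rw [← hidx]; exact Subgroup.index_dvd_of_le le_sup_left
    have h2 : (N ⊔ (P : Subgroup G)).index ∣ (P : Subgroup G).index := Subgroup.index_dvd_of_le le_sup_right
    have h3 : Nat.Coprime (p ^ k) (P : Subgroup G).index :=
      Nat.Coprime.pow_left _ ((Nat.Prime.coprime_iff_not_dvd hp.out).mpr hPi)
    exact Nat.eq_one_of_dvd_coprimes h3 h1 h2
  have hdis : ∀ x ∈ N, x ∈ (P : Subgroup G) → x = 1 := by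
    intro x hx hxP
    have h1 : N ⊓ (P : Subgroup G) = ⊥ := Subgroup.inf_eq_bot_of_coprime hcop
    have h2 : x ∈ N ⊓ (P : Subgroup G) := ⟨hx, hxP⟩
    rw [h1] at h2
    exact Subgroup.mem_bot.mp h2
  have hPab : ∀ y ∈ (P : Subgroup G), ∀ z ∈ (P : Subgroup G), y * z = z * y := by
    intro y hy z hz
    have h1 : y * z * y⁻¹ * z⁻¹ ∈ N := by
      rw [← QuotientGroup.eq_one_iff]
      show (y : G ⧸ N) * (z : G ⧸ N) * (y : G ⧸ N)⁻¹ * (z : G ⧸ N)⁻¹ = 1
      rw [hab (y : G ⧸ N) (z : G ⧸ N)]; group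
    have h2 := hdis _ h1 (Subgroup.mul_mem _ (Subgroup.mul_mem _ (Subgroup.mul_mem _ hy hz) (Subgroup.inv_mem _ hy)) (Subgroup.inv_mem _ hz))
    calc y * z = (y * z * y⁻¹ * z⁻¹) * (z * y) := by group
      _ = z * y := by rw [h2, one_mul]
  have hcen : ∀ x ∈ Subgroup.normalizer ((P : Subgroup G) : Set G), ∀ y ∈ (P : Subgroup G), y * x = x * y := by
    intro x hx y hy
    have hxt : x ∈ N ⊔ (P : Subgroup G) := by rw [hNP]; exact Subgroup.mem_top _
    obtain ⟨n, hn, z, hz, rfl⟩ := Subgroup.mem_sup_of_normal_left.mp hxt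
    have hzn : z ∈ Subgroup.normalizer ((P : Subgroup G) : Set G) := Subgroup.le_normalizer hz
    have hnn : n ∈ Subgroup.normalizer ((P : Subgroup G) : Set G) := by
      have := Subgroup.mul_mem _ hx (Subgroup.inv_mem _ hzn)
      rwa [mul_inv_cancel_right] at this
    have h1 : n * y * n⁻¹ ∈ (P : Subgroup G) := (Subgroup.mem_normalizer_iff.mp hnn y).mp hy
    have h2 : n * y * n⁻¹ * y⁻¹ = 1 := by
      apply hdis
      · have h3 : n * y * n⁻¹ * y⁻¹ = n * (y * n⁻¹ * y⁻¹) := by group
        rw [h3]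
        exact N.mul_mem hn (hN.conj_mem _ (N.inv_mem hn) y)
      · exact Subgroup.mul_mem _ h1 (Subgroup.inv_mem _ hy)
    have h3 : n * y = y * n := by
      calc n * y = (n * y * n⁻¹ * y⁻¹) * (y * n) := by group
        _ = y * n := by rw [h2, one_mul]
    calc y * (n * z) = (y * n) * z := by group
      _ = n * (y * z) := by rw [← h3]; group
      _ = n * z * y := by rw [hPab y hy z hz]; group
  have hcl := card_classes P hcen
  have hPs : Group.IsSolvable (P : Subgroup G) := by
    haveI := P.isPGroup'.isNilpotent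
    infer_instance
  have h1 := Cfsg.Agent.Lib.CharCoF.count_main N (P : Subgroup G) hNP hcop hPs
  have h2 : Nat.card {η : IrrCharacter (Subgroup.normalizer ((P : Subgroup G) : Set G)) //
      (charDegree η.1).Coprime (Nat.card (P : Subgroup G))} =
      Nat.card (ConjClasses (Subgroup.normalizer ((P : Subgroup G) : Set G))) := by
    letI : Fintype (Subgroup.normalizer ((P : Subgroup G) : Set G)) := Fintype.ofFinite _
    rw [← card_irr]
    refine Nat.card_congr (Equiv.subtypeUnivEquiv fun η => ?_)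
    haveI : ((P : Subgroup G).subgroupOf (Subgroup.normalizer ((P : Subgroup G) : Set G))).Normal := Subgroup.normal_in_normalizer
    have h3 := ito η.2 ((P : Subgroup G).subgroupOf (Subgroup.normalizer ((P : Subgroup G) : Set G)))
      (fun x hx y hy => Subtype.ext (hPab x (Subgroup.mem_subgroupOf.mp hx) y (Subgroup.mem_subgroupOf.mp hy)))
      (charDegree_cast (isChar_of_irr η.2)).symm
    have h4 : ((P : Subgroup G).subgroupOf (Subgroup.normalizer ((P : Subgroup G) : Set G))).index ∣ (P : Subgroup G).index :=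
      Subgroup.relIndex_dvd_index_of_le Subgroup.le_normalizer
    rw [ha]
    apply Nat.Coprime.pow_right
    rw [Nat.coprime_comm, Nat.Prime.coprime_iff_not_dvd hp.out]
    exact fun h => hPi (h.trans (h3.trans h4))
  have h3 : Nat.card {χ : IrrCharacter G // (charDegree χ.1).Coprime (Nat.card (P : Subgroup G))} =
      Nat.card (IrrCharacter G) := by
    refine Nat.card_congr (Equiv.subtypeUnivEquiv fun χ => ?_)
    rw [ha, Nat.coprime_pow_right_iff (Nat.pos_of_ne_zero ha0), Nat.coprime_comm, Nat.Prime.coprime_iff_not_dvd hp.out]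
    exact hdeg χ.1 χ.2
  have h5 := card_compl (fun C : ConjClasses G => p ∣ Nat.card C.carrier)
  have h6 := card_irr (G := G)
  rw [h3, h2, ← hcl, h6, ← h5] at h1
  have h7 : Nat.card {C : ConjClasses G // p ∣ Nat.card C.carrier} = 0 := by omega
  have h8 : ∀ C : ConjClasses G, ¬ p ∣ Nat.card C.carrier := by
    intro C hC
    haveI : Nonempty {C : ConjClasses G // p ∣ Nat.card C.carrier} := ⟨⟨C, hC⟩⟩
    exact Nat.card_pos.ne' h7
  have h9 : Subgroup.centralizer ((P : Subgroup G) : Set G) = ⊤ := by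
    apply Cfsg.Agent.Lib.ConjCover.eq_top_of_conj_cover
    intro g
    letI : MulAction (P : Subgroup G) {x : G // IsConj g x} :=
      { smul := fun y x => ⟨(y : G) * x * (y : G)⁻¹, x.2.trans (isConj_iff.mpr ⟨y, rfl⟩)⟩
        one_smul := fun x => Subtype.ext (by show (1 : G) * x * (1 : G)⁻¹ = x; group)
        mul_smul := fun y z x => Subtype.ext (by
          show ((y : G) * z) * x * ((y : G) * z)⁻¹ = (y : G) * ((z : G) * x * (z : G)⁻¹) * (y : G)⁻¹
          group) }
    obtain ⟨x, hx⟩ := P.isPGroup'.nonempty_fixed_point_of_prime_not_dvd_card {x : G // IsConj g x} (h8 (ConjClasses.mk g))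
    obtain ⟨c, hc⟩ := isConj_iff.mp x.2
    refine ⟨c⁻¹, ?_⟩
    rw [inv_inv, hc, Subgroup.mem_centralizer_iff]
    intro y hy
    have h2 : y * (x : G) * y⁻¹ = x := congrArg Subtype.val (hx ⟨y, hy⟩)
    calc y * (x : G) = y * (x : G) * y⁻¹ * y := by group
      _ = _ := by rw [h2]
  refine ⟨⟨fun y hy g => ?_⟩, hPab⟩
  have h10 : g ∈ Subgroup.centralizer ((P : Subgroup G) : Set G) := by rw [h9]; exact Subgroup.mem_top _
  have h11 : y * g = g * y := Subgroup.mem_centralizer_iff.mp h10 y hy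
  rw [← h11, mul_inv_cancel_right]
  exact hy
section induct

theorem main {p : ℕ} [hp : Fact p.Prime] (n : ℕ) : ∀ (G : Type u) [Group G] [Finite G], Nat.card G ≤ n →
    IsPSolvable p G → (∀ φ : G → ℂ, IsIrrCharacter G φ → ¬ p ∣ charDegree φ) → ∀ P : Sylow p G,
    (P : Subgroup G).Normal ∧ ∀ a ∈ (P : Subgroup G), ∀ b ∈ (P : Subgroup G), a * b = b * a := by
  classical
  induction n with
  | zero => intro G _ _ h; exact absurd (Nat.le_zero.mp h) Nat.card_pos.ne'
  | succ n ih =>
    intro G _ _ hn hs hdeg P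
    cases nonempty_fintype G
    rcases subsingleton_or_nontrivial G with hsub | hnt
    · refine ⟨⟨fun y hy g => ?_⟩, fun a _ b _ => Subsingleton.elim _ _⟩
      rw [Subsingleton.elim (g * y * g⁻¹) y]; exact hy
    have key : ∀ M : Subgroup G, M.Normal → M ≠ ⊥ → (IsPGroup p M ∨ (Nat.card M).Coprime p) →
        (P : Subgroup G).Normal ∧ ∀ a ∈ (P : Subgroup G), ∀ b ∈ (P : Subgroup G), a * b = b * a := by
      intro M hMn hM1 hM
      haveI := hMn
      have hcM : 1 < Nat.card M := Subgroup.one_lt_card_iff_ne_bot M |>.mpr hM1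
      have hcq : Nat.card (G ⧸ M) ≤ n := by
        have h1 := M.card_mul_index
        have h2 : Nat.card (G ⧸ M) = M.index := rfl
        have h3 : 0 < M.index := Nat.pos_of_ne_zero Subgroup.index_ne_zero_of_finite
        rw [h2]
        nlinarith
      have hq := ih (G ⧸ M) hcq (Cfsg.Agent.Lib.PSol.quotient hs M) (quot_deg M hdeg)
        (P.mapSurjective (QuotientGroup.mk'_surjective M))
      rw [Sylow.coe_mapSurjective] at hq
      haveI hKn : ((P : Subgroup G) ⊔ M).Normal := by
        have h1 : (P : Subgroup G) ⊔ M = ((P : Subgroup G).map (QuotientGroup.mk' M)).comap (QuotientGroup.mk' M) := by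
          rw [Subgroup.comap_map_eq, QuotientGroup.ker_mk']
        rw [h1]
        haveI := hq.1
        infer_instance
      by_cases hK : (P : Subgroup G) ⊔ M = ⊤
      · rcases hM with hMp | hMc
        · have h1 := P.isPGroup'.to_sup_of_normal_right hMp
          rw [hK] at h1
          have h2 : IsPGroup p G := h1.of_equiv Subgroup.topEquiv
          have h3 := comm_of_deg h2 hdeg
          refine ⟨⟨fun y hy g => ?_⟩, fun a _ b _ => h3 a b⟩
          rw [h3 g y, mul_inv_cancel_right]; exact hy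
        · have h1 : (P : Subgroup G).map (QuotientGroup.mk' M) = ⊤ := by
            rw [eq_top_iff]
            intro x _
            obtain ⟨g, rfl⟩ := QuotientGroup.mk'_surjective M x
            have h2 : g ∈ (P : Subgroup G) ⊔ M := by rw [hK]; exact Subgroup.mem_top _
            obtain ⟨y, hy, m, hm, rfl⟩ := Subgroup.mem_sup_of_normal_right.mp h2
            refine ⟨y, hy, ?_⟩
            rw [map_mul]
            have h3 : QuotientGroup.mk' M m = 1 := (QuotientGroup.eq_one_iff m).mpr hm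
            rw [h3, mul_one]
          have h2 : IsPGroup p ((P : Subgroup G).map (QuotientGroup.mk' M)) := P.isPGroup'.map _
          rw [h1] at h2
          obtain ⟨k, hk⟩ := IsPGroup.iff_card.mp (h2.of_equiv Subgroup.topEquiv)
          exact compl_case M hMc (k := k) hk hdeg P
      · have hcK : Nat.card ((P : Subgroup G) ⊔ M : Subgroup G) ≤ n := by
          have h1 : ((P : Subgroup G) ⊔ M).index ≠ 1 := fun h => hK (Subgroup.index_eq_one.mp h)
          have h2 : ((P : Subgroup G) ⊔ M).index ≠ 0 := Subgroup.index_ne_zero_of_finite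
          have h3 := ((P : Subgroup G) ⊔ M).card_mul_index
          have h4 : 0 < Nat.card ((P : Subgroup G) ⊔ M : Subgroup G) := Nat.card_pos
          have h5 : 2 ≤ ((P : Subgroup G) ⊔ M).index := by omega
          nlinarith
        have hPK : (P : Subgroup G) ≤ (P : Subgroup G) ⊔ M := le_sup_left
        have h1 := ih ((P : Subgroup G) ⊔ M : Subgroup G) hcK (Cfsg.Agent.Lib.PSol.subgroup hs _)
          (res_deg _ hdeg) (P.subtype hPK)
        haveI h2 : ((P.subtype hPK : Sylow p _) : Subgroup ((P : Subgroup G) ⊔ M : Subgroup G)).Characteristic :=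
          Sylow.characteristic_of_normal _ h1.1
        have h3 : (((P.subtype hPK : Sylow p _) : Subgroup ((P : Subgroup G) ⊔ M : Subgroup G)).map
            ((P : Subgroup G) ⊔ M : Subgroup G).subtype).Normal := ConjAct.normal_of_characteristic_of_normal
        rw [Sylow.coe_subtype, Subgroup.subgroupOf_map_subtype, inf_of_le_left hPK] at h3
        refine ⟨h3, fun a ha b hb => ?_⟩
        have h4 := h1.2 ⟨a, hPK ha⟩ ha ⟨b, hPK hb⟩ hb
        exact congrArg Subtype.val h4
    rcases Cfsg.Agent.Lib.PSol.core_ne_bot hs with h | h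
    · exact key _ (Cfsg.Agent.Lib.Cores.pCore_normal p) h (Or.inl (Cfsg.Agent.Lib.Cores.pCore_isPGroup p))
    · exact key _ (Cfsg.Agent.Lib.Cores.pPrimeCore_normal p) h (Or.inr (Cfsg.Agent.Lib.Cores.pPrimeCore_coprime p))

end induct

end

end Cfsg.Agent.Lib.CharIM
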