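import Cfsg.Agent.Lib.CharAvg
import Cfsg.Agent.Lib.CharMod
import Cfsg.Agent.Lib.CharClifford
import Cfsg.Agent.Lib.CharKer
import Mathlib.GroupTheory.GroupAction.CardCommute
import Mathlib.GroupTheory.SemidirectProduct
import Mathlib.GroupTheory.Complement

/-! Class numbers of groups `GV` with `V` abelian normal. -/

set_option autoImplicit false
set_option linter.unusedVariables false
set_option linter.unusedSectionVars false

namespace Cfsg.Agent.Lib.CharKGV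

open Cfsg Cfsg.Agent.Lib.CharBasic
open scoped ComplexConjugate

noncomputable section

theorem telescope {X : Type*} [Group X] (g w : X)
    (h : Commute g (w * g * w⁻¹ * g⁻¹)) (k : ℕ) :
    (w * g * w⁻¹ * g⁻¹) ^ k = w * g ^ k * w⁻¹ * (g ^ k)⁻¹ := by
  induction k with
  | zero => simp
  | succ k ih =>
    have h1 : w * g * w⁻¹ * g⁻¹ = g ^ k * (w * g * w⁻¹ * g⁻¹) * (g ^ k)⁻¹ := by
      have := (h.pow_left k).eq
      rw [this]; group
    rw [pow_succ, ih]
    conv_lhs => rw [h1]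
    rw [pow_succ]
    group

theorem comm_eq_one {X : Type*} [Group X] [Finite X] {V : Subgroup X} [hV : V.Normal] {g w : X}
    (hw : w ∈ V) (hcop : (Nat.card V).Coprime (orderOf g))
    (h : Commute g (w * g * w⁻¹ * g⁻¹)) : w * g * w⁻¹ * g⁻¹ = 1 := by
  have h1 := telescope g w h (orderOf g)
  rw [pow_orderOf_eq_one] at h1
  simp only [mul_one, inv_one, mul_inv_cancel] at h1
  have h2 : orderOf (w * g * w⁻¹ * g⁻¹) ∣ orderOf g := orderOf_dvd_of_pow_eq_one h1
  have hmem : w * g * w⁻¹ * g⁻¹ ∈ V := by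
    have := V.mul_mem hw (hV.conj_mem _ (V.inv_mem hw) g)
    rwa [show w * (g * w⁻¹ * g⁻¹) = w * g * w⁻¹ * g⁻¹ by group] at this
  have h3 : orderOf (w * g * w⁻¹ * g⁻¹) ∣ Nat.card V := by
    have := orderOf_dvd_natCard (⟨_, hmem⟩ : V)
    rwa [Subgroup.orderOf_mk] at this
  have h4 := Nat.dvd_gcd h3 h2
  rw [hcop.gcd_eq_one, Nat.dvd_one] at h4
  exact orderOf_eq_one_iff.mp h4

/-- The hom `w ↦ w g w⁻¹ g⁻¹` on an abelian normal subgroup. -/
def dHom {X : Type*} [Group X] (V : Subgroup X) [hV : V.Normal]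
    (hab : ∀ a ∈ V, ∀ b ∈ V, a * b = b * a) (g : X) : V →* V where
  toFun w := ⟨w * g * (w : X)⁻¹ * g⁻¹, by
    have := V.mul_mem w.2 (hV.conj_mem _ (V.inv_mem w.2) g)
    rwa [show (w : X) * (g * (w : X)⁻¹ * g⁻¹) = w * g * (w : X)⁻¹ * g⁻¹ by group] at this⟩
  map_one' := by apply Subtype.ext; simp
  map_mul' a b := by
    apply Subtype.ext
    change (a * b : X) * g * (a * b : X)⁻¹ * g⁻¹ = (a * g * (a : X)⁻¹ * g⁻¹) * (b * g * (b : X)⁻¹ * g⁻¹)
    have h1 : (b : X) * (g * (b : X)⁻¹ * g⁻¹) ∈ V :=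
      V.mul_mem b.2 (hV.conj_mem _ (V.inv_mem b.2) g)
    have h2 : g * (a : X)⁻¹ * g⁻¹ ∈ V := hV.conj_mem _ (V.inv_mem a.2) g
    have h3 := hab _ h1 _ h2
    calc (a * b : X) * g * (a * b : X)⁻¹ * g⁻¹ =
        a * ((b : X) * (g * (b : X)⁻¹ * g⁻¹) * (g * (a : X)⁻¹ * g⁻¹)) := by group
      _ = a * ((g * (a : X)⁻¹ * g⁻¹) * ((b : X) * (g * (b : X)⁻¹ * g⁻¹))) := by rw [h3]
      _ = _ := by group

theorem exists_decomp {X : Type*} [Group X] [Finite X] (V : Subgroup X) [hV : V.Normal]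
    (hab : ∀ a ∈ V, ∀ b ∈ V, a * b = b * a) {g : X}
    (hcop : (Nat.card V).Coprime (orderOf g)) {v : X} (hv : v ∈ V) :
    ∃ c ∈ V, ∃ w ∈ V, Commute g c ∧ v = c * (w * g * w⁻¹ * g⁻¹) := by
  classical
  obtain ⟨D, hD⟩ : ∃ D, D = dHom V hab g := ⟨_, rfl⟩
  have hDv : ∀ w : V, ((D w : V) : X) = w * g * (w : X)⁻¹ * g⁻¹ := by
    intro w; rw [hD]; rfl
  have hker : ∀ w : V, w ∈ D.ker ↔ Commute g (w : X) := by
    intro w
    rw [MonoidHom.mem_ker, Subtype.ext_iff, hDv]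
    change _ = (1 : X) ↔ _
    rw [mul_inv_eq_one, mul_inv_eq_iff_eq_mul]
    exact ⟨fun h => h.symm, fun h => h.symm⟩
  let f : D.ker × D.range → V := fun q => (q.1 : V) * (q.2 : V)
  have hinj : Function.Injective f := by
    rintro ⟨c, u⟩ ⟨c', u'⟩ h
    simp only [f] at h
    have h1 : ((c' : V)⁻¹ * c : V) = (u' : V) * (u : V)⁻¹ := by
      rw [inv_mul_eq_iff_eq_mul, ← mul_assoc, ← h]; group
    have h2 : (u' : V) * (u : V)⁻¹ ∈ D.range := D.range.mul_mem u'.2 (D.range.inv_mem u.2)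
    obtain ⟨w, hw⟩ := h2
    have h3 : (c' : V)⁻¹ * (c : V) ∈ D.ker := D.ker.mul_mem (D.ker.inv_mem c'.2) c.2
    rw [h1, ← hw] at h3
    rw [hker, hDv] at h3
    have h4 := comm_eq_one w.2 hcop h3
    rw [← hDv, hw, OneMemClass.coe_eq_one] at h4
    have h5 : (u : V) = u' := by
      rw [mul_inv_eq_one] at h4; exact h4.symm
    have h6 : (c : V) = c' := by
      rw [h4, inv_mul_eq_one] at h1; exact h1.symm
    exact Prod.ext (Subtype.ext h6) (Subtype.ext h5)
  have hcard : Nat.card (D.ker × D.range) = Nat.card V := by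
    rw [Nat.card_prod, mul_comm, ← Subgroup.index_ker, Subgroup.index_mul_card]
  have hbij := (Nat.bijective_iff_injective_and_card f).mpr ⟨hinj, hcard⟩
  obtain ⟨⟨c, ⟨u, w, hw⟩⟩, hcu⟩ := hbij.2 ⟨v, hv⟩
  refine ⟨(c : V), (c : V).2, w, w.2, (hker _).mp c.2, ?_⟩
  have h7 := congrArg (fun z : V => (z : X)) hcu
  simp only [f, Subgroup.coe_mul] at h7
  rw [← hDv, hw, h7]

theorem orderOf_coprime {X : Type*} [Group X] [Finite X] {V G : Subgroup X}
    (hcop : (Nat.card V).Coprime (Nat.card G)) {g : X} (hg : g ∈ G) :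
    (Nat.card V).Coprime (orderOf g) := by
  refine Nat.Coprime.coprime_dvd_right ?_ hcop
  have := orderOf_dvd_natCard (⟨g, hg⟩ : G)
  rwa [Subgroup.orderOf_mk] at this

theorem eq_sum {X : Type*} [Group X] [Finite X] (V : Subgroup X) [hV : V.Normal]
    (hab : ∀ a ∈ V, ∀ b ∈ V, a * b = b * a) (G : Subgroup X)
    (hGV : Subgroup.IsComplement' V G) (hcop : (Nat.card V).Coprime (Nat.card G)) (S : Finset X)
    (hSV : ∀ s ∈ S, s ∈ V) (hrep : ∀ v ∈ V, ∃! s, s ∈ S ∧ ∃ g ∈ G, g * v * g⁻¹ = s) :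
    Nat.card (ConjClasses X) =
      ∑ s ∈ S, Nat.card (ConjClasses ↥(G ⊓ Subgroup.centralizer ({s} : Set X))) := by
  classical
  -- uniqueness in V G
  have huniq : ∀ v ∈ V, ∀ g ∈ G, ∀ v' ∈ V, ∀ g' ∈ G, v * g = v' * g' → v = v' ∧ g = g' := by
    intro v hv g hg v' hv' g' hg' h
    have h1 : v'⁻¹ * v = g' * g⁻¹ := by
      rw [inv_mul_eq_iff_eq_mul, ← mul_assoc, ← h]; group
    have h2 : v'⁻¹ * v ∈ V ⊓ G := ⟨V.mul_mem (V.inv_mem hv') hv, by
      rw [h1]; exact G.mul_mem hg' (G.inv_mem hg)⟩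
    rw [hGV.disjoint.eq_bot, Subgroup.mem_bot] at h2
    refine ⟨?_, ?_⟩
    · rw [inv_mul_eq_one] at h2; exact h2.symm
    · rw [h2] at h1
      exact (mul_inv_eq_one.mp h1.symm).symm
  let T := Σ s : S, ConjClasses ↥(G ⊓ Subgroup.centralizer ({(s : X)} : Set X))
  let F : T → ConjClasses X := fun t => Quotient.lift
    (fun h : ↥(G ⊓ Subgroup.centralizer ({(t.1 : X)} : Set X)) => ConjClasses.mk ((t.1 : X) * h))
    (by
      intro a b hab'
      obtain ⟨c, hc⟩ := isConj_iff.mp hab'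
      rw [ConjClasses.mk_eq_mk_iff_isConj]
      refine isConj_iff.mpr ⟨(c : X), ?_⟩
      have h1 := Subgroup.mem_centralizer_singleton_iff.mp c.2.2
      rw [← hc]
      push_cast
      calc (c : X) * (t.1 * a) * (c : X)⁻¹ = ((c : X) * t.1) * a * (c : X)⁻¹ := by group
        _ = (t.1 * (c : X)) * a * (c : X)⁻¹ := by rw [h1]
        _ = _ := by group) t.2
  have hF : ∀ (s : S) (h : ↥(G ⊓ Subgroup.centralizer ({(s : X)} : Set X))),
      F ⟨s, ConjClasses.mk h⟩ = ConjClasses.mk ((s : X) * h) := fun s h => rfl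
  have hbij : Function.Bijective F := by
    constructor
    · rintro ⟨s, C⟩ ⟨s', C'⟩ h
      obtain ⟨a, rfl⟩ := ConjClasses.mk_surjective C
      obtain ⟨b, rfl⟩ := ConjClasses.mk_surjective C'
      rw [hF, hF, ConjClasses.mk_eq_mk_iff_isConj] at h
      obtain ⟨x, hx⟩ := isConj_iff.mp h
      obtain ⟨⟨v, k⟩, hvk⟩ := hGV.2 x
      simp only at hvk
      have hvV := v.2
      have hkG := k.2
      obtain ⟨c, hc⟩ : ∃ c, c = (k : X) * s * (k : X)⁻¹ := ⟨_, rfl⟩
      have hsV := hSV s s.2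
      have hs'V := hSV s' s'.2
      have hcV : c ∈ V := hc ▸ hV.conj_mem _ hsV k
      have haG := a.2.1
      have hbG := b.2.1
      have has := Subgroup.mem_centralizer_singleton_iff.mp a.2.2
      have hbs := Subgroup.mem_centralizer_singleton_iff.mp b.2.2
      obtain ⟨a', ha'⟩ : ∃ a', a' = (k : X) * a * (k : X)⁻¹ := ⟨_, rfl⟩
      have ha'G : a' ∈ G := ha' ▸ G.mul_mem (G.mul_mem hkG haG) (G.inv_mem hkG)
      have hca' : c * a' = a' * c := by
        rw [hc, ha']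
        calc (k : X) * s * (k : X)⁻¹ * ((k : X) * a * (k : X)⁻¹) = k * (s * a) * (k : X)⁻¹ := by group
          _ = k * (a * s) * (k : X)⁻¹ := by rw [has]
          _ = _ := by group
      have h1 : (v : X) * (c * a') * (v : X)⁻¹ = s' * b := by
        rw [← hx, ← hvk, hc, ha']; group
      have h2 : (c * ((v : X) * a' * (v : X)⁻¹ * a'⁻¹)) * a' = s' * b := by
        rw [← h1]
        have := hab _ hcV _ hvV
        calc c * ((v : X) * a' * (v : X)⁻¹ * a'⁻¹) * a' = (c * v) * a' * (v : X)⁻¹ := by group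
          _ = (v * c) * a' * (v : X)⁻¹ := by rw [this]
          _ = _ := by group
      have hdV : (v : X) * a' * (v : X)⁻¹ * a'⁻¹ ∈ V := by
        have := V.mul_mem hvV (hV.conj_mem _ (V.inv_mem hvV) a')
        rwa [show (v : X) * (a' * (v : X)⁻¹ * a'⁻¹) = v * a' * (v : X)⁻¹ * a'⁻¹ by group] at this
      obtain ⟨h3, h4⟩ := huniq _ (V.mul_mem hcV hdV) _ ha'G _ hs'V _ hbG h2
      have h5 : (v : X) * a' * (v : X)⁻¹ * a'⁻¹ = 1 := by
        apply comm_eq_one hvV (orderOf_coprime hcop ha'G)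
        have h6 : (v : X) * a' * (v : X)⁻¹ * a'⁻¹ = c⁻¹ * s' := by rw [← h3]; group
        rw [h6]
        apply Commute.mul_right
        · exact (show Commute a' c from hca'.symm).inv_right
        · rw [h4]; exact hbs
      rw [h5, mul_one] at h3
      have hss : s = s' := by
        apply Subtype.ext
        obtain ⟨u, -, hu⟩ := hrep s hsV
        have e1 := hu s ⟨s.2, 1, G.one_mem, by group⟩
        have e2 := hu s' ⟨s'.2, k, hkG, by rw [← hc, h3]⟩
        rw [e1, e2]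
      subst hss
      congr 1
      rw [ConjClasses.mk_eq_mk_iff_isConj]
      refine isConj_iff.mpr ⟨⟨k, hkG, ?_⟩, ?_⟩
      · refine Subgroup.mem_centralizer_singleton_iff.mpr ?_
        rw [hc, mul_inv_eq_iff_eq_mul] at h3
        exact h3
      · apply Subtype.ext
        push_cast
        rw [← ha', h4]
    · intro C
      obtain ⟨x, rfl⟩ := ConjClasses.mk_surjective C
      obtain ⟨⟨v, g⟩, hvg⟩ := hGV.2 x
      simp only at hvg
      obtain ⟨c, hcV, w, hwV, hgc, hv⟩ := exists_decomp V hab (orderOf_coprime hcop g.2) v.2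
      obtain ⟨s, ⟨hs, k, hk, hks⟩, -⟩ := hrep c hcV
      have hmem : k * (g : X) * k⁻¹ ∈ G ⊓ Subgroup.centralizer ({s} : Set X) := by
        refine ⟨G.mul_mem (G.mul_mem hk g.2) (G.inv_mem hk), ?_⟩
        refine Subgroup.mem_centralizer_singleton_iff.mpr ?_
        rw [← hks]
        calc k * (g : X) * k⁻¹ * (k * c * k⁻¹) = k * (g * c) * k⁻¹ := by group
          _ = k * (c * g) * k⁻¹ := by rw [hgc.eq]
          _ = _ := by group
      refine ⟨⟨⟨s, hs⟩, ConjClasses.mk ⟨_, hmem⟩⟩, ?_⟩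
      rw [hF, ConjClasses.mk_eq_mk_iff_isConj]
      refine isConj_iff.mpr ⟨w * k⁻¹, ?_⟩
      change w * k⁻¹ * (s * (k * g * k⁻¹)) * (w * k⁻¹)⁻¹ = x
      rw [← hks, ← hvg, hv]
      have h1 := hab _ hwV _ hcV
      calc w * k⁻¹ * (k * c * k⁻¹ * (k * g * k⁻¹)) * (w * k⁻¹)⁻¹ = (w * c) * g * w⁻¹ := by group
        _ = (c * w) * g * w⁻¹ := by rw [h1]
        _ = _ := by group
  rw [← Nat.card_congr (Equiv.ofBijective F hbij), Nat.card_sigma,
    ← Finset.sum_coe_sort S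
      (fun s => Nat.card (ConjClasses ↥(G ⊓ Subgroup.centralizer ({s} : Set X))))]

/-- Isomorphic groups have the same class number. -/
theorem card_classes_congr {A B : Type*} [Group A] [Group B] (e : A ≃* B) :
    Nat.card (ConjClasses A) = Nat.card (ConjClasses B) := by
  refine Nat.card_congr ⟨ConjClasses.map e.toMonoidHom, ConjClasses.map e.symm.toMonoidHom,
    fun C => ?_, fun C => ?_⟩
  · obtain ⟨g, rfl⟩ := ConjClasses.mk_surjective C
    change ConjClasses.mk (e.symm (e g)) = _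
    simp
  · obtain ⟨g, rfl⟩ := ConjClasses.mk_surjective C
    change ConjClasses.mk (e (e.symm g)) = _
    simp

/-- The bound from averaging column orthogonality. -/
theorem knorr_bound {X : Type*} [Group X] [Fintype X] (V : Subgroup X) [V.Normal] {v : X}
    (hv : v ∈ V) (h : ∀ χ : IrrCharacter X, χ.1 v ≠ 0) :
    Nat.card (ConjClasses X) + Nat.card (X ⧸ V) ≤
      Nat.card (Subgroup.centralizer ({v} : Set X)) + Nat.card (ConjClasses (X ⧸ V)) := by
  classical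
  cases nonempty_fintype (X ⧸ V)
  haveI : NeZero (orderOf v) := ⟨(orderOf_pos v).ne'⟩
  let P : IrrCharacter X → Prop := fun χ => ∀ n ∈ V, χ.1 n = χ.1 1
  have hall : ∀ u : (ZMod (orderOf v))ˣ,
      ∑ χ : IrrCharacter X, ‖χ.1 (v ^ (u : ZMod (orderOf v)).val)‖ ^ 2 =
      (Nat.card (Subgroup.centralizer ({v} : Set X)) : ℝ) := by
    intro u
    have h2 := column_orth (v ^ (u : ZMod (orderOf v)).val) (v ^ (u : ZMod (orderOf v)).val)
    rw [if_pos (IsConj.refl _), Lib.CharAvg.centralizer_pow] at h2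
    have h3 : ∀ χ : IrrCharacter X, χ.1 (v ^ (u : ZMod (orderOf v)).val) *
        conj (χ.1 (v ^ (u : ZMod (orderOf v)).val)) =
        ((‖χ.1 (v ^ (u : ZMod (orderOf v)).val)‖ ^ 2 : ℝ) : ℂ) := by
      intro χ
      rw [Complex.mul_conj, Complex.normSq_eq_norm_sq]
    simp only [h3] at h2
    exact_mod_cast h2
  have hP : ∀ u : (ZMod (orderOf v))ˣ,
      ∑ χ : {χ : IrrCharacter X // P χ}, ‖χ.1.1 (v ^ (u : ZMod (orderOf v)).val)‖ ^ 2 =
      (Nat.card (X ⧸ V) : ℝ) := by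
    intro u
    have h1 : ∑ χ : {χ : IrrCharacter X // P χ}, ‖χ.1.1 (v ^ (u : ZMod (orderOf v)).val)‖ ^ 2 =
        ∑ ψ : IrrCharacter (X ⧸ V), ‖ψ.1 1‖ ^ 2 := by
      refine (Fintype.sum_equiv (Lib.CharKer.quotEquiv V).symm _ _ fun ψ => ?_).symm
      have h2 : ((Lib.CharKer.quotEquiv V).symm ψ).1.1 (v ^ (u : ZMod (orderOf v)).val) =
        ψ.1 ((v ^ (u : ZMod (orderOf v)).val : X) : X ⧸ V) := rfl
      rw [h2, (QuotientGroup.eq_one_iff _).mpr (V.pow_mem hv _)]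
    rw [h1]
    have h3 := column_orth_one (1 : X ⧸ V)
    rw [if_pos rfl] at h3
    have h4 : ∀ ψ : IrrCharacter (X ⧸ V), ψ.1 1 * ψ.1 1 = ((‖ψ.1 1‖ ^ 2 : ℝ) : ℂ) := by
      intro ψ
      obtain ⟨d, -, hd⟩ := isIrr_one_eq ψ.2
      rw [hd, Complex.norm_natCast]; push_cast; ring
    simp only [h4] at h3
    exact_mod_cast h3
  have hnP : ∀ u : (ZMod (orderOf v))ˣ,
      ∑ χ : {χ : IrrCharacter X // ¬ P χ}, ‖χ.1.1 (v ^ (u : ZMod (orderOf v)).val)‖ ^ 2 =
      (Nat.card (Subgroup.centralizer ({v} : Set X)) : ℝ) - Nat.card (X ⧸ V) := by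
    intro u
    have h1 := Fintype.sum_subtype_add_sum_subtype P
      (fun χ : IrrCharacter X => ‖χ.1 (v ^ (u : ZMod (orderOf v)).val)‖ ^ 2)
    rw [hall u] at h1
    have h2 := hP u
    linarith
  have h1 : ∑ χ : {χ : IrrCharacter X // ¬ P χ}, ∑ u : (ZMod (orderOf v))ˣ,
      ‖χ.1.1 (v ^ (u : ZMod (orderOf v)).val)‖ ^ 2 =
      Fintype.card (ZMod (orderOf v))ˣ *
        ((Nat.card (Subgroup.centralizer ({v} : Set X)) : ℝ) - Nat.card (X ⧸ V)) := by
    rw [Finset.sum_comm]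
    simp only [hnP, Finset.sum_const, Finset.card_univ, nsmul_eq_mul]
  have h2 : ∑ χ : {χ : IrrCharacter X // ¬ P χ}, (Fintype.card (ZMod (orderOf v))ˣ : ℝ) ≤
      ∑ χ : {χ : IrrCharacter X // ¬ P χ}, ∑ u : (ZMod (orderOf v))ˣ,
      ‖χ.1.1 (v ^ (u : ZMod (orderOf v)).val)‖ ^ 2 :=
    Finset.sum_le_sum fun χ _ => (Lib.CharAvg.avg (isChar_of_irr χ.1.2) v (h χ.1)).1
  have hpos : (0 : ℝ) < Fintype.card (ZMod (orderOf v))ˣ := by exact_mod_cast Fintype.card_pos
  rw [h1, Finset.sum_const, Finset.card_univ, nsmul_eq_mul, mul_comm] at h2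
  have h3 := le_of_mul_le_mul_left h2 hpos
  have h4 : Fintype.card {χ : IrrCharacter X // P χ} + Fintype.card {χ : IrrCharacter X // ¬ P χ} =
      Fintype.card (IrrCharacter X) := by
    rw [Fintype.card_subtype_compl]
    have := Fintype.card_subtype_le P
    omega
  have h5 : Fintype.card {χ : IrrCharacter X // P χ} = Nat.card (ConjClasses (X ⧸ V)) := by
    rw [← card_irr, ← Nat.card_eq_fintype_card]
    exact Nat.card_congr (Lib.CharKer.quotEquiv V)
  have h6 : Fintype.card (IrrCharacter X) = Nat.card (ConjClasses X) := by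
    rw [← card_irr, Nat.card_eq_fintype_card]
  rw [h5, h6] at h4
  have h7 : ((Nat.card (ConjClasses (X ⧸ V)) : ℝ) + Fintype.card {χ : IrrCharacter X // ¬ P χ}) =
      Nat.card (ConjClasses X) := by exact_mod_cast h4
  have h8 : (Nat.card (ConjClasses X) : ℝ) + Nat.card (X ⧸ V) ≤
      Nat.card (Subgroup.centralizer ({v} : Set X)) + Nat.card (ConjClasses (X ⧸ V)) := by
    linarith
  exact_mod_cast h8

theorem card_centralizer_mem {X : Type*} [Group X] [Finite X] (V : Subgroup X)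
    (hab : ∀ a ∈ V, ∀ b ∈ V, a * b = b * a) (G : Subgroup X)
    (hGV : Subgroup.IsComplement' V G) {v : X} (hv : v ∈ V) :
    Nat.card (Subgroup.centralizer ({v} : Set X)) =
      Nat.card ↥(G ⊓ Subgroup.centralizer ({v} : Set X)) * Nat.card V := by
  rw [mul_comm, ← Nat.card_prod]
  let f : V × ↥(G ⊓ Subgroup.centralizer ({v} : Set X)) → Subgroup.centralizer ({v} : Set X) :=
    fun q => ⟨q.1 * q.2, (Subgroup.centralizer ({v} : Set X)).mul_mem
      (Subgroup.mem_centralizer_singleton_iff.mpr (hab _ q.1.2 _ hv)) q.2.2.2⟩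
  symm
  refine Nat.card_congr (Equiv.ofBijective f ⟨?_, ?_⟩)
  · rintro ⟨a, b⟩ ⟨a', b'⟩ h
    have h1 : (a : X) * b = a' * b' := congrArg Subtype.val h
    have h2 := hGV.1 (a₁ := (⟨a.1, a.2⟩, ⟨b.1, b.2.1⟩)) (a₂ := (⟨a'.1, a'.2⟩, ⟨b'.1, b'.2.1⟩)) h1
    rw [Prod.mk.injEq] at h2
    refine Prod.ext (Subtype.ext ?_) (Subtype.ext ?_)
    · exact congrArg (fun z : V => (z : X)) h2.1
    · exact congrArg (fun z : G => (z : X)) h2.2
  · rintro ⟨x, hx⟩
    obtain ⟨⟨w, g⟩, hwg⟩ := hGV.2 x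
    simp only at hwg
    have h1 : (g : X) ∈ Subgroup.centralizer ({v} : Set X) := by
      have h2 : (g : X) = (w : X)⁻¹ * x := by rw [← hwg]; group
      rw [h2]
      exact (Subgroup.centralizer ({v} : Set X)).mul_mem ((Subgroup.centralizer _).inv_mem
        (Subgroup.mem_centralizer_singleton_iff.mpr (hab _ w.2 _ hv))) hx
    exact ⟨(⟨w, w.2⟩, ⟨g, g.2, h1⟩), Subtype.ext hwg⟩

theorem stabilizer_bound {X : Type*} [Group X] [Finite X] (p : ℕ) [hpf : Fact p.Prime]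
    (V : Subgroup X) [hVn : V.Normal] (hVp : IsPGroup p V) (hidx : ¬ p ∣ V.index)
    (hab : ∀ a ∈ V, ∀ b ∈ V, a * b = b * a) (G : Subgroup X)
    (hGV : Subgroup.IsComplement' V G) (v : X) (hv : v ∈ V) :
    Nat.card (ConjClasses X) + Nat.card G ≤
      Nat.card ↥(G ⊓ Subgroup.centralizer ({v} : Set X)) * Nat.card V +
        Nat.card (ConjClasses G) := by
  classical
  cases nonempty_fintype X
  have h1 := knorr_bound V hv (by
    intro χ
    obtain ⟨d, hd0, hd⟩ := isIrr_one_eq χ.2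
    have h2 := Lib.CharClifford.ito χ.2 V hab hd
    refine Lib.CharMod.ne_zero_of_not_dvd hpf.out (isChar_of_irr χ.2) hd
      (fun h => hidx (h.trans h2)) ?_
    obtain ⟨k, hk⟩ := (IsPGroup.iff_orderOf.mp hVp) ⟨v, hv⟩
    rw [Subgroup.orderOf_mk] at hk
    exact ⟨k, hk⟩)
  have e := hGV.symm.QuotientMulEquiv
  rw [card_centralizer_mem V hab G hGV hv] at h1
  rw [← card_classes_congr e, ← Nat.card_congr e.toEquiv]
  exact h1

theorem le_split {X : Type*} [Group X] [Finite X] (V : Subgroup X) [hV : V.Normal]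
    (hab : ∀ a ∈ V, ∀ b ∈ V, a * b = b * a) (φ : X ⧸ V →* MulAut ↥V)
    (hφ : ∀ (x : X) (v : ↥V), ((φ (QuotientGroup.mk x) v : ↥V) : X) = x * v * x⁻¹) :
    Nat.card (ConjClasses X) ≤ Nat.card (ConjClasses (SemidirectProduct ↥V (X ⧸ V) φ)) := by
  classical
  haveI : Finite (SemidirectProduct ↥V (X ⧸ V) φ) :=
    Finite.of_equiv _ (SemidirectProduct.equivProd (φ := φ)).symm
  have hcardS : Nat.card (SemidirectProduct ↥V (X ⧸ V) φ) = Nat.card X := by
    rw [SemidirectProduct.card, mul_comm, ← Subgroup.index_eq_card, Subgroup.index_mul_card]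
  have h1 := card_comm_eq_card_conjClasses_mul_card X
  have h2 := card_comm_eq_card_conjClasses_mul_card (SemidirectProduct ↥V (X ⧸ V) φ)
  rw [hcardS] at h2
  have hpos : 0 < Nat.card X := Nat.card_pos
  refine Nat.le_of_mul_le_mul_right ?_ hpos
  rw [← h1, ← h2]
  -- choose base points
  obtain ⟨base, hbase⟩ : ∃ base : (X ⧸ V) × (X ⧸ V) → X × X, ∀ q,
      (∃ p : X × X, (QuotientGroup.mk p.1 = q.1 ∧ QuotientGroup.mk p.2 = q.2) ∧
        Commute p.1 p.2) →
      (QuotientGroup.mk (base q).1 = q.1 ∧ QuotientGroup.mk (base q).2 = q.2) ∧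
        Commute (base q).1 (base q).2 := by
    refine ⟨fun q => if h : ∃ p : X × X, (QuotientGroup.mk p.1 = q.1 ∧
      QuotientGroup.mk p.2 = q.2) ∧ Commute p.1 p.2 then h.choose else (1, 1), fun q h => ?_⟩
    simp only [dif_pos h]
    exact h.choose_spec
  let b : X × X → X × X := fun p => base (QuotientGroup.mk p.1, QuotientGroup.mk p.2)
  have hb : ∀ p : {p : X × X // Commute p.1 p.2},
      (QuotientGroup.mk (b p.1).1 = (QuotientGroup.mk p.1.1 : X ⧸ V) ∧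
      QuotientGroup.mk (b p.1).2 = (QuotientGroup.mk p.1.2 : X ⧸ V)) ∧
        Commute (b p.1).1 (b p.1).2 := fun p =>
    hbase _ ⟨p.1, ⟨rfl, rfl⟩, p.2⟩
  have hmem1 : ∀ p : {p : X × X // Commute p.1 p.2}, p.1.1 * (b p.1).1⁻¹ ∈ V := by
    intro p
    have h3 := (hb p).1.1
    rw [QuotientGroup.eq] at h3
    have h4 := hV.conj_mem _ h3 (b p.1).1
    rwa [show (b p.1).1 * ((b p.1).1⁻¹ * p.1.1) * (b p.1).1⁻¹ = p.1.1 * (b p.1).1⁻¹ by group] at h4
  have hmem2 : ∀ p : {p : X × X // Commute p.1 p.2}, p.1.2 * (b p.1).2⁻¹ ∈ V := by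
    intro p
    have h3 := (hb p).1.2
    rw [QuotientGroup.eq] at h3
    have h4 := hV.conj_mem _ h3 (b p.1).2
    rwa [show (b p.1).2 * ((b p.1).2⁻¹ * p.1.2) * (b p.1).2⁻¹ = p.1.2 * (b p.1).2⁻¹ by group] at h4
  let F : {p : X × X // Commute p.1 p.2} →
      {p : SemidirectProduct ↥V (X ⧸ V) φ × SemidirectProduct ↥V (X ⧸ V) φ // Commute p.1 p.2} :=
    fun p => ⟨(⟨⟨_, hmem1 p⟩, QuotientGroup.mk p.1.1⟩, ⟨⟨_, hmem2 p⟩, QuotientGroup.mk p.1.2⟩), by
      obtain ⟨⟨h3, h4⟩, h5⟩ := hb p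
      have h6 := p.2
      apply SemidirectProduct.ext
      · apply Subtype.ext
        change p.1.1 * (b p.1).1⁻¹ * ((φ (QuotientGroup.mk p.1.1) ⟨_, hmem2 p⟩ : V) : X) =
          p.1.2 * (b p.1).2⁻¹ * ((φ (QuotientGroup.mk p.1.2) ⟨_, hmem1 p⟩ : V) : X)
        rw [← h3, ← h4, hφ, hφ]
        calc p.1.1 * (b p.1).1⁻¹ * ((b p.1).1 * (p.1.2 * (b p.1).2⁻¹) * (b p.1).1⁻¹) =
            (p.1.1 * p.1.2) * ((b p.1).1 * (b p.1).2)⁻¹ := by group
          _ = (p.1.2 * p.1.1) * ((b p.1).2 * (b p.1).1)⁻¹ := by rw [h6.eq, h5.eq]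
          _ = _ := by group
      · change (QuotientGroup.mk p.1.1 : X ⧸ V) * QuotientGroup.mk p.1.2 =
          QuotientGroup.mk p.1.2 * QuotientGroup.mk p.1.1
        rw [← QuotientGroup.mk_mul, ← QuotientGroup.mk_mul, h6.eq]⟩
  apply Nat.card_le_card_of_injective F
  intro p q h
  have h3 := congrArg Subtype.val h
  have h4 : p.1.1 * (b p.1).1⁻¹ = q.1.1 * (b q.1).1⁻¹ :=
    congrArg (fun z : SemidirectProduct ↥V (X ⧸ V) φ × SemidirectProduct ↥V (X ⧸ V) φ =>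
      ((z.1.left : V) : X)) h3
  have h5 : (QuotientGroup.mk p.1.1 : X ⧸ V) = QuotientGroup.mk q.1.1 :=
    congrArg (fun z : SemidirectProduct ↥V (X ⧸ V) φ × SemidirectProduct ↥V (X ⧸ V) φ =>
      z.1.right) h3
  have h6 : p.1.2 * (b p.1).2⁻¹ = q.1.2 * (b q.1).2⁻¹ :=
    congrArg (fun z : SemidirectProduct ↥V (X ⧸ V) φ × SemidirectProduct ↥V (X ⧸ V) φ =>
      ((z.2.left : V) : X)) h3
  have h7 : (QuotientGroup.mk p.1.2 : X ⧸ V) = QuotientGroup.mk q.1.2 :=
    congrArg (fun z : SemidirectProduct ↥V (X ⧸ V) φ × SemidirectProduct ↥V (X ⧸ V) φ =>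
      z.2.right) h3
  have h8 : b p.1 = b q.1 := by simp only [b]; rw [h5, h7]
  rw [h8] at h4 h6
  apply Subtype.ext
  exact Prod.ext (mul_right_cancel h4) (mul_right_cancel h6)

end

end Cfsg.Agent.Lib.CharKGV
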