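import Cfsg.Agent.Lib.CharCoF
import Cfsg.Agent.S0868

set_option autoImplicit false

namespace Cfsg.Agent.Lib.CharRam

open Cfsg Cfsg.Agent.Lib.CharBasic Cfsg.Agent.Lib.CharNormal Cfsg.Agent.Lib.CharClifford
open Cfsg.Agent.Lib.CharThompson Cfsg.Agent.Lib.CharGC Cfsg.Agent.Lib.CharCo
open Cfsg.Agent.Lib.CharCoB Cfsg.Agent.Lib.CharCoC Cfsg.Agent.Lib.CharLin Cfsg.Agent.Lib.CharExt
open Cfsg.Agent.Lib.CharCoD Cfsg.Agent.Lib.CharInd
open scoped ComplexConjugate

noncomputable section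

/-- Arithmetic: `Σ a = e`, `m (Σ a² - 1) = e² - 1` imply `e ≡ ±1 mod m`. -/
theorem arith {ι : Type*} [Fintype ι] (a : ι → ℤ) (m : ℕ) (hm : Fintype.card ι = m) (e : ℤ)
    (h1 : ∑ i, a i = e) (h2 : (m : ℤ) * (∑ i, a i ^ 2 - 1) = e ^ 2 - 1) :
    (m : ℤ) ∣ e - 1 ∨ (m : ℤ) ∣ e + 1 := by
  by_cases hm0 : m = 0
  · subst hm0
    simp only [Nat.cast_zero, zero_mul] at h2
    have : (e - 1) * (e + 1) = 0 := by linear_combination -h2
    rcases mul_eq_zero.mp this with h | h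
    · left; rw [h]; exact dvd_zero _
    · right; rw [h]; exact dvd_zero _
  obtain ⟨q, r, hqr, hr1, hr2⟩ : ∃ q r : ℤ, e = q * m + r ∧ -(m : ℤ) ≤ 2 * r ∧ 2 * r ≤ m := by
    have hmpos : (0 : ℤ) < m := by exact_mod_cast Nat.pos_of_ne_zero hm0
    have h3 := Int.emod_add_mul_ediv e m
    have h4 := Int.emod_nonneg e hmpos.ne'
    have h5 := Int.emod_lt_of_pos e hmpos
    by_cases h6 : 2 * (e % m) ≤ m
    · exact ⟨e / m, e % m, by linear_combination -h3, by omega, h6⟩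
    · refine ⟨e / m + 1, e % m - m, by linear_combination -h3, by omega, by omega⟩
  have h3 : ∑ i, (a i - q) = r := by
    rw [Finset.sum_sub_distrib, h1, Finset.sum_const, Finset.card_univ, hm, nsmul_eq_mul, hqr]
    ring
  have h4 : (m : ℤ) * ∑ i, (a i - q) ^ 2 = r ^ 2 - 1 + m := by
    have h5 : ∑ i, (a i - q) ^ 2 = ∑ i, a i ^ 2 - 2 * q * e + m * q ^ 2 := by
      have : ∀ i, (a i - q) ^ 2 = a i ^ 2 - 2 * q * a i + q ^ 2 := fun i => by ring
      simp only [this, Finset.sum_add_distrib, Finset.sum_sub_distrib, ← Finset.mul_sum, h1,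
        Finset.sum_const, Finset.card_univ, hm, nsmul_eq_mul]
    rw [h5]
    have h6 : r = e - q * m := by linear_combination -hqr
    rw [h6]
    linear_combination h2
  have h5 : |r| ≤ ∑ i, (a i - q) ^ 2 := by
    rw [← h3]
    refine (Finset.abs_sum_le_sum_abs _ _).trans (Finset.sum_le_sum fun i _ => ?_)
    rw [← sq_abs]
    rcases eq_or_ne (|a i - q|) 0 with h | h
    · rw [h]; norm_num
    · have : 1 ≤ |a i - q| := Int.one_le_abs (abs_ne_zero.mp h)
      nlinarith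
  have hmpos : (0 : ℤ) < m := by exact_mod_cast Nat.pos_of_ne_zero hm0
  have h6 : (m : ℤ) * |r| ≤ r ^ 2 - 1 + m := by
    rw [← h4]
    exact mul_le_mul_of_nonneg_left h5 hmpos.le
  have h7 : |r| ≤ 1 := by
    by_contra hcon
    push Not at hcon
    have h8 : 2 * |r| ≤ m := by
      rcases abs_cases r with ⟨h, _⟩ | ⟨h, _⟩ <;> rw [h] <;> omega
    rw [← sq_abs] at h6
    nlinarith
  have h8 : r = 0 ∨ r = 1 ∨ r = -1 := by
    rcases abs_le.mp h7 with ⟨h9, h10⟩
    omega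
  rcases h8 with h | h | h
  · -- `m = 1`
    rw [h] at h4
    have h9 : (m : ℤ) ∣ 1 := by
      have : (m : ℤ) ∣ m * ∑ i, (a i - q) ^ 2 := dvd_mul_right _ _
      rw [h4] at this
      have h10 : (m : ℤ) ∣ (m : ℤ) - (0 ^ 2 - 1 + m) := dvd_sub dvd_rfl this
      have e1 : (m : ℤ) - (0 ^ 2 - 1 + m) = 1 := by ring
      rwa [e1] at h10
    left
    exact h9.trans (one_dvd _)
  · left
    exact ⟨q, by rw [hqr, h]; ring⟩
  · right
    exact ⟨q, by rw [hqr, h]; ring⟩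

section Coset

variable {Γ : Type*} [Group Γ] [Finite Γ] {G N : Subgroup Γ} [hG : G.Normal] [hN : N.Normal]

/-- Averages over cosets of `N` in a coset of `G`. -/
theorem sum_coset [Fintype G] [Fintype N] (hNG : N ≤ G) {x : Γ}
    (hx : ∀ g ∈ G, x * g * x⁻¹ * g⁻¹ ∈ N → g ∈ N) {F : Γ → ℂ} (hF : ∀ y g, F (g * y * g⁻¹) = F y) :
    (Nat.card G : ℂ) * ∑ n : N, F (n * x) = (Nat.card N : ℂ) * ∑ g : G, F (g * x) := by
  classical
  have hΦG : ∀ (g : G) (n : N), (g : Γ) * (n * x) * (g : Γ)⁻¹ * x⁻¹ ∈ G := by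
    intro g n
    have e : (g : Γ) * (n * x) * (g : Γ)⁻¹ * x⁻¹ = g * n * (x * (g : Γ)⁻¹ * x⁻¹) := by group
    rw [e]
    exact G.mul_mem (G.mul_mem g.2 (hNG n.2)) (hG.conj_mem _ (G.inv_mem g.2) x)
  let Φ : G × N → G := fun p => ⟨_, hΦG p.1 p.2⟩
  have hΦ : ∀ p : G × N, ((Φ p : G) : Γ) = (p.1 : Γ) * (p.2 * x) * (p.1 : Γ)⁻¹ * x⁻¹ := fun _ => rfl
  have hfib : ∀ y : G, (Finset.univ.filter (fun p => Φ p = y)).card ≤ Nat.card N := by
    intro y
    by_cases hne : ∃ p₀, Φ p₀ = y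
    · obtain ⟨⟨g₀, n₀⟩, h₀⟩ := hne
      rw [Nat.card_eq_fintype_card, ← Finset.card_univ]
      have hmem : ∀ p ∈ Finset.univ.filter (fun p => Φ p = y), (g₀ : Γ)⁻¹ * p.1 ∈ N := by
        rintro ⟨g, n⟩ hp
        have h1 : Φ (g, n) = y := (Finset.mem_filter.mp hp).2
        have h2 : (g : Γ) * (n * x) * (g : Γ)⁻¹ = g₀ * (n₀ * x) * (g₀ : Γ)⁻¹ := by
          have h3 := congrArg (fun z : G => (z : Γ) * x) (h1.trans h₀.symm)
          simp only [hΦ, inv_mul_cancel_right] at h3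
          exact h3
        apply hx _ (G.mul_mem (G.inv_mem g₀.2) g.2)
        -- `x h x⁻¹ h⁻¹ ∈ N` for `h = g₀⁻¹ g`
        have h4 : x * ((g₀ : Γ)⁻¹ * g) * x⁻¹ * ((g₀ : Γ)⁻¹ * g)⁻¹ =
            (n₀ : Γ)⁻¹ * (((g₀ : Γ)⁻¹ * g) * n * ((g₀ : Γ)⁻¹ * g)⁻¹) := by
          have h5 : (n₀ : Γ) * x * ((g₀ : Γ)⁻¹ * g) = ((g₀ : Γ)⁻¹ * g) * (n * x) := by
            calc (n₀ : Γ) * x * ((g₀ : Γ)⁻¹ * g)
                = (g₀ : Γ)⁻¹ * (g₀ * (n₀ * x) * (g₀ : Γ)⁻¹) * g := by group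
              _ = (g₀ : Γ)⁻¹ * ((g : Γ) * (n * x) * (g : Γ)⁻¹) * g := by rw [h2]
              _ = _ := by group
          calc x * ((g₀ : Γ)⁻¹ * g) * x⁻¹ * ((g₀ : Γ)⁻¹ * g)⁻¹
              = (n₀ : Γ)⁻¹ * ((n₀ : Γ) * x * ((g₀ : Γ)⁻¹ * g)) * x⁻¹ * ((g₀ : Γ)⁻¹ * g)⁻¹ := by
                group
            _ = (n₀ : Γ)⁻¹ * (((g₀ : Γ)⁻¹ * g) * (n * x)) * x⁻¹ * ((g₀ : Γ)⁻¹ * g)⁻¹ := by rw [h5]
            _ = _ := by group
        rw [h4]
        exact N.mul_mem (N.inv_mem n₀.2) (hN.conj_mem _ n.2 _)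
      refine Finset.card_le_card_of_injOn
        (fun p => if h : (g₀ : Γ)⁻¹ * p.1 ∈ N then (⟨_, h⟩ : N) else 1)
        (fun _ _ => Finset.mem_coe.mpr (Finset.mem_univ _)) ?_
      rintro ⟨g, n⟩ hp ⟨g', n'⟩ hp' heq
      have hm1 := hmem _ (Finset.mem_coe.mp hp)
      have hm2 := hmem _ (Finset.mem_coe.mp hp')
      simp only [dif_pos hm1, dif_pos hm2, Subtype.mk.injEq, mul_right_inj] at heq
      have hgg : g = g' := Subtype.ext heq
      subst hgg
      have h1 : Φ (g, n) = y := (Finset.mem_filter.mp (Finset.mem_coe.mp hp)).2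
      have h2 : Φ (g, n') = y := (Finset.mem_filter.mp (Finset.mem_coe.mp hp')).2
      have h3 := congrArg (fun z : G => (z : Γ)) (h1.trans h2.symm)
      simp only [hΦ, mul_left_inj, mul_right_inj] at h3
      exact Prod.ext rfl (Subtype.ext h3)
    · have : Finset.univ.filter (fun p => Φ p = y) = ∅ := by
        rw [Finset.filter_eq_empty_iff]
        intro p _ h
        exact hne ⟨p, h⟩
      rw [this, Finset.card_empty]
      exact Nat.zero_le _
  have htot : ∑ y : G, (Finset.univ.filter (fun p => Φ p = y)).card = ∑ _y : G, Nat.card N := by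
    rw [← Finset.card_eq_sum_card_fiberwise (fun _ _ => Finset.mem_coe.mpr (Finset.mem_univ _)),
      Finset.card_univ, Fintype.card_prod, Finset.sum_const, Finset.card_univ, smul_eq_mul,
      Nat.card_eq_fintype_card]
  have hfib' : ∀ y : G, (Finset.univ.filter (fun p => Φ p = y)).card = Nat.card N := by
    intro y
    exact (Finset.sum_eq_sum_iff_of_le (fun y _ => hfib y)).mp htot y (Finset.mem_univ y)
  have h1 : ∑ p : G × N, F (Φ p * x) = (Nat.card G : ℂ) * ∑ n : N, F (n * x) := by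
    rw [Fintype.sum_prod_type]
    have : ∀ (g : G) (n : N), F (Φ (g, n) * x) = F (n * x) := by
      intro g n
      rw [hΦ, inv_mul_cancel_right]
      exact hF _ _
    simp only [this, Finset.sum_const, Finset.card_univ, nsmul_eq_mul, Nat.card_eq_fintype_card]
  have h2 : ∑ p : G × N, F (Φ p * x) = (Nat.card N : ℂ) * ∑ g : G, F (g * x) := by
    rw [← Finset.sum_fiberwise (s := Finset.univ) (g := Φ), Finset.mul_sum]
    refine Finset.sum_congr rfl fun y _ => ?_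
    rw [Finset.sum_congr rfl (g := fun _ => F (y * x)) (fun p hp => by
      rw [(Finset.mem_filter.mp hp).2]), Finset.sum_const, hfib' y, nsmul_eq_mul]
  rw [← h1, h2]

end Coset

section Cyc

variable {A : Type*} [Group A] [Finite A] {N : Subgroup A} [hN : N.Normal]

theorem card_lin_quot (hcomm : ∀ a b : A ⧸ N, a * b = b * a) :
    Nat.card {l : A →* ℂˣ // ∀ n ∈ N, l n = 1} = N.index := by
  have h1 : Nat.card {l : A →* ℂˣ // ∀ n ∈ N, l n = 1} = Nat.card (A ⧸ N →* ℂˣ) := by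
    apply Nat.card_congr
    exact
      { toFun := fun l => QuotientGroup.lift N l.1 l.2
        invFun := fun m => ⟨m.comp (QuotientGroup.mk' N), fun n hn => by
          rw [MonoidHom.comp_apply, QuotientGroup.mk'_apply, (QuotientGroup.eq_one_iff n).mpr hn,
            map_one]⟩
        left_inv := fun l => Subtype.ext (MonoidHom.ext fun x => rfl)
        right_inv := fun m => by
          apply MonoidHom.ext
          intro x
          obtain ⟨x, rfl⟩ := QuotientGroup.mk_surjective x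
          rfl }
  rw [h1, card_hom_units]
  have h2 : commutator (A ⧸ N) = ⊥ := by
    rw [commutator_def, Subgroup.commutator_eq_bot_iff_le_centralizer]
    intro x _
    rw [Subgroup.mem_centralizer_iff]
    intro y _
    exact hcomm y x
  rw [h2, Subgroup.index_bot, Subgroup.index_eq_card]

theorem cyc_comm (hcyc : IsCyclic (A ⧸ N)) (a b : A ⧸ N) : a * b = b * a := by
  obtain ⟨g, hg⟩ := hcyc.exists_generator
  obtain ⟨i, hi⟩ := hg a
  obtain ⟨j, hj⟩ := hg b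
  rw [← hi, ← hj]
  exact ((Commute.refl g).zpow_zpow i j).eq

theorem res_constituent [Fintype A] [Fintype N] {ξ : A → ℂ} (hξ : IsCharacter A ξ)
    (ψ : IrrCharacter A) (φ : IrrCharacter N) (h1 : classInner ξ ψ.1 ≠ 0)
    (h2 : classInner (fun n : N => ψ.1 n) φ.1 ≠ 0) : classInner (fun n : N => ξ n) φ.1 ≠ 0 := by
  have h3 := isChar_sub_constituent hξ ψ.2 h1
  obtain ⟨a, ha⟩ := exists_nat_inner (CharInd.isChar_res N (isChar_of_irr ψ.2)) φ.2
  obtain ⟨b, hb⟩ := exists_nat_inner (CharInd.isChar_res N h3) φ.2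
  have h4 : classInner (fun n : N => ξ n) φ.1 = a + b := by
    rw [← ha, ← hb, ← classInner_add_left]
    congr 1
    funext n
    simp
  rw [h4]
  rw [ha] at h2
  have h5 : a ≠ 0 := by rintro rfl; simp at h2
  exact_mod_cast (by omega : a + b ≠ 0)

theorem cyc_norm [Fintype A] [Fintype N] (hcyc : IsCyclic (A ⧸ N)) {θ : N → ℂ}
    (hθ : IsIrrCharacter N θ) (hinv : ∀ g : A, cj g θ = θ) {ξ : A → ℂ} (hξ : IsCharacter A ξ)
    {e : ℕ} (hres : ∀ n : N, ξ n = e * θ n) [Fintype {l : A →* ℂˣ // ∀ n ∈ N, l n = 1}] :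
    ∃ a : {l : A →* ℂˣ // ∀ n ∈ N, l n = 1} → ℕ, ∑ l, a l = e ∧
      classInner ξ ξ = ((∑ l, a l ^ 2 : ℕ) : ℂ) := by
  classical
  obtain ⟨η, hη, hηN⟩ := ext_of_cyclic hcyc hθ hinv
  have hηN' : ∀ n : N, η n = θ n := hηN
  choose c hc using fun ψ : IrrCharacter A => exists_nat_inner hξ ψ.2
  let E : {l : A →* ℂˣ // ∀ n ∈ N, l n = 1} → IrrCharacter A := fun l =>
    ⟨linFn l.1 * η, isIrr_linFn_mul l.1 hη⟩
  have hE : Function.Injective E := by
    rintro ⟨l, hl⟩ ⟨l', hl'⟩ h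
    have h1 : linFn l * η = linFn l' * η := congrArg Subtype.val h
    have h3 := (gallagher hθ hη hηN).injOn
      (x₁ := linFn l) (x₂ := linFn l') ⟨linFn_isIrr l, fun n hn => by
        rw [linFn_apply, linFn_apply_one, hl n hn, Units.val_one]⟩ ⟨linFn_isIrr l', fun n hn => by
        rw [linFn_apply, linFn_apply_one, hl' n hn, Units.val_one]⟩ h1
    exact Subtype.ext (linFn_injective h3)
  have hcommQ : ∀ a b : A, a * b * a⁻¹ * b⁻¹ ∈ N := by
    intro a b
    rw [← QuotientGroup.eq_one_iff]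
    have : ((a : A ⧸ N)) * b = b * a := cyc_comm hcyc a b
    rw [QuotientGroup.mk_mul, QuotientGroup.mk_mul, QuotientGroup.mk_mul, QuotientGroup.mk_inv,
      QuotientGroup.mk_inv, this]
    group
  have hout : ∀ ψ : IrrCharacter A, ψ ∉ Set.range E → c ψ = 0 := by
    intro ψ hψ
    by_contra hne
    apply hψ
    have h1 : classInner ξ ψ.1 ≠ 0 := by rw [hc]; exact_mod_cast hne
    -- a constituent of `ψ` on `N`
    have hψN : (fun n : N => ψ.1 n) ≠ 0 := by
      intro h0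
      exact isIrr_one_ne_zero ψ.2 (congrFun h0 1)
    obtain ⟨φ, hφ⟩ := char_ne_zero_exists_constituent
      (CharInd.isChar_res N (isChar_of_irr ψ.2)) hψN
    have h2 := res_constituent hξ ψ φ h1 hφ
    have h3 : (fun n : N => ξ n) = (e : ℂ) • θ := by
      funext n
      rw [hres n]; rfl
    have h4 : φ.1 = θ := by
      by_contra hne'
      rw [h3, classInner_smul_left, irr_inner_ne hθ φ.2 (fun h => hne' h.symm), mul_zero] at h2
      exact h2 rfl
    have h5 : ci (fun n : N => η n) φ.1 ≠ 0 := by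
      have : (fun n : N => η n) = θ := funext hηN
      rw [this, h4, ci_eq, irr_inner_self hθ]
      exact one_ne_zero
    obtain ⟨l, hl, hll⟩ := lin_transitive hcommQ hη ψ.2 φ h5 (by rw [ci_eq]; exact hφ)
    exact ⟨⟨l, hl⟩, Subtype.ext hll.symm⟩
  have hsumE : ∀ f : IrrCharacter A → ℂ, ∑ ψ, (c ψ : ℂ) * f ψ = ∑ l, (c (E l) : ℂ) * f (E l) := by
    intro f
    symm
    apply Fintype.sum_of_injective E hE
    · intro ψ hψ
      rw [hout ψ hψ, Nat.cast_zero, zero_mul]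
    · intro l; rfl
  refine ⟨fun l => c (E l), ?_, ?_⟩
  · obtain ⟨d, hd0, hd⟩ := isIrr_one_eq hθ
    have h1 := congrFun (char_eq_sum_inner hξ) 1
    rw [Finset.sum_apply] at h1
    simp only [Pi.smul_apply, smul_eq_mul, hc] at h1
    rw [hsumE (fun ψ => ψ.1 1)] at h1
    have h2 : ∀ l, (E l).1 1 = d := by
      intro l
      change linFn l.1 1 * η 1 = d
      rw [linFn_apply_one, one_mul]
      exact (hηN 1).trans hd
    simp only [h2, ← Finset.sum_mul] at h1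
    have h3 : ξ 1 = e * d := by
      have := hres 1
      rw [hd] at this
      exact this
    rw [h3] at h1
    have h4 := mul_right_cancel₀ (Nat.cast_ne_zero.mpr hd0.ne') h1
    exact_mod_cast h4.symm
  · rw [classFn_inner_eq_sum (isChar_classFn hξ) (isChar_classFn hξ)]
    simp only [hc, Complex.conj_natCast]
    rw [hsumE (fun ψ => (c ψ : ℂ))]
    push_cast
    exact Finset.sum_congr rfl fun l _ => by ring

end Cyc

section Main

variable {Γ : Type*} [Group Γ] [Fintype Γ] {G N : Subgroup Γ} [hG : G.Normal] [hN : N.Normal]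

theorem ramified [Fintype G] [Fintype N] (hNG : N ≤ G) {θ : N → ℂ} (hθ : IsIrrCharacter N θ)
    (hinv : ∀ g : Γ, cj g θ = θ) {χ : G → ℂ} (hχ : IsIrrCharacter G χ) (e : ℕ)
    (hram : indFun (N.subgroupOf G) (fun n : N.subgroupOf G => θ ⟨(n : G), n.2⟩) =
      fun g => (e : ℂ) * χ g) :
    (∀ n : N, χ ⟨n, hNG n.2⟩ = e * θ n) ∧ (∀ x : Γ, cj x χ = χ) ∧
      (e : ℂ) * e = N.relIndex G := by
  classical
  set θ' : N.subgroupOf G → ℂ := fun n => θ ⟨(n : G), n.2⟩ with hθ'def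
  have hθ' : IsIrrCharacter (N.subgroupOf G) θ' := (isIrr_subgroupOf_iff hNG θ).mpr hθ
  have hram' : indFun (N.subgroupOf G) θ' = (e : ℂ) • χ := hram
  have hinv' : ∀ g : G, cj g θ' = θ' := by
    intro g
    funext n
    exact congrFun (hinv g) ⟨(n : G), n.2⟩
  have hind1 := indFun_one (N.subgroupOf G) θ'
  have h1 : e ≠ 0 := by
    rintro rfl
    rw [hram'] at hind1
    simp only [Nat.cast_zero, zero_smul, Pi.zero_apply] at hind1
    rcases mul_eq_zero.mp hind1.symm with h | h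
    · exact Subgroup.index_ne_zero_of_finite (Nat.cast_eq_zero.mp h)
    · exact isIrr_one_ne_zero hθ' h
  have key : ∀ ψ : G → ℂ, IsClassFunction G ψ →
      classInner (fun n : N.subgroupOf G => ψ n) θ' = e * classInner ψ χ := by
    intro ψ hψ
    rw [← reciprocity' (N.subgroupOf G) θ' ψ hψ, hram', classInner_smul_right, Complex.conj_natCast]
  have h2 : classInner (fun n : N.subgroupOf G => χ n) θ' = e := by
    rw [key χ (isChar_classFn (isChar_of_irr hχ)), irr_inner_self hχ, mul_one]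
  have h3 := res_eq_smul hχ hθ' hinv' (by rw [h2]; exact_mod_cast h1)
  rw [h2] at h3
  have h4 : ∀ n : N, χ ⟨n, hNG n.2⟩ = e * θ n := fun n =>
    congrFun h3 (⟨⟨n, hNG n.2⟩, n.2⟩ : N.subgroupOf G)
  refine ⟨h4, ?_, ?_⟩
  · intro x
    have h5 := key (cj x χ) (cj_classFn x (isChar_classFn (isChar_of_irr hχ)))
    have h6 : (fun n : N.subgroupOf G => cj x χ n) = (e : ℂ) • θ' := by
      funext n
      change χ ⟨x * (n : G) * x⁻¹, _⟩ = e * θ' n
      have h7 := h4 ⟨x * ((n : G) : Γ) * x⁻¹, hN.conj_mem _ n.2 x⟩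
      rw [h7]
      refine congrArg (fun z => (e : ℂ) * z) ?_
      exact congrFun (hinv x) ⟨(n : G), n.2⟩
    rw [h6, classInner_smul_left, irr_inner_self hθ', mul_one] at h5
    by_contra hne
    rw [irr_inner_ne (cj_isIrr x hχ) hχ hne, mul_zero] at h5
    exact h1 (Nat.cast_eq_zero.mp h5)
  · have h5 : χ 1 = e * θ' 1 := h4 1
    have h6 : indFun (N.subgroupOf G) θ' 1 = e * χ 1 := by rw [hram']; rfl
    rw [hind1, h5, ← mul_assoc] at h6
    exact (mul_right_cancel₀ (isIrr_one_ne_zero hθ') h6).symm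

theorem main_dvd [Fintype G] [Fintype N] (hNG : N ≤ G) (hGlt : G ≠ ⊤) (hcyc : IsCyclic (Γ ⧸ G))
    (hfrob : ∀ x : Γ, x ∉ G → ∀ g : Γ, g ∈ G → x * g * x⁻¹ * g⁻¹ ∈ N → g ∈ N)
    {θ : N → ℂ} (hθ : IsIrrCharacter N θ)
    (hinv : ∀ g : Γ, cj g θ = θ) {χ : G → ℂ} (hχ : IsIrrCharacter G χ) (e : ℕ)
    (hram : indFun (N.subgroupOf G) (fun n : N.subgroupOf G => θ ⟨(n : G), n.2⟩) =
      fun g => (e : ℂ) * χ g) :
    (G.index : ℤ) ∣ (e : ℤ) - 1 ∨ (G.index : ℤ) ∣ (e : ℤ) + 1 := by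
  classical
  obtain ⟨hres, hχinv, -⟩ := ramified hNG hθ hinv hχ e hram
  obtain ⟨X, hX, hXG⟩ := ext_of_cyclic hcyc hχ hχinv
  obtain ⟨γ, hγ⟩ := hcyc.exists_generator
  obtain ⟨x₀, rfl⟩ := QuotientGroup.mk_surjective γ
  have hx₀ : x₀ ∉ G := by
    intro h
    apply hGlt
    rw [eq_top_iff]
    intro y _
    obtain ⟨i, hi⟩ := hγ (y : Γ ⧸ G)
    have h1 : ((x₀ : Γ) : Γ ⧸ G) = 1 := (QuotientGroup.eq_one_iff _).mpr h
    simp only [h1, one_zpow] at hi
    exact (QuotientGroup.eq_one_iff _).mp hi.symm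
  set H : Subgroup Γ := N ⊔ Subgroup.zpowers x₀ with hH
  have hNH : N ≤ H := le_sup_left
  have hHG : ∀ h ∈ H, h ∈ G → h ∈ N := by
    intro h hh hg
    rw [hH, Subgroup.mem_sup_of_normal_left] at hh
    obtain ⟨n, hn, _, ⟨i, rfl⟩, rfl⟩ := hh
    have h1 : x₀ ^ i ∈ G := (Subgroup.mul_mem_cancel_left G (hNG hn)).mp hg
    apply N.mul_mem hn
    apply hfrob x₀ hx₀ _ h1
    have : x₀ * x₀ ^ i * x₀⁻¹ * (x₀ ^ i)⁻¹ = 1 := by
      rw [((Commute.refl x₀).zpow_right i).eq]; group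
    rw [this]
    exact N.one_mem
  have hHtop : H ⊔ G = ⊤ := by
    rw [eq_top_iff]
    intro y _
    obtain ⟨i, hi⟩ := hγ (y : Γ ⧸ G)
    have h1 : (x₀ ^ i)⁻¹ * y ∈ G := by
      rw [← QuotientGroup.eq]
      exact hi
    have h2 : y = x₀ ^ i * ((x₀ ^ i)⁻¹ * y) := by group
    rw [h2]
    exact Subgroup.mul_mem _ (Subgroup.mem_sup_left (Subgroup.mem_sup_right ⟨i, rfl⟩))
      (Subgroup.mem_sup_right h1)
  have hrel : N.relIndex H = G.index := by
    have h1 : N = G ⊓ H := le_antisymm (le_inf hNG hNH) fun y hy => hHG y hy.2 hy.1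
    rw [h1, Subgroup.inf_relIndex_right, ← Subgroup.relIndex_sup_right, hHtop,
      Subgroup.relIndex_top_right]
  -- the sum
  set F : Γ → ℂ := fun y => X y * conj (X y) with hF
  have hFcl : ∀ y g, F (g * y * g⁻¹) = F y := by
    intro y g
    simp only [hF]
    rw [isChar_classFn (isChar_of_irr hX) y g]
  have hNc : (Nat.card N : ℂ) ≠ 0 := Nat.cast_ne_zero.mpr Nat.card_pos.ne'
  have hGc : (Nat.card G : ℂ) ≠ 0 := Nat.cast_ne_zero.mpr Nat.card_pos.ne'
  have hS868 : ∀ y : Γ, ∑ g : G, F (g * y) = Nat.card G := by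
    intro y
    have hXG' : IsIrrCharacter G (fun g : G => X g) := by
      have : (fun g : G => X g) = χ := funext hXG
      rw [this]; exact hχ
    obtain ⟨-, -, h4⟩ := Cfsg.Agent.S0868.result G X hX hXG' X hX _ rfl
    have h5 := congrFun (h4 rfl) y
    rw [inv_mul_eq_iff_eq_mul₀ hGc, mul_one] at h5
    exact h5
  have hout : ∀ y : Γ, y ∉ G → ∑ n : N, F (n * y) = Nat.card N := by
    intro y hy
    have h1 := sum_coset hNG (hfrob y hy) hFcl
    rw [hS868 y, mul_comm (Nat.card N : ℂ)] at h1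
    exact mul_left_cancel₀ hGc h1
  have hin : ∀ y ∈ N, ∑ n : N, F (n * y) = (e : ℂ) ^ 2 * Nat.card N := by
    intro y hy
    have h1 : ∑ n : N, F (n * y) = ∑ n : N, F n :=
      Fintype.sum_equiv (Equiv.mulRight (⟨y, hy⟩ : N)) _ _ fun n => rfl
    rw [h1]
    have h2 : ∀ n : N, F n = (e : ℂ) ^ 2 * (θ n * conj (θ n)) := by
      intro n
      have h3 : X n = e * θ n := (hXG ⟨n, hNG n.2⟩).trans (hres n)
      simp only [hF, h3, map_mul, Complex.conj_natCast]
      ring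
    simp only [h2, ← Finset.mul_sum]
    have h3 := irr_inner_self hθ
    rw [classInner_def, inv_mul_eq_iff_eq_mul₀ hNc, mul_one] at h3
    rw [h3]
  have hHsum : ∑ h : H, F h = (Nat.card H : ℂ) + Nat.card N * ((e : ℂ) ^ 2 - 1) := by
    have h1 : ∑ h : H, F h = (Nat.card N : ℂ)⁻¹ * ∑ h : H, ∑ n : N, F (n * h) := by
      rw [Finset.sum_comm]
      have : ∀ n : N, ∑ h : H, F (n * h) = ∑ h : H, F h := fun n =>
        Fintype.sum_equiv (Equiv.mulLeft (⟨n, hNH n.2⟩ : H)) _ _ fun h => rfl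
      simp only [this, Finset.sum_const, Finset.card_univ, nsmul_eq_mul]
      rw [← Nat.card_eq_fintype_card, ← mul_assoc, inv_mul_cancel₀ hNc, one_mul]
    have h2 : ∀ h : H, ∑ n : N, F (n * h) =
        Nat.card N + (if (h : Γ) ∈ N then (Nat.card N : ℂ) * ((e : ℂ) ^ 2 - 1) else 0) := by
      intro h
      by_cases hh : (h : Γ) ∈ N
      · rw [hin h hh, if_pos hh]; ring
      · rw [hout h (fun hg => hh (hHG h h.2 hg)), if_neg hh, add_zero]
    rw [h1]
    simp only [h2, Finset.sum_add_distrib, Finset.sum_const, Finset.card_univ, nsmul_eq_mul]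
    rw [← Finset.sum_filter, Finset.sum_const, nsmul_eq_mul, ← Nat.card_eq_fintype_card]
    have h3 : (Finset.univ.filter (fun h : H => (h : Γ) ∈ N)).card = Nat.card N := by
      rw [← Fintype.card_subtype, ← Nat.card_eq_fintype_card]
      exact Nat.card_congr (Subgroup.subgroupOfEquivOfLe hNH).toEquiv
    rw [h3]
    field_simp
  -- apply `cyc_norm` in `H`
  have hquot : IsCyclic (H ⧸ N.subgroupOf H) := by
    refine ⟨⟨((⟨x₀, Subgroup.mem_sup_right (Subgroup.mem_zpowers x₀)⟩ : H) : H ⧸ N.subgroupOf H),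
      ?_⟩⟩
    intro q
    obtain ⟨⟨h, hh⟩, rfl⟩ := QuotientGroup.mk_surjective q
    have hh' := hh
    rw [hH, Subgroup.mem_sup_of_normal_left] at hh'
    obtain ⟨n, hn, _, ⟨i, rfl⟩, rfl⟩ := hh'
    refine ⟨i, ?_⟩
    have h1 : ((⟨x₀, Subgroup.mem_sup_right (Subgroup.mem_zpowers x₀)⟩ : H) :
        H ⧸ N.subgroupOf H) ^ i = (((⟨x₀, Subgroup.mem_sup_right (Subgroup.mem_zpowers x₀)⟩ : H) ^ i :
        H) : H ⧸ N.subgroupOf H) := rfl
    change ((⟨x₀, Subgroup.mem_sup_right (Subgroup.mem_zpowers x₀)⟩ : H) :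
        H ⧸ N.subgroupOf H) ^ i = _
    rw [h1, QuotientGroup.eq, Subgroup.mem_subgroupOf]
    simp only [Subgroup.coe_mul, Subgroup.coe_inv, SubgroupClass.coe_zpow]
    have h2 : (x₀ ^ i)⁻¹ * (n * x₀ ^ i) = (x₀ ^ i)⁻¹ * n * ((x₀ ^ i)⁻¹)⁻¹ := by group
    rw [h2]
    exact hN.conj_mem _ hn _
  have : Fintype {l : H →* ℂˣ // ∀ n ∈ N.subgroupOf H, l n = 1} := by
    have : Finite (H →* ℂˣ) := inferInstance
    exact Fintype.ofFinite _
  obtain ⟨a, ha, ha2⟩ := cyc_norm (A := H) (N := N.subgroupOf H) hquot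
    (θ := fun n => θ ⟨((n : H) : Γ), n.2⟩) ((isIrr_subgroupOf_iff hNH θ).mpr hθ)
    (fun g => by
      funext n
      exact congrFun (hinv g) ⟨((n : H) : Γ), n.2⟩)
    (ξ := fun h : H => X h) (CharInd.isChar_res H (isChar_of_irr hX)) (e := e) (fun n =>
      (hXG ⟨n, hNG n.2⟩).trans (hres ⟨n, n.2⟩))
  have hcard : Fintype.card {l : H →* ℂˣ // ∀ n ∈ N.subgroupOf H, l n = 1} = G.index := by
    rw [← Nat.card_eq_fintype_card, card_lin_quot (cyc_comm hquot), ← hrel]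
    rfl
  have hcardH : (Nat.card H : ℂ) = G.index * Nat.card N := by
    rw [← hrel]
    exact_mod_cast (relIndex_mul_card' N H hNH).symm
  have hfin : (G.index : ℂ) * (((∑ l, a l ^ 2 : ℕ) : ℂ) - 1) = (e : ℂ) ^ 2 - 1 := by
    rw [← ha2, classInner_def]
    have h1 : ∑ x : H, X x * conj (X x) = ∑ h : H, F h := rfl
    rw [h1, hHsum, hcardH]
    have hi : (G.index : ℂ) ≠ 0 := Nat.cast_ne_zero.mpr Subgroup.index_ne_zero_of_finite
    field_simp
    ring
  refine arith (fun l => (a l : ℤ)) G.index hcard e (by exact_mod_cast ha) ?_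
  exact_mod_cast hfin

end Main

end

end Cfsg.Agent.Lib.CharRam
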