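import Mathlib
import Cfsg.Agent.Lib.BlockPP
import Cfsg.Agent.Lib.ClassSizes
set_option autoImplicit false

/-!
# Frobenius' theorem on the number of solutions of `x^n = 1`
-/

universe u
open Subgroup Cfsg.Agent.Lib.BlockPP

namespace Cfsg.Agent.Lib.FrobCount

section
variable {G : Type*} [Group G] [Finite G]

theorem dvd_card_of_class (N : ℕ) (S : Set G) (hS : ∀ g ∈ S, ∀ c : G, c * g * c⁻¹ ∈ S) (f : G → G)
    (hf : ∀ g c : G, f (c * g * c⁻¹) = c * f g * c⁻¹)
    (h : ∀ z, N ∣ (centralizer ({z} : Set G)).index * Nat.card {g : G // g ∈ S ∧ f g = z}) :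
    N ∣ Nat.card {g : G // g ∈ S} := by
  classical
  have : Fintype G := Fintype.ofFinite G
  have hle : ∀ z c : G, Nat.card {g : G // g ∈ S ∧ f g = z} ≤
      Nat.card {g : G // g ∈ S ∧ f g = c * z * c⁻¹} := by
    intro z c
    refine Nat.card_le_card_of_injective (fun g => ⟨c * g.1 * c⁻¹, hS _ g.2.1 c, by rw [hf, g.2.2]⟩) ?_
    intro a b hab
    have := congrArg Subtype.val hab
    simp only [mul_left_inj, mul_right_inj] at this
    exact Subtype.ext this
  have hFc : ∀ z c : G, Nat.card {g : G // g ∈ S ∧ f g = c * z * c⁻¹} =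
      Nat.card {g : G // g ∈ S ∧ f g = z} := by
    intro z c
    apply le_antisymm _ (hle z c)
    have := hle (c * z * c⁻¹) c⁻¹
    have e : c⁻¹ * (c * z * c⁻¹) * c⁻¹⁻¹ = z := by group
    rwa [e] at this
  have h1 : Nat.card {g : G // g ∈ S} = ∑ z : G, Nat.card {g : G // g ∈ S ∧ f g = z} := by
    rw [← Nat.card_sigma]
    refine Nat.card_congr ⟨fun g => ⟨f g, g, g.2, rfl⟩, fun x => ⟨x.2.1, x.2.2.1⟩, fun _ => rfl, ?_⟩
    rintro ⟨z, g, hg, rfl⟩
    rfl
  rw [h1, ← Finset.sum_fiberwise Finset.univ (fun z : G => ConjClasses.mk z)]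
  apply Finset.dvd_sum
  intro K _
  obtain ⟨z₀, rfl⟩ := ConjClasses.exists_rep K
  have h2 : ∑ z ∈ Finset.univ.filter (fun z : G => ConjClasses.mk z = ConjClasses.mk z₀),
      Nat.card {g : G // g ∈ S ∧ f g = z} =
      ∑ _z ∈ Finset.univ.filter (fun z : G => ConjClasses.mk z = ConjClasses.mk z₀),
      Nat.card {g : G // g ∈ S ∧ f g = z₀} := by
    apply Finset.sum_congr rfl
    intro z hz
    rw [Finset.mem_filter, ConjClasses.mk_eq_mk_iff_isConj] at hz
    obtain ⟨c, rfl⟩ := isConj_iff.mp hz.2.symm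
    exact hFc z₀ c
  change N ∣ ∑ z ∈ Finset.univ.filter (fun z : G => ConjClasses.mk z = ConjClasses.mk z₀),
      Nat.card {g : G // g ∈ S ∧ f g = z}
  rw [h2, Finset.sum_const, smul_eq_mul]
  have h3 : (Finset.univ.filter (fun z : G => ConjClasses.mk z = ConjClasses.mk z₀)).card =
      (centralizer ({z₀} : Set G)).index := by
    rw [Cfsg.Agent.Lib.ClassSizes.index_centralizer_eq, Nat.card_eq_fintype_card,
      Fintype.card_subtype]
    congr 1
    ext z
    simp only [Finset.mem_filter, Finset.mem_univ, true_and, ConjClasses.mk_eq_mk_iff_isConj]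
    exact isConj_comm
  rw [h3]
  exact h z₀

theorem fiber_card {p : ℕ} (hp : p.Prime) {z : G} (hz : ¬ p ∣ orderOf z) (Q : G → Prop)
    (R : centralizer ({z} : Set G) → Prop) (hR : ∀ y, R y → ∃ k, orderOf y = p ^ k)
    (hQR : ∀ y : centralizer ({z} : Set G), (∃ k, orderOf y = p ^ k) → (Q (y * z) ↔ R y)) :
    Nat.card {g : G // Q g ∧ pq p g = z} = Nat.card {y : centralizer ({z} : Set G) // R y} := by
  have hmem : ∀ g : G, pq p g = z → pp p g ∈ centralizer ({z} : Set G) := by
    intro g hg
    rw [mem_centralizer_singleton_iff, ← hg]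
    exact (pp_commute_pq p g).eq
  have hcomm : ∀ y : centralizer ({z} : Set G), Commute (y : G) z := fun y =>
    mem_centralizer_singleton_iff.mp y.2
  refine Nat.card_congr ⟨fun g => ⟨⟨pp p g.1, hmem g.1 g.2.2⟩, ?_⟩,
    fun y => ⟨(y.1 : G) * z, ?_, ?_⟩, ?_, ?_⟩
  · rw [← hQR]
    · change Q (pp p g.1 * z)
      have : pp p g.1 * z = g.1 := by
        have h := pp_mul_pq p g.1
        rwa [g.2.2] at h
      rw [this]
      exact g.2.1
    · obtain ⟨k, hk⟩ := exists_orderOf_pp hp g.1
      exact ⟨k, by rw [← orderOf_coe]; exact hk⟩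
  · exact (hQR y.1 (hR y.1 y.2)).mpr y.2
  · obtain ⟨k, hk⟩ := hR y.1 y.2
    exact pq_mul_eq hp (hcomm y.1) ⟨k, by rw [orderOf_coe]; exact hk⟩ hz
  · rintro ⟨g, hg, hgz⟩
    apply Subtype.ext
    change pp p g * z = g
    have h := pp_mul_pq p g
    rwa [hgz] at h
  · rintro ⟨y, hy⟩
    apply Subtype.ext
    apply Subtype.ext
    change pp p ((y : G) * z) = y
    obtain ⟨k, hk⟩ := hR y hy
    exact pp_mul_eq hp (hcomm y) ⟨k, by rw [orderOf_coe]; exact hk⟩ hz

end

theorem factorization_card_index {G : Type*} [Group G] [Finite G] (H : Subgroup G) (p : ℕ) :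
    (Nat.card G).factorization p = H.index.factorization p + (Nat.card H).factorization p := by
  rw [← H.card_mul_index, Nat.factorization_mul Nat.card_pos.ne' FiniteIndex.index_ne_zero,
    Finsupp.add_apply, add_comm]

theorem ppart_dvd_aux (p : ℕ) [hp : Fact p.Prime] (n : ℕ) : ∀ (G : Type u) [Group G] [Finite G],
    Nat.card G = n → p ^ (Nat.card G).factorization p ∣ Nat.card {g : G // ∃ k, orderOf g = p ^ k} := by
  induction n using Nat.strong_induction_on with
  | _ n ih =>
  intro G _ _ hcard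
  classical
  -- the noncentral part
  have h1 : p ^ (Nat.card G).factorization p ∣ Nat.card {g : G // g ∈ {g : G | pq p g ∉ center G}} := by
    refine dvd_card_of_class _ _ ?_ (pq p) (fun g c => pq_conj p g c) ?_
    · intro g hg c
      change pq p (c * g * c⁻¹) ∉ center G
      rw [pq_conj]
      intro hc
      apply hg
      have := (inferInstance : (center G).Normal).conj_mem _ hc c⁻¹
      have e : c⁻¹ * (c * pq p g * c⁻¹) * c⁻¹⁻¹ = pq p g := by group
      rwa [e] at this
    · intro z
      by_cases hz : z ∉ center G ∧ ¬ p ∣ orderOf z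
      · obtain ⟨hz1, hz2⟩ := hz
        have hlt : Nat.card (centralizer ({z} : Set G)) < n := by
          rw [← hcard]
          refine lt_of_le_of_ne (Nat.le_of_dvd Nat.card_pos (card_subgroup_dvd_card _)) ?_
          intro heq
          have : centralizer ({z} : Set G) = ⊤ := eq_top_of_card_eq _ heq
          apply hz1
          rw [mem_center_iff]
          intro g
          have hg : g ∈ centralizer ({z} : Set G) := by rw [this]; trivial
          exact mem_centralizer_singleton_iff.mp hg
        have h2 := ih _ hlt (centralizer ({z} : Set G)) rfl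
        have h3 := fiber_card hp.out hz2 (fun g => g ∈ {g : G | pq p g ∉ center G})
          (fun y => ∃ k, orderOf y = p ^ k) (fun y hy => hy) (by
            intro y hy
            have hy' := hy
            obtain ⟨k, hk⟩ := hy
            have : pq p ((y : G) * z) = z := pq_mul_eq hp.out
              (mem_centralizer_singleton_iff.mp y.2) ⟨k, by rw [orderOf_coe]; exact hk⟩ hz2
            simp only [Set.mem_ofPred_eq, this]
            exact ⟨fun _ => hy', fun _ => hz1⟩)
        rw [h3, factorization_card_index (centralizer ({z} : Set G)) p, pow_add]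
        exact mul_dvd_mul (Nat.ordProj_dvd _ _) h2
      · have : Nat.card {g : G // g ∈ {g : G | pq p g ∉ center G} ∧ pq p g = z} = 0 := by
          rw [Nat.card_eq_zero]
          left
          constructor
          rintro ⟨g, hg, rfl⟩
          exact hz ⟨hg, not_dvd_orderOf_pq hp.out g⟩
        rw [this, mul_zero]
        exact dvd_zero _
  -- the central part
  let Z : Subgroup G :=
    { carrier := {z | z ∈ center G ∧ ¬ p ∣ orderOf z}
      one_mem' := ⟨one_mem _, by rw [orderOf_one]; exact hp.out.one_lt.ne' ∘ Nat.dvd_one.mp⟩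
      mul_mem' := by
        rintro a b ⟨ha, ha'⟩ ⟨hb, hb'⟩
        refine ⟨mul_mem ha hb, fun hd => ?_⟩
        have hc : Commute a b := mem_center_iff.mp hb a
        have := hd.trans hc.orderOf_mul_dvd_mul_orderOf
        rcases (hp.out.dvd_mul).mp this with h | h
        · exact ha' h
        · exact hb' h
      inv_mem' := by
        rintro a ⟨ha, ha'⟩
        exact ⟨inv_mem ha, by rw [orderOf_inv]; exact ha'⟩ }
  have hZp : ¬ p ∣ Nat.card Z := by
    intro hd
    obtain ⟨x, hx⟩ := exists_prime_orderOf_dvd_card' p hd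
    apply x.2.2
    rw [orderOf_coe, hx]
  have h2 : Nat.card {g : G // g ∉ {g : G | pq p g ∉ center G}} =
      Nat.card {g : G // ∃ k, orderOf g = p ^ k} * Nat.card Z := by
    rw [← Nat.card_prod]
    refine Nat.card_congr ⟨fun g => (⟨pp p g.1, exists_orderOf_pp hp.out g.1⟩,
      ⟨pq p g.1, not_not.mp g.2, not_dvd_orderOf_pq hp.out g.1⟩), fun x => ⟨x.1.1 * x.2.1, ?_⟩, ?_, ?_⟩
    · have hc : Commute x.1.1 (x.2.1 : G) := mem_center_iff.mp x.2.2.1 _
      change ¬ ¬ (pq p (x.1.1 * x.2.1) ∈ center G)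
      rw [not_not, pq_mul_eq hp.out hc x.1.2 x.2.2.2]
      exact x.2.2.1
    · intro g
      exact Subtype.ext (pp_mul_pq p g.1)
    · rintro ⟨⟨y, hy⟩, ⟨z, hz⟩⟩
      have hc : Commute y z := mem_center_iff.mp hz.1 _
      refine Prod.ext (Subtype.ext ?_) (Subtype.ext ?_)
      · exact pp_mul_eq hp.out hc hy hz.2
      · exact pq_mul_eq hp.out hc hy hz.2
  have h3 : Nat.card G = Nat.card {g : G // g ∈ {g : G | pq p g ∉ center G}} +
      Nat.card {g : G // g ∉ {g : G | pq p g ∉ center G}} := by
    rw [← Nat.card_sum]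
    exact Nat.card_congr (Equiv.sumCompl (fun g : G => g ∈ {g : G | pq p g ∉ center G})).symm
  have h4 : p ^ (Nat.card G).factorization p ∣ Nat.card G := Nat.ordProj_dvd _ _
  have h5 : p ^ (Nat.card G).factorization p ∣
      Nat.card {g : G // g ∉ {g : G | pq p g ∉ center G}} := by
    apply (Nat.dvd_add_right h1).mp
    rw [← h3]
    exact h4
  rw [h2] at h5
  refine Nat.Coprime.dvd_of_dvd_mul_right ?_ h5
  apply Nat.Coprime.pow_left
  exact (hp.out.coprime_iff_not_dvd).mpr hZp

theorem ppart_dvd (p : ℕ) [Fact p.Prime] (G : Type*) [Group G] [Finite G] :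
    p ^ (Nat.card G).factorization p ∣ Nat.card {g : G // ∃ k, orderOf g = p ^ k} :=
  ppart_dvd_aux p _ G rfl

/-- `φ(d)` divides the number of elements of order `d` -/
theorem totient_dvd (G : Type*) [Group G] [Finite G] (d : ℕ) :
    Nat.totient d ∣ Nat.card {g : G // orderOf g = d} := by
  classical
  have : Fintype G := Fintype.ofFinite G
  have : Fintype (Subgroup G) := Fintype.ofFinite _
  have h1 : Nat.card {g : G // orderOf g = d} =
      ∑ C : Subgroup G, Nat.card {g : G // orderOf g = d ∧ zpowers g = C} := by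
    rw [← Nat.card_sigma]
    refine Nat.card_congr ⟨fun g => ⟨zpowers g.1, g, g.2, rfl⟩, fun x => ⟨x.2.1, x.2.2.1⟩,
      fun _ => rfl, ?_⟩
    rintro ⟨z, g, hg, rfl⟩
    rfl
  rw [h1]
  apply Finset.dvd_sum
  intro C _
  by_cases hC : ∃ g : G, orderOf g = d ∧ zpowers g = C
  · obtain ⟨g, hg, rfl⟩ := hC
    have : Fintype (zpowers g) := Fintype.ofFinite _
    have h2 : Nat.card {x : G // orderOf x = d ∧ zpowers x = zpowers g} =
        Nat.card {x : zpowers g // orderOf x = d} := by
      refine Nat.card_congr ⟨fun x => ⟨⟨x.1, ?_⟩, ?_⟩, fun x => ⟨x.1.1, ?_, ?_⟩, fun _ => rfl, fun _ => rfl⟩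
      · exact x.2.2.le (mem_zpowers x.1)
      · rw [← orderOf_coe]; exact x.2.1
      · rw [orderOf_coe]; exact x.2
      · apply Subgroup.eq_of_le_of_card_ge
        · rw [zpowers_le]; exact x.1.2
        · rw [Nat.card_zpowers, Nat.card_zpowers, hg, orderOf_coe, x.2]
    rw [h2, Nat.card_eq_fintype_card, Fintype.card_subtype]
    rw [IsCyclic.card_orderOf_eq_totient]
    rw [← Nat.card_eq_fintype_card, Nat.card_zpowers, hg]
  · have : Nat.card {g : G // orderOf g = d ∧ zpowers g = C} = 0 := by
      rw [Nat.card_eq_zero]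
      left
      exact ⟨fun x => hC ⟨x.1, x.2⟩⟩
    rw [this]
    exact dvd_zero _

theorem ppow_dvd (p : ℕ) [hp : Fact p.Prime] (G : Type*) [Group G] [Finite G] (j e : ℕ)
    (he : e + j = (Nat.card G).factorization p) :
    p ^ e ∣ Nat.card {g : G // g ^ (p ^ e) = 1} := by
  classical
  induction j generalizing e with
  | zero =>
    rw [add_zero] at he
    subst he
    have h1 : Nat.card {g : G // g ^ (p ^ (Nat.card G).factorization p) = 1} =
        Nat.card {g : G // ∃ k, orderOf g = p ^ k} := by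
      refine Nat.card_congr (Equiv.subtypeEquivRight fun g => ⟨fun h => ?_, fun ⟨k, hk⟩ => ?_⟩)
      · obtain ⟨k, -, hk⟩ := (Nat.dvd_prime_pow hp.out).mp (orderOf_dvd_of_pow_eq_one h)
        exact ⟨k, hk⟩
      · rw [← orderOf_dvd_iff_pow_eq_one, hk]
        apply pow_dvd_pow
        rw [← hp.out.pow_dvd_iff_le_factorization Nat.card_pos.ne', ← hk]
        exact orderOf_dvd_natCard g
    rw [h1]
    exact ppart_dvd p G
  | succ j ih =>
    have h1 := ih (e + 1) (by omega)
    have h2 : Nat.card {g : G // g ^ (p ^ (e + 1)) = 1} =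
        Nat.card {g : G // g ^ (p ^ e) = 1} + Nat.card {g : G // orderOf g = p ^ (e + 1)} := by
      rw [← Nat.card_sum]
      have hiff : ∀ g : G, g ^ (p ^ (e + 1)) = 1 ↔ (g ^ (p ^ e) = 1 ∨ orderOf g = p ^ (e + 1)) := by
        intro g
        rw [← orderOf_dvd_iff_pow_eq_one, ← orderOf_dvd_iff_pow_eq_one, Nat.dvd_prime_pow hp.out,
          Nat.dvd_prime_pow hp.out]
        constructor
        · rintro ⟨k, hk, hg⟩
          rcases Nat.lt_or_ge k (e + 1) with h | h
          · left; exact ⟨k, by omega, hg⟩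
          · right; rw [hg]; congr 1; omega
        · rintro (⟨k, hk, hg⟩ | hg)
          · exact ⟨k, by omega, hg⟩
          · exact ⟨e + 1, le_rfl, hg⟩
      have hdisj : ∀ g : G, g ^ (p ^ e) = 1 → ¬ orderOf g = p ^ (e + 1) := by
        intro g hg ho
        rw [← orderOf_dvd_iff_pow_eq_one, ho, Nat.pow_dvd_pow_iff_le_right hp.out.one_lt] at hg
        omega
      refine Nat.card_congr ⟨fun g => if h : g.1 ^ (p ^ e) = 1 then Sum.inl ⟨g.1, h⟩ else
        Sum.inr ⟨g.1, ((hiff g.1).mp g.2).resolve_left h⟩, fun x => Sum.elim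
        (fun y => ⟨y.1, (hiff _).mpr (Or.inl y.2)⟩) (fun y => ⟨y.1, (hiff _).mpr (Or.inr y.2)⟩) x, ?_, ?_⟩
      · intro g
        by_cases h : g.1 ^ (p ^ e) = 1
        · simp [h]
        · simp [h]
      · rintro (y | y)
        · have := y.2
          simp [this]
        · have h : ¬ (y.1 ^ (p ^ e) = 1) := fun h => hdisj _ h y.2
          simp [h]
    have h3 : p ^ e ∣ Nat.card {g : G // orderOf g = p ^ (e + 1)} := by
      refine dvd_trans ?_ (totient_dvd G (p ^ (e + 1)))
      rw [Nat.totient_prime_pow_succ hp.out]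
      exact dvd_mul_right _ _
    have h4 : p ^ e ∣ Nat.card {g : G // g ^ (p ^ (e + 1)) = 1} :=
      (pow_dvd_pow p (Nat.le_succ e)).trans h1
    rw [h2] at h4
    exact (Nat.dvd_add_left h3).mp h4

/-- any exponent -/
theorem ppow_min_dvd (p : ℕ) [hp : Fact p.Prime] (G : Type*) [Group G] [Finite G] (e : ℕ) :
    p ^ (min e ((Nat.card G).factorization p)) ∣ Nat.card {g : G // g ^ (p ^ e) = 1} := by
  rcases le_total e ((Nat.card G).factorization p) with h | h
  · rw [min_eq_left h]
    exact ppow_dvd p G ((Nat.card G).factorization p - e) e (by omega)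
  · rw [min_eq_right h]
    have h1 : Nat.card {g : G // g ^ (p ^ e) = 1} =
        Nat.card {g : G // g ^ (p ^ (Nat.card G).factorization p) = 1} := by
      refine Nat.card_congr (Equiv.subtypeEquivRight fun g => ?_)
      rw [← orderOf_dvd_iff_pow_eq_one, ← orderOf_dvd_iff_pow_eq_one]
      constructor
      · intro hg
        obtain ⟨k, -, hk⟩ := (Nat.dvd_prime_pow hp.out).mp hg
        rw [hk]
        apply pow_dvd_pow
        rw [← hp.out.pow_dvd_iff_le_factorization Nat.card_pos.ne', ← hk]
        exact orderOf_dvd_natCard g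
      · intro hg
        exact hg.trans (pow_dvd_pow p h)
    rw [h1]
    exact ppow_dvd p G 0 _ (by omega)

/-- the `p`-part of the general statement -/
theorem ppow_dvd_card (p : ℕ) [hp : Fact p.Prime] (G : Type*) [Group G] [Finite G] (n : ℕ)
    (hn : n ≠ 0) (hnG : n.factorization p ≤ (Nat.card G).factorization p) :
    p ^ (n.factorization p) ∣ Nat.card {g : G // g ^ n = 1} := by
  have h0 := dvd_card_of_class (p ^ (n.factorization p)) {g : G | g ^ n = 1} (by
    intro g hg c
    change (c * g * c⁻¹) ^ n = 1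
    have hg' : g ^ n = 1 := hg
    rw [conj_pow, hg', mul_one, mul_inv_cancel]) (pq p) (fun g c => pq_conj p g c) (by
    intro z
    by_cases hz : z ^ n = 1 ∧ ¬ p ∣ orderOf z
    · obtain ⟨hz1, hz2⟩ := hz
      have h3 := fiber_card hp.out hz2 (fun g => g ∈ {g : G | g ^ n = 1})
        (fun y => y ^ (p ^ n.factorization p) = 1) (fun y hy => by
          obtain ⟨k, -, hk⟩ := (Nat.dvd_prime_pow hp.out).mp (orderOf_dvd_of_pow_eq_one hy)
          exact ⟨k, hk⟩) (by
          rintro y ⟨k, hk⟩
          have hc : Commute (y : G) z := mem_centralizer_singleton_iff.mp y.2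
          change ((y : G) * z) ^ n = 1 ↔ _
          rw [hc.mul_pow, hz1, mul_one]
          have e1 : (y : G) ^ n = 1 ↔ y ^ n = 1 := by
            rw [← coe_pow, OneMemClass.coe_eq_one]
          rw [e1, ← orderOf_dvd_iff_pow_eq_one, ← orderOf_dvd_iff_pow_eq_one, hk,
            hp.out.pow_dvd_iff_le_factorization hn, Nat.pow_dvd_pow_iff_le_right hp.out.one_lt])
      rw [h3]
      have h4 := ppow_min_dvd p (centralizer ({z} : Set G)) (n.factorization p)
      have h5 := factorization_card_index (centralizer ({z} : Set G)) p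
      have h6 : p ^ (n.factorization p) ∣ p ^ ((centralizer ({z} : Set G)).index.factorization p) *
          p ^ (min (n.factorization p) ((Nat.card (centralizer ({z} : Set G))).factorization p)) := by
        rw [← pow_add]
        apply pow_dvd_pow
        omega
      exact h6.trans (mul_dvd_mul (Nat.ordProj_dvd _ _) h4)
    · have : Nat.card {g : G // g ∈ {g : G | g ^ n = 1} ∧ pq p g = z} = 0 := by
        rw [Nat.card_eq_zero]
        left
        constructor
        rintro ⟨g, hg, rfl⟩
        refine hz ⟨?_, not_dvd_orderOf_pq hp.out g⟩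
        have hg' : g ^ n = 1 := hg
        have h1 := (pp_commute_pq p g).mul_pow n
        rw [pp_mul_pq, hg', ← pp_pow hp.out, hg', pp_one, one_mul] at h1
        exact h1.symm
      rw [this, mul_zero]
      exact dvd_zero _)
  exact h0

/-- Frobenius -/
theorem dvd_card_pow_eq_one (G : Type*) [Group G] [Finite G] (n : ℕ) (hn : n ∣ Nat.card G) :
    n ∣ Nat.card {g : G // g ^ n = 1} := by
  have hn0 : n ≠ 0 := by
    rintro rfl
    exact Nat.card_pos.ne' (Nat.zero_dvd.mp hn)
  rw [Nat.dvd_iff_prime_pow_dvd_dvd]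
  intro p k hp hk
  have : Fact p.Prime := ⟨hp⟩
  have h1 : k ≤ n.factorization p := (hp.pow_dvd_iff_le_factorization hn0).mp hk
  have h2 : n.factorization p ≤ (Nat.card G).factorization p :=
    (Nat.factorization_le_iff_dvd hn0 Nat.card_pos.ne').mpr hn p
  exact (pow_dvd_pow p h1).trans (ppow_dvd_card p G n hn0 h2)

/-- elements whose order is a multiple of `n`, for a prime `q ∤ n` -/
theorem ppart_dvd_card_dvd_orderOf (p : ℕ) [hp : Fact p.Prime] (G : Type*) [Group G] [Finite G]
    (n : ℕ) (hpn : ¬ p ∣ n) :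
    p ^ (Nat.card G).factorization p ∣ Nat.card {g : G // n ∣ orderOf g} := by
  have hord : ∀ {y z : G}, Commute y z → (∃ k, orderOf y = p ^ k) → ¬ p ∣ orderOf z →
      (n ∣ orderOf (y * z) ↔ n ∣ orderOf z) := by
    rintro y z hc ⟨k, hk⟩ hz
    have hco : Nat.Coprime (orderOf y) (orderOf z) := by
      rw [hk]
      exact Nat.Coprime.pow_left _ ((hp.out.coprime_iff_not_dvd).mpr hz)
    rw [hc.orderOf_mul_eq_mul_orderOf_of_coprime hco, hk]
    have hco2 : Nat.Coprime n (p ^ k) := Nat.Coprime.pow_right _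
      ((hp.out.coprime_iff_not_dvd).mpr hpn).symm
    exact ⟨fun h => hco2.dvd_of_dvd_mul_left h, fun h => Dvd.dvd.mul_left h _⟩
  have h0 := dvd_card_of_class (p ^ (Nat.card G).factorization p) {g : G | n ∣ orderOf g} (by
    intro g hg c
    change n ∣ orderOf (c * g * c⁻¹)
    have : c * g * c⁻¹ = MulAut.conj c g := rfl
    have h1 : orderOf (MulAut.conj c g) = orderOf g :=
      orderOf_injective (MulAut.conj c).toMonoidHom (MulAut.conj c).injective g
    rw [this, h1]
    exact hg) (pq p) (fun g c => pq_conj p g c) (by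
    intro z
    by_cases hz : n ∣ orderOf z ∧ ¬ p ∣ orderOf z
    · obtain ⟨hz1, hz2⟩ := hz
      have h3 := fiber_card hp.out hz2 (fun g => g ∈ {g : G | n ∣ orderOf g})
        (fun y => ∃ k, orderOf y = p ^ k) (fun y hy => hy) (by
          rintro y ⟨k, hk⟩
          have hc : Commute (y : G) z := mem_centralizer_singleton_iff.mp y.2
          change n ∣ orderOf ((y : G) * z) ↔ _
          rw [hord hc ⟨k, by rw [orderOf_coe]; exact hk⟩ hz2]
          exact ⟨fun _ => ⟨k, hk⟩, fun _ => hz1⟩)
      rw [h3, factorization_card_index (centralizer ({z} : Set G)) p, pow_add]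
      exact mul_dvd_mul (Nat.ordProj_dvd _ _) (ppart_dvd p _)
    · have : Nat.card {g : G // g ∈ {g : G | n ∣ orderOf g} ∧ pq p g = z} = 0 := by
        rw [Nat.card_eq_zero]
        left
        constructor
        rintro ⟨g, hg, rfl⟩
        refine hz ⟨?_, not_dvd_orderOf_pq hp.out g⟩
        have hg' : n ∣ orderOf g := hg
        rw [← pp_mul_pq p g] at hg'
        exact (hord (pp_commute_pq p g) (exists_orderOf_pp hp.out g) (not_dvd_orderOf_pq hp.out g)).mp hg'
      rw [this, mul_zero]
      exact dvd_zero _)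
  exact h0

end Cfsg.Agent.Lib.FrobCount
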