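import Cfsg.Agent.Lib.CharInd
import Cfsg.Agent.Lib.CharSplit
import Cfsg.Agent.Lib.FrobCount

set_option autoImplicit false

/-!
# Trivial intersection subgroups with Frobenius normalizer
-/

namespace Cfsg.Agent.Lib.CharTI

open Cfsg Cfsg.Agent.Lib.CharBasic Cfsg.Agent.Lib.CharInd

/-- `[L:K]` divides `|K| - 1`. -/
theorem index_dvd {L : Type*} [Group L] [Finite L] (K : Subgroup L) [hK : K.Normal]
    (hC : ∀ k ∈ K, k ≠ 1 → Subgroup.centralizer ({k} : Set L) ≤ K) :
    K.index ∣ Nat.card K - 1 := by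
  classical
  have h1 : K.index ∣ Nat.card {g : L // g ∈ {g : L | g ∈ K ∧ g ≠ 1}} := by
    apply FrobCount.dvd_card_of_class K.index {g : L | g ∈ K ∧ g ≠ 1} _ id (fun _ _ => rfl)
    · intro z
      by_cases hz : z ∈ K ∧ z ≠ 1
      · have h2 : K.index ∣ (Subgroup.centralizer ({z} : Set L)).index :=
          Subgroup.index_dvd_of_le (hC z hz.1 hz.2)
        exact Dvd.dvd.mul_right h2 _
      · have : IsEmpty {g : L // g ∈ {g : L | g ∈ K ∧ g ≠ 1} ∧ id g = z} := by
          constructor
          rintro ⟨g, hg, rfl⟩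
          exact hz hg
        rw [Nat.card_of_isEmpty, mul_zero]
        exact dvd_zero _
    · rintro g ⟨hg, hg1⟩ c
      exact ⟨hK.conj_mem g hg c, fun h => hg1 (conj_eq_one_iff.mp h)⟩
  have h2 : Nat.card {g : L // g ∈ {g : L | g ∈ K ∧ g ≠ 1}} = Nat.card K - 1 := by
    cases nonempty_fintype L
    have : Nat.card K = Nat.card {g : L // g ∈ {g : L | g ∈ K ∧ g ≠ 1}} + 1 := by
      rw [Nat.card_eq_fintype_card, Nat.card_eq_fintype_card, Fintype.card_subtype,
        Fintype.card_subtype]
      have : Finset.univ.filter (fun x => x ∈ K) = insert 1 (Finset.univ.filter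
          (fun g : L => g ∈ {g : L | g ∈ K ∧ g ≠ 1})) := by
        ext x
        by_cases hx : x = 1
        · simp [hx]
        · simp [hx]
      rw [this, Finset.card_insert_of_notMem]
      simp
    omega
  rwa [h2] at h1

theorem coprime_index {L : Type*} [Group L] [Finite L] (K : Subgroup L) [hK : K.Normal]
    (hC : ∀ k ∈ K, k ≠ 1 → Subgroup.centralizer ({k} : Set L) ≤ K) :
    Nat.Coprime (Nat.card K) K.index := by
  have h1 := index_dvd K hC
  have h2 : 0 < Nat.card K := Nat.card_pos
  apply Nat.Coprime.coprime_dvd_right h1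
  rw [show Nat.card K = (Nat.card K - 1) + 1 by omega]
  simp

variable {G : Type*} [Group G]

theorem mem_of_conj_mem [Finite G] (K : Subgroup G)
    (hC : ∀ k ∈ K, k ≠ 1 → Subgroup.centralizer ({k} : Set G) ≤ K) {x : G}
    (hx : x ∈ Subgroup.normalizer (K : Set G)) (g : G) (hg : g * x * g⁻¹ ∈ K) : x ∈ K := by
  set L := Subgroup.normalizer (K : Set G) with hL
  have hKL : K ≤ L := Subgroup.le_normalizer
  have hn : (K.subgroupOf L).Normal := Subgroup.normal_in_normalizer
  have hcop := coprime_index (K.subgroupOf L) (by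
    intro k hk hk1 y hy
    rw [Subgroup.mem_subgroupOf] at hk ⊢
    apply hC k hk (fun h => hk1 (Subtype.ext h))
    rw [Subgroup.mem_centralizer_singleton_iff] at hy ⊢
    exact congrArg Subtype.val hy)
  have hcard : Nat.card (K.subgroupOf L) = Nat.card K :=
    Nat.card_congr (Subgroup.subgroupOfEquivOfLe hKL).toEquiv
  rw [hcard] at hcop
  have h1 : orderOf x ∣ Nat.card K := by
    have h2 : orderOf (g * x * g⁻¹) = orderOf x := by
      have := orderOf_injective (MulAut.conj g).toMonoidHom (MulAut.conj g).injective x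
      simpa using this
    rw [← h2, ← Subgroup.orderOf_mk _ hg]
    exact orderOf_dvd_natCard _
  have h2 : (⟨x, hx⟩ : L) ∈ K.subgroupOf L := by
    apply CharSplit.mem_of_coprime_index
    rw [Subgroup.orderOf_mk]
    exact Nat.Coprime.coprime_dvd_left h1 hcop
  exact h2

theorem indFun_res [Fintype G] (K : Subgroup G)
    (hTI : ∀ g : G, g ∉ Subgroup.normalizer (K : Set G) → ∀ k ∈ K, g * k * g⁻¹ ∈ K → k = 1)
    (hC : ∀ k ∈ K, k ≠ 1 → Subgroup.centralizer ({k} : Set G) ≤ K)
    {ϑ : Subgroup.normalizer (K : Set G) → ℂ}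
    (hϑ : IsClassFunction (Subgroup.normalizer (K : Set G)) ϑ)
    (h0 : ∀ x : Subgroup.normalizer (K : Set G), (x : G) ∉ K → ϑ x = 0) (h1 : ϑ 1 = 0)
    (x : Subgroup.normalizer (K : Set G)) :
    indFun (Subgroup.normalizer (K : Set G)) ϑ x = ϑ x := by
  by_cases hx : (x : G) ∈ K
  · by_cases hx1 : (x : G) = 1
    · have : x = 1 := Subtype.ext hx1
      subst this
      rw [h1]
      change indFun _ ϑ (1 : G) = 0
      rw [indFun_one, h1, mul_zero]
    · exact indFun_eq_of_ti _ (K : Set G) hTI ϑ hϑ h0 x hx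
        (fun h => hx1 (congrArg Subtype.val h))
  · rw [h0 x hx]
    apply indFun_eq_zero_of_not_conj
    intro y hy
    apply h0
    intro h2
    apply hx
    apply mem_of_conj_mem K hC x.2 y⁻¹
    simpa using h2

end Cfsg.Agent.Lib.CharTI
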