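import Cfsg.Agent.Lib.ChevBT3

/-!
# Bruhat cells and minimal coset representatives
-/

set_option autoImplicit false

namespace Cfsg.Agent.Lib.ChevAlg

open Cfsg.Lie Cfsg.Agent.Lib.ChevTab Matrix

variable {D : ChevalleyDatum} {F : Type*} [Field F] (Q : ChevO D F)

/-- Bruhat cells -/
def Cell (w : Equiv.Perm (Fin D.nroots)) (g : GL D.Idx F) : Prop :=
  ∃ b ∈ D.borelSubgroup F, ∃ n ∈ D.monomialSubgroup F, (∃ u, Mono Q n w u) ∧ ∃ b' ∈ D.borelSubgroup F, g = b * n * b'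

variable {Q}

lemma cell_exists {g : GL D.Idx F} (hg : g ∈ D.group F) : ∃ w ∈ WG Q.C2, Cell Q w g := by
  obtain ⟨b, hb, n, hn, b', hb', e⟩ := exists_bruhat Q hg
  obtain ⟨w, hw, u, hm⟩ := monomial_mono Q hn
  exact ⟨w, hw, b, hb, n, hn, ⟨u, hm⟩, b', hb', e⟩

lemma mono_mem_WG {n : GL D.Idx F} (hn : n ∈ D.monomialSubgroup F) {w : Equiv.Perm (Fin D.nroots)} {u : Fin D.nroots → Fˣ}
    (hm : Mono Q n w u) : w ∈ WG Q.C2 := by
  obtain ⟨w', hw', u', hm'⟩ := monomial_mono Q hn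
  rw [Mono.unique Q hm hm']
  exact hw'

lemma mono_one_of_diag {n : GL D.Idx F} (hn : n ∈ D.diagonalSubgroup F) : ∃ u, Mono Q n 1 u := by
  obtain ⟨χ, hχ, rfl⟩ := diagonal_mono Q hn
  exact ⟨_, mono_dG hχ⟩

lemma Cell.mem {w : Equiv.Perm (Fin D.nroots)} {g : GL D.Idx F} (h : Cell Q w g) : w ∈ WG Q.C2 := by
  obtain ⟨b, hb, n, hn, ⟨u, hm⟩, b', hb', e⟩ := h
  exact mono_mem_WG hn hm

lemma Cell.mem_group {w : Equiv.Perm (Fin D.nroots)} {g : GL D.Idx F} (h : Cell Q w g) : g ∈ D.group F := by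
  obtain ⟨b, hb, n, hn, ⟨u, hm⟩, b', hb', e⟩ := h
  rw [e]
  exact Subgroup.mul_mem _ (Subgroup.mul_mem _ (borel_le_group Q hb) (monomial_le_group Q hn)) (borel_le_group Q hb')

lemma cell_unique {w w' : Equiv.Perm (Fin D.nroots)} {g : GL D.Idx F} (h : Cell Q w g) (h' : Cell Q w' g) : w = w' := by
  obtain ⟨b, hb, n, hn, ⟨u, hm⟩, b', hb', e⟩ := h
  obtain ⟨c, hc, m, hm', ⟨v, hv⟩, c', hc', e'⟩ := h'
  have h1 := bruhat_unique Q hn hm' hb hb' hc hc' (e.symm.trans e')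
  obtain ⟨x, hx⟩ := mono_one_of_diag (Q := Q) h1
  have h2 := Mono.unique Q hx (hm.inv.mul hv)
  rw [eq_comm, inv_mul_eq_one] at h2
  exact h2

lemma Cell.left {w : Equiv.Perm (Fin D.nroots)} {g : GL D.Idx F} (h : Cell Q w g) {c : GL D.Idx F} (hc : c ∈ D.borelSubgroup F) :
    Cell Q w (c * g) := by
  obtain ⟨b, hb, n, hn, hm, b', hb', e⟩ := h
  exact ⟨c * b, Subgroup.mul_mem _ hc hb, n, hn, hm, b', hb', by rw [e]; group⟩

lemma Cell.right {w : Equiv.Perm (Fin D.nroots)} {g : GL D.Idx F} (h : Cell Q w g) {c : GL D.Idx F} (hc : c ∈ D.borelSubgroup F) :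
    Cell Q w (g * c) := by
  obtain ⟨b, hb, n, hn, hm, b', hb', e⟩ := h
  exact ⟨b, hb, n, hn, hm, b' * c, Subgroup.mul_mem _ hb' hc, by rw [e]; group⟩

lemma cell_one {g : GL D.Idx F} (hg : g ∈ D.borelSubgroup F) : Cell Q 1 g :=
  ⟨g, hg, 1, Subgroup.one_mem _, ⟨_, Mono.one⟩, 1, Subgroup.one_mem _, by group⟩

lemma Cell.borel {g : GL D.Idx F} (h : Cell Q 1 g) : g ∈ D.borelSubgroup F := by
  obtain ⟨b, hb, n, hn, ⟨u, hm⟩, b', hb', e⟩ := h
  rw [e]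
  exact Subgroup.mul_mem _ (Subgroup.mul_mem _ hb (H_le_borel Q (mem_diagonal_of_mono Q hn hm))) hb'

/-- stabilizer of the roots of the radical -/
def WP (D : ChevalleyDatum) (J : Set ℕ) (w : Equiv.Perm (Fin D.nroots)) : Prop :=
  ∀ r : Fin D.nroots, (r : ℕ) ∈ RJ D J → ((w r : Fin D.nroots) : ℕ) ∈ RJ D J

lemma WP.iff {J : Set ℕ} {w : Equiv.Perm (Fin D.nroots)} (h : WP D J w) (r : Fin D.nroots) :
    ((w r : Fin D.nroots) : ℕ) ∈ RJ D J ↔ (r : ℕ) ∈ RJ D J := by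
  classical
  refine ⟨fun h1 => ?_, h r⟩
  have h2 : (Finset.univ.filter (fun r : Fin D.nroots => (r : ℕ) ∈ RJ D J)).image w =
      Finset.univ.filter (fun r : Fin D.nroots => (r : ℕ) ∈ RJ D J) :=
    Finset.eq_of_subset_of_card_le (fun x hx => by
      obtain ⟨y, hy, rfl⟩ := Finset.mem_image.1 hx
      exact Finset.mem_filter.2 ⟨Finset.mem_univ _, h y (Finset.mem_filter.1 hy).2⟩)
      (by rw [Finset.card_image_of_injective _ w.injective])
  have h3 : w r ∈ (Finset.univ.filter (fun r : Fin D.nroots => (r : ℕ) ∈ RJ D J)).image w := by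
    rw [h2]; exact Finset.mem_filter.2 ⟨Finset.mem_univ _, h1⟩
  obtain ⟨y, hy, h4⟩ := Finset.mem_image.1 h3
  rw [← w.injective h4]
  exact (Finset.mem_filter.1 hy).2

lemma WP.inv {J : Set ℕ} {w : Equiv.Perm (Fin D.nroots)} (h : WP D J w) : WP D J w⁻¹ := by
  intro r hr
  rw [← h.iff, perm_apply_inv]
  exact hr

lemma phiJ_iff (hS : SuppD Q.C) {J : Set ℕ} (r : Fin D.nroots) : (r : ℕ) ∈ PhiJ D J ↔
    (r : ℕ) ∉ RJ D J ∧ ((Fin.rev r : Fin D.nroots) : ℕ) ∉ RJ D J := by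
  constructor
  · intro h
    refine ⟨fun h1 => h1.2 h, fun h1 => h1.2 ?_⟩
    rw [fin_rev_val]
    exact phiJ_neg hS h
  · rintro ⟨h1, h2⟩
    by_contra h3
    by_cases h4 : ps r
    · exact h1 ⟨⟨h4, r.2⟩, h3⟩
    · refine h2 ⟨⟨(ps_rev Q).2 h4, (Fin.rev r).2⟩, fun h5 => h3 ?_⟩
      have h6 := phiJ_neg hS h5
      rw [fin_rev_val, neg_neg_idx r.2] at h6
      exact h6

lemma WP.phi (hS : SuppD Q.C) {J : Set ℕ} {w : Equiv.Perm (Fin D.nroots)} (hw : WAut Q.C w) (h : WP D J w) (r : Fin D.nroots) :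
    ((w r : Fin D.nroots) : ℕ) ∈ PhiJ D J ↔ (r : ℕ) ∈ PhiJ D J := by
  rw [phiJ_iff hS, phiJ_iff hS, ← hw.rev, h.iff, h.iff]

lemma cell_par (hS : SuppD Q.C) {J : Set ℕ} {w : Equiv.Perm (Fin D.nroots)} {g : GL D.Idx F} (h : Cell Q w g) :
    g ∈ D.parabolicSubgroup F J ↔ WP D J w := by
  obtain ⟨b, hb, n, hn, ⟨u, hm⟩, b', hb', e⟩ := h
  have hBP : D.borelSubgroup F ≤ D.parabolicSubgroup F J := le_sup_left
  have h1 : g ∈ D.parabolicSubgroup F J ↔ n ∈ D.parabolicSubgroup F J := by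
    constructor
    · intro h
      have : n = b⁻¹ * g * b'⁻¹ := by rw [e]; group
      rw [this]
      exact Subgroup.mul_mem _ (Subgroup.mul_mem _ (Subgroup.inv_mem _ (hBP hb)) h) (Subgroup.inv_mem _ (hBP hb'))
    · intro h
      rw [e]
      exact Subgroup.mul_mem _ (Subgroup.mul_mem _ (hBP hb) h) (hBP hb')
  rw [h1]
  constructor
  · intro h2 r hr
    have h3 := (Subgroup.mem_normalizer_iff.1 (parabolic_normalizes hS J h2) _).1 (xG_mem Q hr 1)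
    rw [hm.conj] at h3
    have hne : ((u r : F) * 1) ≠ 0 := by rw [mul_one]; exact (u r).ne_zero
    by_cases h4 : ps (w r)
    · exact mem_of_xG_mem Q (nb_RJ hS J).1 (nb_RJ hS J).clos ⟨h4, (w r).2⟩ hne h3
    · exfalso
      apply hne
      refine xG_eq_one Q (w r).2 (U_inf_V Q (XS_mono Q (nb_RJ hS J).1 h3) (xG_mem Q ?_ _))
      exact not_le.1 h4
  · intro h2
    rw [← normalizer_radical hS J]
    refine ⟨?_, monomial_le_group Q hn⟩
    refine Subgroup.mem_normalizer_iff.2 (fun y => ?_)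
    constructor
    · intro hy
      refine conj_XS_le Q ?_ hy
      intro r hr t
      have hr1 : r < D.nroots := hr.1.2
      have h6 := hm.conj ⟨r, hr1⟩ t
      have h7 : ((⟨r, hr1⟩ : Fin D.nroots) : ℕ) = r := rfl
      rw [h7] at h6
      rw [h6]
      exact xG_mem Q (h2 ⟨r, hr1⟩ hr) _
    · intro hy
      have e2 : y = n⁻¹ * (n * y * n⁻¹) * n⁻¹⁻¹ := by group
      rw [e2]
      refine conj_XS_le Q ?_ hy
      intro r hr t
      have hr1 : r < D.nroots := hr.1.2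
      have h6 := hm.inv.conj ⟨r, hr1⟩ t
      have h7 : ((⟨r, hr1⟩ : Fin D.nroots) : ℕ) = r := rfl
      rw [h7] at h6
      rw [h6]
      exact xG_mem Q (h2.inv ⟨r, hr1⟩ hr) _

variable (Q) in
/-- minimal coset representatives -/
def MinC (J : Set ℕ) (w : Equiv.Perm (Fin D.nroots)) : Prop := ∀ i : Fin D.rank, (i : ℕ) ∈ J → ps (w (si Q i i.2))

variable (Q) in
/-- maximal coset representatives -/
def MaxC (J : Set ℕ) (w : Equiv.Perm (Fin D.nroots)) : Prop := ∀ i : Fin D.rank, (i : ℕ) ∈ J → ¬ ps (w (si Q i i.2))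

lemma linF_lam : LinF Q.C (fun r => (Q.O.lam r : ℝ)) := by
  intro r
  show (Q.O.lam r : ℝ) = ∑ l : Fin D.rank, (Q.C.vec r l : ℝ) * (Q.O.lam (D.simple l) : ℝ)
  have h1 : ∀ l : Fin D.rank, Q.O.lam (D.simple l) = Q.O.c l := by
    intro l
    rw [Q.O.lam_eq _ (Q.C.simple_lt l l.2), Finset.sum_congr rfl (fun i hi => by
      rw [Q.C.vec_simple l l.2 i (Finset.mem_range.1 hi), ite_mul, one_mul, zero_mul])]
    rw [Finset.sum_ite_eq, if_pos (Finset.mem_range.2 l.2)]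
  rw [Finset.sum_congr rfl (fun l _ => by rw [h1 l]), Q.O.lam_eq r r.2]
  push_cast
  exact (Fin.sum_univ_eq_sum_range (fun i => (Q.C.vec r i : ℝ) * (Q.O.c i : ℝ)) D.rank).symm

lemma ps_lam (r : Fin D.nroots) : ps r ↔ 0 < (Q.O.lam r : ℝ) := by
  have h := lam_pos_iff Q.C Q.O r.2
  show D.nroots / 2 ≤ r.val ↔ _
  rw [← h]
  norm_cast

/-- for positive roots in `Φ_J`, signs are determined by the simple roots in `J` -/
lemma sum_phi (hS : SuppD Q.C) {J : Set ℕ} {f : Fin D.nroots → ℝ} (hf : LinF Q.C f) (h : ∀ i : Fin D.rank, (i : ℕ) ∈ J → 0 < f (si Q i i.2))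
    {r : Fin D.nroots} (hr : ps r) (hJ : (r : ℕ) ∈ PhiJ D J) : 0 < f r := by
  rw [hf r]
  have hnn : ∀ l ∈ (Finset.univ : Finset (Fin D.rank)), 0 ≤ (Q.C.vec r l : ℝ) * f ⟨D.simple l, Q.C.simple_lt l l.2⟩ := by
    intro l _
    by_cases hl : (l : ℕ) ∈ J
    · have h1 := vec_nonneg (C := Q.C) r r.2 hr l l.2
      exact mul_nonneg (by exact_mod_cast h1) (h l hl).le
    · rw [((mem_PhiJ hS).1 hJ).2 l l.2 hl]; simp
  apply Finset.sum_pos' hnn
  -- some coordinate is nonzero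
  by_contra hcon
  push Not at hcon
  have h2 : ∀ l : Fin D.rank, Q.C.vec r l = 0 := by
    intro l
    by_cases hl : (l : ℕ) ∈ J
    · have h3 := le_antisymm (hcon l (Finset.mem_univ _)) (hnn l (Finset.mem_univ _))
      rcases mul_eq_zero.1 h3 with h4 | h4
      · exact_mod_cast h4
      · exact absurd h4 (h l hl).ne'
    · exact ((mem_PhiJ hS).1 hJ).2 l l.2 hl
  have h3 := (ps_lam (Q := Q) r).1 hr
  have h4 := linF_lam (Q := Q) r
  rw [Finset.sum_congr rfl (fun l _ => by rw [h2 l, Int.cast_zero, zero_mul]), Finset.sum_const_zero] at h4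
  have h5 : (Q.O.lam r : ℝ) = 0 := h4
  rw [h5] at h3
  exact lt_irrefl _ h3

lemma MinC.phi (hS : SuppD Q.C) {J : Set ℕ} {w : Equiv.Perm (Fin D.nroots)} (hw : w ∈ WG Q.C2) (h : MinC Q J w)
    {r : Fin D.nroots} (hr : ps r) (hJ : (r : ℕ) ∈ PhiJ D J) : ps (w r) := by
  rw [ps_lam (Q := Q)]
  exact sum_phi hS ((linF_lam (Q := Q)).comp hw) (fun i hi => (ps_lam (Q := Q) _).1 (h i hi)) hr hJ

lemma MaxC.phi (hS : SuppD Q.C) {J : Set ℕ} {w : Equiv.Perm (Fin D.nroots)} (hw : w ∈ WG Q.C2) (h : MaxC Q J w)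
    {r : Fin D.nroots} (hr : ps r) (hJ : (r : ℕ) ∈ PhiJ D J) : ¬ ps (w r) := by
  have hw' := WG_waut Q hw
  have h1 : LinF Q.C (fun r => (-1 : ℝ) * (Q.O.lam (w r) : ℝ)) := ((linF_lam (Q := Q)).comp hw).smul (-1)
  have h2 := sum_phi hS h1 (fun i hi => by
    have h3 := (ps_rev Q).2 (h i hi)
    rw [ps_lam (Q := Q)] at h3
    have h4 := (linF_lam (Q := Q)).rev (w (si Q i i.2))
    have h5 : (Q.O.lam (Fin.rev (w (si Q i i.2)) : Fin D.nroots) : ℝ) = - (Q.O.lam (w (si Q i i.2)) : ℝ) := h4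
    rw [h5] at h3
    show 0 < (-1 : ℝ) * (Q.O.lam (w (si Q i i.2)) : ℝ)
    linarith) hr hJ
  rw [ps_lam (Q := Q)]
  have h3 : 0 < (-1 : ℝ) * (Q.O.lam (w r) : ℝ) := h2
  linarith

lemma ninv_mul_srR {w : Equiv.Perm (Fin D.nroots)} (hw : w ∈ WG Q.C2) {i : ℕ} (hi : i < D.rank) (h : ¬ ps (w (si Q i hi))) :
    ninv w = ninv (w * sr Q.C2 i) + 1 := by
  have hs := sr_mem Q hi
  have h1 := WG_waut Q ((WG Q.C2).mul_mem hw hs)
  have h2 := WG_waut Q ((WG Q.C2).inv_mem ((WG Q.C2).mul_mem hw hs))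
  have h3 := ninv_sr_mul Q h2 hi (by
    rw [inv_inv, Equiv.Perm.mul_apply, sr_si, (WG_waut Q hw).rev]
    exact (ps_rev Q).2 h)
  have e : sr Q.C2 i * (w * sr Q.C2 i)⁻¹ = w⁻¹ := by
    rw [_root_.mul_inv_rev, sr_inv, ← mul_assoc, sr_mul_self, one_mul]
  rw [e, ninv_inv Q (WG_waut Q hw), ninv_inv Q h1] at h3
  exact h3

/-- every coset of `P_J` has a minimal representative -/
theorem exists_minC {J : Set ℕ} : ∀ (k : ℕ) {w : Equiv.Perm (Fin D.nroots)} {g : GL D.Idx F}, ninv w = k → Cell Q w g →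
    ∃ p ∈ D.parabolicSubgroup F J, ∃ w', MinC Q J w' ∧ Cell Q w' (g * p) := by
  intro k
  induction k using Nat.strong_induction_on with
  | _ k ih =>
    intro w g hk h
    by_cases hmin : MinC Q J w
    · exact ⟨1, Subgroup.one_mem _, w, hmin, by rw [mul_one]; exact h⟩
    · rw [MinC] at hmin
      push Not at hmin
      obtain ⟨i, hi, hneg⟩ := hmin
      have hw := h.mem
      obtain ⟨b, hb, n, hn, ⟨u, hm⟩, b', hb', e⟩ := h
      have hnG : nG Q (D.simple i) 1 ∈ D.parabolicSubgroup F J :=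
        Subgroup.mem_sup_right (Subgroup.subset_closure ⟨i, hi, i.2, nG_val Q (Q.C.simple_lt i i.2) 1⟩)
      have hnN : nG Q (D.simple i) 1 ∈ D.monomialSubgroup F := by
        rw [monomial_eq Q]
        exact Subgroup.mem_sup_right (Subgroup.subset_closure ⟨_, Q.C.simple_lt i i.2, rfl⟩)
      have hm2 := hm.mul (mono_n Q i.2)
      have hc : Cell Q (w * sr Q.C2 i) (g * (b'⁻¹ * nG Q (D.simple i) 1)) :=
        ⟨b, hb, n * nG Q (D.simple i) 1, Subgroup.mul_mem _ hn hnN, ⟨_, hm2⟩, 1, Subgroup.one_mem _, by rw [e]; group⟩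
      have h1 := ninv_mul_srR hw i.2 hneg
      obtain ⟨p, hp, w', hw', hc'⟩ := ih (ninv (w * sr Q.C2 i)) (by omega) rfl hc
      refine ⟨(b'⁻¹ * nG Q (D.simple i) 1) * p, Subgroup.mul_mem _ (Subgroup.mul_mem _ (Subgroup.inv_mem _ (Subgroup.mem_sup_left hb')) hnG) hp,
        w', hw', ?_⟩
      rw [← mul_assoc]
      exact hc'

/-- products of cells -/
theorem cell_mul (hS : SuppD Q.C) {J : Set ℕ} {w v : Equiv.Perm (Fin D.nroots)} {g p : GL D.Idx F} (h : Cell Q w g)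
    (hmin : MinC Q J w) (hp : Cell Q v p) (hv : WP D J v) : Cell Q (w * v) (g * p) := by
  have hwW := h.mem
  obtain ⟨b, hb, n, hn, ⟨u, hm⟩, b', hb', e⟩ := h
  obtain ⟨c, hc, m, hm', ⟨x, hx⟩, c', hc', e'⟩ := hp
  obtain ⟨y, hy, t, ht, e2⟩ := (mem_borel Q).1 (Subgroup.mul_mem _ hb' hc)
  have hset : Pos D = {r | r ∈ Pos D ∧ r ∈ PhiJ D J} ∪ RJ D J := by
    ext r
    constructor
    · intro hr
      by_cases h1 : r ∈ PhiJ D J
      · exact Or.inl ⟨hr, h1⟩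
      · exact Or.inr ⟨hr, h1⟩
    · rintro (h1 | h1)
      · exact h1.1
      · exact h1.1
  obtain ⟨y1, hy1, y2, hy2, e3⟩ := exists_factor Q hset (le_refl _) (clos_pos Q) hy
  have h1 : n * y1 * n⁻¹ ∈ XS Q (Pos D) := by
    refine conj_XS_le Q ?_ hy1
    rintro r ⟨hr, hrJ⟩ t
    have h6 := hm.conj ⟨r, hr.2⟩ t
    have h7 : ((⟨r, hr.2⟩ : Fin D.nroots) : ℕ) = r := rfl
    rw [h7] at h6
    rw [h6]
    have h8 : ((w ⟨r, hr.2⟩ : Fin D.nroots) : ℕ) ∈ Pos D := ⟨hmin.phi hS hwW (r := ⟨r, hr.2⟩) hr.1 hrJ, (w _).2⟩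
    exact xG_mem Q h8 _
  have h2 : n * t * n⁻¹ ∈ D.diagonalSubgroup F := diag_conj Q hn ht
  have h3 : t⁻¹ * y2 * t⁻¹⁻¹ ∈ XS Q (RJ D J) := (nb_RJ hS J).conj (Subgroup.inv_mem _ (H_le_borel Q ht)) hy2
  have h4 : m⁻¹ * (t⁻¹ * y2 * t⁻¹⁻¹) * m⁻¹⁻¹ ∈ XS Q (RJ D J) := by
    refine conj_XS_le Q ?_ h3
    intro r hr s
    have hr1 : r < D.nroots := hr.1.2
    have h6 := hx.inv.conj ⟨r, hr1⟩ s
    have h7 : ((⟨r, hr1⟩ : Fin D.nroots) : ℕ) = r := rfl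
    rw [h7] at h6
    rw [h6]
    exact xG_mem Q (hv.inv ⟨r, hr1⟩ hr) _
  refine ⟨b * (n * y1 * n⁻¹) * (n * t * n⁻¹), Subgroup.mul_mem _ (Subgroup.mul_mem _ hb (U_le_borel Q h1)) (H_le_borel Q h2),
    n * m, Subgroup.mul_mem _ hn hm', ⟨_, hm.mul hx⟩, m⁻¹ * (t⁻¹ * y2 * t⁻¹⁻¹) * m⁻¹⁻¹ * c',
    Subgroup.mul_mem _ (U_le_borel Q (XS_mono Q (nb_RJ hS J).1 h4)) hc', ?_⟩
  have e4 : g * p = b * n * (b' * c) * m * c' := by rw [e, e']; group
  rw [e4, e2, e3]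
  group

/-- uniqueness of minimal representatives -/
theorem borel_of_minC (hS : SuppD Q.C) {J : Set ℕ} {w w' : Equiv.Perm (Fin D.nroots)} {g p : GL D.Idx F} (h : Cell Q w g)
    (hmin : MinC Q J w) (h' : Cell Q w' (g * p)) (hmin' : MinC Q J w') (hp : p ∈ D.parabolicSubgroup F J) :
    p ∈ D.borelSubgroup F := by
  have hpG : p ∈ D.group F := by
    rw [← normalizer_radical hS J] at hp; exact hp.2
  obtain ⟨v, hv, hc⟩ := cell_exists (Q := Q) hpG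
  have hvP := (cell_par hS hc).1 hp
  have h1 := cell_unique h' (cell_mul hS h hmin hc hvP)
  have hva := WG_waut Q hv
  have hwa := WG_waut Q h.mem
  have h2 : v = 1 := by
    apply eq_one_of_ps Q hv
    apply pos_of_simple Q hva
    intro i hi
    by_cases hiJ : i ∈ J
    · by_contra hneg
      have h3 : ((si Q i hi : Fin D.nroots) : ℕ) ∈ PhiJ D J := si_mem_phi Q hi hiJ
      have h4 := (hvP.phi hS hva _).2 h3
      have h5 : ((Fin.rev (v (si Q i hi)) : Fin D.nroots) : ℕ) ∈ PhiJ D J := by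
        rw [fin_rev_val]; exact phiJ_neg hS h4
      have h6 := hmin.phi hS h.mem ((ps_rev Q).2 hneg) h5
      rw [hwa.rev] at h6
      have h7 := hmin' ⟨i, hi⟩ hiJ
      rw [h1, Equiv.Perm.mul_apply] at h7
      exact (ps_rev Q).1 h6 h7
    · exact (hvP _ (si_mem_RJ hS hi hiJ)).1.1
  subst h2
  exact hc.borel

end Cfsg.Agent.Lib.ChevAlg
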