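import Cfsg.Agent.Lib.ChevCell9
import Cfsg.Agent.Lib.CoprimeLift
import Cfsg.Agent.Lib.CharInt

/-!
# Values of the Steinberg character on semisimple elements
-/

set_option autoImplicit false

namespace Cfsg.Agent.Lib.ChevAlg

open Cfsg.Lie Cfsg.Agent.Lib.ChevTab Matrix

section abstract

variable {G : Type*} [Group G] [Finite G]

lemma conj_in_coset {p : ℕ} [Fact p.Prime] {V : Subgroup G} (hV : IsPGroup p V) {s : G} (hs : s ∈ Subgroup.normalizer (V : Set G))
    (hsp : ¬ p ∣ orderOf s) {v : G} (hv : v ∈ V) (hvp : ¬ p ∣ orderOf (s * v)) : ∃ n ∈ V, n * s * n⁻¹ = s * v := by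
  have hp : p.Prime := Fact.out
  set N : Subgroup G := Subgroup.normalizer (V : Set G) with hN
  have hVN : V ≤ N := Subgroup.le_normalizer
  set x : N := ⟨s, hs⟩ with hx
  set y : N := ⟨s * v, N.mul_mem hs (hVN hv)⟩ with hy
  have hcard : Nat.card (V.subgroupOf N) = Nat.card V := Nat.card_congr (Subgroup.subgroupOfEquivOfLe hVN).toEquiv
  obtain ⟨k, hk⟩ := IsPGroup.iff_card.1 hV
  have hcop : ∀ m : ℕ, ¬ p ∣ m → m.Coprime (Nat.card (V.subgroupOf N)) := by
    intro m hm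
    rw [hcard, hk]
    exact Nat.Coprime.pow_right k ((Nat.Prime.coprime_iff_not_dvd hp).2 hm).symm
  have hox : orderOf x = orderOf s := by rw [← Subgroup.orderOf_coe]
  have hoy : orderOf y = orderOf (s * v) := by rw [← Subgroup.orderOf_coe]
  have hnorm : (V.subgroupOf N).Normal := Subgroup.normal_in_normalizer
  obtain ⟨n, hn, e⟩ := Cfsg.Agent.Lib.CoprimeLift.exists_conj (V.subgroupOf N) (x := x) (y := y)
    (by rw [hox]; exact hcop _ hsp) (by rw [hoy]; exact hcop _ hvp) 1 (by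
      rw [one_mul, inv_one, mul_one]
      refine QuotientGroup.eq.2 (Subgroup.mem_subgroupOf.2 ?_)
      have e1 : ((x⁻¹ * y : N) : G) = v := by rw [hx, hy]; simp
      rw [e1]; exact hv)
  refine ⟨n, Subgroup.mem_subgroupOf.1 hn, ?_⟩
  have h1 := congrArg (Subtype.val) e
  rw [mul_one] at h1
  exact h1

/-- the number of `p`-regular elements in a coset -/
lemma card_reg {p : ℕ} [Fact p.Prime] {V : Subgroup G} (hV : IsPGroup p V) {s : G} (hs : s ∈ Subgroup.normalizer (V : Set G))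
    (hsp : ¬ p ∣ orderOf s) :
    Nat.card {v : V // ¬ p ∣ orderOf (s * (v : G))} * Nat.card ((Subgroup.centralizer ({s} : Set G)).subgroupOf V) = Nat.card V := by
  set K : Subgroup V := (Subgroup.centralizer ({s} : Set G)).subgroupOf V with hK
  have hmem : ∀ n : V, s⁻¹ * n * s * (n : G)⁻¹ ∈ V := by
    intro n
    have h1 := (Subgroup.mem_normalizer_iff.1 (Subgroup.inv_mem _ hs) (n : G)).1 n.2
    rw [inv_inv] at h1
    exact V.mul_mem h1 (V.inv_mem n.2)
  have hval : ∀ n : V, s * (s⁻¹ * n * s * (n : G)⁻¹) = n * s * (n : G)⁻¹ := by intro n; group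
  have hmemK : ∀ n : V, n ∈ K ↔ s * n = n * s := by
    intro n
    rw [hK, Subgroup.mem_subgroupOf, Subgroup.mem_centralizer_singleton_iff]
    exact eq_comm
  have hf : ∀ n m : V, s⁻¹ * n * s * (n : G)⁻¹ = s⁻¹ * m * s * (m : G)⁻¹ ↔ n⁻¹ * m ∈ K := by
    intro n m
    rw [hmemK]
    push_cast
    constructor
    · intro h
      have h1 : (n : G) * s * (n : G)⁻¹ = m * s * (m : G)⁻¹ := by
        rw [← hval, ← hval, h]
      calc s * ((n : G)⁻¹ * m) = (n : G)⁻¹ * (n * s * (n : G)⁻¹) * m := by group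
        _ = (n : G)⁻¹ * (m * s * (m : G)⁻¹) * m := by rw [h1]
        _ = (n : G)⁻¹ * m * s := by group
    · intro h
      have h1 : (n : G) * s * (n : G)⁻¹ = m * s * (m : G)⁻¹ := by
        calc (n : G) * s * (n : G)⁻¹ = n * (s * ((n : G)⁻¹ * m)) * (m : G)⁻¹ := by group
          _ = n * ((n : G)⁻¹ * m * s) * (m : G)⁻¹ := by rw [h]
          _ = m * s * (m : G)⁻¹ := by group
      have h2 : s * (s⁻¹ * n * s * (n : G)⁻¹) = s * (s⁻¹ * m * s * (m : G)⁻¹) := by rw [hval, hval, h1]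
      exact mul_left_cancel h2
  have hreg : ∀ n : V, ¬ p ∣ orderOf (s * (s⁻¹ * n * s * (n : G)⁻¹)) := by
    intro n
    rw [hval]
    have : (n : G) * s * (n : G)⁻¹ = MulAut.conj (n : G) s := rfl
    have h2 : orderOf (MulAut.conj (n : G) s) = orderOf s :=
      orderOf_injective (MulAut.conj (n : G)).toMonoidHom (MulAut.conj (n : G)).injective s
    rw [this, h2]
    exact hsp
  have h1 : Nat.card (V ⧸ K) = Nat.card {v : V // ¬ p ∣ orderOf (s * (v : G))} := by
    refine Nat.card_congr (Equiv.ofBijective (fun q => ⟨⟨s⁻¹ * (Quotient.out q : V) * s * ((Quotient.out q : V) : G)⁻¹, hmem _⟩, hreg _⟩) ⟨?_, ?_⟩)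
    · intro q q' h
      have h2 := congrArg (fun z => ((z.1 : V) : G)) h
      have h3 := (hf _ _).1 h2
      rw [← QuotientGroup.out_eq' q, ← QuotientGroup.out_eq' q']
      exact QuotientGroup.eq.2 h3
    · rintro ⟨v, hv⟩
      obtain ⟨n, hn, e⟩ := conj_in_coset hV hs hsp v.2 hv
      refine ⟨((⟨n, hn⟩ : V) : V ⧸ K), ?_⟩
      apply Subtype.ext
      apply Subtype.ext
      show s⁻¹ * ((Quotient.out ((⟨n, hn⟩ : V) : V ⧸ K) : V) : G) * s * ((Quotient.out ((⟨n, hn⟩ : V) : V ⧸ K) : V) : G)⁻¹ = v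
      have h3 : (Quotient.out ((⟨n, hn⟩ : V) : V ⧸ K) : V)⁻¹ * ⟨n, hn⟩ ∈ K :=
        QuotientGroup.eq.1 (QuotientGroup.out_eq' ((⟨n, hn⟩ : V) : V ⧸ K))
      rw [(hf _ _).2 h3]
      have h4 := hval ⟨n, hn⟩
      have h5 : s * (s⁻¹ * n * s * n⁻¹) = s * v := by rw [← e]; exact h4
      exact mul_left_cancel h5
  rw [← h1]
  exact (Subgroup.card_eq_card_quotient_mul_card_subgroup K).symm

/-- divisibility for characters of `p`-defect zero -/
lemma defect_dvd [Fintype G] {p : ℕ} (hp : p.Prime) {χ : G → ℂ} (hχ : Cfsg.IsIrrCharacter G χ)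
    (h1 : χ 1 = ((p ^ (Nat.card G).factorization p : ℕ) : ℂ)) {s : G} {b : ℕ}
    (hs : χ s = ((p ^ b : ℕ) : ℂ) ∨ χ s = - ((p ^ b : ℕ) : ℂ)) :
    (Nat.card (Subgroup.centralizer ({s} : Set G))).factorization p ≤ b := by
  have h2 := Cfsg.Agent.Lib.CharInt.isIntegral_centralChar hχ s
  set C := Subgroup.centralizer ({s} : Set G) with hC
  have h3 : IsIntegral ℤ (((C.index * p ^ b : ℕ) : ℂ) / ((p ^ (Nat.card G).factorization p : ℕ) : ℂ)) := by
    rw [h1] at h2
    rcases hs with h | h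
    · rw [h] at h2
      push_cast at h2 ⊢
      exact h2
    · rw [h] at h2
      have h4 := h2.neg
      have e : -((C.index : ℂ) * -((p ^ b : ℕ) : ℂ) / ((p ^ (Nat.card G).factorization p : ℕ) : ℂ)) =
          ((C.index * p ^ b : ℕ) : ℂ) / ((p ^ (Nat.card G).factorization p : ℕ) : ℂ) := by
        push_cast; ring
      rw [e] at h4
      exact h4
  have h4 := Cfsg.Agent.Lib.CharInt.nat_dvd_of_isIntegral (pow_ne_zero _ hp.ne_zero) h3
  have hne : C.index ≠ 0 := Subgroup.index_ne_zero_of_finite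
  have hcne : Nat.card C ≠ 0 := Nat.card_pos.ne'
  have h5 := (hp.pow_dvd_iff_le_factorization (mul_ne_zero hne (pow_ne_zero _ hp.ne_zero))).1 h4
  rw [Nat.factorization_mul hne (pow_ne_zero _ hp.ne_zero), Finsupp.add_apply, hp.factorization_pow, Finsupp.single_eq_same,
    ← C.index_mul_card, Nat.factorization_mul hne hcne, Finsupp.add_apply] at h5
  omega

end abstract

variable {D : ChevalleyDatum} {F : Type*} [Field F] {Q : ChevO D F}

open Classical in
/-- truncation -/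
theorem trunc [Finite F] (hS : SuppD Q.C) (I : Set ℕ) [Fintype ↥(VG Q I)] {s : ↥(D.group F)} (hs : s ∈ ParG D F I)
    (hmin : ∀ i : Fin D.rank, (i : ℕ) ∈ I → ∀ x ∈ ParG D F I, x * s * x⁻¹ ∉ ParG D F (I \ {(i : ℕ)})) :
    ∃ k : ℕ, ∑ v : ↥(VG Q I), D.steinbergCharacter F (s * (v : ↥(D.group F))) = (-1 : ℂ) ^ k * Nat.card ↥(VG Q I) := by
  obtain ⟨w, hw, huniq⟩ := exists_isStar hS I
  refine ⟨(IW Q I w).card, ?_⟩
  have h1 : ∀ J : Finset ℕ, ∑ v : ↥(VG Q I), Cfsg.fixedPointCharacter (D.parabolicIn F J) (s * (v : ↥(D.group F))) =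
      (Nat.card ↥(VG Q I) : ℂ) * ∑ w ∈ Finset.univ.filter (fun w : Equiv.Perm (Fin D.nroots) => w ∈ WG Q.C2 ∧ MinC Q I w⁻¹),
        (if MinC Q (J : Set ℕ) w ∧ CW Q I (J : Set ℕ) w then (1 : ℂ) else 0) := by
    intro J
    have h2 := card_pairs (V := ↥(VG Q I)) (E := ↥(D.group F) ⧸ ParG D F (J : Set ℕ)) (fun e => s⁻¹ • e) (by
      intro v e
      have h3 : s⁻¹ * (v : ↥(D.group F)) * s ∈ VG Q I := by
        have h4 := (Subgroup.mem_normalizer_iff.1 (par_norm_VG hS I (Subgroup.inv_mem _ hs)) _).1 v.2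
        rwa [inv_inv] at h4
      refine ⟨⟨_, h3⟩, ?_⟩
      show (s⁻¹ * (v : ↥(D.group F)) * s) • s⁻¹ • e = s⁻¹ • (v : ↥(D.group F)) • e
      rw [smul_smul, smul_smul]
      congr 1
      group)
    rw [fixed_orbits hS I (J : Set ℕ) hs hmin] at h2
    have h4 : (Nat.card {w : Equiv.Perm (Fin D.nroots) // w ∈ WG Q.C2 ∧ MinC Q (J : Set ℕ) w ∧ MinC Q I w⁻¹ ∧ CW Q I (J : Set ℕ) w} : ℂ) =
        ∑ w ∈ Finset.univ.filter (fun w : Equiv.Perm (Fin D.nroots) => w ∈ WG Q.C2 ∧ MinC Q I w⁻¹),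
          (if MinC Q (J : Set ℕ) w ∧ CW Q I (J : Set ℕ) w then (1 : ℂ) else 0) := by
      rw [Finset.sum_ite, Finset.sum_const_zero, add_zero, Finset.sum_const, nsmul_eq_mul, mul_one, Finset.filter_filter,
        Nat.card_eq_fintype_card, Fintype.card_subtype]
      congr 2
      ext w
      simp only [Finset.mem_filter, Finset.mem_univ, true_and]
      tauto
    rw [← h4, ← Nat.cast_mul, ← h2]
    have h5 : ∀ v : ↥(VG Q I), Cfsg.fixedPointCharacter (D.parabolicIn F J) (s * (v : ↥(D.group F))) =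
        (Nat.card {e : ↥(D.group F) ⧸ ParG D F (J : Set ℕ) // v • e = s⁻¹ • e} : ℂ) := by
      intro v
      have h6 : Cfsg.fixedPointCharacter (D.parabolicIn F J) (s * (v : ↥(D.group F))) =
        (Nat.card (MulAction.fixedBy (↥(D.group F) ⧸ ParG D F (J : Set ℕ)) (s * (v : ↥(D.group F)))) : ℂ) := rfl
      rw [h6]
      congr 1
      refine Nat.card_congr (Equiv.subtypeEquivRight (fun e => ?_))
      rw [MulAction.mem_fixedBy, mul_smul]
      have h7 : v • e = (v : ↥(D.group F)) • e := rfl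
      rw [h7, eq_inv_smul_iff]
    rw [Finset.sum_congr rfl (fun v _ => h5 v), ← Nat.cast_sum]
    congr 1
    rw [← Nat.card_sigma]
    exact Nat.card_congr ⟨fun q => ⟨(q.1, q.2.1), q.2.2⟩, fun p => ⟨p.1.1, p.1.2, p.2⟩, fun _ => rfl, fun _ => rfl⟩
  have h2 : ∑ v : ↥(VG Q I), D.steinbergCharacter F (s * (v : ↥(D.group F))) =
      ∑ J ∈ (Finset.range D.rank).powerset, (-1 : ℂ) ^ J.card *
        ∑ v : ↥(VG Q I), Cfsg.fixedPointCharacter (D.parabolicIn F J) (s * (v : ↥(D.group F))) := by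
    have h3 : ∀ v : ↥(VG Q I), D.steinbergCharacter F (s * (v : ↥(D.group F))) = ∑ J ∈ (Finset.range D.rank).powerset,
      (-1 : ℂ) ^ J.card * Cfsg.fixedPointCharacter (D.parabolicIn F J) (s * (v : ↥(D.group F))) := fun v => rfl
    rw [Finset.sum_congr rfl (fun v _ => h3 v), Finset.sum_comm]
    refine Finset.sum_congr rfl (fun J _ => ?_)
    rw [Finset.mul_sum]
  rw [h2, Finset.sum_congr rfl (fun J _ => by rw [h1 J])]
  have h3 : ∀ J ∈ (Finset.range D.rank).powerset, (-1 : ℂ) ^ J.card * ((Nat.card ↥(VG Q I) : ℂ) *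
      ∑ w ∈ Finset.univ.filter (fun w : Equiv.Perm (Fin D.nroots) => w ∈ WG Q.C2 ∧ MinC Q I w⁻¹),
        (if MinC Q (J : Set ℕ) w ∧ CW Q I (J : Set ℕ) w then (1 : ℂ) else 0)) = (Nat.card ↥(VG Q I) : ℂ) *
      ∑ w ∈ Finset.univ.filter (fun w : Equiv.Perm (Fin D.nroots) => w ∈ WG Q.C2 ∧ MinC Q I w⁻¹),
        ((-1 : ℂ) ^ J.card * (if MinC Q (J : Set ℕ) w ∧ CW Q I (J : Set ℕ) w then (1 : ℂ) else 0)) := by
    intro J _
    rw [← Finset.mul_sum]; ring
  rw [Finset.sum_congr rfl h3, ← Finset.mul_sum, Finset.sum_comm]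
  have h4 : ∀ w' ∈ Finset.univ.filter (fun w : Equiv.Perm (Fin D.nroots) => w ∈ WG Q.C2 ∧ MinC Q I w⁻¹),
      ∑ J ∈ (Finset.range D.rank).powerset, ((-1 : ℂ) ^ J.card * (if MinC Q (J : Set ℕ) w' ∧ CW Q I (J : Set ℕ) w' then (1 : ℂ) else 0)) =
      if w' = w then (-1 : ℂ) ^ (IW Q I w).card else 0 := by
    intro w' hw'
    obtain ⟨-, h5, h6⟩ := Finset.mem_filter.1 hw'
    have h7 := alt_cond hS I h5 h6
    rw [h7]
    by_cases h8 : w' = w
    · rw [if_pos h8, h8, if_pos hw]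
    · rw [if_neg h8, if_neg (fun h => h8 (huniq _ h))]
  rw [Finset.sum_congr rfl h4, Finset.sum_ite_eq', if_pos (Finset.mem_filter.2 ⟨Finset.mem_univ _, hw.1, hw.2.1⟩), mul_comm]

/-- the Steinberg character on a semisimple element of `P_I` not in a smaller parabolic subgroup -/
theorem st_ss [Fintype F] (hS : SuppD Q.C) (p : ℕ) [Fact p.Prime] [CharP F p] (I : Set ℕ) {s : ↥(D.group F)} (hs : s ∈ ParG D F I)
    (hmin : ∀ i : Fin D.rank, (i : ℕ) ∈ I → ∀ x ∈ ParG D F I, x * s * x⁻¹ ∉ ParG D F (I \ {(i : ℕ)}))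
    (hsp : ¬ p ∣ orderOf s) :
    D.steinbergCharacter F s = ((p ^ (Nat.card ↥(Subgroup.centralizer ({s} : Set ↥(D.group F)))).factorization p : ℕ) : ℂ) ∨
      D.steinbergCharacter F s = -((p ^ (Nat.card ↥(Subgroup.centralizer ({s} : Set ↥(D.group F)))).factorization p : ℕ) : ℂ) := by
  classical
  have hp : p.Prime := Fact.out
  have : Fintype ↥(D.group F) := Fintype.ofFinite _
  have : Fintype ↥(VG Q I) := Fintype.ofFinite _
  have hsN := par_norm_VG hS I hs
  have hVp : IsPGroup p ↥(VG Q I) := by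
    obtain ⟨n, -, hn⟩ := FiniteField.card F p
    have hpos : RJ D I ⊆ Pos D := fun r hr => hr.1
    have h1 : Nat.card ↥(VG Q I) ∣ Nat.card (XS Q (Pos D)) := by
      rw [Nat.card_congr (Subgroup.subgroupOfEquivOfLe ((XS_mono Q hpos).trans ((U_le_borel Q).trans (borel_le_group Q)))).toEquiv]
      exact Subgroup.card_dvd_of_le (XS_mono Q hpos)
    rw [card_U Q, hn, ← pow_mul] at h1
    obtain ⟨k, -, hk⟩ := (Nat.dvd_prime_pow hp).1 h1
    exact IsPGroup.of_card hk
  obtain ⟨k, hk⟩ := trunc hS I hs hmin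
  have hcard := card_reg hVp hsN hsp
  set K := (Subgroup.centralizer ({s} : Set ↥(D.group F))).subgroupOf (VG Q I) with hK
  have hclass : Cfsg.IsClassFunction ↥(D.group F) (D.steinbergCharacter F) :=
    Cfsg.Agent.Lib.CharBasic.isChar_classFn (Cfsg.Agent.Lib.CharBasic.isChar_of_irr (st_irr (Q := Q) hS))
  set m := Nat.card {v : ↥(VG Q I) // ¬ p ∣ orderOf (s * (v : ↥(D.group F)))} with hm
  have hsum : ∑ v : ↥(VG Q I), D.steinbergCharacter F (s * (v : ↥(D.group F))) = (m : ℂ) * D.steinbergCharacter F s := by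
    have h1 : ∀ v : ↥(VG Q I), D.steinbergCharacter F (s * (v : ↥(D.group F))) =
        if ¬ p ∣ orderOf (s * (v : ↥(D.group F))) then D.steinbergCharacter F s else 0 := by
      intro v
      by_cases hv : p ∣ orderOf (s * (v : ↥(D.group F)))
      · rw [if_neg (not_not.2 hv)]
        exact st_vanish (Q := Q) hS p hv
      · rw [if_pos hv]
        obtain ⟨n, hn, e⟩ := conj_in_coset hVp hsN hsp v.2 hv
        rw [← e]
        exact hclass _ _
    rw [Finset.sum_congr rfl (fun v _ => h1 v), Finset.sum_ite, Finset.sum_const_zero, add_zero, Finset.sum_const, nsmul_eq_mul,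
      hm, Nat.card_eq_fintype_card, Fintype.card_subtype]
  have hVne : Nat.card ↥(VG Q I) ≠ 0 := Nat.card_pos.ne'
  have hmne : (m : ℂ) ≠ 0 := by
    intro h
    have h' : m = 0 := by exact_mod_cast h
    rw [h', zero_mul] at hcard
    exact hVne hcard.symm
  obtain ⟨b, hb⟩ := IsPGroup.iff_card.1 (hVp.to_subgroup K)
  have hval : D.steinbergCharacter F s = (-1 : ℂ) ^ k * ((p ^ b : ℕ) : ℂ) := by
    have h1 := hsum.symm.trans hk
    rw [← hcard, hb] at h1
    apply mul_left_cancel₀ hmne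
    rw [h1]; push_cast; ring
  have hval' : D.steinbergCharacter F s = ((p ^ b : ℕ) : ℂ) ∨ D.steinbergCharacter F s = - ((p ^ b : ℕ) : ℂ) := by
    rcases neg_one_pow_eq_or ℂ k with h | h
    · left; rw [hval, h, one_mul]
    · right; rw [hval, h, neg_one_mul]
  have hle := defect_dvd hp (st_irr (Q := Q) hS) (by rw [st_one hS, ← Nat.cast_pow, card_U_fact (Q := Q) p]) hval'
  have hge : b ≤ (Nat.card ↥(Subgroup.centralizer ({s} : Set ↥(D.group F)))).factorization p := by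
    have h1 : Nat.card K ∣ Nat.card ↥(Subgroup.centralizer ({s} : Set ↥(D.group F))) := by
      have h2 : Nat.card K = Nat.card (K.map (VG Q I).subtype) :=
        (Subgroup.card_map_of_injective (VG Q I).subtype_injective).symm
      rw [h2]
      apply Subgroup.card_dvd_of_le
      rintro x ⟨y, hy, rfl⟩
      exact Subgroup.mem_subgroupOf.1 hy
    rw [hb] at h1
    exact (hp.pow_dvd_iff_le_factorization Nat.card_pos.ne').1 h1
  rw [le_antisymm hle hge]
  exact hval'

lemma card_cent_conj {G : Type*} [Group G] (x s : G) :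
    Nat.card ↥(Subgroup.centralizer ({x * s * x⁻¹} : Set G)) = Nat.card ↥(Subgroup.centralizer ({s} : Set G)) := by
  have h1 : Subgroup.centralizer ({x * s * x⁻¹} : Set G) = (Subgroup.centralizer ({s} : Set G)).map (MulAut.conj x).toMonoidHom := by
    ext y
    rw [Subgroup.mem_centralizer_singleton_iff, Subgroup.mem_map_equiv, Subgroup.mem_centralizer_singleton_iff]
    rw [show (MulAut.conj x).symm y = x⁻¹ * y * x from by rw [MulAut.conj_symm_apply]]
    constructor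
    · intro h
      calc x⁻¹ * y * x * s = x⁻¹ * (y * (x * s * x⁻¹)) * x := by group
        _ = x⁻¹ * ((x * s * x⁻¹) * y) * x := by rw [h]
        _ = s * (x⁻¹ * y * x) := by group
    · intro h
      calc y * (x * s * x⁻¹) = x * ((x⁻¹ * y * x) * s) * x⁻¹ := by group
        _ = x * (s * (x⁻¹ * y * x)) * x⁻¹ := by rw [h]
        _ = x * s * x⁻¹ * y := by group
  rw [h1, Subgroup.card_map_of_injective (MulAut.conj x).injective]

/-- the value of the Steinberg character at semisimple elements -/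
theorem st_semisimple [Fintype F] (hS : SuppD Q.C) (p : ℕ) [Fact p.Prime] [CharP F p] {s : ↥(D.group F)}
    (hsp : ¬ p ∣ orderOf s) :
    D.steinbergCharacter F s = ((p ^ (Nat.card ↥(Subgroup.centralizer ({s} : Set ↥(D.group F)))).factorization p : ℕ) : ℂ) ∨
      D.steinbergCharacter F s = -((p ^ (Nat.card ↥(Subgroup.centralizer ({s} : Set ↥(D.group F)))).factorization p : ℕ) : ℂ) := by
  classical
  have : Fintype ↥(D.group F) := Fintype.ofFinite _
  -- a minimal parabolic subgroup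
  have hex : ∃ k, ∃ I : Finset ℕ, I.card = k ∧ ∃ x : ↥(D.group F), x * s * x⁻¹ ∈ ParG D F (I : Set ℕ) := by
    refine ⟨_, Finset.range D.rank, rfl, 1, ?_⟩
    obtain ⟨w, -, hc⟩ := cell_exists (Q := Q) (1 * s * 1⁻¹ : ↥(D.group F)).2
    refine Subgroup.mem_subgroupOf.2 ((cell_par hS hc).2 (fun r hr => ?_))
    exact absurd ((mem_PhiJ hS).2 ⟨r.2, fun i hi hi' => absurd (by simpa using hi) hi'⟩) hr.2
  obtain ⟨I, hI, x, hx⟩ := Nat.find_spec hex
  have hmin : ∀ i : Fin D.rank, (i : ℕ) ∈ (I : Set ℕ) → ∀ y ∈ ParG D F (I : Set ℕ), y * (x * s * x⁻¹) * y⁻¹ ∉ ParG D F ((I : Set ℕ) \ {(i : ℕ)}) := by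
    intro i hi y _ h
    have h1 : (I.erase i).card < Nat.find hex := by
      rw [← hI]; exact Finset.card_erase_lt_of_mem hi
    apply Nat.find_min hex h1
    refine ⟨I.erase i, rfl, y * x, ?_⟩
    rw [Finset.coe_erase]
    have e : y * x * s * (y * x)⁻¹ = y * (x * s * x⁻¹) * y⁻¹ := by group
    rw [e]; exact h
  have hord : ¬ p ∣ orderOf (x * s * x⁻¹) := by
    have h2 : orderOf (x * s * x⁻¹) = orderOf s :=
      orderOf_injective (MulAut.conj x).toMonoidHom (MulAut.conj x).injective s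
    rw [h2]; exact hsp
  have h1 := st_ss hS p (I : Set ℕ) hx hmin hord
  have hclass : Cfsg.IsClassFunction ↥(D.group F) (D.steinbergCharacter F) :=
    Cfsg.Agent.Lib.CharBasic.isChar_classFn (Cfsg.Agent.Lib.CharBasic.isChar_of_irr (st_irr (Q := Q) hS))
  rw [card_cent_conj, hclass] at h1
  exact h1

end Cfsg.Agent.Lib.ChevAlg
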