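import Cfsg.Agent.Lib.ChevCell10

/-!
# Steinberg's count of unipotent elements
-/

set_option autoImplicit false

namespace Cfsg.Agent.Lib.ChevAlg

open Cfsg.Lie Cfsg.Agent.Lib.ChevTab Matrix Pointwise

variable {D : ChevalleyDatum} {F : Type*} [Field F] {Q : ChevO D F}

open Classical in
variable (Q) in
/-- the simple roots becoming negative -/
noncomputable def BW (w : Equiv.Perm (Fin D.nroots)) : Finset ℕ :=
  (Finset.range D.rank).filter (fun i => ∀ h : i < D.rank, ¬ ps (w (si Q i h)))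

lemma maxC_iff {J : Finset ℕ} (hJ : J ⊆ Finset.range D.rank) (w : Equiv.Perm (Fin D.nroots)) :
    MaxC Q (J : Set ℕ) w ↔ J ⊆ BW Q w := by
  classical
  constructor
  · intro h i hi
    refine Finset.mem_filter.2 ⟨hJ hi, fun h1 => h ⟨i, h1⟩ hi⟩
  · intro h i hi
    exact (Finset.mem_filter.1 (h hi)).2 i.2

lemma BW_sub (w : Equiv.Perm (Fin D.nroots)) : BW Q w ⊆ Finset.range D.rank := by
  classical
  exact Finset.filter_subset _ _

lemma BW_empty_iff {w : Equiv.Perm (Fin D.nroots)} (hw : w ∈ WG Q.C2) : BW Q w = ∅ ↔ w = 1 := by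
  classical
  constructor
  · intro h
    apply eq_one_of_ps Q hw
    apply pos_of_simple Q (WG_waut Q hw)
    intro i hi
    by_contra hneg
    have h1 : i ∈ BW Q w := Finset.mem_filter.2 ⟨Finset.mem_range.2 hi, fun _ => hneg⟩
    rw [h] at h1
    exact absurd h1 (Finset.notMem_empty _)
  · rintro rfl
    apply Finset.eq_empty_of_forall_notMem
    intro i hi
    obtain ⟨h1, h2⟩ := Finset.mem_filter.1 hi
    exact h2 (Finset.mem_range.1 h1) (ps_si Q (Finset.mem_range.1 h1))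

open Classical in
lemma alt_sum_max (w : Equiv.Perm (Fin D.nroots)) :
    ∑ J ∈ (Finset.range D.rank).powerset, ((-1 : ℂ) ^ J.card * (if MaxC Q (J : Set ℕ) w then 1 else 0)) =
      if BW Q w = ∅ then 1 else 0 := by
  have h1 : ∑ J ∈ (Finset.range D.rank).powerset, ((-1 : ℂ) ^ J.card * (if MaxC Q (J : Set ℕ) w then 1 else 0)) =
      ∑ J ∈ (BW Q w).powerset, (-1 : ℂ) ^ J.card := by
    symm
    rw [← Finset.sum_subset (Finset.powerset_mono.2 (BW_sub (Q := Q) w))]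
    · refine Finset.sum_congr rfl (fun J hJ => ?_)
      rw [if_pos ((maxC_iff ((Finset.mem_powerset.1 hJ).trans (BW_sub w)) w).2 (Finset.mem_powerset.1 hJ)), mul_one]
    · intro J hJ hJ'
      rw [if_neg, mul_zero]
      rw [maxC_iff (Finset.mem_powerset.1 hJ)]
      exact fun h => hJ' (Finset.mem_powerset.2 h)
  rw [h1]
  have h2 := Finset.sum_powerset_neg_one_pow_card (x := BW Q w)
  have h3 : ((∑ J ∈ (BW Q w).powerset, (-1 : ℤ) ^ J.card : ℤ) : ℂ) = ((if BW Q w = ∅ then 1 else 0 : ℤ) : ℂ) := by rw [h2]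
  push_cast at h3
  exact h3

/-- positive roots in `Φ_J` -/
def PP (D : ChevalleyDatum) (J : Set ℕ) : Set ℕ := {r | r ∈ Pos D ∧ r ∈ PhiJ D J}

lemma pos_eq_PP {D : ChevalleyDatum} (J : Set ℕ) : Pos D = PP D J ∪ RJ D J := by
  ext r
  constructor
  · intro hr
    by_cases h1 : r ∈ PhiJ D J
    · exact Or.inl ⟨hr, h1⟩
    · exact Or.inr ⟨hr, h1⟩
  · rintro (h1 | h1)
    · exact h1.1
    · exact h1.1

lemma MaxC.inv_eq (hS : SuppD Q.C) {J : Set ℕ} {v : Equiv.Perm (Fin D.nroots)} (hv : v ∈ WG Q.C2) (hP : WP D J v) (hM : MaxC Q J v) :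
    Inv v = PP D J := by
  ext r
  constructor
  · rintro ⟨h1, h2⟩
    refine ⟨h1, ?_⟩
    by_contra h3
    have h4 := hP ⟨r, h1.2⟩ ⟨h1, h3⟩
    exact h2 h1.2 h4.1.1
  · rintro ⟨h1, h2⟩
    exact ⟨h1, fun h => hM.phi hS hv (r := ⟨r, h⟩) h1.1 h2⟩

/-- `|U_J| |XS (Φ_J^+)| = |U|` -/
lemma card_PP [Fintype F] (hS : SuppD Q.C) (J : Set ℕ) : Nat.card (XS Q (PP D J)) * Nat.card (XS Q (RJ D J)) = Nat.card (XS Q (Pos D)) := by
  classical
  obtain ⟨v, hv, hP, hM⟩ := exists_long hS J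
  have hcl : Clos Q.C (PP D J) := by
    rw [← hM.inv_eq hS hv hP]; exact clos_inv Q (WG_waut Q hv)
  rw [card_XS_set Q (fun r hr => hr.1) hcl, card_XS_set Q (nb_RJ hS J).1 (nb_RJ hS J).clos, card_XS_set Q le_rfl (clos_pos Q),
    ← pow_add, length_lst, length_lst, length_lst]
  congr 1
  rw [← Finset.card_union_of_disjoint]
  · congr 1
    ext s
    rw [Finset.mem_union, Finset.mem_filter, Finset.mem_filter, Finset.mem_filter, pos_eq_PP J]
    simp only [Finset.mem_univ, true_and]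
    rfl
  · rw [Finset.disjoint_left]
    intro s h1 h2
    exact (Finset.mem_filter.1 h2).2.2 (Finset.mem_filter.1 h1).2.2

lemma max_unique (hS : SuppD Q.C) {J : Set ℕ} {v v' : Equiv.Perm (Fin D.nroots)} (hv : v ∈ WG Q.C2) (hP : WP D J v) (hM : MaxC Q J v)
    (hv' : v' ∈ WG Q.C2) (hP' : WP D J v') (hM' : MaxC Q J v') : v' = v := by
  have hvv := MaxC.sq hS hv hP hM
  have hva := WG_waut Q hv
  have hva' := WG_waut Q hv'
  have h1 : v * v' = 1 := by
    by_contra hne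
    obtain ⟨i, hi, hneg⟩ := (hP.mul hP').exists_neg hS ((WG Q.C2).mul_mem hv hv') hne
    apply hneg
    have h2 : ((v' (si Q i i.2) : Fin D.nroots) : ℕ) ∈ PhiJ D J := (hP'.phi hS hva' _).2 (si_mem_phi Q i.2 hi)
    have h3 : ((Fin.rev (v' (si Q i i.2)) : Fin D.nroots) : ℕ) ∈ PhiJ D J := by
      rw [fin_rev_val]; exact phiJ_neg hS h2
    have h4 := hM.phi hS hv ((ps_rev Q).2 (hM' i hi)) h3
    rw [hva.rev, ps_rev Q, not_not] at h4
    exact h4
  calc v' = v * v * v' := by rw [hvv, one_mul]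
    _ = v := by rw [mul_assoc, h1, mul_one]

/-- chambers of a residue opposite to the projection of the base chamber -/
theorem card_opp (hS : SuppD Q.C) (J : Set ℕ) (e : ↥(D.group F) ⧸ ParG D F J) :
    Nat.card {c : ↥(D.group F) ⧸ BG D F // toP D F J c = e ∧ MaxC Q J (dlt Q c)} = Nat.card (XS Q (PP D J)) := by
  obtain ⟨v, hv, hP, hM⟩ := exists_long hS J
  obtain ⟨n, hn, y, hm⟩ := exists_monrep Q hv
  obtain ⟨c0, hc0, rfl⟩ := toP_surj (Q := Q) J e
  obtain ⟨x, rfl⟩ := QuotientGroup.mk_surjective c0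
  have hcx := cell_dlt (Q := Q) x
  set w := dlt Q ((x : ↥(D.group F)) : ↥(D.group F) ⧸ BG D F) with hw
  have hwW : w ∈ WG Q.C2 := dlt_mem _
  have hvv := MaxC.sq hS hv hP hM
  have hvinv : v⁻¹ = v := inv_eq_of_mul_eq_one_left hvv
  have hPPG : ∀ u : ↥(XS Q (PP D J)), (u : GL D.Idx F) ∈ D.borelSubgroup F := fun u =>
    U_le_borel Q (XS_mono Q (fun r hr => hr.1) u.2)
  have hnP : (n : GL D.Idx F) ∈ D.parabolicSubgroup F J := (cell_par hS (cell_of_mono hn hm)).2 hP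
  symm
  refine Nat.card_congr (Equiv.ofBijective (fun u => ⟨((x * ⟨u.1, borel_le_group Q (hPPG u)⟩ * n : ↥(D.group F)) : ↥(D.group F) ⧸ BG D F),
    ?_, ?_⟩) ⟨?_, ?_⟩)
  · rw [toP_mk, toP_mk]
    refine Eq.symm (mkP_eq.2 ?_)
    have e1 : ((x : ↥(D.group F)) : GL D.Idx F)⁻¹ * ((x * ⟨u.1, borel_le_group Q (hPPG u)⟩ * n : ↥(D.group F)) : GL D.Idx F) = u.1 * n := by
      push_cast; group
    rw [e1]
    exact Subgroup.mul_mem _ (borel_le_par J (hPPG u)) hnP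
  · have h1 : Cell Q v ((u.1 : GL D.Idx F) * n) := (cell_of_mono hn hm).left (hPPG u)
    have h2 := cell_mul hS hcx hc0 h1 hP
    have h3 : dlt Q ((x * ⟨u.1, borel_le_group Q (hPPG u)⟩ * n : ↥(D.group F)) : ↥(D.group F) ⧸ BG D F) = w * v := by
      apply dlt_eq
      rw [← mul_assoc] at h2
      exact h2
    rw [h3]
    intro i hi
    rw [Equiv.Perm.mul_apply]
    have h4 := hM i hi
    have h5 : ((v (si Q i i.2) : Fin D.nroots) : ℕ) ∈ PhiJ D J := (hP.phi hS (WG_waut Q hv) _).2 (si_mem_phi Q i.2 hi)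
    have h6 : ((Fin.rev (v (si Q i i.2)) : Fin D.nroots) : ℕ) ∈ PhiJ D J := by
      rw [fin_rev_val]; exact phiJ_neg hS h5
    have h7 := hc0.phi hS hwW ((ps_rev Q).2 h4) h6
    rw [(WG_waut Q hwW).rev] at h7
    exact (ps_rev Q).1 h7
  · intro u u' h
    have h1 := congrArg Subtype.val h
    simp only at h1
    rw [QuotientGroup.eq, Subgroup.mem_subgroupOf] at h1
    have e1 : (((x * ⟨u.1, borel_le_group Q (hPPG u)⟩ * n)⁻¹ * (x * ⟨u'.1, borel_le_group Q (hPPG u')⟩ * n) : ↥(D.group F)) : GL D.Idx F) =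
        (n : GL D.Idx F)⁻¹ * (u.1⁻¹ * u'.1) * (n : GL D.Idx F)⁻¹⁻¹ := by
      push_cast; group
    rw [e1] at h1
    have h2 : (n : GL D.Idx F)⁻¹ * (u.1⁻¹ * u'.1) * (n : GL D.Idx F)⁻¹⁻¹ ∈ XS Q (Neg D) := by
      apply Mono.conj_inv hm.inv
      rw [hvinv, hM.inv_eq hS hv hP]
      exact Subgroup.mul_mem _ (Subgroup.inv_mem _ u.2) u'.2
    have h3 := borel_inf_V Q h1 h2
    apply Subtype.ext
    have h4 : u.1⁻¹ * u'.1 = 1 := by
      have e2 : u.1⁻¹ * u'.1 = (n : GL D.Idx F) * ((n : GL D.Idx F)⁻¹ * (u.1⁻¹ * u'.1) * (n : GL D.Idx F)⁻¹⁻¹) * (n : GL D.Idx F)⁻¹ := by group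
      rw [e2, h3]; group
    exact inv_mul_eq_one.1 h4
  · rintro ⟨c, hc1, hc2⟩
    obtain ⟨z, rfl⟩ := QuotientGroup.mk_surjective c
    rw [toP_mk, toP_mk] at hc1
    have h1 := mkP_eq.1 hc1.symm
    -- z = x p
    set p : GL D.Idx F := (x : GL D.Idx F)⁻¹ * z with hp
    have hpG := par_le_group hS J h1
    obtain ⟨v', hv', hcp⟩ := cell_exists (Q := Q) hpG
    have hP' := (cell_par hS hcp).1 h1
    have h2 := cell_mul hS hcx hc0 hcp hP'
    have e1 : (x : GL D.Idx F) * p = z := by rw [hp]; group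
    rw [e1] at h2
    have hd := dlt_eq h2
    rw [hd] at hc2
    have hM' : MaxC Q J v' := by
      intro i hi hps
      have h5 : ((v' (si Q i i.2) : Fin D.nroots) : ℕ) ∈ PhiJ D J := (hP'.phi hS (WG_waut Q hv') _).2 (si_mem_phi Q i.2 hi)
      have h7 := hc0.phi hS hwW hps h5
      exact hc2 i hi h7
    have hvv' := max_unique hS hv hP hM hv' hP' hM'
    rw [hvv'] at hcp
    obtain ⟨b, hb, m, hmm, ⟨um, hum⟩, b', hb', e2⟩ := hcp
    have hnm : (n : GL D.Idx F)⁻¹ * m ∈ D.diagonalSubgroup F := by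
      have h9 := hm.inv.mul hum
      rw [inv_mul_cancel] at h9
      exact mem_diagonal_of_mono Q (Subgroup.mul_mem _ (Subgroup.inv_mem _ hn) hmm) h9
    obtain ⟨a, ha, t, ht, e3⟩ := (mem_borel Q).1 hb
    obtain ⟨y1, hy1, y2, hy2, e4⟩ := exists_factor Q (pos_eq_PP J) (le_refl _) (clos_pos Q) ha
    refine ⟨⟨y1, hy1⟩, Subtype.ext ?_⟩
    show ((x * ⟨y1, _⟩ * n : ↥(D.group F)) : ↥(D.group F) ⧸ BG D F) = (z : ↥(D.group F) ⧸ BG D F)
    refine QuotientGroup.eq.2 (Subgroup.mem_subgroupOf.2 ?_)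
    have e5 : (((x * ⟨y1, borel_le_group Q (hPPG ⟨y1, hy1⟩)⟩ * n)⁻¹ * z : ↥(D.group F)) : GL D.Idx F) =
        ((n : GL D.Idx F)⁻¹ * y2 * (n : GL D.Idx F)⁻¹⁻¹) * ((n : GL D.Idx F)⁻¹ * t * (n : GL D.Idx F)⁻¹⁻¹) * ((n : GL D.Idx F)⁻¹ * m) * b' := by
      have e6 : (z : GL D.Idx F) = x * (y1 * y2 * t * m * b') := by rw [← e1, e2, e3, e4]
      push_cast
      rw [e6]; group
    rw [e5]
    have h10 : (n : GL D.Idx F)⁻¹ * y2 * (n : GL D.Idx F)⁻¹⁻¹ ∈ XS Q (RJ D J) := by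
      refine conj_XS_le Q ?_ hy2
      intro r hr s
      have hr1 : r < D.nroots := hr.1.2
      have h6 := hm.inv.conj ⟨r, hr1⟩ s
      have h7 : ((⟨r, hr1⟩ : Fin D.nroots) : ℕ) = r := rfl
      rw [h7] at h6
      rw [h6]
      exact xG_mem Q (hP.inv ⟨r, hr1⟩ hr) _
    exact Subgroup.mul_mem _ (Subgroup.mul_mem _ (Subgroup.mul_mem _ (U_le_borel Q (XS_mono Q (nb_RJ hS J).1 h10))
      (H_le_borel Q (diag_conj Q (Subgroup.inv_mem _ hn) ht))) (H_le_borel Q hnm)) hb'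

/-- `u` lies in the unipotent radical of the stabilizer of the coset `e` -/
def InRad (Q : ChevO D F) (J : Set ℕ) (u : ↥(D.group F)) (e : ↥(D.group F) ⧸ ParG D F J) : Prop :=
  ∃ x : ↥(D.group F), (x : ↥(D.group F) ⧸ ParG D F J) = e ∧ x⁻¹ * u * x ∈ VG Q J

lemma inRad_mk (hS : SuppD Q.C) {J : Set ℕ} {u x : ↥(D.group F)} :
    InRad Q J u (x : ↥(D.group F) ⧸ ParG D F J) ↔ x⁻¹ * u * x ∈ VG Q J := by
  constructor
  · rintro ⟨y, hy, h⟩
    have h1 := mkP_eq.1 hy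
    have h2 : (y⁻¹ * x : ↥(D.group F)) ∈ ParG D F J := h1
    have h3 := (Subgroup.mem_normalizer_iff.1 (par_norm_VG hS J ((ParG D F J).inv_mem h2)) _).1 h
    have e : (y⁻¹ * x)⁻¹ * (y⁻¹ * u * y) * (y⁻¹ * x)⁻¹⁻¹ = x⁻¹ * u * x := by group
    rwa [e] at h3
  · intro h
    exact ⟨x, rfl, h⟩

/-- chambers fixed by unipotent elements -/
lemma fixed_iff [Fintype F] (hS : SuppD Q.C) (p : ℕ) [Fact p.Prime] [CharP F p] {J : Set ℕ} {u : ↥(D.group F)} (hu : (u : GL D.Idx F) ∈ XS Q (Pos D))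
    {k : ℕ} (hk : u ^ p ^ k = 1) (c : ↥(D.group F) ⧸ BG D F) (hM : MaxC Q J (dlt Q c)) :
    u • c = c ↔ InRad Q J u (toP D F J c) := by
  obtain ⟨y, rfl⟩ := QuotientGroup.mk_surjective c
  rw [toP_mk, inRad_mk hS]
  have hfix : ∀ z : ↥(D.group F), u • (z : ↥(D.group F) ⧸ BG D F) = z ↔ (z⁻¹ * u * z) ∈ BG D F := by
    intro z
    rw [smul_mk, QuotientGroup.eq]
    have e : (u * z)⁻¹ * z = (z⁻¹ * u * z)⁻¹ := by group
    rw [e, Subgroup.inv_mem_iff]
  constructor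
  · intro h
    have hc := cell_dlt (Q := Q) y
    set w := dlt Q (y : ↥(D.group F) ⧸ BG D F) with hw
    have hwW : w ∈ WG Q.C2 := dlt_mem _
    obtain ⟨b, hb, n, hn, ⟨v, hm⟩, b', hb', e⟩ := hc
    have hbG := borel_le_group Q hb
    have hnG := monomial_le_group Q hn
    have hb'G := borel_le_group Q hb'
    -- replace y by b n
    set z : ↥(D.group F) := ⟨b, hbG⟩ * ⟨n, hnG⟩ with hz
    have hyz : y = z * ⟨b', hb'G⟩ := Subtype.ext e
    have hzy : ((y : ↥(D.group F)) : ↥(D.group F) ⧸ BG D F) = (z : ↥(D.group F) ⧸ BG D F) := by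
      refine Eq.symm (QuotientGroup.eq.2 (Subgroup.mem_subgroupOf.2 ?_))
      rw [hyz]
      have : ((z⁻¹ * (z * ⟨b', hb'G⟩) : ↥(D.group F)) : GL D.Idx F) = b' := by push_cast; group
      rw [this]; exact hb'
    rw [hzy, hfix] at h
    have h1 := Subgroup.mem_subgroupOf.1 h
    set u' : GL D.Idx F := b⁻¹ * u * b with hu'
    have h2 : u' ∈ XS Q (Pos D) := by
      have h3 := (Subgroup.mem_normalizer_iff.1 (borel_normalizes Q (Subgroup.inv_mem _ hb)) _).1 hu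
      rw [inv_inv] at h3; exact h3
    have e1 : ((z⁻¹ * u * z : ↥(D.group F)) : GL D.Idx F) = n⁻¹ * u' * n := by
      rw [hz, hu']; push_cast; group
    rw [e1] at h1
    have h4 : n⁻¹ * u' * n ∈ XS Q (Pos D) := by
      apply mem_U_of_pow Q p h1 (k := k)
      have h5 : (n⁻¹ * u' * n) ^ p ^ k = (b * n)⁻¹ * ((u ^ p ^ k : ↥(D.group F)) : GL D.Idx F) * (b * n) := by
        have e2 : n⁻¹ * u' * n = (b * n)⁻¹ * (u : GL D.Idx F) * (b * n) := by rw [hu']; group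
        rw [e2]
        have e3 : (b * n)⁻¹ * (u : GL D.Idx F) * (b * n) = MulAut.conj (b * n)⁻¹ (u : GL D.Idx F) := by
          rw [MulAut.conj_apply]; group
        rw [e3, ← map_pow, MulAut.conj_apply, inv_inv, Subgroup.coe_pow]
      rw [h5, hk]
      simp
    have h5 := inter_kep hm h2 h4
    have h6 : n⁻¹ * u' * n⁻¹⁻¹ ∈ XS Q (RJ D J) := by
      refine conj_XS_le Q ?_ h5
      rintro r ⟨hr1, hr2⟩ s
      have hr3 := hr2 hr1.2
      have h6 := hm.inv.conj ⟨r, hr1.2⟩ s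
      have h7 : ((⟨r, hr1.2⟩ : Fin D.nroots) : ℕ) = r := rfl
      rw [h7] at h6
      rw [h6]
      have h8 : ((w⁻¹ ⟨r, hr1.2⟩ : Fin D.nroots) : ℕ) ∈ RJ D J := by
        refine ⟨⟨hr3, (w⁻¹ _).2⟩, fun h9 => ?_⟩
        have h10 := hM.phi hS hwW hr3 h9
        rw [perm_apply_inv] at h10
        exact h10 hr1.1
      exact xG_mem Q h8 _
    rw [inv_inv] at h6
    have h7 : z⁻¹ * u * z ∈ VG Q J := by
      refine Subgroup.mem_subgroupOf.2 ?_
      rw [e1]; exact h6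
    have h8 : (⟨b', hb'G⟩ : ↥(D.group F)) ∈ ParG D F J := BG_le_ParG J (Subgroup.mem_subgroupOf.2 hb')
    have h9 := (Subgroup.mem_normalizer_iff.1 (par_norm_VG hS J ((ParG D F J).inv_mem h8)) _).1 h7
    have e2 : (⟨b', hb'G⟩ : ↥(D.group F))⁻¹ * (z⁻¹ * u * z) * (⟨b', hb'G⟩ : ↥(D.group F))⁻¹⁻¹ = y⁻¹ * u * y := by
      rw [hyz]; group
    rwa [e2] at h9
  · intro h
    rw [hfix]
    exact VG_le_BG hS J h

/-- counting fixed chambers by residues -/
lemma card_fixed_max [Fintype F] (hS : SuppD Q.C) (p : ℕ) [Fact p.Prime] [CharP F p] (J : Set ℕ) {u : ↥(D.group F)}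
    (hu : (u : GL D.Idx F) ∈ XS Q (Pos D)) {k : ℕ} (hk : u ^ p ^ k = 1) :
    Nat.card {c : ↥(D.group F) ⧸ BG D F // u • c = c ∧ MaxC Q J (dlt Q c)} =
      Nat.card (XS Q (PP D J)) * Nat.card {e : ↥(D.group F) ⧸ ParG D F J // InRad Q J u e} := by
  classical
  have : Fintype (↥(D.group F) ⧸ ParG D F J) := Fintype.ofFinite _
  have : Fintype (↥(D.group F) ⧸ BG D F) := Fintype.ofFinite _
  rw [Nat.card_eq_fintype_card, Fintype.card_subtype, Nat.card_eq_fintype_card (α := {e : ↥(D.group F) ⧸ ParG D F J // InRad Q J u e}),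
    Fintype.card_subtype]
  rw [Finset.card_eq_sum_card_fiberwise (f := toP D F J) (t := Finset.univ.filter (fun e : ↥(D.group F) ⧸ ParG D F J => InRad Q J u e))]
  · have h3 : ∀ e ∈ Finset.univ.filter (fun e : ↥(D.group F) ⧸ ParG D F J => InRad Q J u e),
        ((Finset.univ.filter (fun c : ↥(D.group F) ⧸ BG D F => u • c = c ∧ MaxC Q J (dlt Q c))).filter (fun c => toP D F J c = e)).card =
          Nat.card (XS Q (PP D J)) := by
      intro e he
      rw [← card_opp hS J e, Nat.card_eq_fintype_card, Fintype.card_subtype]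
      congr 1
      ext c
      rw [Finset.mem_filter, Finset.mem_filter, Finset.mem_filter]
      constructor
      · rintro ⟨⟨h1, h2, h3⟩, h4⟩
        exact ⟨h1, h4, h3⟩
      · rintro ⟨h1, h2, h3⟩
        refine ⟨⟨h1, ?_, h3⟩, h2⟩
        rw [fixed_iff hS p hu hk c h3, h2]
        exact (Finset.mem_filter.1 he).2
    rw [Finset.sum_congr rfl h3, Finset.sum_const, smul_eq_mul, mul_comm]
  · intro c hc
    have h4 := (Finset.mem_filter.1 (Finset.mem_coe.1 hc)).2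
    exact Finset.mem_coe.2 (Finset.mem_filter.2 ⟨Finset.mem_univ _, (fixed_iff hS p hu hk c h4.2).1 h4.1⟩)

/-- the base chamber is the only chamber in relative position one -/
lemma base_iff [Fintype F] {u : ↥(D.group F)} (hu : (u : GL D.Idx F) ∈ XS Q (Pos D)) (c : ↥(D.group F) ⧸ BG D F) :
    (u • c = c ∧ BW Q (dlt Q c) = ∅) ↔ c = ((1 : ↥(D.group F)) : ↥(D.group F) ⧸ BG D F) := by
  constructor
  · rintro ⟨-, h⟩
    rw [BW_empty_iff (dlt_mem c)] at h
    obtain ⟨y, hy⟩ := QuotientGroup.mk_surjective c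
    rw [← hy] at h ⊢
    have hc := cell_dlt (Q := Q) y
    rw [h] at hc
    refine Eq.symm (QuotientGroup.eq.2 (Subgroup.mem_subgroupOf.2 ?_))
    rw [inv_one, one_mul]
    exact hc.borel
  · intro h
    rw [h]
    refine ⟨?_, ?_⟩
    · rw [smul_mk, mul_one, QuotientGroup.eq, mul_one, Subgroup.inv_mem_iff]
      exact Subgroup.mem_subgroupOf.2 (U_le_borel Q hu)
    · rw [BW_empty_iff (dlt_mem _)]
      exact dlt_eq (cell_one (Subgroup.one_mem _))

open Classical in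
/-- the alternating sum for a unipotent element -/
theorem alt_rad [Fintype F] (hS : SuppD Q.C) (p : ℕ) [Fact p.Prime] [CharP F p] {u : ↥(D.group F)} (hu : (u : GL D.Idx F) ∈ XS Q (Pos D))
    {k : ℕ} (hk : u ^ p ^ k = 1) :
    ∑ J ∈ (Finset.range D.rank).powerset, (-1 : ℂ) ^ J.card * ((Nat.card (XS Q (PP D (J : Set ℕ))) : ℂ) *
      (Nat.card {e : ↥(D.group F) ⧸ ParG D F (J : Set ℕ) // InRad Q (J : Set ℕ) u e} : ℂ)) = 1 := by
  have : Fintype (↥(D.group F) ⧸ BG D F) := Fintype.ofFinite _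
  have h1 : ∀ J : Finset ℕ, (Nat.card (XS Q (PP D (J : Set ℕ))) : ℂ) *
      (Nat.card {e : ↥(D.group F) ⧸ ParG D F (J : Set ℕ) // InRad Q (J : Set ℕ) u e} : ℂ) =
      ∑ c ∈ Finset.univ.filter (fun c : ↥(D.group F) ⧸ BG D F => u • c = c), (if MaxC Q (J : Set ℕ) (dlt Q c) then (1 : ℂ) else 0) := by
    intro J
    rw [← Nat.cast_mul, ← card_fixed_max hS p (J : Set ℕ) hu hk, Finset.sum_ite, Finset.sum_const_zero, add_zero, Finset.sum_const,
      nsmul_eq_mul, mul_one, Finset.filter_filter, Nat.card_eq_fintype_card, Fintype.card_subtype]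
  have h3 : ∀ J ∈ (Finset.range D.rank).powerset, (-1 : ℂ) ^ J.card * ((Nat.card (XS Q (PP D (J : Set ℕ))) : ℂ) *
      (Nat.card {e : ↥(D.group F) ⧸ ParG D F (J : Set ℕ) // InRad Q (J : Set ℕ) u e} : ℂ)) =
      ∑ c ∈ Finset.univ.filter (fun c : ↥(D.group F) ⧸ BG D F => u • c = c),
        ((-1 : ℂ) ^ J.card * (if MaxC Q (J : Set ℕ) (dlt Q c) then (1 : ℂ) else 0)) := by
    intro J _
    rw [h1 J, Finset.mul_sum]
  rw [Finset.sum_congr rfl h3, Finset.sum_comm,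
    Finset.sum_congr rfl (fun c _ => alt_sum_max (Q := Q) (dlt Q c)), Finset.sum_ite, Finset.sum_const_zero, add_zero, Finset.sum_const,
    nsmul_eq_mul, mul_one, Finset.filter_filter]
  have h2 : (Finset.univ.filter (fun c : ↥(D.group F) ⧸ BG D F => u • c = c ∧ BW Q (dlt Q c) = ∅)) =
      {((1 : ↥(D.group F)) : ↥(D.group F) ⧸ BG D F)} := by
    ext c
    rw [Finset.mem_filter, Finset.mem_singleton, ← base_iff hu c]
    exact ⟨fun h => h.2, fun h => ⟨Finset.mem_univ _, h⟩⟩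
  rw [h2, Finset.card_singleton, Nat.cast_one]

lemma toP_inRad_smul {J : Set ℕ} {u g : ↥(D.group F)} (e : ↥(D.group F) ⧸ ParG D F J) :
    InRad Q J (g⁻¹ * u * g) e ↔ InRad Q J u (g • e) := by
  constructor
  · rintro ⟨x, hx, h⟩
    refine ⟨g * x, ?_, ?_⟩
    · rw [← hx, smul_mkP]
    · have e1 : (g * x)⁻¹ * u * (g * x) = x⁻¹ * (g⁻¹ * u * g) * x := by group
      rw [e1]; exact h
  · rintro ⟨x, hx, h⟩
    refine ⟨g⁻¹ * x, ?_, ?_⟩
    · rw [← smul_mkP, hx, inv_smul_smul]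
    · have e1 : (g⁻¹ * x)⁻¹ * (g⁻¹ * u * g) * (g⁻¹ * x) = x⁻¹ * u * x := by group
      rw [e1]; exact h

/-- every `p`-element is conjugate into `U` -/
lemma exists_conj_U [Fintype F] (p : ℕ) [Fact p.Prime] [CharP F p] (Q : ChevO D F) {u : ↥(D.group F)} {k : ℕ} (hk : u ^ p ^ k = 1) :
    ∃ g : ↥(D.group F), ((g⁻¹ * u * g : ↥(D.group F)) : GL D.Idx F) ∈ XS Q (Pos D) := by
  obtain ⟨P, hP⟩ := U_sylow Q p
  have h1 : IsPGroup p (Subgroup.zpowers u) := by
    rintro ⟨x, hx⟩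
    obtain ⟨m, rfl⟩ := Subgroup.mem_zpowers_iff.1 hx
    refine ⟨k, Subtype.ext ?_⟩
    show (u ^ m) ^ p ^ k = 1
    rw [← zpow_natCast, ← _root_.zpow_mul, mul_comm, _root_.zpow_mul, zpow_natCast, hk, _root_.one_zpow]
  obtain ⟨R, hR⟩ := h1.exists_le_sylow
  obtain ⟨g, hg⟩ := MulAction.exists_smul_eq ↥(D.group F) P R
  refine ⟨g, ?_⟩
  have h2 : u ∈ (R : Subgroup ↥(D.group F)) := hR (Subgroup.mem_zpowers u)
  rw [← hg, Sylow.coe_subgroup_smul] at h2
  have h3 := Subgroup.mem_pointwise_smul_iff_inv_smul_mem.1 h2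
  have h4 : g⁻¹ * u * g ∈ (P : Subgroup ↥(D.group F)) := by
    have e : (MulAut.conj g)⁻¹ • u = g⁻¹ * u * g := by
      rw [← map_inv, MulAut.smul_def, MulAut.conj_apply, inv_inv]
    rw [← e]; exact h3
  rw [hP, Subgroup.mem_subgroupOf, posUnipotent_eq Q] at h4
  exact h4

/-- the number of elements `u` with given coset -/
lemma card_inRad (hS : SuppD Q.C) {J : Set ℕ} (e : ↥(D.group F) ⧸ ParG D F J) :
    Nat.card {u : ↥(D.group F) // InRad Q J u e} = Nat.card (XS Q (RJ D J)) := by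
  obtain ⟨x, rfl⟩ := QuotientGroup.mk_surjective e
  have hle : XS Q (RJ D J) ≤ D.group F := (XS_mono Q (nb_RJ hS J).1).trans ((U_le_borel Q).trans (borel_le_group Q))
  rw [← Nat.card_congr (Subgroup.subgroupOfEquivOfLe hle).toEquiv]
  refine Nat.card_congr ⟨fun u => ⟨x⁻¹ * u.1 * x, (inRad_mk hS).1 u.2⟩, fun v => ⟨x * v.1 * x⁻¹, (inRad_mk hS).2 ?_⟩, fun u => ?_, fun v => ?_⟩
  · have e1 : x⁻¹ * (x * v.1 * x⁻¹) * x = v.1 := by group
    rw [e1]; exact v.2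
  · apply Subtype.ext
    show x * (x⁻¹ * u.1 * x) * x⁻¹ = u.1
    group
  · apply Subtype.ext
    show x⁻¹ * (x * v.1 * x⁻¹) * x = v.1
    group

lemma inRad_pow [Fintype F] (hS : SuppD Q.C) (p : ℕ) [Fact p.Prime] [CharP F p] {J : Set ℕ} {u : ↥(D.group F)} {e : ↥(D.group F) ⧸ ParG D F J}
    (h : InRad Q J u e) : ∃ k : ℕ, orderOf u = p ^ k := by
  have hp : p.Prime := Fact.out
  obtain ⟨x, hx, h1⟩ := h
  have h2 := VG_le_BG hS J h1
  obtain ⟨P, hP⟩ := U_sylow Q p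
  have h3 : x⁻¹ * u * x ∈ (P : Subgroup ↥(D.group F)) := by
    rw [hP, Subgroup.mem_subgroupOf, posUnipotent_eq Q]
    exact XS_mono Q (nb_RJ hS J).1 (Subgroup.mem_subgroupOf.1 h1)
  obtain ⟨k, hk⟩ := (IsPGroup.iff_orderOf.1 P.isPGroup') ⟨_, h3⟩
  refine ⟨k, ?_⟩
  have h4 : orderOf (x⁻¹ * u * x) = p ^ k := by
    rw [← hk]; exact Subgroup.orderOf_mk (x⁻¹ * u * x) h3 |>.symm
  rw [← h4]
  have e1 : x⁻¹ * u * x = MulAut.conj x⁻¹ u := by rw [MulAut.conj_apply, inv_inv]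
  rw [e1]
  exact (orderOf_injective (MulAut.conj x⁻¹).toMonoidHom (MulAut.conj x⁻¹).injective u).symm

open Classical in
/-- Steinberg's count of unipotent elements -/
theorem card_unip [Fintype F] (hS : SuppD Q.C) (p : ℕ) [Fact p.Prime] [CharP F p] :
    Nat.card {g : ↥(D.group F) // ∃ k : ℕ, orderOf g = p ^ k} = Fintype.card F ^ (2 * (D.nroots / 2)) := by
  have : Fintype ↥(D.group F) := Fintype.ofFinite _
  have h1 : ∀ u ∈ Finset.univ.filter (fun g : ↥(D.group F) => ∃ k : ℕ, orderOf g = p ^ k),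
      (1 : ℂ) = ∑ J ∈ (Finset.range D.rank).powerset, (-1 : ℂ) ^ J.card * ((Nat.card (XS Q (PP D (J : Set ℕ))) : ℂ) *
      (Nat.card {e : ↥(D.group F) ⧸ ParG D F (J : Set ℕ) // InRad Q (J : Set ℕ) u e} : ℂ)) := by
    intro u hu
    obtain ⟨k, hk⟩ := (Finset.mem_filter.1 hu).2
    have hk' : u ^ p ^ k = 1 := by rw [← hk]; exact pow_orderOf_eq_one u
    obtain ⟨g, hg⟩ := exists_conj_U p Q hk'
    have hk2 : (g⁻¹ * u * g) ^ p ^ k = 1 := by
      have e1 : g⁻¹ * u * g = MulAut.conj g⁻¹ u := by rw [MulAut.conj_apply, inv_inv]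
      rw [e1, ← map_pow, hk', map_one]
    refine (alt_rad hS p hg hk2).symm.trans ?_
    refine Finset.sum_congr rfl (fun J _ => ?_)
    have e2 : Nat.card {e : ↥(D.group F) ⧸ ParG D F (J : Set ℕ) // InRad Q (J : Set ℕ) (g⁻¹ * u * g) e} =
        Nat.card {e : ↥(D.group F) ⧸ ParG D F (J : Set ℕ) // InRad Q (J : Set ℕ) u e} :=
      Nat.card_congr ((MulAction.toPerm g).subtypeEquiv (fun e => toP_inRad_smul (Q := Q) (J := (J : Set ℕ)) (u := u) (g := g) e))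
    rw [e2]
  have h2 : ∀ J : Finset ℕ, ∑ u ∈ Finset.univ.filter (fun g : ↥(D.group F) => ∃ k : ℕ, orderOf g = p ^ k),
      (Nat.card {e : ↥(D.group F) ⧸ ParG D F (J : Set ℕ) // InRad Q (J : Set ℕ) u e} : ℂ) =
      (Nat.card (↥(D.group F) ⧸ ParG D F (J : Set ℕ)) : ℂ) * (Nat.card (XS Q (RJ D (J : Set ℕ))) : ℂ) := by
    intro J
    have : Fintype (↥(D.group F) ⧸ ParG D F (J : Set ℕ)) := Fintype.ofFinite _
    have h3 : ∀ u : ↥(D.group F), (Nat.card {e : ↥(D.group F) ⧸ ParG D F (J : Set ℕ) // InRad Q (J : Set ℕ) u e} : ℂ) =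
        ∑ e : ↥(D.group F) ⧸ ParG D F (J : Set ℕ), (if InRad Q (J : Set ℕ) u e then (1 : ℂ) else 0) := by
      intro u
      rw [Nat.card_eq_fintype_card, Fintype.card_subtype, Finset.sum_ite, Finset.sum_const_zero, add_zero, Finset.sum_const,
        nsmul_eq_mul, mul_one]
    rw [Finset.sum_congr rfl (fun u _ => h3 u), Finset.sum_comm]
    have h4 : ∀ e : ↥(D.group F) ⧸ ParG D F (J : Set ℕ),
        ∑ u ∈ Finset.univ.filter (fun g : ↥(D.group F) => ∃ k : ℕ, orderOf g = p ^ k), (if InRad Q (J : Set ℕ) u e then (1 : ℂ) else 0) =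
        (Nat.card (XS Q (RJ D (J : Set ℕ))) : ℂ) := by
      intro e
      rw [Finset.sum_ite, Finset.sum_const_zero, add_zero, Finset.sum_const, nsmul_eq_mul, mul_one, Finset.filter_filter,
        ← card_inRad hS e, Nat.card_eq_fintype_card, Fintype.card_subtype]
      congr 2
      ext u
      rw [Finset.mem_filter, Finset.mem_filter]
      exact ⟨fun h => ⟨h.1, h.2.2⟩, fun h => ⟨h.1, inRad_pow hS p h.2, h.2⟩⟩
    rw [Finset.sum_congr rfl (fun e _ => h4 e), Finset.sum_const, nsmul_eq_mul, Finset.card_univ, ← Nat.card_eq_fintype_card]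
  have h5 : (Nat.card {g : ↥(D.group F) // ∃ k : ℕ, orderOf g = p ^ k} : ℂ) =
      ∑ u ∈ Finset.univ.filter (fun g : ↥(D.group F) => ∃ k : ℕ, orderOf g = p ^ k), (1 : ℂ) := by
    rw [Finset.sum_const, nsmul_eq_mul, mul_one, Nat.card_eq_fintype_card, Fintype.card_subtype]
  have h6 : (Nat.card {g : ↥(D.group F) // ∃ k : ℕ, orderOf g = p ^ k} : ℂ) = (Fintype.card F : ℂ) ^ (D.nroots / 2) * D.steinbergCharacter F 1 := by
    rw [h5, Finset.sum_congr rfl h1, Finset.sum_comm, Cfsg.Lie.ChevalleyDatum.steinbergCharacter, Finset.mul_sum]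
    refine Finset.sum_congr rfl (fun J _ => ?_)
    rw [← Finset.mul_sum, ← Finset.mul_sum, h2 J]
    have h7 := card_PP hS (J : Set ℕ)
    rw [card_U Q] at h7
    have h8 : (Nat.card (XS Q (PP D (J : Set ℕ))) : ℂ) * (Nat.card (XS Q (RJ D (J : Set ℕ))) : ℂ) = (Fintype.card F : ℂ) ^ (D.nroots / 2) := by
      exact_mod_cast h7
    have h9 : Cfsg.fixedPointCharacter (D.parabolicIn F J) (1 : ↥(D.group F)) = (Nat.card (↥(D.group F) ⧸ ParG D F (J : Set ℕ)) : ℂ) := by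
      have h10 : Cfsg.fixedPointCharacter (D.parabolicIn F J) (1 : ↥(D.group F)) =
        (Nat.card (MulAction.fixedBy (↥(D.group F) ⧸ ParG D F (J : Set ℕ)) (1 : ↥(D.group F))) : ℂ) := rfl
      rw [h10]
      congr 1
      exact Nat.card_congr (Equiv.subtypeUnivEquiv (fun e => one_smul _ e))
    rw [h9, ← h8]
    ring
  rw [st_one hS, ← pow_add, ← two_mul] at h6
  exact_mod_cast h6

end Cfsg.Agent.Lib.ChevAlg
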