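import Cfsg.Agent.Lib.ChevCell
import Cfsg.Prelude.Def_ParabolicCharacters

/-!
# Cosets of parabolic subgroups, fixed points of elements of the Borel subgroup
-/

set_option autoImplicit false

namespace Cfsg.Agent.Lib.ChevAlg

open Cfsg.Lie Cfsg.Agent.Lib.ChevTab Matrix

variable {D : ChevalleyDatum} {F : Type*} [Field F] {Q : ChevO D F}

/-- the Borel subgroup inside the group -/
abbrev BG (D : ChevalleyDatum) (F : Type*) [Field F] : Subgroup ↥(D.group F) := (D.borelSubgroup F).subgroupOf (D.group F)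

/-- the parabolic subgroup inside the group -/
abbrev ParG (D : ChevalleyDatum) (F : Type*) [Field F] (J : Set ℕ) : Subgroup ↥(D.group F) :=
  (D.parabolicSubgroup F J).subgroupOf (D.group F)

lemma borel_le_par (J : Set ℕ) : D.borelSubgroup F ≤ D.parabolicSubgroup F J := le_sup_left

variable (Q) in
/-- the cell of a chamber -/
noncomputable def dlt (c : ↥(D.group F) ⧸ BG D F) : Equiv.Perm (Fin D.nroots) :=
  (cell_exists (Q := Q) (Quotient.out c).2).choose

lemma cell_dlt (g : ↥(D.group F)) : Cell Q (dlt Q (g : ↥(D.group F) ⧸ BG D F)) (g : GL D.Idx F) := by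
  have h1 := (cell_exists (Q := Q) (Quotient.out (g : ↥(D.group F) ⧸ BG D F)).2).choose_spec.2
  have h2 : (Quotient.out (g : ↥(D.group F) ⧸ BG D F))⁻¹ * g ∈ BG D F :=
    QuotientGroup.eq.1 (QuotientGroup.out_eq' (g : ↥(D.group F) ⧸ BG D F))
  have h3 := h1.right (Subgroup.mem_subgroupOf.1 h2)
  have e : (((Quotient.out (g : ↥(D.group F) ⧸ BG D F)) : ↥(D.group F)) : GL D.Idx F) *
      (((Quotient.out (g : ↥(D.group F) ⧸ BG D F))⁻¹ * g : ↥(D.group F)) : GL D.Idx F) = g := by
    rw [← Subgroup.coe_mul]; congr 1; group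
  rw [e] at h3
  exact h3

lemma dlt_eq {g : ↥(D.group F)} {w : Equiv.Perm (Fin D.nroots)} (h : Cell Q w (g : GL D.Idx F)) :
    dlt Q (g : ↥(D.group F) ⧸ BG D F) = w := cell_unique (cell_dlt g) h

lemma dlt_mem (c : ↥(D.group F) ⧸ BG D F) : dlt Q c ∈ WG Q.C2 :=
  (cell_exists (Q := Q) (Quotient.out c).2).choose_spec.1

lemma dlt_smul {b : ↥(D.group F)} (hb : b ∈ BG D F) (c : ↥(D.group F) ⧸ BG D F) : dlt Q (b • c) = dlt Q c := by
  induction c using QuotientGroup.induction_on with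
  | H g =>
    have h1 : b • (g : ↥(D.group F) ⧸ BG D F) = ((b * g : ↥(D.group F)) : ↥(D.group F) ⧸ BG D F) :=
      MulAction.Quotient.smul_coe _ _ _
    rw [h1]
    apply dlt_eq
    rw [Subgroup.coe_mul]
    exact (cell_dlt g).left (Subgroup.mem_subgroupOf.1 hb)

lemma BG_le_ParG (J : Set ℕ) : BG D F ≤ ParG D F J := fun _ h =>
  Subgroup.mem_subgroupOf.2 (borel_le_par J (Subgroup.mem_subgroupOf.1 h))

/-- the projection from chambers to cosets of `P_J` -/
def toP (D : ChevalleyDatum) (F : Type*) [Field F] (J : Set ℕ) (c : ↥(D.group F) ⧸ BG D F) : ↥(D.group F) ⧸ ParG D F J :=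
  Subgroup.quotientMapOfLE (BG_le_ParG J) c

lemma toP_mk (J : Set ℕ) (g : ↥(D.group F)) : toP D F J (g : ↥(D.group F) ⧸ BG D F) = (g : ↥(D.group F) ⧸ ParG D F J) := rfl

lemma toP_smul (J : Set ℕ) (g : ↥(D.group F)) (c : ↥(D.group F) ⧸ BG D F) : toP D F J (g • c) = g • toP D F J c := by
  induction c using QuotientGroup.induction_on with
  | H x =>
    have h1 : g • (x : ↥(D.group F) ⧸ BG D F) = ((g * x : ↥(D.group F)) : ↥(D.group F) ⧸ BG D F) :=
      MulAction.Quotient.smul_coe _ _ _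
    have h2 : g • (x : ↥(D.group F) ⧸ ParG D F J) = ((g * x : ↥(D.group F)) : ↥(D.group F) ⧸ ParG D F J) :=
      MulAction.Quotient.smul_coe _ _ _
    rw [h1, toP_mk, toP_mk, h2]

lemma toP_surj (J : Set ℕ) (e : ↥(D.group F) ⧸ ParG D F J) : ∃ c, MinC Q J (dlt Q c) ∧ toP D F J c = e := by
  induction e using QuotientGroup.induction_on with
  | H g =>
    obtain ⟨w, hw, h⟩ := cell_exists (Q := Q) g.2
    obtain ⟨p, hp, w', hw', hc⟩ := exists_minC (J := J) (ninv w) rfl h
    have hpG : p ∈ D.group F := by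
      have h1 := hc.mem_group
      have e1 : p = (g : GL D.Idx F)⁻¹ * (g * p) := by group
      rw [e1]
      exact Subgroup.mul_mem _ (Subgroup.inv_mem _ g.2) h1
    refine ⟨((g * ⟨p, hpG⟩ : ↥(D.group F)) : ↥(D.group F) ⧸ BG D F), ?_, ?_⟩
    · rw [dlt_eq (w := w') (by rw [Subgroup.coe_mul]; exact hc)]
      exact hw'
    · rw [toP_mk]
      refine (QuotientGroup.eq.2 ?_).symm
      rw [inv_mul_cancel_left]
      exact Subgroup.mem_subgroupOf.2 hp

lemma toP_inj (hS : SuppD Q.C) {J : Set ℕ} {c c' : ↥(D.group F) ⧸ BG D F} (h : MinC Q J (dlt Q c)) (h' : MinC Q J (dlt Q c'))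
    (e : toP D F J c = toP D F J c') : c = c' := by
  induction c using QuotientGroup.induction_on with
  | H g =>
    induction c' using QuotientGroup.induction_on with
    | H g' =>
      rw [toP_mk, toP_mk, QuotientGroup.eq] at e
      refine QuotientGroup.eq.2 (Subgroup.mem_subgroupOf.2 ?_)
      refine borel_of_minC hS (cell_dlt g) h (w' := dlt Q (g' : ↥(D.group F) ⧸ BG D F)) ?_ h' (Subgroup.mem_subgroupOf.1 e)
      rw [← Subgroup.coe_mul, mul_inv_cancel_left]
      exact cell_dlt g'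

/-- fixed points of elements of `B` on the cosets of `P_J` -/
lemma card_fixed (hS : SuppD Q.C) (J : Set ℕ) {b : ↥(D.group F)} (hb : b ∈ BG D F) :
    Nat.card (MulAction.fixedBy (↥(D.group F) ⧸ ParG D F J) b) =
      Nat.card {c : ↥(D.group F) ⧸ BG D F // b • c = c ∧ MinC Q J (dlt Q c)} := by
  symm
  refine Nat.card_congr (Equiv.ofBijective (fun c => ⟨toP D F J c.1, ?_⟩) ⟨?_, ?_⟩)
  · show b • toP D F J c.1 = toP D F J c.1
    rw [← toP_smul, c.2.1]
  · intro c c' h
    exact Subtype.ext (toP_inj hS c.2.2 c'.2.2 (congrArg Subtype.val h))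
  · rintro ⟨e, he⟩
    obtain ⟨c, hc, rfl⟩ := toP_surj (Q := Q) J e
    have he' : b • toP D F J c = toP D F J c := he
    refine ⟨⟨c, ?_, hc⟩, rfl⟩
    apply toP_inj hS (J := J) _ hc
    · rw [toP_smul, he']
    · rw [dlt_smul hb]; exact hc

open Classical in
variable (Q) in
/-- the simple roots staying positive -/
noncomputable def AW (w : Equiv.Perm (Fin D.nroots)) : Finset ℕ :=
  (Finset.range D.rank).filter (fun i => ∀ h : i < D.rank, ps (w (si Q i h)))

lemma minC_iff {J : Finset ℕ} (hJ : J ⊆ Finset.range D.rank) (w : Equiv.Perm (Fin D.nroots)) :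
    MinC Q (J : Set ℕ) w ↔ J ⊆ AW Q w := by
  classical
  constructor
  · intro h i hi
    refine Finset.mem_filter.2 ⟨hJ hi, fun h1 => h ⟨i, h1⟩ hi⟩
  · intro h i hi
    exact (Finset.mem_filter.1 (h hi)).2 i.2

lemma AW_sub (w : Equiv.Perm (Fin D.nroots)) : AW Q w ⊆ Finset.range D.rank := by
  classical
  exact Finset.filter_subset _ _

open Classical in
lemma alt_sum (w : Equiv.Perm (Fin D.nroots)) :
    ∑ J ∈ (Finset.range D.rank).powerset, ((-1 : ℂ) ^ J.card * (if MinC Q (J : Set ℕ) w then 1 else 0)) =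
      if AW Q w = ∅ then 1 else 0 := by
  have h1 : ∑ J ∈ (Finset.range D.rank).powerset, ((-1 : ℂ) ^ J.card * (if MinC Q (J : Set ℕ) w then 1 else 0)) =
      ∑ J ∈ (AW Q w).powerset, (-1 : ℂ) ^ J.card := by
    symm
    rw [← Finset.sum_subset (Finset.powerset_mono.2 (AW_sub (Q := Q) w))]
    · refine Finset.sum_congr rfl (fun J hJ => ?_)
      rw [if_pos ((minC_iff ((Finset.mem_powerset.1 hJ).trans (AW_sub w)) w).2 (Finset.mem_powerset.1 hJ)), mul_one]
    · intro J hJ hJ'
      rw [if_neg, mul_zero]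
      rw [minC_iff (Finset.mem_powerset.1 hJ)]
      exact fun h => hJ' (Finset.mem_powerset.2 h)
  rw [h1]
  have h2 := Finset.sum_powerset_neg_one_pow_card (x := AW Q w)
  have h3 : ((∑ J ∈ (AW Q w).powerset, (-1 : ℤ) ^ J.card : ℤ) : ℂ) = ((if AW Q w = ∅ then 1 else 0 : ℤ) : ℂ) := by rw [h2]
  push_cast at h3
  exact h3

/-- the value of the Steinberg character at an element of `B` -/
theorem st_borel [Finite F] (hS : SuppD Q.C) {b : ↥(D.group F)} (hb : b ∈ BG D F) :
    D.steinbergCharacter F b = (Nat.card {c : ↥(D.group F) ⧸ BG D F // b • c = c ∧ AW Q (dlt Q c) = ∅} : ℂ) := by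
  classical
  haveI : Fintype (↥(D.group F) ⧸ BG D F) := Fintype.ofFinite _
  have h1 : ∀ J ∈ (Finset.range D.rank).powerset, (-1 : ℂ) ^ J.card * Cfsg.fixedPointCharacter (D.parabolicIn F J) b =
      ∑ c ∈ Finset.univ.filter (fun c : ↥(D.group F) ⧸ BG D F => b • c = c),
        ((-1 : ℂ) ^ J.card * (if MinC Q (J : Set ℕ) (dlt Q c) then 1 else 0)) := by
    intro J hJ
    have h2 : Cfsg.fixedPointCharacter (D.parabolicIn F J) b =
        (Nat.card (MulAction.fixedBy (↥(D.group F) ⧸ ParG D F J) b) : ℂ) := rfl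
    rw [h2, card_fixed (Q := Q) hS _ hb, Nat.card_eq_fintype_card, Fintype.card_subtype, ← Finset.mul_sum]
    congr 1
    rw [Finset.sum_ite, Finset.sum_const_zero, add_zero, Finset.sum_const, nsmul_eq_mul, mul_one, Finset.filter_filter]
  rw [Cfsg.Lie.ChevalleyDatum.steinbergCharacter, Finset.sum_congr rfl h1, Finset.sum_comm,
    Finset.sum_congr rfl (fun c _ => alt_sum (Q := Q) (dlt Q c)), Finset.sum_ite, Finset.sum_const_zero, add_zero,
    Finset.sum_const, nsmul_eq_mul, mul_one, Finset.filter_filter, Nat.card_eq_fintype_card, Fintype.card_subtype]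

/-- opposite chambers -/
lemma AW_empty_iff {w w0 : Equiv.Perm (Fin D.nroots)} (hw : w ∈ WG Q.C2) (hw0 : w0 ∈ WG Q.C2)
    (h0 : ∀ s : Fin D.nroots, ps s → ¬ ps (w0 s)) : AW Q w = ∅ ↔ w = w0 := by
  classical
  have hwa0 := WG_waut Q hw0
  constructor
  · intro h
    have h1 : ∀ i (hi : i < D.rank), ¬ ps (w (si Q i hi)) := by
      intro i hi hps
      have : i ∈ AW Q w := Finset.mem_filter.2 ⟨Finset.mem_range.2 hi, fun _ => hps⟩
      rw [h] at this
      exact absurd this (Finset.notMem_empty _)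
    have h2 : w0 * w = 1 := by
      apply eq_one_of_ps Q ((WG Q.C2).mul_mem hw0 hw)
      apply pos_of_simple Q (WG_waut Q ((WG Q.C2).mul_mem hw0 hw))
      intro i hi
      rw [Equiv.Perm.mul_apply, w0_neg hwa0 h0]
      exact h1 i hi
    have h3 : w0 * w0 = 1 := by
      apply eq_one_of_ps Q ((WG Q.C2).mul_mem hw0 hw0)
      intro s hs
      rw [Equiv.Perm.mul_apply, w0_neg hwa0 h0]
      exact h0 s hs
    calc w = w0 * w0 * w := by rw [h3, one_mul]
      _ = w0 := by rw [mul_assoc, h2, mul_one]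
  · rintro rfl
    apply Finset.eq_empty_of_forall_notMem
    intro i hi
    have h1 := Finset.mem_filter.1 hi
    exact h0 _ (ps_si Q (Finset.mem_range.1 h1.1)) (h1.2 (Finset.mem_range.1 h1.1))

end Cfsg.Agent.Lib.ChevAlg
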