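import Cfsg.Agent.Lib.ChevCell2

/-!
# The Steinberg character on the Borel subgroup
-/

set_option autoImplicit false

namespace Cfsg.Agent.Lib.ChevAlg

open Cfsg.Lie Cfsg.Agent.Lib.ChevTab Matrix

variable {D : ChevalleyDatum} {F : Type*} [Field F] {Q : ChevO D F}

/-- the diagonal subgroup inside the group -/
abbrev HG (D : ChevalleyDatum) (F : Type*) [Field F] : Subgroup ↥(D.group F) := (D.diagonalSubgroup F).subgroupOf (D.group F)

/-- data of a longest element -/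
structure IsN0 (Q : ChevO D F) (n0 : ↥(D.group F)) (w0 : Equiv.Perm (Fin D.nroots)) : Prop where
  mon : (n0 : GL D.Idx F) ∈ D.monomialSubgroup F
  mem : w0 ∈ WG Q.C2
  mono : ∃ v, Mono Q (n0 : GL D.Idx F) w0 v
  neg : ∀ s : Fin D.nroots, ps s → ¬ ps (w0 s)

variable (Q) in
lemma exists_isN0 : ∃ n0 : ↥(D.group F), ∃ w0, IsN0 Q n0 w0 := by
  obtain ⟨n, hn, w, hw, v, hm, h⟩ := exists_w0 (Q := Q)
  exact ⟨⟨n, monomial_le_group Q hn⟩, w, hn, hw, ⟨v, hm⟩, h⟩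

variable {n0 : ↥(D.group F)} {w0 : Equiv.Perm (Fin D.nroots)}

lemma IsN0.inv_neg (h : IsN0 Q n0 w0) (s : Fin D.nroots) (hs : ps s) : ¬ ps (w0⁻¹ s) := by
  obtain ⟨v, hv⟩ := h.mono
  exact n0_inv_ps hv h.neg s hs

lemma IsN0.conj_diag (h : IsN0 Q n0 w0) {t : GL D.Idx F} (ht : t ∈ D.diagonalSubgroup F) :
    (n0 : GL D.Idx F)⁻¹ * t * n0 ∈ D.diagonalSubgroup F := by
  have h1 := diag_conj Q (Subgroup.inv_mem _ h.mon) ht
  rwa [inv_inv] at h1

/-- `B ∩ n0 B n0⁻¹ = H` -/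
lemma IsN0.inter (h : IsN0 Q n0 w0) {b : GL D.Idx F} (hb : b ∈ D.borelSubgroup F) :
    (n0 : GL D.Idx F)⁻¹ * b * n0 ∈ D.borelSubgroup F ↔ b ∈ D.diagonalSubgroup F := by
  constructor
  · intro h1
    obtain ⟨u, hu, t, ht, e⟩ := (mem_borel Q).1 hb
    obtain ⟨v, hv⟩ := h.mono
    have h2 := n0_UV hv.inv h.inv_neg hu
    rw [inv_inv] at h2
    have h3 := h.conj_diag ht
    have h4 : (n0 : GL D.Idx F)⁻¹ * u * n0 ∈ D.borelSubgroup F := by
      have e1 : (n0 : GL D.Idx F)⁻¹ * u * n0 = ((n0 : GL D.Idx F)⁻¹ * b * n0) * ((n0 : GL D.Idx F)⁻¹ * t * n0)⁻¹ := by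
        rw [e]; group
      rw [e1]
      exact Subgroup.mul_mem _ h1 (Subgroup.inv_mem _ (H_le_borel Q h3))
    have h5 := borel_inf_V Q h4 h2
    have h6 : u = 1 := by
      have e2 : u = (n0 : GL D.Idx F) * ((n0 : GL D.Idx F)⁻¹ * u * n0) * (n0 : GL D.Idx F)⁻¹ := by group
      rw [e2, h5]; group
    rw [e, h6, one_mul]; exact ht
  · intro h1
    exact H_le_borel Q (h.conj_diag h1)

lemma smul_mk (g x : ↥(D.group F)) : g • (x : ↥(D.group F) ⧸ BG D F) = ((g * x : ↥(D.group F)) : ↥(D.group F) ⧸ BG D F) :=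
  MulAction.Quotient.smul_coe _ _ _

lemma IsN0.opp_eq_iff (h : IsN0 Q n0 w0) {x y : ↥(D.group F)} (hx : x ∈ BG D F) (hy : y ∈ BG D F) :
    ((x * n0 : ↥(D.group F)) : ↥(D.group F) ⧸ BG D F) = ((y * n0 : ↥(D.group F)) : ↥(D.group F) ⧸ BG D F) ↔ x⁻¹ * y ∈ HG D F := by
  rw [QuotientGroup.eq, Subgroup.mem_subgroupOf, Subgroup.mem_subgroupOf]
  have h1 := h.inter (b := ((x⁻¹ * y : ↥(D.group F)) : GL D.Idx F)) (Subgroup.mem_subgroupOf.1 ((BG D F).mul_mem ((BG D F).inv_mem hx) hy))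
  rw [← h1]
  have e : (((x * n0)⁻¹ * (y * n0) : ↥(D.group F)) : GL D.Idx F) =
      (n0 : GL D.Idx F)⁻¹ * ((x⁻¹ * y : ↥(D.group F)) : GL D.Idx F) * n0 := by
    push_cast; group
  rw [e]

lemma IsN0.opp_iff (h : IsN0 Q n0 w0) (c : ↥(D.group F) ⧸ BG D F) :
    AW Q (dlt Q c) = ∅ ↔ ∃ u : ↥(D.group F), (u : GL D.Idx F) ∈ XS Q (Pos D) ∧ ((u * n0 : ↥(D.group F)) : ↥(D.group F) ⧸ BG D F) = c := by
  rw [AW_empty_iff (dlt_mem c) h.mem h.neg]
  obtain ⟨v0, hv0⟩ := h.mono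
  constructor
  · induction c using QuotientGroup.induction_on with
    | H g =>
      intro h1
      have h2 := cell_dlt (Q := Q) g
      rw [h1] at h2
      obtain ⟨b, hb, n, hn, ⟨v, hm⟩, b', hb', e⟩ := h2
      obtain ⟨x, hx, t, ht, e1⟩ := (mem_borel Q).1 hb
      have h3 : (n0 : GL D.Idx F)⁻¹ * n ∈ D.diagonalSubgroup F := by
        have h5 := hv0.inv.mul hm
        rw [inv_mul_cancel] at h5
        exact mem_diagonal_of_mono Q (Subgroup.mul_mem _ (Subgroup.inv_mem _ h.mon) hn) h5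
      have hxG : x ∈ D.group F := borel_le_group Q (U_le_borel Q hx)
      refine ⟨⟨x, hxG⟩, hx, QuotientGroup.eq.2 (Subgroup.mem_subgroupOf.2 ?_)⟩
      have e2 : (((⟨x, hxG⟩ * n0)⁻¹ * g : ↥(D.group F)) : GL D.Idx F) =
          ((n0 : GL D.Idx F)⁻¹ * t * n0) * ((n0 : GL D.Idx F)⁻¹ * n) * b' := by
        push_cast
        rw [e, e1]; group
      rw [e2]
      exact Subgroup.mul_mem _ (Subgroup.mul_mem _ (H_le_borel Q (h.conj_diag ht)) (H_le_borel Q h3)) hb'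
  · rintro ⟨u, hu, rfl⟩
    apply dlt_eq
    exact ⟨u, U_le_borel Q hu, n0, h.mon, ⟨v0, hv0⟩, 1, Subgroup.one_mem _, by rw [mul_one]; rfl⟩

lemma card_fixedBy_of_map {B : Type*} [Group B] (K : Subgroup B) {X : Type*} (f : B → X) (hf : ∀ x y, f x = f y ↔ x⁻¹ * y ∈ K)
    (b : B) (act : X → X) (hact : ∀ x, act (f x) = f (b * x)) :
    Nat.card (MulAction.fixedBy (B ⧸ K) b) = Nat.card {c : X // act c = c ∧ ∃ x, f x = c} := by
  have hfix : ∀ x : B, b • (x : B ⧸ K) = (x : B ⧸ K) ↔ act (f x) = f x := by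
    intro x
    rw [MulAction.Quotient.smul_coe, QuotientGroup.eq, hact, hf]
    rfl
  refine Nat.card_congr (Equiv.ofBijective (fun q => ⟨f (Quotient.out q.1), ?_, Quotient.out q.1, rfl⟩) ⟨?_, ?_⟩)
  · rw [← hfix, QuotientGroup.out_eq']
    exact q.2
  · intro q q' h
    have h3 := congrArg Subtype.val h
    simp only at h3
    rw [hf] at h3
    apply Subtype.ext
    rw [← QuotientGroup.out_eq' q.1, ← QuotientGroup.out_eq' q'.1]
    exact QuotientGroup.eq.2 h3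
  · rintro ⟨c, hc, x, rfl⟩
    refine ⟨⟨(x : B ⧸ K), (hfix x).2 hc⟩, Subtype.ext ?_⟩
    simp only
    rw [hf]
    exact QuotientGroup.eq.1 (QuotientGroup.out_eq' (x : B ⧸ K))

/-- the restriction of the Steinberg character to `B` -/
theorem st_borel_eq [Finite F] (hS : SuppD Q.C) (b : ↥(BG D F)) :
    D.steinbergCharacter F (b : ↥(D.group F)) = Cfsg.fixedPointCharacter ((HG D F).subgroupOf (BG D F)) b := by
  obtain ⟨n0, w0, h0⟩ := exists_isN0 Q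
  rw [st_borel (Q := Q) hS b.2]
  have h2 : Cfsg.fixedPointCharacter ((HG D F).subgroupOf (BG D F)) b =
      (Nat.card (MulAction.fixedBy (↥(BG D F) ⧸ (HG D F).subgroupOf (BG D F)) b) : ℂ) := rfl
  rw [h2]
  congr 1
  rw [card_fixedBy_of_map ((HG D F).subgroupOf (BG D F))
    (fun x : ↥(BG D F) => (((x : ↥(D.group F)) * n0 : ↥(D.group F)) : ↥(D.group F) ⧸ BG D F)) (fun x y => by
      rw [h0.opp_eq_iff x.2 y.2, Subgroup.mem_subgroupOf]; rfl) b (fun c => (b : ↥(D.group F)) • c) (fun x => by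
      show (b : ↥(D.group F)) • (((x : ↥(D.group F)) * n0 : ↥(D.group F)) : ↥(D.group F) ⧸ BG D F) = _
      rw [smul_mk, ← mul_assoc]; rfl)]
  refine Nat.card_congr (Equiv.subtypeEquivRight (fun c => and_congr_right (fun _ => ?_)))
  rw [h0.opp_iff c]
  constructor
  · rintro ⟨u, hu, rfl⟩
    exact ⟨⟨u, Subgroup.mem_subgroupOf.2 (U_le_borel Q hu)⟩, rfl⟩
  · rintro ⟨x, rfl⟩
    obtain ⟨u, hu, t, ht, e⟩ := (mem_borel Q).1 (Subgroup.mem_subgroupOf.1 x.2)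
    have huG : u ∈ D.group F := borel_le_group Q (U_le_borel Q hu)
    refine ⟨⟨u, huG⟩, hu, ?_⟩
    rw [h0.opp_eq_iff (Subgroup.mem_subgroupOf.2 (U_le_borel Q hu)) x.2]
    refine Subgroup.mem_subgroupOf.2 ?_
    have e2 : (((⟨u, huG⟩ : ↥(D.group F))⁻¹ * (x : ↥(D.group F)) : ↥(D.group F)) : GL D.Idx F) = t := by
      push_cast
      rw [e]; group
    rw [e2]
    exact ht

/-- the degree of the Steinberg character -/
theorem st_one [Fintype F] (hS : SuppD Q.C) : D.steinbergCharacter F 1 = (Fintype.card F : ℂ) ^ (D.nroots / 2) := by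
  obtain ⟨n0, w0, h0⟩ := exists_isN0 Q
  rw [st_borel (Q := Q) hS (BG D F).one_mem, ← Nat.cast_pow, ← card_U Q]
  congr 1
  symm
  have hUG : ∀ u : ↥(XS Q (Pos D)), (u : GL D.Idx F) ∈ D.group F := fun u => borel_le_group Q (U_le_borel Q u.2)
  refine Nat.card_congr (Equiv.ofBijective (fun u => ⟨((⟨u.1, hUG u⟩ * n0 : ↥(D.group F)) : ↥(D.group F) ⧸ BG D F),
    one_smul _ _, (h0.opp_iff _).2 ⟨_, u.2, rfl⟩⟩) ⟨?_, ?_⟩)
  · intro u u' h
    have h3 := congrArg Subtype.val h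
    simp only at h3
    rw [h0.opp_eq_iff (Subgroup.mem_subgroupOf.2 (U_le_borel Q u.2)) (Subgroup.mem_subgroupOf.2 (U_le_borel Q u'.2)),
      Subgroup.mem_subgroupOf] at h3
    have e : (((⟨u.1, hUG u⟩ : ↥(D.group F))⁻¹ * ⟨u'.1, hUG u'⟩ : ↥(D.group F)) : GL D.Idx F) = (u.1)⁻¹ * u'.1 := rfl
    rw [e] at h3
    have h4 := U_inf_H Q (Subgroup.mul_mem _ (Subgroup.inv_mem _ u.2) u'.2) h3
    exact Subtype.ext (inv_mul_eq_one.1 h4)
  · rintro ⟨c, hc1, hc2⟩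
    obtain ⟨u, hu, rfl⟩ := (h0.opp_iff _).1 hc2
    exact ⟨⟨u, hu⟩, rfl⟩

end Cfsg.Agent.Lib.ChevAlg
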