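import Cfsg.Agent.Lib.ChevCell3

/-!
# Double cosets of parabolic subgroups
-/

set_option autoImplicit false

namespace Cfsg.Agent.Lib.ChevAlg

open Cfsg.Lie Cfsg.Agent.Lib.ChevTab Matrix

variable {D : ChevalleyDatum} {F : Type*} [Field F] {Q : ChevO D F}

lemma Cell.inv {w : Equiv.Perm (Fin D.nroots)} {g : GL D.Idx F} (h : Cell Q w g) : Cell Q w⁻¹ g⁻¹ := by
  obtain ⟨b, hb, n, hn, ⟨u, hm⟩, b', hb', e⟩ := h
  exact ⟨b'⁻¹, Subgroup.inv_mem _ hb', n⁻¹, Subgroup.inv_mem _ hn, ⟨_, hm.inv⟩, b⁻¹, Subgroup.inv_mem _ hb, by rw [e]; group⟩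

lemma WP.mul {J : Set ℕ} {v w : Equiv.Perm (Fin D.nroots)} (hv : WP D J v) (hw : WP D J w) : WP D J (v * w) :=
  fun r hr => hv _ (hw r hr)

lemma WP.one (J : Set ℕ) : WP D J (1 : Equiv.Perm (Fin D.nroots)) := fun r hr => hr

lemma cell_step {J : Set ℕ} {w : Equiv.Perm (Fin D.nroots)} {g : GL D.Idx F} (h : Cell Q w g) (i : Fin D.rank) (hi : (i : ℕ) ∈ J)
    (hneg : ¬ ps (w (si Q i i.2))) : ∃ p ∈ D.parabolicSubgroup F J, Cell Q (w * sr Q.C2 i) (g * p) := by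
  obtain ⟨b, hb, n, hn, ⟨u, hm⟩, b', hb', e⟩ := h
  have hnG : nG Q (D.simple i) 1 ∈ D.parabolicSubgroup F J :=
    Subgroup.mem_sup_right (Subgroup.subset_closure ⟨i, hi, i.2, nG_val Q (Q.C.simple_lt i i.2) 1⟩)
  have hnN : nG Q (D.simple i) 1 ∈ D.monomialSubgroup F := by
    rw [monomial_eq Q]
    exact Subgroup.mem_sup_right (Subgroup.subset_closure ⟨_, Q.C.simple_lt i i.2, rfl⟩)
  have hm2 := hm.mul (mono_n Q i.2)
  exact ⟨b'⁻¹ * nG Q (D.simple i) 1, Subgroup.mul_mem _ (Subgroup.mem_sup_left (Subgroup.inv_mem _ hb')) hnG,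
    b, hb, n * nG Q (D.simple i) 1, Subgroup.mul_mem _ hn hnN, ⟨_, hm2⟩, 1, Subgroup.one_mem _, by rw [e]; group⟩

/-- minimal double coset representatives -/
theorem exists_dmin {J K : Set ℕ} : ∀ (k : ℕ) {w : Equiv.Perm (Fin D.nroots)} {g : GL D.Idx F}, ninv w = k → Cell Q w g →
    ∃ x ∈ D.parabolicSubgroup F J, ∃ y ∈ D.parabolicSubgroup F K, ∃ w', MinC Q K w' ∧ MinC Q J w'⁻¹ ∧ Cell Q w' (x * g * y) := by
  intro k
  induction k using Nat.strong_induction_on with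
  | _ k ih =>
    intro w g hk h
    by_cases h1 : MinC Q K w
    · by_cases h2 : MinC Q J w⁻¹
      · exact ⟨1, Subgroup.one_mem _, 1, Subgroup.one_mem _, w, h1, h2, by rw [mul_one, one_mul]; exact h⟩
      · rw [MinC] at h2
        push Not at h2
        obtain ⟨i, hi, hneg⟩ := h2
        obtain ⟨p, hp, hc⟩ := cell_step h.inv i hi hneg
        have hwi := (WG Q.C2).inv_mem h.mem
        have hl := ninv_mul_srR hwi i.2 hneg
        rw [ninv_inv Q (WG_waut Q h.mem)] at hl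
        have hc' := hc.inv
        have hwa := WG_waut Q ((WG Q.C2).mul_mem hwi (sr_mem Q i.2))
        have hl2 : ninv (w⁻¹ * sr Q.C2 i)⁻¹ < k := by
          rw [ninv_inv Q hwa]; omega
        obtain ⟨x, hx, y, hy, w', h3, h4, h5⟩ := ih _ hl2 rfl hc'
        refine ⟨x * p⁻¹, Subgroup.mul_mem _ hx (Subgroup.inv_mem _ hp), y, hy, w', h3, h4, ?_⟩
        have e : x * p⁻¹ * g * y = x * (g⁻¹ * p)⁻¹ * y := by group
        rw [e]; exact h5
    · rw [MinC] at h1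
      push Not at h1
      obtain ⟨i, hi, hneg⟩ := h1
      obtain ⟨p, hp, hc⟩ := cell_step h i hi hneg
      have hl := ninv_mul_srR h.mem i.2 hneg
      obtain ⟨x, hx, y, hy, w', h3, h4, h5⟩ := ih _ (by omega) rfl hc
      refine ⟨x, hx, p * y, Subgroup.mul_mem _ hp hy, w', h3, h4, ?_⟩
      have e : x * g * (p * y) = x * (g * p) * y := by group
      rw [e]; exact h5

lemma par_le_group (hS : SuppD Q.C) (J : Set ℕ) : D.parabolicSubgroup F J ≤ D.group F := by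
  rw [← normalizer_radical hS J]; exact inf_le_right

/-- right multiplication by elements of a parabolic subgroup -/
theorem cell_mul_par (hS : SuppD Q.C) {K : Set ℕ} {w : Equiv.Perm (Fin D.nroots)} {g x : GL D.Idx F} (h : Cell Q w g)
    (hx : x ∈ D.parabolicSubgroup F K) : ∃ v ∈ WG Q.C2, WP D K v ∧ Cell Q (w * v) (g * x) := by
  obtain ⟨p, hp, w', hmin, hc⟩ := exists_minC (J := K) (ninv w) rfl h
  have hpi := Subgroup.inv_mem _ hp
  have hpx := Subgroup.mul_mem _ hpi hx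
  obtain ⟨v1, hv1, hc1⟩ := cell_exists (Q := Q) (par_le_group hS K hpi)
  obtain ⟨v2, hv2, hc2⟩ := cell_exists (Q := Q) (par_le_group hS K hpx)
  have hP1 := (cell_par hS hc1).1 hpi
  have hP2 := (cell_par hS hc2).1 hpx
  have h1 := cell_mul hS hc hmin hc1 hP1
  have h2 := cell_mul hS hc hmin hc2 hP2
  have e1 : g * p * p⁻¹ = g := by group
  have e2 : g * p * (p⁻¹ * x) = g * x := by group
  rw [e1] at h1
  rw [e2] at h2
  have h3 := cell_unique h h1
  refine ⟨v1⁻¹ * v2, (WG Q.C2).mul_mem ((WG Q.C2).inv_mem hv1) hv2, hP1.inv.mul hP2, ?_⟩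
  have e3 : w * (v1⁻¹ * v2) = w' * v2 := by rw [h3]; group
  rw [e3]; exact h2

theorem cell_par_mul (hS : SuppD Q.C) {J : Set ℕ} {w : Equiv.Perm (Fin D.nroots)} {g x : GL D.Idx F} (h : Cell Q w g)
    (hx : x ∈ D.parabolicSubgroup F J) : ∃ v ∈ WG Q.C2, WP D J v ∧ Cell Q (v * w) (x * g) := by
  obtain ⟨v, hv, hP, hc⟩ := cell_mul_par hS h.inv (Subgroup.inv_mem _ hx)
  refine ⟨v⁻¹, (WG Q.C2).inv_mem hv, hP.inv, ?_⟩
  have h1 := hc.inv
  have e1 : (w⁻¹ * v)⁻¹ = v⁻¹ * w := by group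
  have e2 : (g⁻¹ * x⁻¹)⁻¹ = x * g := by group
  rwa [e1, e2] at h1

/-! ### The Weyl group -/

/-- an element of `W_K` different from one inverts a simple root in `K` -/
lemma WP.exists_neg {K : Set ℕ} {v : Equiv.Perm (Fin D.nroots)} (hS : SuppD Q.C) (hv : v ∈ WG Q.C2) (hP : WP D K v) (h1 : v ≠ 1) :
    ∃ i : Fin D.rank, (i : ℕ) ∈ K ∧ ¬ ps (v (si Q i i.2)) := by
  by_contra hcon
  push Not at hcon
  apply h1
  apply eq_one_of_ps Q hv
  apply pos_of_simple Q (WG_waut Q hv)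
  intro i hi
  by_cases hiK : i ∈ K
  · exact hcon ⟨i, hi⟩ hiK
  · exact (hP _ (si_mem_RJ hS hi hiK)).1.1

lemma wp_sr (hS : SuppD Q.C) {K : Set ℕ} {i : ℕ} (hi : i < D.rank) (hK : i ∈ K) : WP D K (sr Q.C2 i) := by
  intro r hr
  exact sr_mem_RJ hS hi hK hr

open Classical in
variable (Q) in
/-- the sum of the coordinates outside `K` -/
noncomputable def fK (K : Set ℕ) (r : Fin D.nroots) : ℝ := ∑ l : Fin D.rank, (Q.C.vec r l : ℝ) * (if (l : ℕ) ∈ K then 0 else 1)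

open Classical in
lemma fK_si (K : Set ℕ) (i : Fin D.rank) : fK Q K (si Q i i.2) = if (i : ℕ) ∈ K then 0 else 1 := by
  rw [fK]
  rw [Finset.sum_eq_single i]
  · have h1 : Q.C.vec ((si Q i i.2 : Fin D.nroots) : ℕ) i = 1 := by
      have := Q.C.vec_simple i i.2 i i.2
      rw [if_pos rfl] at this
      exact this
    rw [h1]; simp
  · intro l _ hl
    have h1 : Q.C.vec ((si Q i i.2 : Fin D.nroots) : ℕ) l = 0 := by
      have := Q.C.vec_simple i i.2 l l.2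
      rw [if_neg (fun h => hl (Fin.ext h.symm))] at this
      exact this
    rw [h1]; simp
  · intro h; exact absurd (Finset.mem_univ _) h

lemma fK_lin (K : Set ℕ) : LinF Q.C (fK Q K) := by
  classical
  intro r
  rw [fK]
  refine Finset.sum_congr rfl (fun l _ => ?_)
  have := fK_si (Q := Q) K l
  rw [← this]
  rfl

lemma fK_dom (K : Set ℕ) : DomF Q (fK Q K) := by
  classical
  intro i
  rw [fK_si]
  split_ifs <;> norm_num

lemma fK_pos_iff (hS : SuppD Q.C) (K : Set ℕ) (r : Fin D.nroots) : 0 < fK Q K r ↔ (r : ℕ) ∈ RJ D K := by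
  classical
  constructor
  · intro h
    have hr := (fK_lin (Q := Q) K).ps (fK_dom K) h
    refine ⟨⟨hr, r.2⟩, fun h1 => ?_⟩
    have h2 : fK Q K r = 0 := by
      rw [fK]
      apply Finset.sum_eq_zero
      intro l _
      by_cases hl : (l : ℕ) ∈ K
      · rw [if_pos hl, mul_zero]
      · rw [((mem_PhiJ hS).1 h1).2 l l.2 hl]; simp
    rw [h2] at h
    exact lt_irrefl _ h
  · rintro ⟨h1, h2⟩
    have h3 : ¬ (∀ i < D.rank, i ∉ K → Q.C.vec r i = 0) := fun h => h2 ((mem_PhiJ hS).2 ⟨r.2, h⟩)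
    push Not at h3
    obtain ⟨i, hi, hiK, h4⟩ := h3
    have hnn : ∀ l ∈ (Finset.univ : Finset (Fin D.rank)), 0 ≤ (Q.C.vec r l : ℝ) * (if (l : ℕ) ∈ K then 0 else 1) := by
      intro l _
      have h5 := vec_nonneg (C := Q.C) r r.2 h1.1 l l.2
      apply mul_nonneg (by exact_mod_cast h5)
      split_ifs <;> norm_num
    rw [fK]
    refine Finset.sum_pos' hnn ⟨⟨i, hi⟩, Finset.mem_univ _, ?_⟩
    have h5 := vec_nonneg (C := Q.C) r r.2 h1.1 i hi
    have h6 : 0 < Q.C.vec r i := lt_of_le_of_ne h5 (Ne.symm h4)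
    show 0 < (Q.C.vec r i : ℝ) * (if i ∈ K then 0 else 1)
    rw [if_neg hiK, mul_one]
    exact_mod_cast h6

lemma fK_inv (hS : SuppD Q.C) (K : Set ℕ) : ∀ (k : ℕ) {v : Equiv.Perm (Fin D.nroots)}, ninv v = k → v ∈ WG Q.C2 → WP D K v →
    ∀ r, fK Q K (v r) = fK Q K r := by
  intro k
  induction k using Nat.strong_induction_on with
  | _ k ih =>
    intro v hk hv hP r
    by_cases h1 : v = 1
    · rw [h1]; rfl
    · obtain ⟨i, hi, hneg⟩ := hP.exists_neg hS hv h1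
      have hl := ninv_mul_srR hv i.2 hneg
      have h2 := ih _ (by omega) rfl ((WG Q.C2).mul_mem hv (sr_mem Q i.2)) (hP.mul (wp_sr hS i.2 hi)) (sr Q.C2 i r)
      rw [Equiv.Perm.mul_apply] at h2
      have e : sr Q.C2 i (sr Q.C2 i r) = r := by rw [← Equiv.Perm.mul_apply, sr_mul_self]; rfl
      rw [e] at h2
      rw [h2, (fK_lin (Q := Q) K).sr i.2, fK_si, if_pos hi, mul_zero, sub_zero]

/-- uniqueness of dominant representatives -/
lemma dom_unique (hS : SuppD Q.C) (J : Set ℕ) {f : Fin D.nroots → ℝ} (hf : LinF Q.C f)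
    (hd : ∀ i : Fin D.rank, (i : ℕ) ∈ J → 0 ≤ f (si Q i i.2)) : ∀ (k : ℕ) {v : Equiv.Perm (Fin D.nroots)}, ninv v = k →
    v ∈ WG Q.C2 → WP D J v → (∀ i : Fin D.rank, (i : ℕ) ∈ J → 0 ≤ f (v⁻¹ (si Q i i.2))) → ∀ r, f (v⁻¹ r) = f r := by
  intro k
  induction k using Nat.strong_induction_on with
  | _ k ih =>
    intro v hk hv hP hd' r
    by_cases h1 : v = 1
    · rw [h1]; rfl
    · obtain ⟨i, hi, hneg⟩ := hP.exists_neg hS hv h1
      have hva := WG_waut Q hv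
      have h2 : f (si Q i i.2) = 0 := by
        apply le_antisymm _ (hd i hi)
        -- the root `-v(α_i)` is positive in `Φ_J`
        have h3 : ((v (si Q i i.2) : Fin D.nroots) : ℕ) ∈ PhiJ D J := (hP.phi hS hva _).2 (si_mem_phi Q i.2 hi)
        have h4 : ((Fin.rev (v (si Q i i.2)) : Fin D.nroots) : ℕ) ∈ PhiJ D J := by
          rw [fin_rev_val]; exact phiJ_neg hS h3
        have hps := (ps_rev Q).2 hneg
        have hg : LinF Q.C (fun r => f (v⁻¹ r)) := hf.comp ((WG Q.C2).inv_mem hv)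
        have h5 : 0 ≤ f (v⁻¹ (Fin.rev (v (si Q i i.2)))) := by
          have e := hg (Fin.rev (v (si Q i i.2)))
          rw [show f (v⁻¹ (Fin.rev (v (si Q i i.2)))) = (fun r => f (v⁻¹ r)) (Fin.rev (v (si Q i i.2))) from rfl, e]
          apply Finset.sum_nonneg
          intro l _
          by_cases hl : (l : ℕ) ∈ J
          · have h6 := vec_nonneg (C := Q.C) _ (Fin.rev (v (si Q i i.2))).2 hps l l.2
            exact mul_nonneg (by exact_mod_cast h6) (hd' l hl)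
          · rw [((mem_PhiJ hS).1 h4).2 l l.2 hl]; simp
        rw [hva.inv.rev, perm_inv_apply, hf.rev] at h5
        linarith
      have hl := ninv_mul_srR hv i.2 hneg
      have h3 : ∀ s, f ((v * sr Q.C2 i)⁻¹ s) = f (v⁻¹ s) := by
        intro s
        rw [_root_.mul_inv_rev, sr_inv, Equiv.Perm.mul_apply, hf.sr i.2, h2, mul_zero, sub_zero]
      have h4 := ih _ (by omega) rfl ((WG Q.C2).mul_mem hv (sr_mem Q i.2)) (hP.mul (wp_sr hS i.2 hi))
        (fun j hj => by rw [h3]; exact hd' j hj) r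
      rw [← h3, h4]

lemma minC_unique (hS : SuppD Q.C) {K : Set ℕ} {w z : Equiv.Perm (Fin D.nroots)} (hw : w ∈ WG Q.C2) (hz : z ∈ WG Q.C2)
    (hP : WP D K z) (h1 : MinC Q K w) (h2 : MinC Q K (w * z)) : z = 1 := by
  by_contra hne
  obtain ⟨i, hi, hneg⟩ := hP.exists_neg hS hz hne
  have h3 : ((z (si Q i i.2) : Fin D.nroots) : ℕ) ∈ PhiJ D K := (hP.phi hS (WG_waut Q hz) _).2 (si_mem_phi Q i.2 hi)
  have h5 : ((Fin.rev (z (si Q i i.2)) : Fin D.nroots) : ℕ) ∈ PhiJ D K := by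
    rw [fin_rev_val]; exact phiJ_neg hS h3
  have h6 := h1.phi hS hw ((ps_rev Q).2 hneg) h5
  rw [(WG_waut Q hw).rev] at h6
  have h7 := h2 i hi
  rw [Equiv.Perm.mul_apply] at h7
  exact (ps_rev Q).1 h6 h7

/-- uniqueness of minimal double coset representatives in the Weyl group -/
theorem dmin_unique (hS : SuppD Q.C) {J K : Set ℕ} {w v v' : Equiv.Perm (Fin D.nroots)} (hw : w ∈ WG Q.C2) (hv : v ∈ WG Q.C2)
    (hv' : v' ∈ WG Q.C2) (hP : WP D J v) (hP' : WP D K v') (h1 : MinC Q K w) (h2 : MinC Q J w⁻¹)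
    (h1' : MinC Q K (v * w * v')) (h2' : MinC Q J (v * w * v')⁻¹) : w = v * w * v' := by
  have hwi := (WG Q.C2).inv_mem hw
  set w' := v * w * v' with hw'
  have hw'm : w' ∈ WG Q.C2 := (WG Q.C2).mul_mem ((WG Q.C2).mul_mem hv hw) hv'
  have hf : LinF Q.C (fun r => fK Q K (w⁻¹ r)) := (fK_lin K).comp hwi
  have e1 : ∀ r, fK Q K (w⁻¹ (v⁻¹ r)) = fK Q K (w'⁻¹ r) := by
    intro r
    have e2 : w'⁻¹ r = v'⁻¹ (w⁻¹ (v⁻¹ r)) := by
      rw [hw', _root_.mul_inv_rev, _root_.mul_inv_rev]; rfl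
    rw [e2, fK_inv hS K _ rfl ((WG Q.C2).inv_mem hv') hP'.inv]
  have h3 := dom_unique hS J hf (fun i hi => (fK_lin K).nonneg (fK_dom K) (h2 i hi)) _ rfl hv hP
    (fun i hi => by
      show 0 ≤ fK Q K (w⁻¹ (v⁻¹ (si Q i i.2)))
      rw [e1]
      exact (fK_lin K).nonneg (fK_dom K) (h2' i hi))
  have h4 : ∀ r, fK Q K ((w⁻¹ * w') r) = fK Q K r := by
    intro r
    have h5 : fK Q K (w⁻¹ (v⁻¹ (w' r))) = fK Q K (w⁻¹ (w' r)) := h3 (w' r)
    rw [Equiv.Perm.mul_apply, ← h5, e1, perm_inv_apply]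
  have hz : w⁻¹ * w' ∈ WG Q.C2 := (WG Q.C2).mul_mem hwi hw'm
  have hzP : WP D K (w⁻¹ * w') := by
    intro r hr
    rw [← fK_pos_iff (Q := Q) hS, h4, fK_pos_iff hS]
    exact hr
  have h5 := minC_unique hS hw hz hzP h1 (by rw [mul_inv_cancel_left]; exact h1')
  exact inv_mul_eq_one.1 h5

end Cfsg.Agent.Lib.ChevAlg
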