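import Cfsg.Agent.Lib.ChevCell4
import Cfsg.Agent.Lib.CharPermB
import Cfsg.Agent.Lib.CharExc

/-!
# The Steinberg character is irreducible
-/

set_option autoImplicit false

namespace Cfsg.Agent.Lib.ChevAlg

open Cfsg.Lie Cfsg.Agent.Lib.ChevTab Matrix

variable {D : ChevalleyDatum} {F : Type*} [Field F] {Q : ChevO D F}

lemma cell_rel {w : Equiv.Perm (Fin D.nroots)} {g g' : GL D.Idx F} (h : Cell Q w g) (h' : Cell Q w g') :
    ∃ b ∈ D.borelSubgroup F, ∃ b' ∈ D.borelSubgroup F, g' = b * g * b' := by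
  obtain ⟨b, hb, n, hn, ⟨u, hm⟩, c, hc, e⟩ := h
  obtain ⟨b', hb', n', hn', ⟨u', hm'⟩, c', hc', e'⟩ := h'
  have h3 : n⁻¹ * n' ∈ D.diagonalSubgroup F := by
    have h5 := hm.inv.mul hm'
    rw [inv_mul_cancel] at h5
    exact mem_diagonal_of_mono Q (Subgroup.mul_mem _ (Subgroup.inv_mem _ hn) hn') h5
  exact ⟨b' * b⁻¹, Subgroup.mul_mem _ hb' (Subgroup.inv_mem _ hb), c⁻¹ * (n⁻¹ * n') * c',
    Subgroup.mul_mem _ (Subgroup.mul_mem _ (Subgroup.inv_mem _ hc) (H_le_borel Q h3)) hc', by rw [e, e']; group⟩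

variable (Q) in
lemma cell_rep {w : Equiv.Perm (Fin D.nroots)} (hw : w ∈ WG Q.C2) : ∃ g : ↥(D.group F), Cell Q w (g : GL D.Idx F) := by
  obtain ⟨g, hg, u, hm⟩ := exists_mono Q hw
  have hn := N0_le_monomial Q hg
  exact ⟨⟨g, monomial_le_group Q hn⟩, 1, Subgroup.one_mem _, g, hn, ⟨u, hm⟩, 1, Subgroup.one_mem _, by group⟩

lemma smul_mkP (J : Set ℕ) (g x : ↥(D.group F)) :
    g • (x : ↥(D.group F) ⧸ ParG D F J) = ((g * x : ↥(D.group F)) : ↥(D.group F) ⧸ ParG D F J) :=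
  MulAction.Quotient.smul_coe _ _ _

lemma mkP_eq {J : Set ℕ} {x y : ↥(D.group F)} :
    (x : ↥(D.group F) ⧸ ParG D F J) = (y : ↥(D.group F) ⧸ ParG D F J) ↔ (x : GL D.Idx F)⁻¹ * y ∈ D.parabolicSubgroup F J := by
  rw [QuotientGroup.eq, Subgroup.mem_subgroupOf]
  rfl

/-- orbits on pairs of cosets of parabolic subgroups -/
theorem card_orbits (hS : SuppD Q.C) (J K : Set ℕ) :
    Nat.card (MulAction.orbitRel.Quotient ↥(D.group F) ((↥(D.group F) ⧸ ParG D F J) × (↥(D.group F) ⧸ ParG D F K))) =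
      Nat.card {w : Equiv.Perm (Fin D.nroots) // w ∈ WG Q.C2 ∧ MinC Q K w ∧ MinC Q J w⁻¹} := by
  classical
  have hrep : ∀ w : {w : Equiv.Perm (Fin D.nroots) // w ∈ WG Q.C2 ∧ MinC Q K w ∧ MinC Q J w⁻¹}, ∃ g : ↥(D.group F),
      Cell Q w.1 (g : GL D.Idx F) := fun w => cell_rep Q w.2.1
  choose n hn using hrep
  have hrel : ∀ x y : (↥(D.group F) ⧸ ParG D F J) × (↥(D.group F) ⧸ ParG D F K),
      (Quotient.mk (MulAction.orbitRel ↥(D.group F) _) x = Quotient.mk (MulAction.orbitRel ↥(D.group F) _) y) ↔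
        ∃ g : ↥(D.group F), g • y = x := by
    intro x y
    rw [Quotient.eq]
    exact MulAction.orbitRel_apply
  symm
  refine Nat.card_congr (Equiv.ofBijective (fun w => Quotient.mk (MulAction.orbitRel ↥(D.group F) _)
    (((1 : ↥(D.group F)) : ↥(D.group F) ⧸ ParG D F J), ((n w : ↥(D.group F)) : ↥(D.group F) ⧸ ParG D F K))) ⟨?_, ?_⟩)
  · intro w w' h
    obtain ⟨g, hg⟩ := (hrel _ _).1 h
    have h1 := congrArg Prod.fst hg
    have h2 := congrArg Prod.snd hg
    simp only [Prod.smul_fst, Prod.smul_snd] at h1 h2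
    rw [smul_mkP, mkP_eq] at h1 h2
    have h3 : (g : GL D.Idx F) ∈ D.parabolicSubgroup F J := by
      have e : (g : GL D.Idx F) = ((((g * 1 : ↥(D.group F)) : GL D.Idx F))⁻¹ * ((1 : ↥(D.group F)) : GL D.Idx F))⁻¹ := by
        rw [mul_one]; simp
      rw [e]
      exact Subgroup.inv_mem _ h1
    obtain ⟨v, hv, hvP, hc⟩ := cell_par_mul hS (hn w') h3
    obtain ⟨v', hv', hvP', hc'⟩ := cell_mul_par hS hc h2
    have e : (g : GL D.Idx F) * (n w') * (((g * n w' : ↥(D.group F)) : GL D.Idx F)⁻¹ * (n w : GL D.Idx F)) = n w := by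
      push_cast; group
    rw [e] at hc'
    have h4 := cell_unique (hn w) hc'
    have h5 := w.2
    rw [h4] at h5
    apply Subtype.ext
    rw [h4]
    exact (dmin_unique hS w'.2.1 hv hv' hvP hvP' w'.2.2.1 w'.2.2.2 h5.2.1 h5.2.2).symm
  · intro q
    induction q using Quotient.inductionOn with
    | h p =>
      obtain ⟨a, b⟩ := p
      induction a using QuotientGroup.induction_on with
      | H g1 =>
        induction b using QuotientGroup.induction_on with
        | H g2 =>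
          obtain ⟨w0, -, hw0⟩ := cell_exists (Q := Q) (g1⁻¹ * g2).2
          obtain ⟨x, hx, y, hy, w, h1, h2, h3⟩ := exists_dmin (J := J) (K := K) _ rfl hw0
          have hw : w ∈ WG Q.C2 := h3.mem
          obtain ⟨b, hb, b', hb', e⟩ := cell_rel h3 (hn ⟨w, hw, h1, h2⟩)
          refine ⟨⟨w, hw, h1, h2⟩, ?_⟩
          simp only
          rw [hrel]
          -- n = b x g1⁻¹ g2 y b'; so (P_J, n P_K) = (b x g1⁻¹) • (g1, g2)
          have hxG := par_le_group hS J hx
          have hbG := borel_le_group Q hb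
          refine ⟨⟨b, hbG⟩ * ⟨x, hxG⟩ * g1⁻¹, ?_⟩
          refine Prod.ext ?_ ?_
          · simp only [Prod.smul_fst]
            rw [smul_mkP, mkP_eq]
            have e2 : (((⟨b, hbG⟩ * ⟨x, hxG⟩ * g1⁻¹ * g1 : ↥(D.group F)) : GL D.Idx F))⁻¹ * ((1 : ↥(D.group F)) : GL D.Idx F) =
                (b * x)⁻¹ := by push_cast; group
            rw [e2]
            exact Subgroup.inv_mem _ (Subgroup.mul_mem _ (borel_le_par J hb) hx)
          · simp only [Prod.smul_snd]
            rw [smul_mkP, mkP_eq]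
            have e2 : (((⟨b, hbG⟩ * ⟨x, hxG⟩ * g1⁻¹ * g2 : ↥(D.group F)) : GL D.Idx F))⁻¹ * (n ⟨w, hw, h1, h2⟩ : GL D.Idx F) =
                y * b' := by
              rw [e]; push_cast; group
            rw [e2]
            exact Subgroup.mul_mem _ hy (borel_le_par K hb')

lemma st_eq_sum (D : ChevalleyDatum) (F : Type*) [Field F] : D.steinbergCharacter F = ∑ J ∈ (Finset.range D.rank).powerset,
    ((-1 : ℂ) ^ J.card) • Cfsg.Agent.Lib.CharPermB.permChar ↥(D.group F) (↥(D.group F) ⧸ ParG D F (J : Set ℕ)) := by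
  funext g
  rw [Finset.sum_apply]
  rfl

open Cfsg.Agent.Lib.CharPermB Cfsg.Agent.Lib.CharExc Cfsg.Agent.Lib.CharBasic in
lemma st_gen [Finite F] : IsGeneralizedCharacter ↥(D.group F) (D.steinbergCharacter F) := by
  rw [st_eq_sum]
  apply gen_sum
  intro J _
  have h1 : ((-1 : ℂ) ^ J.card) = (((-1 : ℤ) ^ J.card : ℤ) : ℂ) := by push_cast; rfl
  rw [h1]
  exact gen_zsmul _ (gen_of_char (permChar_isChar _))

open Cfsg.Agent.Lib.CharPermB Cfsg.Agent.Lib.CharExc Cfsg.Agent.Lib.CharBasic Classical in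
lemma st_norm [Finite F] [Fintype ↥(D.group F)] (hS : SuppD Q.C) :
    classInner (D.steinbergCharacter F) (D.steinbergCharacter F) = 1 := by
  obtain ⟨n0, w0, h0⟩ := exists_isN0 Q
  have hw0i : ∀ s : Fin D.nroots, ps s → ¬ ps (w0⁻¹ s) := h0.inv_neg
  have hcount : ∀ J K : Set ℕ, (Nat.card {w : Equiv.Perm (Fin D.nroots) // w ∈ WG Q.C2 ∧ MinC Q K w ∧ MinC Q J w⁻¹} : ℂ) =
      ∑ w ∈ Finset.univ.filter (fun w : Equiv.Perm (Fin D.nroots) => w ∈ WG Q.C2),
        ((if MinC Q J w⁻¹ then (1 : ℂ) else 0) * (if MinC Q K w then 1 else 0)) := by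
    intro J K
    rw [Nat.card_eq_fintype_card, Fintype.card_subtype, ← Finset.filter_filter, Finset.card_filter]
    push_cast
    refine Finset.sum_congr rfl (fun w _ => ?_)
    by_cases h1 : MinC Q J w⁻¹ <;> by_cases h2 : MinC Q K w <;> simp [h1, h2]
  have h1 : classInner (D.steinbergCharacter F) (D.steinbergCharacter F) =
      ∑ J ∈ (Finset.range D.rank).powerset, ∑ K ∈ (Finset.range D.rank).powerset,
        ∑ w ∈ Finset.univ.filter (fun w : Equiv.Perm (Fin D.nroots) => w ∈ WG Q.C2),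
          (((-1 : ℂ) ^ J.card * (if MinC Q (J : Set ℕ) w⁻¹ then (1 : ℂ) else 0)) *
            ((-1 : ℂ) ^ K.card * (if MinC Q (K : Set ℕ) w then 1 else 0))) := by
    rw [st_eq_sum, classInner_sum_left]
    refine Finset.sum_congr rfl (fun J _ => ?_)
    rw [classInner_sum_right]
    refine Finset.sum_congr rfl (fun K _ => ?_)
    rw [classInner_smul_left, classInner_smul_right, inner_permChar_permChar, card_orbits (Q := Q) hS, hcount,
      Finset.mul_sum, Finset.mul_sum]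
    refine Finset.sum_congr rfl (fun w _ => ?_)
    rw [map_pow, map_neg, map_one]
    ring
  have h2 : ∀ w : Equiv.Perm (Fin D.nroots), w ∈ WG Q.C2 →
      (∑ J ∈ (Finset.range D.rank).powerset, ∑ K ∈ (Finset.range D.rank).powerset,
          (((-1 : ℂ) ^ J.card * (if MinC Q (J : Set ℕ) w⁻¹ then (1 : ℂ) else 0)) *
            ((-1 : ℂ) ^ K.card * (if MinC Q (K : Set ℕ) w then 1 else 0)))) = if w = w0 then 1 else 0 := by
    intro w hw
    have e1 := AW_empty_iff ((WG Q.C2).inv_mem hw) ((WG Q.C2).inv_mem h0.mem) hw0i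
    have e2 := AW_empty_iff hw h0.mem h0.neg
    rw [← Finset.sum_mul_sum, alt_sum, alt_sum]
    by_cases h3 : w = w0
    · rw [if_pos (e1.2 (by rw [h3])), if_pos (e2.2 h3), if_pos h3, mul_one]
    · rw [if_neg (fun h => h3 (e2.1 h)), mul_zero, if_neg h3]
  rw [h1]
  have h3 : ∀ J ∈ (Finset.range D.rank).powerset, ∑ K ∈ (Finset.range D.rank).powerset,
        ∑ w ∈ Finset.univ.filter (fun w : Equiv.Perm (Fin D.nroots) => w ∈ WG Q.C2),
          (((-1 : ℂ) ^ J.card * (if MinC Q (J : Set ℕ) w⁻¹ then (1 : ℂ) else 0)) *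
            ((-1 : ℂ) ^ K.card * (if MinC Q (K : Set ℕ) w then 1 else 0))) =
      ∑ w ∈ Finset.univ.filter (fun w : Equiv.Perm (Fin D.nroots) => w ∈ WG Q.C2), ∑ K ∈ (Finset.range D.rank).powerset,
          (((-1 : ℂ) ^ J.card * (if MinC Q (J : Set ℕ) w⁻¹ then (1 : ℂ) else 0)) *
            ((-1 : ℂ) ^ K.card * (if MinC Q (K : Set ℕ) w then 1 else 0))) := fun J _ => Finset.sum_comm
  rw [Finset.sum_congr rfl h3, Finset.sum_comm, Finset.sum_congr rfl (fun w hw => h2 w (Finset.mem_filter.1 hw).2),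
    Finset.sum_ite_eq', if_pos (Finset.mem_filter.2 ⟨Finset.mem_univ _, h0.mem⟩)]

/-- the Steinberg character is irreducible -/
theorem st_irr [Fintype F] (hS : SuppD Q.C) : IsIrrCharacter ↥(D.group F) (D.steinbergCharacter F) := by
  have : Fintype ↥(D.group F) := Fintype.ofFinite _
  refine Cfsg.Agent.Lib.CharExc.norm_one_pos st_gen (st_norm (Q := Q) hS) ?_
  rw [st_one hS, ← Nat.cast_pow, Complex.natCast_re]
  exact_mod_cast pow_pos Fintype.card_pos _

end Cfsg.Agent.Lib.ChevAlg
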