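import Cfsg.Agent.Lib.ChevCell5
import Cfsg.Agent.Lib.CharDefectZero
import Cfsg.Agent.Lib.ChevSmall

/-!
# The Steinberg character vanishes off the semisimple elements
-/

set_option autoImplicit false

namespace Cfsg.Agent.Lib.ChevAlg

open Cfsg.Lie Cfsg.Agent.Lib.ChevTab Matrix

variable {D : ChevalleyDatum} {F : Type*} [Field F] {Q : ChevO D F}

include Q in
lemma card_U_fact [Fintype F] (p : ℕ) [Fact p.Prime] [CharP F p] :
    Fintype.card F ^ (D.nroots / 2) = p ^ (Nat.card ↥(D.group F)).factorization p := by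
  obtain ⟨P, hP⟩ := U_sylow Q p
  have h1 := P.card_eq_multiplicity
  have hle : D.posUnipotent F ≤ D.group F := by
    rw [posUnipotent_eq Q]
    exact (U_le_borel Q).trans (borel_le_group Q)
  rw [← h1]
  have h2 : Nat.card (P : Subgroup ↥(D.group F)) = Fintype.card F ^ (D.nroots / 2) := by
    rw [hP, Nat.card_congr (Subgroup.subgroupOfEquivOfLe hle).toEquiv, posUnipotent_eq Q, card_U Q]
  exact h2.symm

theorem st_vanish [Fintype F] (hS : SuppD Q.C) (p : ℕ) [Fact p.Prime] [CharP F p] {g : ↥(D.group F)} (hg : p ∣ orderOf g) :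
    D.steinbergCharacter F g = 0 := by
  have hp : p.Prime := Fact.out
  have : Fintype ↥(D.group F) := Fintype.ofFinite _
  refine Cfsg.Agent.Lib.CharDefectZero.vanish (n := (Nat.card ↥(D.group F)).factorization p) hp (Nat.ordProj_dvd _ _)
    (Nat.pow_succ_factorization_not_dvd Nat.card_pos.ne' hp) (st_irr (Q := Q) hS)
    (d := Fintype.card F ^ (D.nroots / 2)) (by rw [st_one hS]; push_cast; rfl) (by rw [card_U_fact (Q := Q) p]) g hg

end Cfsg.Agent.Lib.ChevAlg
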