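import Cfsg.Agent.Lib.ChevCell6

/-!
# Longest elements of parabolic subgroups of the Weyl group, heights
-/

set_option autoImplicit false

namespace Cfsg.Agent.Lib.ChevAlg

open Cfsg.Lie Cfsg.Agent.Lib.ChevTab Matrix

variable {D : ChevalleyDatum} {F : Type*} [Field F] {Q : ChevO D F}

/-- longest elements of `W_J` -/
lemma exists_long (hS : SuppD Q.C) (J : Set ℕ) : ∃ v ∈ WG Q.C2, WP D J v ∧ MaxC Q J v := by
  classical
  obtain ⟨v, hv, hmax⟩ := Finset.exists_max_image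
    (Finset.univ.filter (fun v : Equiv.Perm (Fin D.nroots) => v ∈ WG Q.C2 ∧ WP D J v)) ninv
    ⟨1, Finset.mem_filter.2 ⟨Finset.mem_univ _, (WG Q.C2).one_mem, WP.one J⟩⟩
  obtain ⟨hvW, hvP⟩ := (Finset.mem_filter.1 hv).2
  refine ⟨v, hvW, hvP, fun i hi hps => ?_⟩
  have h1 := ninv_mul_sr Q (WG_waut Q hvW) i.2 hps
  have h2 := hmax (v * sr Q.C2 i) (Finset.mem_filter.2 ⟨Finset.mem_univ _, (WG Q.C2).mul_mem hvW (sr_mem Q i.2),
    hvP.mul (wp_sr hS i.2 hi)⟩)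
  omega

lemma MaxC.sq (hS : SuppD Q.C) {J : Set ℕ} {v : Equiv.Perm (Fin D.nroots)} (hv : v ∈ WG Q.C2) (hP : WP D J v) (hM : MaxC Q J v) :
    v * v = 1 := by
  have hva := WG_waut Q hv
  apply eq_one_of_ps Q ((WG Q.C2).mul_mem hv hv)
  intro s hs
  by_cases hJ : (s : ℕ) ∈ PhiJ D J
  · have h1 := hM.phi hS hv hs hJ
    have h2 := (hP.phi hS hva s).2 hJ
    have h3 : ((Fin.rev (v s) : Fin D.nroots) : ℕ) ∈ PhiJ D J := by
      rw [fin_rev_val]; exact phiJ_neg hS h2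
    have h4 := hM.phi hS hv ((ps_rev Q).2 h1) h3
    rw [hva.rev, ps_rev Q, not_not] at h4
    exact h4
  · exact (hP _ (hP s ⟨⟨hs, s.2⟩, hJ⟩)).1.1

variable (Q) in
/-- heights -/
def htZ (r : Fin D.nroots) : ℤ := ∑ l : Fin D.rank, Q.C.vec r l

lemma htZ_si (i : Fin D.rank) : htZ Q (si Q i i.2) = 1 := by
  rw [htZ, Finset.sum_eq_single i]
  · have := Q.C.vec_simple i i.2 i i.2
    rw [if_pos rfl] at this
    exact this
  · intro l _ hl
    have := Q.C.vec_simple i i.2 l l.2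
    rw [if_neg (fun h => hl (Fin.ext h.symm))] at this
    exact this
  · intro h; exact absurd (Finset.mem_univ _) h

lemma htZ_lin : LinF Q.C (fun r => (htZ Q r : ℝ)) := by
  intro r
  show (htZ Q r : ℝ) = ∑ l : Fin D.rank, (Q.C.vec r l : ℝ) * (htZ Q (si Q l l.2) : ℝ)
  rw [Finset.sum_congr rfl (fun l _ => by rw [htZ_si l])]
  rw [htZ]
  push_cast
  simp

lemma htZ_pos {r : Fin D.nroots} (hr : ps r) : 1 ≤ htZ Q r := by
  have h1 : 0 ≤ htZ Q r := Finset.sum_nonneg (fun l _ => vec_nonneg (C := Q.C) r r.2 hr l l.2)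
  rcases h1.lt_or_eq with h2 | h2
  · omega
  · exfalso
    have h3 : ∀ l : Fin D.rank, Q.C.vec r l = 0 := by
      have := (Finset.sum_eq_zero_iff_of_nonneg (s := Finset.univ) (f := fun l : Fin D.rank => Q.C.vec r l)
        (fun l _ => vec_nonneg (C := Q.C) r r.2 hr l l.2)).1 h2.symm
      exact fun l => this l (Finset.mem_univ _)
    have h4 := (ps_lam (Q := Q) r).1 hr
    have h5 := linF_lam (Q := Q) r
    rw [Finset.sum_congr rfl (fun l _ => by rw [h3 l, Int.cast_zero, zero_mul]), Finset.sum_const_zero] at h5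
    have h6 : (Q.O.lam r : ℝ) = 0 := h5
    rw [h6] at h4
    exact lt_irrefl _ h4

lemma htZ_rev (r : Fin D.nroots) : htZ Q (Fin.rev r) = - htZ Q r := by
  have h := (htZ_lin (Q := Q)).rev r
  have h' : (htZ Q (Fin.rev r) : ℝ) = - (htZ Q r : ℝ) := h
  exact_mod_cast h'

/-- comparison of heights -/
lemma ht_le (hS : SuppD Q.C) {J : Set ℕ} {f : Fin D.nroots → ℝ} (hf : LinF Q.C f) (h : ∀ i : Fin D.rank, (i : ℕ) ∈ J → 1 ≤ f (si Q i i.2))
    {r : Fin D.nroots} (hr : ps r) (hJ : (r : ℕ) ∈ PhiJ D J) : (htZ Q r : ℝ) ≤ f r := by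
  rw [hf r, htZ]
  push_cast
  refine Finset.sum_le_sum (fun l _ => ?_)
  by_cases hl : (l : ℕ) ∈ J
  · have h1 := vec_nonneg (C := Q.C) r r.2 hr l l.2
    have h2 : (0 : ℝ) ≤ (Q.C.vec r l : ℝ) := by exact_mod_cast h1
    have h3 := h l hl
    have h4 : (Q.C.vec r l : ℝ) * 1 ≤ (Q.C.vec r l : ℝ) * f (si Q l l.2) := mul_le_mul_of_nonneg_left h3 h2
    rw [mul_one] at h4
    exact h4
  · rw [((mem_PhiJ hS).1 hJ).2 l l.2 hl]; simp

/-- longest elements preserve heights up to sign -/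
lemma MaxC.ht (hS : SuppD Q.C) {J : Set ℕ} {v : Equiv.Perm (Fin D.nroots)} (hv : v ∈ WG Q.C2) (hP : WP D J v) (hM : MaxC Q J v)
    {r : Fin D.nroots} (hr : ps r) (hJ : (r : ℕ) ∈ PhiJ D J) : htZ Q (v r) = - htZ Q r := by
  have hva := WG_waut Q hv
  have key : ∀ {r : Fin D.nroots}, ps r → (r : ℕ) ∈ PhiJ D J → htZ Q r ≤ - htZ Q (v r) := by
    intro r hr hJ
    have hf : LinF Q.C (fun r => (-1 : ℝ) * (htZ Q (v r) : ℝ)) := ((htZ_lin (Q := Q)).comp hv).smul (-1)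
    have h1 := ht_le hS hf (fun i hi => by
      have h2 := htZ_pos (Q := Q) ((ps_rev Q).2 (hM i hi))
      rw [htZ_rev] at h2
      show 1 ≤ (-1 : ℝ) * (htZ Q (v (si Q i i.2)) : ℝ)
      have h3 : (1 : ℝ) ≤ ((- htZ Q (v (si Q i i.2)) : ℤ) : ℝ) := by exact_mod_cast h2
      push_cast at h3
      linarith) hr hJ
    have h4 : (htZ Q r : ℝ) ≤ (-1 : ℝ) * (htZ Q (v r) : ℝ) := h1
    have h5 : (htZ Q r : ℝ) ≤ ((- htZ Q (v r) : ℤ) : ℝ) := by push_cast; linarith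
    exact_mod_cast h5
  have h1 := key hr hJ
  have h2 : ((Fin.rev (v r) : Fin D.nroots) : ℕ) ∈ PhiJ D J := by
    rw [fin_rev_val]; exact phiJ_neg hS ((hP.phi hS hva r).2 hJ)
  have h3 := key ((ps_rev Q).2 (hM.phi hS hv hr hJ)) h2
  have h4 : v (v r) = r := by rw [← Equiv.Perm.mul_apply, MaxC.sq hS hv hP hM]; rfl
  rw [htZ_rev, hva.rev, h4, htZ_rev] at h3
  omega

lemma simple_of_ht {r : Fin D.nroots} (hr : ps r) (h : htZ Q r = 1) : ∃ i : Fin D.rank, r = si Q i i.2 := by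
  have hnn : ∀ l : Fin D.rank, 0 ≤ Q.C.vec r l := fun l => vec_nonneg (C := Q.C) r r.2 hr l l.2
  have h1 : ∃ i : Fin D.rank, Q.C.vec r i ≠ 0 := by
    by_contra hcon
    push Not at hcon
    rw [htZ, Finset.sum_eq_zero (fun l _ => hcon l)] at h
    exact zero_ne_one h
  obtain ⟨i, hi⟩ := h1
  have h2 : Q.C.vec r i + ∑ l ∈ Finset.univ.erase i, Q.C.vec r l = 1 := by
    have h3 := Finset.add_sum_erase Finset.univ (fun l : Fin D.rank => Q.C.vec r l) (Finset.mem_univ i)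
    exact h3.trans h
  have h3 : 0 ≤ ∑ l ∈ Finset.univ.erase i, Q.C.vec r l := Finset.sum_nonneg (fun l _ => hnn l)
  have h4 : 0 < Q.C.vec r i := lt_of_le_of_ne (hnn i) (Ne.symm hi)
  have h5 : Q.C.vec r i = 1 := by omega
  have h6 : ∑ l ∈ Finset.univ.erase i, Q.C.vec r l = 0 := by omega
  have h7 := (Finset.sum_eq_zero_iff_of_nonneg (s := Finset.univ.erase i) (f := fun l : Fin D.rank => Q.C.vec r l)
    (fun l _ => hnn l)).1 h6
  refine ⟨i, Fin.ext (Q.C.vec_inj _ r.2 _ (si Q i i.2).2 (fun j hj => ?_))⟩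
  have h8 := Q.C.vec_simple i i.2 j hj
  have h9 : Q.C.vec ((si Q i i.2 : Fin D.nroots) : ℕ) j = if (i : ℕ) = j then 1 else 0 := h8
  rw [h9]
  by_cases hij : (i : ℕ) = j
  · rw [if_pos hij, ← hij]; exact h5
  · rw [if_neg hij]
    exact h7 ⟨j, hj⟩ (Finset.mem_erase.2 ⟨fun h => hij (congrArg Fin.val h).symm, Finset.mem_univ _⟩)

lemma si_inj {i j : Fin D.rank} (h : si Q i i.2 = si Q j j.2) : i = j := by
  by_contra hne
  have h1 := Q.C.vec_simple i i.2 i i.2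
  have h2 := Q.C.vec_simple j j.2 i i.2
  rw [if_pos rfl] at h1
  rw [if_neg (fun h => hne (Fin.ext h.symm))] at h2
  have h3 : D.simple i = D.simple j := congrArg Fin.val h
  rw [h3, h2] at h1
  exact zero_ne_one h1

/-- `MinC J w` and `w⁻¹ α_i ∈ Φ_J` implies that `w⁻¹ α_i` is simple -/
lemma simple_of_cond (hS : SuppD Q.C) {J : Set ℕ} {w : Equiv.Perm (Fin D.nroots)} (hw : w ∈ WG Q.C2) (hm : MinC Q J w)
    {i : Fin D.rank} (hp : ps (w⁻¹ (si Q i i.2))) (hJ : ((w⁻¹ (si Q i i.2) : Fin D.nroots) : ℕ) ∈ PhiJ D J) :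
    ∃ j : Fin D.rank, (j : ℕ) ∈ J ∧ w⁻¹ (si Q i i.2) = si Q j j.2 := by
  have h1 := ht_le hS ((htZ_lin (Q := Q)).comp hw) (fun i hi => by
    have h2 := htZ_pos (Q := Q) (hm i hi)
    show (1 : ℝ) ≤ (htZ Q (w (si Q i i.2)) : ℝ)
    exact_mod_cast h2) hp hJ
  have h2 : (htZ Q (w⁻¹ (si Q i i.2)) : ℝ) ≤ (htZ Q (w (w⁻¹ (si Q i i.2))) : ℝ) := h1
  rw [perm_apply_inv, htZ_si] at h2
  have h3 : htZ Q (w⁻¹ (si Q i i.2)) ≤ 1 := by exact_mod_cast h2
  have h4 := htZ_pos (Q := Q) hp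
  obtain ⟨j, hj⟩ := simple_of_ht hp (le_antisymm h3 h4)
  refine ⟨j, ?_, hj⟩
  by_contra hjJ
  rw [hj] at hJ
  exact (si_mem_RJ hS j.2 hjJ).2 hJ

open Classical in
variable (Q) in
/-- the simple roots `w⁻¹ α_i`, `i ∈ I` -/
noncomputable def IW (I : Set ℕ) (w : Equiv.Perm (Fin D.nroots)) : Finset ℕ :=
  (Finset.range D.rank).filter (fun j => ∃ h : j < D.rank, ∃ i : Fin D.rank, (i : ℕ) ∈ I ∧ w⁻¹ (si Q i i.2) = si Q j h)

variable (Q) in
/-- the Weyl group element `w_I w_0` -/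
def IsStar (I : Set ℕ) (w : Equiv.Perm (Fin D.nroots)) : Prop :=
  w ∈ WG Q.C2 ∧ MinC Q I w⁻¹ ∧ (∀ i : Fin D.rank, (i : ℕ) ∈ I → ∃ j : Fin D.rank, w⁻¹ (si Q i i.2) = si Q j j.2) ∧ AW Q w = IW Q I w

/-- existence and uniqueness -/
theorem exists_isStar (hS : SuppD Q.C) (I : Set ℕ) : ∃ w, IsStar Q I w ∧ ∀ w', IsStar Q I w' → w' = w := by
  classical
  obtain ⟨n0, w0, h0⟩ := exists_isN0 Q
  obtain ⟨v, hv, hvP, hvM⟩ := exists_long hS I
  have hva := WG_waut Q hv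
  have hwa := WG_waut Q h0.mem
  have hvv := MaxC.sq hS hv hvP hvM
  have hUniv : ∀ r : Fin D.nroots, (r : ℕ) ∈ PhiJ D Set.univ := fun r => (mem_PhiJ hS).2 ⟨r.2, fun i _ hi => absurd (Set.mem_univ i) hi⟩
  have hw0P : WP D Set.univ w0 := fun r hr => absurd (hUniv r) hr.2
  have hw0M : MaxC Q Set.univ w0 := fun i _ => h0.neg _ (ps_si Q i.2)
  have hw0w0 := MaxC.sq hS h0.mem hw0P hw0M
  have hinv : (v * w0)⁻¹ = w0 * v := by
    rw [_root_.mul_inv_rev, inv_eq_of_mul_eq_one_left hvv, inv_eq_of_mul_eq_one_left hw0w0]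
  have hvps : ∀ i : Fin D.rank, (i : ℕ) ∈ I → ¬ ps (v (si Q i i.2)) := hvM
  refine ⟨v * w0, ⟨(WG Q.C2).mul_mem hv h0.mem, ?_, ?_, ?_⟩, ?_⟩
  · intro i hi
    rw [hinv, Equiv.Perm.mul_apply, w0_neg hwa h0.neg]
    exact hvM i hi
  · intro i hi
    have h1 : ps ((v * w0)⁻¹ (si Q i i.2)) := by
      rw [hinv, Equiv.Perm.mul_apply, w0_neg hwa h0.neg]
      exact hvM i hi
    apply simple_of_ht h1
    rw [hinv, Equiv.Perm.mul_apply]
    have h2 := MaxC.ht hS h0.mem hw0P hw0M ((ps_rev Q).2 (hvM i hi)) (hUniv _)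
    rw [hwa.rev, htZ_rev, htZ_rev] at h2
    have h3 := MaxC.ht hS hv hvP hvM (ps_si Q i.2) (si_mem_phi Q i.2 hi)
    rw [htZ_si] at h3
    omega
  · -- `AW = IW`
    ext j
    rw [AW, IW, Finset.mem_filter, Finset.mem_filter]
    refine and_congr_right (fun hjr => ?_)
    have hj := Finset.mem_range.1 hjr
    constructor
    · intro h1
      have h2 := h1 hj
      -- w0 α_j = - α_{j*}
      have h3 : ps (Fin.rev (w0 (si Q j hj))) := (ps_rev Q).2 (h0.neg _ (ps_si Q hj))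
      obtain ⟨k, hk⟩ := simple_of_ht (Q := Q) h3 (by
        have h4 := MaxC.ht hS h0.mem hw0P hw0M (ps_si Q hj) (hUniv _)
        rw [htZ_rev, h4, neg_neg]
        exact htZ_si (Q := Q) ⟨j, hj⟩)
      have hk' : w0 (si Q j hj) = Fin.rev (si Q k k.2) := by rw [← hk, Fin.rev_rev]
      rw [Equiv.Perm.mul_apply, hk', hva.rev, ps_rev Q] at h2
      have hkI : (k : ℕ) ∈ I := by
        by_contra hkI
        exact h2 (hvP _ (si_mem_RJ hS k.2 hkI)).1.1
      obtain ⟨i, hi⟩ := simple_of_ht (Q := Q) ((ps_rev Q).2 h2) (by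
        have h4 := MaxC.ht hS hv hvP hvM (ps_si Q k.2) (si_mem_phi Q k.2 hkI)
        rw [htZ_rev, h4, neg_neg]
        exact htZ_si (Q := Q) k)
      refine ⟨hj, i, ?_, ?_⟩
      · by_contra hiI
        have h5 := si_mem_RJ hS (D := D) (Q := Q) i.2 hiI
        have h6 : ((v (si Q k k.2) : Fin D.nroots) : ℕ) ∈ PhiJ D I := (hvP.phi hS hva _).2 (si_mem_phi Q k.2 hkI)
        have h7 : ((Fin.rev (v (si Q k k.2)) : Fin D.nroots) : ℕ) ∈ PhiJ D I := by
          rw [fin_rev_val]; exact phiJ_neg hS h6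
        rw [hi] at h7
        exact h5.2 h7
      · rw [← hi, hinv, Equiv.Perm.mul_apply, hva.rev]
        have h8 : v (v (si Q k k.2)) = si Q k k.2 := by rw [← Equiv.Perm.mul_apply, hvv]; rfl
        rw [h8, ← hk', ← Equiv.Perm.mul_apply, hw0w0]; rfl
    · rintro ⟨h1, i, hi, h2⟩ _
      rw [← h2, perm_apply_inv]
      exact ps_si Q i.2
  · rintro w ⟨hw, h1, h2, h3⟩
    have hwa' := WG_waut Q hw
    have h4 : v * w = w0 := by
      rw [← AW_empty_iff ((WG Q.C2).mul_mem hv hw) h0.mem h0.neg]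
      apply Finset.eq_empty_of_forall_notMem
      intro j hj
      obtain ⟨hjr, hj2⟩ := Finset.mem_filter.1 hj
      have hjk := Finset.mem_range.1 hjr
      have hj3 := hj2 hjk
      rw [Equiv.Perm.mul_apply] at hj3
      by_cases h5 : ps (w (si Q j hjk))
      · have h6 : j ∈ AW Q w := Finset.mem_filter.2 ⟨hjr, fun _ => h5⟩
        rw [h3] at h6
        obtain ⟨-, h7, i, hi, h8⟩ := Finset.mem_filter.1 h6
        have h9 : w (si Q j hjk) = si Q i i.2 := by rw [← h8, perm_apply_inv]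
        rw [h9] at hj3
        exact hvM i hi hj3
      · have h6 := (ps_rev Q).2 h5
        by_cases h7 : ((Fin.rev (w (si Q j hjk)) : Fin D.nroots) : ℕ) ∈ PhiJ D I
        · have h8 := h1.phi hS ((WG Q.C2).inv_mem hw) h6 h7
          rw [hwa'.inv.rev, perm_inv_apply] at h8
          exact (ps_rev Q).1 h8 (ps_si Q hjk)
        · have h8 := (hvP _ ⟨⟨h6, (Fin.rev (w (si Q j hjk))).2⟩, h7⟩).1.1
          have h9 : ps (v (Fin.rev (w (si Q j hjk)))) := h8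
          rw [hva.rev] at h9
          exact (ps_rev Q).1 h9 hj3
    calc w = v * v * w := by rw [hvv, one_mul]
      _ = v * w0 := by rw [mul_assoc, h4]

end Cfsg.Agent.Lib.ChevAlg
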