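import Cfsg.Agent.Lib.ChevCell7
import Cfsg.Agent.Lib.Basic

/-!
# Truncation of the Steinberg character to a parabolic subgroup
-/

set_option autoImplicit false

namespace Cfsg.Agent.Lib.ChevAlg

open Cfsg.Lie Cfsg.Agent.Lib.ChevTab Matrix

variable {D : ChevalleyDatum} {F : Type*} [Field F] {Q : ChevO D F}

variable (Q) in
/-- `w⁻¹ I ⊆ Φ_J` -/
def CW (I J : Set ℕ) (w : Equiv.Perm (Fin D.nroots)) : Prop :=
  ∀ i : Fin D.rank, (i : ℕ) ∈ I → ((w⁻¹ (si Q i i.2) : Fin D.nroots) : ℕ) ∈ PhiJ D J

open Classical in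
lemma alt_cond (hS : SuppD Q.C) (I : Set ℕ) {w : Equiv.Perm (Fin D.nroots)} (hw : w ∈ WG Q.C2) (hI : MinC Q I w⁻¹) :
    ∑ J ∈ (Finset.range D.rank).powerset, ((-1 : ℂ) ^ J.card * (if MinC Q (J : Set ℕ) w ∧ CW Q I (J : Set ℕ) w then 1 else 0)) =
      if IsStar Q I w then (-1 : ℂ) ^ (IW Q I w).card else 0 := by
  by_cases hs : ∀ i : Fin D.rank, (i : ℕ) ∈ I → ∃ j : Fin D.rank, w⁻¹ (si Q i i.2) = si Q j j.2
  · have hsub : IW Q I w ⊆ AW Q w := by
      intro j hj
      obtain ⟨hjr, h1, i, hi, h2⟩ := Finset.mem_filter.1 hj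
      refine Finset.mem_filter.2 ⟨hjr, fun _ => ?_⟩
      rw [← h2, perm_apply_inv]
      exact ps_si Q i.2
    have hiff : ∀ J ∈ (Finset.range D.rank).powerset, (MinC Q (J : Set ℕ) w ∧ CW Q I (J : Set ℕ) w) ↔
        J ∈ Finset.Icc (IW Q I w) (AW Q w) := by
      intro J hJ
      have hJ' := Finset.mem_powerset.1 hJ
      rw [Finset.mem_Icc, minC_iff hJ', and_comm]
      refine and_congr_left (fun _ => ?_)
      constructor
      · intro h j hj
        obtain ⟨hjr, h1, i, hi, h2⟩ := Finset.mem_filter.1 hj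
        have h3 := h i hi
        rw [h2] at h3
        by_contra hjJ
        exact (si_mem_RJ hS h1 hjJ).2 h3
      · intro h i hi
        obtain ⟨j, hj⟩ := hs i hi
        rw [hj]
        exact si_mem_phi Q j.2 (h (Finset.mem_filter.2 ⟨Finset.mem_range.2 j.2, j.2, i, hi, hj⟩))
    have hstar : IsStar Q I w ↔ AW Q w \ IW Q I w = ∅ := by
      rw [Finset.sdiff_eq_empty_iff_subset]
      constructor
      · intro h; rw [h.2.2.2]
      · intro h; exact ⟨hw, hI, hs, Finset.Subset.antisymm h hsub⟩
    have h1 : ∑ J ∈ (Finset.range D.rank).powerset, ((-1 : ℂ) ^ J.card * (if MinC Q (J : Set ℕ) w ∧ CW Q I (J : Set ℕ) w then 1 else 0)) =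
        ∑ J ∈ Finset.Icc (IW Q I w) (AW Q w), (-1 : ℂ) ^ J.card := by
      have hss : Finset.Icc (IW Q I w) (AW Q w) ⊆ (Finset.range D.rank).powerset := fun J hJ =>
        Finset.mem_powerset.2 ((Finset.mem_Icc.1 hJ).2.trans (AW_sub w))
      rw [← Finset.sum_subset hss]
      · refine Finset.sum_congr rfl (fun J hJ => ?_)
        rw [if_pos ((hiff J (hss hJ)).2 hJ), mul_one]
      · intro J hJ hJ'
        rw [if_neg (fun h => hJ' ((hiff J hJ).1 h)), mul_zero]
    rw [h1, Finset.Icc_eq_image_powerset hsub, Finset.sum_image]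
    · have h2 : ∀ K ∈ (AW Q w \ IW Q I w).powerset, (-1 : ℂ) ^ (IW Q I w ∪ K).card = (-1) ^ (IW Q I w).card * (-1) ^ K.card := by
        intro K hK
        rw [Finset.card_union_of_disjoint, pow_add]
        exact (Finset.disjoint_sdiff).mono_right (Finset.mem_powerset.1 hK)
      rw [Finset.sum_congr rfl h2, ← Finset.mul_sum]
      have h3 := Finset.sum_powerset_neg_one_pow_card (x := AW Q w \ IW Q I w)
      have h4 : ((∑ J ∈ (AW Q w \ IW Q I w).powerset, (-1 : ℤ) ^ J.card : ℤ) : ℂ) =
          ((if AW Q w \ IW Q I w = ∅ then 1 else 0 : ℤ) : ℂ) := by rw [h3]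
      push_cast at h4
      rw [h4]
      by_cases h5 : IsStar Q I w
      · rw [if_pos (hstar.1 h5), if_pos h5, mul_one]
      · rw [if_neg (fun h => h5 (hstar.2 h)), if_neg h5, mul_zero]
    · intro K hK K' hK' h
      have hd : ∀ K ∈ (AW Q w \ IW Q I w).powerset, (IW Q I w ∪ K) \ IW Q I w = K := by
        intro K hK
        rw [Finset.union_sdiff_left, Finset.sdiff_eq_self_iff_disjoint]
        exact ((Finset.disjoint_sdiff).mono_right (Finset.mem_powerset.1 hK)).symm
      rw [← hd K hK, ← hd K' hK']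
      exact congrArg (fun X => X \ IW Q I w) h
  · rw [if_neg (fun h : IsStar Q I w => hs h.2.2.1)]
    apply Finset.sum_eq_zero
    intro J hJ
    rw [if_neg, mul_zero]
    rintro ⟨h1, h2⟩
    apply hs
    intro i hi
    obtain ⟨j, -, hj⟩ := simple_of_cond hS hw h1 (hI i hi) (h2 i hi)
    exact ⟨j, hj⟩

/-- twisted orbit counting -/
theorem card_pairs {V : Type*} [Group V] [Finite V] {E : Type*} [MulAction V E] [Finite E] (t : E → E)
    (ht : ∀ (v : V) (e : E), t (v • e) ∈ MulAction.orbit V (t e)) :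
    Nat.card {p : V × E // p.1 • p.2 = t p.2} =
      Nat.card V * Nat.card {O : MulAction.orbitRel.Quotient V E // ∃ e, Quotient.mk (MulAction.orbitRel V E) e = O ∧ t e ∈ MulAction.orbit V e} := by
  classical
  have : Fintype V := Fintype.ofFinite _
  have : Fintype E := Fintype.ofFinite _
  have : Fintype (MulAction.orbitRel.Quotient V E) := Fintype.ofFinite _
  have hmk : ∀ a b : E, (Quotient.mk (MulAction.orbitRel V E) a = Quotient.mk (MulAction.orbitRel V E) b) ↔ a ∈ MulAction.orbit V b := by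
    intro a b
    rw [Quotient.eq]
    exact MulAction.orbitRel_apply
  -- fibres
  have h1 : ∀ e : E, Nat.card {v : V // v • e = t e} = if t e ∈ MulAction.orbit V e then Nat.card (MulAction.stabilizer V e) else 0 := by
    intro e
    by_cases h : t e ∈ MulAction.orbit V e
    · rw [if_pos h]
      obtain ⟨v0, hv0⟩ := h
      have hv0' : v0 • e = t e := hv0
      refine Nat.card_congr ⟨fun v => ⟨v0⁻¹ * v.1, ?_⟩, fun y => ⟨v0 * y.1, ?_⟩, fun v => ?_, fun y => ?_⟩
      · rw [MulAction.mem_stabilizer_iff, mul_smul, v.2, ← hv0', inv_smul_smul]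
      · rw [mul_smul, MulAction.mem_stabilizer_iff.1 y.2, hv0']
      · apply Subtype.ext; simp
      · apply Subtype.ext; simp
    · rw [if_neg h]
      have : IsEmpty {v : V // v • e = t e} := ⟨fun v => h ⟨v.1, v.2⟩⟩
      exact Nat.card_of_isEmpty
  have h2 : Nat.card {p : V × E // p.1 • p.2 = t p.2} = ∑ e : E, Nat.card {v : V // v • e = t e} := by
    rw [← Nat.card_sigma]
    exact Nat.card_congr ⟨fun p => ⟨p.1.2, p.1.1, p.2⟩, fun q => ⟨(q.2.1, q.1), q.2.2⟩, fun _ => rfl, fun _ => rfl⟩
  -- the condition is constant on orbits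
  have hinv : ∀ v : V, ∀ e : E, t e ∈ MulAction.orbit V e → t (v • e) ∈ MulAction.orbit V (v • e) := by
    intro v e h
    have h3 := ht v e
    rw [MulAction.orbit_eq_iff.2 h] at h3
    have h4 : MulAction.orbit V (v • e) = MulAction.orbit V e := MulAction.orbit_eq_iff.2 (MulAction.mem_orbit _ _)
    rw [h4]; exact h3
  rw [h2, Finset.sum_congr rfl (fun e _ => h1 e), ← Finset.sum_fiberwise Finset.univ (fun e : E => Quotient.mk (MulAction.orbitRel V E) e)]
  have h5 : ∀ O : MulAction.orbitRel.Quotient V E,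
      (∑ e ∈ Finset.univ.filter (fun e : E => Quotient.mk (MulAction.orbitRel V E) e = O),
        (if t e ∈ MulAction.orbit V e then Nat.card (MulAction.stabilizer V e) else 0)) =
      if (∃ e, Quotient.mk (MulAction.orbitRel V E) e = O ∧ t e ∈ MulAction.orbit V e) then Nat.card V else 0 := by
    intro O
    by_cases hO : ∃ e, Quotient.mk (MulAction.orbitRel V E) e = O ∧ t e ∈ MulAction.orbit V e
    · rw [if_pos hO]
      obtain ⟨e0, rfl, he0⟩ := hO
      have h6 : ∀ e ∈ Finset.univ.filter (fun e : E => Quotient.mk (MulAction.orbitRel V E) e = Quotient.mk (MulAction.orbitRel V E) e0),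
          (if t e ∈ MulAction.orbit V e then Nat.card (MulAction.stabilizer V e) else 0) = Nat.card (MulAction.stabilizer V e0) := by
        intro e he
        have h7 := (hmk _ _).1 (Finset.mem_filter.1 he).2
        obtain ⟨v, rfl⟩ := h7
        have h8 : t (v • e0) ∈ MulAction.orbit V (v • e0) := hinv v e0 he0
        have h9 : (fun v : V => v • e0) v = v • e0 := rfl
        rw [h9, if_pos h8]
        exact Nat.card_congr (MulAction.stabilizerEquivStabilizerOfOrbitRel (MulAction.orbitRel_apply.2 (MulAction.mem_orbit _ _))).toEquiv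
      rw [Finset.sum_congr rfl h6, Finset.sum_const, smul_eq_mul]
      have h10 : (Finset.univ.filter (fun e : E => Quotient.mk (MulAction.orbitRel V E) e = Quotient.mk (MulAction.orbitRel V E) e0)).card =
          Nat.card (MulAction.orbit V e0) := by
        rw [← Fintype.card_subtype, ← Nat.card_eq_fintype_card]
        exact Nat.card_congr (Equiv.subtypeEquivRight (fun e => hmk e e0))
      rw [h10]
      simp only [Nat.card_eq_fintype_card]
      exact MulAction.card_orbit_mul_card_stabilizer_eq_card_group V e0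
    · rw [if_neg hO]
      apply Finset.sum_eq_zero
      intro e he
      rw [if_neg]
      intro h
      exact hO ⟨e, (Finset.mem_filter.1 he).2, h⟩
  rw [Finset.sum_congr rfl (fun O _ => h5 O), Finset.sum_ite, Finset.sum_const_zero, add_zero, Finset.sum_const, smul_eq_mul, mul_comm]
  congr 1
  rw [Nat.card_eq_fintype_card, Fintype.card_subtype]

end Cfsg.Agent.Lib.ChevAlg
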