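import Cfsg.Agent.Lib.ChevCell8

/-!
# Orbits of the unipotent radical fixed by an element not in a smaller parabolic subgroup
-/

set_option autoImplicit false

namespace Cfsg.Agent.Lib.ChevAlg

open Cfsg.Lie Cfsg.Agent.Lib.ChevTab Matrix

variable {D : ChevalleyDatum} {F : Type*} [Field F] {Q : ChevO D F}

variable (Q) in
/-- the unipotent radical inside the group -/
abbrev VG (I : Set ℕ) : Subgroup ↥(D.group F) := (XS Q (RJ D I)).subgroupOf (D.group F)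

/-- stabilizers of cosets -/
abbrev stE (D : ChevalleyDatum) (F : Type*) [Field F] (J : Set ℕ) (n : ↥(D.group F)) : Subgroup ↥(D.group F) :=
  MulAction.stabilizer ↥(D.group F) (n : ↥(D.group F) ⧸ ParG D F J)

lemma mem_stE {J : Set ℕ} {n x : ↥(D.group F)} : x ∈ stE D F J n ↔ (n : GL D.Idx F)⁻¹ * x * n ∈ D.parabolicSubgroup F J := by
  rw [MulAction.mem_stabilizer_iff, smul_mkP, mkP_eq]
  have e : (((x * n : ↥(D.group F)) : GL D.Idx F))⁻¹ * (n : GL D.Idx F) = ((n : GL D.Idx F)⁻¹ * x * n)⁻¹ := by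
    push_cast; group
  rw [e, Subgroup.inv_mem_iff]

variable (Q) in
/-- `U_I (P_I ∩ n P_J n⁻¹)` -/
def MW (I J : Set ℕ) (n : ↥(D.group F)) : Subgroup ↥(D.group F) := VG Q I ⊔ (ParG D F I ⊓ stE D F J n)

lemma par_norm_VG (hS : SuppD Q.C) (I : Set ℕ) : ParG D F I ≤ Subgroup.normalizer ((VG Q I : Subgroup ↥(D.group F)) : Set ↥(D.group F)) := by
  intro x hx
  have h1 := parabolic_normalizes hS I (Subgroup.mem_subgroupOf.1 hx)
  refine Subgroup.mem_normalizer_iff.2 (fun y => ?_)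
  exact Subgroup.mem_normalizer_iff.1 h1 y

lemma mem_MW (hS : SuppD Q.C) {I J : Set ℕ} {n x : ↥(D.group F)} :
    x ∈ MW Q I J n ↔ ∃ v ∈ VG Q I, ∃ y ∈ ParG D F I ⊓ stE D F J n, v * y = x :=
  Cfsg.Agent.Lib.Basic.mem_sup_iff_left (inf_le_left.trans (par_norm_VG hS I))

lemma VG_le_BG (hS : SuppD Q.C) (I : Set ℕ) : VG Q I ≤ BG D F := fun _ h =>
  Subgroup.mem_subgroupOf.2 (U_le_borel Q (XS_mono Q (nb_RJ hS I).1 (Subgroup.mem_subgroupOf.1 h)))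

lemma MW_le (hS : SuppD Q.C) {I J : Set ℕ} {n : ↥(D.group F)} : MW Q I J n ≤ ParG D F I :=
  sup_le ((VG_le_BG hS I).trans (BG_le_ParG I)) inf_le_left

variable {w : Equiv.Perm (Fin D.nroots)} {u : Fin D.nroots → Fˣ}

lemma BG_le_MW (hS : SuppD Q.C) {I J : Set ℕ} {n : ↥(D.group F)} (hn : (n : GL D.Idx F) ∈ D.monomialSubgroup F)
    (hm : Mono Q (n : GL D.Idx F) w u) (hI : MinC Q I w⁻¹) : BG D F ≤ MW Q I J n := by
  have hw := mono_mem_WG hn hm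
  have hst : ∀ x : ↥(D.group F), (x : GL D.Idx F) ∈ D.borelSubgroup F → (n : GL D.Idx F)⁻¹ * x * n ∈ D.borelSubgroup F → x ∈ MW Q I J n := by
    intro x h1 h2
    apply Subgroup.mem_sup_right
    exact ⟨Subgroup.mem_subgroupOf.2 (borel_le_par I h1), mem_stE.2 (borel_le_par J h2)⟩
  intro b hb
  obtain ⟨x, hx, h, hh, e⟩ := (mem_borel Q).1 (Subgroup.mem_subgroupOf.1 hb)
  have hset : Pos D = {r | r ∈ Pos D ∧ r ∈ PhiJ D I} ∪ RJ D I := by
    ext r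
    constructor
    · intro hr
      by_cases h1 : r ∈ PhiJ D I
      · exact Or.inl ⟨hr, h1⟩
      · exact Or.inr ⟨hr, h1⟩
    · rintro (h1 | h1)
      · exact h1.1
      · exact h1.1
  obtain ⟨y1, hy1, y2, hy2, e3⟩ := exists_factor Q hset (le_refl _) (clos_pos Q) hx
  have hG : ∀ {z : GL D.Idx F}, z ∈ D.borelSubgroup F → z ∈ D.group F := fun h => borel_le_group Q h
  have hy1' : y1 ∈ XS Q (Pos D) := XS_mono Q (fun r hr => hr.1) hy1
  have hy2' : y2 ∈ XS Q (Pos D) := XS_mono Q (nb_RJ hS I).1 hy2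
  have eb : b = ⟨y1, hG (U_le_borel Q hy1')⟩ * ⟨y2, hG (U_le_borel Q hy2')⟩ * ⟨h, hG (H_le_borel Q hh)⟩ := by
    apply Subtype.ext
    rw [e, e3]; rfl
  rw [eb]
  refine Subgroup.mul_mem _ (Subgroup.mul_mem _ (hst _ (U_le_borel Q hy1') ?_) (Subgroup.mem_sup_left ?_)) (hst _ (H_le_borel Q hh) ?_)
  · have h4 : (n : GL D.Idx F)⁻¹ * y1 * (n : GL D.Idx F)⁻¹⁻¹ ∈ XS Q (Pos D) := by
      refine conj_XS_le Q ?_ hy1
      rintro r ⟨hr, hrI⟩ t
      have h6 := hm.inv.conj ⟨r, hr.2⟩ t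
      have h7 : ((⟨r, hr.2⟩ : Fin D.nroots) : ℕ) = r := rfl
      rw [h7] at h6
      rw [h6]
      have h8 : ((w⁻¹ ⟨r, hr.2⟩ : Fin D.nroots) : ℕ) ∈ Pos D :=
        ⟨hI.phi hS ((WG Q.C2).inv_mem hw) (r := ⟨r, hr.2⟩) hr.1 hrI, (w⁻¹ _).2⟩
      exact xG_mem Q h8 _
    rw [inv_inv] at h4
    exact U_le_borel Q h4
  · exact Subgroup.mem_subgroupOf.2 hy2
  · have h4 := diag_conj Q (Subgroup.inv_mem _ hn) hh
    rw [inv_inv] at h4
    exact H_le_borel Q h4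

lemma nG_cell {i : ℕ} (hi : i < D.rank) : Cell Q (sr Q.C2 i) (nG Q (D.simple i) 1) := by
  have hnN : nG Q (D.simple i) 1 ∈ D.monomialSubgroup F := by
    rw [monomial_eq Q]
    exact Subgroup.mem_sup_right (Subgroup.subset_closure ⟨_, Q.C.simple_lt i hi, rfl⟩)
  exact ⟨1, Subgroup.one_mem _, _, hnN, ⟨_, mono_n Q hi⟩, 1, Subgroup.one_mem _, by group⟩

lemma nG_mem_mon {i : ℕ} (hi : i < D.rank) : nG Q (D.simple i) 1 ∈ D.monomialSubgroup F := by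
  rw [monomial_eq Q]
  exact Subgroup.mem_sup_right (Subgroup.subset_closure ⟨_, Q.C.simple_lt i hi, rfl⟩)

lemma fK_zero (hS : SuppD Q.C) {J : Set ℕ} {r : Fin D.nroots} (h : (r : ℕ) ∈ PhiJ D J) : fK Q J r = 0 := by
  obtain ⟨h1, h2⟩ := (phiJ_iff hS r).1 h
  rw [← fK_pos_iff (Q := Q) hS] at h1 h2
  rw [(fK_lin (Q := Q) J).rev] at h2
  linarith

lemma nG_par {I : Set ℕ} {i : ℕ} (hi : i < D.rank) (hI : i ∈ I) : nG Q (D.simple i) 1 ∈ D.parabolicSubgroup F I :=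
  Subgroup.mem_sup_right (Subgroup.subset_closure ⟨i, hI, hi, nG_val Q (Q.C.simple_lt i hi) 1⟩)

lemma of_nG_par (hS : SuppD Q.C) {I : Set ℕ} {i : ℕ} (hi : i < D.rank) (h : nG Q (D.simple i) 1 ∈ D.parabolicSubgroup F I) : i ∈ I := by
  by_contra hI
  have h1 := (cell_par hS (nG_cell hi)).1 h
  have h2 := h1 (si Q i hi) (si_mem_RJ hS hi hI)
  rw [sr_si] at h2
  have h3 : ps (Fin.rev (si Q i hi)) := h2.1.1
  exact (ps_rev Q).1 h3 (ps_si Q hi)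

lemma par_le_of {I : Set ℕ} {M : Subgroup ↥(D.group F)} (hB : BG D F ≤ M)
    (h : ∀ i (_ : i < D.rank), i ∈ I → ∀ hG : nG Q (D.simple i) 1 ∈ D.group F, (⟨nG Q (D.simple i) 1, hG⟩ : ↥(D.group F)) ∈ M) :
    ParG D F I ≤ M := by
  have h1 : D.parabolicSubgroup F I ≤ M.map (D.group F).subtype := by
    refine sup_le ?_ ?_
    · intro b hb
      exact ⟨⟨b, borel_le_group Q hb⟩, hB (Subgroup.mem_subgroupOf.2 hb), rfl⟩
    · rw [Subgroup.closure_le]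
      rintro g ⟨j, hJ, hj, hg⟩
      have e : g = nG Q (D.simple j) 1 := by
        apply Units.ext
        rw [hg, nG_val Q (Q.C.simple_lt j hj)]
      rw [e]
      exact ⟨⟨_, nG_mem_group Q _ _⟩, h j hj hJ _, rfl⟩
  intro x hx
  obtain ⟨y, hy, e⟩ := h1 (Subgroup.mem_subgroupOf.1 hx)
  have : y = x := Subtype.ext e
  rwa [← this]

/-- `w⁻¹ I ⊆ Φ_J` implies `P_I = U_I (P_I ∩ n P_J n⁻¹)` -/
lemma par_le_MW (hS : SuppD Q.C) {I J : Set ℕ} {n : ↥(D.group F)} (hn : (n : GL D.Idx F) ∈ D.monomialSubgroup F)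
    (hm : Mono Q (n : GL D.Idx F) w u) (hI : MinC Q I w⁻¹) (hC : CW Q I J w) : ParG D F I ≤ MW Q I J n := by
  have hw := mono_mem_WG hn hm
  refine par_le_of (Q := Q) (BG_le_MW hS hn hm hI) (fun i hi hiI hG => ?_)
  apply Subgroup.mem_sup_right
  refine ⟨Subgroup.mem_subgroupOf.2 (nG_par hi hiI), mem_stE.2 ?_⟩
  have hc : Cell Q (w⁻¹ * sr Q.C2 i * w) ((n : GL D.Idx F)⁻¹ * nG Q (D.simple i) 1 * n) :=
    ⟨1, Subgroup.one_mem _, _, Subgroup.mul_mem _ (Subgroup.mul_mem _ (Subgroup.inv_mem _ hn) (nG_mem_mon hi)) hn,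
      ⟨_, (hm.inv.mul (mono_n Q hi)).mul hm⟩, 1, Subgroup.one_mem _, by group⟩
  refine (cell_par hS hc).2 (fun r hr => ?_)
  rw [← fK_pos_iff (Q := Q) hS] at hr ⊢
  have h1 : LinF Q.C (fun r => fK Q J (w⁻¹ r)) := (fK_lin J).comp ((WG Q.C2).inv_mem hw)
  have h2 := h1.sr hi (w r)
  have h3 : fK Q J (w⁻¹ (si Q i hi)) = 0 := fK_zero hS (hC ⟨i, hi⟩ hiI)
  have h4 : fK Q J (w⁻¹ (sr Q.C2 i (w r))) = fK Q J (w⁻¹ (w r)) - D.cartan i (w r) * fK Q J (w⁻¹ (si Q i hi)) := h2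
  rw [h3, mul_zero, sub_zero, perm_inv_apply] at h4
  have h5 : (w⁻¹ * sr Q.C2 i * w) r = w⁻¹ (sr Q.C2 i (w r)) := rfl
  rw [h5, h4]
  exact hr

/-- the converse -/
lemma cw_of_par_le (hS : SuppD Q.C) {I J : Set ℕ} {n : ↥(D.group F)} (hn : (n : GL D.Idx F) ∈ D.monomialSubgroup F)
    (hm : Mono Q (n : GL D.Idx F) w u) (h : ParG D F I ≤ MW Q I J n) : CW Q I J w := by
  have hw := mono_mem_WG hn hm
  intro i hi
  have hG : nG Q (D.simple i) 1 ∈ D.group F := nG_mem_group Q _ _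
  have h1 : (⟨nG Q (D.simple i) 1, hG⟩ : ↥(D.group F)) ∈ MW Q I J n := h (Subgroup.mem_subgroupOf.2 (nG_par i.2 hi))
  obtain ⟨v, hv, y, hy, e⟩ := (mem_MW hS).1 h1
  have hyJ := mem_stE.1 hy.2
  have hvB := Subgroup.mem_subgroupOf.1 (VG_le_BG hS I hv)
  have hcn : Cell Q w (n : GL D.Idx F) := ⟨1, Subgroup.one_mem _, n, hn, ⟨u, hm⟩, 1, Subgroup.one_mem _, by group⟩
  obtain ⟨v', hv', hP, hc⟩ := cell_mul_par hS (hcn.left hvB) hyJ
  have e1 : (v : GL D.Idx F) * n * ((n : GL D.Idx F)⁻¹ * y * n) = nG Q (D.simple i) 1 * n := by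
    have e2 : (v : GL D.Idx F) * y = nG Q (D.simple i) 1 := congrArg Subtype.val e
    rw [← e2]; group
  rw [e1] at hc
  have hc2 : Cell Q (sr Q.C2 i * w) (nG Q (D.simple i) 1 * n) :=
    ⟨1, Subgroup.one_mem _, _, Subgroup.mul_mem _ (nG_mem_mon i.2) hn, ⟨_, (mono_n Q i.2).mul hm⟩, 1, Subgroup.one_mem _, by group⟩
  have h2 := cell_unique hc hc2
  have hva := WG_waut Q hv'
  have hwa := WG_waut Q hw
  have h3 : v' (w⁻¹ (si Q i i.2)) = Fin.rev (w⁻¹ (si Q i i.2)) := by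
    have h4 : v' = w⁻¹ * (sr Q.C2 i * w) := by rw [← h2]; group
    rw [h4, Equiv.Perm.mul_apply, Equiv.Perm.mul_apply, perm_apply_inv, sr_si, hwa.inv.rev]
  have hex : ∀ r : Fin D.nroots, (r : ℕ) ∈ RJ D J → ¬ ((Fin.rev r : Fin D.nroots) : ℕ) ∈ RJ D J := by
    intro r h5 h6
    exact (ps_rev Q).1 (show ps (Fin.rev r) from h6.1.1) h5.1.1
  rw [phiJ_iff hS]
  constructor
  · intro h5
    have h6 := hP _ h5
    rw [h3] at h6
    exact hex _ h5 h6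
  · intro h5
    have h6 := hP _ h5
    rw [hva.rev, h3, Fin.rev_rev] at h6
    exact hex _ h6 h5

/-- maximal proper overgroups of `B` in `P_I` -/
lemma overgroup (hS : SuppD Q.C) {I : Set ℕ} {M : Subgroup ↥(D.group F)} (hB : BG D F ≤ M) (hM : M ≤ ParG D F I)
    (h : ¬ ParG D F I ≤ M) : ∃ i : Fin D.rank, (i : ℕ) ∈ I ∧ M ≤ ParG D F (I \ {(i : ℕ)}) := by
  have h1 : ∃ i, ∃ _ : i < D.rank, i ∈ I ∧ ∃ hG : nG Q (D.simple i) 1 ∈ D.group F, (⟨nG Q (D.simple i) 1, hG⟩ : ↥(D.group F)) ∉ M := by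
    by_contra hcon
    push Not at hcon
    exact h (par_le_of (Q := Q) hB (fun i hi hI hG => hcon i hi hI hG))
  obtain ⟨i, hi, hI, hG, hni⟩ := h1
  refine ⟨⟨i, hi⟩, hI, ?_⟩
  have hB' : (bn Q).B ≤ M := hB
  rw [BNPair.eq_parabolic M hB', Cfsg.BNPair.parabolic]
  refine sup_le (BG_le_ParG _) ?_
  rw [Subgroup.closure_le]
  rintro s ⟨hs1, hs2⟩
  obtain ⟨j, hj, e⟩ : (s : GL D.Idx F) ∈ SS Q := hs1
  have h2 := Subgroup.mem_subgroupOf.1 (hM hs2)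
  rw [e] at h2
  have hjI := of_nG_par hS hj h2
  have hji : j ≠ i := by
    rintro rfl
    apply hni
    have : s = ⟨nG Q (D.simple j) 1, hG⟩ := Subtype.ext e
    rw [← this]; exact hs2
  refine Subgroup.mem_subgroupOf.2 ?_
  rw [e]
  exact nG_par hj ⟨hjI, fun h => hji h⟩

variable (Q) in
lemma exists_monrep {w : Equiv.Perm (Fin D.nroots)} (hw : w ∈ WG Q.C2) :
    ∃ n : ↥(D.group F), (n : GL D.Idx F) ∈ D.monomialSubgroup F ∧ ∃ u, Mono Q (n : GL D.Idx F) w u := by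
  obtain ⟨g, hg, u, hm⟩ := exists_mono Q hw
  have hn := N0_le_monomial Q hg
  exact ⟨⟨g, monomial_le_group Q hn⟩, hn, u, hm⟩

lemma cell_of_mono {n : GL D.Idx F} (hn : n ∈ D.monomialSubgroup F) (hm : Mono Q n w u) : Cell Q w n :=
  ⟨1, Subgroup.one_mem _, n, hn, ⟨u, hm⟩, 1, Subgroup.one_mem _, by group⟩

/-- orbits of the unipotent radical of `P_I` fixed by an element of `P_I` not in a smaller parabolic -/
theorem fixed_orbits (hS : SuppD Q.C) (I J : Set ℕ) {s : ↥(D.group F)} (hs : s ∈ ParG D F I)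
    (hmin : ∀ i : Fin D.rank, (i : ℕ) ∈ I → ∀ x ∈ ParG D F I, x * s * x⁻¹ ∉ ParG D F (I \ {(i : ℕ)})) :
    Nat.card {O : MulAction.orbitRel.Quotient ↥(VG Q I) (↥(D.group F) ⧸ ParG D F J) //
      ∃ e, Quotient.mk (MulAction.orbitRel ↥(VG Q I) (↥(D.group F) ⧸ ParG D F J)) e = O ∧ s⁻¹ • e ∈ MulAction.orbit ↥(VG Q I) e} =
    Nat.card {w : Equiv.Perm (Fin D.nroots) // w ∈ WG Q.C2 ∧ MinC Q J w ∧ MinC Q I w⁻¹ ∧ CW Q I J w} := by
  classical
  have hrep : ∀ w : {w : Equiv.Perm (Fin D.nroots) // w ∈ WG Q.C2 ∧ MinC Q J w ∧ MinC Q I w⁻¹ ∧ CW Q I J w},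
      ∃ n : ↥(D.group F), (n : GL D.Idx F) ∈ D.monomialSubgroup F ∧ ∃ u, Mono Q (n : GL D.Idx F) w.1 u := fun w => exists_monrep Q w.2.1
  choose n hn u hm using hrep
  have hrel : ∀ x y : (↥(D.group F) ⧸ ParG D F J),
      (Quotient.mk (MulAction.orbitRel ↥(VG Q I) _) x = Quotient.mk (MulAction.orbitRel ↥(VG Q I) _) y) ↔
        ∃ g : ↥(VG Q I), g • y = x := by
    intro x y
    rw [Quotient.eq]
    exact MulAction.orbitRel_apply
  have hsm : ∀ (v : ↥(VG Q I)) (e : ↥(D.group F) ⧸ ParG D F J), v • e = (v : ↥(D.group F)) • e := fun _ _ => rfl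
  -- the good orbits
  have hgood : ∀ {w : Equiv.Perm (Fin D.nroots)} {n : ↥(D.group F)} {u : Fin D.nroots → Fˣ} (_ : (n : GL D.Idx F) ∈ D.monomialSubgroup F)
      (_ : Mono Q (n : GL D.Idx F) w u) (_ : ParG D F I ≤ MW Q I J n) (x : ↥(D.group F)) (_ : x ∈ ParG D F I),
      ∃ v : ↥(VG Q I), v • (n : ↥(D.group F) ⧸ ParG D F J) = x • (n : ↥(D.group F) ⧸ ParG D F J) := by
    intro w n u hn hm hle x hx
    obtain ⟨v, hv, y, hy, e⟩ := (mem_MW hS).1 (hle hx)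
    refine ⟨⟨v, hv⟩, ?_⟩
    rw [hsm, ← e, mul_smul, MulAction.mem_stabilizer_iff.1 hy.2]
  symm
  refine Nat.card_congr (Equiv.ofBijective (fun w => ⟨Quotient.mk (MulAction.orbitRel ↥(VG Q I) _)
    ((n w : ↥(D.group F)) : ↥(D.group F) ⧸ ParG D F J), ((n w : ↥(D.group F)) : ↥(D.group F) ⧸ ParG D F J), rfl, ?_⟩) ⟨?_, ?_⟩)
  · obtain ⟨v, hv⟩ := hgood (hn w) (hm w) (par_le_MW hS (hn w) (hm w) w.2.2.2.1 w.2.2.2.2) s⁻¹ (Subgroup.inv_mem _ hs)
    exact ⟨v, hv⟩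
  · intro w w' h
    obtain ⟨v, hv⟩ := (hrel _ _).1 (congrArg Subtype.val h)
    rw [hsm, smul_mkP, mkP_eq] at hv
    have hvB := Subgroup.mem_subgroupOf.1 (VG_le_BG hS I v.2)
    obtain ⟨z, hz, hzP, hc⟩ := cell_mul_par hS ((cell_of_mono (hn w') (hm w')).left hvB) hv
    have e : (((v : ↥(D.group F)) : GL D.Idx F)) * (n w' : GL D.Idx F) *
        ((((v : ↥(D.group F)) * n w' : ↥(D.group F)) : GL D.Idx F)⁻¹ * (n w : GL D.Idx F)) = n w := by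
      push_cast; group
    rw [e] at hc
    have h1 := cell_unique (cell_of_mono (hn w) (hm w)) hc
    have h2 := w.2.2.1
    rw [h1] at h2
    have h3 := minC_unique hS w'.2.1 hz hzP w'.2.2.1 h2
    rw [h3, mul_one] at h1
    exact Subtype.ext h1
  · rintro ⟨O, e, rfl, he⟩
    obtain ⟨g, rfl⟩ := QuotientGroup.mk_surjective e
    obtain ⟨w0, -, hw0⟩ := cell_exists (Q := Q) g.2
    obtain ⟨x, hx, y, hy, w, h1, h2, h3⟩ := exists_dmin (J := I) (K := J) _ rfl hw0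
    have hw : w ∈ WG Q.C2 := h3.mem
    obtain ⟨m, hmm, um, hum⟩ := exists_monrep Q hw
    obtain ⟨b, hb, b', hb', e1⟩ := cell_rel h3 (cell_of_mono hmm hum)
    have hxG := par_le_group hS I hx
    have hbG := borel_le_group Q hb
    set z : ↥(D.group F) := ⟨b, hbG⟩ * ⟨x, hxG⟩ with hz
    have hzI : z ∈ ParG D F I := Subgroup.mem_subgroupOf.2 (Subgroup.mul_mem _ (borel_le_par I hb) hx)
    -- m P_J = z g P_J
    have h4 : (m : ↥(D.group F) ⧸ ParG D F J) = z • (g : ↥(D.group F) ⧸ ParG D F J) := by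
      rw [smul_mkP]
      refine Eq.symm (mkP_eq.2 ?_)
      have e2 : ((z * g : ↥(D.group F)) : GL D.Idx F)⁻¹ * (m : GL D.Idx F) = y * b' := by
        rw [e1, hz]; push_cast; group
      rw [e2]
      exact Subgroup.mul_mem _ hy (borel_le_par J hb')
    have h5 : (g : ↥(D.group F) ⧸ ParG D F J) = z⁻¹ • (m : ↥(D.group F) ⧸ ParG D F J) := by
      rw [h4, inv_smul_smul]
    obtain ⟨v, hv⟩ := he
    have hv' : (v : ↥(D.group F)) • (g : ↥(D.group F) ⧸ ParG D F J) = s⁻¹ • (g : ↥(D.group F) ⧸ ParG D F J) := hv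
    -- z s z⁻¹ ∈ MW
    have h6 : z * s * z⁻¹ ∈ MW Q I J m := by
      have h7 : z * (s * (v : ↥(D.group F))) * z⁻¹ ∈ ParG D F I ⊓ stE D F J m := by
        constructor
        · exact Subgroup.mul_mem _ (Subgroup.mul_mem _ hzI (Subgroup.mul_mem _ hs ((VG_le_BG hS I).trans (BG_le_ParG I) v.2)))
            (Subgroup.inv_mem _ hzI)
        · refine MulAction.mem_stabilizer_iff.2 ?_
          have e4 : (z * (s * (v : ↥(D.group F))) * z⁻¹) • (m : ↥(D.group F) ⧸ ParG D F J) =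
              z • s • (v : ↥(D.group F)) • z⁻¹ • (m : ↥(D.group F) ⧸ ParG D F J) := by
            simp only [mul_smul]
          rw [e4, ← h5, hv', smul_inv_smul, ← h4]
      have h8 : z * (v : ↥(D.group F))⁻¹ * z⁻¹ ∈ VG Q I :=
        (Subgroup.mem_normalizer_iff.1 (par_norm_VG hS I hzI) _).1 ((VG Q I).inv_mem v.2)
      have e3 : z * s * z⁻¹ = (z * (s * (v : ↥(D.group F))) * z⁻¹) * (z * (v : ↥(D.group F))⁻¹ * z⁻¹) := by group
      rw [e3]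
      exact Subgroup.mul_mem _ (Subgroup.mem_sup_right h7) (Subgroup.mem_sup_left h8)
    have h7 : ParG D F I ≤ MW Q I J m := by
      by_contra hcon
      obtain ⟨i, hi, hle⟩ := overgroup hS (BG_le_MW hS hmm hum h2) (MW_le hS) hcon
      exact hmin i hi z hzI (hle h6)
    have hC := cw_of_par_le hS hmm hum h7
    refine ⟨⟨w, hw, h1, h2, hC⟩, Subtype.ext ?_⟩
    show Quotient.mk (MulAction.orbitRel ↥(VG Q I) _) ((n ⟨w, hw, h1, h2, hC⟩ : ↥(D.group F)) : ↥(D.group F) ⧸ ParG D F J) =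
      Quotient.mk (MulAction.orbitRel ↥(VG Q I) _) (g : ↥(D.group F) ⧸ ParG D F J)
    -- n w = m h
    have h8 : ((n ⟨w, hw, h1, h2, hC⟩ : ↥(D.group F)) : ↥(D.group F) ⧸ ParG D F J) = (m : ↥(D.group F) ⧸ ParG D F J) := by
      rw [mkP_eq]
      have h9 := (hm ⟨w, hw, h1, h2, hC⟩).inv.mul hum
      rw [inv_mul_cancel] at h9
      exact borel_le_par J (H_le_borel Q (mem_diagonal_of_mono Q (Subgroup.mul_mem _ (Subgroup.inv_mem _ (hn _)) hmm) h9))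
    rw [h8, hrel]
    obtain ⟨v2, hv2⟩ := hgood hmm hum h7 z⁻¹ (Subgroup.inv_mem _ hzI)
    refine ⟨v2⁻¹, ?_⟩
    rw [h5, ← hv2, inv_smul_smul]

end Cfsg.Agent.Lib.ChevAlg
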