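import Cfsg.Agent.Lib.ChevCoxS
import Cfsg.Agent.Lib.ChevSimple

/-!
# Centres and generation of the Coxeter groups
-/

set_option autoImplicit false
set_option maxRecDepth 10000

namespace Cfsg.Agent.Lib.ChevAlg

open Cfsg.Lie Cfsg.Agent.Lib.ChevTab Matrix

variable {D : ChevalleyDatum} {F : Type*} [Field F] (Q : ChevO D F)

/-- a permutation centralizing a fundamental reflection fixes the root up to sign -/
lemma cent_sr {w : Equiv.Perm (Fin D.nroots)} (hw : WAut Q.C w) {i : ℕ} (hi : i < D.rank)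
    (h : w * sr Q.C2 i = sr Q.C2 i * w) : w (si Q i hi) = si Q i hi ∨ w (si Q i hi) = Fin.rev (si Q i hi) := by
  set a := w (si Q i hi) with ha
  have h1 : sr Q.C2 i a = Fin.rev a := by
    have := congrArg (fun v : Equiv.Perm (Fin D.nroots) => v (si Q i hi)) h
    simp only [Equiv.Perm.mul_apply, sr_si, hw.rev] at this
    exact this.symm
  by_cases hp : ps a
  · left
    by_contra hc
    have h2 := ps_sr Q hi hp hc
    rw [h1] at h2
    exact (ps_rev Q).1 h2 hp
  · right
    by_contra hc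
    have hp' : ps (Fin.rev a) := (ps_rev Q).2 hp
    have hc' : Fin.rev a ≠ si Q i hi := fun e => hc (by rw [← e, Fin.rev_rev])
    have h2 := ps_sr Q hi hp' hc'
    rw [(sr_waut Q.C2 i).rev, h1, Fin.rev_rev] at h2
    exact hp h2

/-- central elements are `± 1` -/
lemma center_pm (hc : ConnD D) {w : Equiv.Perm (Fin D.nroots)} (hw : w ∈ WG Q.C2)
    (h : ∀ i < D.rank, w * sr Q.C2 i = sr Q.C2 i * w) : w = 1 ∨
    ∀ (i : ℕ) (hi : i < D.rank), w (si Q i hi) = Fin.rev (si Q i hi) := by
  have hwa := WG_waut Q hw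
  obtain ⟨dep, hdep⟩ := hc
  by_cases h0 : 0 < D.rank
  swap
  · right
    intro i hi
    omega
  have hne : ∀ (i : ℕ) (hi : i < D.rank), si Q i hi ≠ Fin.rev (si Q i hi) := by
    intro i hi e
    have := ps_si Q hi
    rw [e] at this
    exact (ps_rev Q).1 this (ps_si Q hi)
  have hadj : ∀ (i j : ℕ) (hi : i < D.rank) (hj : j < D.rank), D.cartan i (D.simple j) ≠ 0 →
      (w (si Q i hi) = si Q i hi ↔ w (si Q j hj) = si Q j hj) := by
    intro i j hi hj hij
    have hp := hwa.pair (si Q i hi) (si Q j hj)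
    have e1 : pairD D (si Q i hi : Fin D.nroots) (si Q j hj) = D.cartan i (D.simple j) := pair_si (Q := Q) hi (si Q j hj)
    rw [e1] at hp
    rcases cent_sr Q hwa hi (h i hi) with h1 | h1 <;> rcases cent_sr Q hwa hj (h j hj) with h2 | h2
    · exact ⟨fun _ => h2, fun _ => h1⟩
    · exfalso
      rw [h1, h2] at hp
      have e2 : pairD D (si Q i hi : Fin D.nroots) (Fin.rev (si Q j hj) : Fin D.nroots) = - D.cartan i (D.simple j) := by
        have := pair_si (Q := Q) hi (Fin.rev (si Q j hj))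
        rw [this, fin_rev_val]
        exact cartan_neg Q.C hi (si Q j hj).2
      rw [e2] at hp
      apply hij; linarith
    · exfalso
      rw [h1, h2, pairD_rev Q.C, e1] at hp
      apply hij; linarith
    · constructor
      · intro h3
        exact absurd (h3.symm.trans h1) (hne i hi)
      · intro h3
        exact absurd (h3.symm.trans h2) (hne j hj)
  have hall' : ∀ (k i : ℕ) (hi : i < D.rank), dep i = k → (w (si Q i hi) = si Q i hi ↔ w (si Q 0 h0) = si Q 0 h0) := by
    intro k
    induction k using Nat.strong_induction_on with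
    | _ k ih =>
      intro i hi hk
      rcases hdep i hi with rfl | ⟨j, hj, h1, h2, h3⟩
      · exact Iff.rfl
      · exact (hadj i j hi hj h2).trans (ih (dep j) (by omega) j hj rfl)
  have hall : ∀ (i : ℕ) (hi : i < D.rank), (w (si Q i hi) = si Q i hi ↔ w (si Q 0 h0) = si Q 0 h0) :=
    fun i hi => hall' _ i hi rfl
  by_cases h1 : w (si Q 0 h0) = si Q 0 h0
  · left
    exact eq_one_of_fix Q hw (fun k hk => (hall k hk).2 h1)
  · right
    intro i hi
    rcases cent_sr Q hwa hi (h i hi) with h2 | h2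
    · exact absurd ((hall i hi).1 h2) h1
    · exact h2

/-- `-1` is central -/
lemma neg_central {w : Equiv.Perm (Fin D.nroots)} (hw : WAut Q.C w)
    (h : ∀ (i : ℕ) (hi : i < D.rank), w (si Q i hi) = Fin.rev (si Q i hi)) {i : ℕ} (hi : i < D.rank) :
    w * sr Q.C2 i = sr Q.C2 i * w := by
  have h1 : (sr Q.C2 i * w) (si Q i hi) = si Q i hi := by
    rw [Equiv.Perm.mul_apply, h i hi, (sr_waut Q.C2 i).rev, sr_si, Fin.rev_rev]
  have h2 := conj_sr Q (i := ⟨i, hi⟩) (j := ⟨i, hi⟩) ((sr_waut Q.C2 i).mul hw) h1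
  simp only at h2
  rw [← mul_assoc, sr_mul_self, one_mul] at h2
  calc w * sr Q.C2 i = sr Q.C2 i * w * sr Q.C2 i * sr Q.C2 i := by rw [← h2]
    _ = _ := by rw [mul_assoc, sr_mul_self, mul_one]

/-- data about `-1` in the Weyl group -/
def NegD (D : ChevalleyDatum) (m : ℕ) : Prop :=
  ∀ k < D.rank, iter (wapp D (List.range D.rank)) m (D.simple k) = D.nroots - 1 - D.simple k

/-- data about the longest element different from `-1` -/
def NoNegD (D : ChevalleyDatum) (l : List ℕ) (τ : ℕ → ℕ) : Prop :=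
  (∀ i ∈ l, i < D.rank) ∧ (∀ k < D.rank, τ k < D.rank ∧ wapp D l (D.simple k) = D.nroots - 1 - D.simple (τ k)) ∧
  ∃ k < D.rank, D.simple (τ k) ≠ D.simple k

section cox

variable {n : ℕ} (hn : D.rank = n) (X : CoxeterMatrix (Fin n)) (e : WG Q.C2 ≃* X.Group)
  (he : ∀ i : Fin n, e ⟨sr Q.C2 i, sr_mem Q (by rw [hn]; exact i.2)⟩ = X.simple i)

include he in
lemma cox_word (l : List (Fin D.rank)) :
    ((l.map (Fin.cast hn)).map X.simple).prod = e ⟨ww Q l, ww_mem Q l⟩ := by
  induction l with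
  | nil => exact (map_one e).symm
  | cons i l ih =>
    rw [List.map_cons, List.map_cons, List.prod_cons, ih, ← he (Fin.cast hn i), ← map_mul]
    congr 1

include he in
lemma mem_center_iff {x : WG Q.C2} : e x ∈ Subgroup.center X.Group ↔
    ∀ i < D.rank, (x : Equiv.Perm (Fin D.nroots)) * sr Q.C2 i = sr Q.C2 i * x := by
  constructor
  · intro h i hi
    have h1 := Subgroup.mem_center_iff.1 h (e ⟨sr Q.C2 i, sr_mem Q hi⟩)
    rw [← map_mul, ← map_mul] at h1
    exact (congrArg Subtype.val (e.injective h1)).symm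
  · intro h
    rw [Subgroup.mem_center_iff]
    intro g
    obtain ⟨y, rfl⟩ := e.surjective g
    rw [← map_mul, ← map_mul]
    congr 1
    apply Subtype.ext
    show (y : Equiv.Perm (Fin D.nroots)) * x = x * y
    have hy := y.2
    refine Subgroup.closure_induction (p := fun z _ => z * (x : Equiv.Perm (Fin D.nroots)) = x * z) ?_ ?_ ?_ ?_ hy
    · rintro _ ⟨i, hi, rfl⟩
      exact (h i hi).symm
    · rw [one_mul, mul_one]
    · intro a b _ _ ha hb
      rw [mul_assoc, hb, ← mul_assoc, ha, mul_assoc]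
    · intro a _ ha
      calc a⁻¹ * (x : Equiv.Perm (Fin D.nroots)) = a⁻¹ * (x * a) * a⁻¹ := by group
        _ = x * a⁻¹ := by rw [← ha]; group

include hn he in
theorem cox_center_two (hc : ConnD D) {m : ℕ} (hm : NegD D m) (h0 : 0 < D.rank) :
    Nat.card (Subgroup.center X.Group) = 2 ∧
      Subgroup.center X.Group ≤ Subgroup.zpowers ((List.finRange n).map X.simple).prod := by
  set z : WG Q.C2 := ⟨ww Q (List.finRange D.rank), ww_mem Q _⟩ ^ m with hz
  have hzv : (z : Equiv.Perm (Fin D.nroots)) = ww Q (List.finRange D.rank) ^ m := rfl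
  have hz1 : ∀ (i : ℕ) (hi : i < D.rank), (z : Equiv.Perm (Fin D.nroots)) (si Q i hi) = Fin.rev (si Q i hi) := by
    intro i hi
    apply Fin.ext
    rw [hzv, iter_ww, fin_rev_val, map_val_finRange]
    exact hm i hi
  have hzc : e z ∈ Subgroup.center X.Group := by
    rw [mem_center_iff Q hn X e he]
    intro i hi
    exact neg_central Q (WG_waut Q z.2) hz1 hi
  have hz2 : e z ≠ 1 := by
    intro h
    have h1 : z = 1 := e.injective (h.trans (map_one e).symm)
    have h2 := hz1 0 h0
    rw [h1] at h2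
    have h3 := ps_si Q h0
    have h4 : si Q 0 h0 = Fin.rev (si Q 0 h0) := h2
    rw [h4] at h3
    exact (ps_rev Q).1 h3 (ps_si Q h0)
  have hzz : ∀ x : WG Q.C2, e x ∈ Subgroup.center X.Group → x = 1 ∨ x = z := by
    intro x hx
    rw [mem_center_iff Q hn X e he] at hx
    rcases center_pm Q hc x.2 hx with h | h
    · left; exact Subtype.ext h
    · right
      have h1 : (z : Equiv.Perm (Fin D.nroots))⁻¹ * x = 1 := by
        apply eq_one_of_fix Q (Subgroup.mul_mem _ (Subgroup.inv_mem _ z.2) x.2)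
        intro k hk
        rw [Equiv.Perm.mul_apply, h k hk, ← hz1 k hk, perm_inv_apply]
      apply Subtype.ext
      rw [inv_mul_eq_one] at h1
      exact h1.symm
  have hcox : ((List.finRange n).map X.simple).prod = e ⟨ww Q (List.finRange D.rank), ww_mem Q _⟩ := by
    rw [← cox_word Q hn X e he]
    subst hn
    simp
  constructor
  · rw [Nat.card_eq_two_iff]
    refine ⟨1, ⟨e z, hzc⟩, ?_, ?_⟩
    · intro h
      exact hz2 (congrArg Subtype.val h).symm
    · ext ⟨y, hy⟩
      obtain ⟨x, rfl⟩ := e.surjective y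
      simp only [Set.mem_insert_iff, Set.mem_singleton_iff, Set.mem_univ, iff_true]
      rcases hzz x hy with rfl | rfl
      · left; exact Subtype.ext (map_one e)
      · right; rfl
  · intro y hy
    obtain ⟨x, rfl⟩ := e.surjective y
    rcases hzz x hy with rfl | rfl
    · rw [map_one]; exact Subgroup.one_mem _
    · rw [hz, map_pow, hcox]
      exact Subgroup.pow_mem _ (Subgroup.mem_zpowers _) m

include hn he in
theorem cox_center_one (hc : ConnD D) {l : List ℕ} {τ : ℕ → ℕ} (hm : NoNegD D l τ) :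
    Nat.card (Subgroup.center X.Group) = 1 ∧
      Subgroup.center X.Group ≤ Subgroup.zpowers ((List.finRange n).map X.simple).prod := by
  have h1 : ∀ x : WG Q.C2, e x ∈ Subgroup.center X.Group → x = 1 := by
    intro x hx
    rw [mem_center_iff Q hn X e he] at hx
    rcases center_pm Q hc x.2 hx with h | h
    · exact Subtype.ext h
    · exfalso
      obtain ⟨hl, hτ, k, hk, hne⟩ := hm
      have e1 : l = (l.pmap (fun i hi => (⟨i, hi⟩ : Fin D.rank)) hl).map Fin.val := by
        rw [List.map_pmap]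
        simp
      set l' := l.pmap (fun i hi => (⟨i, hi⟩ : Fin D.rank)) hl with hl'
      have h2 : ∀ (k : ℕ) (hk : k < D.rank), ww Q l' (si Q k hk) = Fin.rev (si Q (τ k) (hτ k hk).1) := by
        intro k hk
        apply Fin.ext
        rw [wapp_ww, fin_rev_val, ← e1]
        exact (hτ k hk).2
      have h3 : (x : Equiv.Perm (Fin D.nroots)) * ww Q l' = 1 := by
        have hx' := WG_waut Q x.2
        apply eq_one_of_ps Q (Subgroup.mul_mem _ x.2 (ww_mem Q l'))
        apply pos_of_simple Q (hx'.mul (WG_waut Q (ww_mem Q l')))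
        intro i hi
        rw [Equiv.Perm.mul_apply, h2 i hi, hx'.rev, h _ (hτ i hi).1, Fin.rev_rev]
        exact ps_si Q (hτ i hi).1
      have h4 : ((x : Equiv.Perm (Fin D.nroots)) * ww Q l') (si Q k hk) = si Q (τ k) (hτ k hk).1 := by
        rw [Equiv.Perm.mul_apply, h2 k hk, (WG_waut Q x.2).rev, h _ (hτ k hk).1, Fin.rev_rev]
      rw [h3, Equiv.Perm.one_apply] at h4
      exact hne (congrArg Fin.val h4).symm
  have h2 : Subgroup.center X.Group = ⊥ := by
    rw [eq_bot_iff]
    intro y hy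
    obtain ⟨x, rfl⟩ := e.surjective y
    rw [h1 x hy, map_one]
    exact Subgroup.mem_bot.2 rfl
  rw [h2]
  exact ⟨Subgroup.card_bot, bot_le⟩

/-! ### generation -/

/-- expansion of a word in the Coxeter element (`none`) and reflections -/
def expd (n : ℕ) : List (Option ℕ) → List ℕ
  | [] => []
  | none :: l => List.range n ++ expd n l
  | some j :: l => j :: expd n l

/-- every fundamental root is reached from a chosen one by a word -/
def GenD (D : ChevalleyDatum) (js : List ℕ) : Prop :=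
  (∀ j ∈ js, j < D.rank) ∧ ∀ i < D.rank, ∃ j ∈ js, ∃ l : List (Option ℕ), (∀ k, some k ∈ l → k ∈ js) ∧
    wapp D (expd D.rank l) (D.simple j) = D.simple i

/-- boolean form -/
def genChk (D : ChevalleyDatum) (js : List ℕ) (L : List (ℕ × List (Option ℕ))) : Bool :=
  js.all (fun j => Nat.blt j D.rank) &&
  (List.range D.rank).all (fun i => let p := L.getD i (0, []); js.contains p.1 &&
    p.2.all (fun o => match o with | none => true | some k => js.contains k) &&
    Nat.beq (wapp D (expd D.rank p.2) (D.simple p.1)) (D.simple i))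

lemma genD_of {D : ChevalleyDatum} {js : List ℕ} {L : List (ℕ × List (Option ℕ))} (h : genChk D js L = true) : GenD D js := by
  simp only [genChk, Bool.and_eq_true, List.all_eq_true, Nat.blt_eq, List.mem_range, List.contains_iff_mem, Nat.beq_eq] at h
  refine ⟨h.1, fun i hi => ?_⟩
  obtain ⟨⟨h1, h2⟩, h3⟩ := h.2 i hi
  refine ⟨_, h1, _, fun k hk => ?_, h3⟩
  have := h2 _ hk
  simpa using this

include Q in
omit e in
lemma expd_lt {js : List ℕ} (hjs : ∀ j ∈ js, j < D.rank) {l : List (Option ℕ)} (hl : ∀ k, some k ∈ l → k ∈ js) :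
    ∀ i ∈ expd D.rank l, i < D.rank := by
  induction l with
  | nil => intro i hi; exact absurd hi (by simp [expd])
  | cons o l ih =>
    have ih' := ih (fun k hk => hl k (List.mem_cons_of_mem _ hk))
    intro i hi
    rcases o with _ | j
    · rw [expd, List.mem_append] at hi
      rcases hi with hi | hi
      · exact List.mem_range.1 hi
      · exact ih' i hi
    · rw [expd, List.mem_cons] at hi
      rcases hi with rfl | hi
      · exact hjs _ (hl _ List.mem_cons_self)
      · exact ih' i hi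

/-- the word as an element of the Weyl group lies in the subgroup -/
lemma expd_mem {js : List ℕ} (hjs : ∀ j ∈ js, j < D.rank) {K : Subgroup (WG Q.C2)}
    (hc : (⟨ww Q (List.finRange D.rank), ww_mem Q _⟩ : WG Q.C2) ∈ K)
    (hj : ∀ j, ∀ h : j < D.rank, j ∈ js → (⟨sr Q.C2 j, sr_mem Q h⟩ : WG Q.C2) ∈ K)
    {l : List (Option ℕ)} (hl : ∀ k, some k ∈ l → k ∈ js) :
    ∃ v ∈ K, ∀ s : Fin D.nroots, (((v : Equiv.Perm (Fin D.nroots)) s : Fin D.nroots) : ℕ) = wapp D (expd D.rank l) s := by
  induction l with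
  | nil => exact ⟨1, Subgroup.one_mem _, fun _ => rfl⟩
  | cons o l ih =>
    obtain ⟨v, hv, e1⟩ := ih (fun k hk => hl k (List.mem_cons_of_mem _ hk))
    have happ : ∀ (l₁ l₂ : List ℕ) (s : ℕ), wapp D (l₁ ++ l₂) s = wapp D l₁ (wapp D l₂ s) := by
      intro l₁ l₂ s
      induction l₁ with
      | nil => rfl
      | cons a l₁ ih => rw [List.cons_append, wapp, wapp, ih]
    rcases o with _ | j
    · refine ⟨_, Subgroup.mul_mem _ hc hv, fun s => ?_⟩
      rw [expd, happ, ← e1, ← map_val_finRange, ← wapp_ww Q]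
      rfl
    · have hj' : j ∈ js := hl _ List.mem_cons_self
      refine ⟨_, Subgroup.mul_mem _ (hj j (hjs j hj') hj') hv, fun s => ?_⟩
      rw [expd, wapp, ← e1, ← sr_val Q.C2 (hjs j hj')]
      rfl

/-- generation criterion -/
theorem gen_top {js : List ℕ} (h : GenD D js) {K : Subgroup (WG Q.C2)}
    (hc : (⟨ww Q (List.finRange D.rank), ww_mem Q _⟩ : WG Q.C2) ∈ K)
    (hj : ∀ j, ∀ h : j < D.rank, j ∈ js → (⟨sr Q.C2 j, sr_mem Q h⟩ : WG Q.C2) ∈ K) : K = ⊤ := by
  rw [eq_top_iff, ← sg_closure Q, Subgroup.closure_le]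
  rintro _ ⟨i, rfl⟩
  obtain ⟨hjs, hall⟩ := h
  obtain ⟨j, hjm, l, hl, e1⟩ := hall i i.2
  obtain ⟨v, hv, e2⟩ := expd_mem Q hjs hc hj hl
  have hjr := hjs j hjm
  have e3 : (v : Equiv.Perm (Fin D.nroots)) (si Q j hjr) = si Q i i.2 := by
    apply Fin.ext
    rw [e2]
    exact e1
  have e4 := conj_sr Q (i := i) (j := ⟨j, hjr⟩) (WG_waut Q v.2) e3
  have e5 : sg Q i = v * ⟨sr Q.C2 j, sr_mem Q hjr⟩ * v⁻¹ := by
    rw [eq_mul_inv_iff_mul_eq]
    exact Subtype.ext e4
  rw [e5]
  exact Subgroup.mul_mem _ (Subgroup.mul_mem _ hv (hj j hjr hjm)) (Subgroup.inv_mem _ hv)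

include Q hn he in
theorem cox_gen {js : List ℕ} (hnd : js.Nodup) (hjs : ∀ j ∈ js, j < D.rank)
    (h : ∀ K : Subgroup (WG Q.C2), (⟨ww Q (List.finRange D.rank), ww_mem Q _⟩ : WG Q.C2) ∈ K →
      (∀ j, ∀ h : j < D.rank, j ∈ js → (⟨sr Q.C2 j, sr_mem Q h⟩ : WG Q.C2) ∈ K) → K = ⊤) :
    ∃ T : Finset X.Group, T.card = js.length ∧ (∀ t ∈ T, ∃ (g : X.Group) (i : Fin n), t = g * X.simple i * g⁻¹) ∧
      Subgroup.closure (({((List.finRange n).map X.simple).prod} : Set X.Group) ∪ ↑T) = ⊤ := by
  classical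
  subst hn
  set js' : List (Fin D.rank) := js.pmap (fun i hi => (⟨i, hi⟩ : Fin D.rank)) hjs with hjs'
  have hmem : ∀ i : Fin D.rank, i ∈ js' ↔ (i : ℕ) ∈ js := by
    intro i
    rw [hjs', List.mem_pmap]
    constructor
    · rintro ⟨a, ha, rfl⟩; exact ha
    · intro h; exact ⟨i, h, rfl⟩
  have hnd' : js'.Nodup := List.Nodup.pmap (fun a ha b hb h => congrArg Fin.val h) hnd
  have hinj : Function.Injective X.simple := by
    intro i j hij
    rw [← he i, ← he j] at hij
    exact Fin.ext (simple_inj Q i.2 j.2 (congrArg Subtype.val (e.injective hij)))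
  have hcox : ((List.finRange D.rank).map X.simple).prod = e ⟨ww Q (List.finRange D.rank), ww_mem Q _⟩ := by
    rw [← cox_word Q rfl X e he]
    simp
  refine ⟨(js'.toFinset).image X.simple, ?_, ?_, ?_⟩
  · rw [Finset.card_image_of_injective _ hinj, List.toFinset_card_of_nodup hnd', hjs', List.length_pmap]
  · intro t ht
    rw [Finset.mem_image] at ht
    obtain ⟨i, -, rfl⟩ := ht
    exact ⟨1, i, by group⟩
  · set M : Subgroup X.Group :=
      Subgroup.closure (({((List.finRange D.rank).map X.simple).prod} : Set X.Group) ∪ ↑((js'.toFinset).image X.simple)) with hM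
    have a1 : (⟨ww Q (List.finRange D.rank), ww_mem Q _⟩ : WG Q.C2) ∈ M.comap e.toMonoidHom := by
      rw [Subgroup.mem_comap]
      have a2 : e.toMonoidHom ⟨ww Q (List.finRange D.rank), ww_mem Q _⟩ = ((List.finRange D.rank).map X.simple).prod :=
        hcox.symm
      rw [a2]
      exact Subgroup.subset_closure (Or.inl rfl)
    have a3 : ∀ j, ∀ h : j < D.rank, j ∈ js → (⟨sr Q.C2 j, sr_mem Q h⟩ : WG Q.C2) ∈ M.comap e.toMonoidHom := by
      intro j hj hjm
      rw [Subgroup.mem_comap]
      have h2 : e.toMonoidHom ⟨sr Q.C2 j, sr_mem Q hj⟩ = X.simple ⟨j, hj⟩ := he ⟨j, hj⟩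
      rw [h2]
      apply Subgroup.subset_closure
      right
      rw [Finset.mem_coe, Finset.mem_image]
      exact ⟨⟨j, hj⟩, List.mem_toFinset.2 ((hmem _).2 hjm), rfl⟩
    have h1 := h _ a1 a3
    rw [eq_top_iff]
    intro y _
    obtain ⟨x, rfl⟩ := e.surjective y
    have : x ∈ (⊤ : Subgroup (WG Q.C2)) := Subgroup.mem_top _
    rw [← h1] at this
    exact this

end cox

end Cfsg.Agent.Lib.ChevAlg
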