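import Cfsg.Agent.Lib.ChevCoxB

/-!
# Centres and generation of the Coxeter groups: the seven types
-/

set_option autoImplicit false
set_option maxRecDepth 10000

namespace Cfsg.Agent.Lib.ChevAlg

open Cfsg.Lie Cfsg.Agent.Lib.ChevTab Matrix

lemma genD4 : GenD chevD4 [1, 2] := genD_of (L := [(1, [none, none, some 1]), (1, []), (2, []), (1, [none, some 2])]) (by decide +kernel)
lemma genF4 : GenD chevF4 [0, 2] := genD_of (L := [(0, []), (0, [none]), (2, []), (2, [none])]) (by decide +kernel)
lemma genE6 : GenD chevE6 [3] := genD_of (L := [(3, [none, none, none, none, none, none, none]), (3, [none, none, none, some 3, none, none, none]), (3, [some 3, none, none, none, none, some 3]), (3, []), (3, [none]), (3, [none, none])]) (by decide +kernel)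
lemma genE7 : GenD chevE7 [3] := genD_of (L := [(3, [none, none, none, none, some 3, none, none, none, none]), (3, [some 3, none, some 3, none, none, none, none, none, some 3]), (3, [some 3, none, none, none, none, none, some 3]), (3, []), (3, [none]), (3, [none, none]), (3, [none, none, none])]) (by decide +kernel)
lemma genE8 : GenD chevE8 [3] := genD_of (L := [(3, [none, none, none, none, none, some 3, none, none, none, none, none, none, none, none, none]), (3, [some 3, none, some 3, none, none, none, none, none, none, some 3]), (3, [some 3, none, none, none, none, none, none, some 3]), (3, []), (3, [none]), (3, [none, none]), (3, [none, none, none]), (3, [none, none, none, none])]) (by decide +kernel)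

lemma negB2 : NegD chevB2 2 := by unfold NegD; decide +kernel
lemma negG2 : NegD chevG2 3 := by unfold NegD; decide +kernel
lemma negD4 : NegD chevD4 3 := by unfold NegD; decide +kernel
lemma negF4 : NegD chevF4 6 := by unfold NegD; decide +kernel
lemma negE7 : NegD chevE7 9 := by unfold NegD; decide +kernel
lemma negE8 : NegD chevE8 15 := by unfold NegD; decide +kernel

lemma noNegE6 : NoNegD chevE6 [0, 1, 2, 0, 3, 1, 2, 0, 3, 2, 4, 3, 1, 2, 0, 3, 2, 4, 3, 1, 5, 4, 3, 1, 2, 0, 3, 2, 4, 3, 1, 5, 4, 3, 2, 0]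
    (fun k => [5, 1, 4, 3, 2, 0].getD k 0) := by
  refine ⟨by decide +kernel, by decide +kernel, 0, by decide +kernel, by decide +kernel⟩

variable {D : ChevalleyDatum} {F : Type*} [Field F] (Q : ChevO D F)

lemma gen_top2 (hr : D.rank = 2) {K : Subgroup (WG Q.C2)}
    (hc : (⟨ww Q (List.finRange D.rank), ww_mem Q _⟩ : WG Q.C2) ∈ K)
    (hj : ∀ j, ∀ h : j < D.rank, j ∈ [0] → (⟨sr Q.C2 j, sr_mem Q h⟩ : WG Q.C2) ∈ K) : K = ⊤ := by
  have h0 : 0 < D.rank := by omega
  have h1 : 1 < D.rank := by omega
  have hs0 := hj 0 h0 (by simp)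
  have e1 : ww Q (List.finRange D.rank) = sr Q.C2 0 * sr Q.C2 1 := by
    have : ∀ n : ℕ, ∀ h : D.rank = n, ww Q (List.finRange D.rank) = ((List.range n).map (fun i => sr Q.C2 i)).prod := by
      rintro n rfl
      rw [ww, ← map_val_finRange, List.map_map]
      rfl
    rw [this 2 hr]
    have e : List.range 2 = [0, 1] := rfl
    rw [e, List.map_cons, List.map_cons, List.map_nil, List.prod_cons, List.prod_cons, List.prod_nil, mul_one]
  have hs1 : (⟨sr Q.C2 1, sr_mem Q h1⟩ : WG Q.C2) ∈ K := by
    have : (⟨sr Q.C2 1, sr_mem Q h1⟩ : WG Q.C2) = (⟨sr Q.C2 0, sr_mem Q h0⟩ : WG Q.C2) * ⟨ww Q (List.finRange D.rank), ww_mem Q _⟩ := by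
      apply Subtype.ext
      show sr Q.C2 1 = sr Q.C2 0 * ww Q (List.finRange D.rank)
      rw [e1, ← mul_assoc, sr_mul_self, one_mul]
    rw [this]
    exact Subgroup.mul_mem _ hs0 hc
  rw [eq_top_iff, ← sg_closure Q, Subgroup.closure_le]
  rintro _ ⟨⟨i, hi⟩, rfl⟩
  have h2 : i = 0 ∨ i = 1 := by omega
  rcases h2 with rfl | rfl
  · exact hs0
  · exact hs1

end Cfsg.Agent.Lib.ChevAlg
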