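import Mathlib
import Cfsg.Agent.Lib.CharInt
import Cfsg.Agent.Lib.CharDefectZero

/-!
# Integrality of representations affording characters of `p`-defect zero
-/

set_option autoImplicit false

namespace Cfsg.Agent.Lib.DefZero

open Cfsg Representation Module Cfsg.Agent.Lib.CharBasic Cfsg.Agent.Lib.CharRep Cfsg.Agent.Lib.CharInt
open scoped ComplexConjugate MonoidAlgebra

noncomputable section

/-- divisibility by `p` in the algebraic integers -/
def PD (p : ℕ) (z : ℂ) : Prop := ∃ a : ℂ, IsIntegral ℤ a ∧ z = p * a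

lemma PD.add {p : ℕ} {z w : ℂ} (hz : PD p z) (hw : PD p w) : PD p (z + w) := by
  obtain ⟨a, ha, rfl⟩ := hz
  obtain ⟨b, hb, rfl⟩ := hw
  exact ⟨a + b, ha.add hb, by ring⟩

lemma PD.zero (p : ℕ) : PD p 0 := ⟨0, isIntegral_zero, by simp⟩

lemma PD.mul {p : ℕ} {z w : ℂ} (hz : PD p z) (hw : IsIntegral ℤ w) : PD p (z * w) := by
  obtain ⟨a, ha, rfl⟩ := hz
  exact ⟨a * w, ha.mul hw, by ring⟩

lemma PD.sum {p : ℕ} {ι : Type*} (s : Finset ι) {f : ι → ℂ} (h : ∀ i ∈ s, PD p (f i)) : PD p (∑ i ∈ s, f i) := by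
  classical
  induction s using Finset.induction_on with
  | empty => simpa using PD.zero p
  | insert a s ha ih =>
    rw [Finset.sum_insert ha]
    exact (h a (Finset.mem_insert_self a s)).add (ih fun i hi => h i (Finset.mem_insert_of_mem hi))

lemma isIntegral_int (n : ℤ) : IsIntegral ℤ (n : ℂ) := isIntegral_algebraMap (R := ℤ) (A := ℂ) (x := n)

lemma isIntegral_nat (n : ℕ) : IsIntegral ℤ (n : ℂ) := by
  have := isIntegral_int n
  rwa [Int.cast_natCast] at this

lemma PD.of_mul {p r : ℕ} (hr : r.Coprime p) {z : ℂ} (hz : IsIntegral ℤ z) (h : PD p ((r : ℂ) * z)) : PD p z := by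
  obtain ⟨a, ha, e⟩ := h
  have h1 := Nat.gcd_eq_gcd_ab r p
  rw [hr] at h1
  have h2 : (1 : ℂ) = (r : ℂ) * (r.gcdA p : ℂ) + (p : ℂ) * (r.gcdB p : ℂ) := by exact_mod_cast h1
  refine ⟨(r.gcdA p : ℂ) * a + (r.gcdB p : ℂ) * z, ((isIntegral_int _).mul ha).add ((isIntegral_int _).mul hz), ?_⟩
  calc z = ((r : ℂ) * (r.gcdA p : ℂ) + (p : ℂ) * (r.gcdB p : ℂ)) * z := by rw [← h2, one_mul]
    _ = (r.gcdA p : ℂ) * ((r : ℂ) * z) + (p : ℂ) * (r.gcdB p : ℂ) * z := by ring
    _ = _ := by rw [e]; ring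

/-- sums of functions invariant under a `p`-group -/
theorem sum_pd {p : ℕ} [Fact p.Prime] {P : Type*} [Group P] (hP : IsPGroup p P) {α : Type*}
    [Fintype α] [MulAction P α] (f : α → ℂ) (hint : ∀ a, IsIntegral ℤ (f a)) (hf : ∀ (g : P) (a : α), f (g • a) = f a)
    (hfix : ∀ a, (∀ g : P, g • a = a) → PD p (f a)) : PD p (∑ a, f a) := by
  classical
  have h1 : ∀ v : ℂ, (Finset.univ.filter (fun a : α => f a = v)).card ≡
      (Finset.univ.filter (fun a : α => f a = v ∧ ∀ g : P, g • a = a)).card [MOD p] := by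
    intro v
    let S : SubMulAction P α :=
      { carrier := {a | f a = v}
        smul_mem' := fun g a ha => by
          change f (g • a) = v
          rw [hf]; exact ha }
    have h2 := hP.card_modEq_card_fixedPoints S
    have h3 : Nat.card S = (Finset.univ.filter (fun a : α => f a = v)).card := by
      rw [← Fintype.card_subtype, ← Nat.card_eq_fintype_card]
      rfl
    have h4 : Nat.card (MulAction.fixedPoints P S) =
        (Finset.univ.filter (fun a : α => f a = v ∧ ∀ g : P, g • a = a)).card := by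
      rw [← Fintype.card_subtype, ← Nat.card_eq_fintype_card]
      refine Nat.card_congr ⟨fun x => ⟨x.1.1, x.1.2, fun g => congrArg Subtype.val (x.2 g)⟩,
        fun y => ⟨⟨y.1, y.2.1⟩, fun g => Subtype.ext (y.2.2 g)⟩, fun _ => rfl, fun _ => rfl⟩
    rw [h3, h4] at h2
    exact h2
  have h2 : ∑ a, f a = ∑ v ∈ Finset.univ.image f, v * ((Finset.univ.filter
      (fun a : α => f a = v)).card : ℂ) := by
    rw [← Finset.sum_fiberwise_of_maps_to (s := Finset.univ) (t := Finset.univ.image f) (g := f)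
      (fun a _ => Finset.mem_image_of_mem f (Finset.mem_univ a))]
    refine Finset.sum_congr rfl fun v _ => ?_
    rw [Finset.sum_congr rfl (fun a ha => (Finset.mem_filter.mp ha).2), Finset.sum_const,
      nsmul_eq_mul, mul_comm]
  rw [h2]
  apply PD.sum
  intro v hv
  obtain ⟨a0, -, ha0⟩ := Finset.mem_image.1 hv
  by_cases hex : ∃ a, f a = v ∧ ∀ g : P, g • a = a
  · obtain ⟨a, ha, hg⟩ := hex
    rw [← ha]
    exact (hfix a hg).mul (isIntegral_nat _)
  · have h3 : (Finset.univ.filter (fun a : α => f a = v ∧ ∀ g : P, g • a = a)).card = 0 := by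
      rw [Finset.card_eq_zero]
      apply Finset.eq_empty_of_forall_notMem
      intro a ha
      exact hex ⟨a, (Finset.mem_filter.1 ha).2⟩
    have h4 := h1 v
    rw [h3] at h4
    obtain ⟨k, hk⟩ := (Nat.modEq_zero_iff_dvd.1 h4)
    rw [hk]
    refine ⟨v * k, ?_, by push_cast; ring⟩
    rw [← ha0]
    exact (hint a0).mul (isIntegral_nat _)

variable {G : Type*} [Group G]

/-- data of a character of defect zero -/
structure DZ (p : ℕ) (n r m : ℕ) (χ : G → ℂ) : Prop where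
  irr : IsIrrCharacter G χ
  card : Nat.card G = p ^ n * r
  cop : r.Coprime p
  deg : χ 1 = ((p ^ n * m : ℕ) : ℂ)

/-- values of characters of defect zero -/
theorem DZ.pd [Fintype G] {p n r m : ℕ} [Fact p.Prime] {χ : G → ℂ} (h : DZ p n r m χ) {x y : G} (hy : orderOf y = p) (hxy : y * x = x * y) :
    PD p (χ x) := by
  have hp : p.Prime := Fact.out
  set C := Subgroup.centralizer ({x} : Set G) with hC
  have h1 := isIntegral_centralChar h.irr x
  have hyC : y ∈ C := Subgroup.mem_centralizer_singleton_iff.2 hxy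
  have h2 : p ∣ Nat.card C := by
    rw [← hy]
    have := orderOf_dvd_natCard (⟨y, hyC⟩ : C)
    rwa [Subgroup.orderOf_mk] at this
  obtain ⟨c, hc⟩ := h2
  have h3 : (Nat.card C : ℂ) * (C.index : ℂ) = (p : ℂ) ^ n * r := by
    have := C.card_mul_index
    rw [h.card] at this
    exact_mod_cast this
  have hd : χ 1 ≠ 0 := by
    obtain ⟨k, hk, hk1⟩ := isIrr_one_eq h.irr
    rw [hk1]
    exact_mod_cast hk.ne'
  have hint := char_isIntegral (isChar_of_irr h.irr) x
  apply PD.of_mul h.cop hint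
  set ω := (C.index : ℂ) * χ x / χ 1 with hω
  refine ⟨c * m * ω, ((isIntegral_nat c).mul (isIntegral_nat m)).mul h1, ?_⟩
  have h4 : (C.index : ℂ) * χ x = ω * χ 1 := by rw [hω, div_mul_cancel₀ _ hd]
  have hpn : (p : ℂ) ^ n ≠ 0 := pow_ne_zero _ (by exact_mod_cast hp.ne_zero)
  apply mul_left_cancel₀ hpn
  calc (p : ℂ) ^ n * (r * χ x) = ((Nat.card C : ℂ) * (C.index : ℂ)) * χ x := by rw [h3]; ring
    _ = (Nat.card C : ℂ) * (ω * χ 1) := by rw [← h4]; ring
    _ = (p : ℂ) ^ n * (p * (c * m * ω)) := by rw [hc, h.deg]; push_cast; ring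

/-- coefficients of the projection -/
theorem DZ.coef [Fintype G] {p n r m : ℕ} [Fact p.Prime] {χ : G → ℂ} (h : DZ p n r m χ) (U : Subgroup G) [Fintype U] (hU : IsPGroup p U) (g : G)
    (hex : ∃ y ∈ U, y ≠ 1 ∧ g⁻¹ * y * g ∈ U) : PD p (∑ u : U, χ (u * g⁻¹)) := by
  have hp : p.Prime := Fact.out
  obtain ⟨y0, hy0, hne, hy0g⟩ := hex
  -- an element of order p
  obtain ⟨y, hyU, hyo, hyg⟩ : ∃ y ∈ U, orderOf y = p ∧ g⁻¹ * y * g ∈ U := by
    obtain ⟨k, hk⟩ := IsPGroup.iff_orderOf.1 hU ⟨y0, hy0⟩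
    rw [Subgroup.orderOf_mk] at hk
    have hk0 : k ≠ 0 := by
      rintro rfl
      rw [pow_zero, orderOf_eq_one_iff] at hk
      exact hne hk
    obtain ⟨j, rfl⟩ := Nat.exists_eq_succ_of_ne_zero hk0
    refine ⟨y0 ^ p ^ j, U.pow_mem hy0 _, ?_, ?_⟩
    · rw [orderOf_pow' _ (pow_ne_zero _ hp.ne_zero), hk, Nat.gcd_eq_right (pow_dvd_pow p (Nat.le_succ j)), pow_succ,
        Nat.mul_div_cancel_left _ (pow_pos hp.pos _)]
    · have e : g⁻¹ * y0 ^ p ^ j * g = (g⁻¹ * y0 * g) ^ p ^ j := by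
        have e1 : ∀ z : G, g⁻¹ * z * g = MulAut.conj g⁻¹ z := fun z => by rw [MulAut.conj_apply, inv_inv]
        rw [e1, e1, map_pow]
      rw [e]; exact U.pow_mem hy0g _
  have hzU : ∀ z ∈ Subgroup.zpowers y, z ∈ U ∧ g⁻¹ * z * g ∈ U := by
    intro z hz
    obtain ⟨k, rfl⟩ := Subgroup.mem_zpowers_iff.1 hz
    refine ⟨U.zpow_mem hyU _, ?_⟩
    have e1 : ∀ z : G, g⁻¹ * z * g = MulAut.conj g⁻¹ z := fun z => by rw [MulAut.conj_apply, inv_inv]
    rw [e1, map_zpow, ← e1]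
    exact U.zpow_mem hyg _
  have hPz : IsPGroup p (Subgroup.zpowers y) := by
    apply IsPGroup.of_card (n := 1)
    rw [Nat.card_zpowers, hyo, pow_one]
  letI : MulAction (Subgroup.zpowers y) U :=
    { smul := fun z u => ⟨(z : G) * u * (g⁻¹ * (z : G) * g)⁻¹, U.mul_mem (U.mul_mem (hzU _ z.2).1 u.2) (U.inv_mem (hzU _ z.2).2)⟩
      one_smul := fun u => Subtype.ext (by
        show ((1 : Subgroup.zpowers y) : G) * u * (g⁻¹ * ((1 : Subgroup.zpowers y) : G) * g)⁻¹ = u
        simp)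
      mul_smul := fun z z' u => Subtype.ext (by
        show (((z * z' : Subgroup.zpowers y)) : G) * u * (g⁻¹ * ((z * z' : Subgroup.zpowers y) : G) * g)⁻¹ =
          (z : G) * ((z' : G) * u * (g⁻¹ * (z' : G) * g)⁻¹) * (g⁻¹ * (z : G) * g)⁻¹
        push_cast
        group) }
  have hsm : ∀ (z : Subgroup.zpowers y) (u : U), ((z • u : U) : G) = (z : G) * u * (g⁻¹ * (z : G) * g)⁻¹ := fun _ _ => rfl
  have hχ := isChar_of_irr h.irr
  have hcl := isChar_classFn hχ
  apply sum_pd hPz (fun u : U => χ (u * g⁻¹)) (fun u => char_isIntegral hχ _)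
  · intro z u
    show χ (((z • u : U) : G) * g⁻¹) = χ (u * g⁻¹)
    rw [hsm]
    have e : (z : G) * u * (g⁻¹ * (z : G) * g)⁻¹ * g⁻¹ = z * (u * g⁻¹) * (z : G)⁻¹ := by group
    rw [e, hcl]
  · intro u hu
    have h1 := congrArg Subtype.val (hu ⟨y, Subgroup.mem_zpowers y⟩)
    rw [hsm] at h1
    refine h.pd hyo (y := y) ?_
    have h2 : y * u * (g⁻¹ * y * g)⁻¹ = (u : G) := h1
    calc y * (u * g⁻¹) = (y * u * (g⁻¹ * y * g)⁻¹) * (g⁻¹ * y * g) * g⁻¹ := by group
      _ = u * (g⁻¹ * y * g) * g⁻¹ := by rw [h2]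
      _ = u * g⁻¹ * y := by group

section rep

variable [Fintype G] {V : Type*} [AddCommGroup V] [Module ℂ V]

/-- the lattice spanned by the translates of a vector, over the algebraic integers -/
def Lam (ρ : Representation ℂ G V) (v : V) : AddSubgroup V where
  carrier := {x | ∃ f : G → ℂ, (∀ g, IsIntegral ℤ (f g)) ∧ x = ∑ g, f g • ρ g v}
  add_mem' := by
    rintro _ _ ⟨f, hf, rfl⟩ ⟨f', hf', rfl⟩
    exact ⟨fun g => f g + f' g, fun g => (hf g).add (hf' g), by simp [add_smul, Finset.sum_add_distrib]⟩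
  zero_mem' := ⟨fun _ => 0, fun _ => isIntegral_zero, by simp⟩
  neg_mem' := by
    rintro _ ⟨f, hf, rfl⟩
    exact ⟨fun g => - f g, fun g => (hf g).neg, by simp⟩

variable {ρ : Representation ℂ G V}

lemma Lam.smul {v x : V} (hx : x ∈ Lam ρ v) {c : ℂ} (hc : IsIntegral ℤ c) : c • x ∈ Lam ρ v := by
  obtain ⟨f, hf, rfl⟩ := hx
  refine ⟨fun g => c * f g, fun g => hc.mul (hf g), ?_⟩
  rw [Finset.smul_sum]
  simp [mul_smul]

lemma Lam.self (v : V) : v ∈ Lam ρ v := by
  classical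
  refine ⟨fun g => if g = 1 then 1 else 0, fun g => ?_, ?_⟩
  · dsimp only
    split_ifs
    · exact isIntegral_one
    · exact isIntegral_zero
  · simp

lemma Lam.act {v x : V} (hx : x ∈ Lam ρ v) (h : G) : ρ h x ∈ Lam ρ v := by
  obtain ⟨f, hf, rfl⟩ := hx
  refine ⟨fun g => f (h⁻¹ * g), fun g => hf _, ?_⟩
  rw [map_sum]
  rw [← Equiv.sum_comp (Equiv.mulLeft h) (fun g => f (h⁻¹ * g) • ρ g v)]
  refine Finset.sum_congr rfl (fun g _ => ?_)
  simp [map_mul]

lemma Lam.trans {v w x : V} (hw : w ∈ Lam ρ v) (hx : x ∈ Lam ρ w) : x ∈ Lam ρ v := by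
  obtain ⟨f, hf, rfl⟩ := hx
  exact AddSubgroup.sum_mem _ (fun g _ => Lam.smul (Lam.act hw g) (hf g))

lemma Lam.sum {v : V} {ι : Type*} (s : Finset ι) {f : ι → V} (h : ∀ i ∈ s, f i ∈ Lam ρ v) : ∑ i ∈ s, f i ∈ Lam ρ v :=
  AddSubgroup.sum_mem _ h

/-- eigenvectors with non-integral eigenvalue vanish -/
theorem nak {p r : ℕ} (hp : p.Prime) (hr : r.Coprime p) {v z : V} (hz : z ∈ Lam ρ v) (h : (r : ℂ) • v = (p : ℂ) • z) : v = 0 := by
  by_contra hv
  obtain ⟨f, hf, rfl⟩ := hz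
  let O := integralClosure ℤ ℂ
  let φ : MonoidAlgebra O G →ₐ[O] (Module.End ℂ V) :=
    MonoidAlgebra.lift O (Module.End ℂ V) G ρ
  let a : MonoidAlgebra O G := ∑ g : G, MonoidAlgebra.single g (⟨f g, hf g⟩ : O)
  have ha : φ a = ∑ g : G, f g • ρ g := by
    simp only [a, map_sum]
    apply Finset.sum_congr rfl
    intro g _
    simp only [φ, MonoidAlgebra.lift_single]
    rfl
  have hfin : Module.Finite O (MonoidAlgebra O G) :=
    Module.Finite.of_basis (MonoidAlgebra.basis G O)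
  have hint : IsIntegral O a := (Algebra.IsIntegral.of_finite O (MonoidAlgebra O G)).isIntegral a
  have h1 : IsIntegral O (φ a) := hint.map φ
  obtain ⟨P, hP, hP0⟩ := h1
  have hp0 : (p : ℂ) ≠ 0 := by exact_mod_cast hp.ne_zero
  have heig : (φ a) v = ((r : ℂ) / p) • v := by
    rw [ha]
    have e1 : (∑ g : G, f g • ρ g) v = ∑ g : G, f g • ρ g v := by
      rw [LinearMap.sum_apply]; rfl
    rw [e1, div_eq_inv_mul, mul_smul, h, smul_smul, inv_mul_cancel₀ hp0, one_smul]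
  have hpow : ∀ k : ℕ, ((φ a) ^ k) v = (((r : ℂ) / p) ^ k) • v := by
    intro k
    induction k with
    | zero => simp
    | succ k ih =>
      rw [pow_succ', Module.End.mul_apply, ih, map_smul, heig, smul_smul, pow_succ]
  have h2 : (Polynomial.eval₂ (algebraMap O ℂ) ((r : ℂ) / p) P) • v = 0 := by
    have h3 : (Polynomial.eval₂ (algebraMap O (Module.End ℂ V)) (φ a) P) v = 0 := by rw [hP0]; rfl
    rw [Polynomial.eval₂_eq_sum_range, LinearMap.sum_apply] at h3
    rw [Polynomial.eval₂_eq_sum_range, Finset.sum_smul, ← h3]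
    refine Finset.sum_congr rfl (fun k _ => ?_)
    rw [Module.End.mul_apply, hpow, mul_smul]
    rfl
  have h3 : Polynomial.eval₂ (algebraMap O ℂ) ((r : ℂ) / p) P = 0 := (smul_eq_zero.1 h2).resolve_right hv
  have h4 : IsIntegral O ((r : ℂ) / p) := ⟨P, hP, h3⟩
  have h5 : IsIntegral ℤ ((r : ℂ) / p) := isIntegral_trans (R := ℤ) (A := O) _ h4
  have h6 := nat_dvd_of_isIntegral hp.ne_zero h5
  have h7 := Nat.dvd_gcd h6 (dvd_refl p)
  rw [hr] at h7
  exact hp.one_lt.ne' (Nat.dvd_one.1 h7)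

variable [FiniteDimensional ℂ V]

/-- the projection formula -/
theorem proj_formula [hρ : ρ.IsIrreducible] {p n r m : ℕ} (hp : p.Prime) (h : DZ p n r m ρ.character) (v : V) :
    (r : ℂ) • v = (m : ℂ) • ∑ g : G, ρ.character g⁻¹ • ρ g v := by
  have hχ := isChar_of_irr h.irr
  have hcl := isChar_classFn hχ
  have h1 := sum_smul_eq_scalar ρ (fun g => ρ.character g⁻¹) (by
    intro g x
    show ρ.character (x * g * x⁻¹)⁻¹ = ρ.character g⁻¹
    have e : (x * g * x⁻¹)⁻¹ = x * g⁻¹ * x⁻¹ := by group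
    rw [e]
    exact hcl _ _)
  have h2 := irr_inner_self h.irr
  rw [classInner_def] at h2
  have hcard : (Nat.card G : ℂ) ≠ 0 := by exact_mod_cast (Nat.card_pos (α := G)).ne'
  have h3 : ∑ g : G, ρ.character g⁻¹ * ρ.character g = (Nat.card G : ℂ) := by
    have h4 : ∑ g : G, ρ.character g * conj (ρ.character g) = (Nat.card G : ℂ) := by
      have h5 := congrArg (fun z => (Nat.card G : ℂ) * z) h2
      rw [← mul_assoc, mul_inv_cancel₀ hcard, one_mul, mul_one] at h5
      exact h5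
    rw [← h4]
    refine Finset.sum_congr rfl (fun g _ => ?_)
    rw [char_inv hχ, mul_comm]
  have hdeg : (finrank ℂ V : ℂ) = ((p ^ n * m : ℕ) : ℂ) := by
    rw [← h.deg, char_one]
  have h4 := congrArg (fun T : V →ₗ[ℂ] V => T v) h1
  rw [h3, LinearMap.sum_apply, LinearMap.smul_apply, LinearMap.id_apply, hdeg, h.card] at h4
  have hm : (m : ℂ) ≠ 0 := by
    intro hm
    have h5 := h.deg
    obtain ⟨k, hk, hk1⟩ := isIrr_one_eq h.irr
    rw [hk1] at h5
    push_cast at h5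
    rw [hm, mul_zero] at h5
    exact hk.ne' (by exact_mod_cast h5)
  have hpn : (p : ℂ) ^ n ≠ 0 := pow_ne_zero _ (by exact_mod_cast hp.ne_zero)
  have h5 : ∑ g : G, ρ.character g⁻¹ • ρ g v = (((p ^ n * r : ℕ) : ℂ) / ((p ^ n * m : ℕ) : ℂ)) • v := by
    rw [← h4]; rfl
  rw [h5, smul_smul]
  congr 1
  push_cast
  field_simp

end rep

/-- sums over cosets -/
lemma sum_cosets [Fintype G] (H : Subgroup G) [Fintype H] [Fintype (G ⧸ H)] {M : Type*} [AddCommMonoid M] (f : G → M) :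
    ∑ g : G, f g = ∑ q : G ⧸ H, ∑ h : H, f (Quotient.out q * h) := by
  rw [← Fintype.sum_prod_type']
  symm
  refine Fintype.sum_bijective (fun x : (G ⧸ H) × H => Quotient.out x.1 * (x.2 : G)) ⟨?_, ?_⟩ _ _ (fun _ => rfl)
  · rintro ⟨q, h⟩ ⟨q', h'⟩ e
    have e' : Quotient.out q * (h : G) = Quotient.out q' * (h' : G) := e
    have h1 : q = q' := by
      have h2 : ((Quotient.out q * (h : G) : G) : G ⧸ H) = ((Quotient.out q' * (h' : G) : G) : G ⧸ H) := by rw [e']
      rw [QuotientGroup.mk_mul_of_mem _ h.2, QuotientGroup.mk_mul_of_mem _ h'.2, QuotientGroup.out_eq', QuotientGroup.out_eq'] at h2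
      exact h2
    subst h1
    have h3 := mul_left_cancel e'
    rw [Subtype.ext h3]
  · intro g
    have h1 : (Quotient.out (g : G ⧸ H))⁻¹ * g ∈ H := QuotientGroup.eq.1 (QuotientGroup.out_eq' (g : G ⧸ H))
    refine ⟨((g : G ⧸ H), ⟨_, h1⟩), ?_⟩
    show Quotient.out (g : G ⧸ H) * ((Quotient.out (g : G ⧸ H))⁻¹ * g) = g
    group

end

end Cfsg.Agent.Lib.DefZero
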