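import Cfsg.Agent.Lib.ChevCell6
import Cfsg.Agent.Lib.DefZero
import Cfsg.Agent.Lib.ChevSL2
import Cfsg.Agent.Lib.CharSolomon

/-!
# Characters of defect zero of Chevalley groups
-/

set_option autoImplicit false

namespace Cfsg.Agent.Lib.ChevAlg

open Cfsg Cfsg.Lie Cfsg.Agent.Lib.ChevTab Matrix Cfsg.Agent.Lib.DefZero Cfsg.Agent.Lib.CharBasic

variable {D : ChevalleyDatum} {F : Type*} [Field F] {Q : ChevO D F}

variable (Q) in
/-- the unipotent subgroup inside the group -/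
abbrev UG : Subgroup ↥(D.group F) := (XS Q (Pos D)).subgroupOf (D.group F)

lemma UG_le_BG : UG Q ≤ BG D F := fun _ h => Subgroup.mem_subgroupOf.2 (U_le_borel Q (Subgroup.mem_subgroupOf.1 h))

lemma BG_norm_UG {b u : ↥(D.group F)} (hb : b ∈ BG D F) (hu : u ∈ UG Q) : b * u * b⁻¹ ∈ UG Q :=
  (Subgroup.mem_normalizer_iff.1 (borel_normalizes Q (Subgroup.mem_subgroupOf.1 hb)) _).1 hu

variable (Q) in
/-- root elements in the group -/
def xg' (i : Fin D.rank) (t : F) : ↥(D.group F) := ⟨xG Q (D.simple i) t, borel_le_group Q (xG_simple_mem_borel Q (si_mem_pos Q i) t)⟩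

variable (Q) in
/-- reflections in the group -/
def ng' (i : Fin D.rank) : ↥(D.group F) := ⟨nG Q (D.simple i) 1, nG_mem_group Q _ _⟩

lemma xg'_add (i : Fin D.rank) (s t : F) : xg' Q i s * xg' Q i t = xg' Q i (s + t) :=
  Subtype.ext ((slRel Q (si Q i i.2)).x_add s t)

lemma xg'_mem (i : Fin D.rank) (t : F) : xg' Q i t ∈ UG Q := Subgroup.mem_subgroupOf.2 (xG_mem Q (si_mem_pos Q i) t)

lemma xg'_inj (i : Fin D.rank) {t : F} (h : xg' Q i t = 1) : t = 0 :=
  xG_eq_one Q (Q.C.simple_lt i i.2) (congrArg Subtype.val h)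

/-- elements outside the big cell -/
lemma exists_inter {g : ↥(D.group F)} {w w0 : Equiv.Perm (Fin D.nroots)} {n0 : ↥(D.group F)} (h0 : IsN0 Q n0 w0)
    (hc : Cell Q w (g : GL D.Idx F)) (hw : w ≠ w0) : ∃ y ∈ UG Q, y ≠ 1 ∧ g⁻¹ * y * g ∈ UG Q := by
  classical
  have hwW := hc.mem
  have hwa := WG_waut Q hwW
  have h1 : AW Q w ≠ ∅ := fun h => hw ((AW_empty_iff hwW h0.mem h0.neg).1 h)
  obtain ⟨j, hj⟩ := Finset.nonempty_iff_ne_empty.2 h1
  obtain ⟨hjr, hj2⟩ := Finset.mem_filter.1 hj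
  have hjk := Finset.mem_range.1 hjr
  have hps := hj2 hjk
  obtain ⟨b, hb, n, hn, ⟨u, hm⟩, b', hb', e⟩ := hc
  have hbG := borel_le_group Q hb
  have hnG := monomial_le_group Q hn
  have hb'G := borel_le_group Q hb'
  set B : ↥(D.group F) := ⟨b, hbG⟩ with hB
  set N : ↥(D.group F) := ⟨n, hnG⟩ with hN
  set B' : ↥(D.group F) := ⟨b', hb'G⟩ with hB'
  have hg : g = B * N * B' := Subtype.ext e
  set z := xg' Q ⟨j, hjk⟩ 1 with hz
  have hNz : N * z * N⁻¹ ∈ UG Q := by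
    refine Subgroup.mem_subgroupOf.2 ?_
    have h3 := hm.conj (si Q j hjk) 1
    have e1 : ((N * z * N⁻¹ : ↥(D.group F)) : GL D.Idx F) = n * xG Q ((si Q j hjk : Fin D.nroots) : ℕ) 1 * n⁻¹ := rfl
    rw [e1, h3]
    have h8 : ((w (si Q j hjk) : Fin D.nroots) : ℕ) ∈ Pos D := ⟨hps, (w _).2⟩
    exact xG_mem Q h8 _
  refine ⟨B * (N * z * N⁻¹) * B⁻¹, BG_norm_UG (Subgroup.mem_subgroupOf.2 hb) hNz, ?_, ?_⟩
  · intro h
    have h2 : z = 1 := by
      calc z = N⁻¹ * (B⁻¹ * (B * (N * z * N⁻¹) * B⁻¹) * B) * N := by group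
        _ = 1 := by rw [h]; group
    exact one_ne_zero (xg'_inj _ h2)
  · have h2 : g⁻¹ * (B * (N * z * N⁻¹) * B⁻¹) * g = B'⁻¹ * z * B'⁻¹⁻¹ := by rw [hg]; group
    rw [h2]
    exact BG_norm_UG ((BG D F).inv_mem (Subgroup.mem_subgroupOf.2 hb')) (xg'_mem _ _)

/-- elements of the big cell -/
lemma big_cell {g : ↥(D.group F)} {w0 : Equiv.Perm (Fin D.nroots)} {n0 : ↥(D.group F)} (h0 : IsN0 Q n0 w0)
    (hc : Cell Q w0 (g : GL D.Idx F)) : ∃ b ∈ BG D F, (b * n0)⁻¹ * g ∈ UG Q := by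
  obtain ⟨b, hb, n, hn, ⟨u, hm⟩, b', hb', e⟩ := hc
  obtain ⟨v0, hv0⟩ := h0.mono
  have h3 : (n0 : GL D.Idx F)⁻¹ * n ∈ D.diagonalSubgroup F := by
    have h5 := hv0.inv.mul hm
    rw [inv_mul_cancel] at h5
    exact mem_diagonal_of_mono Q (Subgroup.mul_mem _ (Subgroup.inv_mem _ h0.mon) hn) h5
  obtain ⟨x, hx, t, ht, e1⟩ := (mem_borel Q).1 (Subgroup.mul_mem _ (H_le_borel Q h3) hb')
  -- g = b n0 x t = (b (n0 t n0⁻¹)) n0 (t⁻¹ x t)
  have h4 : (n0 : GL D.Idx F) * t * (n0 : GL D.Idx F)⁻¹ ∈ D.diagonalSubgroup F := diag_conj Q h0.mon ht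
  have hbt : b * ((n0 : GL D.Idx F) * t * (n0 : GL D.Idx F)⁻¹) ∈ D.borelSubgroup F := Subgroup.mul_mem _ hb (H_le_borel Q h4)
  refine ⟨⟨_, borel_le_group Q hbt⟩, Subgroup.mem_subgroupOf.2 hbt, Subgroup.mem_subgroupOf.2 ?_⟩
  have e2 : (((⟨_, borel_le_group Q hbt⟩ * n0)⁻¹ * g : ↥(D.group F)) : GL D.Idx F) = t⁻¹ * x * t⁻¹⁻¹ := by
    have e3 : (g : GL D.Idx F) = b * n0 * (x * t) := by rw [← e1, e]; group
    push_cast
    rw [e3]; group
  rw [e2]
  exact (Subgroup.mem_normalizer_iff.1 (borel_normalizes Q (Subgroup.inv_mem _ (H_le_borel Q ht))) _).1 hx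

section rep

variable [Fintype F] {V : Type*} [AddCommGroup V] [Module ℂ V] [FiniteDimensional ℂ V] {ρ : Representation ℂ ↥(D.group F) V}

variable (Q) in
/-- the Hecke operator of a simple reflection -/
noncomputable def Nop (ρ : Representation ℂ ↥(D.group F) V) (i : Fin D.rank) (v : V) : V := ∑ t : F, ρ (xg' Q i t * ng' Q i) v

/-- the main relation -/
theorem key_rel [Fintype ↥(D.group F)] [hρ : ρ.IsIrreducible] {p n r m : ℕ} [Fact p.Prime] [CharP F p]
    (h : DZ p n r m ρ.character) {v : V} (hv : ∀ u ∈ UG Q, ρ u v = v) (i : Fin D.rank) :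
    ∃ y ∈ Lam ρ (Nop Q ρ i v), ∃ z ∈ Lam ρ v, (r : ℂ) • v = y + (p : ℂ) • z := by
  classical
  have hp : p.Prime := Fact.out
  have hχ := isChar_of_irr h.irr
  have hcl := isChar_classFn hχ
  obtain ⟨n0, w0, h0⟩ := exists_isN0 Q
  have hUp : IsPGroup p (UG Q) := by
    obtain ⟨k, -, hk⟩ := FiniteField.card F p
    apply IsPGroup.of_card (n := k * (D.nroots / 2))
    rw [Nat.card_congr (Subgroup.subgroupOfEquivOfLe ((U_le_borel Q).trans (borel_le_group Q))).toEquiv, card_U Q, hk, ← pow_mul]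
  -- coefficients
  set c : ↥(D.group F) → ℂ := fun g => ∑ u : UG Q, ρ.character (u * g⁻¹) with hc
  have hcint : ∀ g, IsIntegral ℤ (c g) := fun g => IsIntegral.sum _ (fun u _ => char_isIntegral hχ _)
  have hcr : ∀ (g : ↥(D.group F)) (u : ↥(D.group F)), u ∈ UG Q → c (g * u) = c g := by
    intro g u hu
    simp only [hc]
    rw [← Equiv.sum_comp (Equiv.mulRight (⟨u, hu⟩ : UG Q))]
    refine Finset.sum_congr rfl (fun x _ => ?_)
    congr 1
    show (((x * ⟨u, hu⟩ : UG Q)) : ↥(D.group F)) * (g * u)⁻¹ = x * g⁻¹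
    push_cast
    group
  have hcleft : ∀ (g : ↥(D.group F)) (u : ↥(D.group F)), u ∈ UG Q → c (u * g) = c g := by
    intro g u hu
    simp only [hc]
    rw [← Equiv.sum_comp (Equiv.mulLeft (⟨u, hu⟩ : UG Q))]
    refine Finset.sum_congr rfl (fun x _ => ?_)
    have e1 : (((⟨u, hu⟩ * x : UG Q)) : ↥(D.group F)) * (u * g)⁻¹ = u * (x * g⁻¹) * u⁻¹ := by
      push_cast
      group
    show ρ.character ((((⟨u, hu⟩ * x : UG Q)) : ↥(D.group F)) * (u * g)⁻¹) = ρ.character (x * g⁻¹)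
    rw [e1, hcl]
  set φ : ↥(D.group F) → V := fun g => c g • ρ g v with hφ
  have hφr : ∀ (g : ↥(D.group F)) (u : ↥(D.group F)), u ∈ UG Q → φ (g * u) = φ g := by
    intro g u hu
    simp only [hφ]
    rw [hcr g u hu, map_mul, Module.End.mul_apply, hv u hu]
  -- sum over cosets of U
  have hS : ∑ g : ↥(D.group F), ρ.character g⁻¹ • ρ g v = ∑ q : ↥(D.group F) ⧸ UG Q, φ (Quotient.out q) := by
    rw [sum_cosets (UG Q)]
    refine Finset.sum_congr rfl (fun q _ => ?_)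
    have h1 : ∀ u : UG Q, ρ.character (Quotient.out q * (u : ↥(D.group F)))⁻¹ • ρ (Quotient.out q * (u : ↥(D.group F))) v =
        ρ.character ((u : ↥(D.group F))⁻¹ * (Quotient.out q)⁻¹) • ρ (Quotient.out q) v := by
      intro u
      rw [_root_.mul_inv_rev, map_mul, Module.End.mul_apply, hv u u.2]
    rw [Finset.sum_congr rfl (fun u _ => h1 u), ← Finset.sum_smul]
    congr 1
    rw [← Equiv.sum_comp (Equiv.inv (UG Q))]
    exact Finset.sum_congr rfl (fun x _ => rfl)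
  have hφmk : ∀ g : ↥(D.group F), φ (Quotient.out (g : ↥(D.group F) ⧸ UG Q)) = φ g := by
    intro g
    have h1 : (Quotient.out (g : ↥(D.group F) ⧸ UG Q))⁻¹ * g ∈ UG Q :=
      QuotientGroup.eq.1 (QuotientGroup.out_eq' (g : ↥(D.group F) ⧸ UG Q))
    rw [← hφr _ _ h1, mul_inv_cancel_left]
  -- the big cell
  set J : ↥(BG D F) → ↥(D.group F) ⧸ UG Q := fun b => (((b : ↥(D.group F)) * n0 : ↥(D.group F)) : ↥(D.group F) ⧸ UG Q) with hJ
  have hJinj : Function.Injective J := by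
    intro b b' hbb
    have h1 := QuotientGroup.eq.1 hbb
    have h2 : (n0 : GL D.Idx F)⁻¹ * ((b⁻¹ * b' : ↥(BG D F)) : ↥(D.group F)) * n0 ∈ XS Q (Pos D) := by
      have e : (n0 : GL D.Idx F)⁻¹ * ((b⁻¹ * b' : ↥(BG D F)) : ↥(D.group F)) * n0 =
          ((((b : ↥(D.group F)) * n0)⁻¹ * ((b' : ↥(D.group F)) * n0) : ↥(D.group F)) : GL D.Idx F) := by
        push_cast; group
      rw [e]; exact h1
    have h3 := (h0.inter (Subgroup.mem_subgroupOf.1 (b⁻¹ * b').2)).1 (U_le_borel Q h2)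
    have h4 := U_inf_H Q h2 (h0.conj_diag h3)
    have h5 : (((b⁻¹ * b' : ↥(BG D F)) : ↥(D.group F)) : GL D.Idx F) = 1 := by
      calc (((b⁻¹ * b' : ↥(BG D F)) : ↥(D.group F)) : GL D.Idx F) =
          n0 * ((n0 : GL D.Idx F)⁻¹ * ((b⁻¹ * b' : ↥(BG D F)) : ↥(D.group F)) * n0) * (n0 : GL D.Idx F)⁻¹ := by group
        _ = 1 := by rw [h4]; group
    have h6 : b⁻¹ * b' = 1 := Subtype.ext (Subtype.ext h5)
    exact inv_mul_eq_one.1 h6
  have hsplit : ∑ q : ↥(D.group F) ⧸ UG Q, φ (Quotient.out q) = ∑ b : ↥(BG D F), φ ((b : ↥(D.group F)) * n0) +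
      ∑ q ∈ Finset.univ \ Finset.univ.image J, φ (Quotient.out q) := by
    rw [← Finset.sum_sdiff (Finset.subset_univ (Finset.univ.image J)), Finset.sum_image (fun a _ b _ hab => hJinj hab), add_comm]
    congr 1
    refine Finset.sum_congr rfl (fun b _ => ?_)
    exact hφmk _
  -- outside the big cell
  have hout : ∃ z ∈ Lam ρ v, ∑ q ∈ Finset.univ \ Finset.univ.image J, φ (Quotient.out q) = (p : ℂ) • z := by
    have h1 : ∀ q ∈ Finset.univ \ Finset.univ.image J, ∃ z ∈ Lam ρ v, φ (Quotient.out q) = (p : ℂ) • z := by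
      intro q hq
      obtain ⟨w, hw, hcw⟩ := cell_exists (Q := Q) (Quotient.out q : ↥(D.group F)).2
      have hne : w ≠ w0 := by
        rintro rfl
        obtain ⟨b, hb, h2⟩ := big_cell h0 hcw
        apply (Finset.mem_sdiff.1 hq).2
        refine Finset.mem_image.2 ⟨⟨b, hb⟩, Finset.mem_univ _, ?_⟩
        have h3 : (((b * n0 : ↥(D.group F))) : ↥(D.group F) ⧸ UG Q) = ((Quotient.out q : ↥(D.group F)) : ↥(D.group F) ⧸ UG Q) :=
          QuotientGroup.eq.2 h2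
        rw [QuotientGroup.out_eq'] at h3
        exact h3
      obtain ⟨a, ha, hpa⟩ := h.coef (UG Q) hUp (Quotient.out q) (exists_inter h0 hcw hne)
      refine ⟨a • ρ (Quotient.out q) v, Lam.smul (Lam.act (Lam.self v) _) ha, ?_⟩
      show c (Quotient.out q) • ρ (Quotient.out q) v = _
      have hpa' : c (Quotient.out q) = p * a := hpa
      rw [hpa', mul_smul]
    choose! z hz hz2 using h1
    refine ⟨∑ q ∈ Finset.univ \ Finset.univ.image J, z q, Lam.sum _ hz, ?_⟩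
    rw [Finset.smul_sum]
    exact Finset.sum_congr rfl hz2
  -- inside the big cell
  set n' : ↥(D.group F) := n0 * (ng' Q i)⁻¹ with hn'
  have hconj : ∀ t : F, n' * xg' Q i t * n'⁻¹ ∈ UG Q := by
    intro t
    obtain ⟨v0, hv0⟩ := h0.mono
    have hm := hv0.mul (mono_n Q i.2).inv
    refine Subgroup.mem_subgroupOf.2 ?_
    have h3 := hm.conj (si Q i i.2) t
    have e1 : ((n' * xg' Q i t * n'⁻¹ : ↥(D.group F)) : GL D.Idx F) =
        (n0 : GL D.Idx F) * (nG Q (D.simple i) 1)⁻¹ * xG Q ((si Q i i.2 : Fin D.nroots) : ℕ) t * ((n0 : GL D.Idx F) * (nG Q (D.simple i) 1)⁻¹)⁻¹ := rfl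
    rw [e1, h3]
    have h4 : ps ((w0 * (sr Q.C2 i)⁻¹) (si Q i i.2)) := by
      rw [sr_inv, Equiv.Perm.mul_apply, sr_si, (WG_waut Q h0.mem).rev, ps_rev Q]
      exact h0.neg _ (ps_si Q i.2)
    have h8 : (((w0 * (sr Q.C2 i)⁻¹) (si Q i i.2) : Fin D.nroots) : ℕ) ∈ Pos D := ⟨h4, (_ : Fin D.nroots).2⟩
    exact xG_mem Q h8 _
  let j : Multiplicative F →* ↥(BG D F) :=
    { toFun := fun t => ⟨n' * xg' Q i (Multiplicative.toAdd t) * n'⁻¹, UG_le_BG (hconj _)⟩
      map_one' := by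
        apply Subtype.ext
        have h1 : xg' Q i (0 : F) = 1 := by
          have h2 := xg'_add (Q := Q) i 0 0
          rw [add_zero] at h2
          exact mul_eq_left.1 h2
        show n' * xg' Q i (0 : F) * n'⁻¹ = 1
        rw [h1]; group
      map_mul' := fun s t => by
        apply Subtype.ext
        show n' * xg' Q i (Multiplicative.toAdd s + Multiplicative.toAdd t) * n'⁻¹ =
          (n' * xg' Q i (Multiplicative.toAdd s) * n'⁻¹) * (n' * xg' Q i (Multiplicative.toAdd t) * n'⁻¹)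
        rw [← xg'_add]; group }
  have hj : ∀ t : F, ((j (Multiplicative.ofAdd t) : ↥(BG D F)) : ↥(D.group F)) = n' * xg' Q i t * n'⁻¹ := fun _ => rfl
  have hjinj : Function.Injective j := by
    rw [injective_iff_map_eq_one]
    intro t ht
    have h1 : n' * xg' Q i (Multiplicative.toAdd t) * n'⁻¹ = 1 := congrArg Subtype.val ht
    have h2 : xg' Q i (Multiplicative.toAdd t) = 1 := by
      calc xg' Q i (Multiplicative.toAdd t) = n'⁻¹ * (n' * xg' Q i (Multiplicative.toAdd t) * n'⁻¹) * n' := by group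
        _ = 1 := by rw [h1]; group
    have h3 : Multiplicative.toAdd t = 0 := xg'_inj (Q := Q) i h2
    exact h3
  have hin : ∑ b : ↥(BG D F), φ ((b : ↥(D.group F)) * n0) ∈ Lam ρ (Nop Q ρ i v) := by
    rw [sum_cosets j.range]
    apply Lam.sum
    intro q _
    set b : ↥(BG D F) := Quotient.out q with hb
    have h1 : ∑ x : j.range, φ (((b * (x : ↥(BG D F)) : ↥(BG D F)) : ↥(D.group F)) * n0) =
        ∑ t : F, φ ((b : ↥(D.group F)) * (n' * xg' Q i t * n'⁻¹) * n0) := by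
      symm
      let K : F → j.range := fun t => ⟨j (Multiplicative.ofAdd t), ⟨_, rfl⟩⟩
      have hK : Function.Bijective K := by
        constructor
        · intro a b hab
          exact hjinj (congrArg Subtype.val hab)
        · rintro ⟨_, t, rfl⟩
          exact ⟨Multiplicative.toAdd t, rfl⟩
      exact Fintype.sum_bijective K hK _ _ (fun _ => rfl)
    rw [h1]
    have h2 : ∀ t : F, φ ((b : ↥(D.group F)) * (n' * xg' Q i t * n'⁻¹) * n0) =
        c ((b : ↥(D.group F)) * n0) • ρ ((b : ↥(D.group F)) * n') (ρ (xg' Q i t * ng' Q i) v) := by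
      intro t
      have e1 : (b : ↥(D.group F)) * (n' * xg' Q i t * n'⁻¹) * n0 =
          ((b : ↥(D.group F)) * (n' * xg' Q i t * n'⁻¹) * (b : ↥(D.group F))⁻¹) * ((b : ↥(D.group F)) * n0) := by group
      have h3 : c ((b : ↥(D.group F)) * (n' * xg' Q i t * n'⁻¹) * n0) = c ((b : ↥(D.group F)) * n0) := by
        rw [e1]
        exact hcleft _ _ (BG_norm_UG b.2 (hconj t))
      have e2 : (b : ↥(D.group F)) * (n' * xg' Q i t * n'⁻¹) * n0 = ((b : ↥(D.group F)) * n') * (xg' Q i t * ng' Q i) := by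
        rw [hn']; group
      show c _ • ρ _ v = _
      rw [h3, e2, map_mul, Module.End.mul_apply]
    rw [Finset.sum_congr rfl (fun t _ => h2 t), ← Finset.smul_sum, ← map_sum]
    exact Lam.smul (Lam.act (Lam.self _) _) (hcint _)
  obtain ⟨z, hz, hz2⟩ := hout
  refine ⟨(m : ℂ) • ∑ b : ↥(BG D F), φ ((b : ↥(D.group F)) * n0), Lam.smul hin (isIntegral_nat m), (m : ℂ) • z,
    Lam.smul hz (isIntegral_nat m), ?_⟩
  rw [proj_formula hp h v, hS, hsplit, hz2, smul_add, smul_comm (m : ℂ) (p : ℂ)]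

end rep

end Cfsg.Agent.Lib.ChevAlg
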