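import Cfsg.Agent.Lib.ChevDef
import Cfsg.Agent.Lib.ChevAutN

/-!
# Characters of defect zero of Chevalley groups, continued
-/

set_option autoImplicit false

namespace Cfsg.Agent.Lib.DefZero

open Cfsg Representation Module Cfsg.Agent.Lib.CharBasic

section
variable {G : Type*} [Group G] [Fintype G] {V : Type*} [AddCommGroup V] [Module ℂ V] {ρ : Representation ℂ G V}

lemma Lam.smul_base {x y : V} (hy : y ∈ Lam ρ x) (c : ℂ) : c • y ∈ Lam ρ (c • x) := by
  obtain ⟨f, hf, rfl⟩ := hy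
  refine ⟨f, hf, ?_⟩
  rw [Finset.smul_sum]
  refine Finset.sum_congr rfl (fun g _ => ?_)
  rw [map_smul, smul_comm]

lemma Lam.of_smul {x y : V} {c : ℂ} (hy : y ∈ Lam ρ (c • x)) : ∃ y' ∈ Lam ρ x, y = c • y' := by
  obtain ⟨f, hf, rfl⟩ := hy
  refine ⟨_, ⟨f, hf, rfl⟩, ?_⟩
  rw [Finset.smul_sum]
  refine Finset.sum_congr rfl (fun g _ => ?_)
  rw [map_smul, smul_comm]

end

/-- inner product with a permutation character -/
theorem inner_perm {G : Type*} [Group G] [Fintype G] {V : Type*} [AddCommGroup V] [Module ℂ V] [FiniteDimensional ℂ V]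
    (ρ : Representation ℂ G V) (P : Subgroup G) [Fintype P] :
    classInner ρ.character (CharPermB.permChar G (G ⧸ P)) =
      (finrank ℂ (Representation.invariants (ρ.comp P.subtype : Representation ℂ P V)) : ℂ) := by
  have hcl : IsClassFunction G ρ.character := fun g h => Representation.char_conj ρ g h
  rw [CharSolomon.permChar_quot, CharInd.reciprocity' _ _ _ hcl, classInner_def]
  have hcard : (Nat.card P : ℂ) ≠ 0 := card_ne_zero'
  letI : Invertible (Nat.card P : ℂ) := invertibleOfNonzero hcard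
  rw [← card_inv_mul_sum_char_eq_finrank]
  congr 1
  refine Finset.sum_congr rfl (fun g _ => ?_)
  rw [map_one, mul_one]
  rfl

end Cfsg.Agent.Lib.DefZero

namespace Cfsg.Agent.Lib.ChevAlg

open Cfsg Cfsg.Lie Cfsg.Agent.Lib.ChevTab Matrix Cfsg.Agent.Lib.DefZero Cfsg.Agent.Lib.CharBasic

variable {D : ChevalleyDatum} {F : Type*} [Field F] {Q : ChevO D F}

variable (Q) in
/-- torus elements in the group -/
def hg' (i : Fin D.rank) (c : Fˣ) : ↥(D.group F) :=
  ⟨ChevAlg.dG D (cp D (D.simple i) c), borel_le_group Q (H_le_borel Q (cp_mem Q _ _))⟩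

lemma hg'_mul (i : Fin D.rank) (c d : Fˣ) : hg' Q i c * hg' Q i d = hg' Q i (c * d) := Subtype.ext ((slRel Q (si Q i i.2)).h_mul c d)

lemma ng'_sq (i : Fin D.rank) : ng' Q i * ng' Q i = hg' Q i (-1) := Subtype.ext ((slRel Q (si Q i i.2)).n_n)

lemma hg'_xg' (i : Fin D.rank) (c : Fˣ) (t : F) : hg' Q i c * xg' Q i t = xg' Q i ((c : F) ^ 2 * t) * hg' Q i c :=
  Subtype.ext ((slRel Q (si Q i i.2)).h_x c t)

lemma ng'_hg' (i : Fin D.rank) (c : Fˣ) : ng' Q i * hg' Q i c = hg' Q i c⁻¹ * ng' Q i := Subtype.ext ((slRel Q (si Q i i.2)).n_h c)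

lemma hg'_mem (i : Fin D.rank) (c : Fˣ) : hg' Q i c ∈ BG D F := Subgroup.mem_subgroupOf.2 (H_le_borel Q (cp_mem Q _ _))

lemma nxn (i : Fin D.rank) (c : Fˣ) : ng' Q i * xg' Q i ((c⁻¹ : Fˣ) : F) * ng' Q i =
    xg' Q i (-(c : F)) * hg' Q i c * ng' Q i * xg' Q i (-(c : F)) * hg' Q i (-1) := by
  apply Subtype.ext
  have R := slRel Q (si Q i i.2)
  have h1 := R.n_eq c
  have h2 := R.n_x ((c⁻¹ : Fˣ) : F)
  have h3 : ((c⁻¹ : Fˣ) : F) = (c : F)⁻¹ := Units.val_inv_eq_inv_val c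
  rw [h3] at h2
  show nG Q (D.simple i) 1 * xG Q (D.simple i) ((c⁻¹ : Fˣ) : F) * nG Q (D.simple i) 1 =
    xG Q (D.simple i) (-(c : F)) * ChevAlg.dG D (cp D (D.simple i) c) * nG Q (D.simple i) 1 * xG Q (D.simple i) (-(c : F)) *
      ChevAlg.dG D (cp D (D.simple i) (-1))
  have h4 : nG Q (D.simple i) 1 * nG Q (D.simple i) 1 = ChevAlg.dG D (cp D (D.simple i) (-1)) := R.n_n
  have h5 : xG Q (D.simple i) (c : F) * xG Q (D.nroots - 1 - D.simple i) (-(c : F)⁻¹) * xG Q (D.simple i) (c : F) =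
      ChevAlg.dG D (cp D (D.simple i) c) * nG Q (D.simple i) 1 := h1
  have h6 : nG Q (D.simple i) 1 * xG Q (D.simple i) ((c : F)⁻¹) = xG Q (D.nroots - 1 - D.simple i) (-(c : F)⁻¹) * nG Q (D.simple i) 1 := h2
  have h7 : xG Q (D.simple i) (-(c : F)) = (xG Q (D.simple i) (c : F))⁻¹ := by
    rw [eq_inv_iff_mul_eq_one]
    have h8 : xG Q (D.simple i) (-(c : F)) * xG Q (D.simple i) (c : F) = xG Q (D.simple i) (-(c : F) + c) := R.x_add _ _
    rw [h8, neg_add_cancel]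
    exact R.x_zero
  rw [h3, h6, h7, ← h4, mul_assoc (xG Q (D.simple i) (c : F))⁻¹ (ChevAlg.dG D (cp D (D.simple i) c)) (nG Q (D.simple i) 1), ← h5]
  group

lemma split_UG (i : Fin D.rank) {u : ↥(D.group F)} (hu : u ∈ UG Q) :
    ∃ s : F, ∃ u' : ↥(D.group F), (u' : GL D.Idx F) ∈ XS Q (PosX D i) ∧ u = xg' Q i s * u' := by
  obtain ⟨a, ha, u2, hu2, eu⟩ := exists_factor Q (Ψ₁ := {D.simple i}) (Ψ₂ := PosX D i)
    ((pos_eq_union Q i.2).trans (Set.union_comm _ _)) (le_refl _) (clos_pos Q) (Subgroup.mem_subgroupOf.1 hu)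
  obtain ⟨s, rfl⟩ := (mem_XS_singleton Q).1 ha
  exact ⟨s, ⟨u2, borel_le_group Q (U_le_borel Q (XS_mono Q (posX_sub i) hu2))⟩, hu2, Subtype.ext eu⟩

section rep

variable [Fintype F] [Fintype Fˣ] {V : Type*} [AddCommGroup V] [Module ℂ V] {ρ : Representation ℂ ↥(D.group F) V}

lemma Nop_UG {v : V} (hv : ∀ u ∈ UG Q, ρ u v = v) (i : Fin D.rank) : ∀ u ∈ UG Q, ρ u (Nop Q ρ i v) = Nop Q ρ i v := by
  intro u hu
  obtain ⟨s, u', hu', rfl⟩ := split_UG i hu
  have hw : ∀ t : F, (ng' Q i)⁻¹ * ((xg' Q i t)⁻¹ * u' * xg' Q i t) * ng' Q i ∈ UG Q := by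
    intro t
    have hx : (xG Q (D.simple i) t)⁻¹ ∈ Subgroup.normalizer (XS Q (PosX D i) : Set (GL D.Idx F)) :=
      Subgroup.inv_mem _ (XS_normalizes_posX Q i.2 (le_refl (Pos D)) (xG_mem Q (si_mem_pos Q i) t))
    have h1 := (Subgroup.mem_normalizer_iff.1 hx _).1 hu'
    have hm := (mono_n Q i.2).inv
    rw [sr_inv] at hm
    have h2 := n_conj_posX Q i.2 hm h1
    rw [inv_inv, inv_inv] at h2
    exact Subgroup.mem_subgroupOf.2 (XS_mono Q (posX_sub i) h2)
  have h1 : ρ (xg' Q i s * u') (Nop Q ρ i v) = ∑ t : F, ρ (xg' Q i (s + t) * ng' Q i) v := by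
    rw [Nop, map_sum]
    refine Finset.sum_congr rfl (fun t _ => ?_)
    have e : xg' Q i s * u' * (xg' Q i t * ng' Q i) =
        xg' Q i (s + t) * ng' Q i * ((ng' Q i)⁻¹ * ((xg' Q i t)⁻¹ * u' * xg' Q i t) * ng' Q i) := by
      rw [← xg'_add]; group
    rw [← Module.End.mul_apply, ← map_mul, e, map_mul, Module.End.mul_apply, hv _ (hw t)]
  rw [h1]
  exact Equiv.sum_comp (Equiv.addLeft s) (fun t => ρ (xg' Q i t * ng' Q i) v)

lemma sum_units (f : F → V) : ∑ t, f t = f 0 + ∑ c : Fˣ, f ((c⁻¹ : Fˣ) : F) := by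
  classical
  have h0 : ∑ c : Fˣ, f ((c⁻¹ : Fˣ) : F) = ∑ c : Fˣ, f (c : F) := Equiv.sum_comp (Equiv.inv Fˣ) (fun c : Fˣ => f (c : F))
  rw [h0]
  rw [Fintype.sum_eq_add_sum_compl (0 : F) f]
  congr 1
  symm
  refine Finset.sum_bij (fun (c : Fˣ) _ => (c : F)) ?_ ?_ ?_ (fun _ _ => rfl)
  · intro c _
    simp
  · intro a _ b _ hab
    exact Units.ext hab
  · intro b hb
    have hb0 : b ≠ 0 := by simpa using hb
    exact ⟨Units.mk0 b hb0, Finset.mem_univ _, rfl⟩

lemma Nop_Nop {v : V} (hv : ∀ u ∈ UG Q, ρ u v = v) (i : Fin D.rank) (hs : ∑ c : Fˣ, ρ (hg' Q i c) v = 0) :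
    Nop Q ρ i (Nop Q ρ i v) = (Fintype.card F : ℂ) • ρ (hg' Q i (-1)) v := by
  have hh : ∀ c : Fˣ, ∀ u ∈ UG Q, ρ u (ρ (hg' Q i c) v) = ρ (hg' Q i c) v := by
    intro c u hu
    have e : u * hg' Q i c = hg' Q i c * ((hg' Q i c)⁻¹ * u * (hg' Q i c)⁻¹⁻¹) := by group
    rw [← Module.End.mul_apply, ← map_mul, e, map_mul, Module.End.mul_apply,
      hv _ (BG_norm_UG ((BG D F).inv_mem (hg'_mem i c)) hu)]
  have h1 : Nop Q ρ i (Nop Q ρ i v) = ∑ t : F, ∑ s : F, ρ (xg' Q i s * (ng' Q i * xg' Q i t * ng' Q i)) v := by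
    rw [Finset.sum_comm]
    show ∑ s : F, ρ (xg' Q i s * ng' Q i) (Nop Q ρ i v) = _
    refine Finset.sum_congr rfl (fun s _ => ?_)
    rw [Nop, map_sum]
    refine Finset.sum_congr rfl (fun t _ => ?_)
    rw [← Module.End.mul_apply, ← map_mul]
    congr 2
    group
  have h2 : ∀ c : Fˣ, ∑ s : F, ρ (xg' Q i s * (ng' Q i * xg' Q i ((c⁻¹ : Fˣ) : F) * ng' Q i)) v =
      Nop Q ρ i (ρ (hg' Q i (c⁻¹ * -1)) v) := by
    intro c
    have h3 : ∀ s : F, ρ (xg' Q i s * (ng' Q i * xg' Q i ((c⁻¹ : Fˣ) : F) * ng' Q i)) v =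
        ρ (xg' Q i (s + -(c : F)) * ng' Q i) (ρ (hg' Q i (c⁻¹ * -1)) v) := by
      intro s
      have e : xg' Q i s * (ng' Q i * xg' Q i ((c⁻¹ : Fˣ) : F) * ng' Q i) =
          (xg' Q i (s + -(c : F)) * (hg' Q i c * ng' Q i)) * xg' Q i (-(c : F)) * hg' Q i (-1) := by
        rw [nxn, ← xg'_add]; group
      have e2 : hg' Q i c * ng' Q i = ng' Q i * hg' Q i c⁻¹ := by
        rw [ng'_hg', inv_inv]
      have hh2 := hh (-1) _ (xg'_mem (Q := Q) i (-(c : F)))
      rw [e, map_mul, Module.End.mul_apply, map_mul, Module.End.mul_apply, hh2, e2, ← mul_assoc, map_mul,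
        Module.End.mul_apply, ← Module.End.mul_apply (ρ (hg' Q i c⁻¹)), ← map_mul, hg'_mul]
    rw [Finset.sum_congr rfl (fun s _ => h3 s)]
    exact Equiv.sum_comp (Equiv.addRight (-(c : F))) (fun t => ρ (xg' Q i t * ng' Q i) (ρ (hg' Q i (c⁻¹ * -1)) v))
  have h3 : ∑ c : Fˣ, Nop Q ρ i (ρ (hg' Q i (c⁻¹ * -1)) v) = 0 := by
    have h4 : ∀ c : Fˣ, Nop Q ρ i (ρ (hg' Q i (c⁻¹ * -1)) v) = ∑ t : F, ρ (xg' Q i t * ng' Q i) (ρ (hg' Q i (c⁻¹ * -1)) v) :=
      fun _ => rfl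
    simp only [h4]
    rw [Finset.sum_comm]
    apply Finset.sum_eq_zero
    intro t _
    rw [← map_sum]
    have h5 : ∑ c : Fˣ, ρ (hg' Q i (c⁻¹ * -1)) v = 0 := by
      rw [← hs]
      exact Equiv.sum_comp ((Equiv.inv Fˣ).trans (Equiv.mulRight (-1))) (fun c => ρ (hg' Q i c) v)
    rw [h5, map_zero]
  rw [h1, sum_units, Finset.sum_congr rfl (fun c _ => h2 c), h3, add_zero]
  have h6 : ∀ s : F, ρ (xg' Q i s * (ng' Q i * xg' Q i 0 * ng' Q i)) v = ρ (hg' Q i (-1)) v := by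
    intro s
    have h7 : xg' Q i (0 : F) = 1 := by
      have h2 := xg'_add (Q := Q) i 0 0
      rw [add_zero] at h2
      exact mul_eq_left.1 h2
    rw [h7, mul_one, ng'_sq, map_mul, Module.End.mul_apply, hh _ _ (xg'_mem _ _)]
  rw [Finset.sum_congr rfl (fun s _ => h6 s), Finset.sum_const, Finset.card_univ, Nat.cast_smul_eq_nsmul]

variable [FiniteDimensional ℂ V]

lemma Nop_mem [Fintype ↥(D.group F)] (v : V) (i : Fin D.rank) : Nop Q ρ i v ∈ Lam ρ v :=
  Lam.sum _ (fun _ _ => Lam.act (Lam.self v) _)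

lemma card_dvd_p (p : ℕ) [Fact p.Prime] [CharP F p] : ∃ q' : ℕ, Fintype.card F = p * q' := by
  obtain ⟨k, -, hk⟩ := FiniteField.card F p
  obtain ⟨k', hk'⟩ := Nat.exists_eq_succ_of_ne_zero k.ne_zero
  exact ⟨p ^ k', by rw [hk, hk', pow_succ, mul_comm]⟩

/-- no invariants of minimal parabolics -/
theorem par_zero [Fintype ↥(D.group F)] [hρ : ρ.IsIrreducible] {p n r m : ℕ} [Fact p.Prime] [CharP F p]
    (h : DZ p n r m ρ.character) {v : V} (hv : ∀ u ∈ UG Q, ρ u v = v) (i : Fin D.rank) (hn : ρ (ng' Q i) v = v) : v = 0 := by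
  have hp : p.Prime := Fact.out
  obtain ⟨q', hq'⟩ := card_dvd_p (F := F) p
  obtain ⟨y, hy, z, hz, e⟩ := key_rel h hv i
  have h1 : Nop Q ρ i v = (Fintype.card F : ℂ) • v := by
    have h2 : ∀ t : F, ρ (xg' Q i t * ng' Q i) v = v := by
      intro t
      rw [map_mul, Module.End.mul_apply, hn, hv _ (xg'_mem _ _)]
    show ∑ t : F, ρ (xg' Q i t * ng' Q i) v = _
    rw [Finset.sum_congr rfl (fun t _ => h2 t), Finset.sum_const, Finset.card_univ, Nat.cast_smul_eq_nsmul]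
  rw [h1] at hy
  obtain ⟨y', hy', rfl⟩ := Lam.of_smul hy
  refine nak hp h.cop (z := (q' : ℂ) • y' + z) (AddSubgroup.add_mem _ (Lam.smul hy' (isIntegral_nat q')) hz) ?_
  rw [e, smul_add, smul_smul, hq']
  push_cast
  rfl

lemma zero_of_sum [Fintype ↥(D.group F)] [hρ : ρ.IsIrreducible] {p n r m : ℕ} [Fact p.Prime] [CharP F p]
    (h : DZ p n r m ρ.character) {v : V} (hv : ∀ u ∈ UG Q, ρ u v = v) (i : Fin D.rank)
    (hs : ∑ c : Fˣ, ρ (hg' Q i c) v = 0) : v = 0 := by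
  have hp : p.Prime := Fact.out
  obtain ⟨q', hq'⟩ := card_dvd_p (F := F) p
  obtain ⟨y, hy, z, hz, e⟩ := key_rel h hv i
  obtain ⟨y1, hy1, z1, hz1, e1⟩ := key_rel h (Nop_UG hv i) i
  rw [Nop_Nop hv i hs] at hy1
  obtain ⟨y2, hy2, rfl⟩ := Lam.of_smul hy1
  have hw := Nop_mem (Q := Q) (ρ := ρ) v i
  -- r • w = p • z2
  set z2 := (q' : ℂ) • y2 + z1 with hz2
  have hz2m : z2 ∈ Lam ρ v := AddSubgroup.add_mem _ (Lam.smul (Lam.trans (Lam.act (Lam.self v) _) hy2) (isIntegral_nat q'))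
    (Lam.trans hw hz1)
  have e2 : (r : ℂ) • Nop Q ρ i v = (p : ℂ) • z2 := by
    rw [e1, hz2, smul_add, smul_smul, hq']
    push_cast
    rfl
  have h3 := Lam.smul_base hy (r : ℂ)
  rw [e2] at h3
  obtain ⟨y3, hy3, e3⟩ := Lam.of_smul h3
  refine nak hp (r := r ^ 2) (Nat.Coprime.pow_left 2 h.cop) (z := y3 + (r : ℂ) • z)
    (AddSubgroup.add_mem _ (Lam.trans hz2m hy3) (Lam.smul hz (isIntegral_nat r))) ?_
  have e4 : ((r ^ 2 : ℕ) : ℂ) • v = (r : ℂ) • ((r : ℂ) • v) := by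
    rw [smul_smul]; push_cast; rw [pow_two]
  rw [e4, e, smul_add, smul_add, e3, smul_comm (r : ℂ) (p : ℂ)]

/-- the torus acts trivially on the invariants of the unipotent subgroup -/
theorem fix_hg [Fintype ↥(D.group F)] [hρ : ρ.IsIrreducible] {p n r m : ℕ} [Fact p.Prime] [CharP F p]
    (h : DZ p n r m ρ.character) {v : V} (hv : ∀ u ∈ UG Q, ρ u v = v) (i : Fin D.rank) (c : Fˣ) : ρ (hg' Q i c) v = v := by
  have h1 : ρ (hg' Q i c) v - v = 0 := by
    refine zero_of_sum (Q := Q) h (v := ρ (hg' Q i c) v - v) ?_ i ?_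
    · intro u hu
      have e : u * hg' Q i c = hg' Q i c * ((hg' Q i c)⁻¹ * u * (hg' Q i c)⁻¹⁻¹) := by group
      rw [map_sub, hv u hu, ← Module.End.mul_apply, ← map_mul, e, map_mul, Module.End.mul_apply,
        hv _ (BG_norm_UG ((BG D F).inv_mem (hg'_mem i c)) hu)]
    · have h2 : ∀ d : Fˣ, ρ (hg' Q i d) (ρ (hg' Q i c) v - v) = ρ (hg' Q i (d * c)) v - ρ (hg' Q i d) v := by
        intro d
        rw [map_sub, ← Module.End.mul_apply, ← map_mul, hg'_mul]
      rw [Finset.sum_congr rfl (fun d _ => h2 d), Finset.sum_sub_distrib, sub_eq_zero]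
      exact Equiv.sum_comp (Equiv.mulRight c) (fun d => ρ (hg' Q i d) v)
  exact sub_eq_zero.1 h1

/-- invariants of the unipotent subgroup are invariants of the Borel subgroup -/
theorem fix_B [Fintype ↥(D.group F)] [hρ : ρ.IsIrreducible] {p n r m : ℕ} [Fact p.Prime] [CharP F p]
    (h : DZ p n r m ρ.character) {v : V} (hv : ∀ u ∈ UG Q, ρ u v = v) : ∀ b ∈ BG D F, ρ b v = v := by
  intro b hb
  obtain ⟨u, hu, t, ht, e⟩ := (mem_borel Q).1 (Subgroup.mem_subgroupOf.1 hb)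
  have hbB := borel_le_group Q (H_le_borel Q ht)
  have huG := borel_le_group Q (U_le_borel Q hu)
  -- stabilizer
  let S : Subgroup ↥(D.group F) :=
    { carrier := {g | ρ g v = v}
      one_mem' := by simp
      mul_mem' := fun {a b} ha hb => by
        show ρ (a * b) v = v
        rw [map_mul, Module.End.mul_apply]
        have hb' : ρ b v = v := hb
        have ha' : ρ a v = v := ha
        rw [hb', ha']
      inv_mem' := fun {a} ha => by
        have ha' : ρ a v = v := ha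
        show ρ a⁻¹ v = v
        have h2 : ρ a⁻¹ (ρ a v) = v := by rw [← Module.End.mul_apply, ← map_mul, inv_mul_cancel, map_one]; rfl
        rw [ha'] at h2
        exact h2 }
  have h1 : t ∈ S.map (D.group F).subtype := by
    obtain ⟨c, rfl⟩ := (mem_diagonal Q).1 ht
    rw [tor_eq_prod Q]
    apply Subgroup.list_prod_mem
    intro y hy
    obtain ⟨i, hi, rfl⟩ := List.mem_map.1 hy
    exact ⟨hg' Q ⟨i, List.mem_range.1 hi⟩ (c i), fix_hg h hv ⟨i, List.mem_range.1 hi⟩ (c i), rfl⟩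
  obtain ⟨t', ht', rfl⟩ := h1
  have h2 : b = ⟨u, huG⟩ * t' := Subtype.ext e
  rw [h2]
  exact S.mul_mem (hv _ (Subgroup.mem_subgroupOf.2 hu)) ht'

end rep

open Cfsg.Agent.Lib.CharExc Cfsg.Agent.Lib.CharPermB in
/-- the Steinberg character is the only irreducible character of defect zero -/
theorem st_unique [Fintype F] (hS : SuppD Q.C) (p : ℕ) [Fact p.Prime] [CharP F p] {χ : ↥(D.group F) → ℂ}
    (hχ : IsIrrCharacter ↥(D.group F) χ)
    (hdeg : ∃ d : ℕ, χ 1 = (d : ℂ) ∧ p ^ (Nat.card ↥(D.group F)).factorization p ∣ d) : χ = D.steinbergCharacter F := by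
  classical
  have : Fintype ↥(D.group F) := Fintype.ofFinite _
  have hp : p.Prime := Fact.out
  by_contra hne
  have hst := st_irr (Q := Q) hS
  have h0 := irr_inner_ne hχ hst hne
  obtain ⟨d, hd, m, hm⟩ := hdeg
  have hcard : Nat.card ↥(D.group F) ≠ 0 := Nat.card_pos.ne'
  have hDZ : DZ p ((Nat.card ↥(D.group F)).factorization p) (Nat.card ↥(D.group F) / p ^ (Nat.card ↥(D.group F)).factorization p) m χ :=
    { irr := hχ
      card := (Nat.ordProj_mul_ordCompl_eq_self _ p).symm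
      cop := (Nat.coprime_ordCompl hp hcard).symm
      deg := by rw [hd, hm] }
  obtain ⟨k, ρ, hρ, rfl⟩ := hχ
  have hUG : ∀ P : Subgroup ↥(D.group F), ∀ v : Fin k → ℂ, (UG Q ≤ P) →
      v ∈ Representation.invariants (ρ.comp P.subtype : Representation ℂ P (Fin k → ℂ)) → ∀ u ∈ UG Q, ρ u v = v :=
    fun P v hP hv u hu => hv ⟨u, hP hu⟩
  -- parabolic terms
  have hpar : ∀ J ∈ (Finset.range D.rank).powerset, J ≠ ∅ →
      classInner ρ.character (permChar ↥(D.group F) (↥(D.group F) ⧸ ParG D F (J : Set ℕ))) = 0 := by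
    intro J hJ hJne
    obtain ⟨i, hi⟩ := Finset.nonempty_iff_ne_empty.2 hJne
    have hir := Finset.mem_range.1 (Finset.mem_powerset.1 hJ hi)
    rw [inner_perm]
    have h1 : Representation.invariants (ρ.comp (ParG D F (J : Set ℕ)).subtype : Representation ℂ _ (Fin k → ℂ)) = ⊥ := by
      rw [Submodule.eq_bot_iff]
      intro v hv
      refine par_zero (Q := Q) hDZ (hUG _ v (UG_le_BG.trans (BG_le_ParG _)) hv) ⟨i, hir⟩ ?_
      have h2 : ng' Q ⟨i, hir⟩ ∈ ParG D F (J : Set ℕ) := by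
        refine Subgroup.mem_subgroupOf.2 ?_
        apply Subgroup.mem_sup_right
        exact Subgroup.subset_closure ⟨i, hi, hir, nG_val Q (Q.C.simple_lt i hir) 1⟩
      exact hv ⟨_, h2⟩
    rw [h1]
    simp
  have h1 : classInner ρ.character (D.steinbergCharacter F) =
      classInner ρ.character (permChar ↥(D.group F) (↥(D.group F) ⧸ ParG D F ((∅ : Finset ℕ) : Set ℕ))) := by
    rw [st_eq_sum, classInner_sum_right, Finset.sum_eq_single ∅]
    · rw [classInner_smul_right]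
      simp
    · intro J hJ hJne
      rw [classInner_smul_right, hpar J hJ hJne, mul_zero]
    · intro h
      exact absurd (Finset.empty_mem_powerset _) h
  rw [h1, inner_perm] at h0
  have h2 : Representation.invariants (ρ.comp (ParG D F ((∅ : Finset ℕ) : Set ℕ)).subtype : Representation ℂ _ (Fin k → ℂ)) = ⊥ := by
    rw [← Submodule.finrank_eq_zero (R := ℂ)]
    exact_mod_cast h0
  -- invariants of the unipotent subgroup
  have hcU : (Nat.card (UG Q) : ℂ) ≠ 0 := card_ne_zero'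
  letI : Invertible (Nat.card (UG Q) : ℂ) := invertibleOfNonzero hcU
  have h3 := Representation.card_inv_mul_sum_char_eq_finrank (ρ.comp (UG Q).subtype : Representation ℂ (UG Q) (Fin k → ℂ))
  have hUp : IsPGroup p (UG Q) := by
    obtain ⟨k, -, hk⟩ := FiniteField.card F p
    apply IsPGroup.of_card (n := k * (D.nroots / 2))
    rw [Nat.card_congr (Subgroup.subgroupOfEquivOfLe ((U_le_borel Q).trans (borel_le_group Q))).toEquiv, card_U Q, hk, ← pow_mul]
  have h4 : ∑ g : UG Q, Representation.character (ρ.comp (UG Q).subtype : Representation ℂ (UG Q) (Fin k → ℂ)) g = (d : ℂ) := by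
    rw [Finset.sum_eq_single 1]
    · rw [← hd]; rfl
    · intro u _ hu
      obtain ⟨j, hj⟩ := IsPGroup.iff_orderOf.1 hUp u
      have hj0 : j ≠ 0 := by
        rintro rfl
        rw [pow_zero, orderOf_eq_one_iff] at hj
        exact hu hj
      have h5 : p ∣ orderOf (u : ↥(D.group F)) := by
        rw [Subgroup.orderOf_coe, hj]
        exact dvd_pow_self p hj0
      exact CharDefectZero.vanish hp (Nat.ordProj_dvd _ _) (Nat.pow_succ_factorization_not_dvd hcard hp) hDZ.irr hd (hm ▸ dvd_mul_right _ _) _ h5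
    · intro h; exact absurd (Finset.mem_univ _) h
  rw [h4] at h3
  have h5 : Representation.invariants (ρ.comp (UG Q).subtype : Representation ℂ (UG Q) (Fin k → ℂ)) = ⊥ := by
    rw [Submodule.eq_bot_iff]
    intro v hv
    have h6 : v ∈ Representation.invariants (ρ.comp (ParG D F ((∅ : Finset ℕ) : Set ℕ)).subtype : Representation ℂ _ (Fin k → ℂ)) := by
      intro b
      have hb : (b : ↥(D.group F)) ∈ BG D F := by
        have h7 := b.2
        refine Subgroup.mem_subgroupOf.2 ?_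
        have h8 := Subgroup.mem_subgroupOf.1 h7
        have h9 : D.parabolicSubgroup F ((∅ : Finset ℕ) : Set ℕ) = D.borelSubgroup F := by
          unfold ChevalleyDatum.parabolicSubgroup
          apply le_antisymm
          · refine sup_le le_rfl ?_
            rw [Subgroup.closure_le]
            rintro g ⟨j, hj, -⟩
            simp at hj
          · exact le_sup_left
        rw [h9] at h8
        exact h8
      exact fix_B (Q := Q) hDZ (hUG _ v le_rfl hv) _ hb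
    rw [h2] at h6
    exact h6
  rw [h5] at h3
  have h6 : (d : ℂ) = 0 := by
    have h7 : (Nat.card (UG Q) : ℂ)⁻¹ * (d : ℂ) = 0 := by rw [h3]; simp
    exact (mul_eq_zero.1 h7).resolve_left (inv_ne_zero hcU)
  obtain ⟨k', hk', hk1⟩ := isIrr_one_eq hDZ.irr
  rw [hk1, h6] at hd
  exact hk'.ne' (by exact_mod_cast hd)

end Cfsg.Agent.Lib.ChevAlg
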