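import Cfsg.Agent.Lib.ChevStH
import Cfsg.Agent.Lib.ChevOut

/-!
# Graph automorphisms from the Steinberg presentation
-/

set_option autoImplicit false

namespace Cfsg.Agent.Lib.ChevAlg

open Cfsg.Lie Cfsg.Agent.Lib.ChevTab Matrix Pointwise Cfsg.Agent.H8.AutBN

/-- graph data: permutation of the roots, exponents, signs -/
structure GDat where
  p : ℕ
  rl : List ℕ
  ll : List ℕ
  el : List ℤ

namespace GDat

variable (G : GDat)

def ρ (r : ℕ) : ℕ := G.rl.getD r 0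
def lam (r : ℕ) : ℕ := G.ll.getD r 1
def eps (r : ℕ) : ℤ := G.el.getD r 1

/-- normalized terms of the image pair -/
def aT (D : ChevalleyDatum) (r s : ℕ) : List (ℕ × ℤ × ℕ × ℕ) :=
  ((D.commTerms (G.ρ r) (G.ρ s)).map fun c => (c.1, (c.2.1 * (-(G.eps r)) ^ c.2.2.1 * (G.eps s) ^ c.2.2.2) % G.p, c.2.2.1, c.2.2.2))

/-- normalized images of the terms -/
def bT (D : ChevalleyDatum) (r s : ℕ) : List (ℕ × ℤ × ℕ × ℕ) :=
  ((D.commTerms r s).map fun c => (G.ρ c.1, (G.eps c.1 * c.2.1 ^ (G.lam c.1) * (-1) ^ (c.2.2.1 * G.lam c.1)) % G.p,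
    c.2.2.1 * G.lam c.1 / G.lam r, c.2.2.2 * G.lam c.1 / G.lam s))

def nz (L : List (ℕ × ℤ × ℕ × ℕ)) : List (ℕ × ℤ × ℕ × ℕ) := L.filter fun c => decide (c.2.1 ≠ 0)

/-- check for a pair -/
def chkPair (D : ChevalleyDatum) (r s : ℕ) : Bool :=
  decide (s = r) || decide (s = D.nroots - 1 - r) ||
  (((nz (G.aT D r s)).isPerm (nz (G.bT D r s))) &&
    ((D.commTerms r s).all fun c => decide ((G.eps c.1 * c.2.1 ^ (G.lam c.1) * (-1) ^ (c.2.2.1 * G.lam c.1)) % G.p = 0) ||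
      (decide ((c.2.2.1 * G.lam c.1) % G.lam r = 0) && decide ((c.2.2.2 * G.lam c.1) % G.lam s = 0))) &&
    ((nz (G.aT D r s)).all fun a => (nz (G.aT D r s)).all fun b => decide (a.1 = b.1) ||
      (decide (b.1 ≠ D.nroots - 1 - a.1) && ((D.commTerms a.1 b.1).all fun c => decide (c.2.1 % G.p = 0)))))

/-- check for a root -/
def chkRoot (D : ChevalleyDatum) (r : ℕ) : Bool :=
  decide (G.ρ r < D.nroots) && decide (G.ρ (D.nroots - 1 - r) = D.nroots - 1 - G.ρ r) &&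
  decide (G.lam (D.nroots - 1 - r) = G.lam r) && decide (G.eps (D.nroots - 1 - r) = G.eps r) &&
  (decide (G.lam r = 1) || (decide (G.lam r = G.p) && (decide (G.p = 2) || decide (G.p = 3)))) &&
  (decide (G.eps r = 1) || decide (G.eps r = -1)) &&
  (decide (D.nroots / 2 ≤ G.ρ r) == decide (D.nroots / 2 ≤ r))

/-- the whole check -/
def chk (D : ChevalleyDatum) : Bool :=
  ((List.range D.nroots).all fun r => G.chkRoot D r) && decide (((List.range D.nroots).map G.ρ).Nodup) &&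
  ((List.range D.nroots).all fun r => (List.range D.nroots).all fun s => G.chkPair D r s)

/-- soundness -/
structure Ok (D : ChevalleyDatum) : Prop where
  lt : ∀ r < D.nroots, G.ρ r < D.nroots
  neg : ∀ r < D.nroots, G.ρ (D.nroots - 1 - r) = D.nroots - 1 - G.ρ r
  lneg : ∀ r < D.nroots, G.lam (D.nroots - 1 - r) = G.lam r
  eneg : ∀ r < D.nroots, G.eps (D.nroots - 1 - r) = G.eps r
  lcase : ∀ r < D.nroots, G.lam r = 1 ∨ (G.lam r = G.p ∧ G.p.Prime)
  ecase : ∀ r < D.nroots, G.eps r = 1 ∨ G.eps r = -1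
  pos : ∀ r < D.nroots, D.nroots / 2 ≤ G.ρ r ↔ D.nroots / 2 ≤ r
  inj : ∀ r < D.nroots, ∀ s < D.nroots, G.ρ r = G.ρ s → r = s
  perm : ∀ r < D.nroots, ∀ s < D.nroots, s ≠ r → s ≠ D.nroots - 1 - r → (nz (G.aT D r s)).Perm (nz (G.bT D r s))
  dvd : ∀ r < D.nroots, ∀ s < D.nroots, s ≠ r → s ≠ D.nroots - 1 - r → ∀ c ∈ D.commTerms r s,
    (G.eps c.1 * c.2.1 ^ (G.lam c.1) * (-1) ^ (c.2.2.1 * G.lam c.1)) % G.p = 0 ∨
      (G.lam r ∣ c.2.2.1 * G.lam c.1 ∧ G.lam s ∣ c.2.2.2 * G.lam c.1)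
  comm : ∀ r < D.nroots, ∀ s < D.nroots, s ≠ r → s ≠ D.nroots - 1 - r → ∀ a ∈ nz (G.aT D r s), ∀ b ∈ nz (G.aT D r s),
    a.1 = b.1 ∨ (b.1 ≠ D.nroots - 1 - a.1 ∧ ∀ c ∈ D.commTerms a.1 b.1, c.2.1 % G.p = 0)

variable {G}

lemma ok_of_chk {D : ChevalleyDatum} (h : G.chk D = true) : G.Ok D := by
  simp only [chk, Bool.and_eq_true, List.all_eq_true, List.mem_range, decide_eq_true_eq] at h
  obtain ⟨⟨h1, h2⟩, h3⟩ := h
  simp only [chkRoot, Bool.and_eq_true, Bool.or_eq_true, decide_eq_true_eq, beq_iff_eq, decide_eq_decide] at h1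
  simp only [chkPair, Bool.and_eq_true, Bool.or_eq_true, decide_eq_true_eq, List.all_eq_true, List.isPerm_iff] at h3
  have key : ∀ r < D.nroots, ∀ s < D.nroots, s ≠ r → s ≠ D.nroots - 1 - r → _ := fun r hr s hs h4 h5 =>
    (h3 r hr s hs).resolve_left (not_or.2 ⟨h4, h5⟩)
  exact
  { lt := fun r hr => (h1 r hr).1.1.1.1.1.1
    neg := fun r hr => (h1 r hr).1.1.1.1.1.2
    lneg := fun r hr => (h1 r hr).1.1.1.1.2
    eneg := fun r hr => (h1 r hr).1.1.1.2
    lcase := fun r hr => by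
      rcases (h1 r hr).1.1.2 with h | ⟨h, h' | h'⟩
      · exact Or.inl h
      · exact Or.inr ⟨h, by rw [h']; exact Nat.prime_two⟩
      · exact Or.inr ⟨h, by rw [h']; exact Nat.prime_three⟩
    ecase := fun r hr => (h1 r hr).1.2
    pos := fun r hr => (h1 r hr).2
    inj := fun r hr s hs h => by
      have := (List.nodup_map_iff_inj_on List.nodup_range).1 h2 r (List.mem_range.2 hr) s (List.mem_range.2 hs) h
      exact this
    perm := fun r hr s hs h4 h5 => (key r hr s hs h4 h5).1.1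
    dvd := fun r hr s hs h4 h5 c hc => by
      rcases (key r hr s hs h4 h5).1.2 c hc with h | h
      · exact Or.inl h
      · exact Or.inr ⟨Nat.dvd_of_mod_eq_zero h.1, Nat.dvd_of_mod_eq_zero h.2⟩
    comm := fun r hr s hs h4 h5 a ha b hb => (key r hr s hs h4 h5).2 a ha b hb }

end GDat

section rel

variable {D : ChevalleyDatum} {K : Type*} [Field K] (Q : ChevO D K) (G : GDat)

/-- the family of images -/
def Yg (r : ℕ) (t : K) : ↥(D.group K) := xg Q (G.ρ r) ((G.eps r : K) * t ^ G.lam r)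

/-- the characteristic is compatible -/
def ChP (K : Type*) [Field K] (p : ℕ) : Prop := p = 0 ∨ CharP K p

lemma cast_emod {p : ℕ} (hp : ChP K p) (x : ℤ) : ((x % p : ℤ) : K) = x := by
  have h := Int.emod_add_mul_ediv x p
  have h0 : (p : K) = 0 := by
    rcases hp with h | h
    · rw [h, Nat.cast_zero]
    · exact CharP.cast_eq_zero K p
  conv_rhs => rw [← h]
  push_cast
  rw [h0]
  ring

/-- elements for normalized terms -/
def eT (T U : K) (c : ℕ × ℤ × ℕ × ℕ) : ↥(D.group K) := xg Q c.1 ((c.2.1 : K) * T ^ c.2.2.1 * U ^ c.2.2.2)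

lemma prod_nz (T U : K) (L : List (ℕ × ℤ × ℕ × ℕ)) : ((GDat.nz L).map (eT Q T U)).prod = (L.map (eT Q T U)).prod := by
  induction L with
  | nil => rfl
  | cons c L ih =>
    rw [List.map_cons, List.prod_cons, GDat.nz, List.filter_cons]
    split_ifs with h
    · rw [List.map_cons, List.prod_cons]
      congr 1
    · have h1 : c.2.1 = 0 := by simpa using h
      have h2 : eT Q T U c = 1 := by rw [eT, h1, Int.cast_zero, zero_mul, zero_mul, xg_zero]
      rw [h2, one_mul]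
      exact ih

variable {Q G}

lemma neg_pow_lam {r : ℕ} (hc : ChP K G.p) (h : G.lam r = 1 ∨ (G.lam r = G.p ∧ G.p.Prime)) (t : K) :
    (-t) ^ G.lam r = - t ^ G.lam r := by
  rcases h with h | ⟨h, hp⟩
  · rw [h, pow_one, pow_one]
  · rw [h]
    have : Fact G.p.Prime := ⟨hp⟩
    have : CharP K G.p := hc.resolve_left hp.ne_zero
    have := map_neg (frobenius K G.p) t
    simpa [frobenius_def] using this

lemma add_pow_lam {r : ℕ} (hc : ChP K G.p) (h : G.lam r = 1 ∨ (G.lam r = G.p ∧ G.p.Prime)) (t u : K) :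
    (t + u) ^ G.lam r = t ^ G.lam r + u ^ G.lam r := by
  rcases h with h | ⟨h, hp⟩
  · rw [h, pow_one, pow_one, pow_one]
  · rw [h]
    have : Fact G.p.Prime := ⟨hp⟩
    have : CharP K G.p := hc.resolve_left hp.ne_zero
    have := map_add (frobenius K G.p) t u
    simpa [frobenius_def] using this

lemma xg_commute_of (hcp : ChP K G.p) {a b : ℕ} (ha : a < D.nroots) (hb : b < D.nroots)
    (h : a = b ∨ (b ≠ D.nroots - 1 - a ∧ ∀ c ∈ D.commTerms a b, c.2.1 % G.p = 0)) (t u : K) :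
    Commute (xg Q a t) (xg Q b u) := by
  by_cases hab : a = b
  · subst hab
    show xg Q a t * xg Q a u = xg Q a u * xg Q a t
    rw [xg_add, xg_add, add_comm]
  · obtain ⟨h1, h2⟩ := h.resolve_left hab
    have h3 := (relAB_xg Q).comm a ha b hb (Ne.symm hab) h1 t u
    have h4 : wM (xg Q) (D.commWord K a b t u) = 1 := by
      rw [wM, ChevalleyDatum.commWord, List.map_map]
      apply List.prod_eq_one
      intro x hx
      rw [List.mem_map] at hx
      obtain ⟨c, hc, rfl⟩ := hx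
      have h5 := cast_emod hcp c.2.1
      rw [h2 c hc, Int.cast_zero] at h5
      show xg Q c.1 ((c.2.1 : K) * (-t) ^ c.2.2.1 * u ^ c.2.2.2) = 1
      rw [← h5, zero_mul, zero_mul, xg_zero]
    rw [h4, mul_one] at h3
    exact h3.symm

variable (hG : G.Ok D)

include hG in
theorem relAB_Yg (hcp : ChP K G.p) : RelAB D (Yg Q G) := by
  constructor
  · intro r hr t u
    rw [Yg, Yg, Yg, xg_add, add_pow_lam hcp (hG.lcase r hr), mul_add]
  · intro r hr s hs hne hneg t u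
    have h1 : G.ρ s ≠ G.ρ r := fun h => hne (hG.inj s hs r hr h)
    have h2 : G.ρ s ≠ D.nroots - 1 - G.ρ r := by
      rw [← hG.neg r hr]
      exact fun h => hneg (hG.inj s hs _ (neg_lt hr) h)
    have h3 := (relAB_xg Q).comm (G.ρ r) (hG.lt r hr) (G.ρ s) (hG.lt s hs) h1 h2 ((G.eps r : K) * t ^ G.lam r) ((G.eps s : K) * u ^ G.lam s)
    rw [Yg, Yg, h3]
    congr 1
    set T := t ^ G.lam r with hT
    set U := u ^ G.lam s with hU
    -- left hand side
    have eA : wM (xg Q) (D.commWord K (G.ρ r) (G.ρ s) ((G.eps r : K) * T) ((G.eps s : K) * U)) = ((G.aT D r s).map (eT Q T U)).prod := by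
      rw [wM, ChevalleyDatum.commWord, List.map_map, GDat.aT, List.map_map]
      congr 1
      apply List.map_congr_left
      intro c _
      show xg Q c.1 ((c.2.1 : K) * (-((G.eps r : K) * T)) ^ c.2.2.1 * ((G.eps s : K) * U) ^ c.2.2.2) =
        xg Q c.1 ((((c.2.1 * (-(G.eps r)) ^ c.2.2.1 * (G.eps s) ^ c.2.2.2) % G.p : ℤ) : K) * T ^ c.2.2.1 * U ^ c.2.2.2)
      rw [cast_emod hcp]
      congr 1
      push_cast
      rw [← neg_mul, mul_pow, mul_pow]
      ring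
    have eB : wM (Yg Q G) (D.commWord K r s t u) = ((G.bT D r s).map (eT Q T U)).prod := by
      rw [wM, ChevalleyDatum.commWord, List.map_map, GDat.bT, List.map_map]
      congr 1
      apply List.map_congr_left
      intro c hc
      have hcl : c.1 < D.nroots := (commTerms_mem (C := Q.C) hr hs c hc).1
      show xg Q (G.ρ c.1) ((G.eps c.1 : K) * ((c.2.1 : K) * (-t) ^ c.2.2.1 * u ^ c.2.2.2) ^ G.lam c.1) =
        xg Q (G.ρ c.1) ((((G.eps c.1 * c.2.1 ^ (G.lam c.1) * (-1) ^ (c.2.2.1 * G.lam c.1)) % G.p : ℤ) : K) *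
          T ^ (c.2.2.1 * G.lam c.1 / G.lam r) * U ^ (c.2.2.2 * G.lam c.1 / G.lam s))
      congr 1
      have e1 : (G.eps c.1 : K) * ((c.2.1 : K) * (-t) ^ c.2.2.1 * u ^ c.2.2.2) ^ G.lam c.1 =
          ((G.eps c.1 * c.2.1 ^ (G.lam c.1) * (-1) ^ (c.2.2.1 * G.lam c.1) : ℤ) : K) *
            t ^ (c.2.2.1 * G.lam c.1) * u ^ (c.2.2.2 * G.lam c.1) := by
        push_cast
        rw [neg_pow t, mul_pow, mul_pow, mul_pow, ← pow_mul, ← pow_mul, ← pow_mul]
        ring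
      rw [e1, cast_emod hcp]
      rcases hG.dvd r hr s hs hne hneg c hc with h0 | ⟨hd1, hd2⟩
      · have h5 := cast_emod hcp (G.eps c.1 * c.2.1 ^ (G.lam c.1) * (-1) ^ (c.2.2.1 * G.lam c.1))
        rw [h0, Int.cast_zero] at h5
        rw [← h5]; ring
      · rw [hT, hU, ← pow_mul, ← pow_mul, Nat.mul_div_cancel' hd1, Nat.mul_div_cancel' hd2]
    rw [eA, eB, ← prod_nz, ← prod_nz Q T U (G.bT D r s)]
    apply List.Perm.prod_eq' ((hG.perm r hr s hs hne hneg).map _)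
    rw [List.pairwise_map]
    apply List.pairwise_of_forall_mem_list
    intro a ha b hb
    have hlt : ∀ a ∈ GDat.nz (G.aT D r s), a.1 < D.nroots := by
      intro a ha
      rw [GDat.nz, List.mem_filter, GDat.aT, List.mem_map] at ha
      obtain ⟨⟨c, hc, rfl⟩, -⟩ := ha
      exact (commTerms_mem (C := Q.C) (hG.lt r hr) (hG.lt s hs) c hc).1
    exact xg_commute_of hcp (hlt a ha) (hlt b hb) (hG.comm r hr s hs hne hneg a ha b hb) _ _

include hG in
lemma hM_Yg (hcp : ChP K G.p) {r : ℕ} (hr : r < D.nroots) {t : K} (ht : t ≠ 0) :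
    hM D (Yg Q G) r t = hM D (xg Q) (G.ρ r) (t ^ G.lam r) := by
  have heps : (G.eps r : K) * G.eps r = 1 := by
    rcases hG.ecase r hr with h | h <;> rw [h] <;> norm_num
  have hepsi : (G.eps r : K)⁻¹ = G.eps r := inv_eq_of_mul_eq_one_left heps
  have heps0 : (G.eps r : K) ≠ 0 := left_ne_zero_of_mul_eq_one heps
  have hn : ∀ u : K, nM D (Yg Q G) r u = nM D (xg Q) (G.ρ r) ((G.eps r : K) * u ^ G.lam r) := by
    intro u
    rw [nM, nM, Yg, Yg, hG.neg r hr, hG.lneg r hr, hG.eneg r hr]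
    congr 3
    rw [neg_pow_lam hcp (hG.lcase r hr), mul_inv, hepsi, inv_pow]; ring
  rw [hM, hn, hn]
  apply Subtype.ext
  have e1 : ((nM D (xg Q) (G.ρ r) ((G.eps r : K) * t ^ G.lam r) * nM D (xg Q) (G.ρ r) ((G.eps r : K) * (-1) ^ G.lam r) : ↥(D.group K)) : GL D.Idx K) =
      nG Q (G.ρ r) ((G.eps r : K) * t ^ G.lam r) * nG Q (G.ρ r) ((G.eps r : K) * (-1) ^ G.lam r) := rfl
  rw [e1, hM_xg, ChevAlg.hG]
  have htl : t ^ G.lam r ≠ 0 := pow_ne_zero _ ht
  have e2 : (G.eps r : K) * (-1) ^ G.lam r = -((Units.mk0 _ heps0 : Kˣ) : K) := by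
    rw [neg_pow_lam hcp (hG.lcase r hr), one_pow, Units.val_mk0]; ring
  have e3 : (G.eps r : K) * t ^ G.lam r = ((Units.mk0 _ heps0 * Units.mk0 _ htl : Kˣ) : K) := by simp
  have e4 : nG Q (G.ρ r) (t ^ G.lam r) = dG D (cp D (G.ρ r) (Units.mk0 _ htl)) * nG Q (G.ρ r) 1 :=
    nG_eq Q (hG.lt r hr) (Units.mk0 _ htl)
  rw [e2, e3, ← nG_inv, nG_eq Q (hG.lt r hr), nG_eq Q (hG.lt r hr), e4, ← nG_inv]
  have e6 : dG D (cp D (G.ρ r) (Units.mk0 _ heps0 * Units.mk0 _ htl)) = dG D (cp D (G.ρ r) (Units.mk0 _ htl)) * dG D (cp D (G.ρ r) (Units.mk0 _ heps0)) := by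
    rw [dG_mul]
    apply dG_congr
    intro s _
    rw [cp, cp, cp, mul_zpow, mul_comm]
  rw [e6]
  group

include hG in
theorem relC_Yg (hcp : ChP K G.p) : RelC D (Yg Q G) := by
  intro r hr t u ht hu
  rw [hM_Yg hG hcp hr ht, hM_Yg hG hcp hr hu, hM_Yg hG hcp hr (mul_ne_zero ht hu), mul_pow]
  exact relC_xg Q (G.ρ r) (hG.lt r hr) _ _ (pow_ne_zero _ ht) (pow_ne_zero _ hu)

end rel

end Cfsg.Agent.Lib.ChevAlg
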