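import Cfsg.Agent.Lib.ChevGrA

/-!
# Graph automorphisms: existence
-/

set_option autoImplicit false

namespace Cfsg.Agent.Lib.ChevAlg

open Cfsg.Lie Cfsg.Agent.Lib.ChevTab Matrix Pointwise Cfsg.Agent.H8.AutBN

variable {D : ChevalleyDatum} {K : Type*} [Field K] (Q : ChevO D K) {G : GDat} (hG : G.Ok D)

include hG in
lemma GDat.Ok.surj {s : ℕ} (hs : s < D.nroots) : ∃ r < D.nroots, G.ρ r = s := by
  have h1 : Function.Injective (fun r : Fin D.nroots => (⟨G.ρ r, hG.lt r r.2⟩ : Fin D.nroots)) := by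
    intro a b h
    exact Fin.ext (hG.inj a a.2 b b.2 (congrArg Fin.val h))
  obtain ⟨r, hr⟩ := (Finite.injective_iff_surjective.1 h1) ⟨s, hs⟩
  exact ⟨r, r.2, congrArg Fin.val hr⟩

include hG in
lemma eps_sq {r : ℕ} (hr : r < D.nroots) : (G.eps r : K) * G.eps r = 1 := by
  rcases hG.ecase r hr with h | h <;> rw [h] <;> norm_num

include hG in
/-- the endomorphism of the Chevalley group -/
theorem exists_endo (hcp : ChP K G.p) (hgen : GenD D) (hperf : ∀ r < D.nroots, Function.Surjective (fun t : K => t ^ G.lam r)) :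
    ∃ α : ↥(D.group K) →* ↥(D.group K), (∀ r < D.nroots, ∀ t, α (xg Q r t) = Yg Q G r t) ∧ Function.Surjective α := by
  set φ := groupLift Q (relAB_Yg (Q := Q) hG hcp) (relC_Yg (Q := Q) hG hcp) with hφ
  have hφg : ∀ r < D.nroots, ∀ t, φ (D.stGen K r t) = Yg Q G r t := fun r hr t => groupLift_gen Q _ _ hr t
  have hsurj : Function.Surjective φ := by
    rw [← MonoidHom.range_eq_top]
    apply eq_top_of_xg Q
    intro s hs t
    obtain ⟨r, hr, rfl⟩ := hG.surj hs
    obtain ⟨u, hu⟩ := hperf r hr ((G.eps r : K) * t)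
    refine ⟨D.stGen K r u, ?_⟩
    rw [hφg r hr, Yg]
    have hu' : u ^ G.lam r = (G.eps r : K) * t := hu
    rw [hu', ← mul_assoc, eps_sq hG hr, one_mul]
  have hker : (groupHom Q).ker ≤ φ.ker := by
    rw [groupHom_ker Q hgen]
    intro z hz
    rw [MonoidHom.mem_ker, ← Subgroup.mem_bot, ← center_eq_bot Q, Subgroup.mem_center_iff]
    intro y
    obtain ⟨y, rfl⟩ := hsurj y
    rw [← map_mul, ← map_mul, Subgroup.mem_center_iff.1 hz y]
  set α := (groupHom Q).liftOfSurjective (groupHom_surj Q) ⟨φ, hker⟩ with hα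
  have hαc : ∀ x, α (groupHom Q x) = φ x := fun x =>
    MonoidHom.liftOfRightInverse_comp_apply _ _ _ ⟨φ, hker⟩ x
  refine ⟨α, fun r hr t => ?_, fun y => ?_⟩
  · rw [← groupHom_gen Q hr, hαc, hφg r hr]
  · obtain ⟨x, rfl⟩ := hsurj y
    exact ⟨groupHom Q x, hαc x⟩

include hG in
/-- the automorphism, given a companion -/
theorem exists_auto {G' : GDat} (hG' : G'.Ok D) (c1 : ChP K G.p) (c2 : ChP K G'.p) (hgen : GenD D)
    (hperf : ∀ r < D.nroots, Function.Surjective (fun t : K => t ^ G.lam r))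
    (hperf' : ∀ r < D.nroots, Function.Surjective (fun t : K => t ^ G'.lam r))
    (σ : K ≃+* K)
    (h1 : ∀ i < D.rank, G'.ρ (G.ρ (D.simple i)) = D.simple i)
    (h2 : ∀ i < D.rank, G.eps (D.simple i) = 1 ∧ G'.eps (G.ρ (D.simple i)) = 1)
    (h3 : ∀ i < D.rank, ∀ t : K, t ^ (G.lam (D.simple i) * G'.lam (G.ρ (D.simple i))) = σ t) :
    ∃ γ : MulAut ↥(D.group K), (∀ r < D.nroots, ∀ t, γ (xg Q r t) = Yg Q G r t) := by
  obtain ⟨β, hβ, -⟩ : ∃ β : ↥(D.group K) →* ↥(D.group K), (∀ r < D.nroots, ∀ t, β (xg Q r t) = Yg Q G' r t) ∧ Function.Surjective β :=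
    exists_endo Q hG' c2 hgen hperf'
  obtain ⟨α, hα, hs⟩ : ∃ α : ↥(D.group K) →* ↥(D.group K), (∀ r < D.nroots, ∀ t, α (xg Q r t) = Yg Q G r t) ∧ Function.Surjective α :=
    exists_endo Q hG c1 hgen hperf
  have key : β.comp α = (fAut Q σ : ↥(D.group K) ≃* ↥(D.group K)).toMonoidHom := by
    apply hom_ext_simple Q
    · intro i hi t
      have hlt := Q.C.simple_lt i hi
      have e1 : β (α (xg Q (D.simple i) t)) = fAut Q σ (xg Q (D.simple i) t) := by
        rw [hα _ hlt, Yg, (h2 i hi).1, hβ _ (hG.lt _ hlt), Yg, (h2 i hi).2, h1 i hi, fAut_xg, ← h3 i hi t]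
        simp [pow_mul]
      exact e1
    · intro i hi t
      have hlt := Q.C.simple_lt i hi
      have hlt' := neg_lt hlt
      have e1 : β (α (xg Q (D.nroots - 1 - D.simple i) t)) = fAut Q σ (xg Q (D.nroots - 1 - D.simple i) t) := by
        rw [hα _ hlt', Yg, hG.eneg _ hlt, hG.lneg _ hlt, hG.neg _ hlt, (h2 i hi).1, hβ _ (neg_lt (hG.lt _ hlt)), Yg,
          hG'.eneg _ (hG.lt _ hlt), hG'.lneg _ (hG.lt _ hlt), hG'.neg _ (hG.lt _ hlt), (h2 i hi).2, h1 i hi, fAut_xg, ← h3 i hi t]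
        simp [pow_mul]
      exact e1
  have hinj : Function.Injective α := by
    intro x y hxy
    have e1 : ∀ z, β (α z) = fAut Q σ z := fun z => DFunLike.congr_fun key z
    have e2 := e1 x
    rw [hxy, e1 y] at e2
    exact (fAut Q σ).injective e2.symm
  exact ⟨MulEquiv.ofBijective α ⟨hinj, hs⟩, hα⟩

include hG in
/-- normalized graph automorphisms -/
theorem isGrN_of (hperf : ∀ r < D.nroots, Function.Surjective (fun t : K => t ^ G.lam r)) {γ : MulAut ↥(D.group K)}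
    (hγ : ∀ r < D.nroots, ∀ t, γ (xg Q r t) = Yg Q G r t)
    {π : Equiv.Perm (Fin D.rank)} (hsym : D.IsDiagramSymmetry π)
    (h1 : ∀ i : Fin D.rank, G.ρ (D.simple i) = D.simple (π i)) (h2 : ∀ i : Fin D.rank, G.eps (D.simple i) = 1)
    (h3 : ∀ i : Fin D.rank, G.lam (D.simple i) = D.graphExp (ringChar K) i (π i)) : IsGrN Q π γ := by
  have hXS : ∀ (Ψ : Set ℕ), (∀ r ∈ Ψ, r < D.nroots) → (∀ r < D.nroots, r ∈ Ψ ↔ G.ρ r ∈ Ψ) → γ • sA D K (XS Q Ψ) = sA D K (XS Q Ψ) := by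
    intro Ψ hΨ hρ
    apply le_antisymm
    · -- image contained
      have key : XS Q Ψ ≤ ((sA D K (XS Q Ψ)).comap γ.toMonoidHom).map (D.group K).subtype := by
        rw [XS_le]
        intro r hr t
        refine ⟨xg Q r t, ?_, rfl⟩
        show γ (xg Q r t) ∈ sA D K (XS Q Ψ)
        rw [hγ r (hΨ r hr), Yg, mem_sA]
        exact xG_mem Q ((hρ r (hΨ r hr)).1 hr) _
      intro x hx
      rw [H8.AutBN.mem_smul] at hx
      obtain ⟨y, hy, e⟩ := key (mem_sA.1 hx)
      have e2 : y = γ⁻¹ x := Subtype.ext e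
      subst e2
      have h4 : γ (γ⁻¹ x) ∈ sA D K (XS Q Ψ) := hy
      rwa [MulAut.apply_inv_self] at h4
    · have key : XS Q Ψ ≤ (γ • sA D K (XS Q Ψ)).map (D.group K).subtype := by
        rw [XS_le]
        intro s hs t
        obtain ⟨r, hr, rfl⟩ := hG.surj (hΨ s hs)
        obtain ⟨u, hu⟩ := hperf r hr ((G.eps r : K) * t)
        have hu' : u ^ G.lam r = (G.eps r : K) * t := hu
        have e1 : γ (xg Q r u) = xg Q (G.ρ r) t := by
          rw [hγ r hr, Yg, hu', ← mul_assoc, eps_sq hG hr, one_mul]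
        refine ⟨xg Q (G.ρ r) t, ?_, rfl⟩
        show xg Q (G.ρ r) t ∈ γ • sA D K (XS Q Ψ)
        rw [← e1, H8.AutBN.mem_smul, MulAut.inv_apply_self, mem_sA]
        exact xG_mem Q ((hρ r hr).2 hs) _
      intro x hx
      obtain ⟨y, hy, e⟩ := key (mem_sA.1 hx)
      have e2 : y = x := Subtype.ext e
      rw [← e2]; exact hy
  refine ⟨⟨hsym, ?_, ?_⟩, ?_, ?_⟩
  · intro i t
    rw [hγ _ (Q.C.simple_lt i i.2), Yg, h1, h2, h3, Int.cast_one, one_mul]
  · intro i t
    have hlt := Q.C.simple_lt i i.2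
    rw [hγ _ (neg_lt hlt), Yg, hG.neg _ hlt, hG.eneg _ hlt, hG.lneg _ hlt, h1, h2, h3, Int.cast_one, one_mul]
  · apply hXS
    · intro r hr; exact hr.2
    · intro r hr
      constructor
      · intro h; exact ⟨(hG.pos r hr).2 h.1, hG.lt r hr⟩
      · intro h; exact ⟨(hG.pos r hr).1 h.1, hr⟩
  · apply hXS
    · intro r hr; exact neg_lt_n hr
    · intro r hr
      show r < D.nroots / 2 ↔ G.ρ r < D.nroots / 2
      have := hG.pos r hr
      omega

end Cfsg.Agent.Lib.ChevAlg
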