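import Cfsg.Agent.Lib.ChevGrA

/-!
# Graph data gB2
-/

set_option autoImplicit false

namespace Cfsg.Agent.Lib.ChevAlg

open Cfsg.Lie

/-- graph data -/
def gB2 : GDat where
  p := 2
  rl := [1, 0, 3, 2, 5, 4, 7, 6]
  ll := [1, 2, 2, 1, 1, 2, 2, 1]
  el := [1, 1, 1, 1, 1, 1, 1, 1]

theorem gB2_ok : gB2.Ok chevB2 := GDat.ok_of_chk (by decide +kernel)

end Cfsg.Agent.Lib.ChevAlg
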