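import Cfsg.Agent.Lib.ChevGrA

/-!
# Graph data gG2
-/

set_option autoImplicit false

namespace Cfsg.Agent.Lib.ChevAlg

open Cfsg.Lie

/-- graph data -/
def gG2 : GDat where
  p := 3
  rl := [2, 3, 0, 1, 5, 4, 7, 6, 10, 11, 8, 9]
  ll := [1, 1, 3, 3, 3, 1, 1, 3, 3, 3, 1, 1]
  el := [1, 1, 1, 1, 1, 1, 1, 1, 1, 1, 1, 1]

theorem gG2_ok : gG2.Ok chevG2 := GDat.ok_of_chk (by decide +kernel)

end Cfsg.Agent.Lib.ChevAlg
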