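import Cfsg.Agent.Lib.ChevGrC
import Cfsg.Agent.Lib.ChevGr_gB2
import Cfsg.Agent.Lib.ChevGr_gG2
import Cfsg.Agent.Lib.ChevGr_gD4a
import Cfsg.Agent.Lib.ChevGr_gD4b
import Cfsg.Agent.Lib.ChevGr_gD4c
import Cfsg.Agent.Lib.ChevGr_gD4d
import Cfsg.Agent.Lib.ChevGr_gD4e
import Cfsg.Agent.Lib.ChevGr_gF4
import Cfsg.Agent.Lib.ChevGr_gE6

/-!
# Graph automorphisms of the Chevalley groups
-/

set_option autoImplicit false

namespace Cfsg.Agent.Lib.ChevAlg

open Cfsg.Lie Cfsg.Agent.Lib.ChevTab Matrix Pointwise Cfsg.Agent.H8.AutBN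

variable {K : Type*} [Field K]

lemma perf_one {D : ChevalleyDatum} {G : GDat} (h : ∀ r < D.nroots, G.lam r = 1) :
    ∀ r < D.nroots, Function.Surjective (fun t : K => t ^ G.lam r) := by
  intro r hr t
  exact ⟨t, by show t ^ G.lam r = t; rw [h r hr, pow_one]⟩

/-- graph automorphisms in the simply laced case -/
theorem auto_simple {D : ChevalleyDatum} (Q : ChevO D K) (hD : D ∈ [chevG2, chevB2, chevD4, chevF4, chevE6, chevE7, chevE8])
    {G G' : GDat} (hG : G.Ok D) (hG' : G'.Ok D) (hp : G.p = 0) (hp' : G'.p = 0) (hl : ∀ r < D.nroots, G.lam r = 1)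
    (hl' : ∀ r < D.nroots, G'.lam r = 1) (h1 : ∀ i < D.rank, G'.ρ (G.ρ (D.simple i)) = D.simple i)
    (h2 : ∀ i < D.rank, G.eps (D.simple i) = 1 ∧ G'.eps (G.ρ (D.simple i)) = 1) :
    ∃ γ : MulAut ↥(D.group K), (∀ r < D.nroots, ∀ t, γ (xg Q r t) = Yg Q G r t) :=
  exists_auto Q hG hG' (Or.inl hp) (Or.inl hp') (gen_of D hD) (perf_one hl) (perf_one hl') (RingEquiv.refl K) h1 h2
    (fun i hi t => by
      rw [hl _ (Q.C.simple_lt i hi), hl' _ (hG.lt _ (Q.C.simple_lt i hi)), mul_one, pow_one]; rfl)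

lemma perf_p {D : ChevalleyDatum} {G : GDat} (hG : G.Ok D) (hperf : ∀ x : K, ∃ y : K, y ^ G.p = x) :
    ∀ r < D.nroots, Function.Surjective (fun t : K => t ^ G.lam r) := by
  intro r hr t
  rcases hG.lcase r hr with h | ⟨h, -⟩
  · exact ⟨t, by show t ^ G.lam r = t; rw [h, pow_one]⟩
  · obtain ⟨y, hy⟩ := hperf t
    exact ⟨y, by show y ^ G.lam r = t; rw [h, hy]⟩

/-- graph automorphisms in the exceptional case -/
theorem auto_exc {D : ChevalleyDatum} (Q : ChevO D K) (hD : D ∈ [chevG2, chevB2, chevD4, chevF4, chevE6, chevE7, chevE8])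
    {G : GDat} (hG : G.Ok D) (hp : G.p.Prime) (hc : CharP K G.p) (hperf : ∀ x : K, ∃ y : K, y ^ G.p = x)
    (h1 : ∀ i < D.rank, G.ρ (G.ρ (D.simple i)) = D.simple i)
    (h2 : ∀ i < D.rank, G.eps (D.simple i) = 1 ∧ G.eps (G.ρ (D.simple i)) = 1)
    (h3 : ∀ i < D.rank, G.lam (D.simple i) * G.lam (G.ρ (D.simple i)) = G.p) :
    ∃ γ : MulAut ↥(D.group K), (∀ r < D.nroots, ∀ t, γ (xg Q r t) = Yg Q G r t) := by
  have : Fact G.p.Prime := ⟨hp⟩
  have hb : Function.Bijective (frobenius K G.p) := ⟨frobenius_inj K G.p, fun x => hperf x⟩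
  refine exists_auto Q hG hG (Or.inr hc) (Or.inr hc) (gen_of D hD) (perf_p hG hperf) (perf_p hG hperf)
    (RingEquiv.ofBijective (frobenius K G.p) hb) h1 h2 (fun i hi t => ?_)
  rw [h3 i hi]; rfl

theorem auto_B2 [hc : CharP K 2] (hperf : ∀ x : K, ∃ y : K, y ^ 2 = x) (Q : ChevO chevB2 K) :
    ∃ γ : MulAut ↥(chevB2.group K), (∀ r < chevB2.nroots, ∀ t, γ (xg Q r t) = Yg Q gB2 r t) :=
  auto_exc Q (by simp) gB2_ok Nat.prime_two hc hperf (by decide +kernel) (by decide +kernel) (by decide +kernel)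

theorem auto_F4 [hc : CharP K 2] (hperf : ∀ x : K, ∃ y : K, y ^ 2 = x) (Q : ChevO chevF4 K) :
    ∃ γ : MulAut ↥(chevF4.group K), (∀ r < chevF4.nroots, ∀ t, γ (xg Q r t) = Yg Q gF4 r t) :=
  auto_exc Q (by simp) gF4_ok Nat.prime_two hc hperf (by decide +kernel) (by decide +kernel) (by decide +kernel)

theorem auto_G2 [hc : CharP K 3] (hperf : ∀ x : K, ∃ y : K, y ^ 3 = x) (Q : ChevO chevG2 K) :
    ∃ γ : MulAut ↥(chevG2.group K), (∀ r < chevG2.nroots, ∀ t, γ (xg Q r t) = Yg Q gG2 r t) :=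
  auto_exc Q (by simp) gG2_ok Nat.prime_three hc hperf (by decide +kernel) (by decide +kernel) (by decide +kernel)

theorem auto_E6 (Q : ChevO chevE6 K) :
    ∃ γ : MulAut ↥(chevE6.group K), (∀ r < chevE6.nroots, ∀ t, γ (xg Q r t) = Yg Q gE6 r t) :=
  auto_simple Q (by simp) gE6_ok gE6_ok rfl rfl (by decide +kernel) (by decide +kernel) (by decide +kernel) (by decide +kernel)

theorem auto_D4a (Q : ChevO chevD4 K) :
    ∃ γ : MulAut ↥(chevD4.group K), (∀ r < chevD4.nroots, ∀ t, γ (xg Q r t) = Yg Q gD4a r t) :=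
  auto_simple Q (by simp) gD4a_ok gD4b_ok rfl rfl (by decide +kernel) (by decide +kernel) (by decide +kernel) (by decide +kernel)

theorem auto_D4b (Q : ChevO chevD4 K) :
    ∃ γ : MulAut ↥(chevD4.group K), (∀ r < chevD4.nroots, ∀ t, γ (xg Q r t) = Yg Q gD4b r t) :=
  auto_simple Q (by simp) gD4b_ok gD4a_ok rfl rfl (by decide +kernel) (by decide +kernel) (by decide +kernel) (by decide +kernel)

theorem auto_D4c (Q : ChevO chevD4 K) :
    ∃ γ : MulAut ↥(chevD4.group K), (∀ r < chevD4.nroots, ∀ t, γ (xg Q r t) = Yg Q gD4c r t) :=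
  auto_simple Q (by simp) gD4c_ok gD4c_ok rfl rfl (by decide +kernel) (by decide +kernel) (by decide +kernel) (by decide +kernel)

theorem auto_D4d (Q : ChevO chevD4 K) :
    ∃ γ : MulAut ↥(chevD4.group K), (∀ r < chevD4.nroots, ∀ t, γ (xg Q r t) = Yg Q gD4d r t) :=
  auto_simple Q (by simp) gD4d_ok gD4d_ok rfl rfl (by decide +kernel) (by decide +kernel) (by decide +kernel) (by decide +kernel)

theorem auto_D4e (Q : ChevO chevD4 K) :
    ∃ γ : MulAut ↥(chevD4.group K), (∀ r < chevD4.nroots, ∀ t, γ (xg Q r t) = Yg Q gD4e r t) :=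
  auto_simple Q (by simp) gD4e_ok gD4e_ok rfl rfl (by decide +kernel) (by decide +kernel) (by decide +kernel) (by decide +kernel)

/-- matrix form -/
theorem auto_mat {D : ChevalleyDatum} (Q : ChevO D K) {G : GDat} (hG : G.Ok D) {γ : MulAut ↥(D.group K)}
    (hγ : ∀ r < D.nroots, ∀ t, γ (xg Q r t) = Yg Q G r t) (g : ↥(D.group K)) {i : ℕ} (hi : i < D.rank) (t : K)
    (he : G.eps (D.simple i) = 1) {j e : ℕ} (hj : G.ρ (D.simple i) = D.simple j) (hl : G.lam (D.simple i) = e) :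
    (((g : GL D.Idx K) : Matrix D.Idx D.Idx K) = D.x K (D.simple i) t →
      ((γ g : GL D.Idx K) : Matrix D.Idx D.Idx K) = D.x K (D.simple j) (t ^ e)) ∧
    (((g : GL D.Idx K) : Matrix D.Idx D.Idx K) = D.x K (D.neg (D.simple i)) t →
      ((γ g : GL D.Idx K) : Matrix D.Idx D.Idx K) = D.x K (D.neg (D.simple j)) (t ^ e)) := by
  have hlt := Q.C.simple_lt i hi
  have hltj : D.simple j < D.nroots := hj ▸ hG.lt _ hlt
  constructor
  · intro hg
    have h1 : g = xg Q (D.simple i) t := Subtype.ext (Units.ext hg)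
    rw [h1, hγ _ hlt, Yg, he, hj, hl, Int.cast_one, one_mul]
    rfl
  · intro hg
    rw [neg_eq' Q hlt] at hg
    have h1 : g = xg Q (D.nroots - 1 - D.simple i) t := Subtype.ext (Units.ext hg)
    rw [h1, hγ _ (neg_lt hlt), Yg, hG.eneg _ hlt, hG.neg _ hlt, hG.lneg _ hlt, he, hj, hl, Int.cast_one, one_mul,
      neg_eq' Q hltj]
    rfl

end Cfsg.Agent.Lib.ChevAlg
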