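import Cfsg.Agent.Lib.ChevGrZ

/-!
# Outer automorphism groups with graph automorphisms
-/

set_option autoImplicit false

namespace Cfsg.Agent.Lib.ChevAlg

open Cfsg.Lie Cfsg.Agent.Lib.ChevTab Matrix Pointwise Cfsg.Agent.H8.AutBN

/-! ### symmetries of the diagram of type `E₆` -/

lemma rigE6 (D : ChevalleyDatum) (n : ℕ) (hA : rigA D n = true) (hn3 : rigNb D n 3 [1, 2, 4] = true) (hn1 : rigNb D n 1 [3] = true)
    (hn2 : rigStep D n 3 2 0 = true) (s34 : rigStep D n 3 4 5 = true)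
    (a3 : ℕ) (h3 : a3 < n) (a4 : ℕ) (h4 : a4 < n) (a5 : ℕ) (h5 : a5 < n) (a2 : ℕ) (h2 : a2 < n)
    (a1 : ℕ) (h1 : a1 < n) (a0 : ℕ) (h0 : a0 < n)
    (n24 : a2 ≠ a4) (n14 : a1 ≠ a4) (n12 : a1 ≠ a2) (n35 : a5 ≠ a3) (n03 : a0 ≠ a3)
    (b34 : D.bonds a3 a4 = 1) (b32 : D.bonds a3 a2 = 1) (b31 : D.bonds a3 a1 = 1) (b54 : D.bonds a5 a4 = 1)
    (b02 : D.bonds a0 a2 = 1) :
    (a0 = 0 ∧ a1 = 1 ∧ a2 = 2 ∧ a3 = 3 ∧ a4 = 4 ∧ a5 = 5) ∨ (a0 = 5 ∧ a1 = 1 ∧ a2 = 4 ∧ a3 = 3 ∧ a4 = 2 ∧ a5 = 0) := by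
  have e3 := rigA_of hA a3 h3 a4 h4 b34 a2 h2 n24 b32 a1 h1 n14 n12 b31
  subst e3
  have m4 := rigNb_of hn3 a4 h4 (by rw [bonds_symm]; exact b34)
  have m2 := rigNb_of hn3 a2 h2 (by rw [bonds_symm]; exact b32)
  have m1 := rigNb_of hn3 a1 h1 (by rw [bonds_symm]; exact b31)
  simp only [List.mem_cons, List.not_mem_nil, or_false] at m4 m2 m1
  have c4 : a4 = 2 ∨ a4 = 4 := by
    rcases m4 with rfl | h | h
    · have := rigNb_of hn1 a5 h5 b54
      simp only [List.mem_cons, List.not_mem_nil, or_false] at this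
      exact absurd this n35
    · exact Or.inl h
    · exact Or.inr h
  have c2 : a2 = 2 ∨ a2 = 4 := by
    rcases m2 with rfl | h | h
    · have := rigNb_of hn1 a0 h0 b02
      simp only [List.mem_cons, List.not_mem_nil, or_false] at this
      exact absurd this n03
    · exact Or.inl h
    · exact Or.inr h
  rcases c4 with rfl | rfl
  · have e2 : a2 = 4 := c2.resolve_left n24
    subst e2
    right
    have e5 := rigStep_of hn2 a5 h5 n35 b54
    have e0 := rigStep_of s34 a0 h0 n03 b02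
    refine ⟨e0, ?_, rfl, rfl, rfl, e5⟩
    rcases m1 with h | h | h
    · exact h
    · exact absurd h n14
    · exact absurd h n12
  · have e2 : a2 = 2 := c2.resolve_right n24
    subst e2
    left
    have e5 := rigStep_of s34 a5 h5 n35 b54
    have e0 := rigStep_of hn2 a0 h0 n03 b02
    refine ⟨e0, ?_, rfl, rfl, rfl, e5⟩
    rcases m1 with h | h | h
    · exact h
    · exact absurd h n12
    · exact absurd h n14

/-- the flip of `E₆` -/
def flipE6 : Equiv.Perm (Fin chevE6.rank) where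
  toFun i := ⟨[5, 1, 4, 3, 2, 0].getD i 0, by
    have : ∀ j < 6, [5, 1, 4, 3, 2, 0].getD j 0 < 6 := by decide
    exact this i i.2⟩
  invFun i := ⟨[5, 1, 4, 3, 2, 0].getD i 0, by
    have : ∀ j < 6, [5, 1, 4, 3, 2, 0].getD j 0 < 6 := by decide
    exact this i i.2⟩
  left_inv i := Fin.ext (by
    have : ∀ j < 6, [5, 1, 4, 3, 2, 0].getD ([5, 1, 4, 3, 2, 0].getD j 0) 0 = j := by decide
    exact this i i.2)
  right_inv i := Fin.ext (by
    have : ∀ j < 6, [5, 1, 4, 3, 2, 0].getD ([5, 1, 4, 3, 2, 0].getD j 0) 0 = j := by decide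
    exact this i i.2)

lemma symE6 {π : Equiv.Perm (Fin chevE6.rank)} (h : chevE6.IsDiagramSymmetry π) : π = 1 ∨ π = flipE6 := by
  have hbd : ∀ (a b : ℕ) (ha : a < chevE6.rank) (hb : b < chevE6.rank), a ≠ b → chevE6.bonds (π ⟨a, ha⟩) (π ⟨b, hb⟩) = chevE6.bonds a b :=
    fun a b ha hb hab => h ⟨a, ha⟩ ⟨b, hb⟩ (fun e => hab (congrArg Fin.val e))
  have hne : ∀ (a b : ℕ) (ha : a < chevE6.rank) (hb : b < chevE6.rank), a ≠ b → ((π ⟨a, ha⟩ : Fin _) : ℕ) ≠ π ⟨b, hb⟩ :=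
    fun a b ha hb hab e => hab (congrArg Fin.val (π.injective (Fin.ext e)))
  have hr : chevE6.rank = 6 := rfl
  have key := rigE6 chevE6 chevE6.rank (by decide +kernel) (by decide +kernel) (by decide +kernel) (by decide +kernel) (by decide +kernel)
    (π ⟨3, by decide⟩) (π _).2 (π ⟨4, by decide⟩) (π _).2
    (π ⟨5, by decide⟩) (π _).2 (π ⟨2, by decide⟩) (π _).2 (π ⟨1, by decide⟩) (π _).2
    (π ⟨0, by decide⟩) (π _).2 (hne _ _ _ _ (by norm_num)) (hne _ _ _ _ (by norm_num)) (hne _ _ _ _ (by norm_num))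
    (hne _ _ _ _ (by norm_num)) (hne _ _ _ _ (by norm_num))
    (by rw [hbd 3 4 _ _ (by norm_num)]; decide +kernel) (by rw [hbd 3 2 _ _ (by norm_num)]; decide +kernel)
    (by rw [hbd 3 1 _ _ (by norm_num)]; decide +kernel) (by rw [hbd 5 4 _ _ (by norm_num)]; decide +kernel)
    (by rw [hbd 0 2 _ _ (by norm_num)]; decide +kernel)
  rcases key with ⟨e0, e1, e2, e3, e4, e5⟩ | ⟨e0, e1, e2, e3, e4, e5⟩
  · left
    ext ⟨i, hi⟩
    rw [hr] at hi
    have : i = 0 ∨ i = 1 ∨ i = 2 ∨ i = 3 ∨ i = 4 ∨ i = 5 := by omega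
    rcases this with rfl | rfl | rfl | rfl | rfl | rfl
    · exact e0
    · exact e1
    · exact e2
    · exact e3
    · exact e4
    · exact e5
  · right
    ext ⟨i, hi⟩
    rw [hr] at hi
    have : i = 0 ∨ i = 1 ∨ i = 2 ∨ i = 3 ∨ i = 4 ∨ i = 5 := by omega
    rcases this with rfl | rfl | rfl | rfl | rfl | rfl
    · exact e0
    · exact e1
    · exact e2
    · exact e3
    · exact e4
    · exact e5

section card

variable {D : ChevalleyDatum} {F : Type*} [Field F] (Q : ChevO D F)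

lemma card_PG_two {π₀ : Equiv.Perm (Fin D.rank)} (h0 : ∃ γ, IsGrN Q π₀ γ) (hne : π₀ ≠ 1)
    (h : ∀ π : PG Q, π.1 = 1 ∨ π.1 = π₀) : Nat.card (PG Q) = 2 := by
  rw [Nat.card_eq_two_iff]
  refine ⟨⟨1, 1, isGrN_one Q⟩, ⟨π₀, h0⟩, fun e => hne (congrArg Subtype.val e).symm, ?_⟩
  ext π
  simp only [Set.mem_insert_iff, Set.mem_singleton_iff, Set.mem_univ, iff_true]
  rcases h π with h | h
  · exact Or.inl (Subtype.ext h)
  · exact Or.inr (Subtype.ext h)

end card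

section exist

variable {K : Type*} [Field K]

lemma perf_finite [Finite K] (p : ℕ) [Fact p.Prime] [CharP K p] : ∀ x : K, ∃ y : K, y ^ p = x := by
  intro x
  obtain ⟨y, hy⟩ := (Finite.injective_iff_surjective.1 (frobenius_inj K p)) x
  exact ⟨y, hy⟩

theorem grE6 (Q : ChevO chevE6 K) : ∃ γ, IsGrN Q flipE6 γ := by
  obtain ⟨γ, hγ⟩ := auto_E6 Q
  refine ⟨γ, isGrN_of Q gE6_ok (perf_one (by decide +kernel)) hγ ?_ ?_ ?_ ?_⟩
  · have : ∀ i j : Fin chevE6.rank, i ≠ j → chevE6.bonds (flipE6 i) (flipE6 j) = chevE6.bonds i j := by decide +kernel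
    exact this
  · decide +kernel
  · decide +kernel
  · intro i
    rw [simE6.graphExp_eq]
    revert i
    decide +kernel

theorem grG2 [hc : CharP K 3] (hperf : ∀ x : K, ∃ y : K, y ^ 3 = x) (Q : ChevO chevG2 K) : ∃ γ, IsGrN Q Fin.revPerm γ := by
  obtain ⟨γ, hγ⟩ := auto_G2 hperf Q
  have hr : ringChar K = 3 := ringChar.eq K 3
  refine ⟨γ, isGrN_of Q gG2_ok (perf_p gG2_ok hperf) hγ ?_ ?_ ?_ ?_⟩
  · have : ∀ i j : Fin chevG2.rank, i ≠ j → chevG2.bonds (Fin.revPerm i) (Fin.revPerm j) = chevG2.bonds i j := by decide +kernel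
    exact this
  · decide +kernel
  · decide +kernel
  · rw [hr]
    decide +kernel

theorem grF4 [hc : CharP K 2] (hperf : ∀ x : K, ∃ y : K, y ^ 2 = x) (Q : ChevO chevF4 K) : ∃ γ, IsGrN Q Fin.revPerm γ := by
  obtain ⟨γ, hγ⟩ := auto_F4 hperf Q
  have hr : ringChar K = 2 := ringChar.eq K 2
  refine ⟨γ, isGrN_of Q gF4_ok (perf_p gF4_ok hperf) hγ ?_ ?_ ?_ ?_⟩
  · have : ∀ i j : Fin chevF4.rank, i ≠ j → chevF4.bonds (Fin.revPerm i) (Fin.revPerm j) = chevF4.bonds i j := by decide +kernel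
    exact this
  · decide +kernel
  · decide +kernel
  · rw [hr]
    decide +kernel

theorem grB2 [hc : CharP K 2] (hperf : ∀ x : K, ∃ y : K, y ^ 2 = x) (Q : ChevO chevB2 K) : ∃ γ, IsGrN Q Fin.revPerm γ := by
  obtain ⟨γ, hγ⟩ := auto_B2 hperf Q
  have hr : ringChar K = 2 := ringChar.eq K 2
  refine ⟨γ, isGrN_of Q gB2_ok (perf_p gB2_ok hperf) hγ ?_ ?_ ?_ ?_⟩
  · have : ∀ i j : Fin chevB2.rank, i ≠ j → chevB2.bonds (Fin.revPerm i) (Fin.revPerm j) = chevB2.bonds i j := by decide +kernel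
    exact this
  · decide +kernel
  · decide +kernel
  · rw [hr]
    decide +kernel

end exist

lemma rev_of {n : ℕ} {π : Equiv.Perm (Fin n)} (h : ∀ i, (π i : ℕ) = n - 1 - i) : π = Fin.revPerm := by
  ext i
  rw [h i]
  simp [Fin.rev]
  omega

theorem card_PG_E6 {F : Type*} [Field F] [Finite F] (Q : ChevO chevE6 F) : Nat.card (PG Q) = 2 :=
  card_PG_two Q (grE6 Q) (by decide +kernel) (fun π => symE6 π.isGrN.sym)

theorem card_PG_G2 {F : Type*} [Field F] [Finite F] [CharP F 3] (Q : ChevO chevG2 F) : Nat.card (PG Q) = 2 := by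
  have : Fact (Nat.Prime 3) := ⟨Nat.prime_three⟩
  refine card_PG_two Q (grG2 (perf_finite 3) Q) (by decide +kernel) (fun π => ?_)
  rcases π.info Q (by simp) (by decide) with h | h | h | ⟨h, -⟩
  · exact Or.inl (Equiv.ext h)
  · exact absurd (congrArg ChevalleyDatum.rank h) (by decide)
  · exact absurd (congrArg ChevalleyDatum.rank h) (by decide)
  · exact Or.inr (rev_of h)

theorem card_PG_F4 {F : Type*} [Field F] [Finite F] [CharP F 2] (Q : ChevO chevF4 F) : Nat.card (PG Q) = 2 := by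
  have : Fact (Nat.Prime 2) := ⟨Nat.prime_two⟩
  refine card_PG_two Q (grF4 (perf_finite 2) Q) (by decide +kernel) (fun π => ?_)
  rcases π.info Q (by simp) (by decide) with h | h | h | ⟨h, -⟩
  · exact Or.inl (Equiv.ext h)
  · exact absurd (congrArg ChevalleyDatum.nroots h) (by decide)
  · exact absurd (congrArg ChevalleyDatum.rank h) (by decide)
  · exact Or.inr (rev_of h)

end Cfsg.Agent.Lib.ChevAlg
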