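import Cfsg.Agent.Lib.ChevOutB

/-!
# The structure of the outer automorphism group
-/

set_option autoImplicit false

namespace Cfsg.Agent.Lib.ChevAlg

open Cfsg.Lie Cfsg.Agent.Lib.ChevTab Matrix Pointwise Cfsg.Agent.H8.AutBN

variable {D : ChevalleyDatum} {F : Type*} [Field F] (Q : ChevO D F)

/-- normalized automorphisms with their permutation of the nodes -/
structure NB (β : MulAut ↥(D.group F)) (π : Equiv.Perm (Fin D.rank)) : Prop where
  U : β • sA D F (XS Q (Pos D)) = sA D F (XS Q (Pos D))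
  V : β • sA D F (XS Q (Neg D)) = sA D F (XS Q (Neg D))
  x : ∀ (i : Fin D.rank) (t : F), ∃ u : F, β (xg Q (D.simple i) t) = xg Q (D.simple (π i)) u

variable {Q}

lemma NB.one : NB Q 1 1 := ⟨one_smul _ _, one_smul _ _, fun _ t => ⟨t, rfl⟩⟩

lemma NB.mul {β β' : MulAut ↥(D.group F)} {π π' : Equiv.Perm (Fin D.rank)} (h : NB Q β π) (h' : NB Q β' π') :
    NB Q (β * β') (π * π') :=
  ⟨by rw [mul_smul, h'.U, h.U], by rw [mul_smul, h'.V, h.V], fun i t => by
    obtain ⟨u, hu⟩ := h'.x i t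
    obtain ⟨u', hu'⟩ := h.x (π' i) u
    exact ⟨u', by rw [MulAut.mul_apply, hu, hu']; rfl⟩⟩

lemma NB.of {d : Fin D.rank → Fˣ} {π : Equiv.Perm (Fin D.rank)} {γ : MulAut ↥(D.group F)} (hγ : IsGrN Q π γ) (σ : F ≃+* F) :
    NB Q (dT Q d * γ * fT Q σ) π :=
  ⟨(prod_smul Q hγ σ).1, (prod_smul Q hγ σ).2, fun i t => ⟨_, prod_x Q hγ.toIsGr σ i t⟩⟩

lemma NB.unique {β β' : MulAut ↥(D.group F)} {π π' : Equiv.Perm (Fin D.rank)} (h : NB Q β π) (h' : NB Q β' π')
    {x : ↥(D.group F)} (he : β = c x * β') : π = π' := by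
  have hx : (x : GL D.Idx F) ∈ D.diagonalSubgroup F := by
    rw [mem_H_iff Q]
    constructor
    · conv_lhs => rw [← h'.U]
      rw [← mul_smul, ← he, h.U]
    · conv_lhs => rw [← h'.V]
      rw [← mul_smul, ← he, h.V]
  obtain ⟨d, e0, -⟩ := c_of_H Q hx
  ext i
  obtain ⟨u, hu⟩ := h.x i 1
  obtain ⟨u', hu'⟩ := h'.x i 1
  have hu0 : u ≠ 0 := by
    rintro rfl
    rw [xg_zero] at hu
    have h1 : xg Q (D.simple i) 1 = 1 := β.injective (by rw [hu, map_one])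
    exact one_ne_zero (xG_eq_one Q (Q.C.simple_lt i i.2) (congrArg Subtype.val h1))
  rw [he, MulAut.mul_apply, hu', e0, dT_x] at hu
  have h6 := root_unique Q (r := si Q (π i) (π i).2) (s := si Q (π' i) (π' i).2) (Q.C.simple_ge _ (π i).2) hu0
    (congrArg Subtype.val hu).symm
  have h7 : D.simple (π' i) = D.simple (π i) := congrArg Fin.val h6
  rw [simple_node_inj Q h7]

lemma c_comm (β : MulAut ↥(D.group F)) (x : ↥(D.group F)) : β * c x = c (β x) * β := by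
  refine DFunLike.ext _ _ fun y => ?_
  show β (x * y * x⁻¹) = β x * β y * (β x)⁻¹
  rw [map_mul, map_mul, map_inv]

variable (Q) in
lemma ex_pi [Finite F] (hD : D ∈ [chevG2, chevB2, chevD4, chevF4, chevE6, chevE7, chevE8]) (θ : MulAut ↥(D.group F)) :
    ∃ π : Equiv.Perm (Fin D.rank), ∃ (x : ↥(D.group F)) (β : MulAut ↥(D.group F)), θ = c x * β ∧ NB Q β π := by
  obtain ⟨x, d, π, γ, σ, hγ, -, rfl⟩ := exists_decompN Q hD θ
  exact ⟨π, x, _, rfl, NB.of hγ σ⟩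

lemma pi_unique {θ : MulAut ↥(D.group F)} {π π' : Equiv.Perm (Fin D.rank)} {x x' : ↥(D.group F)} {β β' : MulAut ↥(D.group F)}
    (h : θ = c x * β) (hβ : NB Q β π) (h' : θ = c x' * β') (hβ' : NB Q β' π') : π = π' := by
  apply hβ.unique hβ' (x := x⁻¹ * x')
  rw [c_mul, c_inv, mul_assoc, ← h', h]; group

variable (Q) in
/-- the permutation of the nodes induced by an automorphism -/
noncomputable def piHom [Finite F] (hD : D ∈ [chevG2, chevB2, chevD4, chevF4, chevE6, chevE7, chevE8]) :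
    MulAut ↥(D.group F) →* Equiv.Perm (Fin D.rank) where
  toFun θ := (ex_pi Q hD θ).choose
  map_one' := by
    obtain ⟨x, β, h, hβ⟩ := (ex_pi Q hD 1).choose_spec
    exact pi_unique h hβ (x' := 1) (β' := 1) (by rw [c_one, one_mul]) NB.one
  map_mul' θ₁ θ₂ := by
    obtain ⟨x₁, β₁, h₁, hβ₁⟩ := (ex_pi Q hD θ₁).choose_spec
    obtain ⟨x₂, β₂, h₂, hβ₂⟩ := (ex_pi Q hD θ₂).choose_spec
    obtain ⟨x, β, h, hβ⟩ := (ex_pi Q hD (θ₁ * θ₂)).choose_spec
    refine pi_unique h hβ (x' := x₁ * β₁ x₂) (β' := β₁ * β₂) ?_ (hβ₁.mul hβ₂)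
    rw [c_mul]
    calc θ₁ * θ₂ = c x₁ * (β₁ * c x₂) * β₂ := by
          conv_lhs => rw [h₁, h₂]
          group
      _ = _ := by rw [c_comm]; group

lemma piHom_eq [Finite F] (hD : D ∈ [chevG2, chevB2, chevD4, chevF4, chevE6, chevE7, chevE8])
    {θ : MulAut ↥(D.group F)} {π : Equiv.Perm (Fin D.rank)} {x : ↥(D.group F)} {β : MulAut ↥(D.group F)}
    (h : θ = c x * β) (hβ : NB Q β π) : piHom Q hD θ = π := by
  obtain ⟨x', β', h', hβ'⟩ := (ex_pi Q hD θ).choose_spec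
  exact pi_unique h' hβ' h hβ

section out

variable (Q) [Finite F] (hD : D ∈ [chevG2, chevB2, chevD4, chevF4, chevE6, chevE7, chevE8])

lemma piHom_gr {π : Equiv.Perm (Fin D.rank)} {γ : MulAut ↥(D.group F)} (hγ : IsGrN Q π γ) : piHom Q hD γ = π := by
  apply piHom_eq hD (x := 1) (β := γ) (by rw [c_one, one_mul])
  have := NB.of (d := 1) hγ 1
  rwa [map_one, map_one, one_mul, mul_one] at this

lemma piHom_inn (x : ↥(D.group F)) : piHom Q hD (c x) = 1 :=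
  piHom_eq hD (x := x) (β := 1) (by rw [mul_one]) NB.one

lemma piHom_dT (d : Fin D.rank → Fˣ) : piHom Q hD (dT Q d) = 1 := by
  apply piHom_eq hD (x := 1) (β := dT Q d) (by rw [c_one, one_mul])
  have := NB.of (d := d) (isGrN_one Q) 1
  rwa [map_one, mul_one, mul_one] at this

lemma piHom_fT (σ : F ≃+* F) : piHom Q hD (fT Q σ) = 1 := by
  apply piHom_eq hD (x := 1) (β := fT Q σ) (by rw [c_one, one_mul])
  have := NB.of (d := 1) (isGrN_one Q) σ
  rwa [map_one, one_mul, one_mul] at this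

/-- kernel of `piHom` -/
lemma mem_ker_pi {θ : MulAut ↥(D.group F)} (h : piHom Q hD θ = 1) : ∃ (x : ↥(D.group F)) (d : Fin D.rank → Fˣ) (σ : F ≃+* F),
    θ = c x * (dT Q d * fT Q σ) := by
  obtain ⟨x, d, π, γ, σ, hγ, -, e⟩ := exists_decompN Q hD θ
  have h1 := piHom_eq hD e (NB.of hγ σ)
  rw [h] at h1
  subst h1
  have h2 : γ = 1 := IsGr.unique Q hγ.toIsGr (isGrN_one Q).toIsGr
  subst h2
  exact ⟨x, d, σ, by rw [e, mul_one]⟩

lemma piHom_info (θ : MulAut ↥(D.group F)) : D.IsDiagramSymmetry (piHom Q hD θ) ∧ PiInfo D F (piHom Q hD θ) := by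
  obtain ⟨x, d, π, γ, σ, hγ, hinfo, e⟩ := exists_decompN Q hD θ
  rw [piHom_eq hD e (NB.of hγ σ)]
  exact ⟨hγ.sym, hinfo⟩

/-- diagonal automorphisms -/
lemma closure_diag : Subgroup.closure {φ : MulAut ↥(D.group F) | D.IsDiagonalAut φ} = (dT Q).range := by
  apply le_antisymm
  · rw [Subgroup.closure_le]
    rintro φ ⟨χ, hχ, h⟩
    have hχ' := isChar_of_root Q.C hχ
    refine ⟨fun i => χ (D.simple i), ?_⟩
    rw [← dAut_eq_dT Q hχ']
    refine DFunLike.ext _ _ fun y => Subtype.ext (Units.ext ?_)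
    rw [h y, dAut_coe, dG_inv]
    rfl
  · rintro _ ⟨d, rfl⟩
    exact Subgroup.subset_closure (dAut_isDiagonal Q (isChar_chS Q.C (exT d)))

omit [Finite F] in
/-- field automorphisms -/
lemma closure_field : Subgroup.closure {φ : MulAut ↥(D.group F) | D.IsFieldAut φ} = (fT Q).range := by
  apply le_antisymm
  · rw [Subgroup.closure_le]
    rintro φ ⟨σ, h⟩
    refine ⟨σ, ?_⟩
    show fAut Q σ = φ
    apply aut_ext Q
    · intro i t
      rw [fAut_xg]
      exact (Subtype.ext (Units.ext (h (xg Q (D.simple i) t) (D.simple i) t (Q.C.simple_lt i i.2) rfl))).symm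
    · intro i t
      rw [fAut_xg]
      exact (Subtype.ext (Units.ext (h (xg Q (D.nroots - 1 - D.simple i) t) (D.nroots - 1 - D.simple i) t
        (neg_lt (Q.C.simple_lt i i.2)) rfl))).symm
  · rintro _ ⟨σ, rfl⟩
    exact Subgroup.subset_closure (fAut_isField Q σ)

omit [Finite F] in
lemma gr_dT {π : Equiv.Perm (Fin D.rank)} {γ : MulAut ↥(D.group F)} (hγ : IsGr Q π γ) (d : Fin D.rank → Fˣ) :
    γ * dT Q d = dT Q (fun j => d (π.symm j) ^ D.graphExp (ringChar F) (π.symm j) j) * γ := by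
  apply aut_ext Q
  · intro i t
    rw [MulAut.mul_apply, MulAut.mul_apply, dT_x, hγ.x, hγ.x, dT_x]
    simp only [Equiv.symm_apply_apply]
    rw [Units.val_pow_eq_pow_val, mul_pow]
  · intro i t
    rw [MulAut.mul_apply, MulAut.mul_apply, dT_x', hγ.x', hγ.x', dT_x']
    simp only [Equiv.symm_apply_apply]
    rw [mul_pow, ← inv_pow, Units.val_pow_eq_pow_val]

omit [Finite F] in
lemma f_dT (σ : F ≃+* F) (d : Fin D.rank → Fˣ) : fT Q σ * dT Q d = dT Q (fun j => Units.map σ.toMonoidHom (d j)) * fT Q σ := by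
  have hf : ∀ r t, fT Q σ (xg Q r t) = xg Q r (σ t) := fun r t => fAut_xg Q σ r t
  apply aut_ext Q
  · intro i t
    rw [MulAut.mul_apply, MulAut.mul_apply, dT_x, hf, hf, dT_x, map_mul]
    rfl
  · intro i t
    rw [MulAut.mul_apply, MulAut.mul_apply, dT_x', hf, hf, dT_x', map_mul]
    congr 2

omit [Finite F] in
/-- conjugates of diagonal automorphisms by normalized ones -/
lemma conj_dT {π : Equiv.Perm (Fin D.rank)} {γ : MulAut ↥(D.group F)} (hγ : IsGr Q π γ) (e d : Fin D.rank → Fˣ) (σ : F ≃+* F) :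
    ∃ d', (dT Q e * γ * fT Q σ) * dT Q d * (dT Q e * γ * fT Q σ)⁻¹ = dT Q d' := by
  obtain ⟨d₁, h₁⟩ : ∃ d₁, fT Q σ * dT Q d = dT Q d₁ * fT Q σ := ⟨_, f_dT Q σ d⟩
  obtain ⟨d₂, h₂⟩ : ∃ d₂, γ * dT Q d₁ = dT Q d₂ * γ := ⟨_, gr_dT Q hγ d₁⟩
  refine ⟨e * d₂ * e⁻¹, ?_⟩
  calc (dT Q e * γ * fT Q σ) * dT Q d * (dT Q e * γ * fT Q σ)⁻¹
      = dT Q e * γ * (fT Q σ * dT Q d) * (dT Q e * γ * fT Q σ)⁻¹ := by group
    _ = dT Q e * (γ * dT Q d₁) * fT Q σ * (dT Q e * γ * fT Q σ)⁻¹ := by rw [h₁]; group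
    _ = dT Q e * dT Q d₂ * (dT Q e)⁻¹ := by rw [h₂]; group
    _ = _ := by rw [← map_inv, ← map_mul, ← map_mul]

end out

end Cfsg.Agent.Lib.ChevAlg
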