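import Cfsg.Agent.Lib.ChevOutC

/-!
# The structure of the outer automorphism group
-/

set_option autoImplicit false

namespace Cfsg.Agent.Lib.ChevAlg

open Cfsg.Lie Cfsg.Agent.Lib.ChevTab Matrix Pointwise Cfsg.Agent.H8.AutBN
open scoped commutatorElement

section out

variable {D : ChevalleyDatum} {F : Type*} [Field F] (Q : ChevO D F) [Finite F]
  (hD : D ∈ [chevG2, chevB2, chevD4, chevF4, chevE6, chevE7, chevE8])

include hD in
/-- the diagonal outer automorphisms are normal -/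
theorem dbar_normal : ((dT Q).range.map (QuotientGroup.mk' (Cfsg.Inn ↥(D.group F)))).Normal := by
  constructor
  rintro _ ⟨_, ⟨d, rfl⟩, rfl⟩ g
  obtain ⟨θ, rfl⟩ := QuotientGroup.mk'_surjective _ g
  obtain ⟨x, e, π, γ, σ, hγ, -, rfl⟩ := exists_decompN Q hD θ
  obtain ⟨d', hd'⟩ := conj_dT Q hγ.toIsGr e d σ
  refine ⟨dT Q d', ⟨d', rfl⟩, ?_⟩
  rw [← hd']
  have hx : QuotientGroup.mk' (Cfsg.Inn ↥(D.group F)) (c x) = 1 := (QuotientGroup.eq_one_iff _).2 ⟨x, rfl⟩
  simp only [map_mul, map_inv, hx, one_mul]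

omit [Finite F] in
theorem dbar_comm : IsMulCommutative ↥((dT Q).range.map (QuotientGroup.mk' (Cfsg.Inn ↥(D.group F)))) := by
  refine ⟨⟨?_⟩⟩
  rintro ⟨_, ⟨_, ⟨d, rfl⟩, rfl⟩⟩ ⟨_, ⟨_, ⟨d', rfl⟩, rfl⟩⟩
  apply Subtype.ext
  show QuotientGroup.mk' _ _ * QuotientGroup.mk' _ _ = QuotientGroup.mk' _ _ * QuotientGroup.mk' _ _
  rw [← map_mul, ← map_mul, ← map_mul, ← map_mul, mul_comm]

lemma isCyclic_ringAut (F : Type*) [Field F] [Finite F] : IsCyclic (F ≃+* F) := by
  obtain ⟨p, hp⟩ := CharP.exists F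
  have : Fact p.Prime := ⟨(CharP.char_is_prime_or_zero F p).resolve_right (CharP.char_ne_zero_of_finite F p)⟩
  letI : Algebra (ZMod p) F := ZMod.algebra F p
  have hc : IsCyclic (F ≃ₐ[ZMod p] F) := inferInstance
  let f : (F ≃ₐ[ZMod p] F) →* (F ≃+* F) :=
    { toFun := fun τ => τ.toRingEquiv
      map_one' := rfl
      map_mul' := fun _ _ => rfl }
  apply isCyclic_of_surjective f
  intro σ
  refine ⟨AlgEquiv.ofRingEquiv (f := σ) ?_, ?_⟩
  · intro r
    have : (σ : F →+* F).comp (algebraMap (ZMod p) F) = algebraMap (ZMod p) F := RingHom.ext_zmod _ _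
    exact DFunLike.congr_fun this r
  · ext; rfl

theorem fbar_cyclic : IsCyclic ↥((fT Q).range.map (QuotientGroup.mk' (Cfsg.Inn ↥(D.group F)))) := by
  have h1 : IsCyclic (F ≃+* F) := isCyclic_ringAut F
  have h2 : IsCyclic ↥(fT Q).range := isCyclic_of_surjective _ (fT Q).rangeRestrict_surjective
  let g : ↥(fT Q).range →* ↥((fT Q).range.map (QuotientGroup.mk' (Cfsg.Inn ↥(D.group F)))) :=
    (QuotientGroup.mk' (Cfsg.Inn ↥(D.group F))).subgroupMap _
  exact isCyclic_of_surjective g ((QuotientGroup.mk' (Cfsg.Inn ↥(D.group F))).subgroupMap_surjective _)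

theorem sup_eq : (dT Q).range.map (QuotientGroup.mk' (Cfsg.Inn ↥(D.group F))) ⊔ (fT Q).range.map (QuotientGroup.mk' (Cfsg.Inn ↥(D.group F)))
    = (piHom Q hD).ker.map (QuotientGroup.mk' (Cfsg.Inn ↥(D.group F))) := by
  apply le_antisymm
  · apply sup_le
    · apply Subgroup.map_mono
      rintro _ ⟨d, rfl⟩
      exact piHom_dT Q hD d
    · apply Subgroup.map_mono
      rintro _ ⟨d, rfl⟩
      exact piHom_fT Q hD d
  · rintro _ ⟨θ, hθ, rfl⟩
    obtain ⟨x, d, σ, rfl⟩ := mem_ker_pi Q hD hθ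
    have hx : QuotientGroup.mk' (Cfsg.Inn ↥(D.group F)) (c x) = 1 := (QuotientGroup.eq_one_iff _).2 ⟨x, rfl⟩
    rw [map_mul, hx, one_mul, map_mul]
    exact Subgroup.mul_mem_sup (Subgroup.mem_map_of_mem _ ⟨d, rfl⟩) (Subgroup.mem_map_of_mem _ ⟨σ, rfl⟩)

theorem inn_le_ker : Cfsg.Inn ↥(D.group F) ≤ (piHom Q hD).ker := by
  rintro _ ⟨x, rfl⟩
  exact piHom_inn Q hD x

theorem index_eq : ((piHom Q hD).ker.map (QuotientGroup.mk' (Cfsg.Inn ↥(D.group F)))).index = Nat.card ↥(piHom Q hD).range := by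
  rw [Subgroup.index_map_eq _ (QuotientGroup.mk'_surjective _) (by rw [QuotientGroup.ker_mk']; exact inn_le_ker Q hD)]
  exact Subgroup.index_ker _

theorem not_comm {γ γ' : MulAut ↥(D.group F)} (h : piHom Q hD γ * piHom Q hD γ' ≠ piHom Q hD γ' * piHom Q hD γ) :
    ¬ commutator (Cfsg.Out ↥(D.group F)) ≤ (piHom Q hD).ker.map (QuotientGroup.mk' (Cfsg.Inn ↥(D.group F))) := by
  intro hc
  have h1 : QuotientGroup.mk' (Cfsg.Inn ↥(D.group F)) ⁅γ, γ'⁆ ∈ commutator (Cfsg.Out ↥(D.group F)) := by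
    rw [map_commutatorElement, commutator_def]
    exact Subgroup.commutator_mem_commutator (Subgroup.mem_top _) (Subgroup.mem_top _)
  obtain ⟨θ, hθ, e⟩ := hc h1
  have h2 : θ⁻¹ * ⁅γ, γ'⁆ ∈ Cfsg.Inn ↥(D.group F) := QuotientGroup.eq.1 e
  have h3 : ⁅γ, γ'⁆ ∈ (piHom Q hD).ker := by
    have := Subgroup.mul_mem _ hθ (inn_le_ker Q hD h2)
    rwa [mul_inv_cancel_left] at this
  rw [MonoidHom.mem_ker, map_commutatorElement, commutatorElement_eq_one_iff_mul_comm] at h3
  exact h h3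

end out

section d4

variable {F : Type*} [Field F]

/-- a swap -/
def swD (j : Fin chevD4.rank) : Equiv.Perm (Fin chevD4.rank) := Equiv.swap (0 : Fin 4) j

theorem grD4c (Q : ChevO chevD4 F) : ∃ γ, IsGrN Q (swD (2 : Fin 4)) γ := by
  obtain ⟨γ, hγ⟩ := auto_D4c Q
  refine ⟨γ, isGrN_of Q gD4c_ok (perf_one (by decide +kernel)) hγ ?_ ?_ ?_ ?_⟩
  · have : ∀ i j : Fin chevD4.rank, i ≠ j → chevD4.bonds (swD (2 : Fin 4) i) (swD (2 : Fin 4) j) = chevD4.bonds i j := by decide +kernel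
    exact this
  · decide +kernel
  · decide +kernel
  · intro i
    rw [simD4.graphExp_eq]
    revert i
    decide +kernel

theorem grD4d (Q : ChevO chevD4 F) : ∃ γ, IsGrN Q (swD (3 : Fin 4)) γ := by
  obtain ⟨γ, hγ⟩ := auto_D4d Q
  refine ⟨γ, isGrN_of Q gD4d_ok (perf_one (by decide +kernel)) hγ ?_ ?_ ?_ ?_⟩
  · have : ∀ i j : Fin chevD4.rank, i ≠ j → chevD4.bonds (swD (3 : Fin 4) i) (swD (3 : Fin 4) j) = chevD4.bonds i j := by decide +kernel
    exact this
  · decide +kernel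
  · decide +kernel
  · intro i
    rw [simD4.graphExp_eq]
    revert i
    decide +kernel

lemma sym_D4 {π : Equiv.Perm (Fin 4)} (h : chevD4.IsDiagramSymmetry π) : π 1 = 1 := by
  have key : ∀ π : Equiv.Perm (Fin 4), (∀ i j : Fin 4, i ≠ j → chevD4.bonds (π i) (π j) = chevD4.bonds i j) → π 1 = 1 := by
    decide +kernel
  exact key π (fun i j hij => h i j hij)

theorem range_D4 [Finite F] (Q : ChevO chevD4 F) (hD : chevD4 ∈ [chevG2, chevB2, chevD4, chevF4, chevE6, chevE7, chevE8]) :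
    Nat.card ↥(piHom Q hD).range = 6 := by
  have h1 : Nat.card ↥(piHom Q hD).range = Nat.card {π : Equiv.Perm (Fin 4) // π 1 = 1} := by
    apply Nat.card_congr
    refine Equiv.subtypeEquivRight fun π => ?_
    constructor
    · rintro ⟨θ, rfl⟩
      exact sym_D4 (piHom_info Q hD θ).1
    · intro h
      obtain ⟨γ, hγ⟩ := grD4c Q
      obtain ⟨γ', hγ'⟩ := grD4d Q
      have e1 := piHom_gr Q hD hγ
      have e2 := piHom_gr Q hD hγ'
      have key : ∀ π : Equiv.Perm (Fin 4), π 1 = 1 → π = 1 ∨ π = Equiv.swap 0 2 ∨ π = Equiv.swap 0 3 ∨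
          π = Equiv.swap 0 2 * Equiv.swap 0 3 ∨ π = Equiv.swap 0 3 * Equiv.swap 0 2 ∨
          π = Equiv.swap 0 2 * Equiv.swap 0 3 * Equiv.swap 0 2 := by decide +kernel
      rcases key π h with h | h | h | h | h | h
      · exact ⟨1, by rw [map_one]; exact h.symm⟩
      · exact ⟨γ, by rw [e1]; exact h.symm⟩
      · exact ⟨γ', by rw [e2]; exact h.symm⟩
      · exact ⟨γ * γ', by rw [map_mul, e1, e2]; exact h.symm⟩
      · exact ⟨γ' * γ, by rw [map_mul, e1, e2]; exact h.symm⟩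
      · exact ⟨γ * γ' * γ, by rw [map_mul, map_mul, e1, e2]; exact h.symm⟩
  rw [h1, Nat.card_eq_fintype_card]
  decide +kernel

end d4

/-- **Structure of `Out`** -/
theorem out_structure {D : ChevalleyDatum} {F : Type*} [Field F] [Finite F] (Q : ChevO D F)
    (hD : D ∈ [chevG2, chevB2, chevD4, chevF4, chevE6, chevE7, chevE8]) (Dbar Fbar : Subgroup (Cfsg.Out ↥(D.group F)))
    (hDbar : Dbar = (Subgroup.closure {φ : MulAut ↥(D.group F) | D.IsDiagonalAut φ}).map (QuotientGroup.mk' (Cfsg.Inn ↥(D.group F))))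
    (hFbar : Fbar = (Subgroup.closure {φ : MulAut ↥(D.group F) | D.IsFieldAut φ}).map (QuotientGroup.mk' (Cfsg.Inn ↥(D.group F)))) :
    Dbar.Normal ∧ IsMulCommutative ↥Dbar ∧ IsCyclic ↥Fbar ∧ (Dbar ⊔ Fbar).Normal ∧
      ((Dbar ⊔ Fbar).index = 1 ∨ (Dbar ⊔ Fbar).index = 2 ∨
        ((Dbar ⊔ Fbar).index = 6 ∧ ¬ commutator (Cfsg.Out ↥(D.group F)) ≤ Dbar ⊔ Fbar)) := by
  rw [closure_diag Q] at hDbar
  rw [closure_field Q] at hFbar
  subst hDbar hFbar
  refine ⟨dbar_normal Q hD, dbar_comm Q, fbar_cyclic Q, ?_, ?_⟩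
  · rw [sup_eq Q hD]
    exact Subgroup.Normal.map inferInstance _ (QuotientGroup.mk'_surjective _)
  · rw [sup_eq Q hD, index_eq Q hD]
    have two : ∀ π₀ : Equiv.Perm (Fin D.rank), (∀ θ, piHom Q hD θ = 1 ∨ piHom Q hD θ = π₀) →
        Nat.card ↥(piHom Q hD).range = 1 ∨ Nat.card ↥(piHom Q hD).range = 2 := by
      intro π₀ h
      by_cases hπ : ∃ θ, piHom Q hD θ = π₀ ∧ π₀ ≠ 1
      · right
        obtain ⟨θ, hθ, hne⟩ := hπ
        rw [Nat.card_eq_two_iff]
        refine ⟨1, ⟨π₀, θ, hθ⟩, fun e => hne (congrArg Subtype.val e).symm, ?_⟩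
        ext ⟨π, θ', hθ'⟩
        simp only [Set.mem_insert_iff, Set.mem_singleton_iff, Set.mem_univ, iff_true]
        rcases h θ' with h | h
        · exact Or.inl (Subtype.ext (hθ'.symm.trans h))
        · exact Or.inr (Subtype.ext (hθ'.symm.trans h))
      · left
        rw [Nat.card_eq_one_iff_unique]
        refine ⟨⟨?_⟩, ⟨1⟩⟩
        have hall : ∀ x : ↥(piHom Q hD).range, x = 1 := by
          rintro ⟨π, θ', hθ'⟩
          apply Subtype.ext
          show π = 1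
          rcases h θ' with h | h
          · exact hθ'.symm.trans h
          · by_contra hne
            exact hπ ⟨θ', h, fun e => hne (hθ'.symm.trans (h.trans e))⟩
        intro x y
        rw [hall x, hall y]
    by_cases hD4 : D = chevD4
    · subst hD4
      right; right
      refine ⟨range_D4 Q hD, ?_⟩
      obtain ⟨γ, hγ⟩ := grD4c Q
      obtain ⟨γ', hγ'⟩ := grD4d Q
      apply not_comm Q hD (γ := γ) (γ' := γ')
      rw [piHom_gr Q hD hγ, piHom_gr Q hD hγ']
      decide +kernel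
    · have h2 : Nat.card ↥(piHom Q hD).range = 1 ∨ Nat.card ↥(piHom Q hD).range = 2 := by
        by_cases hE6 : D = chevE6
        · subst hE6
          exact two flipE6 fun θ => symE6 (piHom_info Q hD θ).1
        · refine two Fin.revPerm fun θ => ?_
          rcases (piHom_info Q hD θ).2 with h | h | h | ⟨h, -⟩
          · exact Or.inl (Equiv.ext h)
          · exact absurd h hD4
          · exact absurd h hE6
          · exact Or.inr (rev_of h)
      rcases h2 with h2 | h2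
      · exact Or.inl h2
      · exact Or.inr (Or.inl h2)

end Cfsg.Agent.Lib.ChevAlg
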