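import Cfsg.Agent.Lib.ChevAutN

/-!
# Steinberg families: abstract groups with root elements satisfying (R1) and (R2)
-/

set_option autoImplicit false

namespace Cfsg.Agent.Lib.ChevAlg

open Cfsg.Lie Cfsg.Agent.Lib.ChevTab Matrix

variable {D : ChevalleyDatum} {F : Type*} [Field F] (Q : ChevO D F)

/-- word in an abstract family -/
def wM {M : Type*} [Group M] (X : ℕ → F → M) (w : List (ℕ × F)) : M := (w.map fun p => X p.1 p.2).prod

/-- a family of root elements in an abstract group satisfying Steinberg's relations (R1), (R2), with a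
homomorphism to the Chevalley group -/
structure StF {M : Type*} [Group M] (X : ℕ → F → M) (θ : M →* GL D.Idx F) : Prop where
  add : ∀ r < D.nroots, ∀ t u : F, X r t * X r u = X r (t + u)
  comm : ∀ r < D.nroots, ∀ s < D.nroots, s ≠ r → s ≠ D.nroots - 1 - r → ∀ t u : F,
    X s u * X r t = X r t * X s u * wM X (D.commWord F r s t u)
  map : ∀ r < D.nroots, ∀ t : F, θ (X r t) = xG Q r t

section

variable {M : Type*} [Group M] (X : ℕ → F → M)

/-- subgroup generated by the root subgroups of a set of roots -/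
def YS (Ψ : Set ℕ) : Subgroup M := Subgroup.closure {g | ∃ r ∈ Ψ, ∃ t : F, g = X r t}

variable {X}

omit [Field F] in
lemma YS_mem {Ψ : Set ℕ} {r : ℕ} (hr : r ∈ Ψ) (t : F) : X r t ∈ YS X Ψ := Subgroup.subset_closure ⟨r, hr, t, rfl⟩

omit [Field F] in
lemma YS_mono {Ψ Ψ' : Set ℕ} (h : Ψ ⊆ Ψ') : YS X Ψ ≤ YS X Ψ' := by
  apply Subgroup.closure_mono
  rintro _ ⟨r, hr, t, rfl⟩
  exact ⟨r, h hr, t, rfl⟩

omit [Field F] in
lemma YS_le {Ψ : Set ℕ} {K : Subgroup M} : YS X Ψ ≤ K ↔ ∀ r ∈ Ψ, ∀ t : F, X r t ∈ K := by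
  rw [YS, Subgroup.closure_le]
  constructor
  · intro h r hr t
    exact h ⟨r, hr, t, rfl⟩
  · rintro h _ ⟨r, hr, t, rfl⟩
    exact h r hr t

lemma conj_YS_le {Ψ : Set ℕ} {K : Subgroup M} {g : M} (h : ∀ r ∈ Ψ, ∀ t : F, g * X r t * g⁻¹ ∈ K) {k : M}
    (hk : k ∈ YS X Ψ) : g * k * g⁻¹ ∈ K := by
  have : YS X Ψ ≤ K.comap (MulAut.conj g).toMonoidHom := by
    rw [YS_le]
    intro r hr t
    exact h r hr t
  exact this hk

lemma wM_mem {w : List (ℕ × F)} {Ψ : Set ℕ} (h : ∀ p ∈ w, p.1 ∈ Ψ) : wM X w ∈ YS X Ψ := by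
  apply Subgroup.list_prod_mem
  intro y hy
  rw [List.mem_map] at hy
  obtain ⟨p, hp, rfl⟩ := hy
  exact YS_mem (h p hp) _

variable {Q} {θ : M →* GL D.Idx F} (hX : StF Q X θ)

include hX in
lemma StF.zero {r : ℕ} (hr : r < D.nroots) : X r 0 = 1 := by
  have := hX.add r hr 0 0
  rw [add_zero] at this
  exact mul_eq_left.1 this

include hX in
lemma StF.inv {r : ℕ} (hr : r < D.nroots) (t : F) : (X r t)⁻¹ = X r (-t) := by
  rw [inv_eq_iff_mul_eq_one, hX.add r hr, add_neg_cancel, hX.zero hr]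

include hX in
lemma StF.comm_exists {r s : ℕ} (hr : r < D.nroots) (hs : s < D.nroots) (hne : s ≠ D.nroots - 1 - r) (t u : F) :
    ∃ y ∈ YS X (Comb Q.C r s), X s u * X r t = X r t * X s u * y := by
  by_cases hrs : s = r
  · subst hrs
    exact ⟨1, Subgroup.one_mem _, by rw [mul_one, hX.add s hs, hX.add s hs, add_comm]⟩
  · refine ⟨wM X (D.commWord F r s t u), wM_mem ?_, hX.comm r hr s hs hrs hne t u⟩
    intro p hp
    rw [ChevalleyDatum.commWord, List.mem_map] at hp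
    obtain ⟨c, hc, rfl⟩ := hp
    exact commTerms_mem hr hs c hc

include hX in
lemma StF.conj_mem {r s : ℕ} (hr : r < D.nroots) (hs : s < D.nroots) (hne : s ≠ D.nroots - 1 - r) {Ψ : Set ℕ}
    (h1 : s ∈ Ψ) (h2 : Comb Q.C r s ⊆ Ψ) (t u : F) : X r t * X s u * (X r t)⁻¹ ∈ YS X Ψ := by
  obtain ⟨y, hy, e⟩ := hX.comm_exists hr hs hne (-t) u
  have e2 : X r t * X s u * (X r t)⁻¹ = X s u * y := by
    rw [hX.inv hr, mul_assoc, e, ← mul_assoc, ← mul_assoc, hX.add r hr, add_neg_cancel, hX.zero hr, one_mul]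
  rw [e2]
  exact Subgroup.mul_mem _ (YS_mem h1 u) (YS_mono h2 hy)

include hX in
/-- `YS Ψ` normalises `YS Ψ'` -/
lemma StF.normalizes {Ψ Ψ' : Set ℕ} (hlt : ∀ r ∈ Ψ, r < D.nroots) (hlt' : ∀ r ∈ Ψ', r < D.nroots)
    (hno : NoOpp D Ψ Ψ') (h : ∀ r ∈ Ψ, ∀ s ∈ Ψ', Comb Q.C r s ⊆ Ψ') :
    YS X Ψ ≤ Subgroup.normalizer (YS X Ψ' : Set M) := by
  apply le_normalizer_of (S := {g | ∃ r ∈ Ψ, ∃ t : F, g = X r t}) le_rfl
  · rintro _ ⟨r, hr, t, rfl⟩ k hk
    exact conj_YS_le (fun s hs u => hX.conj_mem (hlt r hr) (hlt' s hs) (hno r hr s hs) hs (h r hr s hs) t u) hk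
  · rintro _ ⟨r, hr, t, rfl⟩ k hk
    have e : (X r t)⁻¹ * k * X r t = X r (-t) * k * (X r (-t))⁻¹ := by
      rw [hX.inv (hlt r hr), hX.inv (hlt r hr), neg_neg]
    rw [e]
    exact conj_YS_le (fun s hs u => hX.conj_mem (hlt r hr) (hlt' s hs) (hno r hr s hs) hs (h r hr s hs) (-t) u) hk

/-- good lists of roots -/
def GoodL (Q : ChevO D F) : List ℕ → Prop
  | [] => True
  | k :: L => GoodL Q L ∧ k < D.nroots ∧ (∀ r ∈ L, r < D.nroots ∧ r ≠ D.nroots - 1 - k ∧ ∀ m ∈ Comb Q.C k r, m ∈ L) ∧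
      ∀ t : F, xG Q k t ∈ XS Q {r | r ∈ L} → t = 0

lemma YS_cons (k : ℕ) (L : List ℕ) : YS X {r | r ∈ k :: L} = YS X {k} ⊔ YS X {r | r ∈ L} := by
  apply le_antisymm
  · rw [YS_le]
    intro r hr t
    rcases List.mem_cons.1 hr with rfl | hr
    · exact Subgroup.mem_sup_left (YS_mem (Set.mem_singleton _) t)
    · exact Subgroup.mem_sup_right (YS_mem hr t)
  · apply sup_le
    · apply YS_mono
      rintro _ rfl
      exact List.mem_cons_self
    · apply YS_mono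
      intro r hr
      exact List.mem_cons_of_mem _ hr

include hX in
lemma StF.mem_single {k : ℕ} (hk : k < D.nroots) {g : M} (hg : g ∈ YS X {k}) : ∃ t : F, g = X k t := by
  refine Subgroup.closure_induction (p := fun g _ => ∃ t : F, g = X k t) ?_ ⟨0, (hX.zero hk).symm⟩ ?_ ?_ hg
  · rintro _ ⟨r, hr, t, rfl⟩
    rw [Set.mem_singleton_iff] at hr
    exact ⟨t, by rw [hr]⟩
  · rintro x y _ _ ⟨t, rfl⟩ ⟨u, rfl⟩
    exact ⟨t + u, hX.add k hk t u⟩
  · rintro x _ ⟨t, rfl⟩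
    exact ⟨-t, hX.inv hk t⟩

include hX in
lemma StF.map_YS {Ψ : Set ℕ} (hΨ : ∀ r ∈ Ψ, r < D.nroots) {y : M} (hy : y ∈ YS X Ψ) : θ y ∈ XS Q Ψ := by
  have : YS X Ψ ≤ (XS Q Ψ).comap θ := by
    rw [YS_le]
    intro r hr t
    rw [Subgroup.mem_comap, hX.map r (hΨ r hr)]
    exact xG_mem Q hr t
  exact this hy

include hX in
/-- decomposition for a good list -/
lemma StF.good_decomp {k : ℕ} {L : List ℕ} (h : GoodL Q (k :: L)) {g : M} (hg : g ∈ YS X {r | r ∈ k :: L}) :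
    ∃ t : F, ∃ y ∈ YS X {r | r ∈ L}, g = X k t * y := by
  obtain ⟨-, hk, hL, -⟩ := h
  have hn : YS X {k} ≤ Subgroup.normalizer (YS X {r | r ∈ L} : Set M) := by
    apply hX.normalizes
    · rintro _ rfl; exact hk
    · intro r hr; exact (hL r hr).1
    · rintro _ rfl s hs
      exact (hL s hs).2.1
    · rintro _ rfl s hs m hm
      exact (hL s hs).2.2 m hm
  rw [YS_cons, mem_sup_iff_mul hn] at hg
  obtain ⟨a, ha, b, hb, rfl⟩ := hg
  obtain ⟨t, rfl⟩ := hX.mem_single hk ha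
  exact ⟨t, b, hb, rfl⟩

include hX in
/-- injectivity on good lists -/
theorem StF.inj_good : ∀ L : List ℕ, GoodL Q L → ∀ g ∈ YS X {r | r ∈ L}, θ g = 1 → g = 1
  | [], _, g, hg, _ => by
    have : YS X {r : ℕ | r ∈ ([] : List ℕ)} = ⊥ := by
      rw [eq_bot_iff, YS_le]
      intro r hr
      exact absurd hr List.not_mem_nil
    rw [this, Subgroup.mem_bot] at hg
    exact hg
  | k :: L, h, g, hg, hg1 => by
    obtain ⟨t, y, hy, rfl⟩ := hX.good_decomp h hg
    obtain ⟨h1, hk, h2, h3⟩ := h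
    rw [map_mul, hX.map k hk] at hg1
    have hy' : θ y ∈ XS Q {r | r ∈ L} := hX.map_YS (fun r hr => (h2 r hr).1) hy
    have ht : t = 0 := by
      apply h3
      have : xG Q k t = (θ y)⁻¹ := mul_eq_one_iff_eq_inv.1 hg1
      rw [this]
      exact Subgroup.inv_mem _ hy'
    subst ht
    rw [xG_zero, one_mul] at hg1
    rw [hX.zero hk, one_mul]
    exact StF.inj_good L h1 y hy hg1

end

/-- a positive system -/
def PosW (w : Equiv.Perm (Fin D.nroots)) : Set ℕ := {r | ∃ s : Fin D.nroots, ps s ∧ r = (w s : ℕ)}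

lemma posW_lt {w : Equiv.Perm (Fin D.nroots)} {r : ℕ} (h : r ∈ PosW w) : r < D.nroots := by
  obtain ⟨s, -, rfl⟩ := h
  exact (w s).2

lemma mem_posW {w : Equiv.Perm (Fin D.nroots)} {s : Fin D.nroots} : (s : ℕ) ∈ PosW w ↔ ps (w⁻¹ s) := by
  constructor
  · rintro ⟨k, hk, e⟩
    have : s = w k := Fin.ext e
    rw [this, perm_inv_apply]
    exact hk
  · intro h
    exact ⟨w⁻¹ s, h, by rw [perm_apply_inv]⟩

include Q in
lemma posW_not_neg {w : Equiv.Perm (Fin D.nroots)} (hw : WAut Q.C w) {s : Fin D.nroots} (h : (s : ℕ) ∈ PosW w) :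
    ((Fin.rev s : Fin D.nroots) : ℕ) ∉ PosW w := by
  rw [mem_posW] at h ⊢
  rw [hw.inv.rev, ps_rev Q]
  exact not_not.2 h

/-- transport of the ordering -/
lemma good_map {w : Equiv.Perm (Fin D.nroots)} (hw : WAut Q.C w) {n : GL D.Idx F} {v : Fin D.nroots → Fˣ}
    (hm : Mono Q n w v) : ∀ L : List (Fin D.nroots), List.Pairwise (· < ·) L → (∀ r ∈ L, (r : ℕ) ∈ Pos D) →
      (∀ r ∈ L, ∀ s ∈ L, ∀ m : Fin D.nroots, (m : ℕ) ∈ Comb Q.C r s → m ∈ L) → GoodL Q (L.map fun s => (w s : ℕ))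
  | [], _, _, _ => trivial
  | k :: L, hs, hp, hc => by
    rw [List.map_cons]
    have hp' : ∀ r ∈ L, (r : ℕ) ∈ Pos D := fun r hr => hp r (List.mem_cons_of_mem _ hr)
    have hkp := hp k List.mem_cons_self
    rw [List.pairwise_cons] at hs
    have hc' : ∀ r ∈ k :: L, ∀ s ∈ L, ∀ m : Fin D.nroots, (m : ℕ) ∈ Comb Q.C r s → m ∈ L := by
      intro r hr s hs' m hm'
      have h1 := hc r hr s (List.mem_cons_of_mem _ hs') m hm'
      rcases List.mem_cons.1 h1 with rfl | h1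
      · exfalso
        have h2 := comb_gt Q.O (hp r hr) (hp' s hs') hm'
        have h3 := hs.1 s hs'
        have h4 : (s : ℕ) < m := h2.2.1
        have h5 : (m : ℕ) < s := h3
        omega
      · exact h1
    refine ⟨good_map hw hm L hs.2 hp' (fun r hr => hc' r (List.mem_cons_of_mem _ hr)), (w k).2, ?_, ?_⟩
    · intro r hr
      rw [List.mem_map] at hr
      obtain ⟨s, hs', rfl⟩ := hr
      refine ⟨(w s).2, ?_, ?_⟩
      · intro h
        have h1 : w s = Fin.rev (w k) := Fin.ext (h.trans (fin_rev_val _).symm)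
        rw [← hw.rev] at h1
        have h2 := w.injective h1
        have h3 := (hp' s hs').1
        have h4 : ps s := h3
        rw [h2, ps_rev Q] at h4
        exact h4 hkp.1
      · intro m hm'
        have hmlt : m < D.nroots := hm'.1
        have h1 : ((w⁻¹ ⟨m, hmlt⟩ : Fin D.nroots) : ℕ) ∈ Comb Q.C (w⁻¹ (w k) : Fin D.nroots) (w⁻¹ (w s) : Fin D.nroots) :=
          comb_waut hw.inv (k := ⟨m, hmlt⟩) hm'
        rw [perm_inv_apply, perm_inv_apply] at h1
        rw [List.mem_map]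
        exact ⟨w⁻¹ ⟨m, hmlt⟩, hc' k List.mem_cons_self s hs' _ h1, by rw [perm_apply_inv]⟩
    · intro t ht
      have h1 : n⁻¹ * xG Q (w k) t * n⁻¹⁻¹ ∈ XS Q {r | r ∈ L.map fun s : Fin D.nroots => (s : ℕ)} := by
        apply conj_XS_le Q _ ht
        intro r hr u
        obtain ⟨s, hs', rfl⟩ := List.mem_map.1 hr
        rw [hm.inv.conj, perm_inv_apply]
        exact xG_mem Q (List.mem_map.2 ⟨s, hs', rfl⟩) _
      rw [hm.inv.conj, perm_inv_apply] at h1
      have h2 := xG_not_mem Q Q.O hkp (fun r hr => by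
        obtain ⟨s, hs', rfl⟩ := List.mem_map.1 hr
        exact ⟨s.2, hs.1 s hs'⟩) h1
      exact (mul_eq_zero.1 h2).resolve_left (Units.ne_zero _)

open Classical in
/-- injectivity on positive systems -/
theorem StF.inj_posW {M : Type*} [Group M] {X : ℕ → F → M} {Q : ChevO D F} {θ : M →* GL D.Idx F} (hX : StF Q X θ)
    {w : Equiv.Perm (Fin D.nroots)} (hw : w ∈ WG Q.C2) {g : M} (hg : g ∈ YS X (PosW w)) (h1 : θ g = 1) : g = 1 := by
  obtain ⟨n, -, v, hm⟩ := exists_mono Q hw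
  have hwa := WG_waut Q hw
  set L : List (Fin D.nroots) := (List.finRange D.nroots).filter (fun s => decide (ps s)) with hL
  have hmem : ∀ s : Fin D.nroots, s ∈ L ↔ ps s := by intro s; simp [hL]
  have hgood : GoodL Q (L.map fun s => (w s : ℕ)) := by
    apply good_map Q hwa hm
    · exact (List.sortedLT_finRange D.nroots).pairwise.filter _
    · intro r hr
      exact ⟨(hmem r).1 hr, r.2⟩
    · intro r hr s hs m hm'
      rw [hmem] at hr hs ⊢
      exact (comb_gt Q.O ⟨hr, r.2⟩ ⟨hs, s.2⟩ hm').2.2.1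
  refine hX.inj_good _ hgood g ?_ h1
  have : PosW w = {r | r ∈ L.map fun s => (w s : ℕ)} := by
    ext r
    constructor
    · rintro ⟨s, hs, rfl⟩
      exact List.mem_map.2 ⟨s, (hmem s).2 hs, rfl⟩
    · intro hr
      obtain ⟨s, hs, rfl⟩ := List.mem_map.1 hr
      exact ⟨s, (hmem s).1 hs, rfl⟩
  rwa [← this]

end Cfsg.Agent.Lib.ChevAlg
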