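import Cfsg.Agent.Lib.ChevStA
import Cfsg.Agent.Lib.ChevAutD

/-!
# Steinberg families: conjugation by the `n_r(t)`
-/

set_option autoImplicit false

namespace Cfsg.Agent.Lib.ChevAlg

open Cfsg.Lie Cfsg.Agent.Lib.ChevTab Matrix

variable {D : ChevalleyDatum} {F : Type*} [Field F] (Q : ChevO D F)

/-- two non-opposite roots lie in a common positive system -/
lemma exists_posW2 {a b : Fin D.nroots} (h : b ≠ Fin.rev a) : ∃ w ∈ WG Q.C2, (a : ℕ) ∈ PosW w ∧ (b : ℕ) ∈ PosW w := by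
  obtain ⟨w, hw, i, hi, e⟩ := exists_simple Q a
  have ha : w⁻¹ a = si Q i hi := by rw [← e, perm_inv_apply]
  by_cases hb : ps (w⁻¹ b)
  · exact ⟨w, hw, mem_posW.2 (by rw [ha]; exact ps_si Q hi), mem_posW.2 hb⟩
  · obtain ⟨-, -, w0, hw0, -, -, h0⟩ := exists_w0 (Q := Q)
    obtain ⟨π, hπ⟩ := exists_star Q hw0 h0
    set j := π ⟨i, hi⟩ with hj
    have h1 : w0 (si Q i hi) = Fin.rev (si Q j j.2) := hπ ⟨i, hi⟩
    refine ⟨w * w0⁻¹ * sr Q.C2 j, Subgroup.mul_mem _ (Subgroup.mul_mem _ hw (Subgroup.inv_mem _ hw0)) (sr_mem Q j.2),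
      mem_posW.2 ?_, mem_posW.2 ?_⟩
    · have e1 : (w * w0⁻¹ * sr Q.C2 j)⁻¹ a = sr Q.C2 j (w0 (w⁻¹ a)) := by
        rw [_root_.mul_inv_rev, _root_.mul_inv_rev, sr_inv, inv_inv]; rfl
      rw [e1, ha, h1, (sr_waut Q.C2 j).rev, sr_si, Fin.rev_rev]
      exact ps_si Q j.2
    · have e1 : (w * w0⁻¹ * sr Q.C2 j)⁻¹ b = sr Q.C2 j (w0 (w⁻¹ b)) := by
        rw [_root_.mul_inv_rev, _root_.mul_inv_rev, sr_inv, inv_inv]; rfl
      rw [e1]
      apply ps_sr Q j.2 ((w0_neg (WG_waut Q hw0) h0 _).2 hb)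
      intro h2
      apply h
      have h3 : w0 (w⁻¹ b) = w0 (Fin.rev (si Q i hi)) := by
        rw [h2, (WG_waut Q hw0).rev, h1, Fin.rev_rev]
      have h4 := w0.injective h3
      rw [← ha, ← (WG_waut Q hw).inv.rev] at h4
      exact w⁻¹.injective h4

lemma pos_other {i : ℕ} (hi : i < D.rank) {s : Fin D.nroots} (hs : ps s) (hne : s ≠ si Q i hi) :
    ∃ l < D.rank, l ≠ i ∧ 0 < Q.C.vec s l := by
  by_contra hc
  push Not at hc
  have h0 : ∀ l < D.rank, l ≠ i → Q.C.vec s l = 0 := fun l hl hli =>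
    le_antisymm (hc l hl hli) (vec_nonneg (C := Q.C) s s.2 hs l hl)
  have h1 := ps_sr Q hi hs hne
  have h2 : D.cartan i s = 2 * Q.C.vec s i := by
    rw [Q.C.car_lin i hi s s.2, Finset.sum_eq_single i]
    · have h3 := Q.C.pair_self (D.simple i) (Q.C.simple_lt i hi)
      rw [pairD_simple Q.C hi] at h3
      rw [h3]; ring
    · intro l hl hli
      rw [h0 l (Finset.mem_range.1 hl) hli, zero_mul]
    · intro h
      exact absurd (Finset.mem_range.2 hi) h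
  have h4 : sr Q.C2 i s = Fin.rev s := by
    apply vec_comb_ext Q.C
    intro l hl
    rw [sr_val Q.C2 hi, Q.C2.ref_vec i hi s s.2 l hl, fin_rev_val, Q.C.vec_neg s s.2 l hl, h2]
    by_cases hli : l = i
    · subst hli; simp; ring
    · rw [h0 l hl hli]; simp [hli]
  rw [h4, ps_rev Q] at h1
  exact h1 hs

/-- the roots `i s + j r` with `i ≥ 1` -/
def StrS (C : Cert D) (r s : ℕ) : Set ℕ := {k | k < D.nroots ∧ ∃ i j : ℤ, 1 ≤ i ∧ ∀ l < D.rank, C.vec k l = i * C.vec s l + j * C.vec r l}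

lemma strS_sub {r s : Fin D.nroots} (h1 : s ≠ r) (h2 : s ≠ Fin.rev r) : ∃ w ∈ WG Q.C2, StrS Q.C r s ⊆ PosW w := by
  obtain ⟨w, hw, i, hi, e⟩ := exists_simple Q r
  have hwa := WG_waut Q hw
  have hr : w⁻¹ r = si Q i hi := by rw [← e, perm_inv_apply]
  have key : ∀ k : Fin D.nroots, (k : ℕ) ∈ StrS Q.C r s → ∃ a : ℤ, 1 ≤ a ∧ ∀ l < D.rank, l ≠ i →
      Q.C.vec (w⁻¹ k) l = a * Q.C.vec (w⁻¹ s) l := by
    rintro k ⟨-, a, b, ha, h⟩
    refine ⟨a, ha, fun l hl hli => ?_⟩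
    rw [hwa.inv.lin s r k a b h l hl, hr]
    have : Q.C.vec (si Q i hi) l = 0 := by
      have h3 := Q.C.vec_simple i hi l hl
      rw [if_neg (Ne.symm hli)] at h3
      exact h3
    rw [this, mul_zero, add_zero]
  have hs1 : w⁻¹ s ≠ si Q i hi := by
    rw [← hr]; exact fun h => h1 (w⁻¹.injective h)
  have hs2 : w⁻¹ s ≠ Fin.rev (si Q i hi) := by
    rw [← hr, ← hwa.inv.rev]; exact fun h => h2 (w⁻¹.injective h)
  by_cases hps : ps (w⁻¹ s)
  · refine ⟨w, hw, fun k hk => ?_⟩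
    obtain ⟨l, hl, hli, hpos⟩ := pos_other Q hi hps hs1
    obtain ⟨a, ha, h⟩ := key ⟨k, hk.1⟩ hk
    have : ps (w⁻¹ ⟨k, hk.1⟩) := by
      by_contra hc
      have h5 := vec_nonneg (C := Q.C) _ (Fin.rev (w⁻¹ ⟨k, hk.1⟩)).2 ((ps_rev Q).2 hc) l hl
      rw [fin_rev_val, Q.C.vec_neg _ (w⁻¹ ⟨k, hk.1⟩).2 l hl, h l hl hli] at h5
      nlinarith
    exact mem_posW.2 this
  · obtain ⟨-, -, w0, hw0, -, -, h0⟩ := exists_w0 (Q := Q)
    refine ⟨w * w0⁻¹, Subgroup.mul_mem _ hw (Subgroup.inv_mem _ hw0), fun k hk => ?_⟩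
    have hs3 : Fin.rev (w⁻¹ s) ≠ si Q i hi := by
      intro h; apply hs2; rw [← h, Fin.rev_rev]
    obtain ⟨l, hl, hli, hpos⟩ := pos_other Q hi ((ps_rev Q).2 hps) hs3
    obtain ⟨a, ha, h⟩ := key ⟨k, hk.1⟩ hk
    rw [fin_rev_val, Q.C.vec_neg _ (w⁻¹ s).2 l hl] at hpos
    have : ¬ ps (w⁻¹ ⟨k, hk.1⟩) := by
      intro hc
      have h5 := vec_nonneg (C := Q.C) _ (w⁻¹ ⟨k, hk.1⟩).2 hc l hl
      rw [h l hl hli] at h5
      nlinarith
    have e1 : (w * w0⁻¹)⁻¹ ⟨k, hk.1⟩ = w0 (w⁻¹ ⟨k, hk.1⟩) := by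
      rw [_root_.mul_inv_rev, inv_inv]; rfl
    have h6 : ps ((w * w0⁻¹)⁻¹ ⟨k, hk.1⟩) := by rw [e1]; exact (w0_neg (WG_waut Q hw0) h0 _).2 this
    exact mem_posW.2 h6

/-- each root element is a product of others (in a positive system) -/
def GenD (D : ChevalleyDatum) : Prop := ∀ r < D.nroots, ∃ a b : ℕ, a < D.nroots ∧ b < D.nroots ∧ a ≠ r ∧ b ≠ r ∧
  b ≠ a ∧ b ≠ D.nroots - 1 - a ∧ ∃ (L₁ L₂ : List (ℕ × ℤ × ℕ × ℕ)) (c : ℕ × ℤ × ℕ × ℕ), D.commTerms a b = L₁ ++ c :: L₂ ∧ c.1 = r ∧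
    (c.2.1 = 1 ∨ c.2.1 = -1) ∧ (c.2.2.1 = 1 ∨ c.2.2.2 = 1) ∧ (∀ c' ∈ L₁, c'.1 ≠ r) ∧ ∀ c' ∈ L₂, c'.1 ≠ r

section

variable {M : Type*} [Group M] {X : ℕ → F → M} {Q} {θ : M →* GL D.Idx F} (hX : StF Q X θ)

/-- `n_r(t)` in the abstract group -/
def nM (D : ChevalleyDatum) (X : ℕ → F → M) (r : ℕ) (t : F) : M := X r t * X (D.nroots - 1 - r) (-t⁻¹) * X r t

include hX in
lemma StF.map_nM {r : ℕ} (hr : r < D.nroots) (t : F) : θ (nM D X r t) = nG Q r t := by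
  rw [nM, map_mul, map_mul, hX.map r hr, hX.map _ (neg_lt hr)]
  rfl

include hX in
lemma StF.mem_of_gen (hG : GenD D) {r : ℕ} (hr : r < D.nroots) (v : F) : ∃ w ∈ WG Q.C2, r ∈ PosW w ∧ X r v ∈ YS X (PosW w \ {r}) := by
  obtain ⟨a, b, ha, hb, har, hbr, hba, hbna, L₁, L₂, c, hL, hc1, hc2, hc3, hL1, hL2⟩ := hG r hr
  obtain ⟨w, hw, h1, h2⟩ := exists_posW2 Q (a := ⟨a, ha⟩) (b := ⟨b, hb⟩) (by
    intro h
    apply hbna
    have := congrArg Fin.val h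
    rw [fin_rev_val] at this
    exact this)
  have hwa := WG_waut Q hw
  have h1' : a ∈ PosW w := h1
  have h2' : b ∈ PosW w := h2
  have hcomb : ∀ k ∈ Comb Q.C a b, k ∈ PosW w := by
    intro k hk
    have h3 : ((w⁻¹ ⟨k, hk.1⟩ : Fin D.nroots) : ℕ) ∈ Comb Q.C (w⁻¹ ⟨a, ha⟩ : Fin D.nroots) (w⁻¹ ⟨b, hb⟩ : Fin D.nroots) :=
      comb_waut hwa.inv (k := ⟨k, hk.1⟩) hk
    have h4 := comb_gt Q.O ⟨mem_posW.1 h1, (w⁻¹ ⟨a, ha⟩).2⟩ ⟨mem_posW.1 h2, (w⁻¹ ⟨b, hb⟩).2⟩ h3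
    have h5 : ps (w⁻¹ ⟨k, hk.1⟩) := h4.2.2.1
    exact mem_posW.2 h5
  have hterm : ∀ c' ∈ D.commTerms a b, c'.1 ∈ PosW w := fun c' hc' => hcomb _ (commTerms_mem ha hb c' hc')
  have hcmem : c ∈ D.commTerms a b := by rw [hL]; simp
  refine ⟨w, hw, hc1 ▸ hterm c hcmem, ?_⟩
  have key : ∀ t u : F, X r (c.2.1 * (-t) ^ c.2.2.1 * u ^ c.2.2.2) ∈ YS X (PosW w \ {r}) := by
    intro t u
    have e := hX.comm a ha b hb hba hbna t u
    rw [ChevalleyDatum.commWord, hL, List.map_append, List.map_cons, wM, List.map_append, List.map_cons, List.prod_append,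
      List.prod_cons] at e
    simp only at e
    rw [hc1] at e
    set P₁ := (List.map (fun p : ℕ × F => X p.1 p.2) (List.map (fun c : ℕ × ℤ × ℕ × ℕ => (c.1, (c.2.1 : F) * (-t) ^ c.2.2.1 * u ^ c.2.2.2)) L₁)).prod with hP1
    set P₂ := (List.map (fun p : ℕ × F => X p.1 p.2) (List.map (fun c : ℕ × ℤ × ℕ × ℕ => (c.1, (c.2.1 : F) * (-t) ^ c.2.2.1 * u ^ c.2.2.2)) L₂)).prod with hP2
    have m1 : P₁ ∈ YS X (PosW w \ {r}) := by
      apply wM_mem
      intro p hp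
      rw [List.mem_map] at hp
      obtain ⟨c', hc', rfl⟩ := hp
      exact ⟨hterm c' (by rw [hL]; simp [hc']), hL1 c' hc'⟩
    have m2 : P₂ ∈ YS X (PosW w \ {r}) := by
      apply wM_mem
      intro p hp
      rw [List.mem_map] at hp
      obtain ⟨c', hc', rfl⟩ := hp
      exact ⟨hterm c' (by rw [hL]; simp [hc']), hL2 c' hc'⟩
    have ma : ∀ t, X a t ∈ YS X (PosW w \ {r}) := fun t => YS_mem (show a ∈ PosW w \ {r} from ⟨h1', har⟩) t
    have mb : ∀ t, X b t ∈ YS X (PosW w \ {r}) := fun t => YS_mem (show b ∈ PosW w \ {r} from ⟨h2', hbr⟩) t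
    have e2 : X r (c.2.1 * (-t) ^ c.2.2.1 * u ^ c.2.2.2) = P₁⁻¹ * (X a t * X b u)⁻¹ * (X b u * X a t) * P₂⁻¹ := by
      rw [e]; group
    rw [e2]
    exact Subgroup.mul_mem _ (Subgroup.mul_mem _ (Subgroup.mul_mem _ (Subgroup.inv_mem _ m1)
      (Subgroup.inv_mem _ (Subgroup.mul_mem _ (ma _) (mb _)))) (Subgroup.mul_mem _ (mb _) (ma _))) (Subgroup.inv_mem _ m2)
  have hsgn : ∀ x : F, ∃ y : F, (c.2.1 : F) * y = x := by
    intro x
    rcases hc2 with h | h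
    · exact ⟨x, by rw [h]; push_cast; ring⟩
    · exact ⟨-x, by rw [h]; push_cast; ring⟩
  obtain ⟨y, hy⟩ := hsgn v
  rcases hc3 with h | h
  · have := key (-y) 1
    rwa [h, neg_neg, pow_one, one_pow, mul_one, hy] at this
  · have := key (-1) y
    rwa [h, neg_neg, one_pow, pow_one, mul_one, hy] at this

include hX in
/-- **conjugation by `n_r(t)`** -/
theorem StF.conj_nM (hG : GenD D) {r : Fin D.nroots} {t : F} {w : Equiv.Perm (Fin D.nroots)} (hwW : w ∈ WG Q.C2)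
    {v : Fin D.nroots → Fˣ} (hm : Mono Q (nG Q r t) w v)
    (hf : ∀ (s : Fin D.nroots), ∀ l < D.rank, Q.C.vec (w s) l = Q.C.vec s l - pairD D r s * Q.C.vec r l)
    (s : Fin D.nroots) (c : F) :
    nM D X r t * X s c * (nM D X r t)⁻¹ = X (w s) (v s * c) := by
  have hθ : ∀ s : Fin D.nroots, ∀ c, θ (nM D X r t * X s c * (nM D X r t)⁻¹ * (X (w s) (v s * c))⁻¹) = 1 := by
    intro s c
    rw [map_mul, map_mul, map_mul, map_inv, map_inv, hX.map_nM r.2, hX.map s s.2, hX.map _ (w s).2, hm.conj, mul_inv_cancel]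
  -- the general case
  have gen : ∀ s : Fin D.nroots, s ≠ r → s ≠ Fin.rev r → ∀ c, nM D X r t * X s c * (nM D X r t)⁻¹ = X (w s) (v s * c) := by
    intro s h1 h2 c
    obtain ⟨w', hw', hsub⟩ := strS_sub Q h1 h2
    have hr' : ((Fin.rev r : Fin D.nroots) : ℕ) = D.nroots - 1 - r := fin_rev_val r
    have hnot : ∀ k ∈ StrS Q.C r s, k ≠ r ∧ k ≠ D.nroots - 1 - r := by
      -- `k = ± r` would give both signs in a positive system
      have hrr : ∀ k ∈ StrS Q.C r s, ∀ m : ℤ, ∀ k' : Fin D.nroots, (∀ l < D.rank, Q.C.vec k' l = Q.C.vec k l + m * Q.C.vec r l) →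
          (k' : ℕ) ∈ StrS Q.C r s := by
        rintro k ⟨_, i, j, hi, h⟩ m k' hk'
        refine ⟨k'.2, i, j + m, hi, fun l hl => ?_⟩
        rw [hk' l hl, h l hl]; ring
      intro k hk
      constructor
      · rintro rfl
        have h3 := hrr r hk (-2) (Fin.rev r) (fun l hl => by rw [hr', Q.C.vec_neg r r.2 l hl]; ring)
        exact posW_not_neg (Q := Q) (WG_waut Q hw') (hsub hk) (hsub h3)
      · rintro rfl
        have h3 := hrr _ hk 2 r (fun l hl => by rw [Q.C.vec_neg r r.2 l hl]; ring)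
        have h4 := hsub hk
        rw [← hr'] at h4
        exact posW_not_neg (Q := Q) (WG_waut Q hw') (hsub h3) h4
    have hn : ∀ g ∈ YS X ({(r : ℕ), D.nroots - 1 - r} : Set ℕ), ∀ y ∈ YS X (StrS Q.C r s), g * y * g⁻¹ ∈ YS X (StrS Q.C r s) := by
      have := hX.normalizes (Ψ := {(r : ℕ), D.nroots - 1 - r}) (Ψ' := StrS Q.C r s) (by
        rintro k (rfl | rfl)
        · exact r.2
        · exact neg_lt r.2) (fun k hk => hk.1) (by
        rintro k (rfl | rfl) m hm'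
        · exact (hnot m hm').2
        · intro h
          apply (hnot m hm').1
          have := r.2
          omega) (by
        rintro k (rfl | rfl) m ⟨_, i, j, hi, h⟩ x ⟨hx, a, b, ha, hb, hx2⟩
        · refine ⟨hx, b * i, a + b * j, by nlinarith, fun l hl => ?_⟩
          rw [hx2 l hl, h l hl]; ring
        · refine ⟨hx, b * i, -a + b * j, by nlinarith, fun l hl => ?_⟩
          rw [hx2 l hl, h l hl, Q.C.vec_neg r r.2 l hl]; ring)
      intro g hg y hy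
      exact (Subgroup.mem_normalizer_iff.1 (this hg) y).1 hy
    have hnm : nM D X r t ∈ YS X ({(r : ℕ), D.nroots - 1 - r} : Set ℕ) :=
      Subgroup.mul_mem _ (Subgroup.mul_mem _ (YS_mem (by simp) _) (YS_mem (by simp) _)) (YS_mem (by simp) _)
    have m1 : nM D X r t * X s c * (nM D X r t)⁻¹ ∈ YS X (PosW w') := by
      apply YS_mono hsub
      apply hn _ hnm
      have hs0 : (s : ℕ) ∈ StrS Q.C r s := ⟨s.2, 1, 0, le_rfl, fun l hl => by ring⟩
      exact YS_mem hs0 _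
    have m2 : X (w s) (v s * c) ∈ YS X (PosW w') := by
      apply YS_mono hsub
      have hs0 : ((w s : Fin D.nroots) : ℕ) ∈ StrS Q.C r s := ⟨(w s).2, 1, - pairD D r s, le_rfl, fun l hl => by rw [hf s l hl]; ring⟩
      exact YS_mem hs0 _
    have h5 := hX.inj_posW hw' (Subgroup.mul_mem _ m1 (Subgroup.inv_mem _ m2)) (hθ s c)
    exact mul_inv_eq_one.1 h5
  -- the remaining case
  by_cases h1 : s ≠ r ∧ s ≠ Fin.rev r
  · exact gen s h1.1 h1.2 c
  · obtain ⟨w', hw', hps, hmem⟩ := hX.mem_of_gen hG s.2 c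
    have hwa' := WG_waut Q hw'
    have hne : ∀ k : Fin D.nroots, (k : ℕ) ∈ PosW w' \ {(s : ℕ)} → k ≠ r ∧ k ≠ Fin.rev r := by
      rintro k ⟨hk, hks⟩
      have hk1 : k ≠ s := fun h => hks (by rw [h]; rfl)
      have hk2 : k ≠ Fin.rev s := fun h => posW_not_neg (Q := Q) hwa' hps (h ▸ hk)
      have h2 : s = r ∨ s = Fin.rev r := by
        by_contra hc
        push Not at hc
        exact h1 hc
      rcases h2 with rfl | rfl
      · exact ⟨hk1, hk2⟩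
      · rw [Fin.rev_rev] at hk2
        exact ⟨hk2, hk1⟩
    have hposW : ∀ k : Fin D.nroots, (k : ℕ) ∈ PosW w' → ((w k : Fin D.nroots) : ℕ) ∈ PosW (w * w') := by
      intro k hk
      rw [mem_posW] at hk ⊢
      rw [_root_.mul_inv_rev, Equiv.Perm.mul_apply, perm_inv_apply]
      exact hk
    have m1 : nM D X r t * X s c * (nM D X r t)⁻¹ ∈ YS X (PosW (w * w')) := by
      apply conj_YS_le _ hmem
      intro k hk u
      have hklt := posW_lt hk.1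
      have h3 := hne ⟨k, hklt⟩ hk
      have h4 := gen ⟨k, hklt⟩ h3.1 h3.2 u
      rw [h4]
      exact YS_mem (hposW ⟨k, hklt⟩ hk.1) _
    have m2 : X (w s) (v s * c) ∈ YS X (PosW (w * w')) := YS_mem (hposW s hps) _
    have h5 := hX.inj_posW (Subgroup.mul_mem _ hwW hw') (Subgroup.mul_mem _ m1 (Subgroup.inv_mem _ m2)) (hθ s c)
    exact mul_inv_eq_one.1 h5

end

end Cfsg.Agent.Lib.ChevAlg
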