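import Cfsg.Agent.Lib.ChevStB

/-!
# Steinberg families: the Bruhat decomposition and the kernel
-/

set_option autoImplicit false

namespace Cfsg.Agent.Lib.ChevAlg

open Cfsg.Lie Cfsg.Agent.Lib.ChevTab Matrix

variable {D : ChevalleyDatum} {F : Type*} [Field F] {Q : ChevO D F}

variable (Q) in
lemma mono_nGt (r : Fin D.nroots) (t : Fˣ) : ∃ w ∈ WG Q.C2, ∃ v, Mono Q (nG Q r t) w v ∧
    (∀ (s : Fin D.nroots), ∀ l < D.rank, Q.C.vec (w s) l = Q.C.vec s l - pairD D r s * Q.C.vec r l) ∧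
    w r = Fin.rev r := by
  obtain ⟨w, hw, v, hm, h1, h2⟩ := mono_nG Q r
  have h3 := (mono_dG (isChar_cp Q.C r t)).mul hm
  rw [← nG_eq Q r.2 t, one_mul] at h3
  exact ⟨w, hw, _, h3, h1, h2⟩

variable {M : Type*} [Group M]

variable (Q) in
/-- monomial elements of the abstract group -/
structure MN (X : ℕ → F → M) (θ : M →* GL D.Idx F) (g : M) (w : Equiv.Perm (Fin D.nroots)) (v : Fin D.nroots → Fˣ) : Prop where
  W : w ∈ WG Q.C2
  m : Mono Q (θ g) w v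
  c : ∀ (s : Fin D.nroots) (c : F), g * X s c * g⁻¹ = X (w s) (v s * c)

variable {X : ℕ → F → M} {θ : M →* GL D.Idx F}

lemma MN.one (hX : StF Q X θ) : MN Q X θ 1 1 (fun _ => 1) :=
  ⟨Subgroup.one_mem _, by rw [map_one]; exact Mono.one, fun s c => by simp⟩

lemma MN.mul {g g' : M} {w w' : Equiv.Perm (Fin D.nroots)} {v v' : Fin D.nroots → Fˣ} (h : MN Q X θ g w v)
    (h' : MN Q X θ g' w' v') : MN Q X θ (g * g') (w * w') (fun s => v (w' s) * v' s) :=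
  ⟨Subgroup.mul_mem _ h.W h'.W, by rw [map_mul]; exact h.m.mul h'.m, fun s c => by
    have e : g * g' * X s c * (g * g')⁻¹ = g * (g' * X s c * g'⁻¹) * g⁻¹ := by group
    rw [e, h'.c, h.c, Equiv.Perm.mul_apply, Units.val_mul, mul_assoc]⟩

lemma MN.inv {g : M} {w : Equiv.Perm (Fin D.nroots)} {v : Fin D.nroots → Fˣ} (h : MN Q X θ g w v) :
    MN Q X θ g⁻¹ w⁻¹ (fun s => (v (w⁻¹ s))⁻¹) :=
  ⟨Subgroup.inv_mem _ h.W, by rw [map_inv]; exact h.m.inv, fun s c => by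
    have h1 := h.c (w⁻¹ s) (((v (w⁻¹ s))⁻¹ : Fˣ) * c)
    rw [perm_apply_inv, ← mul_assoc, Units.mul_inv, one_mul] at h1
    rw [← h1]; group⟩

lemma MN.nM (hX : StF Q X θ) (hG : GenD D) (r : Fin D.nroots) (t : Fˣ) : ∃ w v, MN Q X θ (nM D X r t) w v ∧ w r = Fin.rev r := by
  obtain ⟨w, hw, v, hm, h1, h2⟩ := mono_nGt Q r t
  exact ⟨w, v, ⟨hw, by rw [hX.map_nM r.2]; exact hm, hX.conj_nM hG hw hm h1⟩, h2⟩

lemma MN.nMs (hX : StF Q X θ) (hG : GenD D) (i : Fin D.rank) (t : Fˣ) : ∃ v, MN Q X θ (ChevAlg.nM D X (D.simple i) t) (sr Q.C2 i) v := by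
  obtain ⟨w, v, h, -⟩ := MN.nM hX hG (si Q i i.2) t
  have h0 : MN Q X θ (ChevAlg.nM D X (D.simple i) t) w v := h
  have h1 := h0.m
  rw [hX.map_nM (Q.C.simple_lt i i.2), nG_eq Q (Q.C.simple_lt i i.2) t] at h1
  have h2 := (mono_dG (isChar_cp Q.C (D.simple i) t)).mul (mono_n Q i.2)
  rw [one_mul] at h2
  have h3 := h1.unique Q h2
  rw [h3] at h0
  exact ⟨v, h0⟩

lemma MN.conj_nM {g : M} {w : Equiv.Perm (Fin D.nroots)} {v : Fin D.nroots → Fˣ} (h : MN Q X θ g w v) (r : Fin D.nroots) (c : F) :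
    g * ChevAlg.nM D X r c * g⁻¹ = ChevAlg.nM D X (w r) (v r * c) := by
  have h1 := h.c r c
  have h2 := h.c (Fin.rev r) (-c⁻¹)
  rw [h.m.waut.rev, fin_rev_val, fin_rev_val, h.m.urev] at h2
  have e : g * ChevAlg.nM D X r c * g⁻¹ = (g * X r c * g⁻¹) * (g * X (D.nroots - 1 - r) (-c⁻¹) * g⁻¹) * (g * X r c * g⁻¹) := by
    rw [ChevAlg.nM]; group
  rw [e, h1, h2, ChevAlg.nM]
  congr 3
  rw [mul_inv, Units.val_inv_eq_inv_val]; ring

lemma StF.nM_inv (hX : StF Q X θ) {r : ℕ} (hr : r < D.nroots) (c : F) : (nM D X r c)⁻¹ = nM D X r (-c) := by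
  rw [nM, nM, _root_.mul_inv_rev, _root_.mul_inv_rev, hX.inv hr, hX.inv (neg_lt hr), inv_neg, neg_neg, mul_assoc]

/-- the abstract diagonal subgroup -/
def HM (D : ChevalleyDatum) (X : ℕ → F → M) : Subgroup M :=
  Subgroup.closure {g | ∃ (i : ℕ) (t : F), i < D.rank ∧ t ≠ 0 ∧ g = nM D X (D.simple i) t * nM D X (D.simple i) (-1)}

section kern

variable (hX : StF Q X θ) (hG : GenD D)

include hX in
lemma StF.ratio_mem {i : ℕ} (hi : i < D.rank) {a b : F} (ha : a ≠ 0) (hb : b ≠ 0) :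
    nM D X (D.simple i) a * (nM D X (D.simple i) b)⁻¹ ∈ HM D X := by
  have h1 : nM D X (D.simple i) a * nM D X (D.simple i) (-1) ∈ HM D X := Subgroup.subset_closure ⟨i, a, hi, ha, rfl⟩
  have h2 : nM D X (D.simple i) b * nM D X (D.simple i) (-1) ∈ HM D X := Subgroup.subset_closure ⟨i, b, hi, hb, rfl⟩
  have h3 := Subgroup.mul_mem _ h1 (Subgroup.inv_mem _ h2)
  have e : nM D X (D.simple i) a * nM D X (D.simple i) (-1) * (nM D X (D.simple i) b * nM D X (D.simple i) (-1))⁻¹ =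
    nM D X (D.simple i) a * (nM D X (D.simple i) b)⁻¹ := by group
  rwa [e] at h3

include hX hG in
lemma StF.HM_mn {h : M} (hh : h ∈ HM D X) : (∃ v, MN Q X θ h 1 v) ∧ θ h ∈ D.diagonalSubgroup F := by
  refine Subgroup.closure_induction (p := fun h _ => (∃ v, MN Q X θ h 1 v) ∧ θ h ∈ D.diagonalSubgroup F) ?_
    ⟨⟨_, MN.one hX⟩, by rw [map_one]; exact Subgroup.one_mem _⟩ ?_ ?_ hh
  · rintro _ ⟨i, t, hi, ht, rfl⟩
    obtain ⟨v, h1⟩ := MN.nMs hX hG ⟨i, hi⟩ (Units.mk0 t ht)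
    obtain ⟨v', h2⟩ := MN.nMs hX hG ⟨i, hi⟩ (-1)
    have h3 := h1.mul h2
    simp only [sr_mul_self] at h3
    have h4 : ((-1 : Fˣ) : F) = -1 := by simp
    rw [h4] at h3
    refine ⟨⟨_, h3⟩, ?_⟩
    rw [map_mul, hX.map_nM (Q.C.simple_lt i hi), hX.map_nM (Q.C.simple_lt i hi)]
    have h5 : nG Q (D.simple i) t * nG Q (D.simple i) (-1) = dG D (cp D (D.simple i) (Units.mk0 t ht)) :=
      hG_eq Q (Q.C.simple_lt i hi) (Units.mk0 t ht)
    rw [h5]
    exact cp_mem Q _ _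
  · rintro x y _ _ ⟨⟨v, h1⟩, h2⟩ ⟨⟨v', h1'⟩, h2'⟩
    exact ⟨⟨_, h1.mul h1'⟩, by rw [map_mul]; exact Subgroup.mul_mem _ h2 h2'⟩
  · rintro x _ ⟨⟨v, h1⟩, h2⟩
    exact ⟨⟨_, h1.inv⟩, by rw [map_inv]; exact Subgroup.inv_mem _ h2⟩

include hX hG in
lemma StF.n_conj_HM {i : ℕ} (hi : i < D.rank) {c : F} (hc : c ≠ 0) {h : M} (hh : h ∈ HM D X) :
    nM D X (D.simple i) c * h * (nM D X (D.simple i) c)⁻¹ ∈ HM D X := by
  obtain ⟨⟨v, h1⟩, -⟩ := hX.HM_mn hG hh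
  have h2 := h1.conj_nM (si Q i hi) (-c)
  have h3 : h * nM D X (D.simple i) (-c) * h⁻¹ = nM D X (D.simple i) (v (si Q i hi) * (-c)) := h2
  have h4 : nM D X (D.simple i) (v (si Q i hi) * (-c)) = (nM D X (D.simple i) (v (si Q i hi) * c))⁻¹ := by
    rw [hX.nM_inv (Q.C.simple_lt i hi), mul_neg]
  have e : nM D X (D.simple i) c * h * (nM D X (D.simple i) c)⁻¹ =
      nM D X (D.simple i) c * (h * nM D X (D.simple i) (-c) * h⁻¹) * h := by
    rw [hX.nM_inv (Q.C.simple_lt i hi)]; group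
  rw [e, h3, h4]
  exact Subgroup.mul_mem _ (hX.ratio_mem hi hc (mul_ne_zero (Units.ne_zero _) hc)) hh

/-- words in the `n_i` -/
def nwM (D : ChevalleyDatum) (X : ℕ → F → M) (l : List (Fin D.rank)) : M :=
  (l.map fun i : Fin D.rank => nM D X (D.simple i) 1).prod

lemma nwM_nil : nwM D X [] = 1 := rfl
lemma nwM_cons (i : Fin D.rank) (l : List (Fin D.rank)) : nwM D X (i :: l) = nM D X (D.simple i) 1 * nwM D X l := by
  simp [nwM]
lemma nwM_append (l l' : List (Fin D.rank)) : nwM D X (l ++ l') = nwM D X l * nwM D X l' := by simp [nwM]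

include hX hG in
lemma StF.nwM_mn (l : List (Fin D.rank)) : ∃ v, MN Q X θ (nwM D X l) (ww Q l) v := by
  induction l with
  | nil => exact ⟨_, MN.one hX⟩
  | cons i l ih =>
    obtain ⟨v, hv⟩ := ih
    obtain ⟨v', hv'⟩ := MN.nMs hX hG i 1
    rw [Units.val_one] at hv'
    rw [nwM_cons, ww_cons]
    exact ⟨_, hv'.mul hv⟩

include hX hG in
lemma StF.nwM_conj_HM (l : List (Fin D.rank)) {h : M} (hh : h ∈ HM D X) : nwM D X l * h * (nwM D X l)⁻¹ ∈ HM D X := by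
  induction l with
  | nil => simpa [nwM_nil] using hh
  | cons i l ih =>
    have := hX.n_conj_HM hG i.2 one_ne_zero ih
    rw [nwM_cons]
    have e : nM D X (D.simple i) 1 * nwM D X l * h * (nM D X (D.simple i) 1 * nwM D X l)⁻¹ =
      nM D X (D.simple i) 1 * (nwM D X l * h * (nwM D X l)⁻¹) * (nM D X (D.simple i) 1)⁻¹ := by group
    rwa [e]

include hX hG in
lemma StF.conj_nwM {l : List (Fin D.rank)} {i j : Fin D.rank} (h : ww Q l (si Q j j.2) = si Q i i.2) :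
    ∃ y ∈ HM D X, nM D X (D.simple i) 1 * nwM D X l = y * nwM D X l * nM D X (D.simple j) 1 := by
  obtain ⟨v, hv⟩ := hX.nwM_mn hG l
  have h1 := hv.conj_nM (si Q j j.2) 1
  rw [h, mul_one] at h1
  refine ⟨_, hX.ratio_mem i.2 one_ne_zero (Units.ne_zero (v (si Q j j.2))), ?_⟩
  have h3 : nwM D X l * nM D X (D.simple j) 1 = nM D X (D.simple i) (v (si Q j j.2)) * nwM D X l := by
    rw [← mul_inv_eq_iff_eq_mul]; exact h1
  rw [mul_assoc (nM D X (D.simple i) 1 * _), h3]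
  group

include hX in
lemma StF.nM_sq_mem (i : Fin D.rank) : nM D X (D.simple i) (1 : F) * nM D X (D.simple i) 1 ∈ HM D X := by
  have := hX.ratio_mem i.2 (a := 1) (b := -1) one_ne_zero (neg_ne_zero.2 one_ne_zero)
  rwa [hX.nM_inv (Q.C.simple_lt i i.2), neg_neg] at this

include hX hG in
lemma StF.delete (i : Fin D.rank) (l : List (Fin D.rank)) (h : ¬ ps ((ww Q l)⁻¹ (si Q i i.2))) :
    ∃ l', l'.length + 1 = l.length ∧ ww Q l' = sr Q.C2 i * ww Q l ∧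
      ∃ y ∈ HM D X, nM D X (D.simple i) 1 * nwM D X l = y * nwM D X l' := by
  obtain ⟨l₁, k, l₂, rfl, h2⟩ := exch_aux Q i l h
  refine ⟨l₁ ++ l₂, by simp; omega, ?_, ?_⟩
  · rw [ww_append, ww_append, ww_cons, ← mul_assoc, conj_sr Q (WG_waut Q (ww_mem Q l₁)) h2, mul_assoc,
      ← mul_assoc (sr Q.C2 k), sr_mul_self, one_mul]
  · obtain ⟨y, hy, e⟩ := hX.conj_nwM hG h2
    rw [nwM_append, nwM_append, nwM_cons, ← mul_assoc, e]
    refine ⟨y * (nwM D X l₁ * (nM D X (D.simple k) 1 * nM D X (D.simple k) 1) * (nwM D X l₁)⁻¹), Subgroup.mul_mem _ hy ?_, ?_⟩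
    · exact hX.nwM_conj_HM hG l₁ (hX.nM_sq_mem k)
    · group

include hX hG in
/-- words with trivial permutation are in `H` -/
theorem StF.nwM_mem_HM : ∀ (k : ℕ) (l : List (Fin D.rank)), l.length = k → ww Q l = 1 → nwM D X l ∈ HM D X := by
  intro k
  induction k using Nat.strong_induction_on with
  | _ k ih =>
    intro l hk hl
    cases l with
    | nil => exact Subgroup.one_mem _
    | cons i l =>
      rw [ww_cons] at hl
      have h1 : ww Q l = sr Q.C2 i := by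
        rw [← sr_inv Q.C2 i]
        exact (inv_eq_of_mul_eq_one_right hl).symm
      have h2 : ¬ ps ((ww Q l)⁻¹ (si Q i i.2)) := by
        rw [h1, sr_inv, sr_si, ps_rev Q]
        exact not_not.2 (ps_si Q i.2)
      obtain ⟨l', h3, h4, y, hy, e⟩ := hX.delete hG i l h2
      rw [nwM_cons, e]
      apply Subgroup.mul_mem _ hy
      apply ih l'.length (by simp at hk; omega) l' rfl
      rw [h4, hl]

/-- the abstract Borel subgroup -/
def BM (D : ChevalleyDatum) (X : ℕ → F → M) : Subgroup M := YS X (Pos D) ⊔ HM D X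

include hX hG in
lemma StF.HM_normalizes {Ψ : Set ℕ} (hΨ : ∀ r ∈ Ψ, r < D.nroots) : HM D X ≤ Subgroup.normalizer (YS X Ψ : Set M) := by
  have key : ∀ h ∈ HM D X, ∀ y ∈ YS X Ψ, h * y * h⁻¹ ∈ YS X Ψ := by
    intro h hh y hy
    obtain ⟨⟨v, h1⟩, -⟩ := hX.HM_mn hG hh
    apply conj_YS_le _ hy
    intro r hr t
    have := h1.c ⟨r, hΨ r hr⟩ t
    simp only [Equiv.Perm.one_apply] at this
    rw [this]
    exact YS_mem hr _
  intro h hh
  rw [Subgroup.mem_normalizer_iff]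
  intro y
  refine ⟨key h hh y, fun hy => ?_⟩
  have := key h⁻¹ (Subgroup.inv_mem _ hh) _ hy
  have e : h⁻¹ * (h * y * h⁻¹) * h⁻¹⁻¹ = y := by group
  rwa [e] at this

include hX hG in
lemma StF.mem_BM {g : M} : g ∈ BM D X ↔ ∃ u ∈ YS X (Pos D), ∃ h ∈ HM D X, g = u * h := by
  have hn : HM D X ≤ Subgroup.normalizer (YS X (Pos D) : Set M) := hX.HM_normalizes hG (Ψ := Pos D) (fun _ h => h.2)
  rw [BM, sup_comm, mem_sup_iff_mul hn]
  constructor
  · rintro ⟨h, hh, u, hu, rfl⟩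
    refine ⟨h * u * h⁻¹, ?_, h, hh, by group⟩
    exact (Subgroup.mem_normalizer_iff.1 (hn hh) u).1 hu
  · rintro ⟨u, hu, h, hh, rfl⟩
    refine ⟨h, hh, h⁻¹ * u * h, ?_, by group⟩
    have := (Subgroup.mem_normalizer_iff.1 (hn (Subgroup.inv_mem _ hh)) u).1 hu
    rwa [inv_inv] at this

include hX in
lemma StF.posX_decomp {i : ℕ} (hi : i < D.rank) {u : M} (hu : u ∈ YS X (Pos D)) :
    ∃ t : F, ∃ u' ∈ YS X (PosX D i), u = u' * X (D.simple i) t := by
  have hn : YS X {D.simple i} ≤ Subgroup.normalizer (YS X (PosX D i) : Set M) := by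
    have hΨ : ({D.simple i} : Set ℕ) ⊆ Pos D := by
      rintro _ rfl
      exact ⟨Q.C.simple_ge i hi, Q.C.simple_lt i hi⟩
    exact hX.normalizes (Ψ := {D.simple i}) (Ψ' := PosX D i) (fun r hr => (hΨ hr).2) (fun r hr => hr.1.2)
      (noOpp_pos Q.C hΨ (posX_sub i))
      (fun r hr s hs k hk => ⟨clos_pos Q _ (hΨ hr) _ hs.1 hk, comb_ne_simple Q (hΨ hr) hs.1 hk hi⟩)
  have h1 : YS X (Pos D) ≤ YS X {D.simple i} ⊔ YS X (PosX D i) := by
    rw [YS_le]
    intro r hr t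
    by_cases h : r = D.simple i
    · have h3 : X r t ∈ YS X {D.simple i} := YS_mem (Set.mem_singleton_iff.2 h) t
      exact Subgroup.mem_sup_left h3
    · have h3 : X r t ∈ YS X (PosX D i) := YS_mem (show r ∈ PosX D i from ⟨hr, h⟩) t
      exact Subgroup.mem_sup_right h3
  have h2 := h1 hu
  rw [mem_sup_iff_mul hn] at h2
  obtain ⟨a, ha, b, hb, rfl⟩ := h2
  obtain ⟨t, rfl⟩ := hX.mem_single (Q.C.simple_lt i hi) ha
  refine ⟨t, X (D.simple i) t * b * (X (D.simple i) t)⁻¹, ?_, by group⟩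
  exact (Subgroup.mem_normalizer_iff.1 (hn ha) b).1 hb

/-- double cosets -/
def BNB (D : ChevalleyDatum) (X : ℕ → F → M) : Set M := {g | ∃ b₁ ∈ BM D X, ∃ l, ∃ b₂ ∈ BM D X, g = b₁ * nwM D X l * b₂}

lemma BNB_mul_left {g b : M} (hb : b ∈ BM D X) (hg : g ∈ BNB D X) : b * g ∈ BNB D X := by
  obtain ⟨b₁, h1, l, b₂, h2, rfl⟩ := hg
  exact ⟨b * b₁, Subgroup.mul_mem _ hb h1, l, b₂, h2, by group⟩

lemma HM_le_BM : HM D X ≤ BM D X := le_sup_right

include hX hG in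
/-- the crucial step -/
lemma StF.bn_step (i : Fin D.rank) {g : M} (hg : g ∈ BNB D X) : nM D X (D.simple i) 1 * g ∈ BNB D X := by
  obtain ⟨b₁, hb₁, l, b₂, hb₂, rfl⟩ := hg
  obtain ⟨u, hu, h, hh, rfl⟩ := (hX.mem_BM hG).1 hb₁
  obtain ⟨t, u', hu', rfl⟩ := hX.posX_decomp i.2 hu
  set s := nM D X (D.simple i) (1 : F) with hs
  have hsi : D.simple i < D.nroots := Q.C.simple_lt i i.2
  obtain ⟨vs, hms⟩ := MN.nMs hX hG i (1 : Fˣ)
  rw [Units.val_one, ← hs] at hms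
  obtain ⟨v, hm⟩ := hX.nwM_mn hG l
  have hposB : ∀ r ∈ Pos D, ∀ t, X r t ∈ BM D X := fun r hr t => Subgroup.mem_sup_left (YS_mem hr t)
  have hpi : D.simple i ∈ Pos D := ⟨Q.C.simple_ge i i.2, hsi⟩
  have hU' : s * u' * s⁻¹ ∈ BM D X := by
    apply Subgroup.mem_sup_left
    apply conj_YS_le _ hu'
    intro r hr t
    have h1 := hms.c ⟨r, hr.1.2⟩ t
    simp only at h1
    rw [h1]
    have h2 : ps (sr Q.C2 i ⟨r, hr.1.2⟩) := ps_sr Q i.2 hr.1.1 (by
      intro h2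
      exact hr.2 (congrArg Fin.val h2))
    have h3 : ((sr Q.C2 i ⟨r, hr.1.2⟩ : Fin D.nroots) : ℕ) ∈ Pos D := ⟨h2, (sr Q.C2 i ⟨r, hr.1.2⟩).2⟩
    exact YS_mem h3 _
  -- move the `H` part to the right
  have hH : (nwM D X l)⁻¹ * h * nwM D X l ∈ BM D X := by
    apply HM_le_BM
    -- inverse word
    have h1 := hX.HM_mn hG hh
    have hrev : ∃ l', ∃ y ∈ HM D X, (nwM D X l)⁻¹ = y * nwM D X l' := by
      clear hm
      induction l with
      | nil => exact ⟨[], 1, Subgroup.one_mem _, by simp [nwM_nil]⟩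
      | cons j l ih =>
        obtain ⟨l', y, hy, e⟩ := ih
        refine ⟨l' ++ [j], y * (nwM D X l' * (nM D X (D.simple j) 1 * nM D X (D.simple j) 1)⁻¹ * (nwM D X l')⁻¹),
          Subgroup.mul_mem _ hy (hX.nwM_conj_HM hG l' (Subgroup.inv_mem _ (hX.nM_sq_mem j))), ?_⟩
        rw [nwM_cons, _root_.mul_inv_rev, e, nwM_append, nwM_cons, nwM_nil]
        group
    obtain ⟨l', y, hy, e⟩ := hrev
    have e1 : nwM D X l = (nwM D X l')⁻¹ * y⁻¹ := by
      rw [← _root_.mul_inv_rev, ← e, inv_inv]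
    rw [e, e1]
    have e2 : y * nwM D X l' * h * ((nwM D X l')⁻¹ * y⁻¹) = y * (nwM D X l' * h * (nwM D X l')⁻¹) * y⁻¹ := by group
    rw [e2]
    exact Subgroup.mul_mem _ (Subgroup.mul_mem _ hy (hX.nwM_conj_HM hG l' hh)) (Subgroup.inv_mem _ hy)
  have hwa := hm.m.waut
  have hinv := hm.inv
  have e0 : s * (u' * X (D.simple i) t * h * nwM D X l * b₂) =
      (s * u' * s⁻¹) * (s * X (D.simple i) t * nwM D X l) * ((nwM D X l)⁻¹ * h * nwM D X l * b₂) := by group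
  have hb₂' : (nwM D X l)⁻¹ * h * nwM D X l * b₂ ∈ BM D X := Subgroup.mul_mem _ hH hb₂
  rw [e0]
  suffices hsuf : s * X (D.simple i) t * nwM D X l ∈ BNB D X by
    obtain ⟨b₃, hb₃, l', b₄, hb₄, e⟩ := hsuf
    rw [e]
    exact ⟨s * u' * s⁻¹ * b₃, Subgroup.mul_mem _ hU' hb₃, l', b₄ * ((nwM D X l)⁻¹ * h * nwM D X l * b₂),
      Subgroup.mul_mem _ hb₄ hb₂', by group⟩
  by_cases hps : ps ((ww Q l)⁻¹ (si Q i i.2))
  · refine ⟨1, Subgroup.one_mem _, i :: l, (nwM D X l)⁻¹ * X (D.simple i) t * nwM D X l, ?_, ?_⟩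
    · have h1 := hinv.c (si Q i i.2) t
      rw [inv_inv] at h1
      have h2 : (nwM D X l)⁻¹ * X (D.simple i) t * nwM D X l = _ := h1
      rw [h2]
      exact hposB _ ⟨hps, ((ww Q l)⁻¹ (si Q i i.2)).2⟩ _
    · rw [nwM_cons, ← hs]; group
  · by_cases ht : t = 0
    · refine ⟨1, Subgroup.one_mem _, i :: l, 1, Subgroup.one_mem _, ?_⟩
      rw [ht, hX.zero hsi, nwM_cons, ← hs]; group
    · -- `s x_i(t) s⁻¹ = x_{-i}(t₁) = x_i(t₁⁻¹) n_i(-t₁⁻¹) x_i(t₁⁻¹)`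
      have h1 := hms.c (si Q i i.2) t
      rw [sr_si, fin_rev_val] at h1
      set t₁ : F := vs (si Q i i.2) * t with ht₁
      have ht₁0 : t₁ ≠ 0 := mul_ne_zero (Units.ne_zero _) ht
      have h1' : s * X (D.simple i) t * s⁻¹ = X (D.nroots - 1 - D.simple i) t₁ := h1
      have h2 : X (D.nroots - 1 - D.simple i) t₁ = X (D.simple i) t₁⁻¹ * nM D X (D.simple i) (-t₁⁻¹) * X (D.simple i) t₁⁻¹ := by
        rw [nM]
        have e : -(-t₁⁻¹)⁻¹ = t₁ := by rw [inv_neg, inv_inv, neg_neg]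
        rw [e]
        have h3 : X (D.simple i) t₁⁻¹ * X (D.simple i) (-t₁⁻¹) = 1 := by
          rw [hX.add _ hsi, add_neg_cancel, hX.zero hsi]
        have h4 : X (D.simple i) (-t₁⁻¹) * X (D.simple i) t₁⁻¹ = 1 := by
          rw [hX.add _ hsi, neg_add_cancel, hX.zero hsi]
        calc X (D.nroots - 1 - D.simple i) t₁ = (X (D.simple i) t₁⁻¹ * X (D.simple i) (-t₁⁻¹)) *
            X (D.nroots - 1 - D.simple i) t₁ * (X (D.simple i) (-t₁⁻¹) * X (D.simple i) t₁⁻¹) := by rw [h3, h4]; simp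
          _ = _ := by group
      have h5 : nM D X (D.simple i) (-t₁⁻¹) * s⁻¹ ∈ HM D X :=
        hX.ratio_mem i.2 (neg_ne_zero.2 (inv_ne_zero ht₁0)) one_ne_zero
      -- `x_i(c) s = s x_{-i}(c')`
      have h6 := hms.inv.c (si Q i i.2) t₁⁻¹
      rw [sr_inv, sr_si, fin_rev_val, inv_inv] at h6
      set c' : F := ((vs (Fin.rev (si Q i i.2)))⁻¹ : Fˣ) * t₁⁻¹ with hc'
      have h6' : s⁻¹ * X (D.simple i) t₁⁻¹ * s = X (D.nroots - 1 - D.simple i) c' := h6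
      -- conjugate by the word
      have h7 := hinv.c (Fin.rev (si Q i i.2)) c'
      rw [fin_rev_val, inv_inv, hwa.inv.rev] at h7
      have h8 : (nwM D X l)⁻¹ * X (D.nroots - 1 - D.simple i) c' * nwM D X l ∈ BM D X := by
        have h9 : (nwM D X l)⁻¹ * X (D.nroots - 1 - D.simple i) c' * nwM D X l = _ := h7
        rw [h9]
        have hmem : ((Fin.rev ((ww Q l)⁻¹ (si Q i i.2)) : Fin D.nroots) : ℕ) ∈ Pos D :=
          ⟨(ps_rev Q).2 hps, (Fin.rev ((ww Q l)⁻¹ (si Q i i.2))).2⟩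
        exact hposB _ hmem _
      refine ⟨X (D.simple i) t₁⁻¹ * (nM D X (D.simple i) (-t₁⁻¹) * s⁻¹) * (s * s),
        Subgroup.mul_mem _ (Subgroup.mul_mem _ (hposB _ hpi _) (HM_le_BM h5)) (HM_le_BM (hX.nM_sq_mem i)), l,
        (nwM D X l)⁻¹ * X (D.nroots - 1 - D.simple i) c' * nwM D X l, h8, ?_⟩
      have e3 : s * X (D.simple i) t * nwM D X l = (s * X (D.simple i) t * s⁻¹) * s * nwM D X l := by group
      rw [e3, h1', h2, ← h6']
      group

include hX hG in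
/-- `M = B N B` -/
theorem StF.bruhat (hgen : ∀ g : M, g ∈ YS X {r | r < D.nroots}) (g : M) : g ∈ BNB D X := by
  -- generation by simple root elements and their negatives
  set K : Subgroup M := Subgroup.closure {g | ∃ (i : Fin D.rank) (t : F), g = X (D.simple i) t ∨ g = X (D.nroots - 1 - D.simple i) t} with hK
  have hn : ∀ i : Fin D.rank, nM D X (D.simple i) (1 : F) ∈ K := fun i =>
    Subgroup.mul_mem _ (Subgroup.mul_mem _ (Subgroup.subset_closure ⟨i, _, Or.inl rfl⟩)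
      (Subgroup.subset_closure ⟨i, _, Or.inr rfl⟩)) (Subgroup.subset_closure ⟨i, _, Or.inl rfl⟩)
  have hnw : ∀ l, nwM D X l ∈ K := by
    intro l
    induction l with
    | nil => exact Subgroup.one_mem _
    | cons i l ih => rw [nwM_cons]; exact Subgroup.mul_mem _ (hn i) ih
  have hgK : g ∈ K := by
    have : YS X {r | r < D.nroots} ≤ K := by
      rw [YS_le]
      intro r hr t
      obtain ⟨w, hw, i, hi, e⟩ := exists_simple Q ⟨r, hr⟩
      obtain ⟨l, rfl⟩ := exists_ww Q hw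
      obtain ⟨v, hv⟩ := hX.nwM_mn hG l
      have h1 := hv.c (si Q i hi) (((v (si Q i hi))⁻¹ : Fˣ) * t)
      rw [e, ← mul_assoc, Units.mul_inv, one_mul] at h1
      have h2 : X r t = nwM D X l * X (D.simple i) (((v (si Q i hi))⁻¹ : Fˣ) * t) * (nwM D X l)⁻¹ := h1.symm
      rw [h2]
      exact Subgroup.mul_mem _ (Subgroup.mul_mem _ (hnw l) (Subgroup.subset_closure ⟨⟨i, hi⟩, _, Or.inl rfl⟩))
        (Subgroup.inv_mem _ (hnw l))
    exact this (hgen g)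
  have h0 : (1 : M) ∈ BNB D X := ⟨1, Subgroup.one_mem _, [], 1, Subgroup.one_mem _, by simp [nwM_nil]⟩
  have hpos : ∀ (i : Fin D.rank) (t : F), X (D.simple i) t ∈ BM D X := fun i t =>
    Subgroup.mem_sup_left (YS_mem (show D.simple i ∈ Pos D from ⟨Q.C.simple_ge i i.2, Q.C.simple_lt i i.2⟩) t)
  have hinvn : ∀ (i : Fin D.rank) (g : M), g ∈ BNB D X → (nM D X (D.simple i) (1 : F))⁻¹ * g ∈ BNB D X := by
    intro i g hg
    have e : (nM D X (D.simple i) (1 : F))⁻¹ * g = (nM D X (D.simple i) (1 : F) * nM D X (D.simple i) 1)⁻¹ * (nM D X (D.simple i) (1 : F) * g) := by group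
    rw [e]
    exact BNB_mul_left (Subgroup.inv_mem _ (HM_le_BM (hX.nM_sq_mem i))) (hX.bn_step hG i hg)
  have hstep : ∀ (x : M), (∃ (i : Fin D.rank) (t : F), x = X (D.simple i) t ∨ x = X (D.nroots - 1 - D.simple i) t) →
      ∀ g ∈ BNB D X, x * g ∈ BNB D X := by
    rintro x ⟨i, t, rfl | rfl⟩ g hg
    · exact BNB_mul_left (hpos i t) hg
    · obtain ⟨vs, hms⟩ := MN.nMs hX hG i (1 : Fˣ)
      rw [Units.val_one] at hms
      have h1 := hms.c (si Q i i.2) (((vs (si Q i i.2))⁻¹ : Fˣ) * t)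
      rw [sr_si, fin_rev_val, ← mul_assoc, Units.mul_inv, one_mul] at h1
      have h2 : X (D.nroots - 1 - D.simple i) t = nM D X (D.simple i) 1 * X (D.simple i) (((vs (si Q i i.2))⁻¹ : Fˣ) * t) *
        (nM D X (D.simple i) 1)⁻¹ := h1.symm
      rw [h2, mul_assoc, mul_assoc]
      exact hX.bn_step hG i (BNB_mul_left (hpos i _) (hinvn i g hg))
  refine Subgroup.closure_induction_left (p := fun g _ => g ∈ BNB D X) h0 (fun x hx y _ hy => hstep x hx y hy) ?_ hgK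
  rintro x ⟨i, t, h⟩ y _ hy
  apply hstep _ _ y hy
  rcases h with rfl | rfl
  · exact ⟨i, -t, Or.inl (hX.inv (Q.C.simple_lt i i.2) t)⟩
  · exact ⟨i, -t, Or.inr (hX.inv (neg_lt (Q.C.simple_lt i i.2)) t)⟩

include hX hG in
/-- **the kernel lies in `H`** -/
theorem StF.ker_le_HM (hgen : ∀ g : M, g ∈ YS X {r | r < D.nroots}) {g : M} (hg : θ g = 1) : g ∈ HM D X := by
  obtain ⟨b₁, hb₁, l, b₂, hb₂, rfl⟩ := hX.bruhat hG hgen g
  have hposθ : ∀ u ∈ YS X (Pos D), θ u ∈ XS Q (Pos D) := fun u hu => hX.map_YS (fun r hr => hr.2) hu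
  have hBθ : ∀ b ∈ BM D X, θ b ∈ D.borelSubgroup F := by
    intro b hb
    obtain ⟨u, hu, h, hh, rfl⟩ := (hX.mem_BM hG).1 hb
    rw [map_mul]
    exact Subgroup.mul_mem _ (U_le_borel Q (hposθ u hu)) (H_le_borel Q (hX.HM_mn hG hh).2)
  obtain ⟨v, hv⟩ := hX.nwM_mn hG l
  have hnwθ : θ (nwM D X l) = nw Q l := by
    clear hv hg
    induction l with
    | nil => simp [nwM_nil]
    | cons i l ih => rw [nwM_cons, nw_cons, map_mul, ih, hX.map_nM (Q.C.simple_lt i i.2)]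
  have h1 : θ (nwM D X l) ∈ D.borelSubgroup F := by
    rw [map_mul, map_mul] at hg
    have : θ (nwM D X l) = (θ b₁)⁻¹ * (θ b₂)⁻¹ := by
      rw [eq_inv_mul_iff_mul_eq, eq_inv_iff_mul_eq_one]
      exact hg
    rw [this]
    exact Subgroup.mul_mem _ (Subgroup.inv_mem _ (hBθ _ hb₁)) (Subgroup.inv_mem _ (hBθ _ hb₂))
  have h2 : θ (nwM D X l) ∈ D.diagonalSubgroup F := by
    apply borel_inf_N Q h1
    rw [hnwθ]
    exact N0_le_monomial Q (nw_mem Q l)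
  obtain ⟨χ, hχ, e⟩ := diagonal_mono Q h2
  have h3 := hv.m
  rw [e] at h3
  have h4 := h3.unique Q (mono_dG hχ)
  have h5 := hX.nwM_mem_HM hG _ l rfl h4
  have h6 : b₁ * nwM D X l * b₂ ∈ BM D X := Subgroup.mul_mem _ (Subgroup.mul_mem _ hb₁ (HM_le_BM h5)) hb₂
  obtain ⟨u, hu, h, hh, e2⟩ := (hX.mem_BM hG).1 h6
  rw [e2] at hg ⊢
  rw [map_mul] at hg
  have h7 : θ u = 1 := by
    apply U_inf_H Q (hposθ u hu)
    rw [mul_eq_one_iff_eq_inv.1 hg]
    exact Subgroup.inv_mem _ (hX.HM_mn hG hh).2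
  have h8 : u = 1 := by
    apply hX.inj_posW (w := 1) (Subgroup.one_mem _) _ h7
    apply YS_mono _ hu
    intro r hr
    exact ⟨⟨r, hr.2⟩, hr.1, rfl⟩
  rw [h8, one_mul]
  exact hh

include hX hG in
/-- **the kernel is central** -/
theorem StF.ker_central (hgen : ∀ g : M, g ∈ YS X {r | r < D.nroots}) {g : M} (hg : θ g = 1) : g ∈ Subgroup.center M := by
  obtain ⟨⟨v, h1⟩, -⟩ := hX.HM_mn hG (hX.ker_le_HM hG hgen hg)
  have hv : ∀ s : Fin D.nroots, v s = 1 := by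
    intro s
    have h2 := h1.m.conj s 1
    rw [hg, one_mul, inv_one, mul_one, mul_one, Equiv.Perm.one_apply] at h2
    exact Units.ext (xG_inj Q s.2 h2).symm
  rw [Subgroup.mem_center_iff]
  have key : YS X {r | r < D.nroots} ≤ Subgroup.centralizer {g} := by
    rw [YS_le]
    intro r hr t
    rw [Subgroup.mem_centralizer_singleton_iff]
    have h2 := h1.c ⟨r, hr⟩ t
    rw [hv, Units.val_one, one_mul, Equiv.Perm.one_apply, mul_inv_eq_iff_eq_mul] at h2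
    exact h2.symm
  intro x
  exact (Subgroup.mem_centralizer_singleton_iff.1 (key (hgen x)))

end kern

end Cfsg.Agent.Lib.ChevAlg
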