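import Cfsg.Agent.Lib.ChevStD
import Cfsg.Agent.Lib.ChevSimple
import Cfsg.Prelude.Def_SteinbergCover

/-!
# The Steinberg groups
-/

set_option autoImplicit false

namespace Cfsg.Agent.Lib.ChevAlg

open Cfsg.Lie Cfsg.Agent.Lib.ChevTab Matrix

section families

variable {D : ChevalleyDatum} {F : Type*} [Field F] {Q : ChevO D F} {M : Type*} [Group M] {X : ℕ → F → M} {θ : M →* GL D.Idx F}
  (hX : StF Q X θ) (hG : GenD D)

/-- torus elements -/
def hM (D : ChevalleyDatum) (X : ℕ → F → M) (r : ℕ) (t : F) : M := nM D X r t * nM D X r (-1)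

include hX in
lemma StF.map_hM {r : ℕ} (hr : r < D.nroots) (c : Fˣ) : θ (hM D X r c) = dG D (cp D r c) := by
  rw [hM, map_mul, hX.map_nM hr, hX.map_nM hr]
  exact hG_eq Q hr c

include hX hG in
lemma StF.hM_mn {r : ℕ} (hr : r < D.nroots) (c : Fˣ) : MN Q X θ (hM D X r c) 1 (fun s => cp D r c s) := by
  obtain ⟨w, v, h1, -⟩ := MN.nM hX hG ⟨r, hr⟩ c
  obtain ⟨w', v', h2, -⟩ := MN.nM hX hG ⟨r, hr⟩ (-1)
  have h3 := h1.mul h2
  have e1 : ((-1 : Fˣ) : F) = -1 := by simp
  rw [e1] at h3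
  have h4 : MN Q X θ (hM D X r c) (w * w') (fun s => v (w' s) * v' s) := h3
  have h5 := h4.m
  rw [hX.map_hM hr] at h5
  have h6 := mono_dG (Q := Q) (isChar_cp Q.C r c)
  have h7 := h5.unique Q h6
  rw [h7] at h4 h5
  have h8 : ∀ s : Fin D.nroots, v (w' s) * v' s = cp D r c s := by
    intro s
    have h9 := h5.conj s 1
    rw [h6.conj s 1] at h9
    exact (Units.ext (by simpa using xG_inj Q s.2 h9)).symm
  have h10 : (fun s : Fin D.nroots => v (w' s) * v' s) = fun s : Fin D.nroots => cp D r c s := funext h8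
  rw [h10] at h4
  exact h4

include hX hG in
lemma StF.hM_conj {r s : ℕ} (hr : r < D.nroots) (hs : s < D.nroots) (c : Fˣ) (t : F) :
    hM D X r c * X s t * (hM D X r c)⁻¹ = X s (cp D r c s * t) :=
  (hX.hM_mn hG hr c).c ⟨s, hs⟩ t

include hX in
lemma StF.mem_of_torus {r : ℕ} (hr : r < D.nroots) {h : M} {z : F} (hz : z ≠ 1)
    (hc : ∀ t : F, h * X r t * h⁻¹ = X r (z * t)) (t : F) : X r t ∈ commutator M := by
  have hz' : z - 1 ≠ 0 := sub_ne_zero.2 hz
  have h1 : h * X r (t / (z - 1)) * h⁻¹ * (X r (t / (z - 1)))⁻¹ = X r t := by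
    rw [hc, hX.inv hr, hX.add r hr]
    congr 1
    field_simp
    ring
  rw [← h1, commutator_def]
  exact Subgroup.commutator_mem_commutator (Subgroup.mem_top _) (Subgroup.mem_top _)

include hX in
lemma StF.mem_of_PP1 {r : ℕ} (h : PP1 D r) (t : F) : X r t ∈ commutator M := by
  obtain ⟨a, b, c, ha, hb, hne, hneg, hc, e⟩ := h
  rw [neg_eq' Q ha] at hneg
  have hcc : (c : F) * c = 1 := by rcases hc with rfl | rfl <;> norm_num
  have h1 := hX.comm a ha b hb hne hneg (-(c : F) * t) 1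
  rw [ChevalleyDatum.commWord, e, wM] at h1
  simp only [List.map_cons, List.map_nil, List.prod_cons, List.prod_nil, mul_one] at h1
  have e2 : (c : F) * (-(-(c : F) * t)) ^ 1 * 1 ^ 1 = t := by linear_combination t * hcc
  rw [e2] at h1
  have h3 : X r t = (X b 1)⁻¹ * (X a (-(c : F) * t))⁻¹ * (X b 1)⁻¹⁻¹ * (X a (-(c : F) * t))⁻¹⁻¹ := by
    rw [inv_inv, inv_inv, mul_assoc _ (X b 1), h1]
    group
  rw [h3, commutator_def]
  exact Subgroup.commutator_mem_commutator (Subgroup.mem_top _) (Subgroup.mem_top _)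

include hX hG in
lemma StF.mem_of_PP2 (hF : ∃ a : F, a ≠ 0 ∧ a ≠ 1) {r : ℕ} (hr : r < D.nroots) (h : PP2 D r) (t : F) :
    X r t ∈ commutator M := by
  by_cases hex : ∃ c : Fˣ, (c : F) ^ 2 ≠ 1
  · obtain ⟨c, hc⟩ := hex
    refine hX.mem_of_torus hr (h := hM D X r c) hc (fun t => ?_) t
    rw [hX.hM_conj hG hr hr c t, cp, Q.C.pair_self r hr]
    simp
  · push Not at hex
    obtain ⟨a, ha0, ha1⟩ := hF
    have h1 := hex (Units.mk0 a ha0)
    rw [Units.val_mk0] at h1
    have ha : a = -1 := by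
      have h2 : (a - 1) * (a + 1) = 0 := by linear_combination h1
      rcases mul_eq_zero.1 h2 with h3 | h3
      · exact absurd (sub_eq_zero.1 h3) ha1
      · linear_combination h3
    obtain ⟨s, hs, hodd⟩ := h
    refine hX.mem_of_torus hr (h := hM D X s ((-1 : Fˣ) : F)) (z := -1)
      (by rw [← ha]; exact ha1) (fun t => ?_) t
    rw [hX.hM_conj hG hs hr (-1) t]
    have h6 : cp D s (-1) r = (-1 : Fˣ) := by
      rw [cp]
      have h7 : Odd (pairD D s r) := Int.odd_iff.2 hodd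
      exact Odd.neg_one_zpow h7
    rw [h6]
    simp

include hX hG in
lemma StF.mem_of_PP3 (hF : ∃ a : F, a ≠ 0 ∧ a ≠ 1) {r : ℕ} (h : PP3 D r) (t : F) : X r t ∈ commutator M := by
  obtain ⟨a, b, m, c, c', ha, hb, hne, hneg, hm, hP2, hc, e⟩ := h
  rw [neg_eq' Q ha] at hneg
  have hcc : (c' : F) * c' = 1 := by rcases hc with rfl | rfl <;> norm_num
  have h1 := hX.comm a ha b hb hne hneg (-(c' : F) * t) 1
  rw [ChevalleyDatum.commWord, e, wM] at h1
  simp only [List.map_cons, List.map_nil, List.prod_cons, List.prod_nil, mul_one] at h1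
  have e2 : (c' : F) * (-(-(c' : F) * t)) ^ 1 * 1 ^ 2 = t := by linear_combination t * hcc
  rw [e2] at h1
  set z := (c : F) * (-(-(c' : F) * t)) ^ 1 * 1 ^ 1
  have hzm := hX.mem_of_PP2 hG hF hm hP2 z
  have h3 : X r t = (X m z)⁻¹ * ((X b 1)⁻¹ * (X a (-(c' : F) * t))⁻¹ * (X b 1)⁻¹⁻¹ * (X a (-(c' : F) * t))⁻¹⁻¹) := by
    rw [inv_inv, inv_inv, mul_assoc _ (X b 1), h1]
    group
  rw [h3]
  refine Subgroup.mul_mem _ (Subgroup.inv_mem _ hzm) ?_
  rw [commutator_def]
  exact Subgroup.commutator_mem_commutator (Subgroup.mem_top _) (Subgroup.mem_top _)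

include hX hG in
theorem StF.perfect (hgen : ∀ g : M, g ∈ YS X {r | r < D.nroots})
    (h : ∀ r < D.nroots, PP1 D r ∨ ((∃ a : F, a ≠ 0 ∧ a ≠ 1) ∧ (PP2 D r ∨ PP3 D r))) : commutator M = ⊤ := by
  rw [eq_top_iff]
  have : YS X {r | r < D.nroots} ≤ commutator M := by
    rw [YS_le]
    intro r hr t
    rcases h r hr with h1 | ⟨hF, h1 | h1⟩
    · exact hX.mem_of_PP1 h1 t
    · exact hX.mem_of_PP2 hG hF hr h1 t
    · exact hX.mem_of_PP3 hG hF h1 t
  intro g _
  exact this (hgen g)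

end families

/-- the perfectness hypothesis -/
theorem perfD (D : ChevalleyDatum) (hD : D ∈ [chevG2, chevB2, chevD4, chevF4, chevE6, chevE7, chevE8]) {F : Type*} [Field F]
    (hK : D ∈ [chevB2, chevG2] → ∃ x : F, x ≠ 0 ∧ x ≠ 1) :
    ∀ r < D.nroots, PP1 D r ∨ ((∃ a : F, a ≠ 0 ∧ a ≠ 1) ∧ (PP2 D r ∨ PP3 D r)) := by
  simp only [List.mem_cons, List.not_mem_nil, or_false] at hD
  intro r hr
  rcases hD with rfl | rfl | rfl | rfl | rfl | rfl | rfl
  · exact Or.inr ⟨hK (by simp), ChevG2.perf r hr⟩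
  · exact Or.inr ⟨hK (by simp), ChevB2.perf r hr⟩
  · exact Or.inl (ChevD4.perf r hr)
  · exact Or.inl (ChevF4.perf r hr)
  · exact Or.inl (ChevE6.perf r hr)
  · exact Or.inl (ChevE7.perf r hr)
  · exact Or.inl (ChevE8.perf r hr)

section groups

variable {D : ChevalleyDatum} {K : Type*} [Field K] (Q : ChevO D K)

/-- relations (R1), (R2) in an arbitrary group -/
structure RelAB (D : ChevalleyDatum) {K : Type*} [Field K] {N : Type*} [Group N] (Y : ℕ → K → N) : Prop where
  add : ∀ r < D.nroots, ∀ t u : K, Y r t * Y r u = Y r (t + u)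
  comm : ∀ r < D.nroots, ∀ s < D.nroots, s ≠ r → s ≠ D.nroots - 1 - r → ∀ t u : K,
    Y s u * Y r t = Y r t * Y s u * wM Y (D.commWord K r s t u)

/-- relations (R3) in an arbitrary group -/
def RelC (D : ChevalleyDatum) {K : Type*} [Field K] {N : Type*} [Group N] (Y : ℕ → K → N) : Prop :=
  ∀ r < D.nroots, ∀ t u : K, t ≠ 0 → u ≠ 0 → hM D Y r t * hM D Y r u = hM D Y r (t * u)

lemma StF.relAB {M : Type*} [Group M] {X : ℕ → K → M} {θ : M →* GL D.Idx K} (hX : StF Q X θ) : RelAB D X := ⟨hX.add, hX.comm⟩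

variable {N : Type*} [Group N]

/-- the map of generators -/
def genMap (D : ChevalleyDatum) (Y : ℕ → K → N) : Fin D.nroots × K → N := fun p => Y p.1 p.2

omit [Field K] in
lemma lift_stX (Y : ℕ → K → N) {r : ℕ} (hr : r < D.nroots) (t : K) : FreeGroup.lift (genMap D Y) (D.stX r t) = Y r t := by
  rw [ChevalleyDatum.stX, dif_pos hr, FreeGroup.lift_apply_of, genMap]

omit [Field K] in
lemma lift_stWord (Y : ℕ → K → N) {w : List (ℕ × K)} (hw : ∀ p ∈ w, p.1 < D.nroots) :
    FreeGroup.lift (genMap D Y) (D.stWord w) = wM Y w := by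
  rw [ChevalleyDatum.stWord, map_list_prod, List.map_map, wM]
  congr 1
  apply List.map_congr_left
  intro p hp
  exact lift_stX Y (hw p hp) p.2

include Q in
lemma commWord_lt {r s : ℕ} (hr : r < D.nroots) (hs : s < D.nroots) (t u : K) : ∀ p ∈ D.commWord K r s t u, p.1 < D.nroots := by
  intro p hp
  rw [ChevalleyDatum.commWord, List.mem_map] at hp
  obtain ⟨c, hc, rfl⟩ := hp
  exact (commTerms_mem (C := Q.C) hr hs c hc).1

include Q in
lemma relAB_lift {Y : ℕ → K → N} (h : RelAB D Y) : ∀ g ∈ D.steinbergRelsAB K, FreeGroup.lift (genMap D Y) g = 1 := by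
  rintro g (⟨r, t₁, t₂, hr, rfl⟩ | ⟨r, s, t, u, hr, hs, h1, h2, rfl⟩)
  · rw [map_mul, map_mul, map_inv, lift_stX Y hr, lift_stX Y hr, lift_stX Y hr, h.add r hr, mul_inv_cancel]
  · rw [neg_eq' Q hr] at h2
    rw [map_mul, map_mul, map_mul, map_mul, map_inv, map_inv, map_inv, lift_stX Y hr, lift_stX Y hs,
      lift_stWord Y (commWord_lt Q hr hs t u), mul_assoc _ (Y s u) (Y r t), h.comm r hr s hs h1 h2]
    group

include Q in
lemma hWord_lt {r : ℕ} (hr : r < D.nroots) (t : K) : ∀ p ∈ D.hWord r t, p.1 < D.nroots := by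
  intro p hp
  have hn : D.neg r < D.nroots := by rw [neg_eq' Q hr]; exact neg_lt hr
  simp only [ChevalleyDatum.hWord, ChevalleyDatum.nWord, List.mem_append, List.mem_cons, List.not_mem_nil, or_false] at hp
  rcases hp with (rfl | rfl | rfl) | (rfl | rfl | rfl) <;> first | exact hr | exact hn

include Q in
lemma wM_hWord {Y : ℕ → K → N} {r : ℕ} (hr : r < D.nroots) (t : K) : wM Y (D.hWord r t) = hM D Y r t := by
  rw [wM, ChevalleyDatum.hWord, ChevalleyDatum.nWord, ChevalleyDatum.nWord, hM, nM, nM, neg_eq' Q hr]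
  simp [mul_assoc]

include Q in
lemma lift_stH {Y : ℕ → K → N} {r : ℕ} (hr : r < D.nroots) (t : K) : FreeGroup.lift (genMap D Y) (D.stH r t) = hM D Y r t := by
  rw [ChevalleyDatum.stH, lift_stWord Y (hWord_lt Q hr t), wM_hWord Q hr]

include Q in
lemma relABC_lift {Y : ℕ → K → N} (h : RelAB D Y) (h' : RelC D Y) : ∀ g ∈ D.steinbergRels K, FreeGroup.lift (genMap D Y) g = 1 := by
  rintro g (hg | ⟨r, t₁, t₂, hr, ht₁, ht₂, rfl⟩)
  · exact relAB_lift Q h g hg
  · rw [map_mul, map_mul, map_inv, lift_stH Q hr, lift_stH Q hr, lift_stH Q hr, h' r hr t₁ t₂ ht₁ ht₂, mul_inv_cancel]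

/-- lift to the cover -/
noncomputable def coverLift {Y : ℕ → K → N} (h : RelAB D Y) : D.SteinbergCover K →* N :=
  PresentedGroup.toGroup (relAB_lift Q h)

lemma coverLift_gen {Y : ℕ → K → N} (h : RelAB D Y) {r : ℕ} (hr : r < D.nroots) (t : K) :
    coverLift Q h (D.scGen K r t) = Y r t := by
  have : coverLift Q h (D.scGen K r t) = FreeGroup.lift (genMap D Y) (D.stX r t) := rfl
  rw [this, lift_stX Y hr]

/-- lift to the Steinberg group -/
noncomputable def groupLift {Y : ℕ → K → N} (h : RelAB D Y) (h' : RelC D Y) : D.SteinbergGroup K →* N :=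
  PresentedGroup.toGroup (relABC_lift Q h h')

lemma groupLift_gen {Y : ℕ → K → N} (h : RelAB D Y) (h' : RelC D Y) {r : ℕ} (hr : r < D.nroots) (t : K) :
    groupLift Q h h' (D.stGen K r t) = Y r t := by
  have : groupLift Q h h' (D.stGen K r t) = FreeGroup.lift (genMap D Y) (D.stX r t) := rfl
  rw [this, lift_stX Y hr]

/-- relations hold in a presented group -/
lemma mk_eq_one {α : Type*} {rels : Set (FreeGroup α)} {g : FreeGroup α} (h : g ∈ rels) : PresentedGroup.mk rels g = 1 :=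
  (QuotientGroup.eq_one_iff g).2 (Subgroup.subset_normalClosure h)

include Q in
/-- a presented group whose relators contain (R1), (R2) -/
lemma relAB_mk {rels : Set (FreeGroup (Fin D.nroots × K))} (hrels : D.steinbergRelsAB K ⊆ rels) :
    RelAB D (fun r t => PresentedGroup.mk rels (D.stX r t)) := by
  constructor
  · intro r hr t u
    have h1 := mk_eq_one (hrels (Or.inl ⟨r, t, u, hr, rfl⟩))
    rw [map_mul, map_mul, map_inv, mul_inv_eq_one] at h1
    exact h1
  · intro r hr s hs hne hneg t u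
    have h1 := mk_eq_one (hrels (Or.inr ⟨r, s, t, u, hr, hs, hne, by rw [neg_eq' Q hr]; exact hneg, rfl⟩))
    rw [map_mul, map_mul, map_mul, map_mul, map_inv, map_inv, map_inv, mul_inv_eq_one] at h1
    have h2 : PresentedGroup.mk rels (D.stWord (D.commWord K r s t u)) =
        wM (fun r t => PresentedGroup.mk rels (D.stX r t)) (D.commWord K r s t u) := by
      rw [ChevalleyDatum.stWord, map_list_prod, List.map_map, wM]
      rfl
    rw [h2] at h1
    rw [← h1]
    group

include Q in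
lemma gen_mk (rels : Set (FreeGroup (Fin D.nroots × K))) (g : PresentedGroup rels) :
    g ∈ YS (fun r (t : K) => PresentedGroup.mk rels (D.stX r t)) {r | r < D.nroots} := by
  obtain ⟨g, rfl⟩ := PresentedGroup.mk_surjective rels g
  induction g using FreeGroup.induction_on with
  | C1 => rw [map_one]; exact Subgroup.one_mem _
  | of p =>
    obtain ⟨r, t⟩ := p
    have h1 : (FreeGroup.of (r, t) : FreeGroup (Fin D.nroots × K)) = D.stX (r : ℕ) t := by
      rw [ChevalleyDatum.stX, dif_pos r.2]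
    have h2 : PresentedGroup.mk rels (D.stX (r : ℕ) t) ∈ YS (fun r (t : K) => PresentedGroup.mk rels (D.stX r t)) {r | r < D.nroots} :=
      YS_mem (X := fun r (t : K) => PresentedGroup.mk rels (D.stX r t)) (Ψ := {r | r < D.nroots}) r.2 t
    rw [← h1] at h2
    exact h2
  | inv_of p h => rw [map_inv]; exact Subgroup.inv_mem _ h
  | mul x y hx hy => rw [map_mul]; exact Subgroup.mul_mem _ hx hy

/-- the relations in the Chevalley group -/
lemma relAB_xg : RelAB D (xg Q) := by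
  constructor
  · intro r _ t u
    exact xg_add Q r t u
  · intro r hr s hs hne hneg t u
    apply Subtype.ext
    apply Units.ext
    have h1 := Q.comm r s hr hs hne (by rw [neg_eq' Q hr]; exact hneg) t u
    have h2 : ((wM (xg Q) (D.commWord K r s t u) : ↥(D.group K)) : GL D.Idx K) = wG Q (D.commWord K r s t u) := by
      rw [wM, wG, ← Subgroup.coe_subtype, map_list_prod, List.map_map]
      rfl
    rw [Subgroup.coe_mul, Subgroup.coe_mul, Subgroup.coe_mul, h2, Units.val_mul, Units.val_mul, Units.val_mul, wG_val]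
    exact h1

lemma hM_xg (r : ℕ) (t : K) : ((hM D (xg Q) r t : ↥(D.group K)) : GL D.Idx K) = hG Q r t := rfl

lemma relC_xg : RelC D (xg Q) := by
  intro r hr t u ht hu
  apply Subtype.ext
  rw [Subgroup.coe_mul, hM_xg, hM_xg, hM_xg]
  have h1 := hG_eq Q hr (Units.mk0 t ht)
  have h2 := hG_eq Q hr (Units.mk0 u hu)
  have h3 := hG_eq Q hr (Units.mk0 t ht * Units.mk0 u hu)
  rw [Units.val_mul, Units.val_mk0, Units.val_mk0] at h3
  rw [Units.val_mk0] at h1 h2
  rw [h1, h2, h3, dG_mul]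
  apply dG_congr
  intro s _
  rw [cp, cp, cp, mul_zpow]

/-- families given by presented groups -/
lemma stF_mk {rels : Set (FreeGroup (Fin D.nroots × K))} (hrels : D.steinbergRelsAB K ⊆ rels)
    (θ : PresentedGroup rels →* ↥(D.group K)) (hθ : ∀ r < D.nroots, ∀ t, θ (PresentedGroup.mk rels (D.stX r t)) = xg Q r t) :
    StF Q (fun r t => PresentedGroup.mk rels (D.stX r t)) ((D.group K).subtype.comp θ) :=
  ⟨(relAB_mk Q hrels).add, (relAB_mk Q hrels).comm, fun r hr t => by
    show ((θ _ : ↥(D.group K)) : GL D.Idx K) = _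
    rw [hθ r hr]; rfl⟩

lemma surj_of_gen {rels : Set (FreeGroup (Fin D.nroots × K))}
    (θ : PresentedGroup rels →* ↥(D.group K)) (hθ : ∀ r < D.nroots, ∀ t, θ (PresentedGroup.mk rels (D.stX r t)) = xg Q r t) :
    Function.Surjective θ := by
  rw [← MonoidHom.range_eq_top]
  exact eq_top_of_xg Q _ fun r hr t => ⟨_, hθ r hr t⟩

include Q in
theorem ker_le_center (hG : GenD D) {rels : Set (FreeGroup (Fin D.nroots × K))} (hrels : D.steinbergRelsAB K ⊆ rels)
    (θ : PresentedGroup rels →* ↥(D.group K)) (hθ : ∀ r < D.nroots, ∀ t, θ (PresentedGroup.mk rels (D.stX r t)) = xg Q r t) :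
    θ.ker ≤ Subgroup.center (PresentedGroup rels) := by
  intro g hg
  refine (stF_mk Q hrels θ hθ).ker_central hG (gen_mk Q rels) ?_
  show ((θ g : ↥(D.group K)) : GL D.Idx K) = 1
  rw [MonoidHom.mem_ker.1 hg]; rfl

end groups

end Cfsg.Agent.Lib.ChevAlg
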