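import Cfsg.Agent.Lib.ChevStE
import Cfsg.Agent.Lib.ChevAutS

/-!
# Steinberg's theorem on the presentation
-/

set_option autoImplicit false

namespace Cfsg.Agent.Lib.ChevAlg

open Cfsg.Lie Cfsg.Agent.Lib.ChevTab Matrix Pointwise Cfsg.Agent.H8.AutBN

variable {D : ChevalleyDatum} {K : Type*} [Field K] (Q : ChevO D K)

include Q in
/-- Chevalley groups have trivial centre -/
theorem center_eq_bot : Subgroup.center ↥(D.group K) = ⊥ := by
  rw [eq_bot_iff]
  intro x hx
  have hc : c x = (1 : MulAut ↥(D.group K)) := by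
    refine DFunLike.ext _ _ fun y => ?_
    show x * y * x⁻¹ = y
    rw [← Subgroup.mem_center_iff.1 hx y]; group
  have h1 : (x : GL D.Idx K) ∈ D.diagonalSubgroup K := by
    rw [mem_H_iff Q, hc]
    exact ⟨one_smul _ _, one_smul _ _⟩
  obtain ⟨χ, hχ, e⟩ := diagonal_mono Q h1
  have h2 : ∀ s < D.nroots, χ s = 1 := by
    intro s hs
    have h3 := congrArg Subtype.val (Subgroup.mem_center_iff.1 hx (xg Q s 1))
    have h4 : xG Q s 1 * (x : GL D.Idx K) = x * xG Q s 1 := h3
    have h5 := dG_xG Q hχ hs 1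
    rw [← e, ← h4, mul_inv_cancel_right, mul_one] at h5
    exact Units.ext (xG_inj Q hs h5).symm
  rw [Subgroup.mem_bot]
  apply Subtype.ext
  rw [e]
  have h6 : dG D χ = dG D (fun _ => (1 : Kˣ)) := dG_congr h2
  rw [h6, Subgroup.coe_one]
  apply Units.ext
  show D.charDiag K (fun _ => 1) = 1
  ext a b
  rcases a with a | a <;> rcases b with b | b <;>
    simp [ChevalleyDatum.charDiag, Matrix.diagonal, Matrix.one_apply]

include Q in
lemma neg_simple_lt' {r : ℕ} (hr : r < D.nroots) : D.neg r < D.nroots := by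
  rw [neg_eq' Q hr]; exact neg_lt hr

/-- the canonical homomorphism -/
noncomputable def coverHom : D.SteinbergCover K →* ↥(D.group K) := coverLift Q (relAB_xg Q)

lemma coverHom_gen {r : ℕ} (hr : r < D.nroots) (t : K) : coverHom Q (D.scGen K r t) = xg Q r t := coverLift_gen Q _ hr t

lemma coverStF : StF Q (D.scGen K) ((D.group K).subtype.comp (coverHom Q)) :=
  stF_mk Q le_rfl (coverHom Q) fun _ hr t => coverHom_gen Q hr t

include Q in
lemma coverGen (g : D.SteinbergCover K) : g ∈ YS (D.scGen K) {r | r < D.nroots} := gen_mk Q _ g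

/-- the canonical homomorphism -/
noncomputable def groupHom : D.SteinbergGroup K →* ↥(D.group K) := groupLift Q (relAB_xg Q) (relC_xg Q)

lemma groupHom_gen {r : ℕ} (hr : r < D.nroots) (t : K) : groupHom Q (D.stGen K r t) = xg Q r t := groupLift_gen Q _ _ hr t

lemma groupStF : StF Q (D.stGen K) ((D.group K).subtype.comp (groupHom Q)) :=
  stF_mk Q Set.subset_union_left (groupHom Q) fun _ hr t => groupHom_gen Q hr t

include Q in
lemma groupGen (g : D.SteinbergGroup K) : g ∈ YS (D.stGen K) {r | r < D.nroots} := gen_mk Q _ g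

lemma coverHom_surj : Function.Surjective (coverHom Q) := surj_of_gen Q _ fun _ hr t => coverHom_gen Q hr t

lemma groupHom_surj : Function.Surjective (groupHom Q) := surj_of_gen Q _ fun _ hr t => groupHom_gen Q hr t

include Q in
lemma ker_eq_center {M : Type*} [Group M] (θ : M →* ↥(D.group K)) (hs : Function.Surjective θ)
    (h : θ.ker ≤ Subgroup.center M) : θ.ker = Subgroup.center M := by
  apply le_antisymm h
  intro z hz
  rw [MonoidHom.mem_ker, ← Subgroup.mem_bot, ← center_eq_bot Q, Subgroup.mem_center_iff]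
  intro y
  obtain ⟨y, rfl⟩ := hs y
  rw [← map_mul, ← map_mul, Subgroup.mem_center_iff.1 hz y]

theorem coverHom_ker (hG : GenD D) : (coverHom Q).ker = Subgroup.center (D.SteinbergCover K) :=
  ker_eq_center Q _ (coverHom_surj Q) (ker_le_center Q hG le_rfl _ fun _ hr t => coverHom_gen Q hr t)

theorem groupHom_ker (hG : GenD D) : (groupHom Q).ker = Subgroup.center (D.SteinbergGroup K) :=
  ker_eq_center Q _ (groupHom_surj Q) (ker_le_center Q hG Set.subset_union_left _ fun _ hr t => groupHom_gen Q hr t)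

include Q in
/-- (R3) holds in the Steinberg group -/
lemma groupRelC : RelC D (D.stGen K) := by
  intro r hr t u ht hu
  have h1 := mk_eq_one (rels := D.steinbergRels K) (Or.inr ⟨r, t, u, hr, ht, hu, rfl⟩)
  rw [map_mul, map_mul, map_inv, mul_inv_eq_one] at h1
  have h2 : ∀ t : K, PresentedGroup.mk (D.steinbergRels K) (D.stH r t) = hM D (D.stGen K) r t := by
    intro t
    rw [ChevalleyDatum.stH, ChevalleyDatum.stWord, map_list_prod, List.map_map, ← wM_hWord Q hr]
    rfl
  rw [h2, h2, h2] at h1
  exact h1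

end Cfsg.Agent.Lib.ChevAlg
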