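import Cfsg.Agent.Lib.ChevStF
import Mathlib.GroupTheory.NoncommPiCoprod

/-!
# The torus of a Steinberg family
-/

set_option autoImplicit false

namespace Cfsg.Agent.Lib.ChevAlg

open Cfsg.Lie Cfsg.Agent.Lib.ChevTab Matrix

variable {D : ChevalleyDatum} {F : Type*} [Field F] {Q : ChevO D F} {M : Type*} [Group M] {X : ℕ → F → M} {θ : M →* GL D.Idx F}
  (hX : StF Q X θ) (hG : GenD D) (hC : RelC D X)

include hX hG hC

lemma StF.h_commute {i j : ℕ} (hi : i < D.nroots) (hj : j < D.nroots) (t u : Fˣ) :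
    hM D X i t * hM D X j u = hM D X j u * hM D X i t := by
  have h1 := hX.hM_mn hG hi t
  set h := hM D X i t with hh
  set v : Fˣ := cp D i t j with hv
  have h2 : h * nM D X j u * h⁻¹ = nM D X j (v * u) := h1.conj_nM ⟨j, hj⟩ u
  have h3 : h * nM D X j (-1) * h⁻¹ = nM D X j (v * (-1)) := h1.conj_nM ⟨j, hj⟩ (-1)
  have h4 : h * hM D X j u * h⁻¹ = hM D X j (v * u) * (hM D X j v)⁻¹ := by
    have e1 : h * hM D X j u * h⁻¹ = (h * nM D X j u * h⁻¹) * (h * nM D X j (-1) * h⁻¹) := by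
      rw [hM]; group
    have e2 : nM D X j (v * (-1)) = (nM D X j (v : F))⁻¹ := by
      rw [hX.nM_inv hj, mul_neg, mul_one]
    rw [e1, h2, h3, e2, hM, hM]
    group
  have h5 := hC j hj v u (Units.ne_zero _) (Units.ne_zero _)
  have h6 := hC j hj u v (Units.ne_zero _) (Units.ne_zero _)
  rw [mul_comm (u : F) v, ← h5] at h6
  rw [← h5, ← h6, mul_inv_cancel_right] at h4
  rw [← mul_inv_eq_iff_eq_mul]
  exact h4

/-- `h_i` as a homomorphism -/
def hHom {D : ChevalleyDatum} {F : Type*} [Field F] {M : Type*} [Group M] {X : ℕ → F → M} (hC : RelC D X) {i : ℕ}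
    (hi : i < D.nroots) : Fˣ →* M where
  toFun t := hM D X i t
  map_one' := by
    have := hC i hi 1 1 one_ne_zero one_ne_zero
    rw [mul_one] at this
    simpa using this
  map_mul' t u := by
    have := hC i hi t u (Units.ne_zero _) (Units.ne_zero _)
    rw [Units.val_mul]
    exact this.symm

lemma StF.hHom_comm : Pairwise fun i j : Fin D.rank => ∀ (x y : Fˣ),
    Commute (hHom hC (Q.C.simple_lt i i.2) x) (hHom hC (Q.C.simple_lt j j.2) y) := fun i j _ x y =>
  hX.h_commute hG hC (Q.C.simple_lt i i.2) (Q.C.simple_lt j j.2) x y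

/-- the torus homomorphism -/
noncomputable def StF.tor : (Fin D.rank → Fˣ) →* M :=
  MonoidHom.noncommPiCoprod (fun i : Fin D.rank => hHom hC (Q.C.simple_lt i i.2)) (hX.hHom_comm hG hC)

lemma StF.tor_single (i : Fin D.rank) (t : Fˣ) : hX.tor hG hC (Pi.mulSingle i t) = hM D X (D.simple i) t := by
  rw [StF.tor, MonoidHom.noncommPiCoprod_mulSingle]
  rfl

lemma StF.tor_range : (hX.tor hG hC).range = HM D X := by
  rw [StF.tor, MonoidHom.noncommPiCoprod_range]
  apply le_antisymm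
  · apply iSup_le
    rintro i _ ⟨t, rfl⟩
    exact Subgroup.subset_closure ⟨i, t, i.2, Units.ne_zero _, rfl⟩
  · rw [HM, Subgroup.closure_le]
    rintro _ ⟨i, t, hi, ht, rfl⟩
    exact Subgroup.mem_iSup_of_mem ⟨i, hi⟩ ⟨Units.mk0 t ht, rfl⟩

lemma StF.map_tor (c : Fin D.rank → Fˣ) : θ (hX.tor hG hC c) = torHom D F c := by
  have : θ.comp (hX.tor hG hC) = torHom D F := by
    apply MonoidHom.pi_ext
    intro i t
    rw [MonoidHom.comp_apply, hX.tor_single hG hC, hX.map_hM (Q.C.simple_lt i i.2)]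
    show _ = ChevAlg.tor D (ext1 (Pi.mulSingle i t))
    rw [ChevAlg.tor]
    apply dG_congr
    intro s hs
    rw [prod_range_ext1, Finset.prod_eq_single i]
    · rw [Pi.mulSingle_eq_same, cp, pairD_simple Q.C i.2]
    · intro j _ hj
      rw [Pi.mulSingle_eq_of_ne hj, _root_.one_zpow]
    · intro h; exact absurd (Finset.mem_univ _) h
  exact DFunLike.congr_fun this c

theorem StF.mem_ker (hgen : ∀ g : M, g ∈ YS X {r | r < D.nroots}) {g : M} :
    θ g = 1 ↔ ∃ c : Fin D.rank → Fˣ, act (cartM D) c = (fun _ => 1) ∧ g = hX.tor hG hC c := by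
  constructor
  · intro h
    have h1 := hX.ker_le_HM hG hgen h
    rw [← hX.tor_range hG hC] at h1
    obtain ⟨c, rfl⟩ := h1
    rw [hX.map_tor hG hC] at h
    exact ⟨c, (tor_eq_one_iff Q c).1 h, rfl⟩
  · rintro ⟨c, hc, rfl⟩
    rw [hX.map_tor hG hC]
    exact (tor_eq_one_iff Q c).2 hc

omit hX hG hC

lemma act_eq_one_of_unimod {G : Type*} [CommGroup G] {d : List ℕ} (h : Smith D d) (hd : ∀ i : Fin D.rank, d.getD i 0 = 1)
    {c : Fin D.rank → G} (hc : act (cartM D) c = fun _ => 1) : c = fun _ => 1 := by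
  obtain ⟨P, P', R, R', h1, h2, h3, h4, h5⟩ := h.ex
  have h6 : P * cartM D * R = 1 := by
    rw [h5]
    ext i j
    by_cases hij : i = j
    · subst hij; rw [Matrix.diagonal_apply_eq, Matrix.one_apply_eq, hd, Nat.cast_one]
    · rw [Matrix.diagonal_apply_ne _ hij, Matrix.one_apply_ne hij]
  have hone : ∀ B : Matrix (Fin D.rank) (Fin D.rank) ℤ, act B (fun _ => (1 : G)) = fun _ => 1 := by
    intro B; funext j; simp [act]
  -- `A = P' R'`, `A⁻¹ = R P`
  have h7 : cartM D * (R * P) = 1 := by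
    have e : P' * (P * cartM D * R) * P = 1 := by rw [h6, mul_one, h2]
    have e2 : P' * (P * cartM D * R) * P = (P' * P) * (cartM D * (R * P)) := by simp only [mul_assoc]
    rw [e2, h2, one_mul] at e
    exact e
  have h8 := congrArg (act (R * P)) hc
  rw [← act_mul, h7, act_one, hone] at h8
  exact h8

include hX hG hC in
theorem StF.injective_of_unimod {d : List ℕ} (h : Smith D d) (hd : ∀ i : Fin D.rank, d.getD i 0 = 1)
    (hgen : ∀ g : M, g ∈ YS X {r | r < D.nroots}) : Function.Injective θ := by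
  rw [injective_iff_map_eq_one]
  intro g hg
  obtain ⟨c, hc, rfl⟩ := (hX.mem_ker hG hC hgen).1 hg
  rw [act_eq_one_of_unimod h hd hc]
  exact map_one _

end Cfsg.Agent.Lib.ChevAlg
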