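import Cfsg.Agent.Lib.ChevStG

/-!
# (R3) follows from (R1), (R2) over a finite field
-/

set_option autoImplicit false

namespace Cfsg.Agent.Lib.ChevAlg

open Cfsg.Lie Cfsg.Agent.Lib.ChevTab Matrix

section field

variable {F : Type*} [Field F]

open Classical in
/-- in a finite field where not everything is a square there are non-squares `a`, `1 - a` -/
lemma exists_nonsq [Finite F] {g : F} (hg : ¬ IsSquare g) :
    ∃ a : F, a ≠ 0 ∧ 1 - a ≠ 0 ∧ ¬ IsSquare a ∧ ¬ IsSquare (1 - a) := by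
  have : Fintype F := Fintype.ofFinite F
  by_contra hc
  push Not at hc
  have hg0 : g ≠ 0 := by rintro rfl; exact hg (IsSquare.zero)
  set N := Finset.univ.filter fun a : F => ¬ IsSquare a with hN
  set S := Finset.univ.filter fun a : F => a ≠ 0 ∧ IsSquare a with hS
  have h0 : ∀ a : F, ¬ IsSquare a → a ≠ 0 := by rintro a ha rfl; exact ha IsSquare.zero
  have h1 : ∀ a : F, ¬ IsSquare a → 1 - a ≠ 0 := by
    intro a ha h
    apply ha
    rw [← sub_eq_zero.1 h]
    exact IsSquare.one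
  have h2 : N.image (fun a => 1 - a) ⊆ S.erase 1 := by
    intro x hx
    rw [Finset.mem_image] at hx
    obtain ⟨a, ha, rfl⟩ := hx
    rw [hN, Finset.mem_filter] at ha
    rw [Finset.mem_erase, hS, Finset.mem_filter]
    refine ⟨?_, Finset.mem_univ _, h1 a ha.2, ?_⟩
    · intro h
      exact h0 a ha.2 (by simpa using h)
    · by_contra hns
      exact hns (hc a (h0 a ha.2) (h1 a ha.2) ha.2)
  have h3 : (N.image fun a => 1 - a).card = N.card := Finset.card_image_of_injective _ (fun a b h => by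
    simpa using h)
  have h4 : (1 : F) ∈ S := by rw [hS, Finset.mem_filter]; exact ⟨Finset.mem_univ _, one_ne_zero, IsSquare.one⟩
  have h5 : N.card < S.card := by
    rw [← h3]
    exact (Finset.card_le_card h2).trans_lt (Finset.card_erase_lt_of_mem h4)
  have h6 : S.image (fun a => g * a) ⊆ N := by
    intro x hx
    rw [Finset.mem_image] at hx
    obtain ⟨a, ha, rfl⟩ := hx
    rw [hS, Finset.mem_filter] at ha
    rw [hN, Finset.mem_filter]
    refine ⟨Finset.mem_univ _, fun h => hg ?_⟩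
    have h7 : g = (g * a) / a := by field_simp [ha.2.1]
    rw [h7]
    exact h.div ha.2.2
  have h7 : (S.image fun a => g * a).card = S.card := Finset.card_image_of_injective _ (mul_right_injective₀ hg0)
  have h8 := Finset.card_le_card h6
  omega

/-- the key identity in the rank one group -/
lemma sl2_key {M : Type*} [Group M] {x y w : F → M} (hx : ∀ a b, x a * x b = x (a + b)) (hy : ∀ a b, y a * y b = y (a + b))
    (hw : ∀ t, w t = x t * y (-t⁻¹) * x t)
    (cx : ∀ t, t ≠ 0 → ∀ a, w t * x a * (w t)⁻¹ = y (-t⁻¹ * t⁻¹ * a))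
    (cy : ∀ t, t ≠ 0 → ∀ a, w t * y a * (w t)⁻¹ = x (-t * t * a)) {t u : F} (ht : t ≠ 0) (hu : u ≠ 0) (htu : t + u = 1) :
    w u * w (-1) * w t = w (t * u) := by
  have hx0 : x 0 = 1 := by
    have := hx 0 0
    rw [add_zero] at this
    exact mul_eq_left.1 this
  have hy0 : y 0 = 1 := by
    have := hy 0 0
    rw [add_zero] at this
    exact mul_eq_left.1 this
  have hxi : ∀ a, (x a)⁻¹ = x (-a) := fun a => by rw [inv_eq_iff_mul_eq_one, hx, add_neg_cancel, hx0]
  have hyi : ∀ a, (y a)⁻¹ = y (-a) := fun a => by rw [inv_eq_iff_mul_eq_one, hy, add_neg_cancel, hy0]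
  have hwi : ∀ t, (w t)⁻¹ = w (-t) := by
    intro t
    rw [hw, hw, _root_.mul_inv_rev, _root_.mul_inv_rev, hxi, hyi, inv_neg, neg_neg, mul_assoc]
  have hw' : ∀ t, t ≠ 0 → w t = y (-t⁻¹) * x t * y (-t⁻¹) := by
    intro t ht
    have e : w t = (w t * x t * (w t)⁻¹) * (w t * y (-t⁻¹) * (w t)⁻¹) * (w t * x t * (w t)⁻¹) := by
      have : (w t * x t * (w t)⁻¹) * (w t * y (-t⁻¹) * (w t)⁻¹) * (w t * x t * (w t)⁻¹) = w t * (x t * y (-t⁻¹) * x t) * (w t)⁻¹ := by group
      rw [this, ← hw, mul_inv_cancel_right]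
    rw [e, cx t ht, cy t ht]
    have e1 : -t⁻¹ * t⁻¹ * t = -t⁻¹ := by field_simp
    have e2 : -t * t * -t⁻¹ = t := by field_simp
    rw [e1, e2]
  have hxw : ∀ t, t ≠ 0 → x t = y t⁻¹ * w t * y t⁻¹ := by
    intro t ht
    rw [hw' t ht]
    have e1 : y t⁻¹ * y (-t⁻¹) = 1 := by rw [hy, add_neg_cancel, hy0]
    have e2 : y (-t⁻¹) * y t⁻¹ = 1 := by rw [hy, neg_add_cancel, hy0]
    calc x t = (y t⁻¹ * y (-t⁻¹)) * x t * (y (-t⁻¹) * y t⁻¹) := by rw [e1, e2]; simp
      _ = _ := by group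
  have hyw : ∀ s, y s⁻¹ = x s * w (-s) * x s := by
    intro s
    rw [hw]
    have e1 : x s * x (-s) = 1 := by rw [hx, add_neg_cancel, hx0]
    have e2 : x (-s) * x s = 1 := by rw [hx, neg_add_cancel, hx0]
    rw [inv_neg, neg_neg]
    calc y s⁻¹ = (x s * x (-s)) * y s⁻¹ * (x (-s) * x s) := by rw [e1, e2]; simp
      _ = _ := by group
  have htu0 : t * u ≠ 0 := mul_ne_zero ht hu
  -- `x(t) x(u) = x(1)`
  have h1 : x t * x u = x 1 := by rw [hx, htu]
  rw [hxw t ht, hxw u hu, hxw 1 one_ne_zero] at h1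
  have h2 : w t * (y t⁻¹ * y u⁻¹) * w u = ((y t⁻¹)⁻¹ * y 1⁻¹) * w 1 * (y 1⁻¹ * (y u⁻¹)⁻¹) := by
    have h3 : (y t⁻¹)⁻¹ * (y t⁻¹ * w t * y t⁻¹ * (y u⁻¹ * w u * y u⁻¹)) * (y u⁻¹)⁻¹ =
      (y t⁻¹)⁻¹ * (y 1⁻¹ * w 1 * y 1⁻¹) * (y u⁻¹)⁻¹ := by rw [h1]
    have h4 : (y t⁻¹)⁻¹ * (y t⁻¹ * w t * y t⁻¹ * (y u⁻¹ * w u * y u⁻¹)) * (y u⁻¹)⁻¹ = w t * (y t⁻¹ * y u⁻¹) * w u := by group
    rw [h4] at h3
    rw [h3]; group
  have e3 : t⁻¹ + u⁻¹ = (t * u)⁻¹ := by field_simp; rw [add_comm, htu]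
  have e4 : -t⁻¹ + 1⁻¹ = - (u / t) := by field_simp; linear_combination htu
  have e5 : (1 : F)⁻¹ + -u⁻¹ = -(t / u) := by field_simp; linear_combination htu
  rw [hy, e3, hyi, hyi, hy, hy, e4, e5, hyw] at h2
  have e6 : w t * x (t * u) * (w t)⁻¹ = y (-(u / t)) := by
    rw [cx t ht]; congr 1; field_simp
  have e7 : (w u)⁻¹ * x (t * u) * w u = y (-(t / u)) := by
    have := cx (-u) (neg_ne_zero.2 hu) (t * u)
    rw [← hwi, inv_inv] at this
    rw [this]; congr 1; field_simp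
  have e8 : w t * (x (t * u) * w (-(t * u)) * x (t * u)) * w u =
      (w t * x (t * u) * (w t)⁻¹) * (w t * w (-(t * u)) * w u) * ((w u)⁻¹ * x (t * u) * w u) := by group
  rw [e8, e6, e7] at h2
  have h5 : w t * w (-(t * u)) * w u = w 1 := by
    have := mul_right_cancel h2
    exact mul_left_cancel this
  rw [← hwi (1 : F), ← h5]
  rw [← hwi (t * u)]
  group

end field

variable {D : ChevalleyDatum} {F : Type*} [Field F] {Q : ChevO D F} {M : Type*} [Group M] {X : ℕ → F → M} {θ : M →* GL D.Idx F}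
  (hX : StF Q X θ) (hG : GenD D)

include hX hG

lemma StF.hM_conj_hM {i j : ℕ} (hi : i < D.nroots) (hj : j < D.nroots) (t u : Fˣ) :
    hM D X i t * hM D X j u * (hM D X i t)⁻¹ = hM D X j ((cp D i t j * u : Fˣ) : F) * (hM D X j (cp D i t j))⁻¹ := by
  have h1 := hX.hM_mn hG hi t
  set h := hM D X i t with hh
  set v : Fˣ := cp D i t j with hv
  have h2 : h * nM D X j u * h⁻¹ = nM D X j (v * u) := h1.conj_nM ⟨j, hj⟩ u
  have h3 : h * nM D X j (-1) * h⁻¹ = nM D X j (v * (-1)) := h1.conj_nM ⟨j, hj⟩ (-1)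
  have e1 : h * hM D X j u * h⁻¹ = (h * nM D X j u * h⁻¹) * (h * nM D X j (-1) * h⁻¹) := by
    rw [hM]; group
  have e2 : nM D X j (v * (-1)) = (nM D X j (v : F))⁻¹ := by
    rw [hX.nM_inv hj, mul_neg, mul_one]
  rw [e1, h2, h3, e2, hM, hM, Units.val_mul]
  group

/-- conjugation of `n_r` -/
lemma StF.n_conj_x {r : Fin D.nroots} (t : Fˣ) (a : F) :
    nM D X r t * X r a * (nM D X r t)⁻¹ = X (D.nroots - 1 - r) (-(t⁻¹ : Fˣ) * (t⁻¹ : Fˣ) * a) ∧
    nM D X r t * X (D.nroots - 1 - r) a * (nM D X r t)⁻¹ = X r (-t * t * a) := by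
  obtain ⟨w, v, h1, h2⟩ := MN.nM hX hG r t
  have h3 := h1.c r a
  have h4 := h1.c (Fin.rev r) a
  rw [h1.m.waut.rev, h2, Fin.rev_rev, fin_rev_val] at h4
  rw [h2, fin_rev_val] at h3
  have h5 := h1.m.urev r
  -- determine `v r`
  have h6 : (v r : F) = -(t⁻¹ : Fˣ) * (t⁻¹ : Fˣ) := by
    have h7 := h1.m.conj r 1
    rw [h2, hX.map_nM r.2, fin_rev_val, mul_one] at h7
    have h8 := nG_eq Q r.2 t
    have h9 : nG Q r 1 * xG Q r 1 * (nG Q r 1)⁻¹ = xG Q (D.nroots - 1 - r) (-1) := by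
      have := (slRel Q r).n_x 1
      rw [← mul_inv_eq_iff_eq_mul] at this
      exact this
    have h10 : nG Q r t * xG Q r 1 * (nG Q r t)⁻¹ = dG D (cp D r t) * (nG Q r 1 * xG Q r 1 * (nG Q r 1)⁻¹) * (dG D (cp D r t))⁻¹ := by
      rw [h8]; group
    rw [h9, dG_xG Q (isChar_cp Q.C r t) (neg_lt r.2)] at h10
    rw [h10] at h7
    have h11 := xG_inj Q (neg_lt r.2) h7
    rw [← h11, cp, pairD_neg_right Q.C r r.2, Q.C.pair_self r r.2]
    rw [_root_.zpow_neg]
    simp only [Units.val_inv_eq_inv_val]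
    norm_cast
    push_cast
    have := t.ne_zero
    field_simp
  constructor
  · rw [h3, h6]
  · rw [h4, h5, Units.val_inv_eq_inv_val, h6]
    congr 1
    rw [Units.val_inv_eq_inv_val]
    have := t.ne_zero
    field_simp

/-- **(R3) over a finite field** -/
theorem StF.relC_of_finite [Finite F] (hgen : ∀ g : M, g ∈ YS X {r | r < D.nroots}) : RelC D X := by
  intro r hr
  set h : Fˣ → M := fun t => hM D X r t with hh
  -- centrality
  have hcen : ∀ t u : Fˣ, h t * h u * (h (t * u))⁻¹ ∈ Subgroup.center M := by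
    intro t u
    apply hX.ker_central hG hgen
    rw [map_mul, map_mul, map_inv, hX.map_hM hr, hX.map_hM hr, hX.map_hM hr, dG_mul, mul_inv_eq_one]
    apply dG_congr
    intro s _
    rw [cp, cp, cp, mul_zpow]
  have hcm : ∀ t u : Fˣ, ∀ z : M, (h t * h u * (h (t * u))⁻¹) * z = z * (h t * h u * (h (t * u))⁻¹) := fun t u z =>
    (Subgroup.mem_center_iff.1 (hcen t u) z).symm
  -- everything commutes
  set φ : Fˣ →* M ⧸ Subgroup.center M := MonoidHom.mk' (fun t => QuotientGroup.mk (h t)) (fun t u => by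
    rw [← QuotientGroup.mk_mul, QuotientGroup.eq]
    have := Subgroup.inv_mem _ (hcen t u)
    have e : (h (t * u))⁻¹ * (h t * h u) = (h (t * u))⁻¹ * (h t * h u * (h (t * u))⁻¹) * h (t * u) := by group
    rw [e, mul_assoc, hcm, ← mul_assoc, inv_mul_cancel, one_mul]
    exact hcen t u) with hφ
  obtain ⟨g, hg⟩ := IsCyclic.exists_generator (α := Fˣ)
  have hpow : ∀ k : ℤ, ∃ z ∈ Subgroup.center M, h (g ^ k) = h g ^ k * z := by
    intro k
    have h1 : φ (g ^ k) = φ g ^ k := map_zpow φ g k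
    have h2 : (QuotientGroup.mk (h (g ^ k)) : M ⧸ Subgroup.center M) = QuotientGroup.mk (h g ^ k) := h1
    rw [eq_comm, QuotientGroup.eq] at h2
    exact ⟨_, h2, by group⟩
  have hcomm : ∀ t u : Fˣ, h t * h u = h u * h t := by
    intro t u
    obtain ⟨k, rfl⟩ := hg t
    obtain ⟨l, rfl⟩ := hg u
    obtain ⟨z, hz, e1⟩ := hpow k
    obtain ⟨z', hz', e2⟩ := hpow l
    have cz := Subgroup.mem_center_iff.1 hz
    have cz' := Subgroup.mem_center_iff.1 hz'
    simp only at *
    rw [e1, e2]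
    calc h g ^ k * z * (h g ^ l * z') = h g ^ k * (z * h g ^ l) * z' := by group
      _ = h g ^ k * (h g ^ l * z) * z' := by rw [cz]
      _ = h g ^ l * h g ^ k * (z * z') := by rw [← mul_assoc, ← _root_.zpow_add, add_comm, _root_.zpow_add, mul_assoc]
      _ = h g ^ l * h g ^ k * (z' * z) := by rw [cz' z]
      _ = h g ^ l * (h g ^ k * z') * z := by group
      _ = h g ^ l * (z' * h g ^ k) * z := by rw [cz']
      _ = _ := by group
  -- squares
  have hsq : ∀ t u : Fˣ, h (t ^ 2) * h u = h (t ^ 2 * u) := by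
    intro t u
    have h1 := hX.hM_conj_hM hG hr hr t u
    rw [cp, Q.C.pair_self r hr] at h1
    have e0 : (t ^ (2 : ℤ) : Fˣ) = t ^ 2 := by norm_cast
    rw [e0] at h1
    have h2 : h t * h u * (h t)⁻¹ = h (t ^ 2 * u) * (h (t ^ 2))⁻¹ := h1
    rw [hcomm, mul_inv_cancel_right] at h2
    rw [hcomm, h2]; group
  have hfin : ∀ t u : Fˣ, h t * h u = h (t * u) := by
    by_cases hgs : IsSquare g
    · obtain ⟨s, hs⟩ := hgs
      intro t u
      obtain ⟨k, rfl⟩ := hg t
      have : (fun x : ℤ => g ^ x) k = (s ^ k) ^ 2 := by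
        show g ^ k = _
        rw [hs, mul_zpow, pow_two]
      rw [this]
      exact hsq _ u
    · have hgF : ¬ IsSquare (g : F) := by
        rintro ⟨s, hs⟩
        have hs0 : s ≠ 0 := by rintro rfl; exact g.ne_zero (by rw [hs, mul_zero])
        exact hgs ⟨Units.mk0 s hs0, Units.ext hs⟩
      have hodd : ∀ t : Fˣ, ¬ IsSquare t → ∃ s : Fˣ, t = s ^ 2 * g := by
        intro t ht
        obtain ⟨k, rfl⟩ := hg t
        rcases Int.even_or_odd' k with ⟨m, hm | hm⟩
        · exfalso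
          apply ht
          refine ⟨g ^ m, ?_⟩
          show g ^ k = _
          rw [hm, ← _root_.zpow_add]; congr 1; ring
        · refine ⟨g ^ m, ?_⟩
          show g ^ k = _
          rw [hm, _root_.zpow_add, zpow_one, two_mul, _root_.zpow_add, pow_two]
      -- the key non-square pair
      have hkey : ∃ a b : Fˣ, ¬ IsSquare a ∧ ¬ IsSquare b ∧ h a * h b = h (a * b) := by
        obtain ⟨a, ha0, hb0, ha, hb⟩ := exists_nonsq hgF
        refine ⟨Units.mk0 a ha0, Units.mk0 (1 - a) hb0, ?_, ?_, ?_⟩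
        · rintro ⟨s, hs⟩
          exact ha ⟨s, congrArg Units.val hs⟩
        · rintro ⟨s, hs⟩
          exact hb ⟨s, congrArg Units.val hs⟩
        · have h1 := sl2_key (x := X r) (y := X (D.nroots - 1 - r)) (w := nM D X r) (hX.add r hr)
            (hX.add _ (neg_lt hr)) (fun t => rfl)
            (fun t ht a => by
              have := (hX.n_conj_x hG (r := ⟨r, hr⟩) (Units.mk0 t ht) a).1
              simpa using this)
            (fun t ht a => by
              have := (hX.n_conj_x hG (r := ⟨r, hr⟩) (Units.mk0 t ht) a).2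
              simpa using this) hb0 ha0 (by ring)
          show hM D X r a * hM D X r (1 - a) = hM D X r (a * (1 - a))
          rw [hM, hM, hM, mul_comm a (1 - a), ← h1]
          group
      obtain ⟨a, b, ha, hb, hab⟩ := hkey
      obtain ⟨s, hs⟩ := hodd a ha
      obtain ⟨s', hs'⟩ := hodd b hb
      have hgg : h g * h g = h (g * g) := by
        rw [hs, hs', ← hsq, ← hsq] at hab
        have e1 : s ^ 2 * g * (s' ^ 2 * g) = s ^ 2 * (s' ^ 2 * (g * g)) := by
          rw [mul_assoc, mul_left_comm g]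
        rw [e1, ← hsq, ← hsq] at hab
        have e2 : h (s ^ 2) * h g * (h (s' ^ 2) * h g) = h (s ^ 2) * (h (s' ^ 2) * (h g * h g)) := by
          rw [mul_assoc, ← mul_assoc (h g), hcomm g]; group
        rw [e2] at hab
        exact mul_left_cancel (mul_left_cancel hab)
      intro t u
      by_cases ht : IsSquare t
      · obtain ⟨s, rfl⟩ := ht
        rw [← pow_two]; exact hsq s u
      · by_cases hu : IsSquare u
        · obtain ⟨s, rfl⟩ := hu
          rw [← pow_two, hcomm, mul_comm]; exact hsq s t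
        · obtain ⟨s, rfl⟩ := hodd t ht
          obtain ⟨s', rfl⟩ := hodd u hu
          have e1 : s ^ 2 * g * (s' ^ 2 * g) = s ^ 2 * (s' ^ 2 * (g * g)) := by
            rw [mul_assoc, mul_left_comm g]
          rw [e1, ← hsq, ← hsq, ← hsq, ← hsq, ← hgg]
          rw [mul_assoc, ← mul_assoc (h g), hcomm g]; group
  intro t u ht hu
  have := hfin (Units.mk0 t ht) (Units.mk0 u hu)
  simpa [hh] using this

end Cfsg.Agent.Lib.ChevAlg
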