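import Cfsg.Agent.Lib.ChevGrZ
import Cfsg.Agent.Lib.ChevCent
import Cfsg.Agent.Lib.ChevOrd
import Cfsg.Agent.Lib.ChevCan

/-!
# Steinberg automorphisms of Chevalley groups and their fixed points
-/

set_option autoImplicit false

namespace Cfsg.Agent.Lib.ChevAlg

open Cfsg.Lie Cfsg.Agent.Lib.ChevTab Matrix

variable {D : ChevalleyDatum} {K : Type*} [Field K] (Q : ChevO D K)

/-- any root is determined by a nontrivial element of its root subgroup -/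
lemma root_unique' {r s : Fin D.nroots} {t u : K} (ht : t ≠ 0) (h : xG Q r t = xG Q s u) : s = r := by
  have hu : u ≠ 0 := by
    rintro rfl
    rw [xG_zero] at h
    exact ht (xG_eq_one Q r.2 h)
  by_cases hr : ps r
  · exact root_unique Q hr ht h
  · by_cases hs : ps s
    · exact (root_unique Q hs hu h.symm).symm
    · obtain ⟨n, hn, w, hw, v, hm, h0⟩ := exists_w0 (Q := Q)
      have h1 := hm.conj r t
      have h2 := hm.conj s u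
      rw [h, h2] at h1
      have h3 : ps (w r) := (w0_neg (WG_waut Q hw) h0 r).2 hr
      exact (w.injective (root_unique Q h3 (mul_ne_zero (Units.ne_zero _) ht) h1.symm))

/-- a Steinberg automorphism of the Chevalley group -/
structure Tw where
  σ : MulAut ↥(D.group K)
  ρ : Equiv.Perm (Fin D.nroots)
  f : Fin D.nroots → K → K
  act : ∀ (r : Fin D.nroots) t, σ (xg Q r t) = xg Q (ρ r) (f r t)
  rev : ∀ r, ρ (Fin.rev r) = Fin.rev (ρ r)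
  pos : ∀ r, ps (ρ r) ↔ ps r
  fneg : ∀ r t, t ≠ 0 → f (Fin.rev r) (-t⁻¹) = -(f r t)⁻¹

variable {Q}

namespace Tw

variable (T : Tw Q)

open Classical in
/-- the automorphism as a map on matrices -/
noncomputable def s (g : GL D.Idx K) : GL D.Idx K := if h : g ∈ D.group K then (T.σ ⟨g, h⟩ : ↥(D.group K)) else 1

lemma s_eq {g : GL D.Idx K} (h : g ∈ D.group K) : T.s g = (T.σ ⟨g, h⟩ : ↥(D.group K)) := by
  rw [s, dif_pos h]

lemma s_mem (g : GL D.Idx K) : T.s g ∈ D.group K := by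
  rw [s]
  split_ifs with h
  · exact (T.σ ⟨g, h⟩).2
  · exact Subgroup.one_mem _

lemma s_mul {g g' : GL D.Idx K} (h : g ∈ D.group K) (h' : g' ∈ D.group K) : T.s (g * g') = T.s g * T.s g' := by
  rw [T.s_eq h, T.s_eq h', T.s_eq (Subgroup.mul_mem _ h h')]
  have := map_mul T.σ ⟨g, h⟩ ⟨g', h'⟩
  exact congrArg Subtype.val this

lemma s_one : T.s 1 = 1 := by
  rw [T.s_eq (Subgroup.one_mem _)]
  exact congrArg Subtype.val (map_one T.σ)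

lemma s_inv {g : GL D.Idx K} (h : g ∈ D.group K) : T.s g⁻¹ = (T.s g)⁻¹ := by
  rw [T.s_eq h, T.s_eq (Subgroup.inv_mem _ h)]
  exact congrArg Subtype.val (map_inv T.σ ⟨g, h⟩)

lemma s_inj {g g' : GL D.Idx K} (h : g ∈ D.group K) (h' : g' ∈ D.group K) (e : T.s g = T.s g') : g = g' := by
  rw [T.s_eq h, T.s_eq h'] at e
  exact congrArg Subtype.val (T.σ.injective (Subtype.ext e))

lemma s_xG (r : Fin D.nroots) (t : K) : T.s (xG Q r t) = xG Q (T.ρ r) (T.f r t) := by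
  rw [T.s_eq (xG_mem_group Q _ _)]
  exact congrArg Subtype.val (T.act r t)

lemma f_add (r : Fin D.nroots) (t u : K) : T.f r (t + u) = T.f r t + T.f r u := by
  apply xG_inj Q (T.ρ r).2
  rw [← xG_add, ← T.s_xG, ← T.s_xG, ← T.s_xG, ← xG_add, T.s_mul (xG_mem_group Q _ _) (xG_mem_group Q _ _)]

lemma f_zero (r : Fin D.nroots) : T.f r 0 = 0 := by
  have := T.f_add r 0 0
  rw [add_zero] at this
  exact left_eq_add.1 this

lemma f_inj {r : Fin D.nroots} {t u : K} (h : T.f r t = T.f r u) : t = u := by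
  apply xG_inj Q r.2
  apply T.s_inj (xG_mem_group Q _ _) (xG_mem_group Q _ _)
  rw [T.s_xG, T.s_xG, h]

lemma f_ne {r : Fin D.nroots} {t : K} (h : t ≠ 0) : T.f r t ≠ 0 := fun h' => h (T.f_inj (h'.trans (T.f_zero r).symm))

lemma f_neg (r : Fin D.nroots) (t : K) : T.f r (-t) = - T.f r t := by
  have := T.f_add r t (-t)
  rw [add_neg_cancel, T.f_zero] at this
  exact (neg_eq_of_add_eq_zero_right this.symm).symm

/-- stable sets of roots -/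
def St (Ψ : Set ℕ) : Prop := ∀ r : Fin D.nroots, (r : ℕ) ∈ Ψ → ((T.ρ r : Fin D.nroots) : ℕ) ∈ Ψ

lemma XS_le_group (Ψ : Set ℕ) : XS Q Ψ ≤ D.group K := by
  rw [XS_le]
  intro r _ t
  exact xG_mem_group Q r t

lemma s_XS {Ψ : Set ℕ} (hΨ : ∀ r ∈ Ψ, r < D.nroots) (hst : T.St Ψ) {g : GL D.Idx K} (hg : g ∈ XS Q Ψ) :
    T.s g ∈ XS Q Ψ := by
  refine Subgroup.closure_induction (p := fun g _ => T.s g ∈ XS Q Ψ) ?_ ?_ ?_ ?_ hg
  · rintro g ⟨r, hr, t, rfl⟩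
    have h1 := T.s_xG ⟨r, hΨ r hr⟩ t
    show T.s (xG Q r t) ∈ _
    rw [show T.s (xG Q r t) = _ from h1]
    exact xG_mem Q (hst ⟨r, hΨ r hr⟩ hr) _
  · rw [T.s_one]; exact Subgroup.one_mem _
  · intro a b ha hb h h'
    rw [T.s_mul (XS_le_group _ ha) (XS_le_group _ hb)]
    exact Subgroup.mul_mem _ h h'
  · intro a ha h
    rw [T.s_inv (XS_le_group _ ha)]
    exact Subgroup.inv_mem _ h

lemma St.pos : T.St (Pos D) := fun r hr => ⟨(T.pos r).2 hr.1, (T.ρ r).2⟩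
lemma St.neg : T.St (Neg D) := fun r hr => not_le.1 fun h => not_le.2 hr ((T.pos r).1 h)

/-- the fixed points -/
def Fx : Subgroup (GL D.Idx K) where
  carrier := {g | g ∈ D.group K ∧ T.s g = g}
  mul_mem' := fun {a b} ha hb => ⟨Subgroup.mul_mem _ ha.1 hb.1, by rw [T.s_mul ha.1 hb.1, ha.2, hb.2]⟩
  one_mem' := ⟨Subgroup.one_mem _, T.s_one⟩
  inv_mem' := fun {a} ha => ⟨Subgroup.inv_mem _ ha.1, by rw [T.s_inv ha.1, ha.2]⟩

lemma mem_Fx {g : GL D.Idx K} : g ∈ T.Fx ↔ g ∈ D.group K ∧ T.s g = g := Iff.rfl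

lemma Fx_le : T.Fx ≤ D.group K := fun _ h => h.1

lemma s_conj {n g : GL D.Idx K} (hn : n ∈ D.group K) (hg : g ∈ D.group K) :
    T.s (n * g * n⁻¹) = T.s n * T.s g * (T.s n)⁻¹ := by
  rw [T.s_mul (Subgroup.mul_mem _ hn hg) (Subgroup.inv_mem _ hn), T.s_mul hn hg, T.s_inv hn]

/-- factorizations of fixed elements -/
lemma fx_factor {Ψ₁ Ψ₂ : Set ℕ} (h₁ : Ψ₁ ⊆ Pos D) (h₂ : Ψ₂ ⊆ Pos D) (hc₁ : Clos Q.C Ψ₁) (hc₂ : Clos Q.C Ψ₂)
    (hd : Disjoint Ψ₁ Ψ₂) (st₁ : T.St Ψ₁) (st₂ : T.St Ψ₂) {a b : GL D.Idx K} (ha : a ∈ XS Q Ψ₁) (hb : b ∈ XS Q Ψ₂)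
    (h : a * b ∈ T.Fx) : a ∈ T.Fx ∧ b ∈ T.Fx := by
  have ga := XS_le_group _ ha
  have gb := XS_le_group _ hb
  have h1 : T.s a * T.s b = a * b := by rw [← T.s_mul ga gb]; exact h.2
  have h2 : a⁻¹ * T.s a = b * (T.s b)⁻¹ := by
    rw [inv_mul_eq_iff_eq_mul, ← mul_assoc, eq_mul_inv_iff_mul_eq, h1]
  have h3 : a⁻¹ * T.s a = 1 := XS_disjoint Q h₁ h₂ hc₁ hc₂ hd
    (Subgroup.mul_mem _ (Subgroup.inv_mem _ ha) (T.s_XS (fun r hr => (h₁ hr).2) st₁ ha))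
    (by rw [h2]; exact Subgroup.mul_mem _ hb (Subgroup.inv_mem _ (T.s_XS (fun r hr => (h₂ hr).2) st₂ hb)))
  have h4 : T.s a = a := by rw [inv_mul_eq_one] at h3; exact h3.symm
  refine ⟨⟨ga, h4⟩, gb, ?_⟩
  rw [h4] at h1
  exact mul_left_cancel h1

lemma s_nG (r : Fin D.nroots) {t : K} (ht : t ≠ 0) : T.s (nG Q r t) = nG Q (T.ρ r) (T.f r t) := by
  have e : (D.nroots - 1 - (r : ℕ)) = ((Fin.rev r : Fin D.nroots) : ℕ) := (fin_rev_val r).symm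
  have e' : (D.nroots - 1 - ((T.ρ r : Fin D.nroots) : ℕ)) = ((T.ρ (Fin.rev r) : Fin D.nroots) : ℕ) := by
    rw [T.rev, fin_rev_val]
  rw [nG, nG, T.s_mul (Subgroup.mul_mem _ (xG_mem_group Q _ _) (xG_mem_group Q _ _)) (xG_mem_group Q _ _),
    T.s_mul (xG_mem_group Q _ _) (xG_mem_group Q _ _), T.s_xG, e, T.s_xG, e', T.fneg r t ht]

lemma s_hG (r : Fin D.nroots) (c : Kˣ) : T.s (dG D (cp D r c)) =
    dG D (cp D (T.ρ r) (Units.mk0 (T.f r c) (T.f_ne c.ne_zero) / Units.mk0 (T.f r 1) (T.f_ne one_ne_zero))) := by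
  have h1 : dG D (cp D r c) = nG Q r c * nG Q r (-1) := by rw [← hG_eq Q r.2 c, hG]
  have h2 : (-1 : K) ≠ 0 := neg_ne_zero.2 one_ne_zero
  rw [h1, T.s_mul (nG_mem_group Q _ _) (nG_mem_group Q _ _), T.s_nG r c.ne_zero, T.s_nG r h2]
  have h3 := nG_eq Q (T.ρ r).2 (Units.mk0 (T.f r c) (T.f_ne c.ne_zero))
  have h4 := nG_eq Q (T.ρ r).2 (Units.mk0 (T.f r 1) (T.f_ne one_ne_zero))
  rw [Units.val_mk0] at h3 h4
  rw [T.f_neg, ← nG_inv, h3, h4, _root_.mul_inv_rev]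
  have h5 : dG D (cp D (T.ρ r) (Units.mk0 (T.f r c) (T.f_ne c.ne_zero) / Units.mk0 (T.f r 1) (T.f_ne one_ne_zero))) =
    dG D (cp D (T.ρ r) (Units.mk0 (T.f r c) (T.f_ne c.ne_zero))) * (dG D (cp D (T.ρ r) (Units.mk0 (T.f r 1) (T.f_ne one_ne_zero))))⁻¹ := by
    rw [dG_inv, dG_mul]
    apply dG_congr
    intro s hs
    rw [cp, cp, cp, div_zpow, div_eq_mul_inv]
  rw [h5]
  group

lemma s_diag {g : GL D.Idx K} (hg : g ∈ D.diagonalSubgroup K) : T.s g ∈ D.diagonalSubgroup K := by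
  rw [diagonal_eq Q] at hg
  refine Subgroup.closure_induction (p := fun g _ => g ∈ D.group K ∧ T.s g ∈ D.diagonalSubgroup K) ?_ ?_ ?_ ?_ hg |>.2
  · rintro g ⟨r, c, hr, rfl⟩
    refine ⟨diagonal_le_group Q (cp_mem Q _ _), ?_⟩
    have h1 := T.s_hG ⟨r, hr⟩ c
    rw [show T.s (dG D (cp D r c)) = _ from h1]
    exact cp_mem Q _ _
  · rw [T.s_one]; exact ⟨Subgroup.one_mem _, Subgroup.one_mem _⟩
  · rintro a b _ _ ⟨h1, h2⟩ ⟨h3, h4⟩
    rw [T.s_mul h1 h3]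
    exact ⟨Subgroup.mul_mem _ h1 h3, Subgroup.mul_mem _ h2 h4⟩
  · rintro a _ ⟨h1, h2⟩
    rw [T.s_inv h1]
    exact ⟨Subgroup.inv_mem _ h1, Subgroup.inv_mem _ h2⟩

lemma s_monomial {g : GL D.Idx K} (hg : g ∈ D.monomialSubgroup K) : T.s g ∈ D.monomialSubgroup K := by
  have hN := monomial_le_group Q
  have h : D.monomialSubgroup K ≤ Subgroup.closure ((D.diagonalSubgroup K : Set (GL D.Idx K)) ∪
      {g | ∃ r : ℕ, r < D.nroots ∧ g = nG Q r 1}) := by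
    rw [monomial_eq Q, sup_le_iff]
    exact ⟨fun x hx => Subgroup.subset_closure (Or.inl hx), Subgroup.closure_mono Set.subset_union_right⟩
  refine Subgroup.closure_induction (p := fun g _ => g ∈ D.group K ∧ T.s g ∈ D.monomialSubgroup K) ?_ ?_ ?_ ?_ (h hg) |>.2
  · rintro g (hg | ⟨r, hr, rfl⟩)
    · exact ⟨diagonal_le_group Q hg, diagonal_le_monomial (T.s_diag hg)⟩
    · refine ⟨nG_mem_group Q _ _, ?_⟩
      have h1 := T.s_nG ⟨r, hr⟩ (one_ne_zero : (1 : K) ≠ 0)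
      rw [show T.s (nG Q r 1) = _ from h1]
      have h2 := nG_eq Q (T.ρ ⟨r, hr⟩).2 (Units.mk0 (T.f ⟨r, hr⟩ 1) (T.f_ne one_ne_zero))
      rw [Units.val_mk0] at h2
      rw [h2]
      exact Subgroup.mul_mem _ (diagonal_le_monomial (cp_mem Q _ _)) (nG_mem_monomial Q (T.ρ ⟨r, hr⟩).2)
  · rw [T.s_one]; exact ⟨Subgroup.one_mem _, Subgroup.one_mem _⟩
  · rintro a b _ _ ⟨h1, h2⟩ ⟨h3, h4⟩
    rw [T.s_mul h1 h3]
    exact ⟨Subgroup.mul_mem _ h1 h3, Subgroup.mul_mem _ h2 h4⟩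
  · rintro a _ ⟨h1, h2⟩
    rw [T.s_inv h1]
    exact ⟨Subgroup.inv_mem _ h1, Subgroup.inv_mem _ h2⟩

/-- the action on the Weyl group is conjugation by `ρ` -/
lemma s_mono {n : GL D.Idx K} {w : Equiv.Perm (Fin D.nroots)} {u : Fin D.nroots → Kˣ} (hn : n ∈ D.monomialSubgroup K)
    (hm : Mono Q n w u) : ∃ u', Mono Q (T.s n) (T.ρ * w * T.ρ⁻¹) u' := by
  obtain ⟨w', _, u', hm'⟩ := monomial_mono Q (T.s_monomial hn)
  have e : w' = T.ρ * w * T.ρ⁻¹ := by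
    ext r
    congr 1
    have h1 := hm.conj (T.ρ⁻¹ r) 1
    have h2 := congrArg T.s h1
    rw [T.s_conj (monomial_le_group Q hn) (xG_mem_group Q _ _), T.s_xG, T.s_xG, perm_apply_inv, hm'.conj] at h2
    have h3 := root_unique' Q (mul_ne_zero (Units.ne_zero (u' r)) (T.f_ne one_ne_zero)) h2
    rw [← h3]; rfl
  rw [e] at hm'
  exact ⟨u', hm'⟩

lemma comm_of_fx {n : GL D.Idx K} {w : Equiv.Perm (Fin D.nroots)} {u : Fin D.nroots → Kˣ}
    (hn : n ∈ D.monomialSubgroup K) (hm : Mono Q n w u) (hf : n ∈ T.Fx) : T.ρ * w = w * T.ρ := by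
  obtain ⟨u', h1⟩ := T.s_mono hn hm
  rw [hf.2] at h1
  have h2 := h1.unique Q hm
  rwa [mul_inv_eq_iff_eq_mul] at h2

lemma s_borel {g : GL D.Idx K} (hg : g ∈ D.borelSubgroup K) : T.s g ∈ D.borelSubgroup K := by
  obtain ⟨u, hu, h, hh, rfl⟩ := (mem_borel Q).1 hg
  rw [T.s_mul (XS_le_group _ hu) (diagonal_le_group Q hh)]
  exact (mem_borel Q).2 ⟨_, T.s_XS (fun r hr => hr.2) (St.pos T) hu, _, T.s_diag hh, rfl⟩

lemma borel_fx {u h : GL D.Idx K} (hu : u ∈ XS Q (Pos D)) (hh : h ∈ D.diagonalSubgroup K) (hf : u * h ∈ T.Fx) :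
    u ∈ T.Fx ∧ h ∈ T.Fx := by
  have gu := XS_le_group _ hu
  have gh := diagonal_le_group Q hh
  have h1 : T.s u * T.s h = u * h := by rw [← T.s_mul gu gh]; exact hf.2
  have h2 : u⁻¹ * T.s u = h * (T.s h)⁻¹ := by
    rw [inv_mul_eq_iff_eq_mul, ← mul_assoc, eq_mul_inv_iff_mul_eq, h1]
  have h3 : u⁻¹ * T.s u = 1 := U_inf_H Q
    (Subgroup.mul_mem _ (Subgroup.inv_mem _ hu) (T.s_XS (fun r hr => hr.2) (St.pos T) hu))
    (by rw [h2]; exact Subgroup.mul_mem _ hh (Subgroup.inv_mem _ (T.s_diag hh)))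
  have h4 : T.s u = u := by rw [inv_mul_eq_one] at h3; exact h3.symm
  refine ⟨⟨gu, h4⟩, gh, ?_⟩
  rw [h4] at h1
  exact mul_left_cancel h1

end Tw

/-- canonical form `u₁ n u₂` -/
theorem exists_can (Q : ChevO D K) {g : GL D.Idx K} (hg : g ∈ D.group K) :
    ∃ u₁ ∈ XS Q (Pos D), ∃ n ∈ D.monomialSubgroup K, ∃ w ∈ WG Q.C2, ∃ v, Mono Q n w v ∧
    ∃ u₂ ∈ XS Q (Inv w), g = u₁ * n * u₂ := by
  obtain ⟨b, hb, n, hn, w, hw, v, hm, u, hu, rfl⟩ := exists_canonical Q hg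
  obtain ⟨u₁, hu₁, h, hh, rfl⟩ := (mem_borel Q).1 hb
  obtain ⟨χ, hχ, e⟩ := diagonal_mono Q hh
  have h1 := (mono_dG (Q := Q) hχ).mul hm
  rw [← e, one_mul] at h1
  exact ⟨u₁, hu₁, h * n, Subgroup.mul_mem _ (diagonal_le_monomial hh) hn, w, hw, _, h1, u, hu, by group⟩

theorem can_unique (Q : ChevO D K) {n n' : GL D.Idx K} {w w' : Equiv.Perm (Fin D.nroots)} {v v' : Fin D.nroots → Kˣ}
    (hn : n ∈ D.monomialSubgroup K) (hn' : n' ∈ D.monomialSubgroup K)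
    (hm : Mono Q n w v) (hm' : Mono Q n' w' v') {a a' u u' : GL D.Idx K} (ha : a ∈ XS Q (Pos D)) (ha' : a' ∈ XS Q (Pos D))
    (hu : u ∈ XS Q (Inv w)) (hu' : u' ∈ XS Q (Inv w')) (h : a * n * u = a' * n' * u') : a = a' ∧ n = n' ∧ u = u' := by
  have hU := U_le_borel Q
  have huB : u ∈ D.borelSubgroup K := hU (XS_mono Q (inv_sub w) hu)
  have huB' : u' ∈ D.borelSubgroup K := hU (XS_mono Q (inv_sub w') hu')
  have h1 := bruhat_unique Q hn hn' (hU ha) huB (hU ha') huB' h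
  obtain ⟨χ, hχ, e⟩ := diagonal_mono Q h1
  have e1 : n' = n * dG D χ := by rw [← e]; group
  have h2 := hm.mul (mono_dG (Q := Q) hχ)
  rw [← e1, mul_one] at h2
  have e2 := hm'.unique Q h2
  subst e2
  have h3 : n * (n⁻¹ * n') * n⁻¹ ∈ D.diagonalSubgroup K := diag_conj Q hn h1
  have h4 := canonical_unique Q hm (b := a) (b' := a' * (n * (n⁻¹ * n') * n⁻¹)) (hU ha)
    (Subgroup.mul_mem _ (hU ha') (H_le_borel Q h3)) hu hu' (by rw [h]; group)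
  have h5 : n * (n⁻¹ * n') * n⁻¹ = 1 := U_inf_H Q (by
    have : n * (n⁻¹ * n') * n⁻¹ = a'⁻¹ * a := by rw [h4.1]; group
    rw [this]
    exact Subgroup.mul_mem _ (Subgroup.inv_mem _ ha') ha) h3
  have h6 : n = n' := by
    have : n' * n⁻¹ = 1 := by rw [← h5]; group
    rw [mul_inv_eq_one] at this
    exact this.symm
  refine ⟨?_, h6, h4.2⟩
  rw [h4.1, h5, mul_one]

namespace Tw

variable (T : Tw Q)

lemma St.inv {w : Equiv.Perm (Fin D.nroots)} (h : T.ρ * w = w * T.ρ) : T.St (Inv w) := by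
  intro r hr
  refine ⟨(St.pos T) r hr.1, fun hlt => ?_⟩
  have h1 : w (T.ρ r) = T.ρ (w r) := by
    rw [← Equiv.Perm.mul_apply, ← h]; rfl
  show ¬ ps (w (T.ρ r))
  rw [h1, T.pos]
  exact hr.2 r.2

lemma s_inv_mem {w : Equiv.Perm (Fin D.nroots)} {u : GL D.Idx K} (hu : u ∈ XS Q (Inv w)) :
    T.s u ∈ XS Q (Inv (T.ρ * w * T.ρ⁻¹)) := by
  refine Subgroup.closure_induction (p := fun u _ => u ∈ D.group K ∧ T.s u ∈ XS Q (Inv (T.ρ * w * T.ρ⁻¹))) ?_ ?_ ?_ ?_ hu |>.2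
  · rintro g ⟨r, hr, t, rfl⟩
    have hlt := hr.1.2
    refine ⟨xG_mem_group Q _ _, ?_⟩
    have h1 := T.s_xG ⟨r, hlt⟩ t
    rw [show T.s (xG Q r t) = _ from h1]
    apply xG_mem
    refine ⟨(St.pos T) ⟨r, hlt⟩ hr.1, fun _ => ?_⟩
    show ¬ ps ((T.ρ * w * T.ρ⁻¹) (T.ρ ⟨r, hlt⟩))
    rw [Equiv.Perm.mul_apply, perm_inv_apply, Equiv.Perm.mul_apply, T.pos]
    exact hr.2 hlt
  · rw [T.s_one]; exact ⟨Subgroup.one_mem _, Subgroup.one_mem _⟩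
  · rintro a b _ _ ⟨h1, h2⟩ ⟨h3, h4⟩
    rw [T.s_mul h1 h3]
    exact ⟨Subgroup.mul_mem _ h1 h3, Subgroup.mul_mem _ h2 h4⟩
  · rintro a _ ⟨h1, h2⟩
    rw [T.s_inv h1]
    exact ⟨Subgroup.inv_mem _ h1, Subgroup.inv_mem _ h2⟩

/-- the canonical form of a fixed element has fixed constituents -/
theorem can_fx {n : GL D.Idx K} {w : Equiv.Perm (Fin D.nroots)} {v : Fin D.nroots → Kˣ}
    (hn : n ∈ D.monomialSubgroup K) (hm : Mono Q n w v) {a u : GL D.Idx K} (ha : a ∈ XS Q (Pos D))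
    (hu : u ∈ XS Q (Inv w)) (hf : a * n * u ∈ T.Fx) : a ∈ T.Fx ∧ n ∈ T.Fx ∧ u ∈ T.Fx ∧ T.ρ * w = w * T.ρ := by
  have ga := XS_le_group _ ha
  have gn := monomial_le_group Q hn
  have gu := XS_le_group _ hu
  obtain ⟨v', hm'⟩ := T.s_mono hn hm
  have h1 : T.s a * T.s n * T.s u = a * n * u := by
    rw [← T.s_mul ga gn, ← T.s_mul (Subgroup.mul_mem _ ga gn) gu]; exact hf.2
  obtain ⟨e1, e2, e3⟩ := can_unique Q (T.s_monomial hn) hn hm' hm (T.s_XS (fun r hr => hr.2) (St.pos T) ha) ha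
    (T.s_inv_mem hu) hu h1
  have hfn : n ∈ T.Fx := ⟨gn, e2⟩
  exact ⟨⟨ga, e1⟩, hfn, ⟨gu, e3⟩, T.comm_of_fx hn hm hfn⟩

end Tw

end Cfsg.Agent.Lib.ChevAlg
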