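import Cfsg.Agent.Lib.ChevTwA
import Cfsg.Agent.Lib.ChevPar

/-!
# The fixed Weyl group of a Steinberg automorphism
-/

set_option autoImplicit false

namespace Cfsg.Agent.Lib.ChevAlg

open Cfsg.Lie Cfsg.Agent.Lib.ChevTab Matrix

variable {D : ChevalleyDatum} {K : Type*} [Field K] (Q : ChevO D K)

section gen

/-- positive roots supported on `J` -/
def PJ (J : List ℕ) : Set ℕ := {r | r ∈ Pos D ∧ ∀ k < D.rank, k ∉ J → Q.C.vec r k = 0}

variable {Q}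

lemma PJ_sub (J : List ℕ) : PJ Q J ⊆ Pos D := fun _ h => h.1

lemma ps_of_vec_pos {s : Fin D.nroots} {k : ℕ} (hk : k < D.rank) (h : 0 < Q.C.vec s k) : ps s := by
  by_contra hps
  have h3 : ps (Fin.rev s) := (ps_rev Q).2 hps
  have h4 := vec_nonneg (C := Q.C) _ (Fin.rev s).2 h3 k hk
  rw [fin_rev_val, Q.C.vec_neg _ s.2 k hk] at h4
  omega

lemma inv_sub_PJ {J : List ℕ} {w : Equiv.Perm (Fin D.nroots)} (hw : w ∈ WJ Q J) : Inv w ⊆ PJ Q J := by
  intro r hr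
  refine ⟨hr.1, fun k hk hkJ => ?_⟩
  by_contra hne
  have h1 := vec_nonneg (C := Q.C) _ hr.1.2 hr.1.1 k hk
  have h2 := vec_WJ Q hw hk hkJ ⟨r, hr.1.2⟩
  apply hr.2 hr.1.2
  apply ps_of_vec_pos (Q := Q) hk
  rw [h2]
  show 0 < Q.C.vec r k
  omega

lemma si_mem_PJ {J : List ℕ} {i : ℕ} (hi : i < D.rank) (hJ : i ∈ J) : (si Q i hi : ℕ) ∈ PJ Q J := by
  refine ⟨⟨Q.C.simple_ge i hi, Q.C.simple_lt i hi⟩, fun k hk hkJ => ?_⟩
  have := Q.C.vec_simple i hi k hk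
  rw [if_neg (by rintro rfl; exact hkJ hJ)] at this
  exact this

/-- an element sending the fundamental roots of `J` to negative roots sends all of `Φ_J⁺` to negative roots -/
lemma neg_of_simple_J {J : List ℕ} {w : Equiv.Perm (Fin D.nroots)} (hw : WAut Q.C w)
    (h : ∀ (i : ℕ) (hi : i < D.rank), i ∈ J → ¬ ps (w (si Q i hi))) (s : Fin D.nroots) (hs : (s : ℕ) ∈ PJ Q J) :
    ¬ ps (w s) := by
  have key : ∀ (k : ℕ) (s : Fin D.nroots), s.val = k → (s : ℕ) ∈ PJ Q J → ¬ ps (w s) := by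
    intro k
    induction k using Nat.strong_induction_on with
    | _ k ih =>
      intro s hk hs
      rcases Q.C.gen s s.2 hs.1.1 with ⟨i, hi, e⟩ | ⟨i, hi, r, hr, hrp, e⟩
      · have he : s = si Q i hi := Fin.ext e
        have hiJ : i ∈ J := by
          by_contra hc
          have h1 := hs.2 i hi hc
          have h2 := Q.C.vec_simple i hi i hi
          rw [if_pos rfl] at h2
          rw [he] at h1
          rw [show Q.C.vec (si Q i hi) i = 1 from h2] at h1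
          norm_num at h1
        rw [he]; exact h i hi hiJ
      · have hlt : Q.C.S (D.simple i) r < D.nroots := by rw [e]; exact s.2
        have hv : ∀ l < D.rank, Q.C.vec s l = 1 * Q.C.vec (si Q i hi) l + 1 * Q.C.vec (⟨r, by omega⟩ : Fin D.nroots) l := by
          intro l hl
          have := Q.C.vec_add (D.simple i) (Q.C.simple_lt i hi) r (by omega) hlt l hl
          rw [e] at this
          rw [this]
          simp only [si]
          ring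
        have hn1 : ∀ l < D.rank, 0 ≤ Q.C.vec (si Q i hi) l := fun l hl =>
          vec_nonneg (C := Q.C) _ (si Q i hi).2 (Q.C.simple_ge i hi) l hl
        have hn2 : ∀ l < D.rank, 0 ≤ Q.C.vec (⟨r, by omega⟩ : Fin D.nroots) l := fun l hl =>
          vec_nonneg (C := Q.C) _ (by show r < _; omega) hrp l hl
        have hiJ : i ∈ J := by
          by_contra hc
          have h1 := hs.2 i hi hc
          rw [hv i hi] at h1
          have h2 := Q.C.vec_simple i hi i hi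
          rw [if_pos rfl] at h2
          rw [show Q.C.vec (si Q i hi) i = 1 from h2] at h1
          have := hn2 i hi
          omega
        have hrJ : ((⟨r, by omega⟩ : Fin D.nroots) : ℕ) ∈ PJ Q J := by
          refine ⟨⟨hrp, by show r < _; omega⟩, fun l hl hlJ => ?_⟩
          have h1 := hs.2 l hl hlJ
          rw [hv l hl] at h1
          have := hn2 l hl
          have := hn1 l hl
          omega
        have h1 := ih r (by omega) ⟨r, by omega⟩ rfl hrJ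
        have h2 := h i hi hiJ
        have hv2 := hw.lin _ _ _ _ _ hv
        have l1 : Q.O.lam (w s) = Q.O.lam (w (si Q i hi)) + Q.O.lam (w ⟨r, by omega⟩) := by
          rw [Q.O.lam_eq _ (w s).2, Q.O.lam_eq _ (w (si Q i hi)).2, Q.O.lam_eq _ (w ⟨r, by omega⟩).2,
            ← Finset.sum_add_distrib]
          apply Finset.sum_congr rfl
          intro l hl
          rw [hv2 l (Finset.mem_range.1 hl)]
          ring
        have l3 : ¬ 0 < Q.O.lam (w (si Q i hi)) := fun h' => h2 ((lam_pos_iff Q.C Q.O (w (si Q i hi)).2).1 h')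
        have l4 : ¬ 0 < Q.O.lam (w ⟨r, by omega⟩) := fun h' => h1 ((lam_pos_iff Q.C Q.O (w ⟨r, by omega⟩).2).1 h')
        intro h'
        have l5 := lam_pos Q.C Q.O (w s).2 h'
        linarith
  exact key _ s rfl hs

lemma eq_of_inv_eq {w w' : Equiv.Perm (Fin D.nroots)} (hw : w ∈ WG Q.C2) (hw' : w' ∈ WG Q.C2) (h : Inv w = Inv w') :
    w = w' := by
  have h1 : w * w'⁻¹ = 1 := by
    apply eq_one_of_ps Q (Subgroup.mul_mem _ hw (Subgroup.inv_mem _ hw'))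
    intro r hr
    rw [Equiv.Perm.mul_apply]
    by_cases hs : ps (w'⁻¹ r)
    · by_contra hc
      have h2 : ((w'⁻¹ r : Fin D.nroots) : ℕ) ∈ Inv w := ⟨⟨hs, (w'⁻¹ r).2⟩, fun _ => hc⟩
      rw [h] at h2
      apply h2.2 (w'⁻¹ r).2
      rw [perm_apply_inv]; exact hr
    · have h2 : ((Fin.rev (w'⁻¹ r) : Fin D.nroots) : ℕ) ∈ Inv w' := by
        refine ⟨⟨(ps_rev Q).2 hs, (Fin.rev _).2⟩, fun _ => ?_⟩
        show ¬ ps (w' (Fin.rev (w'⁻¹ r)))
        rw [(WG_waut Q hw').rev, perm_apply_inv, ps_rev Q]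
        exact not_not.2 hr
      rw [← h] at h2
      have h3 : ¬ ps (w (Fin.rev (w'⁻¹ r))) := h2.2 (Fin.rev (w'⁻¹ r)).2
      rw [(WG_waut Q hw).rev, ps_rev Q] at h3
      exact not_not.1 h3
  rwa [mul_inv_eq_one] at h1

end gen

variable {Q}

/-- the `ρ`-orbits of fundamental roots -/
structure TwJ (T : Tw Q) (ι : Type*) where
  J : ι → List ℕ
  wJ : ι → Equiv.Perm (Fin D.nroots)
  memJ : ∀ i, wJ i ∈ WJ Q (J i)
  comm : ∀ i, T.ρ * wJ i = wJ i * T.ρ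
  cover : ∀ a < D.rank, ∃ i, a ∈ J i
  ne : ∀ i, ∃ a ∈ J i, a < D.rank
  orbit : ∀ i (a b : ℕ) (ha : a < D.rank) (hb : b < D.rank), a ∈ J i → b ∈ J i →
    ∃ k : ℕ, (T.ρ ^ k) (si Q a ha) = si Q b hb
  neg : ∀ i (a : ℕ) (ha : a < D.rank), a ∈ J i → ¬ ps (wJ i (si Q a ha))

namespace TwJ

variable {T : Tw Q} {ι : Type*} (H : TwJ T ι)

lemma mem (i : ι) : H.wJ i ∈ WG Q.C2 := WJ_le Q _ (H.memJ i)

lemma inv_wJ (i : ι) : Inv (H.wJ i) = PJ Q (H.J i) := by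
  apply Set.Subset.antisymm (inv_sub_PJ (H.memJ i))
  intro r hr
  exact ⟨hr.1, fun h => neg_of_simple_J (WG_waut Q (H.mem i)) (H.neg i) ⟨r, h⟩ hr⟩

lemma ne_one (i : ι) : H.wJ i ≠ 1 := by
  obtain ⟨a, ha, har⟩ := H.ne i
  intro h
  have := H.neg i a har ha
  rw [h] at this
  exact this (ps_si Q har)

lemma pow_comm {w : Equiv.Perm (Fin D.nroots)} (hc : T.ρ * w = w * T.ρ) (k : ℕ) (r : Fin D.nroots) :
    (T.ρ ^ k) (w r) = w ((T.ρ ^ k) r) := by
  induction k with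
  | zero => rfl
  | succ k ih =>
    rw [pow_succ', Equiv.Perm.mul_apply, ih, Equiv.Perm.mul_apply, ← Equiv.Perm.mul_apply, hc]; rfl

lemma pow_ps (k : ℕ) (r : Fin D.nroots) : ps ((T.ρ ^ k) r) ↔ ps r := by
  induction k with
  | zero => rfl
  | succ k ih => rw [pow_succ', Equiv.Perm.mul_apply, T.pos, ih]

/-- a fixed element negative at one root of `J` is negative on `Φ_J⁺` -/
lemma neg_all {w : Equiv.Perm (Fin D.nroots)} (hw : WAut Q.C w) (hc : T.ρ * w = w * T.ρ) {i : ι} {a : ℕ}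
    (ha : a < D.rank) (haJ : a ∈ H.J i) (h : ¬ ps (w (si Q a ha))) : PJ Q (H.J i) ⊆ Inv w := by
  intro r hr
  refine ⟨hr.1, fun hlt => neg_of_simple_J hw ?_ ⟨r, hlt⟩ hr⟩
  intro b hb hbJ
  obtain ⟨k, hk⟩ := H.orbit i a b ha hb haJ hbJ
  rw [← hk, ← pow_comm hc, pow_ps]
  exact h

/-- the fixed elements of `W_J` -/
lemma eq_wJ {w : Equiv.Perm (Fin D.nroots)} {i : ι} (hw : w ∈ WJ Q (H.J i)) (hc : T.ρ * w = w * T.ρ) (hne : w ≠ 1) :
    w = H.wJ i := by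
  obtain ⟨a, haJ, ha, h⟩ := exists_descent Q hw hne
  apply eq_of_inv_eq (WJ_le Q _ hw) (H.mem i)
  rw [H.inv_wJ]
  exact Set.Subset.antisymm (inv_sub_PJ hw) (H.neg_all (WG_waut Q (WJ_le Q _ hw)) hc ha haJ h)

lemma comm_inv {w : Equiv.Perm (Fin D.nroots)} (hc : T.ρ * w = w * T.ρ) : T.ρ * w⁻¹ = w⁻¹ * T.ρ := by
  rw [eq_inv_mul_iff_mul_eq, ← mul_assoc, ← hc, mul_assoc, mul_inv_cancel, mul_one]

lemma comm_mul {w w' : Equiv.Perm (Fin D.nroots)} (hc : T.ρ * w = w * T.ρ) (hc' : T.ρ * w' = w' * T.ρ) :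
    T.ρ * (w * w') = (w * w') * T.ρ := by
  rw [← mul_assoc, hc, mul_assoc, hc', mul_assoc]

lemma wJ_inv (i : ι) : (H.wJ i)⁻¹ = H.wJ i :=
  H.eq_wJ (Subgroup.inv_mem _ (H.memJ i)) (comm_inv (H.comm i)) (fun h => H.ne_one i (inv_eq_one.1 h))

lemma wJ_sq (i : ι) : H.wJ i * H.wJ i = 1 := by
  conv_lhs => rw [← H.wJ_inv i]
  rw [H.wJ_inv i]
  have := H.wJ_inv i
  rw [inv_eq_iff_mul_eq_one] at this
  exact this

lemma wJ_wJ (i : ι) (r : Fin D.nroots) : H.wJ i (H.wJ i r) = r := by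
  rw [← Equiv.Perm.mul_apply, H.wJ_sq]; rfl

/-- `-w_J` preserves `Φ_J⁺` -/
lemma rev_mem {i : ι} {r : Fin D.nroots} (hr : (r : ℕ) ∈ PJ Q (H.J i)) :
    ((Fin.rev (H.wJ i r) : Fin D.nroots) : ℕ) ∈ PJ Q (H.J i) := by
  rw [← H.inv_wJ]
  have h1 : (r : ℕ) ∈ Inv (H.wJ i) := by rw [H.inv_wJ]; exact hr
  refine ⟨⟨(ps_rev Q).2 (h1.2 r.2), (Fin.rev _).2⟩, fun _ => ?_⟩
  show ¬ ps (H.wJ i (Fin.rev (H.wJ i r)))
  rw [(WG_waut Q (H.mem i)).rev, H.wJ_wJ, ps_rev Q]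
  exact not_not.2 hr.1.1

/-- the roots of `w w_J` outside `Φ_J` -/
def Tl (w : Equiv.Perm (Fin D.nroots)) (i : ι) : Set ℕ := {r | ∃ h : r < D.nroots, ((H.wJ i ⟨r, h⟩ : Fin D.nroots) : ℕ) ∈ Inv w}

variable {w : Equiv.Perm (Fin D.nroots)}

lemma Tl_pos {i : ι} (hp : ∀ r : Fin D.nroots, (r : ℕ) ∈ PJ Q (H.J i) → ps (w r)) {r : ℕ}
    (hr : r ∈ H.Tl w i) : r ∈ Pos D ∧ r ∉ PJ Q (H.J i) := by
  obtain ⟨h, h1⟩ := hr
  have h2 : (⟨r, h⟩ : Fin D.nroots) = H.wJ i (H.wJ i ⟨r, h⟩) := (H.wJ_wJ i _).symm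
  have h3 : ((H.wJ i ⟨r, h⟩ : Fin D.nroots) : ℕ) ∉ Inv (H.wJ i) := by
    rw [H.inv_wJ]
    intro h4
    exact h1.2 (H.wJ i ⟨r, h⟩).2 (hp _ h4)
  have h4 : ps (⟨r, h⟩ : Fin D.nroots) := by
    by_contra hc
    apply h3
    refine ⟨h1.1, fun _ => ?_⟩
    show ¬ ps (H.wJ i (H.wJ i ⟨r, h⟩))
    rw [H.wJ_wJ]
    exact hc
  refine ⟨⟨h4, h⟩, fun h5 => ?_⟩
  rw [← H.inv_wJ] at h5
  exact h5.2 h h1.1.1

lemma inv_mul (hw : WAut Q.C w) {i : ι} (hp : ∀ r : Fin D.nroots, (r : ℕ) ∈ PJ Q (H.J i) → ps (w r)) :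
    Inv (w * H.wJ i) = H.Tl w i ∪ PJ Q (H.J i) := by
  ext r
  constructor
  · intro hr
    by_cases h : r ∈ PJ Q (H.J i)
    · exact Or.inr h
    · left
      refine ⟨hr.1.2, ⟨?_, (H.wJ i _).2⟩, fun _ => hr.2 hr.1.2⟩
      by_contra hc
      apply h
      rw [← H.inv_wJ]
      exact ⟨hr.1, fun _ => hc⟩
  · rintro (hr | hr)
    · obtain ⟨h1, _⟩ := H.Tl_pos hp hr
      obtain ⟨h, h2⟩ := hr
      exact ⟨h1, fun _ => h2.2 (H.wJ i ⟨r, h⟩).2⟩
    · refine ⟨hr.1, fun h => ?_⟩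
      rw [Equiv.Perm.mul_apply]
      have h1 := hp _ (H.rev_mem (r := ⟨r, h⟩) hr)
      rw [hw.rev, ps_rev Q] at h1
      exact h1

lemma Tl_disj {i : ι} (hp : ∀ r : Fin D.nroots, (r : ℕ) ∈ PJ Q (H.J i) → ps (w r)) :
    Disjoint (H.Tl w i) (PJ Q (H.J i)) := by
  rw [Set.disjoint_left]
  intro r hr
  exact (H.Tl_pos hp hr).2

lemma Tl_clos (hw : WAut Q.C w) (i : ι) : Clos Q.C (H.Tl w i) := by
  rintro r ⟨hr, h1⟩ s ⟨hs, h2⟩ k hk
  refine ⟨hk.1, ?_⟩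
  exact clos_inv Q hw _ h1 _ h2 (comb_waut (WG_waut Q (H.mem i)) (r := ⟨r, hr⟩) (s := ⟨s, hs⟩) (k := ⟨k, hk.1⟩) hk)

lemma PJ_clos (i : ι) : Clos Q.C (PJ Q (H.J i)) := by
  rw [← H.inv_wJ]
  exact clos_inv Q (WG_waut Q (H.mem i))

lemma PJ_st (i : ι) : T.St (PJ Q (H.J i)) := by
  rw [← H.inv_wJ]
  exact Tw.St.inv T (H.comm i)

lemma Tl_st (hc : T.ρ * w = w * T.ρ) (i : ι) : T.St (H.Tl w i) := by
  rintro r ⟨hr, h1⟩
  refine ⟨(T.ρ r).2, ?_⟩
  have h2 : H.wJ i (T.ρ r) = T.ρ (H.wJ i r) := by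
    rw [← Equiv.Perm.mul_apply, ← H.comm i]; rfl
  show ((H.wJ i (T.ρ r) : Fin D.nroots) : ℕ) ∈ Inv w
  rw [h2]
  exact (Tw.St.inv T hc) _ h1

open Classical in
lemma ninv_mul (hw : WAut Q.C w) {i : ι} (hp : ∀ r : Fin D.nroots, (r : ℕ) ∈ PJ Q (H.J i) → ps (w r)) :
    ninv (w * H.wJ i) = ninv w + ninv (H.wJ i) := by
  rw [← length_lst_inv, ← length_lst_inv, ← length_lst_inv, H.inv_mul hw hp, H.inv_wJ, length_lst, length_lst, length_lst]
  have e : (Finset.univ.filter fun s : Fin D.nroots => (s : ℕ) ∈ H.Tl w i ∪ PJ Q (H.J i)) =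
      ((Finset.univ.filter fun s : Fin D.nroots => (s : ℕ) ∈ Inv w).image (H.wJ i)) ∪
      (Finset.univ.filter fun s : Fin D.nroots => (s : ℕ) ∈ PJ Q (H.J i)) := by
    ext s
    simp only [Finset.mem_union, Finset.mem_image, Finset.mem_filter, Finset.mem_univ, true_and]
    constructor
    · rintro (⟨h, h1⟩ | h)
      · exact Or.inl ⟨H.wJ i s, h1, H.wJ_wJ i s⟩
      · exact Or.inr h
    · rintro (⟨t, h, rfl⟩ | h)
      · left
        refine ⟨(H.wJ i t).2, ?_⟩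
        show ((H.wJ i (H.wJ i t) : Fin D.nroots) : ℕ) ∈ Inv w
        rw [H.wJ_wJ]; exact h
      · exact Or.inr h
  have e' := congrArg Finset.card e
  rw [Finset.card_union_of_disjoint, Finset.card_image_of_injective _ (H.wJ i).injective] at e'
  · convert e'
  rw [Finset.disjoint_left]
  intro s hs hs'
  rw [Finset.mem_image] at hs
  obtain ⟨t, ht, rfl⟩ := hs
  rw [Finset.mem_filter] at ht hs'
  refine (H.Tl_pos hp (r := (H.wJ i t : Fin D.nroots)) ⟨(H.wJ i t).2, ?_⟩).2 hs'.2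
  show ((H.wJ i (H.wJ i t) : Fin D.nroots) : ℕ) ∈ Inv w
  rw [H.wJ_wJ]; exact ht.2

lemma ninv_pos (i : ι) : 0 < ninv (H.wJ i) := by
  classical
  rw [ninv, Finset.card_pos]
  obtain ⟨a, ha, har⟩ := H.ne i
  exact ⟨si Q a har, Finset.mem_filter.2 ⟨Finset.mem_univ _, ps_si Q har, H.neg i a har ha⟩⟩

/-- induction over the fixed Weyl group -/
theorem ind {p : Equiv.Perm (Fin D.nroots) → Prop} (h1 : p 1)
    (hs : ∀ i w, w ∈ WG Q.C2 → T.ρ * w = w * T.ρ → (∀ r : Fin D.nroots, (r : ℕ) ∈ PJ Q (H.J i) → ps (w r)) →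
      p w → p (w * H.wJ i)) {w : Equiv.Perm (Fin D.nroots)} (hw : w ∈ WG Q.C2) (hc : T.ρ * w = w * T.ρ) : p w := by
  have key : ∀ (k : ℕ) (w : Equiv.Perm (Fin D.nroots)), ninv w = k → w ∈ WG Q.C2 → T.ρ * w = w * T.ρ → p w := by
    intro k
    induction k using Nat.strong_induction_on with
    | _ k ih =>
      intro w hk hw hc
      by_cases hne : w = 1
      · rw [hne]; exact h1
      · have h2 : ∃ (a : ℕ) (ha : a < D.rank), ¬ ps (w (si Q a ha)) := by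
          by_contra hcon
          push Not at hcon
          exact hne (eq_one_of_ps Q hw (pos_of_simple Q (WG_waut Q hw) hcon))
        obtain ⟨a, ha, h⟩ := h2
        obtain ⟨i, hi⟩ := H.cover a ha
        have h3 := H.neg_all (WG_waut Q hw) hc ha hi h
        have hw' : w * H.wJ i ∈ WG Q.C2 := Subgroup.mul_mem _ hw (H.mem i)
        have hc' := comm_mul hc (H.comm i)
        have hp : ∀ r : Fin D.nroots, (r : ℕ) ∈ PJ Q (H.J i) → ps ((w * H.wJ i) r) := by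
          intro r hr
          have h4 := h3 (H.rev_mem hr)
          have h5 : ¬ ps (w (Fin.rev (H.wJ i r))) := h4.2 (Fin.rev _).2
          rw [(WG_waut Q hw).rev, ps_rev Q] at h5
          exact not_not.1 h5
        have h5 := H.ninv_mul (WG_waut Q hw') hp
        have h6 : w * H.wJ i * H.wJ i = w := by rw [mul_assoc, H.wJ_sq, mul_one]
        rw [h6] at h5
        have h7 := H.ninv_pos i
        have h8 := hs i _ hw' hc' hp (ih _ (by omega) _ rfl hw' hc')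
        rwa [h6] at h8
  exact key _ w rfl hw hc

end TwJ

end Cfsg.Agent.Lib.ChevAlg
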