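import Cfsg.Agent.Lib.ChevTwB

/-!
# The fixed point group of a Steinberg automorphism
-/

set_option autoImplicit false

namespace Cfsg.Agent.Lib.ChevAlg

open Cfsg.Lie Cfsg.Agent.Lib.ChevTab Matrix

variable {D : ChevalleyDatum} {K : Type*} [Field K] {Q : ChevO D K}

variable (Q) in
/-- negatives of `Φ_J⁺` -/
def NJ (J : List ℕ) : Set ℕ := {r | r < D.nroots ∧ D.nroots - 1 - r ∈ PJ Q J}

/-- fixed points in the group generated by the root subgroups in `Ψ` -/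
def Tw.FX (T : Tw Q) (Ψ : Set ℕ) : Subgroup (GL D.Idx K) := T.Fx ⊓ XS Q Ψ

lemma Tw.FX_mono (T : Tw Q) {Ψ Ψ' : Set ℕ} (h : Ψ ⊆ Ψ') : T.FX Ψ ≤ T.FX Ψ' := inf_le_inf le_rfl (XS_mono Q h)

lemma NJ_neg {J : List ℕ} {r : ℕ} (h : r ∈ NJ Q J) : r ∈ Neg D := by
  have h1 := h.2.1.1
  have h2 := h.1
  have h3 := Q.C.even
  show r < D.nroots / 2
  omega

lemma rho_WG (T : Tw Q) {w : Equiv.Perm (Fin D.nroots)} (hw : w ∈ WG Q.C2) : T.ρ * w * T.ρ⁻¹ ∈ WG Q.C2 := by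
  obtain ⟨n, hn, u, hm⟩ := exists_rep Q ⟨w, hw⟩
  obtain ⟨u', h1⟩ := T.s_mono hn hm
  obtain ⟨w', hw', u'', h2⟩ := monomial_mono Q (T.s_monomial hn)
  rw [h1.unique Q h2]
  exact hw'

lemma inv_w0 {w : Equiv.Perm (Fin D.nroots)} (h0 : ∀ s : Fin D.nroots, ps s → ¬ ps (w s)) : Inv w = Pos D := by
  apply Set.Subset.antisymm (inv_sub w)
  intro r hr
  exact ⟨hr, fun h => h0 ⟨r, h⟩ hr.1⟩

lemma w0_comm (T : Tw Q) {w : Equiv.Perm (Fin D.nroots)} (hw : w ∈ WG Q.C2) (h0 : ∀ s : Fin D.nroots, ps s → ¬ ps (w s)) :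
    T.ρ * w = w * T.ρ := by
  have h1 : T.ρ * w * T.ρ⁻¹ = w := by
    apply eq_of_inv_eq (rho_WG T hw) hw
    rw [inv_w0 h0]
    apply inv_w0
    intro s hs
    rw [Equiv.Perm.mul_apply, Equiv.Perm.mul_apply, T.pos]
    apply h0
    rw [← T.pos, perm_apply_inv]
    exact hs
  rwa [mul_inv_eq_iff_eq_mul] at h1

lemma NJ_phi (hS : SuppD Q.C) {J : List ℕ} : NJ Q J ⊆ PhiJ D {j | j ∈ J} := by
  intro r hr
  have h1 : D.nroots - 1 - r ∈ PhiJ D {j | j ∈ J} := (mem_PhiJ hS).2 ⟨hr.2.1.2, fun i hi hiJ => hr.2.2 i hi hiJ⟩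
  have h2 := phiJ_neg hS h1
  rwa [neg_neg_idx hr.1] at h2

lemma PJ_phi (hS : SuppD Q.C) {J : List ℕ} : PJ Q J ⊆ PhiJ D {j | j ∈ J} := by
  intro r hr
  exact (mem_PhiJ hS).2 ⟨hr.1.2, fun i hi hiJ => hr.2 i hi hiJ⟩

lemma pos_RJ_PJ (hS : SuppD Q.C) {J : List ℕ} : Pos D = RJ D {j | j ∈ J} ∪ PJ Q J := by
  ext r
  constructor
  · intro h
    by_cases h1 : D.InRootSub {j | j ∈ J} r
    · right
      have h2 : r ∈ PhiJ D {j | j ∈ J} := h1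
      rw [mem_PhiJ hS] at h2
      exact ⟨h, fun k hk hkJ => h2.2 k hk hkJ⟩
    · exact Or.inl ⟨h, h1⟩
  · rintro (h | h)
    · exact h.1
    · exact h.1

section levi

variable (hS : SuppD Q.C) {J : List ℕ} (hJ : ∀ j ∈ J, j < D.rank)
include hS

/-- the group `⟨B, n_j⟩` contains the root subgroups for `-Φ_J⁺` -/
lemma neg_mem_parabolic {K' : Subgroup (GL D.Idx K)} (hB : D.borelSubgroup K ≤ K')
    (hn : ∀ j ∈ J, j < D.rank → nG Q (D.simple j) 1 ∈ K') : XS Q (NJ Q J) ≤ K' := by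
  rw [XS_le]
  intro r hr t
  have h1 : D.nroots - 1 - r ∈ PhiJ D {j | j ∈ J} := PJ_phi hS hr.2
  obtain ⟨g, hg, w, u, hm, i, hi, hiJ, e⟩ := exists_simple_phi (J := {j | j ∈ J}) hS (K := K')
    (fun j hj hjr => hn j hj hjr) _ ⟨D.nroots - 1 - r, hr.2.1.2⟩ rfl hr.2.1 h1
  have e2 : w (Fin.rev (si Q i hi)) = ⟨r, hr.1⟩ := by
    rw [hm.waut.rev, e]
    apply Fin.ext
    rw [fin_rev_val]
    exact neg_neg_idx hr.1
  have hns := (mono_n Q hi).conj (si Q i hi)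
  have h2 : ∀ t', xG Q ((Fin.rev (si Q i hi) : Fin D.nroots) : ℕ) t' ∈ K' := by
    intro t'
    have h3 : nG Q (D.simple i) 1 * xG Q (si Q i hi) ((((if Q.C2.eta i (si Q i hi) = 1 then 1 else -1 : Kˣ))⁻¹ : Kˣ) * t') *
        (nG Q (D.simple i) 1)⁻¹ = xG Q ((Fin.rev (si Q i hi) : Fin D.nroots) : ℕ) t' := by
      rw [hns, sr_si, ← mul_assoc, Units.mul_inv, one_mul]
    rw [← h3]
    exact Subgroup.mul_mem _ (Subgroup.mul_mem _ (hn i hiJ hi) (hB (U_le_borel Q (xG_mem Q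
      (⟨Q.C.simple_ge i hi, Q.C.simple_lt i hi⟩ : (si Q i hi : ℕ) ∈ Pos D) _)))) (Subgroup.inv_mem _ (hn i hiJ hi))
  have h4 := hm.conj (Fin.rev (si Q i hi)) (((u (Fin.rev (si Q i hi)))⁻¹ : Kˣ) * t)
  rw [e2, ← mul_assoc, Units.mul_inv, one_mul] at h4
  show xG Q r t ∈ K'
  rw [show xG Q r t = xG Q ((⟨r, hr.1⟩ : Fin D.nroots) : ℕ) t from rfl, ← h4]
  exact Subgroup.mul_mem _ (Subgroup.mul_mem _ hg (h2 _)) (Subgroup.inv_mem _ hg)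

include hJ

/-- Bruhat cells of elements of the parabolic subgroup -/
lemma parabolic_cell {v : GL D.Idx K} (hv : v ∈ XS Q (NJ Q J)) {n : GL D.Idx K} {w : Equiv.Perm (Fin D.nroots)}
    {u : Fin D.nroots → Kˣ} (hn : n ∈ D.monomialSubgroup K) (hm : Mono Q n w u) {a c : GL D.Idx K}
    (ha : a ∈ D.borelSubgroup K) (hc : c ∈ D.borelSubgroup K) (e : v = a * n * c) : w ∈ WJ Q J := by
  have hG := Tw.XS_le_group (Q := Q) (NJ Q J)
  set JJ : Set ↥(D.group K) := {x | ∃ j ∈ J, (x : GL D.Idx K) = nG Q (D.simple j) 1} with hJJ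
  have hsub : JJ ⊆ (bn Q).S := by
    rintro x ⟨j, hj, hx⟩
    exact ⟨j, hJ j hj, hx⟩
  have h1 : (⟨v, hG hv⟩ : ↥(D.group K)) ∈ (bn Q).parabolic JJ := by
    have h2 : XS Q (NJ Q J) ≤ ((bn Q).parabolic JJ).map (D.group K).subtype := by
      apply neg_mem_parabolic hS
      · intro b hb
        exact ⟨⟨b, borel_le_group Q hb⟩, Subgroup.mem_sup_left hb, rfl⟩
      · intro j hj _
        exact ⟨⟨nG Q (D.simple j) 1, nG_mem_group Q _ _⟩, Subgroup.mem_sup_right (Subgroup.subset_closure ⟨j, hj, rfl⟩), rfl⟩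
    obtain ⟨x, hx, hxe⟩ := h2 hv
    have : x = ⟨v, hG hv⟩ := Subtype.ext hxe
    rwa [← this]
  obtain ⟨m, hm1, hm2⟩ := (BNPair.mem_parabolic_iff hsub _).1 h1
  obtain ⟨b, hb, b', hb', e2⟩ := BNPair.mem_dc.1 hm2
  have e3 : v = b * m * b' := congrArg Subtype.val e2
  have h3 : ∀ x ∈ Subgroup.closure JJ, (x : GL D.Idx K) ∈ D.monomialSubgroup K ∧
      ∃ w' ∈ WJ Q J, ∃ u', Mono Q (x : GL D.Idx K) w' u' := by
    intro x hx
    refine Subgroup.closure_induction (p := fun (x : ↥(D.group K)) _ => (x : GL D.Idx K) ∈ D.monomialSubgroup K ∧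
      ∃ w' ∈ WJ Q J, ∃ u', Mono Q (x : GL D.Idx K) w' u') ?_ ?_ ?_ ?_ hx
    · rintro x ⟨j, hj, hx⟩
      rw [hx]
      exact ⟨nG_mem_monomial Q (Q.C.simple_lt j (hJ j hj)), _, sr_mem_WJ Q hj (hJ j hj), _, mono_n Q (hJ j hj)⟩
    · exact ⟨Subgroup.one_mem _, 1, Subgroup.one_mem _, _, Mono.one⟩
    · rintro x y _ _ ⟨h1, w1, hw1, u1, m1⟩ ⟨h2, w2, hw2, u2, m2⟩
      exact ⟨Subgroup.mul_mem _ h1 h2, _, Subgroup.mul_mem _ hw1 hw2, _, m1.mul m2⟩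
    · rintro x _ ⟨h1, w1, hw1, u1, m1⟩
      exact ⟨Subgroup.inv_mem _ h1, _, Subgroup.inv_mem _ hw1, _, m1.inv⟩
  obtain ⟨hmN, w', hw', u', hm'⟩ := h3 m hm1
  have h4 := bruhat_unique Q hn hmN ha hc hb hb' (e.symm.trans e3)
  obtain ⟨χ, hχ, e4⟩ := diagonal_mono Q h4
  have h5 := hm.inv.mul hm'
  rw [e4] at h5
  have h6 := h5.unique Q (mono_dG hχ)
  rw [inv_mul_eq_one] at h6
  rw [h6]
  exact hw'

/-- Bruhat decomposition of elements of `⟨X_r : r ∈ -Φ_J⁺⟩` inside the Levi subgroup -/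
theorem levi_bruhat {v : GL D.Idx K} (hv : v ∈ XS Q (NJ Q J)) : ∃ a ∈ XS Q (PJ Q J), ∃ n ∈ D.monomialSubgroup K,
    ∃ w ∈ WJ Q J, ∃ u, Mono Q n w u ∧ ∃ c ∈ XS Q (Inv w), c ∈ XS Q (PJ Q J) ∧ v = a * n * c := by
  have hU := U_le_borel Q
  obtain ⟨a, ha, n, hn, w, hw, u, hm, c, hc, e⟩ := exists_can Q (Tw.XS_le_group (Q := Q) (NJ Q J) hv)
  have hcB := hU (XS_mono Q (inv_sub w) hc)
  have hwJ := parabolic_cell hS hJ hv hn hm (hU ha) hcB e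
  have hcJ : c ∈ XS Q (PJ Q J) := XS_mono Q (inv_sub_PJ hwJ) hc
  refine ⟨a, ?_, n, hn, w, hwJ, u, hm, c, hc, hcJ, e⟩
  -- `n` is in the Levi subgroup
  have hlevi : D.diagonalSubgroup K ≤ D.diagonalSubgroup K ⊔ XS Q (PhiJ D {j | j ∈ J}) := le_sup_left
  have hlevi' : XS Q (PhiJ D {j | j ∈ J}) ≤ D.diagonalSubgroup K ⊔ XS Q (PhiJ D {j | j ∈ J}) := le_sup_right
  have h1 : ∀ w' ∈ WJ Q J, ∃ n' ∈ XS Q (PhiJ D {j | j ∈ J}), n' ∈ D.monomialSubgroup K ∧ ∃ u', Mono Q n' w' u' := by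
    intro w' hw'
    refine WJ_induction Q (p := fun w' => ∃ n' ∈ XS Q (PhiJ D {j | j ∈ J}), n' ∈ D.monomialSubgroup K ∧ ∃ u', Mono Q n' w' u')
      ⟨1, Subgroup.one_mem _, Subgroup.one_mem _, _, Mono.one⟩ ?_ hw'
    rintro i hi hir w'' _ ⟨n', h1, h2, u', h3⟩
    refine ⟨nG Q (D.simple i) 1 * n', Subgroup.mul_mem _ ?_ h1, Subgroup.mul_mem _ (nG_mem_monomial Q (Q.C.simple_lt i hir)) h2,
      _, (mono_n Q hir).mul h3⟩
    have h4 : D.simple i ∈ PhiJ D {j | j ∈ J} := si_mem_phi Q hir hi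
    have h5 := phiJ_neg hS h4
    exact Subgroup.mul_mem _ (Subgroup.mul_mem _ (xG_mem Q h4 _) (xG_mem Q h5 _)) (xG_mem Q h4 _)
  obtain ⟨n', hn1, hn2, u', hm'⟩ := h1 w hwJ
  have h2 : n * n'⁻¹ ∈ D.diagonalSubgroup K := by
    have h3 := hm.mul hm'.inv
    simp only [mul_inv_cancel] at h3
    exact mem_diagonal_of_mono Q (Subgroup.mul_mem _ hn (Subgroup.inv_mem _ hn2)) h3
  have h3 : n ∈ D.diagonalSubgroup K ⊔ XS Q (PhiJ D {j | j ∈ J}) := by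
    have : n = (n * n'⁻¹) * n' := by group
    rw [this]
    exact Subgroup.mul_mem _ (hlevi h2) (hlevi' hn1)
  obtain ⟨x, hx, y, hy, e2⟩ := exists_factor Q (pos_RJ_PJ (J := J) hS) le_rfl (clos_pos Q) ha
  have h4 : x = 1 := by
    apply radical_inf_levi hS hx
    have : x = v * c⁻¹ * n⁻¹ * y⁻¹ := by rw [e, e2]; group
    rw [this]
    exact Subgroup.mul_mem _ (Subgroup.mul_mem _ (Subgroup.mul_mem _ (hlevi' (XS_mono Q (NJ_phi hS) hv))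
      (Subgroup.inv_mem _ (hlevi' (XS_mono Q (PJ_phi hS) hcJ)))) (Subgroup.inv_mem _ h3))
      (Subgroup.inv_mem _ (hlevi' (XS_mono Q (PJ_phi hS) hy)))
  rw [e2, h4, one_mul]
  exact hy

end levi

namespace TwJ

variable {T : Tw Q} {ι : Type*} (H : TwJ T ι)

/-- the longest element of `W_J` is represented by a fixed element -/
theorem exists_nJ (hS : SuppD Q.C) (hJ : ∀ i, ∀ j ∈ H.J i, j < D.rank) {i : ι} {v : GL D.Idx K}
    (hv : v ∈ T.FX (NJ Q (H.J i))) (hne : v ≠ 1) : ∃ a ∈ T.FX (PJ Q (H.J i)), ∃ n ∈ T.Fx, n ∈ D.monomialSubgroup K ∧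
    (∃ u, Mono Q n (H.wJ i) u) ∧ ∃ c ∈ T.FX (PJ Q (H.J i)), v = a * n * c := by
  obtain ⟨a, ha, n, hn, w, hw, u, hm, c, hc, hcJ, e⟩ := levi_bruhat hS (hJ i) hv.2
  obtain ⟨h1, h2, h3, h4⟩ := T.can_fx hn hm (XS_mono Q (PJ_sub _) ha) hc (by rw [← e]; exact hv.1)
  have h5 : w ≠ 1 := by
    rintro rfl
    have h6 := mem_diagonal_of_mono Q hn hm
    apply hne
    have hU := U_le_borel Q
    apply borel_inf_V Q ?_ (XS_mono Q (fun r hr => NJ_neg hr) hv.2)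
    rw [e]
    exact Subgroup.mul_mem _ (Subgroup.mul_mem _ (hU (XS_mono Q (PJ_sub _) ha)) (H_le_borel Q h6))
      (hU (XS_mono Q (PJ_sub _) hcJ))
  have h6 := H.eq_wJ hw h4 h5
  subst h6
  exact ⟨a, ⟨h1, ha⟩, n, h2, hn, ⟨u, hm⟩, c, ⟨h3, hcJ⟩, e⟩

end TwJ

/-- a subgroup of the fixed points containing the fixed points of the simple classes -/
structure TwG {T : Tw Q} {ι : Type*} (H : TwJ T ι) (G1 : Subgroup (GL D.Idx K)) : Prop where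
  supp : SuppD Q.C
  lt : ∀ i, ∀ j ∈ H.J i, j < D.rank
  le : G1 ≤ T.Fx
  posJ : ∀ i, T.FX (PJ Q (H.J i)) ≤ G1
  negJ : ∀ i, T.FX (NJ Q (H.J i)) ≤ G1
  exv : ∀ i, ∃ v ∈ T.FX (NJ Q (H.J i)), v ≠ 1

namespace TwG

variable {T : Tw Q} {ι : Type*} {H : TwJ T ι} {G1 : Subgroup (GL D.Idx K)} (A : TwG H G1)
include A

lemma exists_nJ (i : ι) : ∃ n ∈ G1, n ∈ D.monomialSubgroup K ∧ ∃ u, Mono Q n (H.wJ i) u := by
  obtain ⟨v, hv, hne⟩ := A.exv i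
  obtain ⟨a, ha, n, hn, hnN, hm, c, hc, e⟩ := H.exists_nJ A.supp A.lt hv hne
  refine ⟨n, ?_, hnN, hm⟩
  have : n = a⁻¹ * v * c⁻¹ := by rw [e]; group
  rw [this]
  exact Subgroup.mul_mem _ (Subgroup.mul_mem _ (Subgroup.inv_mem _ (A.posJ i ha)) (A.negJ i hv))
    (Subgroup.inv_mem _ (A.posJ i hc))

lemma exists_n {w : Equiv.Perm (Fin D.nroots)} (hw : w ∈ WG Q.C2) (hc : T.ρ * w = w * T.ρ) :
    ∃ n ∈ G1, n ∈ D.monomialSubgroup K ∧ ∃ u, Mono Q n w u := by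
  refine H.ind (p := fun w => ∃ n ∈ G1, n ∈ D.monomialSubgroup K ∧ ∃ u, Mono Q n w u)
    ⟨1, Subgroup.one_mem _, Subgroup.one_mem _, _, Mono.one⟩ ?_ hw hc
  rintro i w _ _ _ ⟨n, hn, hnN, u, hm⟩
  obtain ⟨n', hn', hnN', u', hm'⟩ := A.exists_nJ i
  exact ⟨n * n', Subgroup.mul_mem _ hn hn', Subgroup.mul_mem _ hnN hnN', _, hm.mul hm'⟩

omit A in
/-- conjugation of `U_w` by a representative of `w_J` -/
lemma conj_Tl {i : ι} {w : Equiv.Perm (Fin D.nroots)} {n : GL D.Idx K} {u : Fin D.nroots → Kˣ} (hm : Mono Q n (H.wJ i) u)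
    {y : GL D.Idx K} (hy : y ∈ XS Q (H.Tl w i)) : n * y * n⁻¹ ∈ XS Q (Inv w) :=
  conj_XS_le Q (fun r hr t => by
    obtain ⟨hlt, h2⟩ := hr
    have h1 := hm.conj ⟨r, hlt⟩ t
    rw [show n * xG Q r t * n⁻¹ = _ from h1]
    exact xG_mem Q h2 _) hy

omit A in
lemma conj_Inv {i : ι} {w : Equiv.Perm (Fin D.nroots)} {n : GL D.Idx K} {u : Fin D.nroots → Kˣ} (hm : Mono Q n (H.wJ i) u)
    {y : GL D.Idx K} (hy : y ∈ XS Q (Inv w)) : n⁻¹ * y * n ∈ XS Q (H.Tl w i) := by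
  have h1 : n⁻¹ * y * n⁻¹⁻¹ ∈ XS Q (H.Tl w i) := conj_XS_le Q (fun r hr t => by
    have hlt := hr.1.2
    have h1 := hm.inv.conj ⟨r, hlt⟩ t
    rw [show n⁻¹ * xG Q r t * n⁻¹⁻¹ = _ from h1]
    apply xG_mem
    rw [H.wJ_inv]
    refine ⟨(H.wJ i _).2, ?_⟩
    show ((H.wJ i (H.wJ i ⟨r, hlt⟩) : Fin D.nroots) : ℕ) ∈ Inv w
    rw [H.wJ_wJ]
    exact hr) hy
  rwa [inv_inv] at h1

omit A in
/-- factorization of fixed elements of `U_{w w_J}` -/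
lemma factor {i : ι} {w : Equiv.Perm (Fin D.nroots)} (hw : WAut Q.C w) (hc : T.ρ * w = w * T.ρ)
    (hp : ∀ r : Fin D.nroots, (r : ℕ) ∈ PJ Q (H.J i) → ps (w r)) {y : GL D.Idx K} (hy : y ∈ T.FX (Inv (w * H.wJ i))) :
    ∃ a ∈ T.FX (H.Tl w i), ∃ b ∈ T.FX (PJ Q (H.J i)), y = a * b := by
  have h1 := hy.2
  obtain ⟨a, ha, b, hb, e⟩ := exists_factor Q (H.inv_mul hw hp) (inv_sub _)
    (clos_inv Q (hw.mul (WG_waut Q (H.mem i)))) h1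
  obtain ⟨h3, h4⟩ := T.fx_factor (fun r hr => (H.Tl_pos hp hr).1) (PJ_sub _) (H.Tl_clos hw i) (H.PJ_clos i) (H.Tl_disj hp)
    (H.Tl_st hc i) (H.PJ_st i) ha hb (by rw [← e]; exact hy.1)
  exact ⟨a, ⟨h3, ha⟩, b, ⟨h4, hb⟩, e⟩

lemma FX_inv_le {w : Equiv.Perm (Fin D.nroots)} (hw : w ∈ WG Q.C2) (hc : T.ρ * w = w * T.ρ) : T.FX (Inv w) ≤ G1 := by
  refine H.ind (p := fun w => T.FX (Inv w) ≤ G1) ?_ ?_ hw hc
  · intro y hy
    have h1 : Inv (1 : Equiv.Perm (Fin D.nroots)) = ∅ := by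
      ext r
      simp only [Set.mem_empty_iff_false, iff_false]
      rintro ⟨h2, h3⟩
      exact h3 h2.2 h2.1
    have h2 : y ∈ XS Q (Inv (1 : Equiv.Perm (Fin D.nroots))) := hy.2
    rw [h1, XS_empty, Subgroup.mem_bot] at h2
    rw [h2]; exact Subgroup.one_mem _
  · intro i w hw hc hp ih y hy
    obtain ⟨a, ha, b, hb, rfl⟩ := factor (WG_waut Q hw) hc hp hy
    obtain ⟨n, hn, hnN, u, hm⟩ := A.exists_nJ i
    refine Subgroup.mul_mem _ ?_ (A.posJ i hb)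
    have h1 : n * a * n⁻¹ ∈ T.FX (Inv w) :=
      ⟨Subgroup.mul_mem _ (Subgroup.mul_mem _ (A.le hn) ha.1) (Subgroup.inv_mem _ (A.le hn)), conj_Tl hm ha.2⟩
    have h2 : a = n⁻¹ * (n * a * n⁻¹) * n := by group
    rw [h2]
    exact Subgroup.mul_mem _ (Subgroup.mul_mem _ (Subgroup.inv_mem _ hn) (ih h1)) hn

lemma FX_pos_le : T.FX (Pos D) ≤ G1 := by
  obtain ⟨n, hn, w, hw, v, hm, h0⟩ := exists_w0 (Q := Q)
  rw [← inv_w0 h0]
  exact A.FX_inv_le hw (w0_comm T hw h0)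

/-- the fixed point group, once the torus is known -/
theorem eq_Fx (hT : T.Fx ⊓ D.diagonalSubgroup K ≤ G1) : G1 = T.Fx := by
  apply le_antisymm A.le
  intro g hg
  obtain ⟨a, ha, n, hn, w, hw, u, hm, c, hc, e⟩ := exists_can Q hg.1
  obtain ⟨h1, h2, h3, h4⟩ := T.can_fx hn hm ha hc (by rw [← e]; exact hg)
  obtain ⟨n', hn', hnN', u', hm'⟩ := A.exists_n hw h4
  have h5 : n * n'⁻¹ ∈ D.diagonalSubgroup K := by
    have h3 := hm.mul hm'.inv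
    simp only [mul_inv_cancel] at h3
    exact mem_diagonal_of_mono Q (Subgroup.mul_mem _ hn (Subgroup.inv_mem _ hnN')) h3
  have h6 : n * n'⁻¹ ∈ G1 := hT ⟨Subgroup.mul_mem _ h2 (Subgroup.inv_mem _ (A.le hn')), h5⟩
  have h7 : n ∈ G1 := by
    have : n = (n * n'⁻¹) * n' := by group
    rw [this]
    exact Subgroup.mul_mem _ h6 hn'
  rw [e]
  exact Subgroup.mul_mem _ (Subgroup.mul_mem _ (A.FX_pos_le ⟨h1, ha⟩) h7) (A.FX_inv_le hw h4 ⟨h3, hc⟩)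

lemma card_step {i : ι} {w : Equiv.Perm (Fin D.nroots)} (hw : WAut Q.C w) (hc : T.ρ * w = w * T.ρ)
    (hp : ∀ r : Fin D.nroots, (r : ℕ) ∈ PJ Q (H.J i) → ps (w r)) :
    Nat.card (T.FX (Inv (w * H.wJ i))) = Nat.card (T.FX (Inv w)) * Nat.card (T.FX (PJ Q (H.J i))) := by
  obtain ⟨n, hn, hnN, u, hm⟩ := A.exists_nJ i
  have hnF := A.le hn
  rw [← Nat.card_prod]
  symm
  have hinv := H.inv_mul hw hp
  apply Nat.card_congr
  refine Equiv.ofBijective (fun p : T.FX (Inv w) × T.FX (PJ Q (H.J i)) => (⟨n⁻¹ * p.1 * n * p.2, ?_, ?_⟩ :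
    T.FX (Inv (w * H.wJ i)))) ⟨?_, ?_⟩
  · exact Subgroup.mul_mem _ (Subgroup.mul_mem _ (Subgroup.mul_mem _ (Subgroup.inv_mem _ hnF) p.1.2.1) hnF) p.2.2.1
  · rw [hinv]
    exact Subgroup.mul_mem _ (XS_mono Q Set.subset_union_left (conj_Inv hm p.1.2.2))
      (XS_mono Q Set.subset_union_right p.2.2.2)
  · rintro ⟨a, b⟩ ⟨a', b'⟩ h
    have h1 : n⁻¹ * (a : GL D.Idx K) * n * b = n⁻¹ * a' * n * b' := congrArg Subtype.val h
    have h2 : (n⁻¹ * (a' : GL D.Idx K) * n)⁻¹ * (n⁻¹ * a * n) = b' * (b : GL D.Idx K)⁻¹ := by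
      rw [inv_mul_eq_iff_eq_mul, ← mul_assoc, eq_mul_inv_iff_mul_eq, h1]
    have h3 : (n⁻¹ * (a' : GL D.Idx K) * n)⁻¹ * (n⁻¹ * a * n) = 1 :=
      XS_disjoint Q (fun r hr => (H.Tl_pos hp hr).1) (PJ_sub _) (H.Tl_clos hw i) (H.PJ_clos i) (H.Tl_disj hp)
        (Subgroup.mul_mem _ (Subgroup.inv_mem _ (conj_Inv hm a'.2.2)) (conj_Inv hm a.2.2))
        (by rw [h2]; exact Subgroup.mul_mem _ b'.2.2 (Subgroup.inv_mem _ b.2.2))
    have h4 : (a : GL D.Idx K) = a' := by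
      rw [inv_mul_eq_one] at h3
      exact (mul_left_cancel (mul_right_cancel h3)).symm
    have h5 : (b : GL D.Idx K) = b' := by
      rw [h4] at h1
      exact mul_left_cancel h1
    exact Prod.ext (Subtype.ext h4) (Subtype.ext h5)
  · rintro ⟨y, hy⟩
    obtain ⟨a, ha, b, hb, rfl⟩ := factor hw hc hp hy
    refine ⟨(⟨n * a * n⁻¹, Subgroup.mul_mem _ (Subgroup.mul_mem _ hnF ha.1) (Subgroup.inv_mem _ hnF), conj_Tl hm ha.2⟩,
      ⟨b, hb⟩), Subtype.ext ?_⟩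
    show n⁻¹ * (n * a * n⁻¹) * n * b = a * b
    group

/-- orders of the groups `U_w`: if `|U_J|^e = c^{|Φ_J⁺|}` then `|U_w|^e = c^{n(w)}` -/
theorem card_FX {c e : ℕ} (h : ∀ i, Nat.card (T.FX (PJ Q (H.J i))) ^ e = c ^ ninv (H.wJ i))
    {w : Equiv.Perm (Fin D.nroots)} (hw : w ∈ WG Q.C2) (hc : T.ρ * w = w * T.ρ) : Nat.card (T.FX (Inv w)) ^ e = c ^ ninv w := by
  refine H.ind (p := fun w => Nat.card (T.FX (Inv w)) ^ e = c ^ ninv w) ?_ ?_ hw hc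
  · have h1 : Inv (1 : Equiv.Perm (Fin D.nroots)) = ∅ := by
      ext r
      simp only [Set.mem_empty_iff_false, iff_false]
      rintro ⟨h2, h3⟩
      exact h3 h2.2 h2.1
    have h2 : ninv (1 : Equiv.Perm (Fin D.nroots)) = 0 := by
      rw [← length_lst_inv, h1]
      simp [lst]
    have h3 : T.FX (Inv (1 : Equiv.Perm (Fin D.nroots))) = ⊥ := by
      rw [Tw.FX, h1, XS_empty, inf_bot_eq]
    rw [h2, h3]
    simp
  · intro i w hw hc hp ih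
    rw [A.card_step (WG_waut Q hw) hc hp, H.ninv_mul (WG_waut Q hw) hp, mul_pow, ih, h, pow_add]

end TwG

end Cfsg.Agent.Lib.ChevAlg
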