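import Cfsg.Agent.Lib.ChevTwC
import Cfsg.Agent.Lib.ChevOut
import Cfsg.Agent.Lib.ChevSimple
import Cfsg.Agent.Lib.ChevCox

/-!
# Order, (B,N)-pair and simplicity of the fixed point groups
-/

set_option autoImplicit false

namespace Cfsg.Agent.Lib.ChevAlg

open Cfsg.Lie Cfsg.Agent.Lib.ChevTab Matrix

variable {D : ChevalleyDatum} {K : Type*} [Field K] {Q : ChevO D K}

lemma neg_neg_idx' {r : ℕ} (hr : r < D.nroots) : D.nroots - 1 - (D.nroots - 1 - r) = r := by omega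

/-- positive version of `neg_of_simple_J` -/
lemma pos_of_simple_J {J : List ℕ} {w : Equiv.Perm (Fin D.nroots)} (hw : WAut Q.C w)
    (h : ∀ (i : ℕ) (hi : i < D.rank), i ∈ J → ps (w (si Q i hi))) (s : Fin D.nroots) (hs : (s : ℕ) ∈ PJ Q J) :
    ps (w s) := by
  obtain ⟨n, hn, w0, hw0, v, hm, h0⟩ := exists_w0 (Q := Q)
  have hW := WG_waut Q hw0
  have h1 := neg_of_simple_J (hW.mul hw) (J := J) (fun i hi hiJ => by
    rw [Equiv.Perm.mul_apply, w0_neg hW h0]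
    exact not_not.2 (h i hi hiJ)) s hs
  rw [Equiv.Perm.mul_apply, w0_neg hW h0] at h1
  exact not_not.1 h1

namespace TwJ

variable {T : Tw Q} {ι : Type*} (H : TwJ T ι)

lemma dich {w : Equiv.Perm (Fin D.nroots)} (hw : WAut Q.C w) (hc : T.ρ * w = w * T.ρ) (i : ι) :
    (∀ r : Fin D.nroots, (r : ℕ) ∈ PJ Q (H.J i) → ps (w r)) ∨
    (∀ r : Fin D.nroots, (r : ℕ) ∈ PJ Q (H.J i) → ¬ ps (w r)) := by
  by_cases h : ∀ (a : ℕ) (ha : a < D.rank), a ∈ H.J i → ps (w (si Q a ha))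
  · exact Or.inl (pos_of_simple_J hw h)
  · right
    push Not at h
    obtain ⟨a, ha, haJ, h1⟩ := h
    intro r hr
    exact (H.neg_all hw hc ha haJ h1 hr).2 r.2

end TwJ

namespace TwG

variable {T : Tw Q} {ι : Type*} {H : TwJ T ι} {G1 : Subgroup (GL D.Idx K)} (A : TwG H G1)

open Classical in
/-- the fixed Weyl group as a finite set -/
noncomputable def Wr (T : Tw Q) : Finset (Equiv.Perm (Fin D.nroots)) :=
  Finset.univ.filter fun w => w ∈ WG Q.C2 ∧ T.ρ * w = w * T.ρ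

lemma mem_Wr {w : Equiv.Perm (Fin D.nroots)} : w ∈ Wr T ↔ w ∈ WG Q.C2 ∧ T.ρ * w = w * T.ρ := by
  classical
  rw [Wr, Finset.mem_filter]
  simp

include A

/-- the order of the fixed point group -/
theorem card_sum [Finite K] (hT : T.Fx ⊓ D.diagonalSubgroup K ≤ G1) :
    Nat.card G1 = Nat.card (T.FX (Pos D)) * Nat.card (T.Fx ⊓ D.diagonalSubgroup K : Subgroup (GL D.Idx K)) *
      ∑ w ∈ Wr T, Nat.card (T.FX (Inv w)) := by
  have hG := A.eq_Fx hT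
  choose n hn hnN v hm using fun w : Wr T => A.exists_n (mem_Wr.1 w.2).1 (mem_Wr.1 w.2).2
  have e : Nat.card (Σ w : Wr T, (T.FX (Pos D)) × (T.Fx ⊓ D.diagonalSubgroup K : Subgroup (GL D.Idx K)) ×
      T.FX (Inv (w : Equiv.Perm (Fin D.nroots)))) = Nat.card G1 := by
    apply Nat.card_congr
    refine Equiv.ofBijective (fun p => (⟨p.2.1 * (p.2.2.1 * n p.1) * p.2.2.2, ?_⟩ : G1)) ⟨?_, ?_⟩
    · have h1 : (p.2.2.1 : GL D.Idx K) ∈ G1 := hT p.2.2.1.2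
      exact Subgroup.mul_mem _ (Subgroup.mul_mem _ (A.FX_pos_le p.2.1.2) (Subgroup.mul_mem _ h1 (hn p.1)))
        (A.FX_inv_le (mem_Wr.1 p.1.2).1 (mem_Wr.1 p.1.2).2 p.2.2.2.2)
    · rintro ⟨w, a, h, c⟩ ⟨w', a', h', c'⟩ he
      have h1 : (a : GL D.Idx K) * (h * n w) * c = a' * (h' * n w') * c' := congrArg Subtype.val he
      obtain ⟨χ, hχ, e1⟩ := diagonal_mono Q h.2.2
      obtain ⟨χ', hχ', e1'⟩ := diagonal_mono Q h'.2.2
      have m1 := (mono_dG (Q := Q) hχ).mul (hm w)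
      have m2 := (mono_dG (Q := Q) hχ').mul (hm w')
      rw [← e1, one_mul] at m1
      rw [← e1', one_mul] at m2
      obtain ⟨h2, h3, h4⟩ := can_unique Q (Subgroup.mul_mem _ (diagonal_le_monomial h.2.2) (hnN w))
        (Subgroup.mul_mem _ (diagonal_le_monomial h'.2.2) (hnN w')) m1 m2 a.2.2 a'.2.2 c.2.2 c'.2.2 h1
      rw [h3] at m1
      have h5 : w = w' := Subtype.ext (m1.unique Q m2)
      subst h5
      have h6 : a = a' := Subtype.ext h2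
      have h7 : c = c' := Subtype.ext h4
      have h8 : h = h' := Subtype.ext (mul_right_cancel h3)
      rw [h6, h7, h8]
    · rintro ⟨g, hg⟩
      have hgF := A.le hg
      obtain ⟨a, ha, m, hmN, w, hw, u, hmono, c, hc, e⟩ := exists_can Q hgF.1
      obtain ⟨h1, h2, h3, h4⟩ := T.can_fx hmN hmono ha hc (by rw [← e]; exact hgF)
      have hw' : w ∈ Wr T := mem_Wr.2 ⟨hw, h4⟩
      have h5 : m * (n ⟨w, hw'⟩)⁻¹ ∈ D.diagonalSubgroup K := by
        have h2 := hmono.mul (hm ⟨w, hw'⟩).inv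
        simp only [mul_inv_cancel] at h2
        exact mem_diagonal_of_mono Q (Subgroup.mul_mem _ hmN (Subgroup.inv_mem _ (hnN _))) h2
      refine ⟨⟨⟨w, hw'⟩, ⟨a, h1, ha⟩, ⟨m * (n ⟨w, hw'⟩)⁻¹, Subgroup.mul_mem _ h2 (Subgroup.inv_mem _ (A.le (hn _))), h5⟩,
        ⟨c, h3, hc⟩⟩, Subtype.ext ?_⟩
      show a * (m * (n ⟨w, hw'⟩)⁻¹ * n ⟨w, hw'⟩) * c = g
      rw [e]; group
  rw [← e, Nat.card_sigma, Finset.mul_sum, ← Finset.sum_coe_sort (Wr T)]
  apply Finset.sum_congr rfl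
  intro w _
  rw [Nat.card_prod, Nat.card_prod, mul_assoc]

/-- a set of representatives of the simple reflections -/
noncomputable def nJ (i : ι) : GL D.Idx K := (A.exists_nJ i).choose

lemma nJ_mem (i : ι) : A.nJ i ∈ G1 := (A.exists_nJ i).choose_spec.1
lemma nJ_N (i : ι) : A.nJ i ∈ D.monomialSubgroup K := (A.exists_nJ i).choose_spec.2.1
lemma nJ_mono (i : ι) : ∃ u, Mono Q (A.nJ i) (H.wJ i) u := (A.exists_nJ i).choose_spec.2.2

lemma nJ_sq (i : ι) : A.nJ i * A.nJ i ∈ D.diagonalSubgroup K := by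
  obtain ⟨u, hm⟩ := A.nJ_mono i
  have h1 := hm.mul hm
  rw [H.wJ_sq] at h1
  exact mem_diagonal_of_mono Q (Subgroup.mul_mem _ (A.nJ_N i) (A.nJ_N i)) h1

omit A in
lemma conj_PJ_NJ {i : ι} {n : GL D.Idx K} {u : Fin D.nroots → Kˣ} (hm : Mono Q n (H.wJ i) u)
    {y : GL D.Idx K} (hy : y ∈ XS Q (PJ Q (H.J i))) : n * y * n⁻¹ ∈ XS Q (NJ Q (H.J i)) :=
  conj_XS_le Q (fun r hr t => by
    have hlt := hr.1.2
    have h1 := hm.conj ⟨r, hlt⟩ t
    rw [show n * xG Q r t * n⁻¹ = _ from h1]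
    have h2 := H.rev_mem (r := ⟨r, hlt⟩) hr
    rw [fin_rev_val] at h2
    exact xG_mem Q (⟨(H.wJ i ⟨r, hlt⟩).2, h2⟩ : ((H.wJ i ⟨r, hlt⟩ : Fin D.nroots) : ℕ) ∈ NJ Q (H.J i)) _) hy

omit A in
lemma conj_NJ_PJ {i : ι} {n : GL D.Idx K} {u : Fin D.nroots → Kˣ} (hm : Mono Q n (H.wJ i) u)
    {y : GL D.Idx K} (hy : y ∈ XS Q (NJ Q (H.J i))) : n * y * n⁻¹ ∈ XS Q (PJ Q (H.J i)) :=
  conj_XS_le Q (fun r hr t => by
    have hlt := hr.1
    have h1 := hm.conj ⟨r, hlt⟩ t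
    rw [show n * xG Q r t * n⁻¹ = _ from h1]
    apply xG_mem
    have h2 := H.rev_mem (r := Fin.rev ⟨r, hlt⟩) (by rw [fin_rev_val]; exact hr.2)
    rw [(WG_waut Q (H.mem i)).rev, Fin.rev_rev] at h2
    exact h2) hy

/-- data of the (B,N)-pair -/
theorem bnData (hT : T.Fx ⊓ D.diagonalSubgroup K ≤ G1) (hdis : ∀ i j a, a ∈ H.J i → a ∈ H.J j → i = j) :
    MkBN.Data G1 (D.borelSubgroup K ⊓ G1) (D.monomialSubgroup K ⊓ G1) (Set.range A.nJ) where
  sup_eq := by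
    have hG := A.eq_Fx hT
    apply le_antisymm (sup_le inf_le_right inf_le_right)
    intro g hg
    have hgF := A.le hg
    obtain ⟨a, ha, m, hmN, w, hw, u, hmono, c, hc, e⟩ := exists_can Q hgF.1
    obtain ⟨h1, h2, h3, h4⟩ := T.can_fx hmN hmono ha hc (by rw [← e]; exact hgF)
    have hU := U_le_borel Q
    rw [e]
    rw [← hG] at h1 h2 h3
    exact Subgroup.mul_mem _ (Subgroup.mul_mem _ (Subgroup.mem_sup_left ⟨hU ha, h1⟩) (Subgroup.mem_sup_right ⟨hmN, h2⟩))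
      (Subgroup.mem_sup_left ⟨hU (XS_mono Q (inv_sub w) hc), h3⟩)
  conj_mem := by
    rintro n ⟨hn, hn'⟩ t ⟨ht, ht'⟩ ⟨ht2, _⟩
    refine ⟨H_le_borel Q (diag_conj Q hn (borel_inf_N Q ht ht2)), ?_⟩
    exact Subgroup.mul_mem _ (Subgroup.mul_mem _ hn' ht') (Subgroup.inv_mem _ hn')
  subset := by
    rintro _ ⟨i, rfl⟩
    exact ⟨A.nJ_N i, A.nJ_mem i⟩
  sq_mem := by
    rintro _ ⟨i, rfl⟩
    exact ⟨H_le_borel Q (A.nJ_sq i), Subgroup.mul_mem _ (A.nJ_mem i) (A.nJ_mem i)⟩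
  inj := by
    rintro _ ⟨i, rfl⟩ _ ⟨j, rfl⟩ h
    have h1 := borel_inf_N Q h.1 (Subgroup.mul_mem _ (Subgroup.inv_mem _ (A.nJ_N i)) (A.nJ_N j))
    obtain ⟨χ, hχ, e1⟩ := diagonal_mono Q h1
    obtain ⟨u, hm⟩ := A.nJ_mono i
    obtain ⟨u', hm'⟩ := A.nJ_mono j
    have h2 := hm.inv.mul hm'
    rw [e1] at h2
    have h3 := h2.unique Q (mono_dG hχ)
    rw [inv_mul_eq_one] at h3
    obtain ⟨a, ha, har⟩ := H.ne i
    have h4 : (si Q a har : ℕ) ∈ PJ Q (H.J j) := by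
      rw [← H.inv_wJ, ← h3, H.inv_wJ]
      exact si_mem_PJ har ha
    have h5 : a ∈ H.J j := by
      by_contra hc
      have h6 := h4.2 a har hc
      have h7 := Q.C.vec_simple a har a har
      rw [if_pos rfl] at h7
      rw [show Q.C.vec (si Q a har) a = 1 from h7] at h6
      norm_num at h6
    rw [hdis i j a ha h5]
  closure_sup := by
    rintro n ⟨hn, hn'⟩
    obtain ⟨w, hw, u, hm⟩ := monomial_mono Q hn
    have hc := T.comm_of_fx hn hm (A.le hn')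
    have h1 : ∃ m ∈ Subgroup.closure (Set.range A.nJ), m ∈ G1 ∧ m ∈ D.monomialSubgroup K ∧ ∃ u', Mono Q m w u' := by
      refine H.ind (p := fun w => ∃ m ∈ Subgroup.closure (Set.range A.nJ), m ∈ G1 ∧ m ∈ D.monomialSubgroup K ∧ ∃ u', Mono Q m w u')
        ⟨1, Subgroup.one_mem _, Subgroup.one_mem _, Subgroup.one_mem _, _, Mono.one⟩ ?_ hw hc
      rintro i w _ _ _ ⟨m, hm1, hm2, hm3, u', hm4⟩
      obtain ⟨u'', hm5⟩ := A.nJ_mono i
      exact ⟨m * A.nJ i, Subgroup.mul_mem _ hm1 (Subgroup.subset_closure ⟨i, rfl⟩), Subgroup.mul_mem _ hm2 (A.nJ_mem i),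
        Subgroup.mul_mem _ hm3 (A.nJ_N i), _, hm4.mul hm5⟩
    obtain ⟨m, hm1, hm2, hm3, u', hm4⟩ := h1
    have h5 : n * m⁻¹ ∈ D.diagonalSubgroup K := by
      have h2 := hm.mul hm4.inv
      simp only [mul_inv_cancel] at h2
      exact mem_diagonal_of_mono Q (Subgroup.mul_mem _ hn (Subgroup.inv_mem _ hm3)) h2
    have h6 : n = (n * m⁻¹) * m := by group
    have h7 : n * m⁻¹ ∈ G1 := Subgroup.mul_mem _ hn' (Subgroup.inv_mem _ hm2)
    rw [h6]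
    exact Subgroup.mul_mem _ (Subgroup.mem_sup_right ⟨⟨H_le_borel Q h5, h7⟩, ⟨diagonal_le_monomial h5, h7⟩⟩)
      (Subgroup.mem_sup_left hm1)
  ax := by
    rintro _ ⟨i, rfl⟩ n ⟨hn, hn'⟩ b ⟨hb, hb'⟩
    have hG := A.eq_Fx hT
    have hU := U_le_borel Q
    have hUG : ∀ {y}, y ∈ XS Q (Pos D) → y ∈ G1 → y ∈ D.borelSubgroup K ⊓ G1 := fun h h' => ⟨hU h, h'⟩
    set s := A.nJ i with hs
    have hsG : s ∈ G1 := A.nJ_mem i
    obtain ⟨us, hsm⟩ := A.nJ_mono i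
    obtain ⟨w, hw, un, hnm⟩ := monomial_mono Q hn
    have hc := T.comm_of_fx hn hnm (A.le hn')
    obtain ⟨u0, hu0, h, hh, rfl⟩ := (mem_borel Q).1 hb
    obtain ⟨fu, fh⟩ := T.borel_fx hu0 hh (A.le hb')
    have stK : T.St (Kep (H.wJ i)) := by
      intro r hr
      refine ⟨(Tw.St.pos T) r hr.1, fun hlt => ?_⟩
      have h1 : H.wJ i (T.ρ r) = T.ρ (H.wJ i r) := by
        rw [← Equiv.Perm.mul_apply, ← H.comm i]; rfl
      show ps (H.wJ i (T.ρ r))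
      rw [h1, T.pos]
      exact hr.2 r.2
    obtain ⟨x, hx, y, hy, e⟩ := exists_factor Q (pos_kep_inv (H.wJ i)) le_rfl (clos_pos Q) hu0
    have hdj : Disjoint (Kep (H.wJ i)) (Inv (H.wJ i)) := by
      rw [Set.disjoint_left]
      intro r h1 h2
      exact h2.2 h2.1.2 (h1.2 h1.1.2)
    obtain ⟨fx, fy⟩ := T.fx_factor (kep_sub _) (inv_sub _) (clos_kep Q (WG_waut Q (H.mem i)))
      (clos_inv Q (WG_waut Q (H.mem i))) hdj stK (Tw.St.inv T (H.comm i)) hx hy (by rw [← e]; exact fu)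
    rw [H.inv_wJ] at hy
    have hh' : n⁻¹ * h * n ∈ D.borelSubgroup K ⊓ G1 := by
      refine ⟨H_le_borel Q (N_conj_H Q hn hh), ?_⟩
      rw [← hG] at fh
      exact Subgroup.mul_mem _ (Subgroup.mul_mem _ (Subgroup.inv_mem _ hn') fh) hn'
    have hb1 : s * x * s⁻¹ ∈ D.borelSubgroup K ⊓ G1 := by
      refine ⟨hU (hsm.conj_kep hx), ?_⟩
      rw [← hG] at fx
      exact Subgroup.mul_mem _ (Subgroup.mul_mem _ hsG fx) (Subgroup.inv_mem _ hsG)
    have fy' : y ∈ G1 := by rw [hG]; exact fy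
    have e1 : s * (u0 * h) * n = (s * x * s⁻¹) * (s * y * n) * (n⁻¹ * h * n) := by rw [e]; group
    have key : (∃ b₁ ∈ D.borelSubgroup K ⊓ G1, ∃ b₂ ∈ D.borelSubgroup K ⊓ G1, s * y * n = b₁ * (s * n) * b₂) ∨
        (∃ b₁ ∈ D.borelSubgroup K ⊓ G1, ∃ b₂ ∈ D.borelSubgroup K ⊓ G1, s * y * n = b₁ * n * b₂) := by
      rcases H.dich (WG_waut Q (Subgroup.inv_mem _ hw)) (TwJ.comm_inv hc) i with hd | hd
      · left
        refine ⟨1, Subgroup.one_mem _, n⁻¹ * y * n, ?_, by group⟩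
        have h1 : n⁻¹ * y * n⁻¹⁻¹ ∈ XS Q (Pos D) := conj_XS_le Q (fun r hr t => by
          have hlt := hr.1.2
          have h1 := hnm.inv.conj ⟨r, hlt⟩ t
          rw [show n⁻¹ * xG Q r t * n⁻¹⁻¹ = _ from h1]
          exact xG_mem Q (⟨hd ⟨r, hlt⟩ hr, (w⁻¹ ⟨r, hlt⟩).2⟩ : ((w⁻¹ ⟨r, hlt⟩ : Fin D.nroots) : ℕ) ∈ Pos D) _) hy
        rw [inv_inv] at h1
        exact hUG h1 (Subgroup.mul_mem _ (Subgroup.mul_mem _ (Subgroup.inv_mem _ hn') fy') hn')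
      · by_cases hy1 : y = 1
        · left
          exact ⟨1, Subgroup.one_mem _, 1, Subgroup.one_mem _, by rw [hy1]; group⟩
        · right
          have h1 : s * y * s⁻¹ ∈ T.FX (NJ Q (H.J i)) :=
            ⟨Subgroup.mul_mem _ (Subgroup.mul_mem _ (A.le hsG) fy) (Subgroup.inv_mem _ (A.le hsG)), conj_PJ_NJ hsm hy⟩
          have h2 : s * y * s⁻¹ ≠ 1 := by
            intro h3
            rw [mul_inv_eq_one] at h3
            exact hy1 (by simpa using h3)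
          obtain ⟨a, ha, m, hmF, hmN, ⟨um, hmm⟩, c, hc', e2⟩ := H.exists_nJ A.supp A.lt h1 h2
          have h3 : m * s ∈ D.diagonalSubgroup K := by
            have h4 := hmm.mul hsm
            rw [H.wJ_sq] at h4
            exact mem_diagonal_of_mono Q (Subgroup.mul_mem _ hmN (A.nJ_N i)) h4
          have h5 : m * s ∈ G1 := by
            rw [← hG] at hmF
            exact Subgroup.mul_mem _ hmF hsG
          have h6 : n⁻¹ * (m * s) * n ∈ D.borelSubgroup K ⊓ G1 :=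
            ⟨H_le_borel Q (N_conj_H Q hn h3), Subgroup.mul_mem _ (Subgroup.mul_mem _ (Subgroup.inv_mem _ hn') h5) hn'⟩
          have h7 : (s * n)⁻¹ * c * (s * n) ∈ D.borelSubgroup K ⊓ G1 := by
            have hsn := (hsm.mul hnm).inv
            have h8 : (s * n)⁻¹ * c * (s * n)⁻¹⁻¹ ∈ XS Q (Pos D) := conj_XS_le Q (fun r hr t => by
              have hlt := hr.1.2
              have h1 := hsn.conj ⟨r, hlt⟩ t
              rw [show (s * n)⁻¹ * xG Q r t * (s * n)⁻¹⁻¹ = _ from h1]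
              have h9 : ps ((H.wJ i * w)⁻¹ ⟨r, hlt⟩) := by
                rw [_root_.mul_inv_rev, H.wJ_inv, Equiv.Perm.mul_apply]
                have h10 := hd _ (H.rev_mem (r := ⟨r, hlt⟩) hr)
                rw [(WG_waut Q (Subgroup.inv_mem _ hw)).rev, ps_rev Q] at h10
                exact not_not.1 h10
              exact xG_mem Q (⟨h9, ((H.wJ i * w)⁻¹ ⟨r, hlt⟩).2⟩ : (((H.wJ i * w)⁻¹ ⟨r, hlt⟩ : Fin D.nroots) : ℕ) ∈ Pos D) _) hc'.2
            rw [inv_inv] at h8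
            have hcG : c ∈ G1 := by rw [hG]; exact hc'.1
            exact hUG h8 (Subgroup.mul_mem _ (Subgroup.mul_mem _ (Subgroup.inv_mem _ (Subgroup.mul_mem _ hsG hn')) hcG)
              (Subgroup.mul_mem _ hsG hn'))
          refine ⟨a, ⟨hU (XS_mono Q (PJ_sub _) ha.2), A.posJ i ha⟩, (n⁻¹ * (m * s) * n) * ((s * n)⁻¹ * c * (s * n)),
            Subgroup.mul_mem _ h6 h7, ?_⟩
          have h11 : s * y * n = (s * y * s⁻¹) * s * n := by group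
          rw [h11, e2]; group
    rcases key with ⟨b₁, h1, b₂, h2, e2⟩ | ⟨b₁, h1, b₂, h2, e2⟩
    · left
      refine ⟨(s * x * s⁻¹) * b₁, Subgroup.mul_mem _ hb1 h1, b₂ * (n⁻¹ * h * n), Subgroup.mul_mem _ h2 hh', ?_⟩
      rw [e1, e2]; group
    · right
      refine ⟨(s * x * s⁻¹) * b₁, Subgroup.mul_mem _ hb1 h1, b₂ * (n⁻¹ * h * n), Subgroup.mul_mem _ h2 hh', ?_⟩
      rw [e1, e2]; group
  conj_ne := by
    rintro _ ⟨i, rfl⟩
    obtain ⟨v, hv, hne⟩ := A.exv i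
    obtain ⟨u, hm⟩ := A.nJ_mono i
    have h1 : A.nJ i * v * (A.nJ i)⁻¹ ∈ XS Q (PJ Q (H.J i)) := conj_NJ_PJ hm hv.2
    have hvG := A.negJ i hv
    have hU := U_le_borel Q
    refine ⟨A.nJ i * v * (A.nJ i)⁻¹, ⟨hU (XS_mono Q (PJ_sub _) h1),
      Subgroup.mul_mem _ (Subgroup.mul_mem _ (A.nJ_mem i) hvG) (Subgroup.inv_mem _ (A.nJ_mem i))⟩, fun h2 => ?_⟩
    have h3 : A.nJ i * (A.nJ i * v * (A.nJ i)⁻¹) * A.nJ i = (A.nJ i * A.nJ i) * v := by group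
    rw [h3] at h2
    have h4 : v ∈ D.borelSubgroup K := by
      have h5 := Subgroup.mul_mem _ (Subgroup.inv_mem _ (H_le_borel Q (A.nJ_sq i))) h2.1
      rwa [inv_mul_cancel_left] at h5
    exact hne (borel_inf_V Q h4 (XS_mono Q (fun r hr => NJ_neg hr) hv.2))

/-- the (B,N)-pair -/
noncomputable def bnT (hT : T.Fx ⊓ D.diagonalSubgroup K ≤ G1) (hdis : ∀ i j a, a ∈ H.J i → a ∈ H.J j → i = j) :
    Cfsg.BNPair ↥G1 := MkBN.mk (A.bnData hT hdis)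

/-- the core of `B¹` is trivial -/
theorem core (hdis : ∀ i j a, a ∈ H.J i → a ∈ H.J j → i = j)
    (hfull : ∀ i, ∃ t : ℕ → K, prodL Q (lst D (PJ Q (H.J i))) t ∈ T.Fx ∧ ∀ a ∈ H.J i, t (D.simple a) ≠ 0) :
    ((D.borelSubgroup K ⊓ G1).subgroupOf G1).normalCore = ⊥ := by
  rw [Subgroup.eq_bot_iff_forall]
  intro x hx
  have hxB : (x : GL D.Idx K) ∈ D.borelSubgroup K := (Subgroup.normalCore_le _ hx).1
  obtain ⟨n, hn, w, hw, v, hm, h0⟩ := exists_w0 (Q := Q)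
  obtain ⟨n0, hn0, hn0N, u0, hm0⟩ := A.exists_n hw (w0_comm T hw h0)
  -- `x ∈ H`
  have hconj : ∀ y ∈ ((D.borelSubgroup K ⊓ G1).subgroupOf G1).normalCore, (y : GL D.Idx K) ∈ D.diagonalSubgroup K := by
    intro y hy
    have hyB : (y : GL D.Idx K) ∈ D.borelSubgroup K := (Subgroup.normalCore_le _ hy).1
    have h1 : (⟨n0, hn0⟩ : G1) * y * (⟨n0, hn0⟩ : G1)⁻¹ ∈ ((D.borelSubgroup K ⊓ G1).subgroupOf G1).normalCore :=
      Subgroup.Normal.conj_mem inferInstance y hy _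
    have h2 : n0 * (y : GL D.Idx K) * n0⁻¹ ∈ D.borelSubgroup K := (Subgroup.normalCore_le _ h1).1
    obtain ⟨a, ha, h, hh, e⟩ := (mem_borel Q).1 h2
    have h3 : (y : GL D.Idx K) = (n0⁻¹ * a * n0) * (n0⁻¹ * h * n0) := by
      have : (y : GL D.Idx K) = n0⁻¹ * (n0 * (y : GL D.Idx K) * n0⁻¹) * n0 := by group
      rw [this, e]; group
    have h4 : n0⁻¹ * a * n0⁻¹⁻¹ ∈ XS Q (Neg D) := conj_XS_le Q (fun r hr t => by
      have hlt := hr.2
      have h1 := hm0.inv.conj ⟨r, hlt⟩ t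
      rw [show n0⁻¹ * xG Q r t * n0⁻¹⁻¹ = _ from h1]
      have h5 : ¬ ps (w⁻¹ ⟨r, hlt⟩) := by
        intro h6
        have h7 := h0 _ h6
        rw [perm_apply_inv] at h7
        exact h7 hr.1
      have h8 : ((w⁻¹ ⟨r, hlt⟩ : Fin D.nroots) : ℕ) ∈ Neg D := not_le.1 h5
      exact xG_mem Q h8 _) ha
    rw [inv_inv] at h4
    apply borel_inf_VH Q hyB
    rw [h3]
    exact Subgroup.mul_mem _ (Subgroup.mem_sup_left h4) (Subgroup.mem_sup_right (N_conj_H Q hn0N hh))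
  have hxH := hconj x hx
  obtain ⟨χ, hχ, e⟩ := diagonal_mono Q hxH
  have hcomm : ∀ i, ∀ y ∈ T.FX (PJ Q (H.J i)), (x : GL D.Idx K) * y * (x : GL D.Idx K)⁻¹ = y := by
    intro i y hy
    have hyG := A.posJ i hy
    have h1 : x * (⟨y, hyG⟩ * x⁻¹ * (⟨y, hyG⟩ : G1)⁻¹) ∈ ((D.borelSubgroup K ⊓ G1).subgroupOf G1).normalCore :=
      Subgroup.mul_mem _ hx (Subgroup.Normal.conj_mem inferInstance _ (Subgroup.inv_mem _ hx) _)
    have h2 := hconj _ h1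
    have h3 : (x : GL D.Idx K) * (y * (x : GL D.Idx K)⁻¹ * y⁻¹) ∈ D.diagonalSubgroup K := h2
    have h4 : (x : GL D.Idx K) * y * (x : GL D.Idx K)⁻¹ ∈ XS Q (Pos D) := by
      rw [e]
      exact diagonal_conj_XS Q (fun r hr => hr.2) hχ (XS_mono Q (PJ_sub _) hy.2)
    have h5 : (x : GL D.Idx K) * (y * (x : GL D.Idx K)⁻¹ * y⁻¹) = 1 := by
      apply U_inf_H Q ?_ h3
      have : (x : GL D.Idx K) * (y * (x : GL D.Idx K)⁻¹ * y⁻¹) = ((x : GL D.Idx K) * y * (x : GL D.Idx K)⁻¹) * y⁻¹ := by group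
      rw [this]
      exact Subgroup.mul_mem _ h4 (Subgroup.inv_mem _ (XS_mono Q (PJ_sub _) hy.2))
    have h6 : (x : GL D.Idx K) * (y * (x : GL D.Idx K)⁻¹ * y⁻¹) = ((x : GL D.Idx K) * y * (x : GL D.Idx K)⁻¹) * y⁻¹ := by group
    rw [h6, mul_inv_eq_one] at h5
    exact h5
  have hsimple : ∀ a < D.rank, χ (D.simple a) = 1 := by
    intro a ha
    obtain ⟨i, hi⟩ := H.cover a ha
    obtain ⟨t, ht, hne⟩ := hfull i
    set L := lst D (PJ Q (H.J i)) with hL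
    have hmemL : ∀ r, r ∈ L ↔ r ∈ PJ Q (H.J i) := fun r => mem_lst (fun r hr => hr.1.2)
    have h1 := hcomm i _ ⟨ht, by
      have := prodL_mem Q L t
      rwa [show {r | r ∈ L} = PJ Q (H.J i) from set_lst (fun r hr => hr.1.2)] at this⟩
    have h2 : (x : GL D.Idx K) * prodL Q L t * (x : GL D.Idx K)⁻¹ = prodL Q L (fun r => χ r * t r) := by
      rw [e]
      have : ∀ L' : List ℕ, (∀ r ∈ L', r < D.nroots) → dG D χ * prodL Q L' t * (dG D χ)⁻¹ = prodL Q L' (fun r => χ r * t r) := by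
        intro L'
        induction L' with
        | nil => intro _; rw [prodL_nil, prodL_nil]; group
        | cons r L' ih =>
          intro h
          rw [prodL_cons, prodL_cons, ← ih (fun s hs => h s (List.mem_cons_of_mem _ hs)), ← dG_xG Q hχ (h r List.mem_cons_self)]
          group
      exact this L (fun r hr => ((hmemL r).1 hr).1.2)
    rw [h2] at h1
    have h3 := prodL_unique Q L (lst_sorted _) (fun r hr => ((hmemL r).1 hr).1) _ _ h1 (D.simple a)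
      ((hmemL _).2 (si_mem_PJ ha hi))
    have h4 : (χ (D.simple a) : K) = 1 := by
      have h5 := hne a hi
      exact mul_right_cancel₀ h5 (by rw [h3, one_mul])
    exact Units.ext h4
  apply Subtype.ext
  rw [e]
  show dG D χ = 1
  rw [← dG_one]
  have h1 : IsChar Q.C (fun _ => (1 : Kˣ)) := ⟨fun _ _ _ _ _ => (mul_one 1).symm, fun _ _ => inv_one.symm⟩
  exact dG_ext Q hχ h1 (fun i => hsimple i i.2)

omit A in
variable (Q G1) in
include Q in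
lemma isSolvable_B1 : Group.IsSolvable ↥((D.borelSubgroup K ⊓ G1).subgroupOf G1) := by
  have h1 := borel_solvable Q
  let f : ↥((D.borelSubgroup K ⊓ G1).subgroupOf G1) →* D.borelSubgroup K :=
    { toFun := fun x => ⟨(x : G1), x.2.1⟩
      map_one' := rfl
      map_mul' := fun _ _ => rfl }
  apply Group.isSolvable_of_isSolvable_injective (f := f)
  intro x y h
  have h2 : ((x : G1) : GL D.Idx K) = ((y : G1) : GL D.Idx K) :=
    congrArg (fun z : D.borelSubgroup K => (z : GL D.Idx K)) h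
  exact Subtype.ext (Subtype.ext h2)

/-- irreducibility of the (B,N)-pair -/
theorem irr (hT : T.Fx ⊓ D.diagonalSubgroup K ≤ G1) (hdis : ∀ i j a, a ∈ H.J i → a ∈ H.J j → i = j)
    (hcon : ∀ S : Set ι, S.Nonempty → Sᶜ.Nonempty → ∃ i ∈ S, ∃ j ∈ Sᶜ, H.wJ i * H.wJ j ≠ H.wJ j * H.wJ i) :
    (A.bnT hT hdis).Irreducible := by
  intro J hJ hne hne'
  set nn : ι → ↥G1 := fun i => ⟨A.nJ i, A.nJ_mem i⟩ with hnn
  have hS : ∀ x ∈ (A.bnT hT hdis).S, ∃ i, x = nn i := by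
    rintro x ⟨i, hi⟩
    exact ⟨i, Subtype.ext hi.symm⟩
  obtain ⟨i, hi, j, hj, h⟩ := hcon {i | nn i ∈ J} (by
      obtain ⟨x, hx⟩ := hne
      obtain ⟨i, rfl⟩ := hS x (hJ hx)
      exact ⟨i, hx⟩) (by
      obtain ⟨x, hx, hx'⟩ := hne'
      obtain ⟨i, rfl⟩ := hS x hx
      exact ⟨i, hx'⟩)
  refine ⟨nn i, hi, nn j, ⟨⟨j, rfl⟩, hj⟩, fun h4' => h ?_⟩
  have h4 : A.nJ i * A.nJ j * (A.nJ i)⁻¹ * (A.nJ j)⁻¹ ∈ D.borelSubgroup K := h4'.1
  have h5 : A.nJ i * A.nJ j * (A.nJ i)⁻¹ * (A.nJ j)⁻¹ ∈ D.monomialSubgroup K :=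
    Subgroup.mul_mem _ (Subgroup.mul_mem _ (Subgroup.mul_mem _ (A.nJ_N i) (A.nJ_N j)) (Subgroup.inv_mem _ (A.nJ_N i)))
      (Subgroup.inv_mem _ (A.nJ_N j))
  obtain ⟨χ, hχ, e⟩ := diagonal_mono Q (borel_inf_N Q h4 h5)
  obtain ⟨u, hm⟩ := A.nJ_mono i
  obtain ⟨u', hm'⟩ := A.nJ_mono j
  have h6 := ((hm.mul hm').mul hm.inv).mul hm'.inv
  rw [e] at h6
  have h7 := h6.unique Q (mono_dG hχ)
  rw [mul_inv_eq_iff_eq_mul, one_mul, mul_inv_eq_iff_eq_mul] at h7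
  exact h7

/-- simplicity -/
theorem simple (hT : T.Fx ⊓ D.diagonalSubgroup K ≤ G1) (hdis : ∀ i j a, a ∈ H.J i → a ∈ H.J j → i = j)
    (hcon : ∀ S : Set ι, S.Nonempty → Sᶜ.Nonempty → ∃ i ∈ S, ∃ j ∈ Sᶜ, H.wJ i * H.wJ j ≠ H.wJ j * H.wJ i)
    (hfull : ∀ i, ∃ t : ℕ → K, prodL Q (lst D (PJ Q (H.J i))) t ∈ T.Fx ∧ ∀ a ∈ H.J i, t (D.simple a) ≠ 0)
    [Nonempty ι] (hperf : commutator ↥G1 = ⊤) : IsSimpleGroup ↥G1 ∧ ¬ IsMulCommutative ↥G1 := by
  obtain ⟨i⟩ := ‹Nonempty ι›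
  obtain ⟨v, hv, hne⟩ := A.exv i
  have hnt : Nontrivial ↥G1 := ⟨⟨⟨v, A.negJ i hv⟩, 1, fun h => hne (congrArg Subtype.val h)⟩⟩
  constructor
  · refine { exists_pair_ne := hnt.exists_pair_ne, eq_bot_or_eq_top_of_normal := fun N hN => ?_ }
    rcases BNPair.tits_normal (A.irr hT hdis hcon) (isSolvable_B1 Q G1) hperf N with h | h
    · left
      have h2 : (A.bnT hT hdis).B.normalCore = ⊥ := A.core hdis hfull
      rw [h2] at h
      exact le_bot_iff.1 h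
    · exact Or.inr h
  · intro hcomm
    have h1 : commutator ↥G1 = ⊥ := by
      rw [commutator_def, Subgroup.commutator_eq_bot_iff_le_centralizer]
      intro x _
      rw [Subgroup.mem_centralizer_iff]
      intro y _
      exact hcomm.is_comm.comm y x
    rw [h1] at hperf
    exact bot_ne_top hperf

end TwG

end Cfsg.Agent.Lib.ChevAlg
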