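import Cfsg.Agent.Lib.ChevTwD
import Cfsg.Agent.Lib.ChevCert5

/-!
# Constructing Steinberg automorphisms; torus; commuting classes
-/

set_option autoImplicit false

namespace Cfsg.Agent.Lib.ChevAlg

open Cfsg.Lie Cfsg.Agent.Lib.ChevTab Matrix

variable {D : ChevalleyDatum} {K : Type*} [Field K] (Q : ChevO D K)

/-- the Steinberg automorphism made of graph data and a field automorphism -/
noncomputable def mkTw {G : GDat} (hG : G.Ok D) (hcp : ChP K G.p) {γ : MulAut ↥(D.group K)}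
    (hγ : ∀ r < D.nroots, ∀ t, γ (xg Q r t) = Yg Q G r t) (φ : K ≃+* K) : Tw Q where
  σ := fAut Q φ * γ
  ρ := Equiv.ofBijective (fun r : Fin D.nroots => (⟨G.ρ r, hG.lt r r.2⟩ : Fin D.nroots))
    (Finite.injective_iff_bijective.1 fun r s h => Fin.ext (hG.inj r r.2 s s.2 (congrArg Fin.val h)))
  f r t := (G.eps r : K) * φ t ^ G.lam r
  act r t := by
    rw [MulAut.mul_apply, hγ r r.2, Yg, fAut_xg, map_mul, map_pow, map_intCast]
    rfl
  rev r := by
    apply Fin.ext
    show G.ρ (Fin.rev r : Fin D.nroots) = _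
    rw [fin_rev_val, hG.neg r r.2, fin_rev_val]
    rfl
  pos r := hG.pos r r.2
  fneg r t ht := by
    have h1 : G.eps (Fin.rev r : Fin D.nroots) = G.eps r := by rw [fin_rev_val, hG.eneg r r.2]
    have h2 : G.lam (Fin.rev r : Fin D.nroots) = G.lam r := by rw [fin_rev_val, hG.lneg r r.2]
    rw [h1, h2, map_neg, neg_pow_lam hcp (hG.lcase r r.2), map_inv₀, _root_.mul_inv_rev, inv_pow]
    rcases hG.ecase r r.2 with h | h <;> rw [h] <;> simp

section mk

variable {Q} {G : GDat} (hG : G.Ok D) (hcp : ChP K G.p) {γ : MulAut ↥(D.group K)}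
    (hγ : ∀ r < D.nroots, ∀ t, γ (xg Q r t) = Yg Q G r t) (φ : K ≃+* K)

lemma mkTw_ρ (r : Fin D.nroots) : (((mkTw Q hG hcp hγ φ).ρ r : Fin D.nroots) : ℕ) = G.ρ r := rfl

lemma mkTw_f (r : Fin D.nroots) (t : K) : (mkTw Q hG hcp hγ φ).f r t = (G.eps r : K) * φ t ^ G.lam r := rfl

/-- action on root elements, in terms of natural number indices -/
lemma mkTw_x {r : ℕ} (hr : r < D.nroots) (t : K) :
    (mkTw Q hG hcp hγ φ).s (xG Q r t) = xG Q (G.ρ r) ((G.eps r : K) * φ t ^ G.lam r) :=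
  (mkTw Q hG hcp hγ φ).s_xG ⟨r, hr⟩ t

/-- action on coroot elements -/
lemma mkTw_h {r : ℕ} (hr : r < D.nroots) (c : Kˣ) :
    (mkTw Q hG hcp hγ φ).s (dG D (cp D r c)) = dG D (cp D (G.ρ r) (Units.map (φ : K →* K) c ^ G.lam r)) := by
  have h1 := (mkTw Q hG hcp hγ φ).s_hG ⟨r, hr⟩ c
  rw [show (mkTw Q hG hcp hγ φ).s (dG D (cp D r c)) = _ from h1]
  congr 2
  apply Units.ext
  rw [Units.val_div_eq_div_val, Units.val_mk0, Units.val_mk0, mkTw_f, mkTw_f, map_one, one_pow, mul_one]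
  have h2 : (G.eps r : K) ≠ 0 := by
    rcases hG.ecase r hr with h | h <;> rw [h] <;> simp
  show (G.eps r : K) * φ c ^ G.lam r / (G.eps r : K) = _
  rw [mul_div_cancel_left₀ _ h2]
  simp

end mk


/-! ### products in the torus -/

lemma dG_list {ι : Type*} (l : List ι) (χ : ι → ℕ → Kˣ) :
    (l.map fun i => dG D (χ i)).prod = dG D (fun s => (l.map fun i => χ i s).prod) := by
  induction l with
  | nil => simp only [List.map_nil, List.prod_nil]; exact dG_one.symm
  | cons a l ih =>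
    rw [List.map_cons, List.prod_cons, ih, dG_mul]
    apply dG_congr
    intro s _
    rw [List.map_cons, List.prod_cons]

lemma finRange_prod {n : ℕ} {M : Type*} [CommMonoid M] (f : Fin n → M) : ((List.finRange n).map f).prod = ∏ i, f i := by
  rw [← List.ofFn_eq_map, List.prod_ofFn]

lemma torHom_dG (c : Fin D.rank → Kˣ) : torHom D K c = dG D (fun s => ∏ i : Fin D.rank, c i ^ D.cartan i s) := by
  show tor D (ext1 c) = _
  apply dG_congr
  intro s _
  exact prod_range_ext1 c _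

lemma torHom_list (C : Cert D) (c : Fin D.rank → Kˣ) :
    torHom D K c = ((List.finRange D.rank).map fun i : Fin D.rank => dG D (cp D (D.simple i) (c i))).prod := by
  rw [torHom_dG, dG_list]
  apply dG_congr
  intro s _
  rw [finRange_prod]
  apply Finset.prod_congr rfl
  intro i _
  rw [cp, pairD_simple C i.2]

section tors

variable {Q} (T : Tw Q)

lemma Tw.s_list {l : List (GL D.Idx K)} (h : ∀ g ∈ l, g ∈ D.group K) : T.s l.prod = (l.map T.s).prod ∧ l.prod ∈ D.group K := by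
  induction l with
  | nil => exact ⟨T.s_one, Subgroup.one_mem _⟩
  | cons a l ih =>
    obtain ⟨h1, h2⟩ := ih (fun g hg => h g (List.mem_cons_of_mem _ hg))
    have h3 := h a List.mem_cons_self
    rw [List.prod_cons, T.s_mul h3 h2, List.map_cons, List.prod_cons, h1]
    exact ⟨rfl, Subgroup.mul_mem _ h3 h2⟩

end tors

/-- action on the universal torus -/
def sT (π : Equiv.Perm (Fin D.rank)) (lam : Fin D.rank → ℕ) (φ : K ≃+* K) : (Fin D.rank → Kˣ) →* (Fin D.rank → Kˣ) where
  toFun c j := Units.map (φ : K →* K) (c (π.symm j)) ^ lam (π.symm j)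
  map_one' := by
    funext j
    simp
  map_mul' c c' := by
    funext j
    simp [mul_pow]

section mk

variable {Q} {G : GDat} (hG : G.Ok D) (hcp : ChP K G.p) {γ : MulAut ↥(D.group K)}
    (hγ : ∀ r < D.nroots, ∀ t, γ (xg Q r t) = Yg Q G r t) (φ : K ≃+* K)

lemma mkTw_tor {π : Equiv.Perm (Fin D.rank)} (hπ : ∀ i : Fin D.rank, G.ρ (D.simple i) = D.simple (π i)) (c : Fin D.rank → Kˣ) :
    (mkTw Q hG hcp hγ φ).s (torHom D K c) = torHom D K (sT π (fun i => G.lam (D.simple i)) φ c) := by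
  rw [torHom_list Q.C, ((mkTw Q hG hcp hγ φ).s_list ?_).1, List.map_map]
  · have h1 : ((List.finRange D.rank).map ((mkTw Q hG hcp hγ φ).s ∘ fun i : Fin D.rank => dG D (cp D (D.simple i) (c i)))) =
        (List.finRange D.rank).map fun i : Fin D.rank =>
          dG D (cp D (D.simple (π i)) (Units.map (φ : K →* K) (c i) ^ G.lam (D.simple i))) := by
      apply List.map_congr_left
      intro i _
      rw [Function.comp_apply, mkTw_h hG hcp hγ φ (Q.C.simple_lt i i.2), hπ]
    rw [h1, dG_list, torHom_dG]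
    apply dG_congr
    intro s _
    rw [finRange_prod, ← Equiv.prod_comp π (fun j => sT π (fun i => G.lam (D.simple i)) φ c j ^ D.cartan j s)]
    apply Finset.prod_congr rfl
    intro i _
    show cp D (D.simple (π i)) _ s = (Units.map (φ : K →* K) (c (π.symm (π i))) ^ G.lam (D.simple (π.symm (π i)))) ^ _
    rw [Equiv.symm_apply_apply, cp, pairD_simple Q.C (π i).2]
  · intro g hg
    rw [List.mem_map] at hg
    obtain ⟨i, _, rfl⟩ := hg
    exact diagonal_le_group Q (cp_mem Q _ _)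

/-- fixed points on the torus, when obstructions in the kernel can be removed -/
theorem fx_torus {π : Equiv.Perm (Fin D.rank)} (hπ : ∀ i : Fin D.rank, G.ρ (D.simple i) = D.simple (π i))
    (hZ : ∀ c z : Fin D.rank → Kˣ, torHom D K z = 1 → sT π (fun i => G.lam (D.simple i)) φ c = c * z →
      ∃ y : Fin D.rank → Kˣ, torHom D K y = 1 ∧ sT π (fun i => G.lam (D.simple i)) φ (c * y) = c * y) :
    (mkTw Q hG hcp hγ φ).Fx ⊓ D.diagonalSubgroup K =
      (MonoidHom.eqLocus (sT π (fun i => G.lam (D.simple i)) φ) (MonoidHom.id _)).map (torHom D K) := by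
  apply le_antisymm
  · rintro h ⟨h1, h2⟩
    rw [← torHom_range Q] at h2
    obtain ⟨c, rfl⟩ := h2
    have h3 := h1.2
    rw [mkTw_tor hG hcp hγ φ hπ] at h3
    obtain ⟨y, hy, hy'⟩ := hZ c (c⁻¹ * sT π (fun i => G.lam (D.simple i)) φ c)
      (by rw [map_mul, map_inv, h3, inv_mul_cancel]) (by rw [mul_inv_cancel_left])
    exact ⟨c * y, hy', by rw [map_mul, hy, mul_one]⟩
  · rintro h ⟨c, hc, rfl⟩
    have hc' : sT π (fun i => G.lam (D.simple i)) φ c = c := hc
    have h1 : torHom D K c ∈ D.diagonalSubgroup K := by rw [← torHom_range Q]; exact ⟨c, rfl⟩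
    refine ⟨⟨diagonal_le_group Q h1, ?_⟩, h1⟩
    rw [mkTw_tor hG hcp hγ φ hπ, hc']

end mk

lemma card_map_mul {A B : Type*} [Group A] [Group B] [Finite A] (f : A →* B) (S : Subgroup A) :
    Nat.card (S.map f) * Nat.card (S ⊓ f.ker : Subgroup A) = Nat.card S := by
  have h1 : Nat.card (S.map f) = Nat.card (f.comp S.subtype).range := by
    rw [MonoidHom.range_comp, Subgroup.range_subtype]
  have h2 : Nat.card (S ⊓ f.ker : Subgroup A) = Nat.card (f.comp S.subtype).ker := by
    apply Nat.card_congr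
    refine Equiv.ofBijective (fun x => ⟨⟨x.1, x.2.1⟩, x.2.2⟩) ⟨?_, ?_⟩
    · rintro ⟨x, hx⟩ ⟨y, hy⟩ h
      have h1 : (⟨x, hx.1⟩ : S) = ⟨y, hy.1⟩ := congrArg Subtype.val h
      have h2 : x = y := congrArg Subtype.val h1
      exact Subtype.ext h2
    · rintro ⟨⟨x, hx⟩, hx'⟩
      exact ⟨⟨x, hx, hx'⟩, rfl⟩
  rw [h1, h2, ← Nat.card_congr (QuotientGroup.quotientKerEquivRange (f.comp S.subtype)).toEquiv,
    ← Subgroup.card_eq_card_quotient_mul_card_subgroup]

/-! ### commuting classes -/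

/-- pairwise orthogonal fundamental roots -/
structure ComJ (D : ChevalleyDatum) (J : List ℕ) : Prop where
  nd : J.Nodup
  lt : ∀ a ∈ J, a < D.rank
  c : ∀ a ∈ J, ∀ b ∈ J, a ≠ b → D.simple b ≠ D.simple a ∧ D.simple b ≠ D.nroots - 1 - D.simple a ∧
    D.commTerms (D.simple a) (D.simple b) = [] ∧ D.commTerms (D.simple a) (D.nroots - 1 - D.simple b) = [] ∧
    D.commTerms (D.nroots - 1 - D.simple a) (D.simple b) = [] ∧
    D.commTerms (D.nroots - 1 - D.simple a) (D.nroots - 1 - D.simple b) = []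
  pj : ∀ r < D.nroots, D.nroots / 2 ≤ r → (∀ k < D.rank, k ∉ J → (D.coroot.getD r #[]).getD k 0 = 0) →
    ∃ a ∈ J, r = D.simple a

section com

variable {Q}

lemma xG_comm_nil {r s : ℕ} (hr : r < D.nroots) (hs : s < D.nroots) (h1 : s ≠ r) (h2 : s ≠ D.nroots - 1 - r)
    (h : D.commTerms r s = []) (t u : K) : Commute (xG Q r t) (xG Q s u) := by
  apply Units.ext
  rw [Units.val_mul, Units.val_mul]
  have h3 := Q.comm r s hr hs h1 (by rw [neg_eq' Q hr]; exact h2) t u
  rw [ChevalleyDatum.commWord, h, List.map_nil] at h3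
  have h4 : D.wordMat K [] = 1 := rfl
  rw [h4, mul_one] at h3
  exact h3.symm

variable (Q) in
/-- products of root elements in a class -/
def yP (J : List ℕ) (t : ℕ → K) : GL D.Idx K := (J.map fun a => xG Q (D.simple a) (t a)).prod
variable (Q) in
/-- products of negative root elements in a class -/
def yN (J : List ℕ) (t : ℕ → K) : GL D.Idx K := (J.map fun a => xG Q (D.nroots - 1 - D.simple a) (t a)).prod
variable (Q) in
/-- products of `n_a(t)` in a class -/
def nP (J : List ℕ) (t : ℕ → K) : GL D.Idx K := (J.map fun a => nG Q (D.simple a) (t a)).prod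

lemma simple_inj' {i j : ℕ} (hi : i < D.rank) (hj : j < D.rank) (h : D.simple i = D.simple j) (C : Cert D) : i = j := by
  by_contra hne
  have h1 := C.vec_simple i hi i hi
  have h2 := C.vec_simple j hj i hi
  rw [if_pos rfl] at h1
  rw [if_neg (Ne.symm hne)] at h2
  rw [h, h2] at h1
  norm_num at h1

variable {J : List ℕ} (hJ : ComJ D J)
include hJ

lemma ComJ.comm_pp (C : Cert D) {a b : ℕ} (ha : a ∈ J) (hb : b ∈ J) (t u : K) : Commute (xG Q (D.simple a) t) (xG Q (D.simple b) u) := by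
  by_cases h : a = b
  · subst h; exact commute_self Q _ _ _
  · obtain ⟨h1, h2, h3, _⟩ := hJ.c a ha b hb h
    exact xG_comm_nil (C.simple_lt a (hJ.lt a ha)) (C.simple_lt b (hJ.lt b hb)) h1 h2 h3 t u

lemma ComJ.comm_nn (C : Cert D) {a b : ℕ} (ha : a ∈ J) (hb : b ∈ J) (t u : K) :
    Commute (xG Q (D.nroots - 1 - D.simple a) t) (xG Q (D.nroots - 1 - D.simple b) u) := by
  by_cases h : a = b
  · subst h; exact commute_self Q _ _ _
  · obtain ⟨h1, h2, h3, h4, h5, h6⟩ := hJ.c a ha b hb h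
    have la := C.simple_lt a (hJ.lt a ha)
    have lb := C.simple_lt b (hJ.lt b hb)
    exact xG_comm_nil (by omega) (by omega) (by omega) (by omega) h6 t u

lemma ComJ.comm_pn (C : Cert D) {a b : ℕ} (ha : a ∈ J) (hb : b ∈ J) (h : a ≠ b) (t u : K) :
    Commute (xG Q (D.simple a) t) (xG Q (D.nroots - 1 - D.simple b) u) := by
  obtain ⟨h1, h2, h3, h4, h5, h6⟩ := hJ.c a ha b hb h
  have la := C.simple_lt a (hJ.lt a ha)
  have lb := C.simple_lt b (hJ.lt b hb)
  exact xG_comm_nil (by omega) (by omega) (by omega) (by omega) h4 t u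

omit hJ in
lemma prod_comm {M : Type*} [Monoid M] {g : M} {l : List M} (h : ∀ x ∈ l, Commute g x) : Commute g l.prod := by
  induction l with
  | nil => exact Commute.one_right _
  | cons a l ih =>
    rw [List.prod_cons]
    exact (h a List.mem_cons_self).mul_right (ih fun x hx => h x (List.mem_cons_of_mem _ hx))

lemma ComJ.nP_eq (t : ℕ → K) : nP Q J t = yP Q J t * yN Q J (fun a => -(t a)⁻¹) * yP Q J t := by
  have key : ∀ L : List ℕ, L.Sublist J → nP Q L t = yP Q L t * yN Q L (fun a => -(t a)⁻¹) * yP Q L t := by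
    intro L
    induction L with
    | nil => intro _; simp [nP, yP, yN]
    | cons a L ih =>
      intro hs
      have hL : L.Sublist J := (List.sublist_cons_self a L).trans hs
      have haJ : a ∈ J := hs.subset List.mem_cons_self
      have hnd := hs.nodup hJ.nd
      have hne : ∀ b ∈ L, a ≠ b := fun b hb h => (List.nodup_cons.1 hnd).1 (h ▸ hb)
      have ih' := ih hL
      have e1 : nP Q (a :: L) t = nG Q (D.simple a) (t a) * nP Q L t := by simp [nP]
      have e2 : yP Q (a :: L) t = xG Q (D.simple a) (t a) * yP Q L t := by simp [yP]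
      have e3 : yN Q (a :: L) (fun a => -(t a)⁻¹) = xG Q (D.nroots - 1 - D.simple a) (-(t a)⁻¹) * yN Q L (fun a => -(t a)⁻¹) := by
        simp [yN]
      have c1 : Commute (xG Q (D.simple a) (t a)) (yP Q L t) := by
        apply prod_comm
        intro x hx
        rw [List.mem_map] at hx
        obtain ⟨b, hb, rfl⟩ := hx
        exact hJ.comm_pp Q.C haJ (hL.subset hb) _ _
      have c2 : Commute (xG Q (D.simple a) (t a)) (yN Q L (fun a => -(t a)⁻¹)) := by
        apply prod_comm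
        intro x hx
        rw [List.mem_map] at hx
        obtain ⟨b, hb, rfl⟩ := hx
        exact hJ.comm_pn Q.C haJ (hL.subset hb) (hne b hb) _ _
      have c3 : Commute (xG Q (D.nroots - 1 - D.simple a) (-(t a)⁻¹)) (yP Q L t) := by
        apply prod_comm
        intro x hx
        rw [List.mem_map] at hx
        obtain ⟨b, hb, rfl⟩ := hx
        exact (hJ.comm_pn Q.C (hL.subset hb) haJ (hne b hb).symm _ _).symm
      rw [e1, e2, e3, ih', nG]
      set x := xG Q (D.simple a) (t a)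
      set y := xG Q (D.nroots - 1 - D.simple a) (-(t a)⁻¹)
      set X := yP Q L t
      set Y := yN Q L (fun a => -(t a)⁻¹)
      calc x * y * x * (X * Y * X) = x * y * (x * X) * Y * X := by group
        _ = x * y * (X * x) * Y * X := by rw [c1.eq]
        _ = x * (y * X) * (x * Y) * X := by group
        _ = x * (X * y) * (Y * x) * X := by rw [c3.eq, c2.eq]
        _ = (x * X) * (y * Y) * (x * X) := by group
  exact key J (List.Sublist.refl J)

lemma ComJ.mem_PJ (hS : SuppD Q.C) {r : ℕ} : r ∈ PJ Q J ↔ ∃ a ∈ J, r = D.simple a := by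
  constructor
  · intro h
    exact hJ.pj r h.1.2 h.1.1 (fun k hk hkJ => (hS.supp r h.1.2 k hk).2 (h.2 k hk hkJ))
  · rintro ⟨a, ha, rfl⟩
    exact si_mem_PJ (hJ.lt a ha) ha

lemma ComJ.perm (hS : SuppD Q.C) : (lst D (PJ Q J)).Perm (J.map D.simple) := by
  apply (List.perm_ext_iff_of_nodup ((lst_sorted _).imp (fun h => ne_of_lt h)) ?_).2
  · intro r
    rw [mem_lst (fun r hr => hr.1.2), hJ.mem_PJ hS, List.mem_map]
    constructor
    · rintro ⟨a, ha, rfl⟩; exact ⟨a, ha, rfl⟩
    · rintro ⟨a, ha, h⟩; exact ⟨a, ha, h.symm⟩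
  · apply List.Nodup.map_on ?_ hJ.nd
    intro a ha b hb h
    exact simple_inj' (hJ.lt a ha) (hJ.lt b hb) h Q.C

/-- sorted product versus product over the class -/
lemma ComJ.prodL_eq (hS : SuppD Q.C) (t : ℕ → K) :
    prodL Q (lst D (PJ Q J)) t = yP Q J (fun a => t (D.simple a)) := by
  rw [prodL, yP]
  have h1 : (J.map fun a => xG Q (D.simple a) (t (D.simple a))) = (J.map D.simple).map fun r => xG Q r (t r) := by
    rw [List.map_map]; rfl
  rw [h1]
  apply List.Perm.prod_eq' ((hJ.perm hS).map _)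
  apply List.Pairwise.imp_of_mem (R := fun _ _ => True) ?_ (List.pairwise_of_forall (fun _ _ => trivial))
  intro x y hx hy _
  rw [List.mem_map] at hx hy
  obtain ⟨r, hr, rfl⟩ := hx
  obtain ⟨s, hs, rfl⟩ := hy
  rw [mem_lst (fun r hr => hr.1.2), hJ.mem_PJ hS] at hr hs
  obtain ⟨a, ha, rfl⟩ := hr
  obtain ⟨b, hb, rfl⟩ := hs
  exact hJ.comm_pp Q.C ha hb _ _

lemma ComJ.exists_yP (hS : SuppD Q.C) {y : GL D.Idx K} (hy : y ∈ XS Q (PJ Q J)) : ∃ t, y = yP Q J t := by
  have hc : Clos Q.C (PJ Q J) := by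
    intro r hr s hs k hk
    have h1 := clos_pos Q _ hr.1 _ hs.1 hk
    refine ⟨h1, fun l hl hlJ => ?_⟩
    obtain ⟨_, i, j, _, _, h2⟩ := hk
    rw [h2 l hl, hr.2 l hl hlJ, hs.2 l hl hlJ]; ring
  obtain ⟨t, _, h⟩ := exists_prod Q (PJ_sub J) hc hy
  exact ⟨_, h.trans (hJ.prodL_eq hS t)⟩

lemma ComJ.yP_mem (t : ℕ → K) : yP Q J t ∈ XS Q (PJ Q J) := by
  apply Subgroup.list_prod_mem
  intro x hx
  rw [List.mem_map] at hx
  obtain ⟨a, ha, rfl⟩ := hx
  exact xG_mem Q (si_mem_PJ (hJ.lt a ha) ha) _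

lemma ComJ.yN_mem (t : ℕ → K) : yN Q J t ∈ XS Q (NJ Q J) := by
  apply Subgroup.list_prod_mem
  intro x hx
  rw [List.mem_map] at hx
  obtain ⟨a, ha, rfl⟩ := hx
  have h1 := Q.C.simple_lt a (hJ.lt a ha)
  have h2 : D.nroots - 1 - D.simple a ∈ NJ Q J := ⟨by omega, by rw [neg_neg_idx h1]; exact si_mem_PJ (hJ.lt a ha) ha⟩
  exact xG_mem Q h2 _

lemma ComJ.yP_inj (hS : SuppD Q.C) {t t' : ℕ → K} (h : yP Q J t = yP Q J t') : ∀ a ∈ J, t a = t' a := by
  classical
  -- reindex by roots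
  set τ : (ℕ → K) → ℕ → K := fun t r => if h : ∃ a ∈ J, r = D.simple a then t h.choose else 0 with hτ
  have h1 : ∀ (t : ℕ → K), ∀ a ∈ J, τ t (D.simple a) = t a := by
    intro t a ha
    have h2 : ∃ b ∈ J, D.simple a = D.simple b := ⟨a, ha, rfl⟩
    show (if h : ∃ b ∈ J, D.simple a = D.simple b then t h.choose else 0) = t a
    rw [dif_pos h2]
    have h3 := h2.choose_spec
    congr 1
    exact (simple_inj' (hJ.lt a ha) (hJ.lt _ h3.1) h3.2 Q.C).symm
  have h2 : ∀ t : ℕ → K, yP Q J t = prodL Q (lst D (PJ Q J)) (τ t) := by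
    intro t
    rw [hJ.prodL_eq hS, yP, yP]
    congr 1
    apply List.map_congr_left
    intro a ha
    rw [h1 t a ha]
  rw [h2, h2] at h
  intro a ha
  have h3 := prodL_unique Q _ (lst_sorted _) (fun r hr => ((mem_lst (fun r hr => hr.1.2)).1 hr).1) _ _ h (D.simple a)
    ((mem_lst (fun r hr => hr.1.2)).2 (si_mem_PJ (hJ.lt a ha) ha))
  rwa [h1 t a ha, h1 t' a ha] at h3

/-- reordering a product over a class -/
lemma ComJ.yP_perm {π : ℕ → ℕ} (hπ : (J.map π).Perm J) (t : ℕ → K) :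
    (J.map fun a => xG Q (D.simple (π a)) (t (π a))).prod = yP Q J t := by
  have h1 : (J.map fun a => xG Q (D.simple (π a)) (t (π a))) = (J.map π).map fun b => xG Q (D.simple b) (t b) := by
    rw [List.map_map]; rfl
  rw [h1, yP]
  apply List.Perm.prod_eq' (hπ.map _)
  apply List.Pairwise.imp_of_mem (R := fun _ _ => True) ?_ (List.pairwise_of_forall (fun _ _ => trivial))
  intro x y hx hy _
  rw [List.mem_map] at hx hy
  obtain ⟨r, hr, rfl⟩ := hx
  obtain ⟨s, hs, rfl⟩ := hy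
  exact hJ.comm_pp Q.C (hπ.mem_iff.1 hr) (hπ.mem_iff.1 hs) _ _

lemma ComJ.yN_perm {π : ℕ → ℕ} (hπ : (J.map π).Perm J) (t : ℕ → K) :
    (J.map fun a => xG Q (D.nroots - 1 - D.simple (π a)) (t (π a))).prod = yN Q J t := by
  have h1 : (J.map fun a => xG Q (D.nroots - 1 - D.simple (π a)) (t (π a))) =
      (J.map π).map fun b => xG Q (D.nroots - 1 - D.simple b) (t b) := by
    rw [List.map_map]; rfl
  rw [h1, yN]
  apply List.Perm.prod_eq' (hπ.map _)
  apply List.Pairwise.imp_of_mem (R := fun _ _ => True) ?_ (List.pairwise_of_forall (fun _ _ => trivial))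
  intro x y hx hy _
  rw [List.mem_map] at hx hy
  obtain ⟨r, hr, rfl⟩ := hx
  obtain ⟨s, hs, rfl⟩ := hy
  exact hJ.comm_nn Q.C (hπ.mem_iff.1 hr) (hπ.mem_iff.1 hs) _ _

end com

section fixed

variable {Q} {G : GDat} (hG : G.Ok D) (hcp : ChP K G.p) {γ : MulAut ↥(D.group K)}
    (hγ : ∀ r < D.nroots, ∀ t, γ (xg Q r t) = Yg Q G r t) (φ : K ≃+* K)
  {J : List ℕ} (hJ : ComJ D J) {π : ℕ → ℕ} (hπ : (J.map π).Perm J) (hπG : ∀ a ∈ J, G.ρ (D.simple a) = D.simple (π a))
  (he : ∀ a ∈ J, G.eps (D.simple a) = 1)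
include hJ hπ hπG he

/-- fixed products -/
lemma ComJ.fix_iff (hS : SuppD Q.C) (t : ℕ → K) : yP Q J t ∈ (mkTw Q hG hcp hγ φ).Fx ↔
    ∀ a ∈ J, t (π a) = φ (t a) ^ G.lam (D.simple a) := by
  have hmem : ∀ g ∈ J.map (fun a => xG Q (D.simple a) (t a)), g ∈ D.group K := by
    intro g hg
    rw [List.mem_map] at hg
    obtain ⟨a, _, rfl⟩ := hg
    exact xG_mem_group Q _ _
  have h1 : (mkTw Q hG hcp hγ φ).s (yP Q J t) = (J.map fun a => xG Q (D.simple (π a)) (φ (t a) ^ G.lam (D.simple a))).prod := by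
    rw [yP, ((mkTw Q hG hcp hγ φ).s_list hmem).1, List.map_map]
    congr 1
    apply List.map_congr_left
    intro a ha
    rw [Function.comp_apply, mkTw_x hG hcp hγ φ (Q.C.simple_lt a (hJ.lt a ha)), hπG a ha, he a ha, Int.cast_one, one_mul]
  rw [Tw.mem_Fx, h1]
  constructor
  · rintro ⟨_, h2⟩
    -- choose an inverse of `π` on `J`
    have hinj : ∀ a ∈ J, ∀ b ∈ J, π a = π b → a = b := by
      intro a ha b hb h
      have h3 : (J.map π).Nodup := hπ.nodup_iff.2 hJ.nd
      exact List.inj_on_of_nodup_map h3 ha hb h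
    classical
    set t' : ℕ → K := fun b => if h : ∃ a ∈ J, π a = b then φ (t h.choose) ^ G.lam (D.simple h.choose) else 0 with ht'
    have h4 : ∀ a ∈ J, t' (π a) = φ (t a) ^ G.lam (D.simple a) := by
      intro a ha
      have h5 : ∃ a' ∈ J, π a' = π a := ⟨a, ha, rfl⟩
      show (if h : ∃ a' ∈ J, π a' = π a then φ (t h.choose) ^ G.lam (D.simple h.choose) else 0) = _
      rw [dif_pos h5, hinj _ h5.choose_spec.1 _ ha h5.choose_spec.2]
    have h5 : (J.map fun a => xG Q (D.simple (π a)) (φ (t a) ^ G.lam (D.simple a))).prod = yP Q J t' := by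
      rw [← hJ.yP_perm hπ]
      congr 1
      apply List.map_congr_left
      intro a ha
      rw [h4 a ha]
    rw [h5] at h2
    have h6 := hJ.yP_inj hS h2
    intro a ha
    have h7 : π a ∈ J := hπ.mem_iff.1 (List.mem_map_of_mem ha)
    rw [← h6 _ h7, h4 a ha]
  · intro h
    refine ⟨?_, ?_⟩
    · exact ((mkTw Q hG hcp hγ φ).s_list hmem).2
    · rw [← hJ.yP_perm hπ]
      congr 1
      apply List.map_congr_left
      intro a ha
      rw [h a ha]

lemma ComJ.fixN (t : ℕ → K) (h : ∀ a ∈ J, t (π a) = φ (t a) ^ G.lam (D.simple a)) : yN Q J t ∈ (mkTw Q hG hcp hγ φ).Fx := by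
  have hmem : ∀ g ∈ J.map (fun a => xG Q (D.nroots - 1 - D.simple a) (t a)), g ∈ D.group K := by
    intro g hg
    rw [List.mem_map] at hg
    obtain ⟨a, _, rfl⟩ := hg
    exact xG_mem_group Q _ _
  have h1 : (mkTw Q hG hcp hγ φ).s (yN Q J t) =
      (J.map fun a => xG Q (D.nroots - 1 - D.simple (π a)) (φ (t a) ^ G.lam (D.simple a))).prod := by
    rw [yN, ((mkTw Q hG hcp hγ φ).s_list hmem).1, List.map_map]
    congr 1
    apply List.map_congr_left
    intro a ha
    have hlt := Q.C.simple_lt a (hJ.lt a ha)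
    rw [Function.comp_apply, mkTw_x hG hcp hγ φ (by omega), hG.neg _ hlt, hG.eneg _ hlt, hG.lneg _ hlt, hπG a ha, he a ha,
      Int.cast_one, one_mul]
  refine ⟨((mkTw Q hG hcp hγ φ).s_list hmem).2, ?_⟩
  rw [h1, ← hJ.yN_perm hπ]
  congr 1
  apply List.map_congr_left
  intro a ha
  rw [h a ha]

end fixed

end Cfsg.Agent.Lib.ChevAlg
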