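import Cfsg.Agent.Lib.ChevTwG

/-!
# Tables for twisted `E₆` and `D₄`
-/

set_option autoImplicit false

namespace Cfsg.Agent.Lib.ChevAlg

open Cfsg.Lie Cfsg.Agent.Lib.ChevTab

/-- orbits for twisted `E₆` -/
def jE6 (i : ℕ) : List ℕ := [[1], [3], [2, 4], [0, 5]].getD i []
/-- diagram symmetry of `E₆` -/
def pE6 (a : ℕ) : ℕ := [5, 1, 4, 3, 2, 0].getD a 0

theorem jdE6 : JD chevE6 gE6.ρ 4 jE6 jE6 where
  lt := by decide +kernel
  ne := by decide +kernel
  sub := by decide +kernel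
  comm := by decide +kernel
  cover := by decide +kernel
  orbit := by decide +kernel
  neg := by decide +kernel
  dis := by decide +kernel

theorem comE6 : ∀ i < 4, ComJ chevE6 (jE6 i) := by
  intro i hi
  have h1 : ∀ i < 4, (jE6 i).Nodup := by decide +kernel
  have h2 : ∀ i < 4, ∀ a ∈ jE6 i, ∀ b ∈ jE6 i, a ≠ b → chevE6.simple b ≠ chevE6.simple a ∧ chevE6.simple b ≠ chevE6.nroots - 1 - chevE6.simple a ∧
    chevE6.commTerms (chevE6.simple a) (chevE6.simple b) = [] ∧ chevE6.commTerms (chevE6.simple a) (chevE6.nroots - 1 - chevE6.simple b) = [] ∧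
    chevE6.commTerms (chevE6.nroots - 1 - chevE6.simple a) (chevE6.simple b) = [] ∧
    chevE6.commTerms (chevE6.nroots - 1 - chevE6.simple a) (chevE6.nroots - 1 - chevE6.simple b) = [] := by decide +kernel
  have h3 : ∀ i < 4, ∀ r < chevE6.nroots, r < chevE6.nroots / 2 ∨
    (∃ k < chevE6.rank, k ∉ jE6 i ∧ (chevE6.coroot.getD r #[]).getD k 0 ≠ 0) ∨ ∃ a ∈ jE6 i, r = chevE6.simple a := by decide +kernel
  refine ⟨h1 i hi, jdE6.lt i hi, h2 i hi, fun r hr hp h => ?_⟩
  rcases h3 i hi r hr with h4 | ⟨k, hk, hkJ, h4⟩ | h4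
  · exact absurd hp (not_le.2 h4)
  · exact absurd (h k hk hkJ) h4
  · exact h4

theorem cdE6 : CD chevE6 gE6 4 jE6 pE6 where
  jd := jdE6
  com := comE6
  rev := by decide +kernel
  perm := by decide +kernel
  hπ := by decide +kernel
  eps := by decide +kernel
  lam := by decide +kernel

/-- orbits for twisted `D₄` -/
def jD4 (i : ℕ) : List ℕ := [[1], [0, 2, 3]].getD i []
/-- diagram symmetry of `D₄` -/
def pD4 (a : ℕ) : ℕ := [2, 1, 3, 0].getD a 0

theorem jdD4 : JD chevD4 gD4a.ρ 2 jD4 jD4 where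
  lt := by decide +kernel
  ne := by decide +kernel
  sub := by decide +kernel
  comm := by decide +kernel
  cover := by decide +kernel
  orbit := by decide +kernel
  neg := by decide +kernel
  dis := by decide +kernel

theorem comD4 : ∀ i < 2, ComJ chevD4 (jD4 i) := by
  intro i hi
  have h1 : ∀ i < 2, (jD4 i).Nodup := by decide +kernel
  have h2 : ∀ i < 2, ∀ a ∈ jD4 i, ∀ b ∈ jD4 i, a ≠ b → chevD4.simple b ≠ chevD4.simple a ∧ chevD4.simple b ≠ chevD4.nroots - 1 - chevD4.simple a ∧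
    chevD4.commTerms (chevD4.simple a) (chevD4.simple b) = [] ∧ chevD4.commTerms (chevD4.simple a) (chevD4.nroots - 1 - chevD4.simple b) = [] ∧
    chevD4.commTerms (chevD4.nroots - 1 - chevD4.simple a) (chevD4.simple b) = [] ∧
    chevD4.commTerms (chevD4.nroots - 1 - chevD4.simple a) (chevD4.nroots - 1 - chevD4.simple b) = [] := by decide +kernel
  have h3 : ∀ i < 2, ∀ r < chevD4.nroots, r < chevD4.nroots / 2 ∨
    (∃ k < chevD4.rank, k ∉ jD4 i ∧ (chevD4.coroot.getD r #[]).getD k 0 ≠ 0) ∨ ∃ a ∈ jD4 i, r = chevD4.simple a := by decide +kernel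
  refine ⟨h1 i hi, jdD4.lt i hi, h2 i hi, fun r hr hp h => ?_⟩
  rcases h3 i hi r hr with h4 | ⟨k, hk, hkJ, h4⟩ | h4
  · exact absurd hp (not_le.2 h4)
  · exact absurd (h k hk hkJ) h4
  · exact h4

theorem cdD4 : CD chevD4 gD4a 2 jD4 pD4 where
  jd := jdD4
  com := comD4
  rev := by decide +kernel
  perm := by decide +kernel
  hπ := by decide +kernel
  eps := by decide +kernel
  lam := by decide +kernel

end Cfsg.Agent.Lib.ChevAlg
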