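import Cfsg.Agent.Lib.ChevTwE6b
import Cfsg.Agent.Lib.ChevGr
import Cfsg.Prelude.Def_LieTwisted

/-!
# Twisted `E₆` and `D₄` are fixed point groups
-/

set_option autoImplicit false

namespace Cfsg.Agent.Lib.ChevAlg

open Cfsg.Lie Cfsg.Agent.Lib.ChevTab Matrix

/-- everything needed to build a Steinberg automorphism -/
structure Pk (D : ChevalleyDatum) (G : GDat) (K : Type*) [Field K] (e : ℕ) where
  Q : ChevO D K
  hS : SuppD Q.C
  γ : MulAut ↥(D.group K)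
  hγ : ∀ r < D.nroots, ∀ t, γ (xg Q r t) = Yg Q G r t
  φ : K ≃+* K
  hφ : ∀ t, φ t = t ^ e

theorem exists_PkE6 {K : Type*} [Field K] [Fintype K] {q : ℕ} (hq : IsPrimePow q) (hK : Fintype.card K = q ^ 2) :
    Nonempty (Pk chevE6 gE6 K q) := by
  obtain ⟨Q, hS, _⟩ := exists_chevV chevE6 (by simp) K
  obtain ⟨γ, hγ⟩ := auto_E6 Q
  obtain ⟨φ, hφ⟩ := exists_frob hq (by norm_num : 0 < 2) hK
  exact ⟨⟨Q, hS, γ, hγ, φ, hφ⟩⟩

theorem exists_PkD4 {K : Type*} [Field K] [Fintype K] {q : ℕ} (hq : IsPrimePow q) (hK : Fintype.card K = q ^ 3) :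
    Nonempty (Pk chevD4 gD4a K q) := by
  obtain ⟨Q, hS, _⟩ := exists_chevV chevD4 (by simp) K
  obtain ⟨γ, hγ⟩ := auto_D4a Q
  obtain ⟨φ, hφ⟩ := exists_frob hq (by norm_num : 0 < 3) hK
  exact ⟨⟨Q, hS, γ, hγ, φ, hφ⟩⟩

section gen

variable {D : ChevalleyDatum} {K : Type*} [Field K] (Q : ChevO D K)

lemma gen_le {W : Set (List (ℕ × K))} {H : Subgroup (GL D.Idx K)} (h : ∀ w ∈ W, wG Q w ∈ H) : D.genSubgroup K W ≤ H := by
  rw [ChevalleyDatum.genSubgroup, Subgroup.closure_le]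
  rintro g ⟨w, hw, hg⟩
  have : g = wG Q w := Units.ext (hg.trans (wG_val Q w).symm)
  rw [this]
  exact h w hw

lemma wG_mem_gen {W : Set (List (ℕ × K))} {w : List (ℕ × K)} (hw : w ∈ W) : wG Q w ∈ D.genSubgroup K W :=
  Subgroup.subset_closure ⟨w, hw, wG_val Q w⟩

end gen

/-! ### `E₆` -/

section E6

variable {K : Type*} [Field K] {q : ℕ} (P : Pk chevE6 gE6 K q)

/-- the Steinberg automorphism -/
noncomputable abbrev TE6 : Tw P.Q := mkTw P.Q gE6_ok (Or.inl rfl) P.hγ P.φ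

/-- its orbit structure -/
noncomputable abbrev HE6 : TwJ (TE6 P) (Fin 4) := cdE6.H gE6_ok (Or.inl rfl) P.hγ P.φ

lemma e6_simple : chevE6.simple 0 = 56 ∧ chevE6.simple 1 = 46 ∧ chevE6.simple 2 = 42 ∧ chevE6.simple 3 = 39 ∧
    chevE6.simple 4 = 37 ∧ chevE6.simple 5 = 36 := by decide +kernel

lemma frob2 [Fintype K] (hK : Fintype.card K = q ^ 2) (t : K) : (t ^ q) ^ q = t := by
  rw [← pow_mul, ← pow_two, ← hK, FiniteField.pow_card]

lemma e6_le [Fintype K] (hK : Fintype.card K = q ^ 2) : twistedE6 K q ≤ (TE6 P).Fx := by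
  obtain ⟨h0, h1, h2, h3, h4, h5⟩ := e6_simple
  have hn : chevE6.nroots = 72 := rfl
  apply gen_le P.Q
  rintro w (⟨t, ht, r, hr, rfl⟩ | ⟨t, rs, hrs, rfl⟩)
  · simp only [List.mem_cons, List.not_mem_nil, or_false] at hr
    have hc1 : ∀ a ∈ jE6 0, (fun _ : ℕ => t) (pE6 a) = P.φ ((fun _ : ℕ => t) a) := fun a _ => by rw [P.hφ]; exact ht.symm
    have hc3 : ∀ a ∈ jE6 1, (fun _ : ℕ => t) (pE6 a) = P.φ ((fun _ : ℕ => t) a) := fun a _ => by rw [P.hφ]; exact ht.symm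
    rcases hr with rfl | rfl | rfl | rfl
    · have := (cdE6.fix_iff gE6_ok (Or.inl rfl) P.hγ P.φ P.hS (by norm_num : 0 < 4) (fun _ => t)).2 hc1
      simpa [yP, wG, jE6, h1, e6p2] using this
    · have := cdE6.fixN gE6_ok (Or.inl rfl) P.hγ P.φ (by norm_num : 0 < 4) (fun _ => t) hc1
      simpa [yN, wG, jE6, h1, e6m2, hn] using this
    · have := (cdE6.fix_iff gE6_ok (Or.inl rfl) P.hγ P.φ P.hS (by norm_num : 1 < 4) (fun _ => t)).2 hc3
      simpa [yP, wG, jE6, h3, e6p4] using this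
    · have := cdE6.fixN gE6_ok (Or.inl rfl) P.hγ P.φ (by norm_num : 1 < 4) (fun _ => t) hc3
      simpa [yN, wG, jE6, h3, e6m4, hn] using this
  · simp only [List.mem_cons, List.not_mem_nil, or_false] at hrs
    have hc2 : ∀ a ∈ jE6 2, (fun a : ℕ => if a = 2 then t else t ^ q) (pE6 a) = P.φ ((fun a : ℕ => if a = 2 then t else t ^ q) a) := by
      intro a ha
      have : a = 2 ∨ a = 4 := by simpa [jE6] using ha
      rcases this with rfl | rfl
      · simp [pE6, P.hφ]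
      · simp [pE6, P.hφ, frob2 hK]
    have hc0 : ∀ a ∈ jE6 3, (fun a : ℕ => if a = 0 then t else t ^ q) (pE6 a) = P.φ ((fun a : ℕ => if a = 0 then t else t ^ q) a) := by
      intro a ha
      have : a = 0 ∨ a = 5 := by simpa [jE6] using ha
      rcases this with rfl | rfl
      · simp [pE6, P.hφ]
      · simp [pE6, P.hφ, frob2 hK]
    rcases hrs with rfl | rfl | rfl | rfl
    · have := (cdE6.fix_iff gE6_ok (Or.inl rfl) P.hγ P.φ P.hS (by norm_num : 3 < 4) (fun a : ℕ => if a = 0 then t else t ^ q)).2 hc0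
      simpa [yP, wG, jE6, h0, h5, e6p1, e6p6] using this
    · have := cdE6.fixN gE6_ok (Or.inl rfl) P.hγ P.φ (by norm_num : 3 < 4) (fun a : ℕ => if a = 0 then t else t ^ q) hc0
      simpa [yN, wG, jE6, h0, h5, e6m1, e6m6, hn] using this
    · have := (cdE6.fix_iff gE6_ok (Or.inl rfl) P.hγ P.φ P.hS (by norm_num : 2 < 4) (fun a : ℕ => if a = 2 then t else t ^ q)).2 hc2
      simpa [yP, wG, jE6, h2, h4, e6p3, e6p5] using this
    · have := cdE6.fixN gE6_ok (Or.inl rfl) P.hγ P.φ (by norm_num : 2 < 4) (fun a : ℕ => if a = 2 then t else t ^ q) hc2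
      simpa [yN, wG, jE6, h2, h4, e6m3, e6m5, hn] using this

lemma e6_w1 (i : ℕ) (hi : i < 4) (t : ℕ → K) (h : ∀ a ∈ jE6 i, t (pE6 a) = P.φ (t a)) : yP P.Q (jE6 i) t ∈ twistedE6 K q := by
  obtain ⟨h0, h1, h2, h3, h4, h5⟩ := e6_simple
  have key : ∀ w ∈ e6Words K q, wG P.Q w ∈ twistedE6 K q := fun w hw => wG_mem_gen P.Q hw
  interval_cases i
  · have h6 : t 1 = t 1 ^ q := by rw [← P.hφ]; exact h 1 (by simp [jE6])
    have := key [(46, t 1)] (Or.inl ⟨t 1, h6.symm, e6p2, by simp, rfl⟩)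
    simpa [yP, wG, jE6, h1] using this
  · have h6 : t 3 = t 3 ^ q := by rw [← P.hφ]; exact h 3 (by simp [jE6])
    have := key [(39, t 3)] (Or.inl ⟨t 3, h6.symm, e6p4, by simp, rfl⟩)
    simpa [yP, wG, jE6, h3] using this
  · have h6 : t 4 = t 2 ^ q := by rw [← P.hφ]; exact h 2 (by simp [jE6])
    have := key [(42, t 2), (37, t 4)] (Or.inr ⟨t 2, (e6p3, e6p5), by simp, by rw [h6]; rfl⟩)
    simpa [yP, wG, jE6, h2, h4] using this
  · have h6 : t 5 = t 0 ^ q := by rw [← P.hφ]; exact h 0 (by simp [jE6])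
    have := key [(56, t 0), (36, t 5)] (Or.inr ⟨t 0, (e6p1, e6p6), by simp, by rw [h6]; rfl⟩)
    simpa [yP, wG, jE6, h0, h5] using this

lemma e6_w2 (i : ℕ) (hi : i < 4) (t : ℕ → K) (h : ∀ a ∈ jE6 i, t (pE6 a) = P.φ (t a)) : yN P.Q (jE6 i) t ∈ twistedE6 K q := by
  obtain ⟨h0, h1, h2, h3, h4, h5⟩ := e6_simple
  have hn : chevE6.nroots = 72 := rfl
  have key : ∀ w ∈ e6Words K q, wG P.Q w ∈ twistedE6 K q := fun w hw => wG_mem_gen P.Q hw
  interval_cases i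
  · have h6 : t 1 = t 1 ^ q := by rw [← P.hφ]; exact h 1 (by simp [jE6])
    have := key [(25, t 1)] (Or.inl ⟨t 1, h6.symm, e6m2, by simp, rfl⟩)
    simpa [yN, wG, jE6, h1, hn] using this
  · have h6 : t 3 = t 3 ^ q := by rw [← P.hφ]; exact h 3 (by simp [jE6])
    have := key [(32, t 3)] (Or.inl ⟨t 3, h6.symm, e6m4, by simp, rfl⟩)
    simpa [yN, wG, jE6, h3, hn] using this
  · have h6 : t 4 = t 2 ^ q := by rw [← P.hφ]; exact h 2 (by simp [jE6])
    have := key [(29, t 2), (34, t 4)] (Or.inr ⟨t 2, (e6m3, e6m5), by simp, by rw [h6]; rfl⟩)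
    simpa [yN, wG, jE6, h2, h4, hn] using this
  · have h6 : t 5 = t 0 ^ q := by rw [← P.hφ]; exact h 0 (by simp [jE6])
    have := key [(15, t 0), (35, t 5)] (Or.inr ⟨t 0, (e6m1, e6m6), by simp, by rw [h6]; rfl⟩)
    simpa [yN, wG, jE6, h0, h5, hn] using this

theorem e6_twG [Fintype K] (hK : Fintype.card K = q ^ 2) : TwG (HE6 P) (twistedE6 K q) :=
  cdE6.twG gE6_ok (Or.inl rfl) P.hγ P.φ (e6_le P hK) (e6_w1 P) (e6_w2 P) P.hS

end E6

/-! ### `D₄` -/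

section D4

variable {K : Type*} [Field K] {q : ℕ} (P : Pk chevD4 gD4a K q)

/-- the Steinberg automorphism -/
noncomputable abbrev TD4 : Tw P.Q := mkTw P.Q gD4a_ok (Or.inl rfl) P.hγ P.φ

/-- its orbit structure -/
noncomputable abbrev HD4 : TwJ (TD4 P) (Fin 2) := cdD4.H gD4a_ok (Or.inl rfl) P.hγ P.φ

lemma d4_simple : chevD4.simple 0 = 18 ∧ chevD4.simple 1 = 14 ∧ chevD4.simple 2 = 13 ∧ chevD4.simple 3 = 12 := by
  decide +kernel

lemma frob3 [Fintype K] (hK : Fintype.card K = q ^ 3) (t : K) : (t ^ q ^ 2) ^ q = t := by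
  rw [← pow_mul, ← pow_succ, ← hK, FiniteField.pow_card]

lemma d4_le [Fintype K] (hK : Fintype.card K = q ^ 3) : twistedD4 K q ≤ (TD4 P).Fx := by
  obtain ⟨h0, h1, h2, h3⟩ := d4_simple
  have hn : chevD4.nroots = 24 := rfl
  apply gen_le P.Q
  rintro w (⟨t, ht, r, hr, rfl⟩ | ⟨t, rs, hrs, rfl⟩)
  · simp only [List.mem_cons, List.not_mem_nil, or_false] at hr
    have hc1 : ∀ a ∈ jD4 0, (fun _ : ℕ => t) (pD4 a) = P.φ ((fun _ : ℕ => t) a) := fun a _ => by rw [P.hφ]; exact ht.symm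
    rcases hr with rfl | rfl
    · have := (cdD4.fix_iff gD4a_ok (Or.inl rfl) P.hγ P.φ P.hS (by norm_num : 0 < 2) (fun _ => t)).2 hc1
      simpa [yP, wG, jD4, h1, d4p2] using this
    · have := cdD4.fixN gD4a_ok (Or.inl rfl) P.hγ P.φ (by norm_num : 0 < 2) (fun _ => t) hc1
      simpa [yN, wG, jD4, h1, d4m2, hn] using this
  · simp only [List.mem_cons, List.not_mem_nil, or_false] at hrs
    have hc2 : ∀ a ∈ jD4 1, (fun a : ℕ => if a = 0 then t else if a = 2 then t ^ q else t ^ q ^ 2) (pD4 a) =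
        P.φ ((fun a : ℕ => if a = 0 then t else if a = 2 then t ^ q else t ^ q ^ 2) a) := by
      intro a ha
      have : a = 0 ∨ a = 2 ∨ a = 3 := by simpa [jD4] using ha
      rcases this with rfl | rfl | rfl
      · simp [pD4, P.hφ]
      · simp [pD4, P.hφ, ← pow_mul, pow_two]
      · simp [pD4, P.hφ, frob3 hK]
    rcases hrs with rfl | rfl
    · have := (cdD4.fix_iff gD4a_ok (Or.inl rfl) P.hγ P.φ P.hS (by norm_num : 1 < 2) (fun a : ℕ => if a = 0 then t else if a = 2 then t ^ q else t ^ q ^ 2)).2 hc2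
      simpa [yP, wG, jD4, h0, h2, h3, d4p1, d4p3, d4p4] using this
    · have := cdD4.fixN gD4a_ok (Or.inl rfl) P.hγ P.φ (by norm_num : 1 < 2) (fun a : ℕ => if a = 0 then t else if a = 2 then t ^ q else t ^ q ^ 2) hc2
      simpa [yN, wG, jD4, h0, h2, h3, d4m1, d4m3, d4m4, hn] using this

lemma d4_w1 (i : ℕ) (hi : i < 2) (t : ℕ → K) (h : ∀ a ∈ jD4 i, t (pD4 a) = P.φ (t a)) : yP P.Q (jD4 i) t ∈ twistedD4 K q := by
  obtain ⟨h0, h1, h2, h3⟩ := d4_simple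
  have key : ∀ w ∈ d4Words K q, wG P.Q w ∈ twistedD4 K q := fun w hw => wG_mem_gen P.Q hw
  interval_cases i
  · have h6 : t 1 = t 1 ^ q := by rw [← P.hφ]; exact h 1 (by simp [jD4])
    have := key [(14, t 1)] (Or.inl ⟨t 1, h6.symm, d4p2, by simp, rfl⟩)
    simpa [yP, wG, jD4, h1] using this
  · have h6 : t 2 = t 0 ^ q := by rw [← P.hφ]; exact h 0 (by simp [jD4])
    have h7 : t 3 = t 0 ^ q ^ 2 := by
      have : t 3 = t 2 ^ q := by rw [← P.hφ]; exact h 2 (by simp [jD4])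
      rw [this, h6, ← pow_mul, ← pow_two]
    have := key [(18, t 0), (13, t 2), (12, t 3)] (Or.inr ⟨t 0, (d4p1, d4p3, d4p4), by simp, by rw [h6, h7]; rfl⟩)
    simpa [yP, wG, jD4, h0, h2, h3] using this

lemma d4_w2 (i : ℕ) (hi : i < 2) (t : ℕ → K) (h : ∀ a ∈ jD4 i, t (pD4 a) = P.φ (t a)) : yN P.Q (jD4 i) t ∈ twistedD4 K q := by
  obtain ⟨h0, h1, h2, h3⟩ := d4_simple
  have hn : chevD4.nroots = 24 := rfl
  have key : ∀ w ∈ d4Words K q, wG P.Q w ∈ twistedD4 K q := fun w hw => wG_mem_gen P.Q hw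
  interval_cases i
  · have h6 : t 1 = t 1 ^ q := by rw [← P.hφ]; exact h 1 (by simp [jD4])
    have := key [(9, t 1)] (Or.inl ⟨t 1, h6.symm, d4m2, by simp, rfl⟩)
    simpa [yN, wG, jD4, h1, hn] using this
  · have h6 : t 2 = t 0 ^ q := by rw [← P.hφ]; exact h 0 (by simp [jD4])
    have h7 : t 3 = t 0 ^ q ^ 2 := by
      have : t 3 = t 2 ^ q := by rw [← P.hφ]; exact h 2 (by simp [jD4])
      rw [this, h6, ← pow_mul, ← pow_two]
    have := key [(5, t 0), (10, t 2), (11, t 3)] (Or.inr ⟨t 0, (d4m1, d4m3, d4m4), by simp, by rw [h6, h7]; rfl⟩)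
    simpa [yN, wG, jD4, h0, h2, h3, hn] using this

theorem d4_twG [Fintype K] (hK : Fintype.card K = q ^ 3) : TwG (HD4 P) (twistedD4 K q) :=
  cdD4.twG gD4a_ok (Or.inl rfl) P.hγ P.φ (d4_le P hK) (d4_w1 P) (d4_w2 P) P.hS

end D4

end Cfsg.Agent.Lib.ChevAlg
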