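import Cfsg.Agent.Lib.ChevTwE6c

/-!
# The fixed tori of `²E₆` and `³D₄`
-/

set_option autoImplicit false

namespace Cfsg.Agent.Lib.ChevAlg

open Cfsg.Lie Cfsg.Agent.Lib.ChevTab Matrix

lemma act_const_one {l : ℕ} {M : Type*} [CommGroup M] (A : Matrix (Fin l) (Fin l) ℤ) : act A (fun _ => (1 : M)) = fun _ => 1 := by
  funext j
  simp [act]

lemma act_iff {l : ℕ} {M : Type*} [CommGroup M] {A V B C : Matrix (Fin l) (Fin l) ℤ} (h1 : A * B = V) (h2 : V * C = A)
    (z : Fin l → M) : act A z = (fun _ => 1) ↔ act V z = fun _ => 1 := by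
  constructor
  · intro h
    rw [← h1, act_mul, h, act_const_one]
  · intro h
    rw [← h2, act_mul, h, act_const_one]

lemma card_pow_eq {K : Type*} [Field K] [Finite K] {d : ℕ} (hd : d ∣ Nat.card Kˣ) : Nat.card {u : Kˣ // u ^ d = 1} = d := by
  have h0 := IsCyclic.card_powMonoidHom_range (G := Kˣ) (d := d)
  have h3 := Subgroup.card_mul_index (powMonoidHom d : Kˣ →* Kˣ).ker
  have h4 : (powMonoidHom d : Kˣ →* Kˣ).ker.index = Nat.card (powMonoidHom d : Kˣ →* Kˣ).range := Subgroup.index_ker _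
  have h5 : Nat.card {u : Kˣ // u ^ d = 1} = Nat.card (powMonoidHom d : Kˣ →* Kˣ).ker := rfl
  rw [h4, h0, Nat.gcd_eq_right hd] at h3
  rw [h5]
  have hpos : 0 < Nat.card Kˣ := Nat.card_pos
  have h6 : 0 < Nat.card Kˣ / d := Nat.div_pos (Nat.le_of_dvd hpos hd) (Nat.pos_of_dvd_of_pos hd hpos)
  apply Nat.eq_of_mul_eq_mul_right h6
  rw [h3, Nat.mul_div_cancel' hd]

lemma sq_eq_one_iff_of_ne_zero {K : Type*} [Field K] {x : K} (h : x ^ 2 = 1) : x = 1 ∨ x = -1 :=
  mul_self_eq_one_iff.1 (by rw [← pow_two]; exact h)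

lemma card_units_fix {K : Type*} [Field K] [Fintype K] {q k : ℕ} (hq : 1 < q) (hk : 0 < k) (hK : Fintype.card K = q ^ k)
    (φ : K ≃+* K) (hφ : ∀ t, φ t = t ^ q) : Nat.card {u : Kˣ // Units.map (φ : K →* K) u = u} = q - 1 := by
  have h1 := card_frob_fix hq hk hK
  have e : {t : K // t ^ q = t} ≃ Option {u : Kˣ // Units.map (φ : K →* K) u = u} := by
    classical
    exact
    { toFun := fun t => if h : (t : K) = 0 then none else some ⟨Units.mk0 t h, by
        apply Units.ext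
        show φ (t : K) = t
        rw [hφ]; exact t.2⟩
      invFun := fun o => match o with
        | none => ⟨0, by rw [zero_pow (by omega)]⟩
        | some u => ⟨(u : Kˣ), by
          have h2 : φ ((u : Kˣ) : K) = (u : Kˣ) := congrArg Units.val u.2
          rw [← hφ]; exact h2⟩
      left_inv := by
        rintro ⟨t, ht⟩
        by_cases h : t = 0
        · subst h; simp
        · simp [h]
      right_inv := by
        rintro (_ | ⟨u, hu⟩)
        · simp
        · simp }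
  rw [Nat.card_congr e, Finite.card_option] at h1
  omega

lemma fin3 {a b c b' c' : ℕ} (h1 : a * b = c) (h3 : b = b') (h2 : c = c') : a * b' = c' := by
  rw [← h3, ← h2, h1]

/-! ### `E₆` -/

section E6

/-- Cartan matrix of `E₆` -/
def aE6 : Matrix (Fin 6) (Fin 6) ℤ := ![![2, 0, -1, 0, 0, 0], ![0, 2, 0, -1, 0, 0], ![-1, 0, 2, -1, 0, 0], ![0, -1, -1, 2, -1, 0], ![0, 0, 0, -1, 2, -1], ![0, 0, 0, 0, -1, 2]]
/-- normal form -/
def vE6 : Matrix (Fin 6) (Fin 6) ℤ := ![![3, 0, -2, 0, -1, -2], ![0, 1, 0, 0, 0, 0], ![0, 0, 1, 0, 0, 0], ![0, 0, 0, 1, 0, 0], ![0, 0, 0, 0, 1, 0], ![0, 0, 0, 0, 0, 1]]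
/-- transition matrix -/
def bE6 : Matrix (Fin 6) (Fin 6) ℤ := ![![4, 1, -1, 2, 0, -2], ![3, 2, 0, 3, 1, -1], ![5, 2, 0, 4, 1, -2], ![6, 3, 0, 6, 2, -2], ![4, 2, 0, 4, 2, -1], ![2, 1, 0, 2, 1, 0]]
/-- transition matrix -/
def cE6 : Matrix (Fin 6) (Fin 6) ℤ := ![![0, 0, 1, -1, 0, 1], ![0, 2, 0, -1, 0, 0], ![-1, 0, 2, -1, 0, 0], ![0, -1, -1, 2, -1, 0], ![0, 0, 0, -1, 2, -1], ![0, 0, 0, 0, -1, 2]]

lemma cartM_E6 : (cartM chevE6 : Matrix (Fin 6) (Fin 6) ℤ) = aE6 := by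
  have h : ∀ i < 6, ∀ j < 6, chevE6.cartan i (chevE6.simple j) = lm [[2, 0, -1, 0, 0, 0], [0, 2, 0, -1, 0, 0],
    [-1, 0, 2, -1, 0, 0], [0, -1, -1, 2, -1, 0], [0, 0, 0, -1, 2, -1], [0, 0, 0, 0, -1, 2]] i j := by decide +kernel
  ext i j
  show chevE6.cartan i (chevE6.simple j) = _
  rw [h i i.2 j j.2]
  fin_cases i <;> fin_cases j <;> rfl
lemma abE6 : aE6 * bE6 = vE6 := by decide +kernel
lemma vcE6 : vE6 * cE6 = aE6 := by decide +kernel

variable {K : Type*} [Field K]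

lemma ker_E6 (Q : ChevO chevE6 K) (z : Fin 6 → Kˣ) : torHom chevE6 K z = 1 ↔
    z 0 ^ 3 = 1 ∧ z 1 = 1 ∧ z 2 = z 0 ^ 2 ∧ z 3 = 1 ∧ z 4 = z 0 ∧ z 5 = z 0 ^ 2 := by
  have h1 : torHom chevE6 K z = 1 ↔ act (cartM chevE6) z = fun _ => 1 := tor_eq_one_iff Q z
  have h2 : act (cartM chevE6) z = (fun _ => 1) ↔ act vE6 z = fun _ => 1 := by
    have := act_iff abE6 vcE6 z
    rw [← cartM_E6] at this
    exact this
  rw [h1, h2]
  constructor
  · intro h
    have h0 := congrFun h 0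
    have h1 := congrFun h 1
    have h2 := congrFun h 2
    have h3 := congrFun h 3
    have h4 := congrFun h 4
    have h5 := congrFun h 5
    simp only [act, vE6, Fin.prod_univ_six] at h0 h1 h2 h3 h4 h5
    simp at h0 h1 h2 h3 h4 h5
    refine ⟨?_, h1, ?_, h3, ?_, ?_⟩
    · exact_mod_cast h0
    · rw [inv_mul_eq_one] at h2
      rw [← h2]
    · rw [inv_mul_eq_one] at h4; exact h4.symm
    · rw [inv_mul_eq_one] at h5
      rw [← h5]
  · rintro ⟨h0, h1, h2, h3, h4, h5⟩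
    funext j
    fin_cases j <;> simp only [act, vE6, Fin.prod_univ_six] <;> simp [h1, h2, h3, h4, h5]
    · exact_mod_cast h0

/-- diagram symmetry as a permutation -/
def πE6 : Equiv.Perm (Fin chevE6.rank) where
  toFun i := ⟨pE6 i, (by decide +kernel : ∀ i < 6, pE6 i < 6) i i.2⟩
  invFun i := ⟨pE6 i, (by decide +kernel : ∀ i < 6, pE6 i < 6) i i.2⟩
  left_inv i := Fin.ext ((by decide +kernel : ∀ i < 6, pE6 (pE6 i) = i) i i.2)
  right_inv i := Fin.ext ((by decide +kernel : ∀ i < 6, pE6 (pE6 i) = i) i i.2)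

lemma πE6_ρ (i : Fin chevE6.rank) : gE6.ρ (chevE6.simple i) = chevE6.simple (πE6 i) :=
  (by decide +kernel : ∀ i < 6, gE6.ρ (chevE6.simple i) = chevE6.simple (pE6 i)) i i.2

/-- the automorphism of the universal torus -/
abbrev sE6 (φ : K ≃+* K) : (Fin 6 → Kˣ) →* (Fin 6 → Kˣ) := sT (D := chevE6) πE6 (fun i => gE6.lam (chevE6.simple i)) φ

lemma sE6_apply (φ : K ≃+* K) (c : Fin 6 → Kˣ) : sE6 φ c =
    ![Units.map (φ : K →* K) (c 5), Units.map (φ : K →* K) (c 1), Units.map (φ : K →* K) (c 4), Units.map (φ : K →* K) (c 3),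
      Units.map (φ : K →* K) (c 2), Units.map (φ : K →* K) (c 0)] := by
  have hl : ∀ i < 6, gE6.lam (chevE6.simple i) = 1 := by decide +kernel
  have h : ∀ j : Fin 6, sE6 φ c j = Units.map (φ : K →* K) (c ⟨pE6 j, (by decide +kernel : ∀ i < 6, pE6 i < 6) j j.2⟩) := by
    intro j
    show Units.map (φ : K →* K) (c (πE6.symm j)) ^ gE6.lam (chevE6.simple (πE6.symm j : Fin chevE6.rank)) = _
    rw [hl _ (πE6.symm j).2, pow_one]; rfl
  funext j
  rw [h]
  fin_cases j <;> rfl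

/-- fixed elements of the universal torus -/
lemma fixE6 (φ : K ≃+* K) (c : Fin 6 → Kˣ) : sE6 φ c = c ↔ (Units.map (φ : K →* K) (c 5) = c 0 ∧
    Units.map (φ : K →* K) (c 1) = c 1 ∧ Units.map (φ : K →* K) (c 4) = c 2 ∧ Units.map (φ : K →* K) (c 3) = c 3 ∧
    Units.map (φ : K →* K) (c 2) = c 4 ∧ Units.map (φ : K →* K) (c 0) = c 5) := by
  rw [sE6_apply]
  constructor
  · intro h
    exact ⟨congrFun h 0, congrFun h 1, congrFun h 2, congrFun h 3, congrFun h 4, congrFun h 5⟩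
  · rintro ⟨h0, h1, h2, h3, h4, h5⟩
    funext j
    fin_cases j
    · exact h0
    · exact h1
    · exact h2
    · exact h3
    · exact h4
    · exact h5

variable {q : ℕ}

lemma hZ_E6 [Fintype K] (hK : Fintype.card K = q ^ 2) (Q : ChevO chevE6 K) (φ : K ≃+* K) (hφ : ∀ t, φ t = t ^ q)
    (c z : Fin 6 → Kˣ) (hz : torHom chevE6 K z = 1) (h : sE6 φ c = c * z) :
    ∃ y : Fin 6 → Kˣ, torHom chevE6 K y = 1 ∧ sE6 φ (c * y) = c * y := by
  have hφ2 : ∀ u : Kˣ, Units.map (φ : K →* K) (Units.map (φ : K →* K) u) = u := by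
    intro u
    apply Units.ext
    show φ (φ (u : K)) = u
    rw [hφ, hφ, frob2 hK]
  have hs2 : ∀ c : Fin 6 → Kˣ, sE6 φ (sE6 φ c) = c := by
    intro c
    rw [sE6_apply, sE6_apply]
    funext j
    fin_cases j <;> exact hφ2 _
  have h1 : z * sE6 φ z = 1 := by
    have h2 := hs2 c
    rw [h, map_mul, h, mul_assoc] at h2
    exact mul_eq_left.1 h2
  have hz3 : z ^ 3 = 1 := by
    obtain ⟨h0, h1, h2, h3, h4, h5⟩ := (ker_E6 Q z).1 hz
    funext j
    fin_cases j
    · exact h0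
    · show z 1 ^ 3 = 1
      rw [h1, one_pow]
    · show z 2 ^ 3 = 1
      rw [h2, ← pow_mul, mul_comm, pow_mul, h0, one_pow]
    · show z 3 ^ 3 = 1
      rw [h3, one_pow]
    · show z 4 ^ 3 = 1
      rw [h4, h0]
    · show z 5 ^ 3 = 1
      rw [h5, ← pow_mul, mul_comm, pow_mul, h0, one_pow]
  refine ⟨z⁻¹, (map_inv (torHom chevE6 K) z).trans (inv_eq_one.2 hz), ?_⟩
  have h4 : sE6 φ z = z⁻¹ := (eq_inv_of_mul_eq_one_right h1)
  rw [map_mul, h, map_inv, h4, inv_inv, mul_assoc, mul_right_inj]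
  apply eq_inv_of_mul_eq_one_left
  rw [← hz3]
  simp only [pow_succ, pow_zero, one_mul]

/-- the order of the fixed torus of `²E₆` -/
theorem card_torus_E6 [Fintype K] (hq : 1 < q) (hK : Fintype.card K = q ^ 2) (P : Pk chevE6 gE6 K q) :
    Nat.gcd 3 (q + 1) * Nat.card ((TE6 P).Fx ⊓ chevE6.diagonalSubgroup K : Subgroup (GL chevE6.Idx K)) =
      (q - 1) ^ 4 * (q + 1) ^ 2 := by
  rw [fx_torus gE6_ok (Or.inl rfl) P.hγ P.φ πE6_ρ (fun c z hz h => hZ_E6 hK P.Q P.φ P.hφ c z hz h)]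
  have h1 := card_map_mul (torHom chevE6 K) (MonoidHom.eqLocus (sE6 P.φ) (MonoidHom.id _))
  have hcard : Nat.card Kˣ = q ^ 2 - 1 := by
    classical
    rw [Nat.card_eq_fintype_card, Fintype.card_units, hK]
  have hφ2 : ∀ u : Kˣ, Units.map (P.φ : K →* K) (Units.map (P.φ : K →* K) u) = u := by
    intro u
    apply Units.ext
    show P.φ (P.φ (u : K)) = u
    rw [P.hφ, P.hφ, frob2 hK]
  have h2 : Nat.card (MonoidHom.eqLocus (sE6 P.φ) (MonoidHom.id _)) = (q ^ 2 - 1) ^ 2 * (q - 1) ^ 2 := by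
    have hf := card_units_fix hq (by norm_num : 0 < 2) hK P.φ P.hφ
    have e : MonoidHom.eqLocus (sE6 P.φ) (MonoidHom.id _) ≃ (Kˣ × Kˣ) ×
        ({u : Kˣ // Units.map (P.φ : K →* K) u = u} × {u : Kˣ // Units.map (P.φ : K →* K) u = u}) :=
      { toFun := fun c => ((c.1 0, c.1 2), (⟨c.1 1, ((fixE6 _ _).1 c.2).2.1⟩, ⟨c.1 3, ((fixE6 _ _).1 c.2).2.2.2.1⟩))
        invFun := fun x => ⟨![x.1.1, x.2.1, x.1.2, x.2.2, Units.map (P.φ : K →* K) x.1.2, Units.map (P.φ : K →* K) x.1.1],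
          (fixE6 _ _).2 ⟨hφ2 _, x.2.1.2, hφ2 _, x.2.2.2, rfl, rfl⟩⟩
        left_inv := by
          rintro ⟨c, hc⟩
          have h := (fixE6 _ _).1 hc
          apply Subtype.ext
          funext j
          fin_cases j
          · rfl
          · rfl
          · rfl
          · rfl
          · exact h.2.2.2.2.1
          · exact h.2.2.2.2.2
        right_inv := by
          rintro ⟨⟨a, b⟩, ⟨c, hc⟩, ⟨d, hd⟩⟩
          rfl }
    rw [Nat.card_congr e, Nat.card_prod, Nat.card_prod, Nat.card_prod, hf, hcard]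
    ring
  have h3 : Nat.card (MonoidHom.eqLocus (sE6 P.φ) (MonoidHom.id _) ⊓ (torHom chevE6 K).ker : Subgroup (Fin 6 → Kˣ)) =
      Nat.gcd 3 (q + 1) := by
    have hd : Nat.gcd 3 (q + 1) ∣ q ^ 2 - 1 := by
      have : q ^ 2 - 1 = (q + 1) * (q - 1) := by
        have := Nat.sq_sub_sq q 1
        rwa [one_pow] at this
      rw [this]
      exact (Nat.gcd_dvd_right 3 (q + 1)).trans (dvd_mul_right _ _)
    have e : (MonoidHom.eqLocus (sE6 P.φ) (MonoidHom.id _) ⊓ (torHom chevE6 K).ker : Subgroup (Fin 6 → Kˣ)) ≃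
        {u : Kˣ // u ^ (Nat.gcd 3 (q + 1)) = 1} :=
      { toFun := fun c => ⟨c.1 0, by
          obtain ⟨h0, h1, h2, h3, h4, h5⟩ := (ker_E6 P.Q c.1).1 c.2.2
          have hf := (fixE6 _ _).1 c.2.1
          have h6 : c.1 0 ^ q = c.1 0 ^ 2 := by
            have h7 := hf.2.2.2.2.2
            rw [h5] at h7
            rw [← h7]
            apply Units.ext
            rw [Units.val_pow_eq_pow_val]
            show (c.1 0 : K) ^ q = P.φ (c.1 0)
            rw [P.hφ]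
          have h7 : c.1 0 ^ (q + 1) = 1 := by
            rw [pow_succ, h6, ← pow_succ, h0]
          exact pow_gcd_eq_one.2 ⟨h0, h7⟩⟩
        invFun := fun u => ⟨![u.1, 1, u.1 ^ 2, 1, u.1, u.1 ^ 2], by
          have h3 : u.1 ^ 3 = 1 := (pow_gcd_eq_one.1 u.2).1
          have hq1 : u.1 ^ (q + 1) = 1 := (pow_gcd_eq_one.1 u.2).2
          have h4 : Units.map (P.φ : K →* K) u.1 = u.1 ^ 2 := by
            have h5 : Units.map (P.φ : K →* K) u.1 = u.1 ^ q := by
              apply Units.ext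
              rw [Units.val_pow_eq_pow_val, ← P.hφ]; rfl
            rw [h5]
            apply mul_right_cancel (b := u.1)
            rw [← pow_succ, ← pow_succ, hq1, h3]
          have h5 : Units.map (P.φ : K →* K) (u.1 ^ 2) = u.1 := by
            rw [map_pow, h4, ← pow_mul]
            show u.1 ^ 4 = u.1
            rw [show (4 : ℕ) = 3 + 1 from rfl, pow_succ, h3, one_mul]
          refine ⟨(fixE6 _ _).2 ⟨h5, map_one _, h4, map_one _, h5, h4⟩, ?_⟩
          exact (ker_E6 P.Q _).2 ⟨h3, rfl, rfl, rfl, rfl, rfl⟩⟩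
        left_inv := by
          rintro ⟨c, hc⟩
          obtain ⟨h0, h1, h2, h3, h4, h5⟩ := (ker_E6 P.Q c).1 hc.2
          apply Subtype.ext
          funext j
          fin_cases j
          · rfl
          · exact h1.symm
          · exact h2.symm
          · exact h3.symm
          · exact h4.symm
          · exact h5.symm
        right_inv := by
          rintro ⟨u, hu⟩
          rfl }
    rw [Nat.card_congr e]
    exact card_pow_eq (by rw [hcard]; exact hd)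
  have h5 := fin3 h1 h3 h2
  have h4 : (q ^ 2 - 1) = (q - 1) * (q + 1) := by
    have := Nat.sq_sub_sq q 1
    rw [one_pow] at this
    rw [this, mul_comm]
  rw [h4] at h5
  rw [mul_comm]
  refine Eq.trans h5 ?_
  ring

end E6

/-! ### `D₄` -/

section D4

/-- Cartan matrix of `D₄` -/
def aD4 : Matrix (Fin 4) (Fin 4) ℤ := ![![2, -1, 0, 0], ![-1, 2, -1, -1], ![0, -1, 2, 0], ![0, -1, 0, 2]]
/-- normal form -/
def vD4 : Matrix (Fin 4) (Fin 4) ℤ := ![![2, 0, 0, 1], ![0, 1, 0, 0], ![0, 0, 2, 1], ![0, 0, 0, 1]]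
/-- transition matrix -/
def bD4 : Matrix (Fin 4) (Fin 4) ℤ := ![![2, 1, 1, 2], ![2, 2, 2, 3], ![1, 1, 2, 2], ![1, 1, 1, 2]]
/-- transition matrix -/
def cD4 : Matrix (Fin 4) (Fin 4) ℤ := ![![1, 0, 0, -1], ![-1, 2, -1, -1], ![0, 0, 1, -1], ![0, -1, 0, 2]]

lemma cartM_D4 : (cartM chevD4 : Matrix (Fin 4) (Fin 4) ℤ) = aD4 := by
  have h : ∀ i < 4, ∀ j < 4, chevD4.cartan i (chevD4.simple j) = lm [[2, -1, 0, 0], [-1, 2, -1, -1], [0, -1, 2, 0], [0, -1, 0, 2]] i j := by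
    decide +kernel
  ext i j
  show chevD4.cartan i (chevD4.simple j) = _
  rw [h i i.2 j j.2]
  fin_cases i <;> fin_cases j <;> rfl
lemma abD4 : aD4 * bD4 = vD4 := by decide +kernel
lemma vcD4 : vD4 * cD4 = aD4 := by decide +kernel

variable {K : Type*} [Field K]

lemma ker_D4 (Q : ChevO chevD4 K) (z : Fin 4 → Kˣ) : torHom chevD4 K z = 1 ↔
    z 0 ^ 2 = 1 ∧ z 1 = 1 ∧ z 2 ^ 2 = 1 ∧ z 0 * z 2 * z 3 = 1 := by
  have h1 : torHom chevD4 K z = 1 ↔ act (cartM chevD4) z = fun _ => 1 := tor_eq_one_iff Q z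
  have h2 : act (cartM chevD4) z = (fun _ => 1) ↔ act vD4 z = fun _ => 1 := by
    have := act_iff abD4 vcD4 z
    rw [← cartM_D4] at this
    exact this
  rw [h1, h2]
  constructor
  · intro h
    have h0 := congrFun h 0
    have h1 := congrFun h 1
    have h2 := congrFun h 2
    have h3 := congrFun h 3
    simp only [act, vD4, Fin.prod_univ_four] at h0 h1 h2 h3
    simp at h0 h1 h2 h3
    refine ⟨?_, h1, ?_, h3⟩
    · exact_mod_cast h0
    · exact_mod_cast h2
  · rintro ⟨h0, h1, h2, h3⟩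
    funext j
    fin_cases j <;> simp only [act, vD4, Fin.prod_univ_four] <;> simp [h1, h3]
    · exact_mod_cast h0
    · exact_mod_cast h2

/-- diagram symmetry as a permutation -/
def πD4 : Equiv.Perm (Fin chevD4.rank) where
  toFun i := ⟨pD4 i, (by decide +kernel : ∀ i < 4, pD4 i < 4) i i.2⟩
  invFun i := ⟨pD4 (pD4 i), (by decide +kernel : ∀ i < 4, pD4 (pD4 i) < 4) i i.2⟩
  left_inv i := Fin.ext ((by decide +kernel : ∀ i < 4, pD4 (pD4 (pD4 i)) = i) i i.2)
  right_inv i := Fin.ext ((by decide +kernel : ∀ i < 4, pD4 (pD4 (pD4 i)) = i) i i.2)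

lemma πD4_ρ (i : Fin chevD4.rank) : gD4a.ρ (chevD4.simple i) = chevD4.simple (πD4 i) :=
  (by decide +kernel : ∀ i < 4, gD4a.ρ (chevD4.simple i) = chevD4.simple (pD4 i)) i i.2

/-- the automorphism of the universal torus -/
abbrev sD4 (φ : K ≃+* K) : (Fin 4 → Kˣ) →* (Fin 4 → Kˣ) := sT (D := chevD4) πD4 (fun i => gD4a.lam (chevD4.simple i)) φ

lemma sD4_apply (φ : K ≃+* K) (c : Fin 4 → Kˣ) : sD4 φ c =
    ![Units.map (φ : K →* K) (c 3), Units.map (φ : K →* K) (c 1), Units.map (φ : K →* K) (c 0), Units.map (φ : K →* K) (c 2)] := by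
  have hl : ∀ i < 4, gD4a.lam (chevD4.simple i) = 1 := by decide +kernel
  have h : ∀ j : Fin 4, sD4 φ c j = Units.map (φ : K →* K) (c ⟨pD4 (pD4 j), (by decide +kernel : ∀ i < 4, pD4 (pD4 i) < 4) j j.2⟩) := by
    intro j
    show Units.map (φ : K →* K) (c (πD4.symm j)) ^ gD4a.lam (chevD4.simple (πD4.symm j : Fin chevD4.rank)) = _
    rw [hl _ (πD4.symm j).2, pow_one]; rfl
  funext j
  rw [h]
  fin_cases j <;> rfl

/-- fixed elements of the universal torus -/
lemma fixD4 (φ : K ≃+* K) (c : Fin 4 → Kˣ) : sD4 φ c = c ↔ (Units.map (φ : K →* K) (c 3) = c 0 ∧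
    Units.map (φ : K →* K) (c 1) = c 1 ∧ Units.map (φ : K →* K) (c 0) = c 2 ∧ Units.map (φ : K →* K) (c 2) = c 3) := by
  rw [sD4_apply]
  constructor
  · intro h
    exact ⟨congrFun h 0, congrFun h 1, congrFun h 2, congrFun h 3⟩
  · rintro ⟨h0, h1, h2, h3⟩
    funext j
    fin_cases j
    · exact h0
    · exact h1
    · exact h2
    · exact h3

lemma map_of_sq (φ : K ≃+* K) {u : Kˣ} (h : u ^ 2 = 1) : Units.map (φ : K →* K) u = u := by
  have h1 : (u : K) ^ 2 = 1 := by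
    have := congrArg Units.val h
    simpa using this
  rcases sq_eq_one_iff_of_ne_zero h1 with h2 | h2
  · apply Units.ext
    show φ (u : K) = u
    rw [h2, map_one]
  · apply Units.ext
    show φ (u : K) = u
    rw [h2, map_neg, map_one]

lemma hZ_D4 (Q : ChevO chevD4 K) (φ : K ≃+* K) (c z : Fin 4 → Kˣ) (hz : torHom chevD4 K z = 1) (h : sD4 φ c = c * z) :
    ∃ y : Fin 4 → Kˣ, torHom chevD4 K y = 1 ∧ sD4 φ (c * y) = c * y := by
  obtain ⟨h0, h1, h2, h3⟩ := (ker_D4 Q z).1 hz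
  have h33 : z 3 ^ 2 = 1 := by
    have h4 : (z 0 * z 2 * z 3) ^ 2 = 1 := by rw [h3, one_pow]
    rw [mul_pow, mul_pow, h0, h2, one_mul, one_mul] at h4
    exact h4
  have e1 : sD4 φ z = ![z 3, 1, z 0, z 2] := by
    rw [sD4_apply, map_of_sq φ h33, map_of_sq φ h0, map_of_sq φ h2, h1, map_one]
  have e2 : sD4 φ ![z 3, 1, z 0, z 2] = ![z 2, 1, z 3, z 0] := by
    rw [sD4_apply]
    show ![Units.map (φ : K →* K) (z 2), Units.map (φ : K →* K) 1, Units.map (φ : K →* K) (z 3), Units.map (φ : K →* K) (z 0)] = _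
    rw [map_of_sq φ h33, map_of_sq φ h0, map_of_sq φ h2, map_one]
  have i0 : z 0 * z 0 = 1 := by rw [← pow_two]; exact h0
  have i2 : z 2 * z 2 = 1 := by rw [← pow_two]; exact h2
  have i3 : z 3 * z 3 = 1 := by rw [← pow_two]; exact h33
  have m3 : z 0 * z 2 = z 3 := by
    have := congrArg (· * z 3) h3
    simp only [one_mul] at this
    rw [mul_assoc, i3, mul_one] at this
    exact this
  have m0 : z 2 * z 3 = z 0 := by
    have := congrArg (z 0 * ·) h3
    simp only [mul_one] at this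
    rw [mul_assoc, ← mul_assoc (z 0), i0, one_mul] at this
    exact this
  have m2 : z 3 * z 0 = z 2 := by
    rw [← m3, mul_comm (z 0), mul_assoc, i0, mul_one]
  refine ⟨![z 3, 1, z 0, z 2], (ker_D4 Q _).2 ⟨h33, rfl, h0, ?_⟩, ?_⟩
  · show z 3 * z 0 * z 2 = 1
    rw [m2, i2]
  · rw [map_mul, h, e2, mul_assoc, mul_right_inj]
    funext j
    fin_cases j
    · show z 0 * z 2 = z 3
      exact m3
    · show z 1 * 1 = 1
      rw [h1, one_mul]
    · show z 2 * z 3 = z 0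
      exact m0
    · show z 3 * z 0 = z 2
      exact m2

variable {q : ℕ}

/-- the order of the fixed torus of `³D₄` -/
theorem card_torus_D4 [Fintype K] (hq : 1 < q) (hK : Fintype.card K = q ^ 3) (P : Pk chevD4 gD4a K q) :
    Nat.card ((TD4 P).Fx ⊓ chevD4.diagonalSubgroup K : Subgroup (GL chevD4.Idx K)) = (q ^ 3 - 1) * (q - 1) := by
  rw [fx_torus gD4a_ok (Or.inl rfl) P.hγ P.φ πD4_ρ (fun c z hz h => hZ_D4 P.Q P.φ c z hz h)]
  have h1 := card_map_mul (torHom chevD4 K) (MonoidHom.eqLocus (sD4 P.φ) (MonoidHom.id _))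
  have hcard : Nat.card Kˣ = q ^ 3 - 1 := by
    classical
    rw [Nat.card_eq_fintype_card, Fintype.card_units, hK]
  have hφ3 : ∀ u : Kˣ, Units.map (P.φ : K →* K) (Units.map (P.φ : K →* K) (Units.map (P.φ : K →* K) u)) = u := by
    intro u
    apply Units.ext
    show P.φ (P.φ (P.φ (u : K))) = u
    rw [P.hφ, P.hφ, P.hφ, ← pow_mul (u : K), ← pow_two, frob3 hK]
  have h2 : Nat.card (MonoidHom.eqLocus (sD4 P.φ) (MonoidHom.id _)) = (q ^ 3 - 1) * (q - 1) := by
    have hf := card_units_fix hq (by norm_num : 0 < 3) hK P.φ P.hφ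
    have e : MonoidHom.eqLocus (sD4 P.φ) (MonoidHom.id _) ≃ Kˣ × {u : Kˣ // Units.map (P.φ : K →* K) u = u} :=
      { toFun := fun c => (c.1 0, ⟨c.1 1, ((fixD4 _ _).1 c.2).2.1⟩)
        invFun := fun x => ⟨![x.1, x.2, Units.map (P.φ : K →* K) x.1, Units.map (P.φ : K →* K) (Units.map (P.φ : K →* K) x.1)],
          (fixD4 _ _).2 ⟨hφ3 _, x.2.2, rfl, rfl⟩⟩
        left_inv := by
          rintro ⟨c, hc⟩
          have h := (fixD4 _ _).1 hc
          apply Subtype.ext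
          funext j
          fin_cases j
          · rfl
          · rfl
          · exact h.2.2.1
          · show Units.map (P.φ : K →* K) (Units.map (P.φ : K →* K) (c 0)) = c 3
            rw [h.2.2.1, h.2.2.2]
        right_inv := by
          rintro ⟨a, c, hc⟩
          rfl }
    rw [Nat.card_congr e, Nat.card_prod, hf, hcard]
  have h3 : Nat.card (MonoidHom.eqLocus (sD4 P.φ) (MonoidHom.id _) ⊓ (torHom chevD4 K).ker : Subgroup (Fin 4 → Kˣ)) = 1 := by
    rw [Subgroup.card_eq_one, Subgroup.eq_bot_iff_forall]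
    rintro z ⟨hz1, hz2⟩
    obtain ⟨h0, h1, h2, h3⟩ := (ker_D4 P.Q z).1 hz2
    obtain ⟨f0, f1, f2, f3⟩ := (fixD4 _ _).1 hz1
    rw [map_of_sq P.φ h0] at f2
    rw [map_of_sq P.φ h2] at f3
    have h4 : z 0 = 1 := by
      rw [← f3, ← f2, ← pow_two, h0, one_mul] at h3
      exact h3
    funext j
    fin_cases j
    · exact h4
    · exact h1
    · show z 2 = 1
      rw [← f2, h4]
    · show z 3 = 1
      rw [← f3, ← f2, h4]
  have h5 := fin3 h1 h3 h2
  rw [mul_one] at h5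
  exact h5

end D4

end Cfsg.Agent.Lib.ChevAlg
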