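import Cfsg.Agent.Lib.ChevTwF

/-!
# The fixed Weyl group is a Coxeter group
-/

set_option autoImplicit false

namespace Cfsg.Agent.Lib.ChevAlg

open Cfsg.Lie Cfsg.Agent.Lib.ChevTab Matrix Cfsg.Agent.Lib.Exchange

variable {D : ChevalleyDatum} {K : Type*} [Field K] {Q : ChevO D K}

lemma one_le_vec_sum (s : Fin D.nroots) (hs : ps s) : 1 ≤ ∑ l ∈ Finset.range D.rank, Q.C.vec s l := by
  by_contra hc
  have h0 : ∀ l ∈ Finset.range D.rank, 0 ≤ Q.C.vec s l := fun l hl => vec_nonneg (C := Q.C) _ s.2 hs l (Finset.mem_range.1 hl)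
  have h1 : ∑ l ∈ Finset.range D.rank, Q.C.vec s l = 0 := by
    have := Finset.sum_nonneg h0
    omega
  have h2 := (Finset.sum_eq_zero_iff_of_nonneg h0).1 h1
  have h3 := lam_pos Q.C Q.O s.2 hs
  rw [Q.O.lam_eq _ s.2] at h3
  rw [Finset.sum_eq_zero (fun l hl => by rw [h2 l hl]; ring)] at h3
  exact lt_irrefl _ h3

lemma vec_sum_simple {k : ℕ} (hk : k < D.rank) : ∑ l ∈ Finset.range D.rank, Q.C.vec (si Q k hk) l = 1 := by
  have h : ∀ l ∈ Finset.range D.rank, Q.C.vec (si Q k hk) l = if k = l then 1 else 0 :=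
    fun l hl => Q.C.vec_simple k hk l (Finset.mem_range.1 hl)
  rw [Finset.sum_congr rfl h]
  simp [hk]

/-- an element positive on `J` maps only fundamental roots of `J` to fundamental roots -/
lemma simple_of_pos_J {J : List ℕ} {w : Equiv.Perm (Fin D.nroots)} (hw : WAut Q.C w)
    (h : ∀ r : Fin D.nroots, (r : ℕ) ∈ PJ Q J → ps (w r)) {s : Fin D.nroots} (hs : (s : ℕ) ∈ PJ Q J) {k : ℕ}
    (hk : k < D.rank) (e : w s = si Q k hk) : ∃ i, ∃ hi : i < D.rank, i ∈ J ∧ s = si Q i hi := by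
  rcases Q.C.gen s s.2 hs.1.1 with ⟨i, hi, e'⟩ | ⟨i, hi, r, hr, hrp, e'⟩
  · have he : s = si Q i hi := Fin.ext e'
    refine ⟨i, hi, ?_, he⟩
    by_contra hc
    have h1 := hs.2 i hi hc
    have h2 := Q.C.vec_simple i hi i hi
    rw [if_pos rfl] at h2
    rw [he] at h1
    rw [show Q.C.vec (si Q i hi) i = 1 from h2] at h1
    norm_num at h1
  · exfalso
    have hlt : Q.C.S (D.simple i) r < D.nroots := by rw [e']; exact s.2
    have hv : ∀ l < D.rank, Q.C.vec s l = 1 * Q.C.vec (si Q i hi) l + 1 * Q.C.vec (⟨r, by omega⟩ : Fin D.nroots) l := by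
      intro l hl
      have := Q.C.vec_add (D.simple i) (Q.C.simple_lt i hi) r (by omega) hlt l hl
      rw [e'] at this
      rw [this]
      simp only [si]
      ring
    have hn1 : ∀ l < D.rank, 0 ≤ Q.C.vec (si Q i hi) l := fun l hl =>
      vec_nonneg (C := Q.C) _ (si Q i hi).2 (Q.C.simple_ge i hi) l hl
    have hn2 : ∀ l < D.rank, 0 ≤ Q.C.vec (⟨r, by omega⟩ : Fin D.nroots) l := fun l hl =>
      vec_nonneg (C := Q.C) _ (by show r < _; omega) hrp l hl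
    have h1 : ((si Q i hi : Fin D.nroots) : ℕ) ∈ PJ Q J := by
      refine ⟨⟨ps_si Q hi, (si Q i hi).2⟩, fun l hl hlJ => ?_⟩
      have h1 := hs.2 l hl hlJ
      rw [hv l hl] at h1
      have := hn2 l hl
      have := hn1 l hl
      omega
    have h2 : ((⟨r, by omega⟩ : Fin D.nroots) : ℕ) ∈ PJ Q J := by
      refine ⟨⟨hrp, by show r < _; omega⟩, fun l hl hlJ => ?_⟩
      have h1 := hs.2 l hl hlJ
      rw [hv l hl] at h1
      have := hn2 l hl
      have := hn1 l hl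
      omega
    have h3 := hw.lin _ _ _ _ _ hv
    have h4 : ∑ l ∈ Finset.range D.rank, Q.C.vec (w s) l = ∑ l ∈ Finset.range D.rank, Q.C.vec (w (si Q i hi)) l +
        ∑ l ∈ Finset.range D.rank, Q.C.vec (w ⟨r, by omega⟩) l := by
      rw [← Finset.sum_add_distrib]
      apply Finset.sum_congr rfl
      intro l hl
      rw [h3 l (Finset.mem_range.1 hl)]
      ring
    rw [e, vec_sum_simple] at h4
    have h5 := one_le_vec_sum (Q := Q) _ (h _ h1)
    have h6 := one_le_vec_sum (Q := Q) _ (h _ h2)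
    omega

/-- the fixed Weyl group as a subgroup -/
def WT (T : Tw Q) : Subgroup (Equiv.Perm (Fin D.nroots)) where
  carrier := {w | w ∈ WG Q.C2 ∧ T.ρ * w = w * T.ρ}
  one_mem' := ⟨Subgroup.one_mem _, by rw [mul_one, one_mul]⟩
  mul_mem' := fun ha hb => ⟨Subgroup.mul_mem _ ha.1 hb.1, TwJ.comm_mul ha.2 hb.2⟩
  inv_mem' := fun ha => ⟨Subgroup.inv_mem _ ha.1, TwJ.comm_inv ha.2⟩

lemma mem_WT {T : Tw Q} {w : Equiv.Perm (Fin D.nroots)} : w ∈ WT T ↔ w ∈ WG Q.C2 ∧ T.ρ * w = w * T.ρ := Iff.rfl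

namespace TwJ

variable {T : Tw Q} {ι : Type*} (H : TwJ T ι)

/-- the generators -/
def sJ (i : ι) : WT T := ⟨H.wJ i, H.mem i, H.comm i⟩

lemma sJ_sq (i : ι) : H.sJ i * H.sJ i = 1 := Subtype.ext (H.wJ_sq i)

lemma sJ_ne_one (i : ι) : H.sJ i ≠ 1 := fun h => H.ne_one i (congrArg Subtype.val h)

lemma sJ_closure : Subgroup.closure (Set.range H.sJ) = ⊤ := by
  rw [eq_top_iff]
  intro w _
  obtain ⟨w, hw⟩ := w
  have key : w ∈ (Subgroup.closure (Set.range H.sJ)).map (WT T).subtype := by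
    refine H.ind (p := fun w => w ∈ (Subgroup.closure (Set.range H.sJ)).map (WT T).subtype) (Subgroup.one_mem _) ?_ hw.1 hw.2
    intro i w _ _ _ h
    exact Subgroup.mul_mem _ h ⟨H.sJ i, Subgroup.subset_closure ⟨i, rfl⟩, rfl⟩
  obtain ⟨x, hx, e⟩ := key
  have : x = ⟨w, hw⟩ := Subtype.ext e
  rwa [← this]

/-- positivity family -/
def tPJ (i : ι) : Set (WT T) :=
  {w | ∀ r : Fin D.nroots, (r : ℕ) ∈ PJ Q (H.J i) → ps ((w : Equiv.Perm (Fin D.nroots))⁻¹ r)}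

lemma wJ_neg {i : ι} {r : Fin D.nroots} (hr : (r : ℕ) ∈ PJ Q (H.J i)) : ¬ ps (H.wJ i r) := by
  rw [← H.inv_wJ] at hr
  exact hr.2 r.2

/-- conjugating fundamental orbits -/
lemma fold {w : Equiv.Perm (Fin D.nroots)} (hw : w ∈ WG Q.C2) (hc : T.ρ * w = w * T.ρ) {i j : ι}
    (h : ∀ r : Fin D.nroots, (r : ℕ) ∈ PJ Q (H.J i) → ((w r : Fin D.nroots) : ℕ) ∈ PJ Q (H.J j)) :
    w * H.wJ i = H.wJ j * w := by
  have hwa := WG_waut Q hw
  have hw' : w⁻¹ ∈ WG Q.C2 := Subgroup.inv_mem _ hw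
  have hwa' := WG_waut Q hw'
  have hc' := comm_inv hc
  -- `w⁻¹` is positive on `j`
  obtain ⟨a, haJ, ha⟩ := H.ne i
  have h1 : ∀ r : Fin D.nroots, (r : ℕ) ∈ PJ Q (H.J j) → ps (w⁻¹ r) := by
    rcases H.dich hwa' hc' j with h1 | h1
    · exact h1
    · exfalso
      apply h1 _ (h _ (si_mem_PJ ha haJ))
      rw [perm_inv_apply]
      exact ps_si Q ha
  -- simple roots go to simple roots
  have h3 : ∀ (b : ℕ) (hb : b < D.rank), b ∈ H.J i → ∃ c, ∃ hc : c < D.rank, c ∈ H.J j ∧ w (si Q b hb) = si Q c hc := by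
    intro b hb hbJ
    exact simple_of_pos_J hwa' h1 (h _ (si_mem_PJ hb hbJ)) hb (by rw [perm_inv_apply])
  have h4 : ∀ v ∈ WJ Q (H.J i), w * v * w⁻¹ ∈ WJ Q (H.J j) := by
    intro v hv
    refine Subgroup.closure_induction (p := fun v _ => w * v * w⁻¹ ∈ WJ Q (H.J j)) ?_ ?_ ?_ ?_ hv
    · rintro _ ⟨b, hbJ, hb, rfl⟩
      obtain ⟨c, hc, hcJ, e⟩ := h3 b hb hbJ
      have h5 := conj_sr Q (i := ⟨c, hc⟩) (j := ⟨b, hb⟩) hwa e
      simp only at h5
      rw [← h5, mul_assoc, mul_inv_cancel, mul_one]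
      exact sr_mem_WJ Q hcJ hc
    · rw [mul_one, mul_inv_cancel]; exact Subgroup.one_mem _
    · intro x y _ _ hx hy
      have : w * (x * y) * w⁻¹ = (w * x * w⁻¹) * (w * y * w⁻¹) := by group
      rw [this]; exact Subgroup.mul_mem _ hx hy
    · intro x _ hx
      have : w * x⁻¹ * w⁻¹ = (w * x * w⁻¹)⁻¹ := by group
      rw [this]; exact Subgroup.inv_mem _ hx
  have h5 := H.eq_wJ (h4 _ (H.memJ i)) (comm_mul (comm_mul hc (H.comm i)) hc') (fun h => H.ne_one i (by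
    rwa [mul_inv_eq_one, mul_eq_left] at h))
  rw [← h5, mul_assoc, mul_assoc, inv_mul_cancel, mul_one]

theorem titsFamilyJ : TitsFamily H.sJ H.tPJ where
  one_mem i := by
    intro r hr
    show ps ((1 : Equiv.Perm (Fin D.nroots))⁻¹ r)
    rw [inv_one]; exact hr.1.1
  not_both i w hw := by
    intro h
    obtain ⟨a, haJ, ha⟩ := H.ne i
    have h1 := h _ (si_mem_PJ ha haJ)
    have h2 := hw _ (H.rev_mem (r := si Q a ha) (si_mem_PJ ha haJ))
    rw [(WG_waut Q w.2.1).inv.rev, ps_rev Q] at h2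
    apply h2
    have h3 : ps ((H.wJ i * (w : Equiv.Perm (Fin D.nroots)))⁻¹ (si Q a ha)) := h1
    rwa [_root_.mul_inv_rev, H.wJ_inv, Equiv.Perm.mul_apply] at h3
  fold i j w hw hw' := by
    have hwG : (w : Equiv.Perm (Fin D.nroots)) ∈ WG Q.C2 := w.2.1
    have hw1 : (w : Equiv.Perm (Fin D.nroots))⁻¹ ∈ WG Q.C2 := Subgroup.inv_mem _ hwG
    have hc1 := comm_inv w.2.2
    have h1 : ∀ r : Fin D.nroots, (r : ℕ) ∈ PJ Q (H.J i) → ¬ ps (H.wJ j ((w : Equiv.Perm (Fin D.nroots))⁻¹ r)) := by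
      have h2 := Subgroup.mul_mem _ (H.mem j) hw1
      rcases H.dich (WG_waut Q h2) (comm_mul (H.comm j) hc1) i with h3 | h3
      · exfalso
        apply hw'
        intro r hr
        show ps (((w : Equiv.Perm (Fin D.nroots)) * H.wJ j)⁻¹ r)
        rw [_root_.mul_inv_rev, H.wJ_inv]
        exact h3 r hr
      · exact h3
    have h2 : ∀ r : Fin D.nroots, (r : ℕ) ∈ PJ Q (H.J i) → (((w : Equiv.Perm (Fin D.nroots))⁻¹ r : Fin D.nroots) : ℕ) ∈ PJ Q (H.J j) := by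
      intro r hr
      rw [← H.inv_wJ]
      exact ⟨⟨hw r hr, (((w : Equiv.Perm (Fin D.nroots))⁻¹ r)).2⟩, fun _ => h1 r hr⟩
    have h3 := H.fold hw1 hc1 h2
    apply Subtype.ext
    show H.wJ i * (w : Equiv.Perm (Fin D.nroots)) = w * H.wJ j
    calc H.wJ i * (w : Equiv.Perm (Fin D.nroots)) = w * ((w : Equiv.Perm (Fin D.nroots))⁻¹ * H.wJ i) * w := by group
      _ = _ := by rw [h3]; group

include H in
/-- the fixed Weyl group is a Coxeter group -/
theorem exists_csT (hdis : ∀ i j a, a ∈ H.J i → a ∈ H.J j → i = j) (X : CoxeterMatrix ι)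
    (hX : ∀ i j : ι, orderOf (H.wJ i * H.wJ j) = X i j) : ∃ e : WT T ≃* X.Group, ∀ i : ι, e (H.sJ i) = X.simple i := by
  have hsq := H.sJ_sq
  have hgen := H.sJ_closure
  have hinj : ∀ i j, H.sJ i = H.sJ j → i = j := by
    intro i j h
    obtain ⟨a, haJ, ha⟩ := H.ne i
    have h1 : H.wJ i = H.wJ j := congrArg Subtype.val h
    have h2 : ((si Q a ha : Fin D.nroots) : ℕ) ∈ PJ Q (H.J j) := by
      rw [← H.inv_wJ, ← h1, H.inv_wJ]
      exact si_mem_PJ ha haJ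
    apply hdis i j a haJ
    by_contra hc
    have h3 := h2.2 a ha hc
    have h4 := Q.C.vec_simple a ha a ha
    rw [if_pos rfl] at h4
    rw [show Q.C.vec (si Q a ha) a = 1 from h4] at h3
    norm_num at h3
  obtain ⟨M', cs, h1, h2⟩ := Exchange.exists_coxeterSystem hsq hgen (H.titsFamilyJ.exchangeCond hsq hgen)
    (fun i j h => hinj i j h) H.sJ_ne_one
  have h3 : M' = X := by
    ext i j
    have h5 : orderOf (H.sJ i * H.sJ j) = orderOf (H.wJ i * H.wJ j) :=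
      (orderOf_injective (WT T).subtype Subtype.val_injective (H.sJ i * H.sJ j)).symm
    show M' i j = X i j
    rw [h1, h5, hX]
  subst h3
  refine ⟨cs.mulEquiv, fun i => ?_⟩
  rw [← h2 i]
  exact cs.mulEquiv.apply_symm_apply _

end TwJ

namespace TwG

variable {T : Tw Q} {ι : Type*} {H : TwJ T ι} {G1 : Subgroup (GL D.Idx K)} (A : TwG H G1)

include A in
/-- `N¹ → W¹` -/
theorem exists_toWT : ∃ ψ : ↥(D.monomialSubgroup K ⊓ G1) →* WT T, Function.Surjective ψ ∧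
    ψ.ker = (D.diagonalSubgroup K ⊓ G1).subgroupOf (D.monomialSubgroup K ⊓ G1) := by
  choose w hw u hm using fun g : ↥(D.monomialSubgroup K ⊓ G1) => monomial_mono Q g.2.1
  have hmul : ∀ a b, w (a * b) = w a * w b := fun a b => (hm (a * b)).unique Q ((hm a).mul (hm b))
  have hc : ∀ g, T.ρ * w g = w g * T.ρ := fun g => T.comm_of_fx g.2.1 (hm g) (A.le g.2.2)
  refine ⟨MonoidHom.mk' (fun g => ⟨w g, hw g, hc g⟩) (fun a b => Subtype.ext (hmul a b)), ?_, ?_⟩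
  · rintro ⟨v, hv⟩
    obtain ⟨g, hg1, hg, u', h⟩ := A.exists_n hv.1 hv.2
    exact ⟨⟨g, hg, hg1⟩, Subtype.ext ((hm _).unique Q h)⟩
  · ext g
    rw [MonoidHom.mem_ker, Subgroup.mem_subgroupOf]
    constructor
    · intro h
      have h1 : w g = 1 := congrArg Subtype.val h
      have h2 := hm g
      rw [h1] at h2
      exact ⟨mem_diagonal_of_mono Q g.2.1 h2, g.2.2⟩
    · rintro ⟨h, -⟩
      obtain ⟨χ, hχ, e⟩ := diagonal_mono Q h
      apply Subtype.ext
      have h2 := hm g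
      rw [e] at h2
      exact h2.unique Q (mono_dG hχ)

include A in
/-- `N¹ / H¹ ≅ W¹` -/
theorem exists_phiT {W : Type*} [Group W] (e : WT T ≃* W) :
    ∃ φ : ↥(D.monomialSubgroup K ⊓ G1) →* W, Function.Surjective φ ∧
      φ.ker = (D.diagonalSubgroup K ⊓ G1).subgroupOf (D.monomialSubgroup K ⊓ G1) := by
  obtain ⟨ψ, h1, h2⟩ := A.exists_toWT
  refine ⟨e.toMonoidHom.comp ψ, e.surjective.comp h1, ?_⟩
  rw [← h2]
  ext g
  rw [MonoidHom.mem_ker, MonoidHom.mem_ker]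
  exact e.map_eq_one_iff

end TwG

section mk

variable {T : Tw Q} {ρ : ℕ → ℕ} (hρ : ∀ r : Fin D.nroots, ((T.ρ r : Fin D.nroots) : ℕ) = ρ r) {n : ℕ} {J wd : ℕ → List ℕ}
    (h : JD D ρ n J wd)

/-- orders of products of two generators -/
lemma orderOf_mkTwJ {i j : Fin n} {m : ℕ} (hm : WordOrd D (wd i ++ wd j) m) :
    orderOf ((mkTwJ hρ h).wJ i * (mkTwJ hρ h).wJ j) = m := by
  show orderOf (ww Q (fl D (wd i)) * ww Q (fl D (wd j))) = m
  rw [← ww_append]
  apply orderOf_ww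
  rw [List.map_append, fl_map (fun a ha => h.lt i i.2 a (h.sub i i.2 a ha)), fl_map (fun a ha => h.lt j j.2 a (h.sub j j.2 a ha))]
  exact hm

end mk

end Cfsg.Agent.Lib.ChevAlg
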