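import Cfsg.Agent.Lib.ChevTwH
import Cfsg.Agent.Lib.ChevTwI

/-!
# Assembly for commuting classes
-/

set_option autoImplicit false

namespace Cfsg.Agent.Lib.ChevAlg

open Cfsg.Lie Cfsg.Agent.Lib.ChevTab Matrix

variable {D : ChevalleyDatum} {K : Type*} [Field K] {Q : ChevO D K}

lemma exists_w0T (T : Tw Q) : ∃ w ∈ WG Q.C2, T.ρ * w = w * T.ρ ∧ Inv w = Pos D ∧ ninv w = D.nroots / 2 := by
  obtain ⟨n, hn, w, hw, v, hm, h0⟩ := exists_w0 (Q := Q)
  refine ⟨w, hw, w0_comm T hw h0, inv_w0 h0, ?_⟩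
  rw [← length_lst_inv, inv_w0 h0, length_lst_pos Q]

namespace TwG

variable {T : Tw Q} {ι : Type*} {H : TwJ T ι} {G1 : Subgroup (GL D.Idx K)} (A : TwG H G1)

include A in
theorem card_FX_pos {c e : ℕ} (h : ∀ i, Nat.card (T.FX (PJ Q (H.J i))) ^ e = c ^ ninv (H.wJ i)) :
    Nat.card (T.FX (Pos D)) ^ e = c ^ (D.nroots / 2) := by
  obtain ⟨w, hw, hc, h1, h2⟩ := exists_w0T T
  rw [← h1, ← h2]
  exact A.card_FX h hw hc

open Classical in
include A in
theorem card_total [Finite K] (hT : T.Fx ⊓ D.diagonalSubgroup K ≤ G1) {c : ℕ}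
    (h : ∀ i, Nat.card (T.FX (PJ Q (H.J i))) = c ^ ninv (H.wJ i)) {J : List ℕ} (hJ : ∀ i < D.rank, i ∈ J) :
    (Nat.card G1 : ℤ) = (c : ℤ) ^ (D.nroots / 2) *
      Nat.card (T.Fx ⊓ D.diagonalSubgroup K : Subgroup (GL D.Idx K)) * wsumT T J c := by
  have h1 : ∀ i, Nat.card (T.FX (PJ Q (H.J i))) ^ 1 = c ^ ninv (H.wJ i) := fun i => by rw [pow_one]; exact h i
  have h2 := A.card_FX_pos h1
  rw [pow_one] at h2
  rw [A.card_sum hT, h2]
  push_cast
  congr 1
  rw [wsumT]
  symm
  refine Finset.sum_congr ?_ ?_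
  · ext w
    rw [mem_Wr, Finset.mem_filter, WJ_top Q hJ]
    simp only [Finset.mem_univ, true_and]
  intro w hw
  rw [mem_Wr] at hw
  have h4 := A.card_FX h1 hw.1 hw.2
  rw [pow_one] at h4
  rw [h4]
  push_cast
  rfl

/-- the group generated by the classes is perfect when the classes are commutators -/
lemma neg_CG (h : ∀ i, T.FX (PJ Q (H.J i)) ≤ CG G1) (A : TwG H G1) (i : ι) : T.FX (NJ Q (H.J i)) ≤ CG G1 := CG_neg A (h i)

end TwG

section all

variable {G : GDat} (hG : G.Ok D) (hcp : ChP K G.p) {γ : MulAut ↥(D.group K)}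
    (hγ : ∀ r < D.nroots, ∀ t, γ (xg Q r t) = Yg Q G r t) (φ : K ≃+* K)
  {n : ℕ} {J : ℕ → List ℕ} {π : ℕ → ℕ} (C : CD D G n J π) {G1 : Subgroup (GL D.Idx K)}

include C in
lemma CD.card_PJ (hS : SuppD Q.C) {i : ℕ} (hi : i < n) {X : Type*} (p : X → ℕ → K) (hp : ∀ x, ∀ a ∈ J i, p x (π a) = φ (p x a))
    (hinj : ∀ x x', (∀ a ∈ J i, p x a = p x' a) → x = x')
    (hsurj : ∀ t : ℕ → K, (∀ a ∈ J i, t (π a) = φ (t a)) → ∃ x, ∀ a ∈ J i, p x a = t a) :
    Nat.card ((mkTw Q hG hcp hγ φ).FX (PJ Q (J i))) = Nat.card X := by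
  have hlt := (C.com i hi).lt
  apply (C.com i hi).card_FX hG hcp hγ φ (C.perm i hi) (fun a ha => C.hπ a (hlt a ha)) (fun a ha => C.eps a (hlt a ha)) hS p
  · intro x a ha
    rw [C.lam a (hlt a ha), pow_one]
    exact hp x a ha
  · exact hinj
  · intro t ht
    apply hsurj
    intro a ha
    have := ht a ha
    rwa [C.lam a (hlt a ha), pow_one] at this

include C in
lemma CD.card_one (hS : SuppD Q.C) {i : ℕ} (hi : i < n) {a : ℕ} (hJ : J i = [a]) :
    Nat.card ((mkTw Q hG hcp hγ φ).FX (PJ Q (J i))) = Nat.card {t : K // φ t = t} := by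
  have hπ : π a = a := by
    have := C.perm i hi
    rw [hJ, List.map_singleton, List.singleton_perm_singleton] at this
    exact this
  apply C.card_PJ hG hcp hγ φ hS hi (fun (x : {t : K // φ t = t}) _ => (x : K))
  · intro x b _
    exact x.2.symm
  · intro x x' h
    exact Subtype.ext (h a (by rw [hJ]; simp))
  · intro t ht
    refine ⟨⟨t a, ?_⟩, ?_⟩
    · have := ht a (by rw [hJ]; simp)
      rw [hπ] at this
      exact this.symm
    · intro b hb
      rw [hJ, List.mem_singleton] at hb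
      subst hb
      rfl

include C in
lemma CD.card_two (hS : SuppD Q.C) {i : ℕ} (hi : i < n) {a b : ℕ} (hJ : J i = [a, b]) (h1 : π a = b) (h2 : π b = a) (hab : b ≠ a)
    (hφ : ∀ t, φ (φ t) = t) : Nat.card ((mkTw Q hG hcp hγ φ).FX (PJ Q (J i))) = Nat.card K := by
  apply C.card_PJ hG hcp hγ φ hS hi (fun (x : K) c => if c = a then x else φ x)
  · intro x c hc
    rw [hJ] at hc
    simp only [List.mem_cons, List.not_mem_nil, or_false] at hc
    rcases hc with rfl | rfl
    · simp [h1, hab]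
    · simp [h2, hab, hφ]
  · intro x x' h
    simpa using h a (by rw [hJ]; simp)
  · intro t ht
    refine ⟨t a, fun c hc => ?_⟩
    have h3 := ht a (by rw [hJ]; simp)
    rw [h1] at h3
    rw [hJ] at hc
    simp only [List.mem_cons, List.not_mem_nil, or_false] at hc
    rcases hc with rfl | rfl
    · simp
    · simp [hab, h3]

include C in
lemma CD.card_three (hS : SuppD Q.C) {i : ℕ} (hi : i < n) {a b c : ℕ} (hJ : J i = [a, b, c]) (h1 : π a = b) (h2 : π b = c)
    (h3 : π c = a) (hab : b ≠ a) (hac : c ≠ a) (hbc : c ≠ b)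
    (hφ : ∀ t, φ (φ (φ t)) = t) : Nat.card ((mkTw Q hG hcp hγ φ).FX (PJ Q (J i))) = Nat.card K := by
  apply C.card_PJ hG hcp hγ φ hS hi (fun (x : K) d => if d = a then x else if d = b then φ x else φ (φ x))
  · intro x d hd
    rw [hJ] at hd
    simp only [List.mem_cons, List.not_mem_nil, or_false] at hd
    rcases hd with rfl | rfl | rfl
    · simp [h1, hab]
    · simp [h2, hab, hac, hbc]
    · simp [h3, hac, hbc, hφ]
  · intro x x' h
    simpa using h a (by rw [hJ]; simp)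
  · intro t ht
    refine ⟨t a, fun d hd => ?_⟩
    have h4 := ht a (by rw [hJ]; simp)
    have h5 := ht b (by rw [hJ]; simp)
    rw [h1] at h4
    rw [h2] at h5
    rw [hJ] at hd
    simp only [List.mem_cons, List.not_mem_nil, or_false] at hd
    rcases hd with rfl | rfl | rfl
    · simp
    · simp [hab, h4]
    · simp [hac, hbc, h4, h5]

include C in
/-- classes with large tori consist of commutators -/
theorem CD.big_le [Finite K] (hS : SuppD Q.C) {i : ℕ} (hi : i < n)
    (hc : ∀ a ∈ J i, ∀ b ∈ J i, a ≠ b → D.cartan a (D.simple b) = 0) (hF : (mkTw Q hG hcp hγ φ).Fx ≤ G1)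
    {u : ℕ → Kˣ} (hu : ∀ a ∈ J i, (u (π a) : K) = φ (u a)) (hne : ∀ a ∈ J i, u a ^ 2 ≠ 1) :
    (mkTw Q hG hcp hγ φ).FX (PJ Q (J i)) ≤ CG G1 := by
  have hlt := (C.com i hi).lt
  set T := mkTw Q hG hcp hγ φ with hTdef
  have h1 : ((J i).map fun a => dG D (cp D (D.simple a) (u a))).prod ∈ T.Fx := by
    apply (C.com i hi).h_mem φ (C.perm i hi) (fun a ha => C.hπ a (hlt a ha)) (fun a ha => C.eps a (hlt a ha)) (Q := Q)
    · intro t ht
      rw [C.fix_iff hG hcp hγ φ hS hi]
      intro a ha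
      have := ht a ha
      rwa [C.lam a (hlt a ha), pow_one] at this
    · intro t ht
      apply C.fixN hG hcp hγ φ hi
      intro a ha
      have := ht a ha
      rwa [C.lam a (hlt a ha), pow_one] at this
    · intro a ha
      rw [C.lam a (hlt a ha), pow_one]
    · intro a ha
      rw [C.lam a (hlt a ha), pow_one]
      exact hu a ha
  rw [dG_list] at h1
  intro y hy
  have hχ : IsChar Q.C (fun s => ((J i).map fun a => cp D (D.simple a) (u a) s).prod) := by
    have : ∀ l : List ℕ, IsChar Q.C (fun s => (l.map fun a => cp D (D.simple a) (u a) s).prod) := by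
      intro l
      induction l with
      | nil => exact ⟨fun _ _ _ _ _ => by simp, fun _ _ => by simp⟩
      | cons a l ih =>
        have := isChar_mul Q (isChar_cp Q.C (D.simple a) (u a)) ih
        exact this
    exact this _
  have hPJ : PJ Q (J i) ⊆ Pos D := PJ_sub _
  have hne' : ∀ r ∈ PJ Q (J i), ((J i).map fun a => cp D (D.simple a) (u a) r).prod ≠ 1 := by
    intro r hr h
    obtain ⟨b, hb, rfl⟩ := ((C.com i hi).mem_PJ hS).1 hr
    apply hne b hb
    rw [← h]
    have h3 : ((J i).map fun a => cp D (D.simple a) (u a) (D.simple b)) = (J i).map fun a => if a = b then u b ^ 2 else 1 := by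
      apply List.map_congr_left
      intro a ha
      rw [cp, pairD_simple Q.C (hlt a ha)]
      split_ifs with hab
      · subst hab
        have h4 : D.cartan a (D.simple a) = 2 := by
          rw [← pairD_simple Q.C (hlt a ha)]
          exact Q.C.pair_self _ (Q.C.simple_lt a (hlt a ha))
        rw [h4]
        norm_cast
      · rw [hc a ha b hb hab, zpow_zero]
    rw [h3, List.prod_map_ite_eq]
    rw [List.count_eq_one_of_mem (C.com i hi).nd hb, pow_one]
    simp
  obtain ⟨z, hz, e⟩ := torus_surj (Q := Q) (T := T) hPJ ((C.H hG hcp hγ φ).PJ_clos ⟨i, hi⟩) hχ h1 hne' hy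
  rw [e]
  exact CG_comm (hF h1) (hF hz.1)

/-- fixed roots that are sums of fixed roots consist of commutators -/
theorem fix_comm {r s k : ℕ} {c : ℤ} (hr : r < D.nroots) (hs : s < D.nroots) (hsr : s ≠ r) (hsr' : s ≠ D.nroots - 1 - r)
    (hk : D.commTerms r s = [(k, c, 1, 1)]) (hc : c = 1 ∨ c = -1)
    (h1 : G.ρ r = r ∧ G.eps r = 1 ∧ G.lam r = 1) (h2 : G.ρ s = s ∧ G.eps s = 1 ∧ G.lam s = 1)
    (hF : (mkTw Q hG hcp hγ φ).Fx ≤ G1) {t : K} (ht : φ t = t) : xG Q k t ∈ CG G1 := by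
  have hfix : ∀ {r : ℕ}, r < D.nroots → (G.ρ r = r ∧ G.eps r = 1 ∧ G.lam r = 1) → ∀ {t : K}, φ t = t → xG Q r t ∈ G1 := by
    intro r hr h t ht
    apply hF
    refine ⟨xG_mem_group Q _ _, ?_⟩
    rw [mkTw_x hG hcp hγ φ hr, h.1, h.2.1, h.2.2, ht]
    simp
  have h3 := Q.comm r s hr hs hsr (by rw [neg_eq' Q hr]; exact hsr') (-(c : K) * t) 1
  rw [ChevalleyDatum.commWord, hk] at h3
  simp only [List.map_cons, List.map_nil] at h3
  have hcc : (c : K) * (c : K) = 1 := by rcases hc with rfl | rfl <;> simp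
  have h4 : (c : K) * (-(-(c : K) * t)) ^ 1 * 1 ^ 1 = t := by
    rw [pow_one, pow_one, mul_one, neg_mul, neg_neg, ← mul_assoc, hcc, one_mul]
  have h7 : xG Q s 1 * xG Q r (-(c : K) * t) = xG Q r (-(c : K) * t) * xG Q s 1 * xG Q k t := by
    apply Units.ext
    rw [h4] at h3
    have h8 : D.wordMat K [(k, t)] = D.x K k t := by
      simp [ChevalleyDatum.wordMat]
    rw [h8] at h3
    exact h3
  have h5 : xG Q k t = (xG Q s 1)⁻¹ * (xG Q r (-(c : K) * t))⁻¹ * xG Q s 1 * xG Q r (-(c : K) * t) := by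
    rw [mul_assoc _ (xG Q s 1), h7]
    group
  rw [h5]
  have hcφ : φ (-(c : K) * t) = -(c : K) * t := by
    rw [map_mul, map_neg, map_intCast, ht]
  have h6 := CG_comm (G1 := G1) (Subgroup.inv_mem _ (hfix hs h2 (map_one φ))) (Subgroup.inv_mem _ (hfix hr h1 hcφ))
  rwa [inv_inv, inv_inv] at h6

end all

end Cfsg.Agent.Lib.ChevAlg
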