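import Cfsg.Agent.Lib.ChevTwE6d
import Cfsg.Agent.Lib.ChevTwJ

/-!
# The groups `²E₆(q)` and `³D₄(q)`
-/

set_option autoImplicit false

namespace Cfsg.Agent.Lib.ChevAlg

open Cfsg.Lie Cfsg.Agent.Lib.ChevTab Matrix

lemma path_conn {n : ℕ} {R : Fin n → Fin n → Prop} (hs : ∀ i j, R i j → R j i)
    (h : ∀ (i : ℕ) (hi : i + 1 < n), R ⟨i, by omega⟩ ⟨i + 1, hi⟩) (S : Set (Fin n)) (h1 : S.Nonempty) (h2 : Sᶜ.Nonempty) :
    ∃ i ∈ S, ∃ j ∈ Sᶜ, R i j := by
  by_contra hc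
  push Not at hc
  have key : ∀ (i : ℕ) (hi : i < n), (⟨i, hi⟩ : Fin n) ∈ S ↔ (⟨0, by omega⟩ : Fin n) ∈ S := by
    intro i
    induction i with
    | zero => intro hi; exact Iff.rfl
    | succ i ih =>
      intro hi
      rw [← ih (by omega)]
      constructor
      · intro h3
        by_contra h4
        exact hc _ h3 _ h4 (hs _ _ (h i hi))
      · intro h3
        by_contra h4
        exact hc _ h3 _ h4 (h i hi)
  obtain ⟨a, ha⟩ := h1
  obtain ⟨b, hb⟩ := h2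
  exact hb ((key b b.2).2 ((key a a.2).1 ha))

lemma noncomm_of_order {W : Type*} [Group W] {a b : W} {m : ℕ} (h : orderOf (a * b) = m) (hm : 2 < m) (ha : a * a = 1)
    (hb : b * b = 1) : a * b ≠ b * a := by
  intro hc
  have h1 : (a * b) ^ 2 = 1 := by
    rw [pow_two]
    calc a * b * (a * b) = a * (b * a) * b := by group
      _ = a * (a * b) * b := by rw [← hc]
      _ = (a * a) * (b * b) := by group
      _ = 1 := by rw [ha, hb, mul_one]
  have h2 := orderOf_dvd_of_pow_eq_one h1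
  rw [h] at h2
  have := Nat.le_of_dvd (by norm_num) h2
  omega

lemma exists_unit_sq_ne {K : Type*} [Field K] [Fintype K] (h : 3 < Fintype.card K) : ∃ u : Kˣ, u ^ 2 ≠ 1 := by
  classical
  by_contra hc
  push Not at hc
  have h1 : (Finset.univ : Finset K) ⊆ {0, 1, -1} := by
    intro x _
    by_cases hx : x = 0
    · simp [hx]
    · have h2 := congrArg Units.val (hc (Units.mk0 x hx))
      simp only [Units.val_pow_eq_pow_val, Units.val_mk0, Units.val_one] at h2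
      rcases sq_eq_one_iff_of_ne_zero h2 with h3 | h3 <;> simp [h3]
  have h2 := Finset.card_le_card h1
  have h3 := Finset.card_le_three (a := (0 : K)) (b := 1) (c := -1)
  rw [Finset.card_univ] at h2
  omega

/-! ### `E₆` -/

section E6

variable {K : Type*} [Field K] {q : ℕ} (P : Pk chevE6 gE6 K q)

/-- the words lie in every group containing the classes -/
lemma e6_gen [Fintype K] (hK : Fintype.card K = q ^ 2) {H : Subgroup (GL chevE6.Idx K)}
    (h1' : ∀ i < 4, ∀ t : ℕ → K, (∀ a ∈ jE6 i, t (pE6 a) = P.φ (t a)) → yP P.Q (jE6 i) t ∈ H)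
    (h2' : ∀ i < 4, ∀ t : ℕ → K, (∀ a ∈ jE6 i, t (pE6 a) = P.φ (t a)) → yN P.Q (jE6 i) t ∈ H) : twistedE6 K q ≤ H := by
  obtain ⟨h0, h1, h2, h3, h4, h5⟩ := e6_simple
  have hn : chevE6.nroots = 72 := rfl
  apply gen_le P.Q
  rintro w (⟨t, ht, r, hr, rfl⟩ | ⟨t, rs, hrs, rfl⟩)
  · simp only [List.mem_cons, List.not_mem_nil, or_false] at hr
    have hc1 : ∀ a ∈ jE6 0, (fun _ : ℕ => t) (pE6 a) = P.φ ((fun _ : ℕ => t) a) := fun a _ => by rw [P.hφ]; exact ht.symm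
    have hc3 : ∀ a ∈ jE6 1, (fun _ : ℕ => t) (pE6 a) = P.φ ((fun _ : ℕ => t) a) := fun a _ => by rw [P.hφ]; exact ht.symm
    rcases hr with rfl | rfl | rfl | rfl
    · have := h1' 0 (by norm_num : 0 < 4) (fun _ => t) hc1
      simpa [yP, wG, jE6, h1, e6p2] using this
    · have := h2' 0 (by norm_num : 0 < 4) (fun _ => t) hc1
      simpa [yN, wG, jE6, h1, e6m2, hn] using this
    · have := h1' 1 (by norm_num : 1 < 4) (fun _ => t) hc3
      simpa [yP, wG, jE6, h3, e6p4] using this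
    · have := h2' 1 (by norm_num : 1 < 4) (fun _ => t) hc3
      simpa [yN, wG, jE6, h3, e6m4, hn] using this
  · simp only [List.mem_cons, List.not_mem_nil, or_false] at hrs
    have hc2 : ∀ a ∈ jE6 2, (fun a : ℕ => if a = 2 then t else t ^ q) (pE6 a) = P.φ ((fun a : ℕ => if a = 2 then t else t ^ q) a) := by
      intro a ha
      have : a = 2 ∨ a = 4 := by simpa [jE6] using ha
      rcases this with rfl | rfl
      · simp [pE6, P.hφ]
      · simp [pE6, P.hφ, frob2 hK]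
    have hc0 : ∀ a ∈ jE6 3, (fun a : ℕ => if a = 0 then t else t ^ q) (pE6 a) = P.φ ((fun a : ℕ => if a = 0 then t else t ^ q) a) := by
      intro a ha
      have : a = 0 ∨ a = 5 := by simpa [jE6] using ha
      rcases this with rfl | rfl
      · simp [pE6, P.hφ]
      · simp [pE6, P.hφ, frob2 hK]
    rcases hrs with rfl | rfl | rfl | rfl
    · have := h1' 3 (by norm_num : 3 < 4) (fun a : ℕ => if a = 0 then t else t ^ q) hc0
      simpa [yP, wG, jE6, h0, h5, e6p1, e6p6] using this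
    · have := h2' 3 (by norm_num : 3 < 4) (fun a : ℕ => if a = 0 then t else t ^ q) hc0
      simpa [yN, wG, jE6, h0, h5, e6m1, e6m6, hn] using this
    · have := h1' 2 (by norm_num : 2 < 4) (fun a : ℕ => if a = 2 then t else t ^ q) hc2
      simpa [yP, wG, jE6, h2, h4, e6p3, e6p5] using this
    · have := h2' 2 (by norm_num : 2 < 4) (fun a : ℕ => if a = 2 then t else t ^ q) hc2
      simpa [yN, wG, jE6, h2, h4, e6m3, e6m5, hn] using this

variable [Fintype K] (hK : Fintype.card K = q ^ 2)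

include hK in
lemma e6_torus_le : (TE6 P).Fx ⊓ chevE6.diagonalSubgroup K ≤ twistedE6 K q := by
  rw [fx_torus gE6_ok (Or.inl rfl) P.hγ P.φ πE6_ρ (fun c z hz h => hZ_E6 hK P.Q P.φ P.hφ c z hz h)]
  rintro _ ⟨c, hc, rfl⟩
  exact cdE6.torus_le P.φ (e6_w1 P) (e6_w2 P) (πp := πE6) (fun _ => rfl) hc

include hK in
theorem e6_eq : twistedE6 K q = (TE6 P).Fx := (e6_twG P hK).eq_Fx (e6_torus_le P hK)

include P hK in
theorem e6_card_H (hq : 1 < q) : Nat.gcd 3 (q + 1) * Nat.card ↥(chevE6.diagonalSubgroup K ⊓ twistedE6 K q) =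
    (q - 1) ^ 4 * (q + 1) ^ 2 := by
  rw [e6_eq P hK, inf_comm]
  exact card_torus_E6 hq hK P

lemma φ2 {q : ℕ} (hK : Fintype.card K = q ^ 2) {φ : K ≃+* K} (hφ : ∀ t, φ t = t ^ q) (t : K) : φ (φ t) = t := by
  rw [hφ, hφ, frob2 hK]

include hK in
lemma e6_card_PJ (hq : 1 < q) (i : Fin 4) : Nat.card ((TE6 P).FX (PJ P.Q ((HE6 P).J i))) = q ^ ninv ((HE6 P).wJ i) := by
  have hn : ninv ((HE6 P).wJ i) = (jE6 i).length := (comE6 i i.2).ninv P.hS (HE6 P) rfl
  rw [hn]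
  have hfix : Nat.card {t : K // P.φ t = t} = q := by
    have := card_frob_fix hq (by norm_num : 0 < 2) hK
    exact Eq.trans (Nat.card_congr (Equiv.subtypeEquivRight (fun t => by rw [P.hφ]))) this
  have hcard : Nat.card K = q ^ 2 := by rw [Nat.card_eq_fintype_card, hK]
  fin_cases i
  · exact (cdE6.card_one gE6_ok (Or.inl rfl) P.hγ P.φ P.hS (i := 0) (by norm_num) (a := 1) rfl).trans (hfix.trans (pow_one q).symm)
  · exact (cdE6.card_one gE6_ok (Or.inl rfl) P.hγ P.φ P.hS (i := 1) (by norm_num) (a := 3) rfl).trans (hfix.trans (pow_one q).symm)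
  · exact (cdE6.card_two gE6_ok (Or.inl rfl) P.hγ P.φ P.hS (i := 2) (by norm_num) (a := 2) (b := 4) rfl rfl rfl (by norm_num)
      (φ2 hK P.hφ)).trans hcard
  · exact (cdE6.card_two gE6_ok (Or.inl rfl) P.hγ P.φ P.hS (i := 3) (by norm_num) (a := 0) (b := 5) rfl rfl rfl (by norm_num)
      (φ2 hK P.hφ)).trans hcard

include P hK in
theorem e6_card_U (hq : 1 < q) : Nat.card ↥(chevE6.posUnipotent K ⊓ twistedE6 K q) = q ^ 36 := by
  have h1 := (e6_twG P hK).card_FX_pos (c := q) (e := 1) (fun i => by rw [pow_one]; exact e6_card_PJ P hK hq i)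
  rw [pow_one] at h1
  rw [e6_eq P hK, posUnipotent_eq P.Q, inf_comm]
  exact h1

lemma e6_wsum (Q : Pk chevE6 gE6 K q) (c : ℤ) : wsumT (TE6 Q) [0, 1, 2, 3, 4, 5] c =
    evN c [1, 1, 1, 0, 1, 1, 2, 1, 1, 1, 2, 2, 1, 1, 1, 2, 1, 1, 0, 1, 1, 1] *
      (evN c [1, 0, 1, 0, 1, 1, 0, 1, 0, 1] * (evN c [1, 0, 1, 1, 0, 1] * (1 + c))) := by
  have La := levT_of gE6_ok (Or.inl rfl) Q.hγ Q.φ cdE6 Q.hS levE6a (by decide +kernel) (by decide +kernel) stepE6a
  have Lb := levT_of gE6_ok (Or.inl rfl) Q.hγ Q.φ cdE6 Q.hS levE6b (by decide +kernel) (by decide +kernel) stepE6b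
  have Lc := levT_of gE6_ok (Or.inl rfl) Q.hγ Q.φ cdE6 Q.hS levE6c (by decide +kernel) (by decide +kernel) stepE6c
  have hs : ∀ dist : ℕ → ℕ, (∑ γ : Fin chevE6.nroots, if dist γ = 0 ∨ (TE6 Q).ρ γ ≠ γ then 0 else c ^ (dist γ - 1)) =
      ∑ g ∈ Finset.range chevE6.nroots, if dist g = 0 ∨ gE6.ρ g ≠ g then 0 else c ^ (dist g - 1) := by
    intro dist
    rw [← Fin.sum_univ_eq_sum_range (fun g => if dist g = 0 ∨ gE6.ρ g ≠ g then (0 : ℤ) else c ^ (dist g - 1))]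
    apply Finset.sum_congr rfl
    intro g _
    have : (TE6 Q).ρ g ≠ g ↔ gE6.ρ g ≠ g := by
      rw [Ne, Ne, ← Fin.val_inj]; rfl
    simp only [this]
  rw [wsumT_lev Q.hS La, hs, sumE6a, wsumT_lev Q.hS Lb, hs, sumE6b, wsumT_lev Q.hS Lc, hs, sumE6c]
  have h1 : wsumT (TE6 Q) ((HE6 Q).J 1) c = 1 + c ^ ninv ((HE6 Q).wJ 1) := wsumT_single (HE6 Q) 1 c
  have h2 : ninv ((HE6 Q).wJ 1) = 1 := (comE6 1 (by norm_num)).ninv Q.hS (HE6 Q) rfl
  rw [h2, pow_one] at h1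
  have h3 : wsumT (TE6 Q) [3] c = 1 + c := h1
  rw [h3]

include P hK in
theorem e6_card (hq : 1 < q) : Nat.gcd 3 (q + 1) * Nat.card ↥(twistedE6 K q) =
      q ^ 36 * (q ^ 2 - 1) * (q ^ 5 + 1) * (q ^ 6 - 1) * (q ^ 8 - 1) * (q ^ 9 + 1) * (q ^ 12 - 1) := by
  have h1 := (e6_twG P hK).card_total (e6_torus_le P hK) (c := q) (fun i => e6_card_PJ P hK hq i) (J := [0, 1, 2, 3, 4, 5])
    (by decide +kernel)
  have h2 := card_torus_E6 hq hK P
  rw [e6_wsum] at h1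
  have hn : chevE6.nroots / 2 = 36 := rfl
  rw [hn] at h1
  have hq1 : 1 ≤ q := hq.le
  have hpow : ∀ n, 1 ≤ q ^ n := fun n => Nat.one_le_pow _ _ (by omega)
  zify [hq1, hpow] at h2 ⊢
  rw [h1]
  simp only [evN, Nat.cast_ofNat, Nat.cast_one, Nat.cast_zero]
  linear_combination ((q : ℤ) ^ 36 * ((1 + (q : ℤ) * (1 + q * (1 + q * (0 + q * (1 + q * (1 + q * (2 + q * (1 + q * (1 + q * (1 + q * (2 + q * (2 + q * (1 + q * (1 + q * (1 + q * (2 + q * (1 + q * (1 + q * (0 + q * (1 + q * (1 + q * (1 + q * 0)))))))))))))))))))))) *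
    ((1 + q * (0 + q * (1 + q * (0 + q * (1 + q * (1 + q * (0 + q * (1 + q * (0 + q * (1 + q * 0)))))))))) * ((1 + q * (0 + q * (1 + q * (1 + q * (0 + q * (1 + q * 0)))))) * (1 + q)))) ) * h2

lemma dis_E6 (P : Pk chevE6 gE6 K q) : ∀ (i j : Fin 4) a, a ∈ (HE6 P).J i → a ∈ (HE6 P).J j → i = j :=
  fun i j a hi hj => Fin.ext (jdE6.dis i i.2 j j.2 a hi hj)

/-- Coxeter matrix of type `F₄` as a function -/
def mF4 (i j : ℕ) : ℕ := ([[1, 3, 2, 2], [3, 1, 4, 2], [2, 4, 1, 3], [2, 2, 3, 1]].getD i []).getD j 0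

lemma word_E6 (i j : Fin 4) : WordOrd chevE6 (jE6 i ++ jE6 j) (mF4 i j) where
  pos := (by decide +kernel : ∀ i < 4, ∀ j < 4, 0 < mF4 i j) i i.2 j j.2
  fix := (by decide +kernel : ∀ i < 4, ∀ j < 4, ∀ k < chevE6.rank, iter (wapp chevE6 (jE6 i ++ jE6 j)) (mF4 i j) (chevE6.simple k) =
    chevE6.simple k) i i.2 j j.2
  move t ht h0 := ((by decide +kernel : ∀ i < 4, ∀ j < 4, ∀ t < mF4 i j, t = 0 ∨ ∃ k < chevE6.rank,
    iter (wapp chevE6 (jE6 i ++ jE6 j)) t (chevE6.simple k) ≠ chevE6.simple k) i i.2 j j.2 t ht).resolve_left (by omega)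

lemma ord_E6 (P : Pk chevE6 gE6 K q) (i j : Fin 4) : orderOf ((HE6 P).wJ i * (HE6 P).wJ j) = mF4 i j :=
  orderOf_mkTwJ _ _ (word_E6 i j)

lemma con_E6 (P : Pk chevE6 gE6 K q) (S : Set (Fin 4)) (h1 : S.Nonempty) (h2 : Sᶜ.Nonempty) :
    ∃ i ∈ S, ∃ j ∈ Sᶜ, (HE6 P).wJ i * (HE6 P).wJ j ≠ (HE6 P).wJ j * (HE6 P).wJ i := by
  apply path_conn (R := fun i j => (HE6 P).wJ i * (HE6 P).wJ j ≠ (HE6 P).wJ j * (HE6 P).wJ i) (fun i j h => h.symm) _ S h1 h2
  intro i hi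
  apply noncomm_of_order (ord_E6 P _ _) _ ((HE6 P).wJ_sq _) ((HE6 P).wJ_sq _)
  exact (by decide +kernel : ∀ i < 3, 2 < mF4 i (i + 1)) i (by omega)

include P hK in
theorem e6_bn : ∃ B : Cfsg.BNPair ↥(twistedE6 K q),
      B.B = (chevE6.borelSubgroup K ⊓ twistedE6 K q).subgroupOf (twistedE6 K q) ∧
      B.N = (chevE6.monomialSubgroup K ⊓ twistedE6 K q).subgroupOf (twistedE6 K q) :=
  ⟨(e6_twG P hK).bnT (e6_torus_le P hK) (dis_E6 P), rfl, rfl⟩

include P hK in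
theorem e6_core : ((chevE6.borelSubgroup K ⊓ twistedE6 K q).subgroupOf (twistedE6 K q)).normalCore = ⊥ :=
  (e6_twG P hK).core (dis_E6 P) (cdE6.full gE6_ok (Or.inl rfl) P.hγ P.φ P.hS)

include P hK in
theorem e6_perf (hq : 1 < q) : commutator ↥(twistedE6 K q) = ⊤ := by
  apply top_of_CG
  have hF : (TE6 P).Fx ≤ twistedE6 K q := (e6_eq P hK).ge
  have A := e6_twG P hK
  obtain ⟨h0, h1, h2, h3, h4, h5⟩ := e6_simple
  have hφ2 := φ2 hK P.hφ
  have hbig : ∃ u : Kˣ, u ^ 2 ≠ 1 := exists_unit_sq_ne (by rw [hK]; nlinarith)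
  have hzero : ∀ (k : ℕ) (t : K), P.φ t = t → k = 46 ∨ k = 39 → xG P.Q k t ∈ CG (twistedE6 K q) := by
    rintro k t ht (rfl | rfl)
    · exact fix_comm (Q := P.Q) gE6_ok (Or.inl rfl) P.hγ P.φ (r := 47) (s := 32) (k := 46) (c := -1) (by decide +kernel) (by decide +kernel)
        (by decide +kernel) (by decide +kernel) (by decide +kernel) (Or.inr rfl) (by decide +kernel) (by decide +kernel) hF ht
    · exact fix_comm (Q := P.Q) gE6_ok (Or.inl rfl) P.hγ P.φ (r := 47) (s := 25) (k := 39) (c := 1) (by decide +kernel) (by decide +kernel)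
        (by decide +kernel) (by decide +kernel) (by decide +kernel) (Or.inl rfl) (by decide +kernel) (by decide +kernel) hF ht
  have hc : ∀ i < 4, ∀ a ∈ jE6 i, ∀ b ∈ jE6 i, a ≠ b → chevE6.cartan a (chevE6.simple b) = 0 := by decide +kernel
  have hpos : ∀ i : Fin 4, (TE6 P).FX (PJ P.Q (jE6 i)) ≤ CG (twistedE6 K q) := by
    intro i
    obtain ⟨u, hu⟩ := hbig
    have hmu : (Units.map (P.φ : K →* K) u) ^ 2 ≠ 1 := by
      intro h
      apply hu
      rw [← map_pow] at h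
      have h6 : P.φ ((u ^ 2 : Kˣ) : K) = P.φ ((1 : Kˣ) : K) := by
        rw [Units.val_one, map_one]
        exact congrArg Units.val h
      exact Units.ext (P.φ.injective h6)
    fin_cases i
    · intro y hy
      obtain ⟨t, rfl⟩ := (comE6 0 (by norm_num)).exists_yP P.hS hy.2
      have ht := (cdE6.fix_iff gE6_ok (Or.inl rfl) P.hγ P.φ P.hS (by norm_num : 0 < 4) t).1 hy.1
      have := hzero 46 (t 1) (ht 1 (by simp [jE6])).symm (Or.inl rfl)
      simpa [yP, jE6, h1] using this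
    · intro y hy
      obtain ⟨t, rfl⟩ := (comE6 1 (by norm_num)).exists_yP P.hS hy.2
      have ht := (cdE6.fix_iff gE6_ok (Or.inl rfl) P.hγ P.φ P.hS (by norm_num : 1 < 4) t).1 hy.1
      have := hzero 39 (t 3) (ht 3 (by simp [jE6])).symm (Or.inr rfl)
      simpa [yP, jE6, h3] using this
    · apply cdE6.big_le gE6_ok (Or.inl rfl) P.hγ P.φ P.hS (i := 2) (by norm_num) (hc 2 (by norm_num)) hF
        (u := fun a => if a = 2 then u else Units.map (P.φ : K →* K) u)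
      · intro a ha
        have : a = 2 ∨ a = 4 := by simpa [jE6] using ha
        rcases this with rfl | rfl
        · simp [pE6]
        · simp [pE6, hφ2]
      · intro a ha
        have : a = 2 ∨ a = 4 := by simpa [jE6] using ha
        rcases this with rfl | rfl
        · simpa using hu
        · simpa using hmu
    · apply cdE6.big_le gE6_ok (Or.inl rfl) P.hγ P.φ P.hS (i := 3) (by norm_num) (hc 3 (by norm_num)) hF
        (u := fun a => if a = 0 then u else Units.map (P.φ : K →* K) u)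
      · intro a ha
        have : a = 0 ∨ a = 5 := by simpa [jE6] using ha
        rcases this with rfl | rfl
        · simp [pE6]
        · simp [pE6, hφ2]
      · intro a ha
        have : a = 0 ∨ a = 5 := by simpa [jE6] using ha
        rcases this with rfl | rfl
        · simpa using hu
        · simpa using hmu
  apply e6_gen P hK
  · intro i hi t ht
    exact hpos ⟨i, hi⟩ ⟨(cdE6.fix_iff gE6_ok (Or.inl rfl) P.hγ P.φ P.hS hi t).2 ht, (comE6 i hi).yP_mem _⟩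
  · intro i hi t ht
    exact CG_neg A (i := ⟨i, hi⟩) (hpos ⟨i, hi⟩) ⟨cdE6.fixN gE6_ok (Or.inl rfl) P.hγ P.φ hi t ht, (comE6 i hi).yN_mem _⟩

include P hK in
theorem e6_simple_group (hq : 1 < q) : IsSimpleGroup ↥(twistedE6 K q) ∧ ¬ IsMulCommutative ↥(twistedE6 K q) :=
  (e6_twG P hK).simple (e6_torus_le P hK) (dis_E6 P) (con_E6 P) (cdE6.full gE6_ok (Or.inl rfl) P.hγ P.φ P.hS) (e6_perf P hK hq)

include P hK in
theorem e6_cox : ∃ φ : ↥(chevE6.monomialSubgroup K ⊓ twistedE6 K q) →* (CoxeterMatrix.F₄).Group, Function.Surjective φ ∧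
      φ.ker = (chevE6.diagonalSubgroup K ⊓ twistedE6 K q).subgroupOf (chevE6.monomialSubgroup K ⊓ twistedE6 K q) := by
  obtain ⟨e, -⟩ := (HE6 P).exists_csT (dis_E6 P) CoxeterMatrix.F₄ (fun i j => by
    rw [ord_E6 P i j]
    fin_cases i <;> fin_cases j <;> rfl)
  exact (e6_twG P hK).exists_phiT e

end E6

/-! ### `D₄` -/

section D4

variable {K : Type*} [Field K] {q : ℕ} (P : Pk chevD4 gD4a K q)

/-- the words lie in every group containing the classes -/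
lemma d4_gen [Fintype K] (hK : Fintype.card K = q ^ 3) {H : Subgroup (GL chevD4.Idx K)}
    (h1' : ∀ i < 2, ∀ t : ℕ → K, (∀ a ∈ jD4 i, t (pD4 a) = P.φ (t a)) → yP P.Q (jD4 i) t ∈ H)
    (h2' : ∀ i < 2, ∀ t : ℕ → K, (∀ a ∈ jD4 i, t (pD4 a) = P.φ (t a)) → yN P.Q (jD4 i) t ∈ H) : twistedD4 K q ≤ H := by
  obtain ⟨h0, h1, h2, h3⟩ := d4_simple
  have hn : chevD4.nroots = 24 := rfl
  apply gen_le P.Q
  rintro w (⟨t, ht, r, hr, rfl⟩ | ⟨t, rs, hrs, rfl⟩)
  · simp only [List.mem_cons, List.not_mem_nil, or_false] at hr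
    have hc1 : ∀ a ∈ jD4 0, (fun _ : ℕ => t) (pD4 a) = P.φ ((fun _ : ℕ => t) a) := fun a _ => by rw [P.hφ]; exact ht.symm
    rcases hr with rfl | rfl
    · have := h1' 0 (by norm_num : 0 < 2) (fun _ => t) hc1
      simpa [yP, wG, jD4, h1, d4p2] using this
    · have := h2' 0 (by norm_num : 0 < 2) (fun _ => t) hc1
      simpa [yN, wG, jD4, h1, d4m2, hn] using this
  · simp only [List.mem_cons, List.not_mem_nil, or_false] at hrs
    have hc2 : ∀ a ∈ jD4 1, (fun a : ℕ => if a = 0 then t else if a = 2 then t ^ q else t ^ q ^ 2) (pD4 a) =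
        P.φ ((fun a : ℕ => if a = 0 then t else if a = 2 then t ^ q else t ^ q ^ 2) a) := by
      intro a ha
      have : a = 0 ∨ a = 2 ∨ a = 3 := by simpa [jD4] using ha
      rcases this with rfl | rfl | rfl
      · simp [pD4, P.hφ]
      · simp [pD4, P.hφ, ← pow_mul, pow_two]
      · simp [pD4, P.hφ, frob3 hK]
    rcases hrs with rfl | rfl
    · have := h1' 1 (by norm_num : 1 < 2) (fun a : ℕ => if a = 0 then t else if a = 2 then t ^ q else t ^ q ^ 2) hc2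
      simpa [yP, wG, jD4, h0, h2, h3, d4p1, d4p3, d4p4] using this
    · have := h2' 1 (by norm_num : 1 < 2) (fun a : ℕ => if a = 0 then t else if a = 2 then t ^ q else t ^ q ^ 2) hc2
      simpa [yN, wG, jD4, h0, h2, h3, d4m1, d4m3, d4m4, hn] using this

variable [Fintype K] (hK : Fintype.card K = q ^ 3)

include hK in
lemma d4_torus_le : (TD4 P).Fx ⊓ chevD4.diagonalSubgroup K ≤ twistedD4 K q := by
  rw [fx_torus gD4a_ok (Or.inl rfl) P.hγ P.φ πD4_ρ (fun c z hz h => hZ_D4 P.Q P.φ c z hz h)]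
  rintro _ ⟨c, hc, rfl⟩
  exact cdD4.torus_le P.φ (d4_w1 P) (d4_w2 P) (πp := πD4) (fun _ => rfl) hc

include hK in
theorem d4_eq : twistedD4 K q = (TD4 P).Fx := (d4_twG P hK).eq_Fx (d4_torus_le P hK)

include P hK in
theorem d4_card_H (hq : 1 < q) : Nat.card ↥(chevD4.diagonalSubgroup K ⊓ twistedD4 K q) =
    (q - 1) ^ 2 * (q ^ 2 + q + 1) := by
  rw [d4_eq P hK, inf_comm, card_torus_D4 hq hK P]
  have h1 : q ^ 3 - 1 = (q - 1) * (q ^ 2 + q + 1) := by
    have h2 : 1 ≤ q ^ 3 := Nat.one_le_pow _ _ (by omega)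
    have h3 : 1 ≤ q := hq.le
    zify [h2, h3]
    ring
  rw [h1]
  ring

lemma φ3 {q : ℕ} (hK : Fintype.card K = q ^ 3) {φ : K ≃+* K} (hφ : ∀ t, φ t = t ^ q) (t : K) : φ (φ (φ t)) = t := by
  rw [hφ, hφ, hφ, ← pow_mul t, ← pow_two, frob3 hK]

include hK in
lemma d4_card_PJ (hq : 1 < q) (i : Fin 2) : Nat.card ((TD4 P).FX (PJ P.Q ((HD4 P).J i))) = q ^ ninv ((HD4 P).wJ i) := by
  have hn : ninv ((HD4 P).wJ i) = (jD4 i).length := (comD4 i i.2).ninv P.hS (HD4 P) rfl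
  rw [hn]
  have hfix : Nat.card {t : K // P.φ t = t} = q := by
    have := card_frob_fix hq (by norm_num : 0 < 3) hK
    exact Eq.trans (Nat.card_congr (Equiv.subtypeEquivRight (fun t => by rw [P.hφ]))) this
  have hcard : Nat.card K = q ^ 3 := by rw [Nat.card_eq_fintype_card, hK]
  fin_cases i
  · exact (cdD4.card_one gD4a_ok (Or.inl rfl) P.hγ P.φ P.hS (i := 0) (by norm_num) (a := 1) rfl).trans (hfix.trans (pow_one q).symm)
  · exact (cdD4.card_three gD4a_ok (Or.inl rfl) P.hγ P.φ P.hS (i := 1) (by norm_num) (a := 0) (b := 2) (c := 3) rfl rfl rfl rfl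
      (by norm_num) (by norm_num) (by norm_num) (φ3 hK P.hφ)).trans hcard

include P hK in
theorem d4_card_U (hq : 1 < q) : Nat.card ↥(chevD4.posUnipotent K ⊓ twistedD4 K q) = q ^ 12 := by
  have h1 := (d4_twG P hK).card_FX_pos (c := q) (e := 1) (fun i => by rw [pow_one]; exact d4_card_PJ P hK hq i)
  rw [pow_one] at h1
  rw [d4_eq P hK, posUnipotent_eq P.Q, inf_comm]
  exact h1

lemma d4_wsum (Q : Pk chevD4 gD4a K q) (c : ℤ) : wsumT (TD4 Q) [0, 1, 2, 3] c =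
    evN c [1, 1, 0, 0, 1, 1, 0, 0, 1, 1] * (1 + c ^ 3) := by
  have La := levT_of gD4a_ok (Or.inl rfl) Q.hγ Q.φ cdD4 Q.hS levD4a (by decide +kernel) (by decide +kernel) stepD4a
  have hs : ∀ dist : ℕ → ℕ, (∑ γ : Fin chevD4.nroots, if dist γ = 0 ∨ (TD4 Q).ρ γ ≠ γ then 0 else c ^ (dist γ - 1)) =
      ∑ g ∈ Finset.range chevD4.nroots, if dist g = 0 ∨ gD4a.ρ g ≠ g then 0 else c ^ (dist g - 1) := by
    intro dist
    rw [← Fin.sum_univ_eq_sum_range (fun g => if dist g = 0 ∨ gD4a.ρ g ≠ g then (0 : ℤ) else c ^ (dist g - 1))]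
    apply Finset.sum_congr rfl
    intro g _
    have : (TD4 Q).ρ g ≠ g ↔ gD4a.ρ g ≠ g := by
      rw [Ne, Ne, ← Fin.val_inj]; rfl
    simp only [this]
  rw [wsumT_lev Q.hS La, hs, sumD4a]
  have h1 : wsumT (TD4 Q) ((HD4 Q).J 1) c = 1 + c ^ ninv ((HD4 Q).wJ 1) := wsumT_single (HD4 Q) 1 c
  have h2 : ninv ((HD4 Q).wJ 1) = 3 := (comD4 1 (by norm_num)).ninv Q.hS (HD4 Q) rfl
  rw [h2] at h1
  have h3 : wsumT (TD4 Q) [0, 2, 3] c = 1 + c ^ 3 := h1
  rw [h3]

include P hK in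
theorem d4_card (hq : 1 < q) : Nat.card ↥(twistedD4 K q) = q ^ 12 * (q ^ 2 - 1) * (q ^ 6 - 1) * (q ^ 8 + q ^ 4 + 1) := by
  have h1 := (d4_twG P hK).card_total (d4_torus_le P hK) (c := q) (fun i => d4_card_PJ P hK hq i) (J := [0, 1, 2, 3])
    (by decide +kernel)
  have h2 := card_torus_D4 hq hK P
  rw [d4_wsum] at h1
  have hn : chevD4.nroots / 2 = 12 := rfl
  rw [hn, h2] at h1
  have hq1 : 1 ≤ q := hq.le
  have hpow : ∀ n, 1 ≤ q ^ n := fun n => Nat.one_le_pow _ _ (by omega)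
  zify [hq1, hpow]
  rw [h1]
  push_cast [hq1, hpow]
  simp only [evN, Nat.cast_one, Nat.cast_zero]
  ring

lemma dis_D4 (P : Pk chevD4 gD4a K q) : ∀ (i j : Fin 2) a, a ∈ (HD4 P).J i → a ∈ (HD4 P).J j → i = j :=
  fun i j a hi hj => Fin.ext (jdD4.dis i i.2 j j.2 a hi hj)

/-- Coxeter matrix of type `G₂` as a function -/
def mG2 (i j : ℕ) : ℕ := ([[1, 6], [6, 1]].getD i []).getD j 0

lemma word_D4 (i j : Fin 2) : WordOrd chevD4 (jD4 i ++ jD4 j) (mG2 i j) where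
  pos := (by decide +kernel : ∀ i < 2, ∀ j < 2, 0 < mG2 i j) i i.2 j j.2
  fix := (by decide +kernel : ∀ i < 2, ∀ j < 2, ∀ k < chevD4.rank, iter (wapp chevD4 (jD4 i ++ jD4 j)) (mG2 i j) (chevD4.simple k) =
    chevD4.simple k) i i.2 j j.2
  move t ht h0 := ((by decide +kernel : ∀ i < 2, ∀ j < 2, ∀ t < mG2 i j, t = 0 ∨ ∃ k < chevD4.rank,
    iter (wapp chevD4 (jD4 i ++ jD4 j)) t (chevD4.simple k) ≠ chevD4.simple k) i i.2 j j.2 t ht).resolve_left (by omega)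

lemma ord_D4 (P : Pk chevD4 gD4a K q) (i j : Fin 2) : orderOf ((HD4 P).wJ i * (HD4 P).wJ j) = mG2 i j :=
  orderOf_mkTwJ _ _ (word_D4 i j)

lemma con_D4 (P : Pk chevD4 gD4a K q) (S : Set (Fin 2)) (h1 : S.Nonempty) (h2 : Sᶜ.Nonempty) :
    ∃ i ∈ S, ∃ j ∈ Sᶜ, (HD4 P).wJ i * (HD4 P).wJ j ≠ (HD4 P).wJ j * (HD4 P).wJ i := by
  apply path_conn (R := fun i j => (HD4 P).wJ i * (HD4 P).wJ j ≠ (HD4 P).wJ j * (HD4 P).wJ i) (fun i j h => h.symm) _ S h1 h2
  intro i hi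
  apply noncomm_of_order (ord_D4 P _ _) _ ((HD4 P).wJ_sq _) ((HD4 P).wJ_sq _)
  exact (by decide +kernel : ∀ i < 1, 2 < mG2 i (i + 1)) i (by omega)

include P hK in
theorem d4_bn : ∃ B : Cfsg.BNPair ↥(twistedD4 K q),
      B.B = (chevD4.borelSubgroup K ⊓ twistedD4 K q).subgroupOf (twistedD4 K q) ∧
      B.N = (chevD4.monomialSubgroup K ⊓ twistedD4 K q).subgroupOf (twistedD4 K q) :=
  ⟨(d4_twG P hK).bnT (d4_torus_le P hK) (dis_D4 P), rfl, rfl⟩

include P hK in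
theorem d4_core : ((chevD4.borelSubgroup K ⊓ twistedD4 K q).subgroupOf (twistedD4 K q)).normalCore = ⊥ :=
  (d4_twG P hK).core (dis_D4 P) (cdD4.full gD4a_ok (Or.inl rfl) P.hγ P.φ P.hS)

include P hK in
theorem d4_perf (hq : 1 < q) : commutator ↥(twistedD4 K q) = ⊤ := by
  apply top_of_CG
  have hF : (TD4 P).Fx ≤ twistedD4 K q := (d4_eq P hK).ge
  have A := d4_twG P hK
  obtain ⟨h0, h1, h2, h3⟩ := d4_simple
  have hφ3 := φ3 hK P.hφ
  have hbig : ∃ u : Kˣ, u ^ 2 ≠ 1 := exists_unit_sq_ne (by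
    rw [hK]
    have : 2 ^ 3 ≤ q ^ 3 := Nat.pow_le_pow_left hq 3
    omega)
  have hzero : ∀ (t : K), P.φ t = t → xG P.Q 14 t ∈ CG (twistedD4 K q) := by
    intro t ht
    exact fix_comm (Q := P.Q) gD4a_ok (Or.inl rfl) P.hγ P.φ (r := 23) (s := 1) (k := 14) (c := 1) (by decide +kernel) (by decide +kernel)
        (by decide +kernel) (by decide +kernel) (by decide +kernel) (Or.inl rfl) (by decide +kernel) (by decide +kernel) hF ht
  have hc : ∀ i < 2, ∀ a ∈ jD4 i, ∀ b ∈ jD4 i, a ≠ b → chevD4.cartan a (chevD4.simple b) = 0 := by decide +kernel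
  have hpos : ∀ i : Fin 2, (TD4 P).FX (PJ P.Q (jD4 i)) ≤ CG (twistedD4 K q) := by
    intro i
    obtain ⟨u, hu⟩ := hbig
    have hmu' : ∀ u : Kˣ, u ^ 2 ≠ 1 → (Units.map (P.φ : K →* K) u) ^ 2 ≠ 1 := by
      intro u hu h
      apply hu
      rw [← map_pow] at h
      have h6 : P.φ ((u ^ 2 : Kˣ) : K) = P.φ ((1 : Kˣ) : K) := by
        rw [Units.val_one, map_one]
        exact congrArg Units.val h
      exact Units.ext (P.φ.injective h6)
    have hmu := hmu' u hu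
    have hmu2 := hmu' _ hmu
    fin_cases i
    · intro y hy
      obtain ⟨t, rfl⟩ := (comD4 0 (by norm_num)).exists_yP P.hS hy.2
      have ht := (cdD4.fix_iff gD4a_ok (Or.inl rfl) P.hγ P.φ P.hS (by norm_num : 0 < 2) t).1 hy.1
      have := hzero (t 1) (ht 1 (by simp [jD4])).symm
      simpa [yP, jD4, h1] using this
    · apply cdD4.big_le gD4a_ok (Or.inl rfl) P.hγ P.φ P.hS (i := 1) (by norm_num) (hc 1 (by norm_num)) hF
        (u := fun a => if a = 0 then u else if a = 2 then Units.map (P.φ : K →* K) u else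
          Units.map (P.φ : K →* K) (Units.map (P.φ : K →* K) u))
      · intro a ha
        have : a = 0 ∨ a = 2 ∨ a = 3 := by simpa [jD4] using ha
        rcases this with rfl | rfl | rfl
        · simp [pD4]
        · simp [pD4]
        · simp [pD4, hφ3]
      · intro a ha
        have : a = 0 ∨ a = 2 ∨ a = 3 := by simpa [jD4] using ha
        rcases this with rfl | rfl | rfl
        · simpa using hu
        · simpa using hmu
        · simpa using hmu2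
  apply d4_gen P hK
  · intro i hi t ht
    exact hpos ⟨i, hi⟩ ⟨(cdD4.fix_iff gD4a_ok (Or.inl rfl) P.hγ P.φ P.hS hi t).2 ht, (comD4 i hi).yP_mem _⟩
  · intro i hi t ht
    exact CG_neg A (i := ⟨i, hi⟩) (hpos ⟨i, hi⟩) ⟨cdD4.fixN gD4a_ok (Or.inl rfl) P.hγ P.φ hi t ht, (comD4 i hi).yN_mem _⟩

include P hK in
theorem d4_simple_group (hq : 1 < q) : IsSimpleGroup ↥(twistedD4 K q) ∧ ¬ IsMulCommutative ↥(twistedD4 K q) :=
  (d4_twG P hK).simple (d4_torus_le P hK) (dis_D4 P) (con_D4 P) (cdD4.full gD4a_ok (Or.inl rfl) P.hγ P.φ P.hS) (d4_perf P hK hq)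

include P hK in
theorem d4_cox : ∃ φ : ↥(chevD4.monomialSubgroup K ⊓ twistedD4 K q) →* (CoxeterMatrix.G₂).Group, Function.Surjective φ ∧
      φ.ker = (chevD4.diagonalSubgroup K ⊓ twistedD4 K q).subgroupOf (chevD4.monomialSubgroup K ⊓ twistedD4 K q) := by
  obtain ⟨e, -⟩ := (HD4 P).exists_csT (dis_D4 P) CoxeterMatrix.G₂ (fun i j => by
    rw [ord_D4 P i j]
    fin_cases i <;> fin_cases j <;> rfl)
  exact (d4_twG P hK).exists_phiT e

end D4

end Cfsg.Agent.Lib.ChevAlg
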