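import Cfsg.Agent.Lib.ChevTwE

/-!
# Twisted groups: tables, torus, perfectness
-/

set_option autoImplicit false

namespace Cfsg.Agent.Lib.ChevAlg

open Cfsg.Lie Cfsg.Agent.Lib.ChevTab Matrix

variable {D : ChevalleyDatum} {K : Type*} [Field K] {Q : ChevO D K}

/-- negative root groups come for free -/
theorem TwG.of {T : Tw Q} {ι : Type*} {H : TwJ T ι} {G1 : Subgroup (GL D.Idx K)} (supp : SuppD Q.C)
    (lt : ∀ i, ∀ j ∈ H.J i, j < D.rank) (le : G1 ≤ T.Fx) (posJ : ∀ i, T.FX (PJ Q (H.J i)) ≤ G1)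
    (exv : ∀ i, ∃ v ∈ T.FX (NJ Q (H.J i)), v ∈ G1 ∧ v ≠ 1) : TwG H G1 where
  supp := supp
  lt := lt
  le := le
  posJ := posJ
  exv i := by
    obtain ⟨v, h1, _, h2⟩ := exv i
    exact ⟨v, h1, h2⟩
  negJ i := by
    obtain ⟨v, hv, hvG, hne⟩ := exv i
    obtain ⟨a, ha, n, hn, hnN, ⟨u, hm⟩, c, hc, e⟩ := H.exists_nJ supp lt hv hne
    have hnG : n ∈ G1 := by
      have : n = a⁻¹ * v * c⁻¹ := by rw [e]; group
      rw [this]
      exact Subgroup.mul_mem _ (Subgroup.mul_mem _ (Subgroup.inv_mem _ (posJ i ha)) hvG) (Subgroup.inv_mem _ (posJ i hc))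
    intro y hy
    have h1 : n * y * n⁻¹ ∈ T.FX (PJ Q (H.J i)) :=
      ⟨Subgroup.mul_mem _ (Subgroup.mul_mem _ hn hy.1) (Subgroup.inv_mem _ hn), TwG.conj_NJ_PJ hm hy.2⟩
    have h2 : y = n⁻¹ * (n * y * n⁻¹) * n := by group
    rw [h2]
    exact Subgroup.mul_mem _ (Subgroup.mul_mem _ (Subgroup.inv_mem _ hnG) (posJ i h1)) hnG

/-- table data for the orbits -/
structure JD (D : ChevalleyDatum) (ρ : ℕ → ℕ) (n : ℕ) (J wd : ℕ → List ℕ) : Prop where
  lt : ∀ i < n, ∀ a ∈ J i, a < D.rank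
  ne : ∀ i < n, J i ≠ []
  sub : ∀ i < n, ∀ a ∈ wd i, a ∈ J i
  comm : ∀ i < n, ∀ s < D.nroots, ρ (wapp D (wd i) s) = wapp D (wd i) (ρ s)
  cover : ∀ a < D.rank, ∃ i < n, a ∈ J i
  orbit : ∀ i < n, ∀ a ∈ J i, ∀ b ∈ J i, ∃ k < 4, iter ρ k (D.simple a) = D.simple b
  neg : ∀ i < n, ∀ a ∈ J i, wapp D (wd i) (D.simple a) < D.nroots / 2
  dis : ∀ i < n, ∀ j < n, ∀ a ∈ J i, a ∈ J j → i = j

/-- lists of fundamental indices -/
def fl (D : ChevalleyDatum) (l : List ℕ) : List (Fin D.rank) := l.filterMap fun a => if h : a < D.rank then some ⟨a, h⟩ else none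

lemma fl_map {l : List ℕ} (h : ∀ a ∈ l, a < D.rank) : (fl D l).map Fin.val = l := by
  induction l with
  | nil => rfl
  | cons a l ih =>
    have h1 := h a List.mem_cons_self
    rw [fl, List.filterMap_cons, dif_pos h1]
    show a :: (fl D l).map Fin.val = a :: l
    rw [ih (fun b hb => h b (List.mem_cons_of_mem _ hb))]

lemma mem_fl {l : List ℕ} {a : Fin D.rank} (h : a ∈ fl D l) : (a : ℕ) ∈ l := by
  rw [fl, List.mem_filterMap] at h
  obtain ⟨b, hb, h⟩ := h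
  split_ifs at h with h1
  · rw [Option.some_inj] at h
    rw [← h]; exact hb

lemma iter_rho {T : Tw Q} {ρ : ℕ → ℕ} (hρ : ∀ r : Fin D.nroots, ((T.ρ r : Fin D.nroots) : ℕ) = ρ r) (k : ℕ) (r : Fin D.nroots) :
    (((T.ρ ^ k) r : Fin D.nroots) : ℕ) = iter ρ k r := by
  induction k with
  | zero => rfl
  | succ k ih =>
    rw [pow_succ', Equiv.Perm.mul_apply, hρ, ih]
    rfl

/-- the orbit structure from tables -/
def mkTwJ {T : Tw Q} {ρ : ℕ → ℕ} (hρ : ∀ r : Fin D.nroots, ((T.ρ r : Fin D.nroots) : ℕ) = ρ r) {n : ℕ} {J wd : ℕ → List ℕ}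
    (h : JD D ρ n J wd) : TwJ T (Fin n) where
  J i := J i
  wJ i := ww Q (fl D (wd i))
  memJ i := by
    rw [ww]
    apply Subgroup.list_prod_mem
    intro x hx
    rw [List.mem_map] at hx
    obtain ⟨a, ha, rfl⟩ := hx
    exact sr_mem_WJ Q (h.sub i i.2 a (mem_fl ha)) a.2
  comm i := by
    ext s
    rw [Equiv.Perm.mul_apply, Equiv.Perm.mul_apply, hρ, wapp_ww, wapp_ww, hρ,
      fl_map (fun a ha => h.lt i i.2 a (h.sub i i.2 a ha))]
    exact h.comm i i.2 s s.2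
  cover a ha := by
    obtain ⟨i, hi, h1⟩ := h.cover a ha
    exact ⟨⟨i, hi⟩, h1⟩
  ne i := by
    obtain ⟨a, ha⟩ := List.exists_mem_of_ne_nil _ (h.ne i i.2)
    exact ⟨a, ha, h.lt i i.2 a ha⟩
  orbit i a b ha hb h1 h2 := by
    obtain ⟨k, _, hk⟩ := h.orbit i i.2 a h1 b h2
    refine ⟨k, Fin.ext ?_⟩
    rw [iter_rho hρ]
    exact hk
  neg i a ha h1 := by
    show ¬ (D.nroots / 2 ≤ ((ww Q (fl D (wd i)) (si Q a ha) : Fin D.nroots) : ℕ))
    rw [wapp_ww, fl_map (fun a ha => h.lt i i.2 a (h.sub i i.2 a ha)), not_le]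
    exact h.neg i i.2 a h1

lemma mkTwJ_wJ {T : Tw Q} {ρ : ℕ → ℕ} (hρ : ∀ r : Fin D.nroots, ((T.ρ r : Fin D.nroots) : ℕ) = ρ r) {n : ℕ} {J wd : ℕ → List ℕ}
    (h : JD D ρ n J wd) (i : Fin n) (s : Fin D.nroots) :
    (((mkTwJ hρ h).wJ i s : Fin D.nroots) : ℕ) = wapp D (wd i) s := by
  show ((ww Q (fl D (wd i)) s : Fin D.nroots) : ℕ) = _
  rw [wapp_ww, fl_map (fun a ha => h.lt i i.2 a (h.sub i i.2 a ha))]

/-! ### torus elements of commuting classes -/

section tor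

lemma ext1_lt {c : Fin D.rank → Kˣ} {a : ℕ} (h : a < D.rank) : ext1 c a = c ⟨a, h⟩ := by
  rw [ext1, dif_pos h]

lemma torHom_list' (C : Cert D) : ∀ (J : List ℕ), (∀ a ∈ J, a < D.rank) → J.Nodup → ∀ c : Fin D.rank → Kˣ,
    (∀ j : Fin D.rank, (j : ℕ) ∉ J → c j = 1) →
    torHom D K c = (J.map fun a => dG D (cp D (D.simple a) (ext1 c a))).prod := by
  intro J
  induction J with
  | nil =>
    intro _ _ c hc
    have : c = 1 := by
      funext j
      exact hc j (List.not_mem_nil)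
    rw [this, map_one]; rfl
  | cons a J ih =>
    intro hlt hnd c hc
    have ha := hlt a List.mem_cons_self
    have hnd' := (List.nodup_cons.1 hnd)
    have h1 : c = Pi.mulSingle ⟨a, ha⟩ (c ⟨a, ha⟩) * Function.update c ⟨a, ha⟩ 1 := by
      funext j
      by_cases h : j = ⟨a, ha⟩
      · subst h
        rw [Pi.mul_apply, Pi.mulSingle_eq_same, Function.update_self, mul_one]
      · rw [Pi.mul_apply, Pi.mulSingle_eq_of_ne h, Function.update_of_ne h, one_mul]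
    have h2 := ih (fun b hb => hlt b (List.mem_cons_of_mem _ hb)) hnd'.2 (Function.update c ⟨a, ha⟩ 1) (by
      intro j hj
      by_cases h : j = ⟨a, ha⟩
      · subst h; rw [Function.update_self]
      · rw [Function.update_of_ne h]
        apply hc
        intro h3
        rcases List.mem_cons.1 h3 with h4 | h4
        · exact h (Fin.ext h4)
        · exact hj h4)
    rw [h1, map_mul, h2, ← h1, List.map_cons, List.prod_cons]
    congr 1
    · rw [torHom_dG]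
      apply dG_congr
      intro s _
      rw [Finset.prod_eq_single (⟨a, ha⟩ : Fin D.rank)]
      · rw [Pi.mulSingle_eq_same, cp, pairD_simple C ha, ext1_lt ha]
      · intro b _ hb
        rw [Pi.mulSingle_eq_of_ne hb, _root_.one_zpow]
      · intro h; exact absurd (Finset.mem_univ _) h
    · congr 1
      apply List.map_congr_left
      intro b hb
      have hbr := hlt b (List.mem_cons_of_mem _ hb)
      rw [ext1_lt hbr, ext1_lt hbr, Function.update_of_ne]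
      intro h
      have h3 : b = a := congrArg Fin.val h
      exact hnd'.1 (h3 ▸ hb)

lemma commute_nG {J : List ℕ} (hJ : ComJ D J) {a b : ℕ} (ha : a ∈ J) (hb : b ∈ J) (h : a ≠ b) (t u : K) :
    Commute (nG Q (D.simple a) t) (nG Q (D.simple b) u) := by
  have h1 := hJ.comm_pp (Q := Q) Q.C ha hb
  have h2 := hJ.comm_pn (Q := Q) Q.C ha hb h
  have h3 := hJ.comm_pn (Q := Q) Q.C hb ha h.symm
  have h4 := hJ.comm_nn (Q := Q) Q.C ha hb
  rw [nG, nG]
  exact (((h1 _ _).mul_right (h2 _ _)).mul_right (h1 _ _)).mul_left ((((h3 _ _).symm).mul_right (h4 _ _)).mul_right ((h3 _ _).symm)) |>.mul_left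
    (((h1 _ _).mul_right (h2 _ _)).mul_right (h1 _ _))

lemma ComJ.h_eq {J : List ℕ} (hJ : ComJ D J) (u : ℕ → Kˣ) :
    (J.map fun a => dG D (cp D (D.simple a) (u a))).prod = nP Q J (fun a => u a) * nP Q J (fun _ => -1) := by
  have key : ∀ L : List ℕ, L.Sublist J → (L.map fun a => dG D (cp D (D.simple a) (u a))).prod =
      nP Q L (fun a => u a) * nP Q L (fun _ => -1) := by
    intro L
    induction L with
    | nil => intro _; simp [nP]
    | cons a L ih =>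
      intro hs
      have hL : L.Sublist J := (List.sublist_cons_self a L).trans hs
      have haJ : a ∈ J := hs.subset List.mem_cons_self
      have hnd := hs.nodup hJ.nd
      have hne : ∀ b ∈ L, a ≠ b := fun b hb h => (List.nodup_cons.1 hnd).1 (h ▸ hb)
      have e1 : ∀ t : ℕ → K, nP Q (a :: L) t = nG Q (D.simple a) (t a) * nP Q L t := fun t => by simp [nP]
      have e2 : dG D (cp D (D.simple a) (u a)) = nG Q (D.simple a) (u a) * nG Q (D.simple a) (-1) := by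
        rw [← hG_eq Q (Q.C.simple_lt a (hJ.lt a haJ)), hG]
      have c1 : Commute (nG Q (D.simple a) (-1)) (nP Q L (fun a => u a)) := by
        apply prod_comm
        intro x hx
        rw [List.mem_map] at hx
        obtain ⟨b, hb, rfl⟩ := hx
        exact commute_nG hJ haJ (hL.subset hb) (hne b hb) _ _
      rw [List.map_cons, List.prod_cons, ih hL, e1, e1, e2]
      calc nG Q (D.simple a) (u a) * nG Q (D.simple a) (-1) * (nP Q L (fun a => u a) * nP Q L (fun _ => -1))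
          = nG Q (D.simple a) (u a) * (nG Q (D.simple a) (-1) * nP Q L (fun a => u a)) * nP Q L (fun _ => -1) := by group
        _ = nG Q (D.simple a) (u a) * (nP Q L (fun a => u a) * nG Q (D.simple a) (-1)) * nP Q L (fun _ => -1) := by rw [c1.eq]
        _ = _ := by group
  exact key J (List.Sublist.refl J)

end tor

/-! ### perfectness by means of the torus -/

lemma conj_prodL {χ : ℕ → Kˣ} (hχ : IsChar Q.C χ) (t : ℕ → K) : ∀ L : List ℕ, (∀ r ∈ L, r < D.nroots) →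
    dG D χ * prodL Q L t * (dG D χ)⁻¹ = prodL Q L (fun r => χ r * t r) := by
  intro L
  induction L with
  | nil => intro _; rw [prodL_nil, prodL_nil]; group
  | cons r L ih =>
    intro h
    rw [prodL_cons, prodL_cons, ← ih (fun s hs => h s (List.mem_cons_of_mem _ hs)), ← dG_xG Q hχ (h r List.mem_cons_self)]
    group

/-- an element of the torus without fixed points on `U_Ψ` -/
theorem torus_surj [Finite K] {T : Tw Q} {Ψ : Set ℕ} (hΨ : Ψ ⊆ Pos D) (hc : Clos Q.C Ψ) {χ : ℕ → Kˣ} (hχ : IsChar Q.C χ)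
    (hf : dG D χ ∈ T.Fx) (h : ∀ r ∈ Ψ, χ r ≠ 1) {y : GL D.Idx K} (hy : y ∈ T.FX Ψ) :
    ∃ z ∈ T.FX Ψ, y = dG D χ * z * (dG D χ)⁻¹ * z⁻¹ := by
  have hlt : ∀ r ∈ Ψ, r < D.nroots := fun r hr => (hΨ hr).2
  have hmem : ∀ z : T.FX Ψ, dG D χ * z * (dG D χ)⁻¹ * (z : GL D.Idx K)⁻¹ ∈ T.FX Ψ := fun z =>
    ⟨Subgroup.mul_mem _ (Subgroup.mul_mem _ (Subgroup.mul_mem _ hf z.2.1) (Subgroup.inv_mem _ hf)) (Subgroup.inv_mem _ z.2.1),
      Subgroup.mul_mem _ (diagonal_conj_XS Q hlt hχ z.2.2) (Subgroup.inv_mem _ z.2.2)⟩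
  have hinj : Function.Injective (fun z : T.FX Ψ => (⟨_, hmem z⟩ : T.FX Ψ)) := by
    intro z z' hz
    have h1 : dG D χ * z * (dG D χ)⁻¹ * (z : GL D.Idx K)⁻¹ = dG D χ * z' * (dG D χ)⁻¹ * (z' : GL D.Idx K)⁻¹ :=
      congrArg Subtype.val hz
    have h2 : dG D χ * ((z' : GL D.Idx K)⁻¹ * z) * (dG D χ)⁻¹ = (z' : GL D.Idx K)⁻¹ * z := by
      have h3 : dG D χ * ((z' : GL D.Idx K)⁻¹ * z) * (dG D χ)⁻¹ =
        (dG D χ * z' * (dG D χ)⁻¹)⁻¹ * (dG D χ * z * (dG D χ)⁻¹ * (z : GL D.Idx K)⁻¹) * z := by group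
      rw [h3, h1]; group
    have h3 : (z' : GL D.Idx K)⁻¹ * z ∈ XS Q Ψ := Subgroup.mul_mem _ (Subgroup.inv_mem _ z'.2.2) z.2.2
    obtain ⟨t, ht0, ht⟩ := exists_prod Q hΨ hc h3
    rw [ht, conj_prodL hχ t _ (fun r hr => hlt r ((mem_lst hlt).1 hr))] at h2
    have h4 := prodL_unique Q _ (lst_sorted _) (fun r hr => hΨ ((mem_lst hlt).1 hr)) _ _ h2
    have h5 : prodL Q (lst D Ψ) t = 1 := by
      have h6 : prodL Q (lst D Ψ) t = prodL Q (lst D Ψ) (fun _ => 0) := by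
        apply prodL_congr
        intro r hr
        by_contra hne
        apply h r ((mem_lst hlt).1 hr)
        apply Units.ext
        exact mul_right_cancel₀ hne (by rw [h4 r hr, Units.val_one, one_mul])
      rw [h6, prodL]
      apply List.prod_eq_one
      intro x hx
      rw [List.mem_map] at hx
      obtain ⟨r, _, rfl⟩ := hx
      exact xG_zero Q r
    rw [h5, inv_mul_eq_one] at ht
    exact Subtype.ext ht.symm
  have hsurj := Finite.surjective_of_injective hinj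
  obtain ⟨z, hz⟩ := hsurj ⟨y, hy⟩
  exact ⟨z, z.2, (congrArg Subtype.val hz).symm⟩

section perf

variable {T : Tw Q} {ι : Type*} {H : TwJ T ι} {G1 : Subgroup (GL D.Idx K)}

variable (G1) in
/-- the commutator subgroup inside GL -/
def CG : Subgroup (GL D.Idx K) := (commutator ↥G1).map G1.subtype

lemma CG_comm {x y : GL D.Idx K} (hx : x ∈ G1) (hy : y ∈ G1) : x * y * x⁻¹ * y⁻¹ ∈ CG G1 := by
  have h1 : (⟨x, hx⟩ : G1) * ⟨y, hy⟩ * (⟨x, hx⟩ : G1)⁻¹ * (⟨y, hy⟩ : G1)⁻¹ ∈ commutator ↥G1 :=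
    Subgroup.commutator_mem_commutator (Subgroup.mem_top _) (Subgroup.mem_top _)
  exact Subgroup.mem_map_of_mem G1.subtype h1

lemma CG_conj {x y : GL D.Idx K} (hx : x ∈ G1) (hy : y ∈ CG G1) : x * y * x⁻¹ ∈ CG G1 := by
  obtain ⟨z, hz, rfl⟩ := hy
  have h1 : (⟨x, hx⟩ : G1) * z * (⟨x, hx⟩ : G1)⁻¹ ∈ commutator ↥G1 :=
    (inferInstance : (commutator ↥G1).Normal).conj_mem z hz ⟨x, hx⟩
  have h2 := Subgroup.mem_map_of_mem G1.subtype h1
  rw [map_mul, map_mul, map_inv] at h2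
  exact h2

lemma CG_le : CG G1 ≤ G1 := by
  rintro _ ⟨z, _, rfl⟩
  exact z.2

lemma top_of_CG (h : G1 ≤ CG G1) : commutator ↥G1 = ⊤ := by
  rw [eq_top_iff]
  intro x _
  obtain ⟨z, hz, e⟩ := h x.2
  have : z = x := Subtype.ext e
  rwa [← this]

lemma CG_neg (A : TwG H G1) {i : ι} (h : T.FX (PJ Q (H.J i)) ≤ CG G1) : T.FX (NJ Q (H.J i)) ≤ CG G1 := by
  intro y hy
  obtain ⟨u, hm⟩ := A.nJ_mono i
  have hn := A.nJ_mem i
  have h1 : A.nJ i * y * (A.nJ i)⁻¹ ∈ T.FX (PJ Q (H.J i)) :=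
    ⟨Subgroup.mul_mem _ (Subgroup.mul_mem _ (A.le hn) hy.1) (Subgroup.inv_mem _ (A.le hn)), TwG.conj_NJ_PJ hm hy.2⟩
  have h2 : y = (A.nJ i)⁻¹ * (A.nJ i * y * (A.nJ i)⁻¹) * (A.nJ i)⁻¹⁻¹ := by group
  rw [h2]
  exact CG_conj (Subgroup.inv_mem _ hn) (h h1)

end perf

section card

variable {G : GDat} (hG : G.Ok D) (hcp : ChP K G.p) {γ : MulAut ↥(D.group K)}
    (hγ : ∀ r < D.nroots, ∀ t, γ (xg Q r t) = Yg Q G r t) (φ : K ≃+* K)
  {J : List ℕ} (hJ : ComJ D J) {π : ℕ → ℕ} (hπ : (J.map π).Perm J) (hπG : ∀ a ∈ J, G.ρ (D.simple a) = D.simple (π a))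
  (he : ∀ a ∈ J, G.eps (D.simple a) = 1)
include hJ hπ hπG he

/-- fixed points of a commuting class -/
lemma ComJ.card_FX (hS : SuppD Q.C) {X : Type*} (p : X → ℕ → K) (hp : ∀ x, ∀ a ∈ J, p x (π a) = φ (p x a) ^ G.lam (D.simple a))
    (hinj : ∀ x x', (∀ a ∈ J, p x a = p x' a) → x = x')
    (hsurj : ∀ t : ℕ → K, (∀ a ∈ J, t (π a) = φ (t a) ^ G.lam (D.simple a)) → ∃ x, ∀ a ∈ J, p x a = t a) :
    Nat.card ((mkTw Q hG hcp hγ φ).FX (PJ Q J)) = Nat.card X := by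
  symm
  apply Nat.card_congr
  refine Equiv.ofBijective (fun x => (⟨yP Q J (p x), (hJ.fix_iff hG hcp hγ φ hπ hπG he hS _).2 (hp x), hJ.yP_mem _⟩ :
    (mkTw Q hG hcp hγ φ).FX (PJ Q J))) ⟨?_, ?_⟩
  · intro x x' h
    exact hinj x x' (hJ.yP_inj hS (congrArg Subtype.val h))
  · rintro ⟨y, hy⟩
    obtain ⟨t, rfl⟩ := hJ.exists_yP hS hy.2
    obtain ⟨x, hx⟩ := hsurj t ((hJ.fix_iff hG hcp hγ φ hπ hπG he hS _).1 hy.1)
    refine ⟨x, Subtype.ext ?_⟩
    show yP Q J (p x) = yP Q J t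
    rw [yP, yP]
    congr 1
    apply List.map_congr_left
    intro a ha
    rw [hx a ha]

end card

end Cfsg.Agent.Lib.ChevAlg
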