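import Cfsg.Agent.Lib.ChevTwE6e

/-!
# The groups `²F₄(q)`: generators
-/

set_option autoImplicit false

namespace Cfsg.Agent.Lib.ChevAlg

open Cfsg.Lie Cfsg.Agent.Lib.ChevTab Matrix

lemma charP_of_pow {K : Type*} [Field K] [Fintype K] {p n : ℕ} (hp : p.Prime) (hn : n ≠ 0) (hK : Fintype.card K = p ^ n) :
    CharP K p := by
  obtain ⟨p', hc⟩ := CharP.exists K
  obtain ⟨m, hp2, h2⟩ := FiniteField.card K p'
  have h3 : p ∣ p' ^ (m : ℕ) := by
    rw [← h2, hK]
    exact dvd_pow_self p hn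
  have h4 : p = p' := (Nat.prime_dvd_prime_iff_eq hp hp2).1 (hp.dvd_of_dvd_pow h3)
  rw [h4]; exact hc

lemma exists_frobP {K : Type*} [Field K] [Fintype K] {p : ℕ} (hp : p.Prime) [CharP K p] (m : ℕ) :
    ∃ φ : K ≃+* K, ∀ t, φ t = t ^ p ^ m := by
  have : Fact p.Prime := ⟨hp⟩
  refine ⟨RingEquiv.ofBijective (iterateFrobenius K p m) ((Finite.injective_iff_bijective).1 (RingHom.injective _)), fun t => ?_⟩
  show iterateFrobenius K p m t = t ^ p ^ m
  rw [iterateFrobenius_def]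

lemma frob_surj {K : Type*} [Field K] [Fintype K] {p : ℕ} (hp : p.Prime) [CharP K p] (x : K) : ∃ y : K, y ^ p = x := by
  obtain ⟨φ, hφ⟩ := exists_frobP (K := K) hp 1
  obtain ⟨y, hy⟩ := φ.surjective x
  exact ⟨y, by rw [← hy, hφ, pow_one]⟩

variable {D : ChevalleyDatum} {K : Type*} [Field K]

/-- relations among root elements in a class of type `B₂`, characteristic two -/
structure B2R (Q : ChevO D K) (a b c d : ℕ) : Prop where
  ba : ∀ s t, xG Q b t * xG Q a s = xG Q a s * xG Q b t * (xG Q c (s * t) * xG Q d (s ^ 2 * t))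
  ca : ∀ s t, Commute (xG Q c s) (xG Q a t)
  cb : ∀ s t, Commute (xG Q c s) (xG Q b t)
  da : ∀ s t, Commute (xG Q d s) (xG Q a t)
  db : ∀ s t, Commute (xG Q d s) (xG Q b t)
  cd : ∀ s t, Commute (xG Q c s) (xG Q d t)

section b2

variable {Q : ChevO D K} {a b c d : ℕ} (R : B2R Q a b c d)
include R

lemma B2R.mul_cd (u v u' v' : K) : (xG Q c u * xG Q d v) * (xG Q c u' * xG Q d v') = xG Q c (u + u') * xG Q d (v + v') := by
  calc _ = xG Q c u * (xG Q d v * xG Q c u') * xG Q d v' := by group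
    _ = xG Q c u * (xG Q c u' * xG Q d v) * xG Q d v' := by rw [(R.cd u' v).eq]
    _ = (xG Q c u * xG Q c u') * (xG Q d v * xG Q d v') := by group
    _ = _ := by rw [xG_add, xG_add]

lemma B2R.ab [CharP K 2] (s t : K) : xG Q a s * xG Q b t = xG Q b t * xG Q a s * (xG Q c (s * t) * xG Q d (s ^ 2 * t)) := by
  rw [R.ba, mul_assoc _ (xG Q c (s * t) * xG Q d (s ^ 2 * t)), R.mul_cd, CharTwo.add_self_eq_zero, CharTwo.add_self_eq_zero,
    xG_zero, xG_zero, mul_one, mul_one]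

/-- normal form of the class words -/
lemma B2R.word [CharP K 2] (φ : K → K) (t u : K) :
    xG Q a (φ t) * xG Q b t * (xG Q c (φ t * t + u) * xG Q d (φ u ^ 2)) =
      xG Q b t * xG Q a (φ t) * (xG Q c u * xG Q d (φ t ^ 2 * t + φ u ^ 2)) := by
  rw [R.ab, mul_assoc _ (xG Q c _ * xG Q d _), R.mul_cd, ← add_assoc, CharTwo.add_self_eq_zero, zero_add]

end b2

section b2fix

variable {Q : ChevO D K} {G : GDat} (hG : G.Ok D) (hcp : ChP K G.p) {γ : MulAut ↥(D.group K)}
    (hγ : ∀ r < D.nroots, ∀ t, γ (xg Q r t) = Yg Q G r t) (φ : K ≃+* K) {a b c d : ℕ} (R : B2R Q a b c d)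

/-- the graph symmetry on a class of type `B₂` -/
structure B2S (D : ChevalleyDatum) (G : GDat) (a b c d : ℕ) : Prop where
  lt : a < D.nroots ∧ b < D.nroots ∧ c < D.nroots ∧ d < D.nroots
  rho : G.ρ a = b ∧ G.ρ b = a ∧ G.ρ c = d ∧ G.ρ d = c
  lam : G.lam a = 2 ∧ G.lam b = 1 ∧ G.lam c = 2 ∧ G.lam d = 1
  eps : G.eps a = 1 ∧ G.eps b = 1 ∧ G.eps c = 1 ∧ G.eps d = 1

lemma s_four (T : Tw Q) {x y z w : GL D.Idx K} (h1 : x ∈ D.group K) (h2 : y ∈ D.group K) (h3 : z ∈ D.group K) (h4 : w ∈ D.group K) :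
    T.s (x * y * (z * w)) = T.s x * T.s y * (T.s z * T.s w) := by
  rw [T.s_mul (Subgroup.mul_mem _ h1 h2) (Subgroup.mul_mem _ h3 h4), T.s_mul h1 h2, T.s_mul h3 h4]

include R in
lemma B2R.s_eq [CharP K 2] (S : B2S D G a b c d) (s t u v : K) :
    (mkTw Q hG hcp hγ φ).s (xG Q b t * xG Q a s * (xG Q c u * xG Q d v)) =
      xG Q b (φ s ^ 2) * xG Q a (φ t) * (xG Q c (φ t * φ s ^ 2 + φ v) * xG Q d (φ t ^ 2 * φ s ^ 2 + φ u ^ 2)) := by
  obtain ⟨l1, l2, l3, l4⟩ := S.lt
  obtain ⟨r1, r2, r3, r4⟩ := S.rho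
  obtain ⟨m1, m2, m3, m4⟩ := S.lam
  obtain ⟨e1, e2, e3, e4⟩ := S.eps
  rw [s_four _ (xG_mem_group Q _ _) (xG_mem_group Q _ _) (xG_mem_group Q _ _) (xG_mem_group Q _ _),
    mkTw_x hG hcp hγ φ l1, mkTw_x hG hcp hγ φ l2, mkTw_x hG hcp hγ φ l3, mkTw_x hG hcp hγ φ l4, r1, r2, r3, r4, m1, m2, m3, m4,
    e1, e2, e3, e4]
  simp only [Int.cast_one, one_mul, pow_one]
  rw [R.ab, (R.cd _ _).symm.eq, mul_assoc _ (xG Q c _ * xG Q d _), R.mul_cd]

include R in
lemma B2R.fix_of [CharP K 2] (S : B2S D G a b c d) (hφ : ∀ t, φ (φ t) ^ 2 = t) (t u : K) :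
    (xG Q b t * xG Q a (φ t) * (xG Q c u * xG Q d (φ t ^ 2 * t + φ u ^ 2))) ∈ (mkTw Q hG hcp hγ φ).Fx := by
  rw [Tw.mem_Fx, R.s_eq hG hcp hγ φ S]
  refine ⟨Subgroup.mul_mem _ (Subgroup.mul_mem _ (xG_mem_group Q _ _) (xG_mem_group Q _ _))
    (Subgroup.mul_mem _ (xG_mem_group Q _ _) (xG_mem_group Q _ _)), ?_⟩
  rw [hφ, map_add, map_mul, map_pow, map_pow]
  have h1 : φ t * t + (φ (φ t) ^ 2 * φ t + φ (φ u) ^ 2) = u := by
    rw [hφ, hφ, ← add_assoc, mul_comm t, CharTwo.add_self_eq_zero, zero_add]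
  rw [h1]

include R in
lemma B2R.fix_iff [CharP K 2] (S : B2S D G a b c d) (hφ : ∀ t, φ (φ t) ^ 2 = t)
    (huniq : ∀ s t u v s' t' u' v' : K, xG Q b t * xG Q a s * (xG Q c u * xG Q d v) =
      xG Q b t' * xG Q a s' * (xG Q c u' * xG Q d v') → t = t' ∧ s = s' ∧ u = u' ∧ v = v') (s t u v : K) :
    (xG Q b t * xG Q a s * (xG Q c u * xG Q d v)) ∈ (mkTw Q hG hcp hγ φ).Fx ↔ s = φ t ∧ v = φ t ^ 2 * t + φ u ^ 2 := by
  constructor
  · rw [Tw.mem_Fx, R.s_eq hG hcp hγ φ S]
    rintro ⟨_, h⟩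
    obtain ⟨h1, h2, h3, h4⟩ := huniq _ _ _ _ _ _ _ _ h
    refine ⟨h2.symm, ?_⟩
    rw [← h4, h1]
  · rintro ⟨rfl, rfl⟩
    exact R.fix_of hG hcp hγ φ S hφ t u

end b2fix

/-! ### tables -/

/-- orbits for twisted `F₄` -/
def jF4 (i : ℕ) : List ℕ := [[0, 3], [1, 2]].getD i []
/-- words of the generators -/
def wF4 (i : ℕ) : List ℕ := [[0, 3], [1, 2, 1, 2]].getD i []
/-- diagram symmetry of `F₄` -/
def pF4 (a : ℕ) : ℕ := [3, 2, 1, 0].getD a 0

theorem jdF4 : JD chevF4 gF4.ρ 2 jF4 wF4 where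
  lt := by decide +kernel
  ne := by decide +kernel
  sub := by decide +kernel
  comm := by decide +kernel
  cover := by decide +kernel
  orbit := by decide +kernel
  neg := by decide +kernel
  dis := by decide +kernel

theorem comF4 : ComJ chevF4 [0, 3] := by
  have h2 : ∀ a ∈ [0, 3], ∀ b ∈ [0, 3], a ≠ b → chevF4.simple b ≠ chevF4.simple a ∧ chevF4.simple b ≠ chevF4.nroots - 1 - chevF4.simple a ∧
    chevF4.commTerms (chevF4.simple a) (chevF4.simple b) = [] ∧ chevF4.commTerms (chevF4.simple a) (chevF4.nroots - 1 - chevF4.simple b) = [] ∧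
    chevF4.commTerms (chevF4.nroots - 1 - chevF4.simple a) (chevF4.simple b) = [] ∧
    chevF4.commTerms (chevF4.nroots - 1 - chevF4.simple a) (chevF4.nroots - 1 - chevF4.simple b) = [] := by decide +kernel
  have h3 : ∀ r < chevF4.nroots, r < chevF4.nroots / 2 ∨
    (∃ k < chevF4.rank, k ∉ [0, 3] ∧ (chevF4.coroot.getD r #[]).getD k 0 ≠ 0) ∨ ∃ a ∈ [0, 3], r = chevF4.simple a := by decide +kernel
  refine ⟨by decide +kernel, by decide +kernel, h2, fun r hr hp h => ?_⟩
  rcases h3 r hr with h4 | ⟨k, hk, hkJ, h4⟩ | h4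
  · exact absurd hp (not_le.2 h4)
  · exact absurd (h k hk hkJ) h4
  · exact h4

lemma f4_simple : chevF4.simple 0 = 33 ∧ chevF4.simple 1 = 27 ∧ chevF4.simple 2 = 25 ∧ chevF4.simple 3 = 24 := by
  decide +kernel

section F4

variable (Q : ChevO chevF4 K)

lemma b2s_pos : B2S chevF4 gF4 27 25 28 30 := ⟨by decide +kernel, by decide +kernel, by decide +kernel, by decide +kernel⟩
lemma b2s_neg : B2S chevF4 gF4 20 22 19 17 := ⟨by decide +kernel, by decide +kernel, by decide +kernel, by decide +kernel⟩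

lemma xG_commute_of {G : GDat} {Q : ChevO D K} (hcp : ChP K G.p) {a b : ℕ} (ha : a < D.nroots) (hb : b < D.nroots)
    (h : a = b ∨ (b ≠ D.nroots - 1 - a ∧ ∀ c ∈ D.commTerms a b, c.2.1 % G.p = 0)) (t u : K) :
    Commute (xG Q a t) (xG Q b u) := congrArg Subtype.val (xg_commute_of (Q := Q) hcp ha hb h t u)

/-- commutator relation with two terms -/
lemma comm_two {Q : ChevO D K} {a b c d : ℕ} (ha : a < D.nroots) (hb : b < D.nroots) (h1 : b ≠ a) (h2 : b ≠ D.nroots - 1 - a)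
    {x y : ℤ} (h : D.commTerms a b = [(c, x, 1, 1), (d, y, 2, 1)]) (s t : K) :
    xG Q b t * xG Q a s = xG Q a s * xG Q b t * (xG Q c ((x : K) * (-s) ^ 1 * t ^ 1) * xG Q d ((y : K) * (-s) ^ 2 * t ^ 1)) := by
  apply Units.ext
  have h3 := Q.comm a b ha hb h1 (by rw [neg_eq' Q ha]; exact h2) s t
  rw [ChevalleyDatum.commWord, h] at h3
  simp only [List.map_cons, List.map_nil] at h3
  have h4 : ∀ u v : K, D.wordMat K [(c, u), (d, v)] = D.x K c u * D.x K d v := by
    intro u v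
    simp [ChevalleyDatum.wordMat]
  rw [h4] at h3
  exact h3

lemma b2r_pos [CharP K 2] : B2R Q 27 25 28 30 where
  ba s t := by
    rw [comm_two (Q := Q) (a := 27) (b := 25) (c := 28) (d := 30) (x := -1) (y := -1) (by decide +kernel) (by decide +kernel)
      (by decide +kernel) (by decide +kernel) (by decide +kernel)]
    congr 2
    · congr 1; push_cast; ring
    · congr 1
      have : (-1 : K) = 1 := CharTwo.neg_eq 1
      push_cast
      rw [this]; ring
  ca := xG_commute_of (G := gF4) (Or.inr inferInstance) (by decide +kernel) (by decide +kernel) (by decide +kernel)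
  cb := xG_commute_of (G := gF4) (Or.inr inferInstance) (by decide +kernel) (by decide +kernel) (by decide +kernel)
  da := xG_commute_of (G := gF4) (Or.inr inferInstance) (by decide +kernel) (by decide +kernel) (by decide +kernel)
  db := xG_commute_of (G := gF4) (Or.inr inferInstance) (by decide +kernel) (by decide +kernel) (by decide +kernel)
  cd := xG_commute_of (G := gF4) (Or.inr inferInstance) (by decide +kernel) (by decide +kernel) (by decide +kernel)

lemma b2r_neg [CharP K 2] : B2R Q 20 22 19 17 where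
  ba s t := by
    rw [comm_two (Q := Q) (a := 20) (b := 22) (c := 19) (d := 17) (x := 1) (y := -1) (by decide +kernel) (by decide +kernel)
      (by decide +kernel) (by decide +kernel) (by decide +kernel)]
    have : (-1 : K) = 1 := CharTwo.neg_eq 1
    congr 2
    · congr 1
      rw [CharTwo.neg_eq]; push_cast; ring
    · congr 1
      push_cast
      rw [this]; ring
  ca := xG_commute_of (G := gF4) (Or.inr inferInstance) (by decide +kernel) (by decide +kernel) (by decide +kernel)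
  cb := xG_commute_of (G := gF4) (Or.inr inferInstance) (by decide +kernel) (by decide +kernel) (by decide +kernel)
  da := xG_commute_of (G := gF4) (Or.inr inferInstance) (by decide +kernel) (by decide +kernel) (by decide +kernel)
  db := xG_commute_of (G := gF4) (Or.inr inferInstance) (by decide +kernel) (by decide +kernel) (by decide +kernel)
  cd := xG_commute_of (G := gF4) (Or.inr inferInstance) (by decide +kernel) (by decide +kernel) (by decide +kernel)

end F4

end Cfsg.Agent.Lib.ChevAlg
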