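import Cfsg.Agent.Lib.ChevTwF4

/-!
# The groups `²F₄(q)`: fixed points
-/

set_option autoImplicit false

namespace Cfsg.Agent.Lib.ChevAlg

open Cfsg.Lie Cfsg.Agent.Lib.ChevTab Matrix

/-- the list of a finite explicit set -/
lemma lst_of {D : ChevalleyDatum} {Ψ : Set ℕ} {L : List ℕ} (h : ∀ r < D.nroots, r ∈ Ψ ↔ r ∈ L)
    (hL : (List.range D.nroots).filter (fun r => decide (r ∈ L)) = L) : lst D Ψ = L := by
  rw [lst]
  refine Eq.trans (List.filter_congr ?_) hL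
  intro r hr
  rw [List.mem_range] at hr
  simp only [h r hr]

section F4

variable {K : Type*} [Field K]

lemma pj_F4 {Q : ChevO chevF4 K} (hS : SuppD Q.C) (r : ℕ) : r ∈ PJ Q [1, 2] ↔ r ∈ [25, 27, 28, 30] := by
  have h1 : ∀ r < chevF4.nroots, r ∈ [25, 27, 28, 30] ↔ (chevF4.nroots / 2 ≤ r ∧
    ∀ k < chevF4.rank, k ∈ [1, 2] ∨ (chevF4.coroot.getD r #[]).getD k 0 = 0) := by decide +kernel
  constructor
  · intro h
    rw [h1 r h.1.2]
    refine ⟨h.1.1, fun k hk => ?_⟩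
    by_cases hkJ : k ∈ [1, 2]
    · exact Or.inl hkJ
    · exact Or.inr ((hS.supp r h.1.2 k hk).2 (h.2 k hk hkJ))
  · intro h
    have hr : r < chevF4.nroots := (by decide +kernel : ∀ r ∈ [25, 27, 28, 30], r < chevF4.nroots) r h
    obtain ⟨h2, h3⟩ := (h1 r hr).1 h
    exact ⟨⟨h2, hr⟩, fun k hk hkJ => (hS.supp r hr k hk).1 ((h3 k hk).resolve_left hkJ)⟩

lemma lst_F4 {Q : ChevO chevF4 K} (hS : SuppD Q.C) : lst chevF4 (PJ Q [1, 2]) = [25, 27, 28, 30] :=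
  lst_of (fun r _ => pj_F4 hS r) (by decide +kernel)

lemma prod_F4 (Q : ChevO chevF4 K) (t : ℕ → K) : prodL Q [25, 27, 28, 30] t =
    xG Q 25 (t 25) * xG Q 27 (t 27) * (xG Q 28 (t 28) * xG Q 30 (t 30)) := by
  simp only [prodL_cons, prodL_nil, mul_one]
  group

lemma uniq_F4 (Q : ChevO chevF4 K) (s t u v s' t' u' v' : K) (h : xG Q 25 t * xG Q 27 s * (xG Q 28 u * xG Q 30 v) =
      xG Q 25 t' * xG Q 27 s' * (xG Q 28 u' * xG Q 30 v')) : t = t' ∧ s = s' ∧ u = u' ∧ v = v' := by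
  set f : K → K → K → K → ℕ → K := fun s t u v n => if n = 25 then t else if n = 27 then s else if n = 28 then u else v with hf
  have h1 : ∀ s t u v, xG Q 25 t * xG Q 27 s * (xG Q 28 u * xG Q 30 v) = prodL Q [25, 27, 28, 30] (f s t u v) := by
    intro s t u v
    rw [prod_F4]
    simp [hf]
  rw [h1, h1] at h
  have h2 := prodL_unique Q [25, 27, 28, 30] (by decide) (by
    intro r hr
    exact (by decide +kernel : ∀ r ∈ [25, 27, 28, 30], chevF4.nroots / 2 ≤ r ∧ r < chevF4.nroots) r hr) _ _ h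
  refine ⟨h2 25 (by simp), h2 27 (by simp), h2 28 (by simp), ?_⟩
  have := h2 30 (by simp)
  simpa [hf] using this

variable {e : ℕ} (P : Pk chevF4 gF4 K e) [hc : CharP K 2]

/-- the Steinberg automorphism -/
noncomputable abbrev TF4 : Tw P.Q := mkTw P.Q gF4_ok (Or.inr hc) P.hγ P.φ

/-- its orbit structure -/
noncomputable abbrev HF4 : TwJ (TF4 P) (Fin 2) := mkTwJ (T := TF4 P) (fun _ => rfl) jdF4

variable (hφ : ∀ t, P.φ (P.φ t) ^ 2 = t)

include hφ in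
lemma f4_fixP (t u : K) : xG P.Q 27 (P.φ t) * xG P.Q 25 t * (xG P.Q 28 (P.φ t * t + u) * xG P.Q 30 (P.φ u ^ 2)) ∈ (TF4 P).Fx := by
  rw [(b2r_pos P.Q).word P.φ]
  exact (b2r_pos P.Q).fix_of gF4_ok (Or.inr hc) P.hγ P.φ b2s_pos hφ t u

include hφ in
lemma f4_fixN (t u : K) : xG P.Q 20 (P.φ t) * xG P.Q 22 t * (xG P.Q 19 (P.φ t * t + u) * xG P.Q 17 (P.φ u ^ 2)) ∈ (TF4 P).Fx := by
  rw [(b2r_neg P.Q).word P.φ]
  exact (b2r_neg P.Q).fix_of gF4_ok (Or.inr hc) P.hγ P.φ b2s_neg hφ t u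

include hφ in
/-- fixed elements in the class of type `B₂` -/
lemma f4_mem_FX {y : GL chevF4.Idx K} : y ∈ (TF4 P).FX (PJ P.Q [1, 2]) ↔ ∃ t u : K,
    y = xG P.Q 27 (P.φ t) * xG P.Q 25 t * (xG P.Q 28 (P.φ t * t + u) * xG P.Q 30 (P.φ u ^ 2)) := by
  constructor
  · rintro ⟨h1, h2⟩
    have hcl : Clos P.Q.C (PJ P.Q [1, 2]) := (HF4 P).PJ_clos 1
    obtain ⟨t, -, rfl⟩ := exists_prod P.Q (PJ_sub _) hcl h2
    rw [lst_F4 P.hS, prod_F4] at h1 ⊢
    obtain ⟨h3, h4⟩ := ((b2r_pos P.Q).fix_iff gF4_ok (Or.inr hc) P.hγ P.φ b2s_pos hφ (uniq_F4 P.Q) _ _ _ _).1 h1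
    refine ⟨t 25, t 28, ?_⟩
    rw [(b2r_pos P.Q).word P.φ, h3, h4]
  · rintro ⟨t, u, rfl⟩
    refine ⟨f4_fixP P hφ t u, ?_⟩
    have h : ∀ r ∈ [25, 27, 28, 30], ∀ v, xG P.Q r v ∈ XS P.Q (PJ P.Q [1, 2]) := fun r hr v => xG_mem P.Q ((pj_F4 P.hS r).2 hr) v
    exact Subgroup.mul_mem _ (Subgroup.mul_mem _ (h 27 (by simp) _) (h 25 (by simp) _))
      (Subgroup.mul_mem _ (h 28 (by simp) _) (h 30 (by simp) _))

/-- pair words are fixed exactly when the coordinates correspond -/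
lemma f4_pair_iff (t : ℕ → K) : yP P.Q [0, 3] t ∈ (TF4 P).Fx ↔ t 3 = P.φ (t 0) ^ 2 ∧ t 0 = P.φ (t 3) := by
  have := comF4.fix_iff gF4_ok (Or.inr hc) P.hγ P.φ (π := pF4) (by decide +kernel) (by decide +kernel) (by decide +kernel) P.hS t
  rw [this]
  have hl : gF4.lam (chevF4.simple 0) = 2 ∧ gF4.lam (chevF4.simple 3) = 1 := by decide +kernel
  constructor
  · intro h
    have h0 := h 0 (by simp)
    have h3 := h 3 (by simp)
    rw [hl.1] at h0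
    rw [hl.2, pow_one] at h3
    exact ⟨h0, h3⟩
  · rintro ⟨h0, h3⟩ a ha
    have : a = 0 ∨ a = 3 := by simpa using ha
    rcases this with rfl | rfl
    · rw [hl.1]; exact h0
    · rw [hl.2, pow_one]; exact h3

lemma f4_pair_neg (t : ℕ → K) (h : t 3 = P.φ (t 0) ^ 2 ∧ t 0 = P.φ (t 3)) : yN P.Q [0, 3] t ∈ (TF4 P).Fx := by
  apply comF4.fixN gF4_ok (Or.inr hc) P.hγ P.φ (π := pF4) (by decide +kernel) (by decide +kernel) (by decide +kernel) t
  have hl : gF4.lam (chevF4.simple 0) = 2 ∧ gF4.lam (chevF4.simple 3) = 1 := by decide +kernel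
  obtain ⟨h0, h3⟩ := h
  intro a ha
  have : a = 0 ∨ a = 3 := by simpa using ha
  rcases this with rfl | rfl
  · rw [hl.1]; exact h0
  · rw [hl.2, pow_one]; exact h3

/-- the twisted group is contained in every group containing the words -/
lemma f4_gen {H : Subgroup (GL chevF4.Idx K)}
    (h1 : ∀ t, xG P.Q 33 (P.φ t) * xG P.Q 24 t ∈ H) (h2 : ∀ t, xG P.Q 14 (P.φ t) * xG P.Q 23 t ∈ H)
    (h3 : ∀ t u, xG P.Q 27 (P.φ t) * xG P.Q 25 t * (xG P.Q 28 (P.φ t * t + u) * xG P.Q 30 (P.φ u ^ 2)) ∈ H)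
    (h4 : ∀ t u, xG P.Q 20 (P.φ t) * xG P.Q 22 t * (xG P.Q 19 (P.φ t * t + u) * xG P.Q 17 (P.φ u ^ 2)) ∈ H) :
    twistedF4 K e ≤ H := by
  have hc1 : ∀ t : K, t ^ (e + 1) = P.φ t * t := fun t => by rw [P.hφ, pow_succ]
  have hc2 : ∀ t : K, t ^ (2 * e) = P.φ t ^ 2 := fun t => by rw [P.hφ, ← pow_mul, mul_comm]
  apply gen_le P.Q
  rintro w (⟨t, rfl | rfl⟩ | ⟨t, u, rfl | rfl⟩)
  · have := h1 t
    rw [P.hφ] at this
    simpa [f4PairWord, wG, f4p1, f4p4] using this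
  · have := h2 t
    rw [P.hφ] at this
    simpa [f4PairWord, wG, f4m1, f4m4] using this
  · have := h3 t u
    rw [← hc1, ← hc2, P.hφ] at this
    simpa [b2ClassWord, wG, f4a, f4b, f4ab, f4aab, mul_assoc] using this
  · have := h4 t u
    rw [← hc1, ← hc2, P.hφ] at this
    simpa [b2ClassWord, wG, f4ma, f4mb, f4mab, f4maab, mul_assoc] using this

omit hc in
lemma f4_m1 (t : K) : xG P.Q 33 (P.φ t) * xG P.Q 24 t ∈ twistedF4 K e := by
  have : wG P.Q (f4PairWord e f4p1 f4p4 t) ∈ twistedF4 K e := wG_mem_gen P.Q (W := f4Words K e) (Or.inl ⟨t, Or.inl rfl⟩)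
  rw [P.hφ]
  simpa [f4PairWord, wG, f4p1, f4p4] using this

omit hc in
lemma f4_m2 (t : K) : xG P.Q 14 (P.φ t) * xG P.Q 23 t ∈ twistedF4 K e := by
  have : wG P.Q (f4PairWord e f4m1 f4m4 t) ∈ twistedF4 K e := wG_mem_gen P.Q (W := f4Words K e) (Or.inl ⟨t, Or.inr rfl⟩)
  rw [P.hφ]
  simpa [f4PairWord, wG, f4m1, f4m4] using this

omit hc in
lemma f4_m3 (t u : K) : xG P.Q 27 (P.φ t) * xG P.Q 25 t * (xG P.Q 28 (P.φ t * t + u) * xG P.Q 30 (P.φ u ^ 2)) ∈ twistedF4 K e := by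
  have hc1 : ∀ t : K, t ^ (e + 1) = P.φ t * t := fun t => by rw [P.hφ, pow_succ]
  have hc2 : ∀ t : K, t ^ (2 * e) = P.φ t ^ 2 := fun t => by rw [P.hφ, ← pow_mul, mul_comm]
  have : wG P.Q (b2ClassWord e f4a f4b f4ab f4aab t u) ∈ twistedF4 K e :=
    wG_mem_gen P.Q (W := f4Words K e) (Or.inr ⟨t, u, Or.inl rfl⟩)
  rw [← hc1, ← hc2, P.hφ]
  simpa [b2ClassWord, wG, f4a, f4b, f4ab, f4aab, mul_assoc] using this

omit hc in
lemma f4_m4 (t u : K) : xG P.Q 20 (P.φ t) * xG P.Q 22 t * (xG P.Q 19 (P.φ t * t + u) * xG P.Q 17 (P.φ u ^ 2)) ∈ twistedF4 K e := by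
  have hc1 : ∀ t : K, t ^ (e + 1) = P.φ t * t := fun t => by rw [P.hφ, pow_succ]
  have hc2 : ∀ t : K, t ^ (2 * e) = P.φ t ^ 2 := fun t => by rw [P.hφ, ← pow_mul, mul_comm]
  have : wG P.Q (b2ClassWord e f4ma f4mb f4mab f4maab t u) ∈ twistedF4 K e :=
    wG_mem_gen P.Q (W := f4Words K e) (Or.inr ⟨t, u, Or.inr rfl⟩)
  rw [← hc1, ← hc2, P.hφ]
  simpa [b2ClassWord, wG, f4ma, f4mb, f4mab, f4maab, mul_assoc] using this

lemma f4_yP (t : ℕ → K) : yP P.Q [0, 3] t = xG P.Q 33 (t 0) * xG P.Q 24 (t 3) := by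
  obtain ⟨h0, h1, h2, h3⟩ := f4_simple
  simp [yP, h0, h3]

lemma f4_yN (t : ℕ → K) : yN P.Q [0, 3] t = xG P.Q 14 (t 0) * xG P.Q 23 (t 3) := by
  obtain ⟨h0, h1, h2, h3⟩ := f4_simple
  have hn : chevF4.nroots = 48 := rfl
  simp [yN, h0, h3, hn]

include hφ in
lemma f4_le : twistedF4 K e ≤ (TF4 P).Fx := by
  have h : ∀ t, (fun a : ℕ => if a = 0 then P.φ t else t) 3 = P.φ ((fun a : ℕ => if a = 0 then P.φ t else t) 0) ^ 2 ∧
      (fun a : ℕ => if a = 0 then P.φ t else t) 0 = P.φ ((fun a : ℕ => if a = 0 then P.φ t else t) 3) := by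
    intro t
    simp [hφ]
  apply f4_gen P
  · intro t
    have := (f4_pair_iff P (fun a => if a = 0 then P.φ t else t)).2 (h t)
    rw [f4_yP] at this
    simpa using this
  · intro t
    have := f4_pair_neg P (fun a => if a = 0 then P.φ t else t) (h t)
    rw [f4_yN] at this
    simpa using this
  · exact f4_fixP P hφ
  · exact f4_fixN P hφ

/-- the pair class -/
lemma f4_mem_FX0 {y : GL chevF4.Idx K} : y ∈ (TF4 P).FX (PJ P.Q [0, 3]) → ∃ t : K, y = xG P.Q 33 (P.φ t) * xG P.Q 24 t := by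
  rintro ⟨h1, h2⟩
  obtain ⟨t, rfl⟩ := comF4.exists_yP P.hS h2
  obtain ⟨h3, h4⟩ := (f4_pair_iff P t).1 h1
  refine ⟨t 3, ?_⟩
  rw [f4_yP, ← h4]

lemma xG_ne_one {D : ChevalleyDatum} {Q : ChevO D K} {r : ℕ} (hr : r < D.nroots) {t : K} (ht : t ≠ 0) : xG Q r t ≠ 1 :=
  fun h => ht (xG_eq_one Q hr h)

include hφ in
theorem f4_twG : TwG (HF4 P) (twistedF4 K e) := by
  have hneg : ∀ {J : List ℕ} {r : ℕ}, r ∈ NJ P.Q J ↔ r < 48 ∧ 47 - r ∈ PJ P.Q J := fun {J r} => Iff.rfl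
  apply TwG.of (H := HF4 P) P.hS (fun i => jdF4.lt i i.2) (f4_le P hφ)
  · intro i y hy
    fin_cases i
    · obtain ⟨t, rfl⟩ := f4_mem_FX0 P hy
      exact f4_m1 P t
    · obtain ⟨t, u, rfl⟩ := (f4_mem_FX P hφ).1 hy
      exact f4_m3 P t u
  · intro i
    fin_cases i
    · have h1 := f4_le P hφ (f4_m2 P (1 : K))
      refine ⟨_, ⟨h1, ?_⟩, f4_m2 P (1 : K), ?_⟩
      · have h : ∀ a ∈ [0, 3], chevF4.simple a ∈ PJ P.Q [0, 3] := fun a ha => (comF4.mem_PJ P.hS).2 ⟨a, ha, rfl⟩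
        obtain ⟨h0, -, -, h3⟩ := f4_simple
        have e0 := h 0 (by simp)
        have e3 := h 3 (by simp)
        rw [h0] at e0
        rw [h3] at e3
        exact Subgroup.mul_mem _ (xG_mem P.Q (hneg.2 ⟨by norm_num, e0⟩) _) (xG_mem P.Q (hneg.2 ⟨by norm_num, e3⟩) _)
      · rw [map_one]
        intro h
        have h5 : xG P.Q 14 (1 : K) = xG P.Q 23 (-1) := by
          rw [← xG_inv]
          exact eq_inv_of_mul_eq_one_left h
        have h6 := root_unique' P.Q (r := ⟨14, by decide +kernel⟩) (s := ⟨23, by decide +kernel⟩) one_ne_zero h5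
        exact absurd (congrArg Fin.val h6) (by norm_num)
    · have h1 := f4_le P hφ (f4_m4 P (0 : K) 1)
      have h2 : xG P.Q 20 (P.φ 0) * xG P.Q 22 0 * (xG P.Q 19 (P.φ 0 * 0 + 1) * xG P.Q 17 (P.φ 1 ^ 2)) =
          xG P.Q 19 1 * xG P.Q 17 1 := by
        simp [xG_zero]
      rw [h2] at h1
      refine ⟨_, ⟨h1, ?_⟩, by rw [← h2]; exact f4_m4 P 0 1, ?_⟩
      · have e0 := (pj_F4 P.hS 28).2 (by simp)
        have e3 := (pj_F4 P.hS 30).2 (by simp)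
        exact Subgroup.mul_mem _ (xG_mem P.Q (hneg.2 ⟨by norm_num, e0⟩) _) (xG_mem P.Q (hneg.2 ⟨by norm_num, e3⟩) _)
      · intro h
        have h5 : xG P.Q 19 (1 : K) = xG P.Q 17 (-1) := by
          rw [← xG_inv]
          exact eq_inv_of_mul_eq_one_left h
        have h6 := root_unique' P.Q (r := ⟨19, by decide +kernel⟩) (s := ⟨17, by decide +kernel⟩) one_ne_zero h5
        exact absurd (congrArg Fin.val h6) (by norm_num)

end F4

end Cfsg.Agent.Lib.ChevAlg
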