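import Cfsg.Agent.Lib.ChevTwJ
import Mathlib.GroupTheory.SpecificGroups.Dihedral

/-!
# Explicit fixed Weyl groups
-/

set_option autoImplicit false

namespace Cfsg.Agent.Lib.ChevAlg

open Cfsg.Lie Cfsg.Agent.Lib.ChevTab Matrix

variable {D : ChevalleyDatum} {K : Type*} [Field K] {Q : ChevO D K}

/-- a table listing the fixed Weyl group -/
structure WrT (D : ChevalleyDatum) (n : ℕ) (wd : ℕ → List ℕ) (N : ℕ) (L : ℕ → List ℕ) : Prop where
  pos : 0 < N
  lt : ∀ k < N, ∀ a ∈ L k, a < D.rank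
  wlt : ∀ i < n, ∀ a ∈ wd i, a < D.rank
  one : L 0 = []
  mul : ∀ k < N, ∀ i < n, ∃ k' < N, ∀ s < D.rank, wapp D (L k ++ wd i) (D.simple s) = wapp D (L k') (D.simple s)
  back : ∀ k < N, k = 0 ∨ ∃ k' < k, ∃ i < n, L k = L k' ++ wd i
  inj : ∀ k < N, ∀ k' < N, k = k' ∨ ∃ s < D.rank, wapp D (L k) (D.simple s) ≠ wapp D (L k') (D.simple s)

lemma WG_ext {w w' : Equiv.Perm (Fin D.nroots)} (hw : w ∈ WG Q.C2) (hw' : w' ∈ WG Q.C2)
    (h : ∀ (k : ℕ) (hk : k < D.rank), w (si Q k hk) = w' (si Q k hk)) : w = w' := by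
  have h1 : w⁻¹ * w' = 1 := by
    apply eq_one_of_fix Q (Subgroup.mul_mem _ (Subgroup.inv_mem _ hw) hw')
    intro k hk
    rw [Equiv.Perm.mul_apply, ← h k hk, perm_inv_apply]
  exact (inv_mul_eq_one.1 h1)

lemma ww_ext {l l' : List (Fin D.rank)} (h : ∀ s < D.rank, wapp D (l.map Fin.val) (D.simple s) = wapp D (l'.map Fin.val) (D.simple s)) :
    ww Q l = ww Q l' := by
  apply WG_ext (ww_mem Q l) (ww_mem Q l')
  intro k hk
  apply Fin.ext
  rw [wapp_ww, wapp_ww]
  exact h k hk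

open Classical in
lemma ninv_ww (l : List (Fin D.rank)) : ninv (ww Q l) =
    ((List.range D.nroots).filter fun r => decide (D.nroots / 2 ≤ r ∧ wapp D (l.map Fin.val) r < D.nroots / 2)).length := by
  rw [← length_lst_inv, lst]
  congr 1
  apply List.filter_congr
  intro r hr
  rw [List.mem_range] at hr
  have : r ∈ Inv (ww Q l) ↔ (D.nroots / 2 ≤ r ∧ wapp D (l.map Fin.val) r < D.nroots / 2) := by
    constructor
    · intro h
      refine ⟨h.1.1, ?_⟩
      have h2 := h.2 hr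
      rw [← wapp_ww (Q := Q) l ⟨r, hr⟩]
      exact not_le.1 h2
    · rintro ⟨h1, h2⟩
      refine ⟨⟨h1, hr⟩, fun h3 h4 => ?_⟩
      rw [← wapp_ww (Q := Q) l ⟨r, hr⟩] at h2
      exact absurd h4 (not_le.2 h2)
  simp only [this]

section tab

variable {T : Tw Q} {ρ : ℕ → ℕ} (hρ : ∀ r : Fin D.nroots, ((T.ρ r : Fin D.nroots) : ℕ) = ρ r) {n : ℕ} {J wd : ℕ → List ℕ}
    (h : JD D ρ n J wd) {N : ℕ} {L : ℕ → List ℕ} (t : WrT D n wd N L)

lemma fl_append (l l' : List ℕ) : fl D (l ++ l') = fl D l ++ fl D l' := by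
  rw [fl, fl, fl, List.filterMap_append]

include hρ h t in
lemma WrT.mem {k : ℕ} (hk : k < N) : ww Q (fl D (L k)) ∈ WT T := by
  induction k using Nat.strong_induction_on with
  | _ k ih =>
    rcases t.back k hk with rfl | ⟨k', hk', i, hi, e⟩
    · rw [t.one]
      exact Subgroup.one_mem _
    · rw [e, fl_append, ww_append]
      exact Subgroup.mul_mem _ (ih k' hk' (by omega)) ⟨(mkTwJ hρ h).mem ⟨i, hi⟩, (mkTwJ hρ h).comm ⟨i, hi⟩⟩

include hρ h t in
theorem WrT.eq : TwG.Wr T = (Finset.range N).image (fun k => ww Q (fl D (L k))) := by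
  ext w
  rw [TwG.mem_Wr, Finset.mem_image]
  constructor
  · rintro ⟨hw, hc⟩
    refine (mkTwJ hρ h).ind (p := fun w => ∃ a ∈ Finset.range N, ww Q (fl D (L a)) = w) ?_ ?_ hw hc
    · exact ⟨0, Finset.mem_range.2 t.pos, by rw [t.one]; rfl⟩
    · rintro i w _ _ _ ⟨k, hk, rfl⟩
      rw [Finset.mem_range] at hk
      obtain ⟨k', hk', e⟩ := t.mul k hk i i.2
      refine ⟨k', Finset.mem_range.2 hk', ?_⟩
      show ww Q (fl D (L k')) = ww Q (fl D (L k)) * ww Q (fl D (wd i))
      rw [← ww_append, ← fl_append]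
      apply ww_ext
      intro s hs
      rw [fl_map (t.lt k' hk'), fl_map (fun a ha => ?_)]
      · exact (e s hs).symm
      · rcases List.mem_append.1 ha with h1 | h1
        · exact t.lt k hk a h1
        · exact t.wlt i i.2 a h1
  · rintro ⟨k, hk, rfl⟩
    exact t.mem hρ h (Finset.mem_range.1 hk)

include t in
lemma WrT.ww_inj : Set.InjOn (fun k => ww Q (fl D (L k))) (Finset.range N : Set ℕ) := by
  intro k hk k' hk' e
  have hk1 := Finset.mem_range.1 (Finset.mem_coe.1 hk)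
  have hk2 := Finset.mem_range.1 (Finset.mem_coe.1 hk')
  rcases t.inj k hk1 k' hk2 with h1 | ⟨s, hs, h1⟩
  · exact h1
  · exfalso
    apply h1
    have h2 : ww Q (fl D (L k)) = ww Q (fl D (L k')) := e
    have h3 := congrArg (fun w : Equiv.Perm (Fin D.nroots) => ((w (si Q s hs) : Fin D.nroots) : ℕ)) h2
    simp only [wapp_ww, fl_map (t.lt k hk1), fl_map (t.lt k' hk2)] at h3
    exact h3

include hρ h t in
theorem WrT.sum {M : Type*} [AddCommMonoid M] (F : Equiv.Perm (Fin D.nroots) → M) :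
    ∑ w ∈ TwG.Wr T, F w = ∑ k ∈ Finset.range N, F (ww Q (fl D (L k))) := by
  rw [t.eq hρ h, Finset.sum_image t.ww_inj]

end tab

/-! ### dihedral groups -/

section dih

variable {W : Type*} [Group W] {a b : W} {n : ℕ} [NeZero n]

/-- the homomorphism from a dihedral group given by two involutions -/
noncomputable def dihHom (ha : a * a = 1) (hb : b * b = 1) (hab : orderOf (a * b) = n) : DihedralGroup n →* W := by
  have hinv : ∀ k : ℤ, (a * b) ^ k * a = a * (a * b) ^ (-k) := by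
    intro k
    have ha' : a⁻¹ = a := inv_eq_of_mul_eq_one_left ha
    have hb' : b⁻¹ = b := inv_eq_of_mul_eq_one_left hb
    have h1 : a * (a * b) * a⁻¹ = (a * b)⁻¹ := by
      rw [ha', _root_.mul_inv_rev, ha', hb', ← mul_assoc, ha, one_mul]
    have h2 : a * (a * b) ^ (-k) * a⁻¹ = (a * b) ^ k := by
      rw [← conj_zpow, h1, _root_.inv_zpow, ← _root_.zpow_neg, neg_neg]
    rw [← h2, mul_assoc, inv_mul_cancel, mul_one]
  have hper : ∀ k l : ℤ, ((k : ZMod n) = l) → (a * b) ^ k = (a * b) ^ l := by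
    intro k l h
    rw [← hab] at h
    exact (zpow_eq_zpow_iff_modEq).2 ((ZMod.intCast_eq_intCast_iff _ _ _).1 h)
  have hcast : ∀ i j : ZMod n, (a * b) ^ ((i + j).cast : ℤ) = (a * b) ^ (i.cast : ℤ) * (a * b) ^ (j.cast : ℤ) := by
    intro i j
    rw [← _root_.zpow_add]
    apply hper
    simp
  have hneg : ∀ i : ZMod n, (a * b) ^ (-(i.cast : ℤ)) = (a * b) ^ ((-i).cast : ℤ) := by
    intro i
    apply hper
    simp
  exact MonoidHom.mk' (fun x => match x with
    | DihedralGroup.r i => (a * b) ^ (i.cast : ℤ)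
    | DihedralGroup.sr i => a * (a * b) ^ (i.cast : ℤ)) (by
    rintro (i | i) (j | j)
    · exact hcast i j
    · show a * (a * b) ^ ((j - i).cast : ℤ) = (a * b) ^ (i.cast : ℤ) * (a * (a * b) ^ (j.cast : ℤ))
      rw [← mul_assoc, hinv, mul_assoc, hneg, ← hcast, neg_add_eq_sub]
    · show a * (a * b) ^ ((i + j).cast : ℤ) = a * (a * b) ^ (i.cast : ℤ) * (a * b) ^ (j.cast : ℤ)
      rw [mul_assoc, hcast]
    · show (a * b) ^ ((j - i).cast : ℤ) = a * (a * b) ^ (i.cast : ℤ) * (a * (a * b) ^ (j.cast : ℤ))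
      rw [mul_assoc a, ← mul_assoc _ a, hinv, mul_assoc a, ← mul_assoc a a, ha, one_mul, hneg, ← hcast, neg_add_eq_sub])

lemma dihHom_inj (ha : a * a = 1) (hb : b * b = 1) (hab : orderOf (a * b) = n) (hn : 2 < n) :
    Function.Injective (dihHom ha hb hab) := by
  have ha' : a⁻¹ = a := inv_eq_of_mul_eq_one_left ha
  have hb' : b⁻¹ = b := inv_eq_of_mul_eq_one_left hb
  rw [injective_iff_map_eq_one]
  rintro (i | i) h
  · have h1 : (a * b) ^ (i.cast : ℤ) = 1 := h
    rw [← orderOf_dvd_iff_zpow_eq_one, hab] at h1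
    have h2 : ((i.cast : ℤ) : ZMod n) = 0 := (ZMod.intCast_zmod_eq_zero_iff_dvd _ _).2 h1
    rw [ZMod.intCast_cast, ZMod.cast_id] at h2
    rw [h2]; rfl
  · exfalso
    have h1 : a * (a * b) ^ (i.cast : ℤ) = 1 := h
    have h2 : a = ((a * b) ^ (i.cast : ℤ))⁻¹ := eq_inv_of_mul_eq_one_left h1
    have h3 : Commute a (a * b) := by
      have h6 : Commute ((a * b) ^ (i.cast : ℤ))⁻¹ (a * b) := ((Commute.refl (a * b)).zpow_left _).inv_left
      rwa [← h2] at h6
    have h4 : (a * b) ^ 2 = 1 := by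
      have h5 : a * (a * b) = a * b * a := h3
      rw [← mul_assoc, ha, one_mul] at h5
      rw [pow_two]
      calc a * b * (a * b) = (a * b * a) * b := by group
        _ = b * b := by rw [← h5]
        _ = 1 := hb
    have h5 := orderOf_dvd_of_pow_eq_one h4
    rw [hab] at h5
    have := Nat.le_of_dvd (by norm_num) h5
    omega

/-- a group of order `2n` generated by two involutions is dihedral -/
theorem exists_dih [Finite W] (ha : a * a = 1) (hb : b * b = 1) (hab : orderOf (a * b) = n) (hn : 2 < n)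
    (hc : Nat.card W = 2 * n) : Nonempty (DihedralGroup n ≃* W) := by
  have h1 := dihHom_inj ha hb hab hn
  have h2 : Function.Bijective (dihHom ha hb hab) := by
    have hc' : Nat.card (DihedralGroup n) = Nat.card W := by rw [hc, DihedralGroup.nat_card]
    exact (Nat.bijective_iff_injective_and_card _).2 ⟨h1, hc'⟩
  exact ⟨MulEquiv.ofBijective _ h2⟩

end dih

end Cfsg.Agent.Lib.ChevAlg
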