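import Cfsg.Agent.Lib.ChevTwF4b
import Cfsg.Agent.Lib.ChevTwK

/-!
# The groups `²F₄(q)`: torus
-/

set_option autoImplicit false

namespace Cfsg.Agent.Lib.ChevAlg

open Cfsg.Lie Cfsg.Agent.Lib.ChevTab Matrix

section F4

/-- Cartan matrix of `F₄` -/
def aF4 : Matrix (Fin 4) (Fin 4) ℤ := ![![2, -1, 0, 0], ![-1, 2, -2, 0], ![0, -1, 2, -1], ![0, 0, -1, 2]]
/-- its inverse -/
def bF4 : Matrix (Fin 4) (Fin 4) ℤ := ![![2, 3, 4, 2], ![3, 6, 8, 4], ![2, 4, 6, 3], ![1, 2, 3, 2]]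

lemma cartM_F4 : (cartM chevF4 : Matrix (Fin 4) (Fin 4) ℤ) = aF4 := by
  have h : ∀ i < 4, ∀ j < 4, chevF4.cartan i (chevF4.simple j) = lm [[2, -1, 0, 0], [-1, 2, -2, 0], [0, -1, 2, -1], [0, 0, -1, 2]] i j := by
    decide +kernel
  ext i j
  show chevF4.cartan i (chevF4.simple j) = _
  rw [h i i.2 j j.2]
  fin_cases i <;> fin_cases j <;> rfl
lemma abF4 : aF4 * bF4 = 1 := by decide +kernel

variable {K : Type*} [Field K]

lemma ker_F4 (Q : ChevO chevF4 K) (z : Fin 4 → Kˣ) (h : torHom chevF4 K z = 1) : z = 1 := by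
  have h1 : act (cartM chevF4) z = fun _ => 1 := (tor_eq_one_iff Q z).1 h
  have h2 : act aF4 z = fun _ => 1 := by
    rw [← cartM_F4]; exact h1
  rw [← act_one z, ← abF4, act_mul, h2, act_const_one]
  rfl

/-- diagram symmetry as a permutation -/
def πF4 : Equiv.Perm (Fin chevF4.rank) where
  toFun i := ⟨pF4 i, (by decide +kernel : ∀ i < 4, pF4 i < 4) i i.2⟩
  invFun i := ⟨pF4 i, (by decide +kernel : ∀ i < 4, pF4 i < 4) i i.2⟩
  left_inv i := Fin.ext ((by decide +kernel : ∀ i < 4, pF4 (pF4 i) = i) i i.2)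
  right_inv i := Fin.ext ((by decide +kernel : ∀ i < 4, pF4 (pF4 i) = i) i i.2)

lemma πF4_ρ (i : Fin chevF4.rank) : gF4.ρ (chevF4.simple i) = chevF4.simple (πF4 i) :=
  (by decide +kernel : ∀ i < 4, gF4.ρ (chevF4.simple i) = chevF4.simple (pF4 i)) i i.2

/-- the automorphism of the universal torus -/
abbrev sF4 (φ : K ≃+* K) : (Fin 4 → Kˣ) →* (Fin 4 → Kˣ) := sT (D := chevF4) πF4 (fun i => gF4.lam (chevF4.simple i)) φ

lemma sF4_apply (φ : K ≃+* K) (c : Fin 4 → Kˣ) : sF4 φ c =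
    ![Units.map (φ : K →* K) (c 3), Units.map (φ : K →* K) (c 2), Units.map (φ : K →* K) (c 1) ^ 2, Units.map (φ : K →* K) (c 0) ^ 2] := by
  have hl : ∀ i < 4, gF4.lam (chevF4.simple (pF4 i)) = [1, 1, 2, 2].getD i 0 := by decide +kernel
  have h : ∀ j : Fin 4, sF4 φ c j = Units.map (φ : K →* K) (c ⟨pF4 j, (by decide +kernel : ∀ i < 4, pF4 i < 4) j j.2⟩) ^
      ([1, 1, 2, 2].getD (j : ℕ) 0) := by
    intro j
    show Units.map (φ : K →* K) (c (πF4.symm j)) ^ gF4.lam (chevF4.simple (πF4.symm j : Fin chevF4.rank)) = _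
    rw [← hl j j.2]; rfl
  funext j
  rw [h]
  fin_cases j
  · exact pow_one _
  · exact pow_one _
  · rfl
  · rfl

/-- fixed elements of the universal torus -/
lemma fixF4 {φ : K ≃+* K} (hφ : ∀ t, φ (φ t) ^ 2 = t) (c : Fin 4 → Kˣ) : sF4 φ c = c ↔
    (c 0 = Units.map (φ : K →* K) (c 3) ∧ c 1 = Units.map (φ : K →* K) (c 2)) := by
  have h2 : ∀ u : Kˣ, Units.map (φ : K →* K) (Units.map (φ : K →* K) u) ^ 2 = u := by
    intro u
    apply Units.ext
    rw [Units.val_pow_eq_pow_val]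
    exact hφ u
  rw [sF4_apply]
  constructor
  · intro h
    exact ⟨(congrFun h 0).symm, (congrFun h 1).symm⟩
  · rintro ⟨h0, h1⟩
    funext j
    fin_cases j
    · exact h0.symm
    · exact h1.symm
    · show Units.map (φ : K →* K) (c 1) ^ 2 = c 2
      rw [h1, h2]
    · show Units.map (φ : K →* K) (c 0) ^ 2 = c 3
      rw [h0, h2]

variable {e : ℕ} (P : Pk chevF4 gF4 K e) [hc : CharP K 2] (hφ : ∀ t, P.φ (P.φ t) ^ 2 = t)

include hφ in
lemma f4_fx_torus : (TF4 P).Fx ⊓ chevF4.diagonalSubgroup K =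
      (MonoidHom.eqLocus (sF4 P.φ) (MonoidHom.id _)).map (torHom chevF4 K) :=
  fx_torus gF4_ok (Or.inr hc) P.hγ P.φ πF4_ρ (fun c z hz h => ⟨1, map_one _, by
    have hz1 : z = 1 := ker_F4 P.Q z hz
    have h1 : sF4 P.φ c = c := by
      have h2 : sF4 P.φ c = c * z := h
      rw [h2, hz1, mul_one]
    have h3 : c * 1 = c := mul_one c
    exact (congrArg (sF4 P.φ) h3).trans (h1.trans h3.symm)⟩)

include hφ in
lemma card_torus_F4 [Fintype K] : Nat.card ((TF4 P).Fx ⊓ chevF4.diagonalSubgroup K : Subgroup (GL chevF4.Idx K)) =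
    (Fintype.card K - 1) ^ 2 := by
  rw [f4_fx_torus P hφ]
  have h1 := card_map_mul (torHom chevF4 K) (MonoidHom.eqLocus (sF4 P.φ) (MonoidHom.id _))
  have hcard : Nat.card Kˣ = Fintype.card K - 1 := by
    classical
    rw [Nat.card_eq_fintype_card, Fintype.card_units]
  have h2 : Nat.card (MonoidHom.eqLocus (sF4 P.φ) (MonoidHom.id _)) = (Fintype.card K - 1) ^ 2 := by
    have e : MonoidHom.eqLocus (sF4 P.φ) (MonoidHom.id _) ≃ Kˣ × Kˣ :=
      { toFun := fun c => (c.1 3, c.1 2)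
        invFun := fun x => ⟨![Units.map (P.φ : K →* K) x.1, Units.map (P.φ : K →* K) x.2, x.2, x.1], (fixF4 hφ _).2 ⟨rfl, rfl⟩⟩
        left_inv := by
          rintro ⟨c, hc⟩
          have h := (fixF4 hφ _).1 hc
          apply Subtype.ext
          funext j
          fin_cases j
          · exact h.1.symm
          · exact h.2.symm
          · rfl
          · rfl
        right_inv := by
          rintro ⟨a, b⟩
          rfl }
    rw [Nat.card_congr e, Nat.card_prod, hcard, pow_two]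
  have h3 : Nat.card (MonoidHom.eqLocus (sF4 P.φ) (MonoidHom.id _) ⊓ (torHom chevF4 K).ker : Subgroup (Fin 4 → Kˣ)) = 1 := by
    rw [Subgroup.card_eq_one, Subgroup.eq_bot_iff_forall]
    rintro z ⟨_, hz2⟩
    exact ker_F4 P.Q z hz2
  have h5 := fin3 h1 h3 h2
  rw [mul_one] at h5
  exact h5

omit hc in
lemma f4_w1' [CharP K 2] (t : ℕ → K) (h : ∀ a ∈ [0, 3], t (pF4 a) = P.φ (t a) ^ gF4.lam (chevF4.simple a)) :
    yP P.Q [0, 3] t ∈ twistedF4 K e := by
  have h3 := h 3 (by simp)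
  rw [show gF4.lam (chevF4.simple 3) = 1 by decide +kernel, pow_one, show pF4 3 = 0 from rfl] at h3
  rw [f4_yP, h3]
  exact f4_m1 P _

omit hc in
lemma f4_w2' [CharP K 2] (t : ℕ → K) (h : ∀ a ∈ [0, 3], t (pF4 a) = P.φ (t a) ^ gF4.lam (chevF4.simple a)) :
    yN P.Q [0, 3] t ∈ twistedF4 K e := by
  have h3 := h 3 (by simp)
  rw [show gF4.lam (chevF4.simple 3) = 1 by decide +kernel, pow_one, show pF4 3 = 0 from rfl] at h3
  rw [f4_yN, h3]
  exact f4_m2 P _

variable (K) in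
/-- the torus homomorphism with explicit indices -/
noncomputable def tF : (Fin 4 → Kˣ) →* GL chevF4.Idx K := torHom chevF4 K

omit hc in
lemma tF_dG (c : Fin 4 → Kˣ) : tF K c = dG chevF4 (fun s => c 0 ^ chevF4.cartan 0 s * c 1 ^ chevF4.cartan 1 s *
    c 2 ^ chevF4.cartan 2 s * c 3 ^ chevF4.cartan 3 s) := by
  refine (torHom_dG (D := chevF4) c).trans (dG_congr ?_)
  intro s _
  exact Fin.prod_univ_four (fun i : Fin 4 => c i ^ chevF4.cartan i s)

include hφ in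
/-- torus elements of the first class -/
lemma f4_h0 (t : Kˣ) : tF K ![Units.map (P.φ : K →* K) t, 1, 1, t] ∈ twistedF4 K e := by
  have h1 := torHom_list' P.Q.C [0, 3] comF4.lt comF4.nd (c := (![Units.map (P.φ : K →* K) t, 1, 1, t] : Fin 4 → Kˣ)) (by
    intro j hj
    fin_cases j
    · simp at hj
    · rfl
    · rfl
    · simp at hj)
  have h2 : tF K ![Units.map (P.φ : K →* K) t, 1, 1, t] = _ := h1
  rw [h2]
  apply comF4.h_mem (Q := P.Q) (G := gF4) P.φ (π := pF4) (by decide +kernel) (by decide +kernel) (by decide +kernel) (f4_w1' P) (f4_w2' P)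
  · intro a _
    rw [CharTwo.neg_eq, one_pow]
  · intro a ha
    have : a = 0 ∨ a = 3 := by simpa using ha
    rcases this with rfl | rfl
    · rw [show gF4.lam (chevF4.simple 0) = 2 by decide +kernel]
      show (t : K) = P.φ (P.φ (t : K)) ^ 2
      rw [hφ]
    · rw [show gF4.lam (chevF4.simple 3) = 1 by decide +kernel]
      show P.φ (t : K) = P.φ (t : K) ^ 1
      rw [pow_one]

lemma f4_aux {M : Type*} [CommGroup M] (x t : M) (a b c d b' c' : ℤ) : x ^ (a + 2 * b + 2 * c) * 1 ^ b' * 1 ^ c' * t ^ (d + b + 2 * c) =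
    x ^ a * (x ^ 2 * t) ^ b * (x ^ 2 * t ^ 2) ^ c * t ^ d := by
  have h2 : ∀ (y : M) (k : ℤ), (y ^ 2) ^ k = y ^ (2 * k) := fun y k => by
    rw [← zpow_natCast, ← _root_.zpow_mul]; rfl
  simp only [_root_.one_zpow, mul_one, _root_.mul_zpow, h2, _root_.zpow_add]
  generalize x ^ a = x1
  generalize x ^ (2 * b) = x2
  generalize x ^ (2 * c) = x3
  generalize t ^ d = x4
  generalize t ^ b = x5
  generalize t ^ (2 * c) = x6
  calc x1 * x2 * x3 * (x4 * x5 * x6) = x1 * x2 * x3 * (x4 * (x5 * x6)) := by rw [mul_assoc x4]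
    _ = x1 * x2 * x3 * ((x5 * x6) * x4) := by rw [mul_comm x4]
    _ = x1 * x2 * (x3 * x5) * x6 * x4 := by simp only [mul_assoc]
    _ = x1 * x2 * (x5 * x3) * x6 * x4 := by rw [mul_comm x3]
    _ = _ := by simp only [mul_assoc]

/-- conjugating the first torus by the second generator -/
lemma f4_conj {n : GL chevF4.Idx K} {u : Fin chevF4.nroots → Kˣ} (hm : Mono P.Q n ((HF4 P).wJ 1) u) (x t : Kˣ) :
    n * tF K ![x, 1, 1, t] * n⁻¹ = tF K ![x, x ^ 2 * t, x ^ 2 * t ^ 2, t] := by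
  rw [tF_dG, tF_dG, hm.conj_dG]
  apply dG_congr
  intro s hs
  rw [dif_pos hs]
  have hw : (((HF4 P).wJ 1)⁻¹ ⟨s, hs⟩ : Fin chevF4.nroots) = (HF4 P).wJ 1 ⟨s, hs⟩ := by rw [(HF4 P).wJ_inv]
  have hw2 : (((HF4 P).wJ 1 ⟨s, hs⟩ : Fin chevF4.nroots) : ℕ) = wapp chevF4 [1, 2, 1, 2] s := mkTwJ_wJ _ _ _ _
  rw [hw, hw2]
  have e0 := (by decide +kernel : ∀ s < chevF4.nroots, chevF4.cartan 0 (wapp chevF4 [1, 2, 1, 2] s) =
    chevF4.cartan 0 s + 2 * chevF4.cartan 1 s + 2 * chevF4.cartan 2 s) s hs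
  have e3 := (by decide +kernel : ∀ s < chevF4.nroots, chevF4.cartan 3 (wapp chevF4 [1, 2, 1, 2] s) =
    chevF4.cartan 3 s + chevF4.cartan 1 s + 2 * chevF4.cartan 2 s) s hs
  rw [e0, e3]
  generalize chevF4.cartan 0 s = a
  generalize chevF4.cartan 3 s = d
  generalize chevF4.cartan 1 (wapp chevF4 [1, 2, 1, 2] s) = b'
  generalize chevF4.cartan 2 (wapp chevF4 [1, 2, 1, 2] s) = c'
  generalize chevF4.cartan 1 s = b
  generalize chevF4.cartan 2 s = c
  exact f4_aux x t a b c d b' c'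

variable (hs : ∀ s : Kˣ, ∃ t : Kˣ, Units.map (P.φ : K →* K) t ^ 2 * t ^ 2 = s)

include hφ hs in
/-- torus elements of the second class -/
lemma f4_h1 (s : Kˣ) : tF K ![1, Units.map (P.φ : K →* K) s, s, 1] ∈ twistedF4 K e := by
  obtain ⟨t, rfl⟩ := hs s
  obtain ⟨n, hn, hnN, u, hm⟩ := (f4_twG P hφ).exists_nJ 1
  have h1 := f4_h0 P hφ t
  have h2 := f4_conj P hm (Units.map (P.φ : K →* K) t) t
  have h4 : Units.map (P.φ : K →* K) (Units.map (P.φ : K →* K) t ^ 2 * t ^ 2) =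
      Units.map (P.φ : K →* K) t ^ 2 * t := by
    apply Units.ext
    show P.φ ((P.φ (t : K)) ^ 2 * (t : K) ^ 2) = (P.φ (t : K)) ^ 2 * (t : K)
    rw [map_mul, map_pow, hφ, map_pow, mul_comm]
  have h3 : tF K ![1, Units.map (P.φ : K →* K) (Units.map (P.φ : K →* K) t ^ 2 * t ^ 2),
      Units.map (P.φ : K →* K) t ^ 2 * t ^ 2, 1] =
      (n * tF K ![Units.map (P.φ : K →* K) t, 1, 1, t] * n⁻¹) *
        (tF K ![Units.map (P.φ : K →* K) t, 1, 1, t])⁻¹ := by
    rw [h2, eq_mul_inv_iff_mul_eq, ← map_mul (tF K), h4]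
    refine congrArg (tF K) ?_
    funext j
    fin_cases j
    · exact one_mul _
    · exact mul_one _
    · exact mul_one _
    · exact one_mul _
  rw [h3]
  exact Subgroup.mul_mem _ (Subgroup.mul_mem _ (Subgroup.mul_mem _ hn h1) (Subgroup.inv_mem _ hn)) (Subgroup.inv_mem _ h1)

include hφ hs in
theorem f4_torus_le : (TF4 P).Fx ⊓ chevF4.diagonalSubgroup K ≤ twistedF4 K e := by
  rw [f4_fx_torus P hφ]
  rintro _ ⟨c, hc', rfl⟩
  have key : ∀ c : Fin 4 → Kˣ, sF4 P.φ c = c → tF K c ∈ twistedF4 K e := by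
    intro c hc'
    obtain ⟨h0, h1⟩ := (fixF4 hφ c).1 hc'
    have h2 : tF K c = tF K ![Units.map (P.φ : K →* K) (c 3), 1, 1, c 3] *
        tF K ![1, Units.map (P.φ : K →* K) (c 2), c 2, 1] := by
      rw [← map_mul (tF K)]
      refine congrArg (tF K) ?_
      funext j
      fin_cases j
      · exact h0.trans (mul_one _).symm
      · exact h1.trans (one_mul _).symm
      · exact (one_mul _).symm
      · exact (mul_one _).symm
    rw [h2]
    exact Subgroup.mul_mem _ (f4_h0 P hφ _) (f4_h1 P hφ hs _)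
  exact key c hc'

include hφ hs in
theorem f4_eq : twistedF4 K e = (TF4 P).Fx := (f4_twG P hφ).eq_Fx (f4_torus_le P hφ hs)

end F4

end Cfsg.Agent.Lib.ChevAlg
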