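import Cfsg.Agent.Lib.ChevTwF

/-!
# Twisted groups all of whose classes are commuting; Frobenius automorphisms
-/

set_option autoImplicit false

namespace Cfsg.Agent.Lib.ChevAlg

open Cfsg.Lie Cfsg.Agent.Lib.ChevTab Matrix

/-- the `q`-power automorphism -/
lemma exists_frob {K : Type*} [Field K] [Fintype K] {q k : ℕ} (hq : IsPrimePow q) (hk : 0 < k) (hK : Fintype.card K = q ^ k) :
    ∃ φ : K ≃+* K, ∀ t, φ t = t ^ q := by
  obtain ⟨p, n, hp, hn, rfl⟩ := hq
  have hp' : p.Prime := Nat.prime_iff.2 hp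
  have : Fact p.Prime := ⟨hp'⟩
  have : CharP K p := by
    obtain ⟨p', hc⟩ := CharP.exists K
    obtain ⟨m, hp2, h2⟩ := FiniteField.card K p'
    have h3 : p ∣ p' ^ (m : ℕ) := by
      rw [← h2, hK, ← pow_mul]
      exact dvd_pow_self p (by positivity)
    have h4 : p = p' := (Nat.prime_dvd_prime_iff_eq hp' hp2).1 (hp'.dvd_of_dvd_pow h3)
    rw [h4]; exact hc
  refine ⟨RingEquiv.ofBijective (iterateFrobenius K p n) ((Finite.injective_iff_bijective).1 (RingHom.injective _)), fun t => ?_⟩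
  show iterateFrobenius K p n t = t ^ p ^ n
  rw [iterateFrobenius_def]

/-- the number of elements fixed by the `q`-power map -/
lemma card_frob_fix {K : Type*} [Field K] [Fintype K] {q k : ℕ} (hq : 1 < q) (hk : 0 < k) (hK : Fintype.card K = q ^ k) :
    Nat.card {t : K // t ^ q = t} = q := by
  classical
  have h1 : Nat.card {u : Kˣ // u ^ (q - 1) = 1} = q - 1 := by
    have h2 : Nat.card {u : Kˣ // u ^ (q - 1) = 1} = (q - 1).gcd (Nat.card Kˣ) := by
      have := IsCyclic.card_powMonoidHom_range (G := Kˣ) (d := q - 1)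
      have h3 := Subgroup.card_mul_index (powMonoidHom (q - 1) : Kˣ →* Kˣ).ker
      have h4 : (powMonoidHom (q - 1) : Kˣ →* Kˣ).ker.index = Nat.card (powMonoidHom (q - 1) : Kˣ →* Kˣ).range :=
        Subgroup.index_ker _
      have h5 : Nat.card {u : Kˣ // u ^ (q - 1) = 1} = Nat.card (powMonoidHom (q - 1) : Kˣ →* Kˣ).ker := rfl
      rw [h4, this] at h3
      rw [h5]
      have hpos : 0 < Nat.card Kˣ := Nat.card_pos
      have hd := Nat.gcd_dvd_left (Nat.card Kˣ) (q - 1)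
      have h6 : 0 < (Nat.card Kˣ) / (Nat.card Kˣ).gcd (q - 1) :=
        Nat.div_pos (Nat.le_of_dvd hpos hd) (Nat.gcd_pos_of_pos_left _ hpos)
      rw [Nat.gcd_comm (q - 1)]
      apply Nat.eq_of_mul_eq_mul_right h6
      rw [h3, Nat.mul_div_cancel' hd]
    rw [h2, Nat.card_eq_fintype_card, Fintype.card_units, hK]
    apply Nat.gcd_eq_left
    obtain ⟨m, rfl⟩ : ∃ m, k = m + 1 := ⟨k - 1, by omega⟩
    exact Nat.sub_one_dvd_pow_sub_one q (m + 1)
  have e : {t : K // t ^ q = t} ≃ Option {u : Kˣ // u ^ (q - 1) = 1} :=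
    { toFun := fun t => if h : (t : K) = 0 then none else some ⟨Units.mk0 t h, by
        apply Units.ext
        have h2 := t.2
        have h3 : (t : K) ^ (q - 1) * t = 1 * t := by
          rw [← pow_succ, Nat.sub_add_cancel hq.le, h2, one_mul]
        exact mul_right_cancel₀ h h3⟩
      invFun := fun o => match o with
        | none => ⟨0, by rw [zero_pow (by omega)]⟩
        | some u => ⟨(u : Kˣ), by
          have h2 : ((u : Kˣ) : K) ^ (q - 1) = 1 := by
            have := congrArg Units.val u.2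
            simpa using this
          have h3 : ((u : Kˣ) : K) ^ q = ((u : Kˣ) : K) ^ (q - 1) * (u : Kˣ) := by
            rw [← pow_succ, Nat.sub_add_cancel hq.le]
          rw [h3, h2, one_mul]⟩
      left_inv := by
        rintro ⟨t, ht⟩
        by_cases h : t = 0
        · subst h; simp
        · simp [h]
      right_inv := by
        rintro (_ | ⟨u, hu⟩)
        · simp
        · simp }
  rw [Nat.card_congr e, Finite.card_option, h1]
  omega

variable {D : ChevalleyDatum} {K : Type*} [Field K] {Q : ChevO D K}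

/-- data when all classes are commuting -/
structure CD (D : ChevalleyDatum) (G : GDat) (n : ℕ) (J : ℕ → List ℕ) (π : ℕ → ℕ) : Prop where
  jd : JD D G.ρ n J J
  com : ∀ i < n, ComJ D (J i)
  rev : ∀ i < n, ∀ a ∈ J i, wapp D (J i) (D.simple a) = D.nroots - 1 - D.simple a
  perm : ∀ i < n, ((J i).map π).Perm (J i)
  hπ : ∀ a < D.rank, G.ρ (D.simple a) = D.simple (π a)
  eps : ∀ a < D.rank, G.eps (D.simple a) = 1
  lam : ∀ a < D.rank, G.lam (D.simple a) = 1

section one

variable {G : GDat} (hG : G.Ok D) (hcp : ChP K G.p) {γ : MulAut ↥(D.group K)}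
    (hγ : ∀ r < D.nroots, ∀ t, γ (xg Q r t) = Yg Q G r t) (φ : K ≃+* K)
  {J : List ℕ} (hJ : ComJ D J) {π : ℕ → ℕ} (hπ : (J.map π).Perm J) (hπG : ∀ a ∈ J, G.ρ (D.simple a) = D.simple (π a))
  (he : ∀ a ∈ J, G.eps (D.simple a) = 1)

include hJ in
/-- negative products are nontrivial -/
lemma ComJ.yN_ne (hS : SuppD Q.C) (hrev : ∀ a ∈ J, wapp D J (D.simple a) = D.nroots - 1 - D.simple a) (hne : J ≠ []) :
    yN Q J (fun _ => 1) ≠ 1 := by
  obtain ⟨u, hm⟩ := nw_mono Q (fl D J)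
  obtain ⟨a0, ha0⟩ := List.exists_mem_of_ne_nil _ hne
  classical
  set t : ℕ → K := fun a => if h : D.simple a < D.nroots then (((u ⟨D.simple a, h⟩)⁻¹ : Kˣ) : K) else 0 with ht
  have h1 : nw Q (fl D J) * yP Q J t * (nw Q (fl D J))⁻¹ = yN Q J (fun _ => 1) := by
    have key : ∀ L : List ℕ, (∀ a ∈ L, a ∈ J) → nw Q (fl D J) * (L.map fun a => xG Q (D.simple a) (t a)).prod * (nw Q (fl D J))⁻¹ =
        (L.map fun a => xG Q (D.nroots - 1 - D.simple a) (1 : K)).prod := by
      intro L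
      induction L with
      | nil => intro _; simp
      | cons a L ih =>
        intro h
        have ha := h a List.mem_cons_self
        have hlt := Q.C.simple_lt a (hJ.lt a ha)
        rw [List.map_cons, List.prod_cons, List.map_cons, List.prod_cons, ← ih (fun b hb => h b (List.mem_cons_of_mem _ hb))]
        have h2 := hm.conj ⟨D.simple a, hlt⟩ (t a)
        rw [wapp_ww, fl_map hJ.lt] at h2
        have h3 : (u ⟨D.simple a, hlt⟩ : K) * t a = 1 := by
          rw [ht]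
          simp only [dif_pos hlt]
          exact Units.mul_inv _
        rw [h3] at h2
        have h4 : wapp D J ((⟨D.simple a, hlt⟩ : Fin D.nroots) : ℕ) = D.nroots - 1 - D.simple a := hrev a ha
        rw [h4] at h2
        rw [← h2]
        group
    exact key J (fun a ha => ha)
  intro h
  rw [h, mul_inv_eq_one] at h1
  have h2 : yP Q J t = 1 := by simpa using h1
  have h3 : yP Q J (fun _ => 0) = 1 := by
    rw [yP]
    apply List.prod_eq_one
    intro x hx
    rw [List.mem_map] at hx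
    obtain ⟨a, _, rfl⟩ := hx
    exact xG_zero Q _
  have h4 := hJ.yP_inj hS (h2.trans h3.symm) a0 ha0
  rw [ht] at h4
  simp only [dif_pos (Q.C.simple_lt a0 (hJ.lt a0 ha0))] at h4
  exact Units.ne_zero _ h4

include hJ hπ hπG he in
/-- torus elements of a commuting class -/
lemma ComJ.h_mem {G1 : Subgroup (GL D.Idx K)}
    (hw1 : ∀ t : ℕ → K, (∀ a ∈ J, t (π a) = φ (t a) ^ G.lam (D.simple a)) → yP Q J t ∈ G1)
    (hw2 : ∀ t : ℕ → K, (∀ a ∈ J, t (π a) = φ (t a) ^ G.lam (D.simple a)) → yN Q J t ∈ G1)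
    (hneg : ∀ a ∈ J, (-1 : K) ^ G.lam (D.simple a) = -1)
    {u : ℕ → Kˣ} (hu : ∀ a ∈ J, (u (π a) : K) = φ (u a) ^ G.lam (D.simple a)) :
    (J.map fun a => dG D (cp D (D.simple a) (u a))).prod ∈ G1 := by
  have key : ∀ t : ℕ → K, (∀ a ∈ J, t (π a) = φ (t a) ^ G.lam (D.simple a)) → nP Q J t ∈ G1 := by
    intro t h
    rw [hJ.nP_eq]
    have h2 : ∀ a ∈ J, -(t (π a))⁻¹ = φ (-(t a)⁻¹) ^ G.lam (D.simple a) := by
      intro a ha
      rw [h a ha, map_neg, map_inv₀, neg_eq_neg_one_mul (φ (t a))⁻¹, mul_pow, hneg a ha, inv_pow, neg_one_mul]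
    exact Subgroup.mul_mem _ (Subgroup.mul_mem _ (hw1 t h) (hw2 _ h2)) (hw1 t h)
  rw [hJ.h_eq (Q := Q)]
  refine Subgroup.mul_mem _ (key _ hu) (key _ ?_)
  intro a ha
  show (-1 : K) = φ (-1) ^ G.lam (D.simple a)
  rw [map_neg, map_one, hneg a ha]

end one

section all

variable {G : GDat} (hG : G.Ok D) (hcp : ChP K G.p) {γ : MulAut ↥(D.group K)}
    (hγ : ∀ r < D.nroots, ∀ t, γ (xg Q r t) = Yg Q G r t) (φ : K ≃+* K)
  {n : ℕ} {J : ℕ → List ℕ} {π : ℕ → ℕ} (C : CD D G n J π) {G1 : Subgroup (GL D.Idx K)}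
  (hle : G1 ≤ (mkTw Q hG hcp hγ φ).Fx)
  (hw1 : ∀ i < n, ∀ t : ℕ → K, (∀ a ∈ J i, t (π a) = φ (t a)) → yP Q (J i) t ∈ G1)
  (hw2 : ∀ i < n, ∀ t : ℕ → K, (∀ a ∈ J i, t (π a) = φ (t a)) → yN Q (J i) t ∈ G1)

/-- the orbit structure -/
noncomputable abbrev CD.H : TwJ (mkTw Q hG hcp hγ φ) (Fin n) := mkTwJ (T := mkTw Q hG hcp hγ φ) (fun _ => rfl) C.jd

include C in
lemma CD.fix_iff (hS : SuppD Q.C) {i : ℕ} (hi : i < n) (t : ℕ → K) : yP Q (J i) t ∈ (mkTw Q hG hcp hγ φ).Fx ↔
    ∀ a ∈ J i, t (π a) = φ (t a) := by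
  have hlt := (C.com i hi).lt
  rw [(C.com i hi).fix_iff hG hcp hγ φ (C.perm i hi) (fun a ha => C.hπ a (hlt a ha)) (fun a ha => C.eps a (hlt a ha)) hS]
  constructor
  · intro h a ha
    have := h a ha
    rwa [C.lam a (hlt a ha), pow_one] at this
  · intro h a ha
    rw [C.lam a (hlt a ha), pow_one]
    exact h a ha

include C in
lemma CD.fixN {i : ℕ} (hi : i < n) (t : ℕ → K) (h : ∀ a ∈ J i, t (π a) = φ (t a)) : yN Q (J i) t ∈ (mkTw Q hG hcp hγ φ).Fx := by
  have hlt := (C.com i hi).lt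
  apply (C.com i hi).fixN hG hcp hγ φ (C.perm i hi) (fun a ha => C.hπ a (hlt a ha)) (fun a ha => C.eps a (hlt a ha))
  intro a ha
  rw [C.lam a (hlt a ha), pow_one]
  exact h a ha

include hle hw1 hw2 in
theorem CD.twG (hS : SuppD Q.C) : TwG (C.H hG hcp hγ φ) G1 := by
  apply TwG.of (H := C.H hG hcp hγ φ) hS (fun i => C.jd.lt i i.2) hle
  · intro i y hy
    have hS' : y ∈ XS Q (PJ Q (J i)) := hy.2
    obtain ⟨t, rfl⟩ := (C.com i i.2).exists_yP hS hS'
    exact hw1 i i.2 t ((C.fix_iff hG hcp hγ φ hS i.2 t).1 hy.1)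
  · intro i
    have h1 : ∀ a ∈ J i, (1 : K) = φ 1 := fun a _ => by rw [map_one]
    exact ⟨yN Q (J i) (fun _ => 1), ⟨C.fixN hG hcp hγ φ i.2 _ h1, (C.com i i.2).yN_mem _⟩, hw2 i i.2 _ h1,
      (C.com i i.2).yN_ne hS (C.rev i i.2) (C.jd.ne i i.2)⟩

include C hw1 hw2 in
/-- the fixed torus is contained in the twisted group -/
theorem CD.torus_le {πp : Equiv.Perm (Fin D.rank)} (hπp : ∀ i : Fin D.rank, ((πp i : Fin D.rank) : ℕ) = π i)
    {c : Fin D.rank → Kˣ} (hc : sT πp (fun i => G.lam (D.simple i)) φ c = c) : torHom D K c ∈ G1 := by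
  classical
  -- decompose into orbits
  have h1 : c = ∏ i : Fin n, (fun j : Fin D.rank => if (j : ℕ) ∈ J i then c j else 1) := by
    funext j
    rw [Finset.prod_apply]
    obtain ⟨i, hi, hij⟩ := C.jd.cover j j.2
    rw [Finset.prod_eq_single (⟨i, hi⟩ : Fin n)]
    · rw [if_pos hij]
    · intro b _ hb
      rw [if_neg]
      intro h
      exact hb (Fin.ext (C.jd.dis b b.2 i hi j h hij))
    · intro h; exact absurd (Finset.mem_univ _) h
  have h2 : c ∈ G1.comap (torHom D K) := by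
    rw [h1]
    apply Subgroup.prod_mem
    intro i _
    show torHom D K (fun j : Fin D.rank => if (j : ℕ) ∈ J i then c j else 1) ∈ G1
    have hlt := (C.com i i.2).lt
    rw [torHom_list' Q.C (J i) hlt (C.com i i.2).nd _ (fun j hj => if_neg hj)]
    have h3 : ((J i).map fun a => dG D (cp D (D.simple a) (ext1 (fun j : Fin D.rank => if (j : ℕ) ∈ J i then c j else 1) a))) =
        (J i).map fun a => dG D (cp D (D.simple a) (ext1 c a)) := by
      apply List.map_congr_left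
      intro a ha
      rw [ext1_lt (hlt a ha), ext1_lt (hlt a ha), if_pos ha]
    rw [h3]
    apply (C.com i i.2).h_mem φ (C.perm i i.2) (fun a ha => C.hπ a (hlt a ha)) (fun a ha => C.eps a (hlt a ha)) (Q := Q)
    · intro t ht
      apply hw1 i i.2
      intro a ha
      have := ht a ha
      rwa [C.lam a (hlt a ha), pow_one] at this
    · intro t ht
      apply hw2 i i.2
      intro a ha
      have := ht a ha
      rwa [C.lam a (hlt a ha), pow_one] at this
    · intro a ha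
      rw [C.lam a (hlt a ha), pow_one]
    · intro a ha
      have hπa : π a ∈ J i := (C.perm i i.2).mem_iff.1 (List.mem_map_of_mem ha)
      have h4 := congrFun hc (πp ⟨a, hlt a ha⟩)
      have h5 : sT πp (fun i => G.lam (D.simple i)) φ c (πp ⟨a, hlt a ha⟩) =
        Units.map (φ : K →* K) (c (πp.symm (πp ⟨a, hlt a ha⟩))) ^ G.lam (D.simple (πp.symm (πp ⟨a, hlt a ha⟩) : Fin D.rank)) := rfl
      rw [h5, Equiv.symm_apply_apply] at h4
      have h6 : ext1 c (π a) = c (πp ⟨a, hlt a ha⟩) := by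
        rw [ext1_lt (hlt _ hπa)]
        congr 1
        exact Fin.ext (hπp ⟨a, hlt a ha⟩).symm
      rw [h6, ext1_lt (hlt a ha), ← h4]
      simp
  exact h2

include C in
lemma CD.full (hS : SuppD Q.C) (i : Fin n) : ∃ t : ℕ → K,
    prodL Q (lst D (PJ Q ((C.H hG hcp hγ φ).J i))) t ∈ (mkTw Q hG hcp hγ φ).Fx ∧ ∀ a ∈ (C.H hG hcp hγ φ).J i, t (D.simple a) ≠ 0 := by
  refine ⟨fun _ => 1, ?_, fun a _ => one_ne_zero⟩
  rw [show (C.H hG hcp hγ φ).J i = J i from rfl, (C.com i i.2).prodL_eq hS, C.fix_iff hG hcp hγ φ hS i.2]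
  intro a _
  rw [map_one]

end all

end Cfsg.Agent.Lib.ChevAlg
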