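import Cfsg.Agent.Lib.ChevS

/-!
# Identities between words with constant parameters, modulo a prime
-/

set_option autoImplicit false

namespace Cfsg.Agent.Lib.ChevAlg

open Cfsg.Lie Cfsg.Agent.Lib.ChevTab Matrix

/-- extend a word with zero exponents -/
def wx (W : List (ℕ × ℤ)) : List (ℕ × ℤ × ℕ × ℕ) := W.map fun x => (x.1, x.2, 0, 0)

/-- comparison of two words with constant parameters modulo `p` -/
def wchk (D : ChevalleyDatum) (N : ℕ → ℕ → ℤ) (S : ℕ → ℕ → ℕ) (p : ℕ) (W1 W2 : List (ℕ × ℤ)) (k : ℕ) : Bool :=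
  (fun L0 => pwordOK D N S (wx W1) L0 && pwordOK D N S (wx W2) L0 &&
    (pnorm (pword D N S (wx W1) L0 ++ (pword D N S (wx W2) L0).map fun x => (-x.1, x.2))).all (fun x => decide (x.1 % p = 0)))
    [((1 : ℤ), 0, 0, k)]

lemma pval_zero_of {D : ChevalleyDatum} {R : Type*} [CommRing R] {p : ℕ} [CharP R p] (t u : R) (L : List PT)
    (h : L.all (fun x => decide (x.1 % p = 0)) = true) : pval D R t u L = 0 := by
  induction L with
  | nil => exact pval_nil R t u
  | cons x L ih =>
    rw [List.all_cons, Bool.and_eq_true, decide_eq_true_eq] at h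
    rw [pval_cons, ih h.2, pval1]
    have : (x.1 : R) = 0 := (CharP.intCast_eq_zero_iff R p x.1).2 (Int.dvd_of_emod_eq_zero h.1)
    rw [this]
    simp

theorem wordMat_eq_of {D : ChevalleyDatum} {F : Type*} [Field F] {p : ℕ} [CharP F p] (C : Cert D) {W1 W2 : List (ℕ × ℤ)}
    (h : ∀ k < D.rank + D.nroots, wchk D C.N C.S p W1 W2 k = true) :
    D.wordMat F (W1.map fun x => (x.1, (x.2 : F))) = D.wordMat F (W2.map fun x => (x.1, (x.2 : F))) := by
  have e : ∀ W : List (ℕ × ℤ), (wx W).map (fun c => (c.1, (c.2.1 : F) * (-1) ^ c.2.2.1 * 1 ^ c.2.2.2)) =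
      W.map fun x => (x.1, (x.2 : F)) := by
    intro W
    rw [wx, List.map_map]
    apply List.map_congr_left
    intro x _
    simp
  have key : ∀ k < D.rank + D.nroots, D.wordMat F (W1.map fun x => (x.1, (x.2 : F))) *ᵥ bas D F k =
      D.wordMat F (W2.map fun x => (x.1, (x.2 : F))) *ᵥ bas D F k := by
    intro k hk
    have h1 := h k hk
    simp only [wchk, Bool.and_eq_true] at h1
    obtain ⟨⟨k1, k2⟩, k3⟩ := h1
    have e0 : pval D F 1 1 [((1 : ℤ), 0, 0, k)] = bas D F k := by simp [pval, pval1]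
    have w1 := pword_val C (1 : F) 1 _ _ k1
    have w2 := pword_val C (1 : F) 1 _ _ k2
    have hz := pval_zero_of (D := D) (1 : F) 1 _ k3
    rw [pval_pnorm, pval_append, pval_neg, w1, w2, e0, e, e, ← sub_eq_add_neg, sub_eq_zero] at hz
    exact hz
  apply mat_ext
  · intro i hi
    have := key i (by omega)
    rwa [bas, if_pos hi] at this
  · intro s hs
    have := key (D.rank + s) (by omega)
    rwa [bas_rank_add] at this

end Cfsg.Agent.Lib.ChevAlg
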