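import Cfsg.Agent.Lib.ChevTwF4d
import Cfsg.Agent.Lib.ChevWChk

/-!
# The groups `²G₂(q)`: generators
-/

set_option autoImplicit false

namespace Cfsg.Agent.Lib.ChevAlg

open Cfsg.Lie Cfsg.Agent.Lib.ChevTab Matrix

/-- relations among root elements in a class of type `G₂`, characteristic three -/
structure G2R {K : Type*} [Field K] {M : Type*} [Group M] (ya yb yc yd ye yf : K → M) : Prop where
  ba : ∀ s t, yb t * ya s = ya s * yb t * (yc (s * t) * yd (s ^ 2 * t) * (ye (-(s ^ 3 * t)) * yf (-(s ^ 3 * t ^ 2))))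
  addc : ∀ u v, yc u * yc v = yc (u + v)
  addd : ∀ u v, yd u * yd v = yd (u + v)
  adde : ∀ u v, ye u * ye v = ye (u + v)
  addf : ∀ u v, yf u * yf v = yf (u + v)
  cd : ∀ s t, Commute (yc s) (yd t)
  ce : ∀ s t, Commute (yc s) (ye t)
  cf : ∀ s t, Commute (yc s) (yf t)
  de : ∀ s t, Commute (yd s) (ye t)
  df : ∀ s t, Commute (yd s) (yf t)
  ef : ∀ s t, Commute (ye s) (yf t)

section g2r

variable {K : Type*} [Field K] {M : Type*} [Group M] {ya yb yc yd ye yf : K → M} (R : G2R ya yb yc yd ye yf)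
include R

lemma G2R.zero_c : yc 0 = 1 := by
  have := R.addc 0 0
  rw [add_zero] at this
  exact mul_eq_left.1 this
lemma G2R.zero_d : yd 0 = 1 := by
  have := R.addd 0 0
  rw [add_zero] at this
  exact mul_eq_left.1 this
lemma G2R.zero_e : ye 0 = 1 := by
  have := R.adde 0 0
  rw [add_zero] at this
  exact mul_eq_left.1 this
lemma G2R.zero_f : yf 0 = 1 := by
  have := R.addf 0 0
  rw [add_zero] at this
  exact mul_eq_left.1 this

lemma G2R.mul_V (u v w z u' v' w' z' : K) : (yc u * yd v * (ye w * yf z)) * (yc u' * yd v' * (ye w' * yf z')) =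
    yc (u + u') * yd (v + v') * (ye (w + w') * yf (z + z')) := by
  have h1 := (R.cf u' z).eq
  have h2 := (R.ce u' w).eq
  have h3 := (R.cd u' v).eq
  have h4 := (R.df v' z).eq
  have h5 := (R.de v' w).eq
  have h6 := (R.ef w' z).eq
  calc (yc u * yd v * (ye w * yf z)) * (yc u' * yd v' * (ye w' * yf z'))
      = yc u * yd v * ye w * (yf z * yc u') * yd v' * ye w' * yf z' := by group
    _ = yc u * yd v * (ye w * yc u') * yf z * yd v' * ye w' * yf z' := by rw [← h1]; group
    _ = yc u * (yd v * yc u') * ye w * yf z * yd v' * ye w' * yf z' := by rw [← h2]; group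
    _ = yc u * yc u' * yd v * ye w * (yf z * yd v') * ye w' * yf z' := by rw [← h3]; group
    _ = yc u * yc u' * yd v * (ye w * yd v') * yf z * ye w' * yf z' := by rw [← h4]; group
    _ = yc u * yc u' * yd v * yd v' * ye w * (yf z * ye w') * yf z' := by rw [← h5]; group
    _ = (yc u * yc u') * (yd v * yd v') * ((ye w * ye w') * (yf z * yf z')) := by rw [← h6]; group
    _ = _ := by rw [R.addc, R.addd, R.adde, R.addf]

lemma G2R.V_comm (w z u v : K) : ye w * yf z * (yc u * yd v) = yc u * yd v * (ye w * yf z) := by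
  have h := R.mul_V 0 0 w z u v 0 0
  rw [R.zero_c, R.zero_d, R.zero_e, R.zero_f, one_mul, one_mul, mul_one] at h
  rw [h, zero_add, zero_add, add_zero, add_zero]

lemma G2R.ab (s t : K) : ya s * yb t = yb t * ya s *
    (yc (-(s * t)) * yd (-(s ^ 2 * t)) * (ye (s ^ 3 * t) * yf (s ^ 3 * t ^ 2))) := by
  rw [R.ba, mul_assoc _ (yc (s * t) * yd (s ^ 2 * t) * _), R.mul_V]
  rw [add_neg_cancel, add_neg_cancel, neg_add_cancel, neg_add_cancel, R.zero_c, R.zero_d, R.zero_e, R.zero_f]
  simp

/-- normal form of the words -/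
lemma G2R.word (φ : K → K) (t u v : K) :
    ya (φ t) * yb t * (yc (φ t * t + φ u) * yd (φ t ^ 2 * t + φ v) * (ye u * yf v)) =
      yb t * ya (φ t) * (yc (φ u) * yd (φ v) * (ye (u + φ t ^ 3 * t) * yf (v + φ t ^ 3 * t ^ 2))) := by
  rw [R.ab, mul_assoc _ (yc _ * yd _ * _), R.mul_V]
  congr 2
  · congr 2 <;> ring
  · congr 2 <;> ring

/-- action of a Steinberg endomorphism -/
lemma G2R.s_eq {σ : M → M} {G : Subgroup M} (hσ : ∀ x ∈ G, ∀ y ∈ G, σ (x * y) = σ x * σ y) (φ : K → K)
    (ma : ∀ s, ya s ∈ G) (mb : ∀ s, yb s ∈ G) (mc : ∀ s, yc s ∈ G) (md : ∀ s, yd s ∈ G) (me : ∀ s, ye s ∈ G) (mf : ∀ s, yf s ∈ G)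
    (ha : ∀ s, σ (ya s) = yb (φ s ^ 3)) (hb : ∀ s, σ (yb s) = ya (φ s)) (hc : ∀ s, σ (yc s) = ye (φ s ^ 3))
    (hd : ∀ s, σ (yd s) = yf (φ s ^ 3)) (he : ∀ s, σ (ye s) = yc (φ s)) (hf : ∀ s, σ (yf s) = yd (φ s)) (s t u v w z : K) :
    σ (yb t * ya s * (yc u * yd v * (ye w * yf z))) =
      yb (φ s ^ 3) * ya (φ t) * (yc (φ w - φ t * φ s ^ 3) * yd (φ z - φ t ^ 2 * φ s ^ 3) *
        (ye (φ u ^ 3 + φ t ^ 3 * φ s ^ 3) * yf (φ v ^ 3 + φ t ^ 3 * (φ s ^ 3) ^ 2))) := by
  rw [hσ _ (G.mul_mem (mb _) (ma _)) _ (G.mul_mem (G.mul_mem (mc _) (md _)) (G.mul_mem (me _) (mf _))),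
    hσ _ (mb _) _ (ma _), hσ _ (G.mul_mem (mc _) (md _)) _ (G.mul_mem (me _) (mf _)), hσ _ (mc _) _ (md _), hσ _ (me _) _ (mf _),
    ha, hb, hc, hd, he, hf, R.V_comm, R.ab, mul_assoc _ (yc _ * yd _ * _), R.mul_V]
  congr 2
  · congr 2 <;> ring
  · congr 2 <;> ring

end g2r

/-! ### tables -/

/-- the orbit for twisted `G₂` -/
def jG2 (i : ℕ) : List ℕ := [[0, 1]].getD i []
/-- the word of the generator -/
def wG2 (i : ℕ) : List ℕ := [[0, 1, 0, 1, 0, 1]].getD i []

theorem jdG2 : JD chevG2 gG2.ρ 1 jG2 wG2 where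
  lt := by decide +kernel
  ne := by decide +kernel
  sub := by decide +kernel
  comm := by decide +kernel
  cover := by decide +kernel
  orbit := by decide +kernel
  neg := by decide +kernel
  dis := by decide +kernel

lemma g2_simple : chevG2.simple 0 = 7 ∧ chevG2.simple 1 = 6 := by decide +kernel

section G2

variable {K : Type*} [Field K] (Q : ChevO chevG2 K)

/-- commutator relation with four terms -/
lemma comm_four {D : ChevalleyDatum} {Q : ChevO D K} {a b c d e f : ℕ} (ha : a < D.nroots) (hb : b < D.nroots) (h1 : b ≠ a)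
    (h2 : b ≠ D.nroots - 1 - a) {x y z w : ℤ}
    (h : D.commTerms a b = [(c, x, 1, 1), (d, y, 2, 1), (e, z, 3, 1), (f, w, 3, 2)]) (s t : K) :
    xG Q b t * xG Q a s = xG Q a s * xG Q b t * (xG Q c ((x : K) * (-s) ^ 1 * t ^ 1) * xG Q d ((y : K) * (-s) ^ 2 * t ^ 1) *
      (xG Q e ((z : K) * (-s) ^ 3 * t ^ 1) * xG Q f ((w : K) * (-s) ^ 3 * t ^ 2))) := by
  apply Units.ext
  have h3 := Q.comm a b ha hb h1 (by rw [neg_eq' Q ha]; exact h2) s t
  rw [ChevalleyDatum.commWord, h] at h3
  simp only [List.map_cons, List.map_nil] at h3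
  have h4 : ∀ u v w z : K, D.wordMat K [(c, u), (d, v), (e, w), (f, z)] = D.x K c u * D.x K d v * (D.x K e w * D.x K f z) := by
    intro u v w z
    simp [ChevalleyDatum.wordMat, Matrix.mul_assoc]
  rw [h4] at h3
  exact h3

lemma g2r_pos [CharP K 3] : G2R (xG Q 7) (xG Q 6) (xG Q 8) (xG Q 9) (xG Q 10) (xG Q 11) where
  ba s t := by
    rw [comm_four (Q := Q) (a := 7) (b := 6) (c := 8) (d := 9) (e := 10) (f := 11) (x := -1) (y := 1) (z := 1) (w := 1)
      (by decide +kernel) (by decide +kernel) (by decide +kernel) (by decide +kernel) (by decide +kernel)]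
    congr 2
    · congr 2 <;> (push_cast; ring)
    · congr 2 <;> (push_cast; ring)
  addc u v := xG_add Q _ u v
  addd u v := xG_add Q _ u v
  adde u v := xG_add Q _ u v
  addf u v := xG_add Q _ u v
  cd := xG_commute_of (G := gG2) (Or.inr inferInstance) (by decide +kernel) (by decide +kernel) (by decide +kernel)
  ce := xG_commute_of (G := gG2) (Or.inr inferInstance) (by decide +kernel) (by decide +kernel) (by decide +kernel)
  cf := xG_commute_of (G := gG2) (Or.inr inferInstance) (by decide +kernel) (by decide +kernel) (by decide +kernel)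
  de := xG_commute_of (G := gG2) (Or.inr inferInstance) (by decide +kernel) (by decide +kernel) (by decide +kernel)
  df := xG_commute_of (G := gG2) (Or.inr inferInstance) (by decide +kernel) (by decide +kernel) (by decide +kernel)
  ef := xG_commute_of (G := gG2) (Or.inr inferInstance) (by decide +kernel) (by decide +kernel) (by decide +kernel)

lemma g2r_neg [CharP K 3] : G2R (fun t => xG Q 4 (-t)) (fun t => xG Q 5 (-t)) (fun t => xG Q 3 (-t)) (fun t => xG Q 2 (-t))
    (fun t => xG Q 1 (-t)) (fun t => xG Q 0 (-t)) where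
  ba s t := by
    rw [comm_four (Q := Q) (a := 4) (b := 5) (c := 3) (d := 2) (e := 1) (f := 0) (x := 1) (y := 1) (z := -1) (w := 1)
      (by decide +kernel) (by decide +kernel) (by decide +kernel) (by decide +kernel) (by decide +kernel)]
    congr 2
    · congr 2 <;> (push_cast; ring)
    · congr 2 <;> (push_cast; ring)
  addc u v := by rw [xG_add, neg_add]
  addd u v := by rw [xG_add, neg_add]
  adde u v := by rw [xG_add, neg_add]
  addf u v := by rw [xG_add, neg_add]
  cd s t := xG_commute_of (G := gG2) (Or.inr inferInstance) (by decide +kernel) (by decide +kernel) (by decide +kernel) _ _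
  ce s t := xG_commute_of (G := gG2) (Or.inr inferInstance) (by decide +kernel) (by decide +kernel) (by decide +kernel) _ _
  cf s t := xG_commute_of (G := gG2) (Or.inr inferInstance) (by decide +kernel) (by decide +kernel) (by decide +kernel) _ _
  de s t := xG_commute_of (G := gG2) (Or.inr inferInstance) (by decide +kernel) (by decide +kernel) (by decide +kernel) _ _
  df s t := xG_commute_of (G := gG2) (Or.inr inferInstance) (by decide +kernel) (by decide +kernel) (by decide +kernel) _ _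
  ef s t := xG_commute_of (G := gG2) (Or.inr inferInstance) (by decide +kernel) (by decide +kernel) (by decide +kernel) _ _

end G2

end Cfsg.Agent.Lib.ChevAlg
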