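import Cfsg.Agent.Lib.ChevTwG2

/-!
# The groups `²G₂(q)`: fixed points
-/

set_option autoImplicit false

namespace Cfsg.Agent.Lib.ChevAlg

open Cfsg.Lie Cfsg.Agent.Lib.ChevTab Matrix

section G2

variable {K : Type*} [Field K]

lemma pj_G2 {Q : ChevO chevG2 K} (r : ℕ) : r ∈ PJ Q [0, 1] ↔ r ∈ [6, 7, 8, 9, 10, 11] := by
  have h1 : ∀ r < chevG2.nroots, r ∈ [6, 7, 8, 9, 10, 11] ↔ chevG2.nroots / 2 ≤ r := by decide +kernel
  constructor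
  · intro h
    rw [h1 r h.1.2]
    exact h.1.1
  · intro h
    have hr : r < chevG2.nroots := (by decide +kernel : ∀ r ∈ [6, 7, 8, 9, 10, 11], r < chevG2.nroots) r h
    refine ⟨⟨(h1 r hr).1 h, hr⟩, fun k hk hkJ => ?_⟩
    exact absurd ((by decide +kernel : ∀ k < chevG2.rank, k ∈ [0, 1]) k hk) hkJ

lemma lst_G2 {Q : ChevO chevG2 K} : lst chevG2 (PJ Q [0, 1]) = [6, 7, 8, 9, 10, 11] :=
  lst_of (fun r _ => pj_G2 r) (by decide +kernel)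

lemma prod_G2 (Q : ChevO chevG2 K) (t : ℕ → K) : prodL Q [6, 7, 8, 9, 10, 11] t =
    xG Q 6 (t 6) * xG Q 7 (t 7) * (xG Q 8 (t 8) * xG Q 9 (t 9) * (xG Q 10 (t 10) * xG Q 11 (t 11))) := by
  simp only [prodL_cons, prodL_nil, mul_one]
  group

lemma uniq_G2 (Q : ChevO chevG2 K) (s t u v w z s' t' u' v' w' z' : K)
    (h : xG Q 6 t * xG Q 7 s * (xG Q 8 u * xG Q 9 v * (xG Q 10 w * xG Q 11 z)) =
      xG Q 6 t' * xG Q 7 s' * (xG Q 8 u' * xG Q 9 v' * (xG Q 10 w' * xG Q 11 z'))) :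
    t = t' ∧ s = s' ∧ u = u' ∧ v = v' ∧ w = w' ∧ z = z' := by
  set f : K → K → K → K → K → K → ℕ → K := fun s t u v w z n =>
    if n = 6 then t else if n = 7 then s else if n = 8 then u else if n = 9 then v else if n = 10 then w else z with hf
  have h1 : ∀ s t u v w z, xG Q 6 t * xG Q 7 s * (xG Q 8 u * xG Q 9 v * (xG Q 10 w * xG Q 11 z)) =
      prodL Q [6, 7, 8, 9, 10, 11] (f s t u v w z) := by
    intro s t u v w z
    rw [prod_G2]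
    simp [hf]
  rw [h1, h1] at h
  have h2 := prodL_unique Q [6, 7, 8, 9, 10, 11] (by decide) (by
    intro r hr
    exact (by decide +kernel : ∀ r ∈ [6, 7, 8, 9, 10, 11], chevG2.nroots / 2 ≤ r ∧ r < chevG2.nroots) r hr) _ _ h
  have h6 := h2 6 (by simp)
  have h7 := h2 7 (by simp)
  have h8 := h2 8 (by simp)
  have h9 := h2 9 (by simp)
  have h10 := h2 10 (by simp)
  have h11 := h2 11 (by simp)
  simp [hf] at h6 h7 h8 h9 h10 h11
  exact ⟨h6, h7, h8, h9, h10, h11⟩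

variable {e : ℕ} (P : Pk chevG2 gG2 K e) [hc : CharP K 3]

/-- the Steinberg automorphism -/
noncomputable abbrev TG2 : Tw P.Q := mkTw P.Q gG2_ok (Or.inr hc) P.hγ P.φ

/-- its orbit structure -/
noncomputable abbrev HG2 : TwJ (TG2 P) (Fin 1) := mkTwJ (T := TG2 P) (fun _ => rfl) jdG2

lemma g2_s (r r' : ℕ) (k : ℕ) (hr : r < chevG2.nroots) (h1 : gG2.ρ r = r') (h2 : gG2.lam r = k) (h3 : gG2.eps r = 1) (t : K) :
    (TG2 P).s (xG P.Q r t) = xG P.Q r' (P.φ t ^ k) := by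
  rw [mkTw_x gG2_ok (Or.inr hc) P.hγ P.φ hr, h1, h2, h3, Int.cast_one, one_mul]

/-- positive words -/
def uW (Q : ChevO chevG2 K) (φ : K → K) (t u v : K) : GL chevG2.Idx K :=
  xG Q 7 (φ t) * xG Q 6 t * (xG Q 8 (φ t * t + φ u) * xG Q 9 (φ t ^ 2 * t + φ v) * (xG Q 10 u * xG Q 11 v))

/-- negative words -/
def vW (Q : ChevO chevG2 K) (φ : K → K) (t u v : K) : GL chevG2.Idx K :=
  xG Q 4 (-φ t) * xG Q 5 (-t) * (xG Q 3 (-(φ t * t + φ u)) * xG Q 2 (-(φ t ^ 2 * t + φ v)) * (xG Q 1 (-u) * xG Q 0 (-v)))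

lemma g2_s_pos (s t u v w z : K) : (TG2 P).s (xG P.Q 6 t * xG P.Q 7 s * (xG P.Q 8 u * xG P.Q 9 v * (xG P.Q 10 w * xG P.Q 11 z))) =
    xG P.Q 6 (P.φ s ^ 3) * xG P.Q 7 (P.φ t) * (xG P.Q 8 (P.φ w - P.φ t * P.φ s ^ 3) * xG P.Q 9 (P.φ z - P.φ t ^ 2 * P.φ s ^ 3) *
      (xG P.Q 10 (P.φ u ^ 3 + P.φ t ^ 3 * P.φ s ^ 3) * xG P.Q 11 (P.φ v ^ 3 + P.φ t ^ 3 * (P.φ s ^ 3) ^ 2))) := by
  apply (g2r_pos P.Q).s_eq (σ := (TG2 P).s) (G := chevG2.group K) (fun x hx y hy => (TG2 P).s_mul hx hy) P.φ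
    (fun _ => xG_mem_group _ _ _) (fun _ => xG_mem_group _ _ _) (fun _ => xG_mem_group _ _ _) (fun _ => xG_mem_group _ _ _)
    (fun _ => xG_mem_group _ _ _) (fun _ => xG_mem_group _ _ _)
  · exact g2_s P 7 6 3 (by decide +kernel) (by decide +kernel) (by decide +kernel) (by decide +kernel)
  · intro s
    rw [g2_s P 6 7 1 (by decide +kernel) (by decide +kernel) (by decide +kernel) (by decide +kernel), pow_one]
  · exact g2_s P 8 10 3 (by decide +kernel) (by decide +kernel) (by decide +kernel) (by decide +kernel)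
  · exact g2_s P 9 11 3 (by decide +kernel) (by decide +kernel) (by decide +kernel) (by decide +kernel)
  · intro s
    rw [g2_s P 10 8 1 (by decide +kernel) (by decide +kernel) (by decide +kernel) (by decide +kernel), pow_one]
  · intro s
    rw [g2_s P 11 9 1 (by decide +kernel) (by decide +kernel) (by decide +kernel) (by decide +kernel), pow_one]

lemma g2_s_neg (s t u v w z : K) : (TG2 P).s (xG P.Q 5 (-t) * xG P.Q 4 (-s) * (xG P.Q 3 (-u) * xG P.Q 2 (-v) *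
      (xG P.Q 1 (-w) * xG P.Q 0 (-z)))) =
    xG P.Q 5 (-(P.φ s ^ 3)) * xG P.Q 4 (-P.φ t) * (xG P.Q 3 (-(P.φ w - P.φ t * P.φ s ^ 3)) *
      xG P.Q 2 (-(P.φ z - P.φ t ^ 2 * P.φ s ^ 3)) *
      (xG P.Q 1 (-(P.φ u ^ 3 + P.φ t ^ 3 * P.φ s ^ 3)) * xG P.Q 0 (-(P.φ v ^ 3 + P.φ t ^ 3 * (P.φ s ^ 3) ^ 2)))) := by
  have h3 : ∀ x : K, P.φ (-x) ^ 3 = -(P.φ x ^ 3) := fun x => by rw [map_neg]; ring
  apply (g2r_neg P.Q).s_eq (σ := (TG2 P).s) (G := chevG2.group K) (fun x hx y hy => (TG2 P).s_mul hx hy) P.φ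
    (fun _ => xG_mem_group _ _ _) (fun _ => xG_mem_group _ _ _) (fun _ => xG_mem_group _ _ _) (fun _ => xG_mem_group _ _ _)
    (fun _ => xG_mem_group _ _ _) (fun _ => xG_mem_group _ _ _)
  · intro s
    rw [g2_s P 4 5 3 (by decide +kernel) (by decide +kernel) (by decide +kernel) (by decide +kernel), h3]
  · intro s
    rw [g2_s P 5 4 1 (by decide +kernel) (by decide +kernel) (by decide +kernel) (by decide +kernel), pow_one, map_neg]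
  · intro s
    rw [g2_s P 3 1 3 (by decide +kernel) (by decide +kernel) (by decide +kernel) (by decide +kernel), h3]
  · intro s
    rw [g2_s P 2 0 3 (by decide +kernel) (by decide +kernel) (by decide +kernel) (by decide +kernel), h3]
  · intro s
    rw [g2_s P 1 3 1 (by decide +kernel) (by decide +kernel) (by decide +kernel) (by decide +kernel), pow_one, map_neg]
  · intro s
    rw [g2_s P 0 2 1 (by decide +kernel) (by decide +kernel) (by decide +kernel) (by decide +kernel), pow_one, map_neg]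

variable (hφ : ∀ t, P.φ (P.φ t) ^ 3 = t)

include hc in
lemma cube_add (x y : K) : (x + y) ^ 3 = x ^ 3 + y ^ 3 := by
  have : Fact (Nat.Prime 3) := ⟨Nat.prime_three⟩
  exact add_pow_char x y 3

include hφ in
lemma uW_fix (t u v : K) : uW P.Q P.φ t u v ∈ (TG2 P).Fx := by
  rw [uW, (g2r_pos P.Q).word P.φ, Tw.mem_Fx]
  have hm : ∀ r x, xG P.Q r x ∈ chevG2.group K := fun r x => xG_mem_group _ _ _
  refine ⟨Subgroup.mul_mem _ (Subgroup.mul_mem _ (hm _ _) (hm _ _)) (Subgroup.mul_mem _ (Subgroup.mul_mem _ (hm _ _) (hm _ _))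
    (Subgroup.mul_mem _ (hm _ _) (hm _ _))), ?_⟩
  rw [g2_s_pos, hφ]
  have e1 : P.φ (u + P.φ t ^ 3 * t) - P.φ t * t = P.φ u := by
    rw [map_add, map_mul, map_pow, hφ]; ring
  have e2 : P.φ (v + P.φ t ^ 3 * t ^ 2) - P.φ t ^ 2 * t = P.φ v := by
    rw [map_add, map_mul, map_pow, map_pow, hφ]; ring
  have e3 : P.φ (P.φ u) ^ 3 = u := hφ u
  have e4 : P.φ (P.φ v) ^ 3 = v := hφ v
  rw [e1, e2, e3, e4]

include hφ in
lemma vW_fix (t u v : K) : vW P.Q P.φ t u v ∈ (TG2 P).Fx := by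
  have hw := (g2r_neg P.Q).word P.φ t u v
  rw [vW, hw, Tw.mem_Fx]
  have hm : ∀ r x, xG P.Q r x ∈ chevG2.group K := fun r x => xG_mem_group _ _ _
  refine ⟨Subgroup.mul_mem _ (Subgroup.mul_mem _ (hm _ _) (hm _ _)) (Subgroup.mul_mem _ (Subgroup.mul_mem _ (hm _ _) (hm _ _))
    (Subgroup.mul_mem _ (hm _ _) (hm _ _))), ?_⟩
  rw [g2_s_neg, hφ]
  have e1 : P.φ (u + P.φ t ^ 3 * t) - P.φ t * t = P.φ u := by
    rw [map_add, map_mul, map_pow, hφ]; ring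
  have e2 : P.φ (v + P.φ t ^ 3 * t ^ 2) - P.φ t ^ 2 * t = P.φ v := by
    rw [map_add, map_mul, map_pow, map_pow, hφ]; ring
  have e3 : P.φ (P.φ u) ^ 3 = u := hφ u
  have e4 : P.φ (P.φ v) ^ 3 = v := hφ v
  rw [e1, e2, e3, e4]

include hφ in
lemma g2_mem_FX {y : GL chevG2.Idx K} : y ∈ (TG2 P).FX (PJ P.Q [0, 1]) ↔ ∃ t u v : K, y = uW P.Q P.φ t u v := by
  constructor
  · rintro ⟨h1, h2⟩
    have hcl : Clos P.Q.C (PJ P.Q [0, 1]) := (HG2 P).PJ_clos 0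
    obtain ⟨t, -, rfl⟩ := exists_prod P.Q (PJ_sub _) hcl h2
    rw [lst_G2, prod_G2] at h1 ⊢
    have h3 := h1.2
    rw [g2_s_pos] at h3
    obtain ⟨k1, k2, k3, k4, k5, k6⟩ := uniq_G2 P.Q _ _ _ _ _ _ _ _ _ _ _ _ h3
    refine ⟨t 6, t 10 - P.φ (t 6) ^ 3 * t 6, t 11 - P.φ (t 6) ^ 3 * t 6 ^ 2, ?_⟩
    rw [uW, (g2r_pos P.Q).word P.φ, sub_add_cancel, sub_add_cancel, k2]
    have e1 : P.φ (t 10 - t 7 ^ 3 * t 6) = t 8 := by
      rw [← k3, map_sub, map_mul, map_pow, k1]; ring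
    have e2 : P.φ (t 11 - t 7 ^ 3 * t 6 ^ 2) = t 9 := by
      rw [← k4, map_sub, map_mul, map_pow, map_pow, k1]; ring
    rw [e1, e2]
  · rintro ⟨t, u, v, rfl⟩
    refine ⟨uW_fix P hφ t u v, ?_⟩
    have h : ∀ r ∈ [6, 7, 8, 9, 10, 11], ∀ v, xG P.Q r v ∈ XS P.Q (PJ P.Q [0, 1]) := fun r hr v => xG_mem P.Q ((pj_G2 r).2 hr) v
    exact Subgroup.mul_mem _ (Subgroup.mul_mem _ (h 7 (by simp) _) (h 6 (by simp) _))
      (Subgroup.mul_mem _ (Subgroup.mul_mem _ (h 8 (by simp) _) (h 9 (by simp) _))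
        (Subgroup.mul_mem _ (h 10 (by simp) _) (h 11 (by simp) _)))

lemma wG_uW (t u v : K) : wG P.Q (reeWordU e t u v) = uW P.Q P.φ t u v := by
  have hc1 : ∀ t : K, t ^ (e + 1) = P.φ t * t := fun t => by rw [P.hφ, pow_succ]
  have hc2 : ∀ t : K, t ^ (2 * e + 1) = P.φ t ^ 2 * t := fun t => by rw [P.hφ, ← pow_mul, mul_comm e 2, pow_succ]
  rw [reeWordU, hc1, hc2, ← P.hφ, ← P.hφ, ← P.hφ]
  simp [wG, uW, g2a, g2b, g2ab, g2aab, g2aaab, g2aaabb, mul_assoc]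

lemma wG_vW (t u v : K) : wG P.Q (reeWordV e t u v) = vW P.Q P.φ t u v := by
  have hc1 : ∀ t : K, t ^ (e + 1) = P.φ t * t := fun t => by rw [P.hφ, pow_succ]
  have hc2 : ∀ t : K, t ^ (2 * e + 1) = P.φ t ^ 2 * t := fun t => by rw [P.hφ, ← pow_mul, mul_comm e 2, pow_succ]
  rw [reeWordV, reeWordU, hc1, hc2, ← P.hφ, ← P.hφ, ← P.hφ]
  obtain ⟨n6, n7, n8, n9, n10, n11⟩ : chevG2.negIdx[6]?.getD 0 = 5 ∧ chevG2.negIdx[7]?.getD 0 = 4 ∧ chevG2.negIdx[8]?.getD 0 = 3 ∧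
    chevG2.negIdx[9]?.getD 0 = 2 ∧ chevG2.negIdx[10]?.getD 0 = 1 ∧ chevG2.negIdx[11]?.getD 0 = 0 := by decide +kernel
  simp [wG, vW, g2a, g2b, g2ab, g2aab, g2aaab, g2aaabb, mul_assoc, ChevalleyDatum.negWord, n6, n7, n8, n9, n10, n11]

lemma g2_gen {H : Subgroup (GL chevG2.Idx K)} (h1 : ∀ t u v, uW P.Q P.φ t u v ∈ H) (h2 : ∀ t u v, vW P.Q P.φ t u v ∈ H) :
    twistedG2 K e ≤ H := by
  apply gen_le P.Q
  rintro w ⟨t, u, v, rfl | rfl⟩
  · rw [wG_uW]; exact h1 t u v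
  · rw [wG_vW]; exact h2 t u v

lemma g2_m1 (t u v : K) : uW P.Q P.φ t u v ∈ twistedG2 K e := by
  rw [← wG_uW]
  exact wG_mem_gen P.Q (W := g2Words K e) ⟨t, u, v, Or.inl rfl⟩

lemma g2_m2 (t u v : K) : vW P.Q P.φ t u v ∈ twistedG2 K e := by
  rw [← wG_vW]
  exact wG_mem_gen P.Q (W := g2Words K e) ⟨t, u, v, Or.inr rfl⟩

include hφ in
lemma g2_le : twistedG2 K e ≤ (TG2 P).Fx := g2_gen P (uW_fix P hφ) (vW_fix P hφ)

include hφ in
theorem g2_twG : TwG (HG2 P) (twistedG2 K e) := by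
  have hS : SuppD P.Q.C := P.hS
  have hneg : ∀ {J : List ℕ} {r : ℕ}, r ∈ NJ P.Q J ↔ r < 12 ∧ 11 - r ∈ PJ P.Q J := fun {J r} => Iff.rfl
  apply TwG.of (H := HG2 P) P.hS (fun i => jdG2.lt i i.2) (g2_le P hφ)
  · intro i y hy
    obtain ⟨t, u, v, rfl⟩ := (g2_mem_FX P hφ).1 (show y ∈ (TG2 P).FX (PJ P.Q [0, 1]) from by fin_cases i; exact hy)
    exact g2_m1 P t u v
  · intro i
    have hJ : (HG2 P).J i = [0, 1] := by fin_cases i; rfl
    rw [hJ]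
    have h1 := g2_le P hφ (g2_m2 P (0 : K) 1 0)
    have h2 : vW P.Q P.φ 0 1 0 = xG P.Q 3 (-1) * xG P.Q 1 (-1) := by
      simp [vW, xG_zero]
    rw [h2] at h1
    refine ⟨_, ⟨h1, ?_⟩, by rw [← h2]; exact g2_m2 P 0 1 0, ?_⟩
    · have e0 := (pj_G2 (Q := P.Q) 8).2 (by simp)
      have e3 := (pj_G2 (Q := P.Q) 10).2 (by simp)
      exact Subgroup.mul_mem _ (xG_mem P.Q (hneg.2 ⟨by norm_num, e0⟩) _) (xG_mem P.Q (hneg.2 ⟨by norm_num, e3⟩) _)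
    · intro h
      have h5 := eq_inv_of_mul_eq_one_left h
      rw [xG_inv] at h5
      have h6 := root_unique' P.Q (r := ⟨3, by decide +kernel⟩) (s := ⟨1, by decide +kernel⟩) (neg_ne_zero.2 one_ne_zero) h5
      exact absurd (congrArg Fin.val h6) (by norm_num)

end G2

end Cfsg.Agent.Lib.ChevAlg
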