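import Cfsg.Agent.Lib.ChevTwG2b

/-!
# The groups `²G₂(q)`: torus
-/

set_option autoImplicit false

namespace Cfsg.Agent.Lib.ChevAlg

open Cfsg.Lie Cfsg.Agent.Lib.ChevTab Matrix

section G2

/-- Cartan matrix of `G₂` -/
def aG2 : Matrix (Fin 2) (Fin 2) ℤ := ![![2, -3], ![-1, 2]]
/-- its inverse -/
def bG2 : Matrix (Fin 2) (Fin 2) ℤ := ![![2, 3], ![1, 2]]

lemma cartM_G2 : (cartM chevG2 : Matrix (Fin 2) (Fin 2) ℤ) = aG2 := by
  have h : ∀ i < 2, ∀ j < 2, chevG2.cartan i (chevG2.simple j) = lm [[2, -3], [-1, 2]] i j := by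
    decide +kernel
  ext i j
  show chevG2.cartan i (chevG2.simple j) = _
  rw [h i i.2 j j.2]
  fin_cases i <;> fin_cases j <;> rfl
lemma abG2 : aG2 * bG2 = 1 := by decide +kernel

variable {K : Type*} [Field K]

lemma ker_G2 (Q : ChevO chevG2 K) (z : Fin 2 → Kˣ) (h : torHom chevG2 K z = 1) : z = 1 := by
  have h1 : act (cartM chevG2) z = fun _ => 1 := (tor_eq_one_iff Q z).1 h
  have h2 : act aG2 z = fun _ => 1 := by
    rw [← cartM_G2]; exact h1
  rw [← act_one z, ← abG2, act_mul, h2, act_const_one]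
  rfl

/-- diagram symmetry as a permutation -/
def πG2 : Equiv.Perm (Fin chevG2.rank) where
  toFun i := ⟨1 - i, (by decide +kernel : ∀ i < 2, 1 - i < 2) i i.2⟩
  invFun i := ⟨1 - i, (by decide +kernel : ∀ i < 2, 1 - i < 2) i i.2⟩
  left_inv i := Fin.ext ((by decide +kernel : ∀ i < 2, 1 - (1 - i) = i) i i.2)
  right_inv i := Fin.ext ((by decide +kernel : ∀ i < 2, 1 - (1 - i) = i) i i.2)

lemma πG2_ρ (i : Fin chevG2.rank) : gG2.ρ (chevG2.simple i) = chevG2.simple (πG2 i) :=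
  (by decide +kernel : ∀ i < 2, gG2.ρ (chevG2.simple i) = chevG2.simple (1 - i)) i i.2

/-- the automorphism of the universal torus -/
abbrev sG2 (φ : K ≃+* K) : (Fin 2 → Kˣ) →* (Fin 2 → Kˣ) := sT (D := chevG2) πG2 (fun i => gG2.lam (chevG2.simple i)) φ

lemma sG2_apply (φ : K ≃+* K) (c : Fin 2 → Kˣ) : sG2 φ c =
    ![Units.map (φ : K →* K) (c 1), Units.map (φ : K →* K) (c 0) ^ 3] := by
  have hl : ∀ i < 2, gG2.lam (chevG2.simple (1 - i)) = [1, 3].getD i 0 := by decide +kernel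
  have h : ∀ j : Fin 2, sG2 φ c j = Units.map (φ : K →* K) (c ⟨1 - j, (by decide +kernel : ∀ i < 2, 1 - i < 2) j j.2⟩) ^
      ([1, 3].getD (j : ℕ) 0) := by
    intro j
    show Units.map (φ : K →* K) (c (πG2.symm j)) ^ gG2.lam (chevG2.simple (πG2.symm j : Fin chevG2.rank)) = _
    rw [← hl j j.2]; rfl
  funext j
  rw [h]
  fin_cases j
  · exact pow_one _
  · rfl

/-- fixed elements of the universal torus -/
lemma fixG2 {φ : K ≃+* K} (hφ : ∀ t, φ (φ t) ^ 3 = t) (c : Fin 2 → Kˣ) : sG2 φ c = c ↔ c 0 = Units.map (φ : K →* K) (c 1) := by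
  have h2 : ∀ u : Kˣ, Units.map (φ : K →* K) (Units.map (φ : K →* K) u) ^ 3 = u := by
    intro u
    apply Units.ext
    rw [Units.val_pow_eq_pow_val]
    exact hφ u
  rw [sG2_apply]
  constructor
  · intro h
    exact (congrFun h 0).symm
  · intro h0
    funext j
    fin_cases j
    · exact h0.symm
    · show Units.map (φ : K →* K) (c 0) ^ 3 = c 1
      rw [h0, h2]

variable {e : ℕ} (P : Pk chevG2 gG2 K e) [hc : CharP K 3] (hφ : ∀ t, P.φ (P.φ t) ^ 3 = t)

include hφ in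
lemma g2_fx_torus : (TG2 P).Fx ⊓ chevG2.diagonalSubgroup K =
      (MonoidHom.eqLocus (sG2 P.φ) (MonoidHom.id _)).map (torHom chevG2 K) :=
  fx_torus gG2_ok (Or.inr hc) P.hγ P.φ πG2_ρ (fun c z hz h => ⟨1, map_one _, by
    have hz1 : z = 1 := ker_G2 P.Q z hz
    have h1 : sG2 P.φ c = c := by
      have h2 : sG2 P.φ c = c * z := h
      rw [h2, hz1, mul_one]
    have h3 : c * 1 = c := mul_one c
    exact (congrArg (sG2 P.φ) h3).trans (h1.trans h3.symm)⟩)

include hφ in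
lemma card_torus_G2 [Fintype K] : Nat.card ((TG2 P).Fx ⊓ chevG2.diagonalSubgroup K : Subgroup (GL chevG2.Idx K)) =
    Fintype.card K - 1 := by
  rw [g2_fx_torus P hφ]
  have h1 := card_map_mul (torHom chevG2 K) (MonoidHom.eqLocus (sG2 P.φ) (MonoidHom.id _))
  have hcard : Nat.card Kˣ = Fintype.card K - 1 := by
    classical
    rw [Nat.card_eq_fintype_card, Fintype.card_units]
  have h2 : Nat.card (MonoidHom.eqLocus (sG2 P.φ) (MonoidHom.id _)) = Fintype.card K - 1 := by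
    have e : MonoidHom.eqLocus (sG2 P.φ) (MonoidHom.id _) ≃ Kˣ :=
      { toFun := fun c => c.1 1
        invFun := fun x => ⟨![Units.map (P.φ : K →* K) x, x], (fixG2 hφ _).2 rfl⟩
        left_inv := by
          rintro ⟨c, hc⟩
          have h := (fixG2 hφ _).1 hc
          apply Subtype.ext
          funext j
          fin_cases j
          · exact h.symm
          · rfl
        right_inv := by
          intro a
          rfl }
    rw [Nat.card_congr e, hcard]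
  have h3 : Nat.card (MonoidHom.eqLocus (sG2 P.φ) (MonoidHom.id _) ⊓ (torHom chevG2 K).ker : Subgroup (Fin 2 → Kˣ)) = 1 := by
    rw [Subgroup.card_eq_one, Subgroup.eq_bot_iff_forall]
    rintro z ⟨_, hz2⟩
    exact ker_G2 P.Q z hz2
  have h5 := fin3 h1 h3 h2
  rw [mul_one] at h5
  exact h5

variable (K) in
/-- the torus homomorphism with explicit indices -/
noncomputable def tG : (Fin 2 → Kˣ) →* GL chevG2.Idx K := torHom chevG2 K

omit hc in
lemma tG_dG (c : Fin 2 → Kˣ) : tG K c = dG chevG2 (fun s => c 0 ^ chevG2.cartan 0 s * c 1 ^ chevG2.cartan 1 s) := by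
  refine (torHom_dG (D := chevG2) c).trans (dG_congr ?_)
  intro s _
  exact Fin.prod_univ_two (fun i : Fin 2 => c i ^ chevG2.cartan i s)

lemma g2_aux {M : Type*} [CommGroup M] (x y : M) (a b : ℤ) : x ^ (a + 3 * b) * y ^ (a + b) =
    (x * y) ^ a * (x ^ 3 * y) ^ b := by
  have h2 : (x ^ 3) ^ b = x ^ (3 * b) := by
    rw [← zpow_natCast, ← _root_.zpow_mul]; rfl
  simp only [_root_.mul_zpow, h2, _root_.zpow_add]
  generalize x ^ a = x1
  generalize x ^ (3 * b) = x2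
  generalize y ^ a = x3
  generalize y ^ b = x4
  calc x1 * x2 * (x3 * x4) = x1 * (x2 * x3) * x4 := by simp only [mul_assoc]
    _ = x1 * (x3 * x2) * x4 := by rw [mul_comm x2]
    _ = _ := by simp only [mul_assoc]

lemma g2_cp (x y : Kˣ) : dG chevG2 (cp chevG2 8 x) * dG chevG2 (cp chevG2 10 y) = tG K ![x * y, x ^ 3 * y] := by
  rw [dG_mul, tG_dG]
  apply dG_congr
  intro s hs
  rw [cp, cp]
  have e8 := (by decide +kernel : ∀ s < chevG2.nroots, pairD chevG2 8 s = chevG2.cartan 0 s + 3 * chevG2.cartan 1 s) s hs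
  have e10 := (by decide +kernel : ∀ s < chevG2.nroots, pairD chevG2 10 s = chevG2.cartan 0 s + chevG2.cartan 1 s) s hs
  rw [e8, e10]
  generalize chevG2.cartan 0 s = a
  generalize chevG2.cartan 1 s = b
  exact g2_aux x y a b

lemma g2_n (t : K) : nG P.Q 8 (P.φ t) * nG P.Q 10 t =
    uW P.Q P.φ 0 t 0 * vW P.Q P.φ 0 t⁻¹ 0 * uW P.Q P.φ 0 t 0 := by
  have c1 : ∀ s t, Commute (xG P.Q 8 s) (xG P.Q 10 t) :=
    xG_commute_of (G := gG2) (Or.inr inferInstance) (by decide +kernel) (by decide +kernel) (by decide +kernel)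
  have c2 : ∀ s t, Commute (xG P.Q 8 s) (xG P.Q 1 t) :=
    xG_commute_of (G := gG2) (Or.inr inferInstance) (by decide +kernel) (by decide +kernel) (by decide +kernel)
  have c3 : ∀ s t, Commute (xG P.Q 3 s) (xG P.Q 10 t) :=
    xG_commute_of (G := gG2) (Or.inr inferInstance) (by decide +kernel) (by decide +kernel) (by decide +kernel)
  have c4 : ∀ s t, Commute (xG P.Q 3 s) (xG P.Q 1 t) :=
    xG_commute_of (G := gG2) (Or.inr inferInstance) (by decide +kernel) (by decide +kernel) (by decide +kernel)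
  have e1 : uW P.Q P.φ 0 t 0 = xG P.Q 8 (P.φ t) * xG P.Q 10 t := by simp [uW, xG_zero]
  have e2 : vW P.Q P.φ 0 t⁻¹ 0 = xG P.Q 3 (-(P.φ t)⁻¹) * xG P.Q 1 (-t⁻¹) := by simp [vW, xG_zero]
  rw [e1, e2, nG, nG]
  show xG P.Q 8 (P.φ t) * xG P.Q 3 (-(P.φ t)⁻¹) * xG P.Q 8 (P.φ t) * (xG P.Q 10 t * xG P.Q 1 (-t⁻¹) * xG P.Q 10 t) = _
  have h1 := (c1 (P.φ t) t).eq
  have h2 := (c2 (P.φ t) (-t⁻¹)).eq
  have h3 := (c3 (-(P.φ t)⁻¹) t).eq
  generalize xG P.Q 8 (P.φ t) = a at *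
  generalize xG P.Q 3 (-(P.φ t)⁻¹) = b at *
  generalize xG P.Q 10 t = c at *
  generalize xG P.Q 1 (-t⁻¹) = d at *
  calc a * b * a * (c * d * c) = a * b * (a * c) * d * c := by group
    _ = a * (b * c) * a * d * c := by rw [h1]; group
    _ = a * c * b * (a * d) * c := by rw [h3]; group
    _ = a * c * b * d * (a * c) := by rw [h2]; group
    _ = _ := by group

include hφ in
/-- squares in the torus -/
lemma g2_h0 (t : Kˣ) : tG K ![Units.map (P.φ : K →* K) t * t, Units.map (P.φ : K →* K) t ^ 3 * t] ∈ twistedG2 K e := by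
  rw [← g2_cp]
  have h8 : dG chevG2 (cp chevG2 8 (Units.map (P.φ : K →* K) t)) = nG P.Q 8 (P.φ t) * nG P.Q 8 (-1) := by
    rw [← hG_eq P.Q (by decide +kernel), hG]; rfl
  have h10 : dG chevG2 (cp chevG2 10 t) = nG P.Q 10 t * nG P.Q 10 (-1) := by
    rw [← hG_eq P.Q (by decide +kernel), hG]
  have c0 : ∀ s t, Commute (nG P.Q 8 s) (nG P.Q 10 t) := by
    intro s t
    have h1 : ∀ s t, Commute (xG P.Q 8 s) (xG P.Q 10 t) :=
      xG_commute_of (G := gG2) (Or.inr inferInstance) (by decide +kernel) (by decide +kernel) (by decide +kernel)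
    have h2 : ∀ s t, Commute (xG P.Q 8 s) (xG P.Q 1 t) :=
      xG_commute_of (G := gG2) (Or.inr inferInstance) (by decide +kernel) (by decide +kernel) (by decide +kernel)
    have h3 : ∀ s t, Commute (xG P.Q 3 s) (xG P.Q 10 t) :=
      xG_commute_of (G := gG2) (Or.inr inferInstance) (by decide +kernel) (by decide +kernel) (by decide +kernel)
    have h4 : ∀ s t, Commute (xG P.Q 3 s) (xG P.Q 1 t) :=
      xG_commute_of (G := gG2) (Or.inr inferInstance) (by decide +kernel) (by decide +kernel) (by decide +kernel)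
    rw [nG, nG]
    show Commute (xG P.Q 8 s * xG P.Q 3 (-s⁻¹) * xG P.Q 8 s) (xG P.Q 10 t * xG P.Q 1 (-t⁻¹) * xG P.Q 10 t)
    exact ((((h1 _ _).mul_right (h2 _ _)).mul_right (h1 _ _)).mul_left (((h3 _ _).mul_right (h4 _ _)).mul_right (h3 _ _))).mul_left
      (((h1 _ _).mul_right (h2 _ _)).mul_right (h1 _ _))
  have key : ∀ t : K, nG P.Q 8 (P.φ t) * nG P.Q 10 t ∈ twistedG2 K e := by
    intro t
    rw [g2_n P t]
    exact Subgroup.mul_mem _ (Subgroup.mul_mem _ (g2_m1 P _ _ _) (g2_m2 P _ _ _)) (g2_m1 P _ _ _)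
  have k1 := key (-1)
  rw [map_neg, map_one] at k1
  have e1 : nG P.Q 8 (P.φ t) * nG P.Q 8 (-1) * (nG P.Q 10 t * nG P.Q 10 (-1)) =
      (nG P.Q 8 (P.φ t) * nG P.Q 10 t) * (nG P.Q 8 (-1) * nG P.Q 10 (-1)) := by
    have := (c0 (-1) (t : K)).eq
    calc _ = nG P.Q 8 (P.φ t) * (nG P.Q 8 (-1) * nG P.Q 10 t) * nG P.Q 10 (-1) := by group
      _ = _ := by rw [this]; group
  rw [h8, h10, e1]
  exact Subgroup.mul_mem _ (key _) k1

/-- first word of the involution identity -/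
def wInv1 : List (ℕ × ℤ) := [(7, -1), (6, -1), (8, 1), (9, -2), (10, 0), (11, -1), (4, -1), (5, -1), (3, -1), (2, -2), (1, 0), (0, -1),
  (7, -1), (6, -1), (8, 1), (9, -2), (10, 0), (11, -1)]
/-- second word of the involution identity -/
def wInv2 : List (ℕ × ℤ) := [(8, 1), (3, -1), (8, 1), (10, 1), (1, -1), (10, 1), (7, -1), (4, 1), (7, -1), (7, -1), (4, 1), (7, -1),
  (6, -1), (5, 1), (6, -1), (6, -1), (5, 1), (6, -1)]

theorem wInv_chk : ∀ k < chevG2.rank + chevG2.nroots, wchk chevG2 ChevG2.cert.N ChevG2.cert.S 3 wInv1 wInv2 k = true := by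
  decide +kernel

lemma wG_eq_of {W1 W2 : List (ℕ × ℤ)} (h : ∀ k < chevG2.rank + chevG2.nroots, wchk chevG2 ChevG2.cert.N ChevG2.cert.S 3 W1 W2 k = true) :
    wG P.Q (W1.map fun x => (x.1, (x.2 : K))) = wG P.Q (W2.map fun x => (x.1, (x.2 : K))) := by
  apply Units.ext
  rw [wG_val, wG_val]
  exact wordMat_eq_of ChevG2.cert h

include hφ in
/-- the involution in the torus -/
lemma g2_inv : tG K ![-1, -1] ∈ twistedG2 K e := by
  have h1 := wG_eq_of P wInv_chk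
  have hφ1 : P.φ (-1) = -1 := by rw [map_neg, map_one]
  have hφ0 : P.φ 0 = 0 := map_zero _
  have e1 : wG P.Q (wInv1.map fun x => (x.1, (x.2 : K))) = uW P.Q P.φ (-1) 0 (-1) * vW P.Q P.φ 1 0 1 * uW P.Q P.φ (-1) 0 (-1) := by
    have a1 : P.φ (-1) * (-1) + P.φ 0 = 1 := by rw [hφ1, hφ0]; ring
    have a2 : P.φ (-1) ^ 2 * (-1) + P.φ (-1) = -2 := by rw [hφ1]; ring
    have a3 : P.φ 1 * 1 + P.φ 0 = 1 := by rw [map_one, hφ0]; ring
    have a4 : P.φ 1 ^ 2 * 1 + P.φ 1 = 2 := by rw [map_one]; ring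
    rw [uW, vW, a1, a2, a3, a4, hφ1, map_one]
    simp [wG, wInv1, mul_assoc]
  have e2 : wG P.Q (wInv2.map fun x => (x.1, (x.2 : K))) = (nG P.Q 8 (P.φ 1) * nG P.Q 10 1) *
      (nG P.Q 7 (-1) * nG P.Q 7 (-1) * (nG P.Q 6 (-1) * nG P.Q 6 (-1))) := by
    have n8 : ∀ t : K, nG P.Q 8 t = xG P.Q 8 t * xG P.Q 3 (-t⁻¹) * xG P.Q 8 t := fun t => rfl
    have n10 : ∀ t : K, nG P.Q 10 t = xG P.Q 10 t * xG P.Q 1 (-t⁻¹) * xG P.Q 10 t := fun t => rfl
    have n7 : ∀ t : K, nG P.Q 7 t = xG P.Q 7 t * xG P.Q 4 (-t⁻¹) * xG P.Q 7 t := fun t => rfl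
    have n6 : ∀ t : K, nG P.Q 6 t = xG P.Q 6 t * xG P.Q 5 (-t⁻¹) * xG P.Q 6 t := fun t => rfl
    have i1 : ((-1 : K))⁻¹ = -1 := by rw [inv_neg, inv_one]
    rw [n8, n10, n7, n6, map_one, i1, inv_one, neg_neg]
    simp [wG, wInv2, mul_assoc]
  rw [e1, e2] at h1
  have e3 : tG K ![-1, -1] = nG P.Q 7 (-1) * nG P.Q 7 (-1) * (nG P.Q 6 (-1) * nG P.Q 6 (-1)) := by
    have h7 : dG chevG2 (cp chevG2 7 (-1 : Kˣ)) = nG P.Q 7 (-1) * nG P.Q 7 (-1) := by
      rw [← hG_eq P.Q (by decide +kernel), hG]; simp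
    have h6 : dG chevG2 (cp chevG2 6 (-1 : Kˣ)) = nG P.Q 6 (-1) * nG P.Q 6 (-1) := by
      rw [← hG_eq P.Q (by decide +kernel), hG]; simp
    rw [← h7, ← h6, dG_mul, tG_dG]
    apply dG_congr
    intro s hs
    rw [cp, cp]
    have p7 := (by decide +kernel : ∀ s < chevG2.nroots, pairD chevG2 7 s = chevG2.cartan 0 s) s hs
    have p6 := (by decide +kernel : ∀ s < chevG2.nroots, pairD chevG2 6 s = chevG2.cartan 1 s) s hs
    rw [p7, p6]
    rfl
  have h2 : nG P.Q 8 (P.φ 1) * nG P.Q 10 1 ∈ twistedG2 K e := by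
    rw [g2_n P 1]
    exact Subgroup.mul_mem _ (Subgroup.mul_mem _ (g2_m1 P _ _ _) (g2_m2 P _ _ _)) (g2_m1 P _ _ _)
  rw [e3]
  have h3 : nG P.Q 7 (-1) * nG P.Q 7 (-1) * (nG P.Q 6 (-1) * nG P.Q 6 (-1)) =
      (nG P.Q 8 (P.φ 1) * nG P.Q 10 1)⁻¹ * (uW P.Q P.φ (-1) 0 (-1) * vW P.Q P.φ 1 0 1 * uW P.Q P.φ (-1) 0 (-1)) := by
    rw [h1]; group
  rw [h3]
  exact Subgroup.mul_mem _ (Subgroup.inv_mem _ h2)
    (Subgroup.mul_mem _ (Subgroup.mul_mem _ (g2_m1 P _ _ _) (g2_m2 P _ _ _)) (g2_m1 P _ _ _))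

variable (hs : ∀ s : Kˣ, ∃ t : Kˣ, s = Units.map (P.φ : K →* K) t ^ 3 * t ∨ s = -(Units.map (P.φ : K →* K) t ^ 3 * t))

include hφ hs in
theorem g2_torus_le : (TG2 P).Fx ⊓ chevG2.diagonalSubgroup K ≤ twistedG2 K e := by
  rw [g2_fx_torus P hφ]
  rintro _ ⟨c, hc', rfl⟩
  have key : ∀ c : Fin 2 → Kˣ, sG2 P.φ c = c → tG K c ∈ twistedG2 K e := by
    intro c hc'
    have h0 := (fixG2 hφ c).1 hc'
    obtain ⟨t, ht⟩ := hs (c 1)
    have h4 : Units.map (P.φ : K →* K) (Units.map (P.φ : K →* K) t ^ 3 * t) = Units.map (P.φ : K →* K) t * t := by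
      apply Units.ext
      show P.φ ((P.φ (t : K)) ^ 3 * (t : K)) = (P.φ (t : K)) * (t : K)
      rw [map_mul, map_pow, hφ, mul_comm]
    rcases ht with ht | ht
    · have h2 : tG K c = tG K ![Units.map (P.φ : K →* K) t * t, Units.map (P.φ : K →* K) t ^ 3 * t] := by
        refine congrArg (tG K) ?_
        funext j
        fin_cases j
        · show c 0 = Units.map (P.φ : K →* K) t * t
          rw [h0, ht, h4]
        · exact ht
      rw [h2]
      exact g2_h0 P hφ t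
    · have h2 : tG K c = tG K ![Units.map (P.φ : K →* K) t * t, Units.map (P.φ : K →* K) t ^ 3 * t] * tG K ![-1, -1] := by
        rw [← map_mul (tG K)]
        refine congrArg (tG K) ?_
        have h5 : Units.map (P.φ : K →* K) (-(Units.map (P.φ : K →* K) t ^ 3 * t)) = -(Units.map (P.φ : K →* K) t * t) := by
          rw [← h4]
          apply Units.ext
          show P.φ (-((P.φ (t : K)) ^ 3 * (t : K))) = -P.φ ((P.φ (t : K)) ^ 3 * (t : K))
          rw [map_neg]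
        funext j
        fin_cases j
        · show c 0 = Units.map (P.φ : K →* K) t * t * (-1)
          rw [h0, ht, h5, mul_neg_one]
        · show c 1 = Units.map (P.φ : K →* K) t ^ 3 * t * (-1)
          rw [ht, mul_neg_one]
      rw [h2]
      exact Subgroup.mul_mem _ (g2_h0 P hφ t) (g2_inv P hφ)
  exact key c hc'

include hφ hs in
theorem g2_eq : twistedG2 K e = (TG2 P).Fx := (g2_twG P hφ).eq_Fx (g2_torus_le P hφ hs)

end G2

end Cfsg.Agent.Lib.ChevAlg
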