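import Cfsg.Agent.Lib.ChevTwG2c

/-!
# The groups `²G₂(q)`: orders, structure
-/

set_option autoImplicit false

namespace Cfsg.Agent.Lib.ChevAlg

open Cfsg.Lie Cfsg.Agent.Lib.ChevTab Matrix

section G2

variable {K : Type*} [Field K]

/-- odd part of `q - 1` -/
lemma odd_G2 (m : ℕ) : ∃ k, 3 ^ (2 * m + 1) - 1 = 2 * (2 * k + 1) := by
  induction m with
  | zero => exact ⟨0, rfl⟩
  | succ m ih =>
    obtain ⟨k, hk⟩ := ih
    refine ⟨9 * k + 6, ?_⟩
    have h1 : 3 ^ (2 * (m + 1) + 1) = 9 * 3 ^ (2 * m + 1) := by ring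
    have h2 : 1 ≤ 3 ^ (2 * m + 1) := Nat.one_le_pow _ _ (by norm_num)
    omega

lemma copr_G2 (m k : ℕ) (hk : 3 ^ (2 * m + 1) - 1 = 2 * (2 * k + 1)) : Nat.Coprime (3 ^ m * 3 + 1) (2 * k + 1) := by
  have h2 : 1 ≤ 3 ^ (2 * m + 1) := Nat.one_le_pow _ _ (by norm_num)
  -- 3 * (q - 1) + 2 = (n)(n - 2)
  have h3 : 6 * (2 * k + 1) + 2 = (3 ^ m * 3 + 1) * (3 ^ m * 3 - 1) := by
    have h4 : 1 ≤ 3 ^ m * 3 := by
      have : 1 ≤ 3 ^ m := Nat.one_le_pow _ _ (by norm_num)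
      omega
    have h5 : 6 * (2 * k + 1) = 3 * (3 ^ (2 * m + 1) - 1) := by rw [hk]; ring
    rw [h5]
    zify [h2, h4]
    ring
  have h6 : Nat.gcd (3 ^ m * 3 + 1) (2 * k + 1) ∣ 2 := by
    have d1 : Nat.gcd (3 ^ m * 3 + 1) (2 * k + 1) ∣ 6 * (2 * k + 1) + 2 := by
      rw [h3]
      exact (Nat.gcd_dvd_left _ _).trans (dvd_mul_right _ _)
    have d2 : Nat.gcd (3 ^ m * 3 + 1) (2 * k + 1) ∣ 6 * (2 * k + 1) := (Nat.gcd_dvd_right _ _).trans (dvd_mul_left _ _)
    exact (Nat.dvd_add_right d2).1 d1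
  have h7 : ¬ 2 ∣ Nat.gcd (3 ^ m * 3 + 1) (2 * k + 1) := by
    intro h
    have := h.trans (Nat.gcd_dvd_right _ _)
    omega
  rcases (Nat.dvd_prime Nat.prime_two).1 h6 with h | h
  · exact h
  · rw [h] at h7
    exact absurd (dvd_refl 2) h7

theorem exists_PkG2 [Fintype K] {m : ℕ} (hK : Fintype.card K = 3 ^ (2 * m + 1)) :
    ∃ (_ : CharP K 3) (P : Pk chevG2 gG2 K (3 ^ m)), (∀ t, P.φ (P.φ t) ^ 3 = t) ∧
      ∀ s : Kˣ, ∃ t : Kˣ, s = Units.map (P.φ : K →* K) t ^ 3 * t ∨ s = -(Units.map (P.φ : K →* K) t ^ 3 * t) := by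
  have hc : CharP K 3 := charP_of_pow Nat.prime_three (by omega) hK
  obtain ⟨Q, hS⟩ := exists_chevS chevG2 (by simp) K
  obtain ⟨γ, hγ⟩ := auto_G2 (frob_surj Nat.prime_three) Q
  obtain ⟨φ, hφ⟩ := exists_frobP (K := K) Nat.prime_three m
  refine ⟨hc, ⟨Q, hS, γ, hγ, φ, hφ⟩, ?_, ?_⟩
  · intro t
    show φ (φ t) ^ 3 = t
    rw [hφ, hφ, ← pow_mul, ← pow_mul]
    have : 3 ^ m * (3 ^ m * 3) = Fintype.card K := by rw [hK]; ring
    rw [this, FiniteField.pow_card]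
  · intro s
    have hcard : Nat.card Kˣ = 3 ^ (2 * m + 1) - 1 := by
      classical
      rw [Nat.card_eq_fintype_card, Fintype.card_units, hK]
    obtain ⟨k, hk⟩ := odd_G2 m
    have hcop := copr_G2 m k hk
    have h2 : ∀ u : Kˣ, Units.map (φ : K →* K) u = u ^ 3 ^ m := by
      intro u
      apply Units.ext
      rw [Units.val_pow_eq_pow_val, ← hφ]; rfl
    have h3 : ∀ u : Kˣ, Units.map (φ : K →* K) u ^ 3 * u = u ^ (3 ^ m * 3 + 1) := by
      intro u
      rw [h2, ← pow_mul, pow_succ]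
    -- the subgroup of elements of odd order
    have h4 : ∀ s : Kˣ, s ^ (2 * k + 1) = 1 → ∃ t : Kˣ, t ^ (3 ^ m * 3 + 1) = s := by
      intro s hs
      have h5 : (orderOf s).Coprime (3 ^ m * 3 + 1) := (hcop.coprime_dvd_right (orderOf_dvd_of_pow_eq_one hs)).symm
      obtain ⟨a, ha⟩ := exists_pow_eq_self_of_coprime h5.symm
      exact ⟨s ^ a, by rw [← pow_mul, mul_comm, pow_mul]; exact ha⟩
    have h5 : (s ^ (2 * k + 1)) ^ 2 = 1 := by
      rw [← pow_mul, mul_comm, ← hk, ← hcard]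
      exact pow_card_eq_one'
    have h6 : s ^ (2 * k + 1) = 1 ∨ s ^ (2 * k + 1) = -1 := by
      have h7 : ((s ^ (2 * k + 1) : Kˣ) : K) ^ 2 = 1 := by
        have := congrArg Units.val h5
        simpa using this
      rcases sq_eq_one_iff_of_ne_zero h7 with h8 | h8
      · exact Or.inl (Units.ext h8)
      · exact Or.inr (Units.ext (by rw [h8]; simp))
    rcases h6 with h6 | h6
    · obtain ⟨t, ht⟩ := h4 s h6
      exact ⟨t, Or.inl (by show s = Units.map (φ : K →* K) t ^ 3 * t; rw [h3, ht])⟩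
    · obtain ⟨t, ht⟩ := h4 (-s) (by rw [Odd.neg_pow ⟨k, rfl⟩, h6, neg_neg])
      exact ⟨t, Or.inr (by show s = -(Units.map (φ : K →* K) t ^ 3 * t); rw [h3, ht, neg_neg])⟩

variable {e : ℕ} (P : Pk chevG2 gG2 K e) [hc : CharP K 3] (hφ : ∀ t, P.φ (P.φ t) ^ 3 = t)
  (hs : ∀ s : Kˣ, ∃ t : Kˣ, s = Units.map (P.φ : K →* K) t ^ 3 * t ∨ s = -(Units.map (P.φ : K →* K) t ^ 3 * t))

/-- words of the fixed Weyl group -/
def LG2 (k : ℕ) : List ℕ := [[], [0, 1, 0, 1, 0, 1]].getD k []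

theorem wrG2 : WrT chevG2 1 wG2 2 LG2 where
  pos := by decide
  lt := by decide +kernel
  wlt := by decide +kernel
  one := rfl
  mul := by decide +kernel
  back := by decide +kernel
  inj := by decide +kernel

lemma ninv_G2 {k : ℕ} (hk : k < 2) : ninv (ww P.Q (fl chevG2 (LG2 k))) = 2 * (3 * k) := by
  rw [ninv_ww, fl_map (wrG2.lt k hk)]
  exact (by decide +kernel : ∀ k < 2, ((List.range chevG2.nroots).filter fun r => decide (chevG2.nroots / 2 ≤ r ∧
    wapp chevG2 (LG2 k) r < chevG2.nroots / 2)).length = 2 * (3 * k)) k hk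

lemma ninv_wJ_G2 (i : Fin 1) : ninv ((HG2 P).wJ i) = 6 := by
  have h1 : (HG2 P).wJ i = ww P.Q (fl chevG2 (wG2 i)) := rfl
  rw [h1, ninv_ww, fl_map (wrG2.wlt i i.2)]
  exact (by decide +kernel : ∀ i < 1, ((List.range chevG2.nroots).filter fun r => decide (chevG2.nroots / 2 ≤ r ∧
    wapp chevG2 (wG2 i) r < chevG2.nroots / 2)).length = 6) i i.2

variable [Fintype K]

include hφ in
lemma g2_card_PJ0 : Nat.card ((TG2 P).FX (PJ P.Q [0, 1])) = Fintype.card K ^ 3 := by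
  have h1 : Nat.card ((TG2 P).FX (PJ P.Q [0, 1])) = Nat.card (K × K × K) := by
    symm
    apply Nat.card_congr
    refine Equiv.ofBijective (fun x => (⟨_, (g2_mem_FX P hφ).2 ⟨x.1, x.2.1, x.2.2, rfl⟩⟩ : (TG2 P).FX (PJ P.Q [0, 1]))) ⟨?_, ?_⟩
    · rintro ⟨t, u, v⟩ ⟨t', u', v'⟩ h
      have h2 := congrArg Subtype.val h
      simp only [uW, (g2r_pos P.Q).word P.φ] at h2
      obtain ⟨h3, -, -, -, h4, h5⟩ := uniq_G2 P.Q _ _ _ _ _ _ _ _ _ _ _ _ h2
      rw [h3] at h4 h5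
      exact Prod.ext h3 (Prod.ext (add_right_cancel h4) (add_right_cancel h5))
    · rintro ⟨y, hy⟩
      obtain ⟨t, u, v, rfl⟩ := (g2_mem_FX P hφ).1 hy
      exact ⟨(t, u, v), rfl⟩
  rw [h1, Nat.card_prod, Nat.card_prod, Nat.card_eq_fintype_card]
  ring

include hφ in
lemma g2_card_PJ (i : Fin 1) : Nat.card ((TG2 P).FX (PJ P.Q ((HG2 P).J i))) ^ 2 = (Fintype.card K) ^ ninv ((HG2 P).wJ i) := by
  rw [ninv_wJ_G2]
  have hJ : (HG2 P).J i = [0, 1] := by fin_cases i; rfl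
  rw [hJ, g2_card_PJ0 P hφ]
  ring

include hφ in
theorem g2_card_FXpos : Nat.card ((TG2 P).FX (Pos chevG2)) = Fintype.card K ^ 3 := by
  have h1 := (g2_twG P hφ).card_FX_pos (g2_card_PJ P hφ)
  have h2 : Fintype.card K ^ (chevG2.nroots / 2) = (Fintype.card K ^ 3) ^ 2 := by
    rw [← pow_mul]; rfl
  rw [h2] at h1
  exact Nat.pow_left_injective (by norm_num : 2 ≠ 0) h1

include hφ in
lemma g2_card_FXinv {k : ℕ} (hk : k < 2) : Nat.card ((TG2 P).FX (Inv (ww P.Q (fl chevG2 (LG2 k))))) = Fintype.card K ^ (3 * k) := by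
  have h0 := wrG2.mem (T := TG2 P) (fun _ => rfl) jdG2 hk
  have h1 := (g2_twG P hφ).card_FX (g2_card_PJ P hφ) h0.1 h0.2
  rw [ninv_G2 P hk, mul_comm, pow_mul] at h1
  exact Nat.pow_left_injective (by norm_num : 2 ≠ 0) h1

include P hφ hs in
theorem g2_card_U : Nat.card ↥(chevG2.posUnipotent K ⊓ twistedG2 K e) = Fintype.card K ^ 3 := by
  rw [g2_eq P hφ hs, posUnipotent_eq P.Q, inf_comm]
  exact g2_card_FXpos P hφ

omit [Fintype K] in
include P hφ hs in
theorem g2_mem_U (g : GL chevG2.Idx K) : g ∈ chevG2.posUnipotent K ⊓ twistedG2 K e ↔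
    ∃ t u v : K, (g : Matrix chevG2.Idx chevG2.Idx K) = chevG2.wordMat K (reeWordU e t u v) := by
  have hpos : Pos chevG2 = PJ P.Q [0, 1] := by
    ext r
    constructor
    · intro h
      refine ⟨h, fun k hk hkJ => ?_⟩
      exact absurd ((by decide +kernel : ∀ k < chevG2.rank, k ∈ [0, 1]) k hk) hkJ
    · exact fun h => h.1
  rw [g2_eq P hφ hs, posUnipotent_eq P.Q, inf_comm, hpos]
  show g ∈ (TG2 P).FX (PJ P.Q [0, 1]) ↔ _
  rw [g2_mem_FX P hφ]
  constructor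
  · rintro ⟨t, u, v, rfl⟩
    exact ⟨t, u, v, by rw [← wG_uW, wG_val]⟩
  · rintro ⟨t, u, v, h⟩
    refine ⟨t, u, v, ?_⟩
    apply Units.ext
    rw [h, ← wG_uW, wG_val]

include P hφ hs in
theorem g2_card_H : Nat.card ↥(chevG2.diagonalSubgroup K ⊓ twistedG2 K e) = Fintype.card K - 1 := by
  rw [g2_eq P hφ hs, inf_comm]
  exact card_torus_G2 P hφ

include P hφ hs in
theorem g2_card : Nat.card ↥(twistedG2 K e) = Fintype.card K ^ 3 * (Fintype.card K - 1) * (Fintype.card K ^ 3 + 1) := by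
  have h1 := (g2_twG P hφ).card_sum (g2_torus_le P hφ hs)
  have h2 := card_torus_G2 P hφ
  have h3 := wrG2.sum (T := TG2 P) (fun _ => rfl) jdG2 (fun w => Nat.card ((TG2 P).FX (Inv w)))
  rw [h3, g2_card_FXpos P hφ, h2] at h1
  have h4 : ∑ k ∈ Finset.range 2, Nat.card ((TG2 P).FX (Inv (ww P.Q (fl chevG2 (LG2 k))))) =
      ∑ k ∈ Finset.range 2, Fintype.card K ^ (3 * k) :=
    Finset.sum_congr rfl fun k hk => g2_card_FXinv P hφ (Finset.mem_range.1 hk)
  rw [h4] at h1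
  rw [h1]
  simp only [Finset.sum_range_succ, Finset.sum_range_zero]
  ring

lemma dis_G2 (i j : Fin 1) (a : ℕ) (_hi : a ∈ (HG2 P).J i) (_hj : a ∈ (HG2 P).J j) : i = j := Subsingleton.elim _ _

include P hφ hs in
theorem g2_bn : ∃ B : Cfsg.BNPair ↥(twistedG2 K e),
      B.B = (chevG2.borelSubgroup K ⊓ twistedG2 K e).subgroupOf (twistedG2 K e) ∧
      B.N = (chevG2.monomialSubgroup K ⊓ twistedG2 K e).subgroupOf (twistedG2 K e) :=
  ⟨(g2_twG P hφ).bnT (g2_torus_le P hφ hs) (dis_G2 P), rfl, rfl⟩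

omit [Fintype K] in
include hφ in
lemma g2_full (i : Fin 1) : ∃ t : ℕ → K, prodL P.Q (lst chevG2 (PJ P.Q ((HG2 P).J i))) t ∈ (TG2 P).Fx ∧
    ∀ a ∈ (HG2 P).J i, t (chevG2.simple a) ≠ 0 := by
  have hJ : (HG2 P).J i = [0, 1] := by fin_cases i; rfl
  rw [hJ]
  refine ⟨fun n => if n = 8 then 0 else if n = 9 then 0 else 1, ?_, ?_⟩
  · rw [lst_G2, prod_G2]
    have := uW_fix P hφ 1 0 0
    rw [uW, (g2r_pos P.Q).word P.φ] at this
    simpa using this
  · intro a ha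
    have : chevG2.simple a ≠ 8 ∧ chevG2.simple a ≠ 9 := (by decide +kernel : ∀ a ∈ [0, 1], chevG2.simple a ≠ 8 ∧ chevG2.simple a ≠ 9) a ha
    simp [this]


include P hφ in
theorem g2_core : ((chevG2.borelSubgroup K ⊓ twistedG2 K e).subgroupOf (twistedG2 K e)).normalCore = ⊥ :=
  (g2_twG P hφ).core (dis_G2 P) (g2_full P hφ)

omit [Fintype K] in
lemma isChar_G2 (Q : ChevO chevG2 K) (c : Fin 2 → Kˣ) : IsChar Q.C (fun s => c 0 ^ chevG2.cartan 0 s * c 1 ^ chevG2.cartan 1 s) := by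
  have h : ∀ (i : ℕ) (hi : i < chevG2.rank) (x : Kˣ), IsChar Q.C (fun s => x ^ chevG2.cartan i s) := by
    intro i hi x
    have h1 := isChar_cp Q.C (chevG2.simple i) x
    have h2 : cp chevG2 (chevG2.simple i) x = fun s => x ^ chevG2.cartan i s := by
      funext s
      rw [cp, pairD_simple Q.C hi]
    rwa [h2] at h1
  exact isChar_mul Q (h 0 (by decide +kernel) _) (h 1 (by decide +kernel) _)

include P hφ hs in
theorem g2_perf (hK : 3 < Fintype.card K) : commutator ↥(twistedG2 K e) = ⊤ := by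
  classical
  apply top_of_CG
  have hF : (TG2 P).Fx ≤ twistedG2 K e := (g2_eq P hφ hs).ge
  have A := g2_twG P hφ
  obtain ⟨u, hu⟩ := exists_unit_sq_ne hK
  set v := Units.map (P.φ : K →* K) u with hv
  have hφu : Units.map (P.φ : K →* K) v ^ 3 = u := by
    apply Units.ext
    rw [Units.val_pow_eq_pow_val]
    exact hφ u
  have hcube : ∀ x y : Kˣ, x ^ 3 = y ^ 3 → x = y := by
    intro x y h
    apply Units.ext
    have h1 : (x : K) ^ 3 = (y : K) ^ 3 := by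
      have := congrArg Units.val h
      simpa using this
    have h2 : ((x : K) - y) ^ 3 = 0 := by
      have : Fact (Nat.Prime 3) := ⟨Nat.prime_three⟩
      rw [sub_pow_char, h1, sub_self]
    exact sub_eq_zero.1 (pow_eq_zero_iff (by norm_num : 3 ≠ 0) |>.1 h2)
  have hmap : ∀ x y : Kˣ, Units.map (P.φ : K →* K) x = Units.map (P.φ : K →* K) y → x = y := by
    intro x y h
    apply Units.ext
    exact P.φ.injective (congrArg Units.val h)
  have hu1 : u ≠ 1 := fun h => hu (by rw [h, one_pow])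
  have n1 : v ≠ u := by
    intro h
    apply hu
    rw [hv] at h
    have h1 := hφu
    rw [hv, h, h] at h1
    have h2 : u ^ 2 * u = u := by rw [← pow_succ]; exact h1
    exact mul_eq_right.1 h2
  have n2 : v ^ 3 ≠ u := by
    intro h
    apply n1
    have h1 := hcube _ _ (hφu.trans h.symm)
    exact hmap _ _ h1
  have n3 : v ^ 2 ≠ u := by
    intro h
    have h1 : Units.map (P.φ : K →* K) v ^ 2 = v := by rw [← map_pow, h]
    have h2 : u ^ 2 = v ^ 3 := by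
      rw [← h1, ← pow_mul, mul_comm 2 3, pow_mul, hφu]
    have h3 : u ^ 2 = u * v := by rw [h2, pow_succ, h]
    rw [pow_two, mul_right_inj] at h3
    exact n1 h3.symm
  have n4 : v ^ 3 ≠ u ^ 2 := by
    intro h
    apply n3
    have h1 : Units.map (P.φ : K →* K) (v ^ 3) = Units.map (P.φ : K →* K) (u ^ 2) := by rw [h]
    rw [map_pow, map_pow, hφu, ← hv] at h1
    exact h1.symm
  have n5 : v ≠ 1 := by
    intro h
    apply hu1
    apply hmap
    rw [map_one]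
    exact h
  have hpos1 : (TG2 P).FX (PJ P.Q [0, 1]) ≤ CG (twistedG2 K e) := by
    intro y hy
    have hcl : Clos P.Q.C (PJ P.Q [0, 1]) := (HG2 P).PJ_clos 0
    have hf : tG K ![v, u] ∈ (TG2 P).Fx := by
      have h1 : (MonoidHom.eqLocus (sG2 P.φ) (MonoidHom.id _)).map (torHom chevG2 K) ≤ (TG2 P).Fx := by
        rw [← g2_fx_torus P hφ]; exact inf_le_left
      exact h1 ⟨![v, u], (fixG2 hφ _).2 rfl, rfl⟩
    rw [tG_dG] at hf
    have hne : ∀ r ∈ PJ P.Q [0, 1], (fun s => (![v, u] : Fin 2 → Kˣ) 0 ^ chevG2.cartan 0 s *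
        (![v, u] : Fin 2 → Kˣ) 1 ^ chevG2.cartan 1 s) r ≠ 1 := by
      intro r hr
      have hr' := pj_G2 (Q := P.Q) r |>.1 hr
      show v ^ chevG2.cartan 0 r * u ^ chevG2.cartan 1 r ≠ 1
      have : r = 6 ∨ r = 7 ∨ r = 8 ∨ r = 9 ∨ r = 10 ∨ r = 11 := by simpa using hr'
      rcases this with rfl | rfl | rfl | rfl | rfl | rfl
      · rw [show chevG2.cartan 0 6 = -3 by decide +kernel, show chevG2.cartan 1 6 = 2 by decide +kernel]
        intro h
        rw [_root_.zpow_neg, inv_mul_eq_one] at h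
        exact n4 (by exact_mod_cast h)
      · rw [show chevG2.cartan 0 7 = 2 by decide +kernel, show chevG2.cartan 1 7 = -1 by decide +kernel]
        intro h
        rw [_root_.zpow_neg, mul_inv_eq_one, zpow_one] at h
        exact n3 (by exact_mod_cast h)
      · rw [show chevG2.cartan 0 8 = -1 by decide +kernel, show chevG2.cartan 1 8 = 1 by decide +kernel]
        intro h
        rw [_root_.zpow_neg, inv_mul_eq_one, zpow_one, zpow_one] at h
        exact n1 h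
      · rw [show chevG2.cartan 0 9 = 1 by decide +kernel, show chevG2.cartan 1 9 = 0 by decide +kernel, zpow_zero, mul_one, zpow_one]
        exact n5
      · rw [show chevG2.cartan 0 10 = 3 by decide +kernel, show chevG2.cartan 1 10 = -1 by decide +kernel]
        intro h
        rw [_root_.zpow_neg, mul_inv_eq_one, zpow_one] at h
        exact n2 (by exact_mod_cast h)
      · rw [show chevG2.cartan 0 11 = 0 by decide +kernel, show chevG2.cartan 1 11 = 1 by decide +kernel, zpow_zero, one_mul, zpow_one]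
        exact hu1
    obtain ⟨z, hz, e1⟩ := torus_surj (Q := P.Q) (T := TG2 P) (PJ_sub _) hcl (isChar_G2 P.Q _) hf hne hy
    rw [e1]
    exact CG_comm (hF hf) (hF hz.1)
  have hneg1 : (TG2 P).FX (NJ P.Q [0, 1]) ≤ CG (twistedG2 K e) := CG_neg A (i := 0) hpos1
  have hneg : ∀ {J : List ℕ} {r : ℕ}, r ∈ NJ P.Q J ↔ r < 12 ∧ 11 - r ∈ PJ P.Q J := fun {J r} => Iff.rfl
  apply g2_gen P
  · intro t u v
    exact hpos1 ((g2_mem_FX P hφ).2 ⟨t, u, v, rfl⟩)
  · intro t u v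
    have h : ∀ r ∈ [0, 1, 2, 3, 4, 5], ∀ v, xG P.Q r v ∈ XS P.Q (NJ P.Q [0, 1]) := fun r hr v => by
      refine xG_mem P.Q (hneg.2 ⟨?_, (pj_G2 _).2 ?_⟩) v
      · exact (by decide : ∀ r ∈ [0, 1, 2, 3, 4, 5], r < 12) r hr
      · exact (by decide : ∀ r ∈ [0, 1, 2, 3, 4, 5], 11 - r ∈ [6, 7, 8, 9, 10, 11]) r hr
    exact hneg1 ⟨vW_fix P hφ t u v, Subgroup.mul_mem _ (Subgroup.mul_mem _ (h 4 (by simp) _) (h 5 (by simp) _))
      (Subgroup.mul_mem _ (Subgroup.mul_mem _ (h 3 (by simp) _) (h 2 (by simp) _))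
        (Subgroup.mul_mem _ (h 1 (by simp) _) (h 0 (by simp) _)))⟩

include P hφ hs in
theorem g2_simple_group (hK : 3 < Fintype.card K) : IsSimpleGroup ↥(twistedG2 K e) ∧ ¬ IsMulCommutative ↥(twistedG2 K e) :=
  (g2_twG P hφ).simple (g2_torus_le P hφ hs) (dis_G2 P) (fun S h1 h2 => by
    obtain ⟨a, ha⟩ := h1
    obtain ⟨b, hb⟩ := h2
    exact absurd (by rw [Subsingleton.elim b a]; exact ha) hb) (g2_full P hφ) (g2_perf P hφ hs hK)

omit [Fintype K] in
include P hφ in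
theorem g2_two : ∃ φ : ↥(chevG2.monomialSubgroup K ⊓ twistedG2 K e) →* Multiplicative (ZMod 2), Function.Surjective φ ∧
      φ.ker = (chevG2.diagonalSubgroup K ⊓ twistedG2 K e).subgroupOf (chevG2.monomialSubgroup K ⊓ twistedG2 K e) := by
  have hcard : Nat.card (WT (TG2 P)) = 2 := by
    have h1 : Nat.card (WT (TG2 P)) = (TwG.Wr (TG2 P)).card := Nat.subtype_card _ (fun _ => TwG.mem_Wr)
    have h2 := wrG2.sum (T := TG2 P) (fun _ => rfl) jdG2 (fun _ => 1)
    rw [h1]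
    simpa using h2
  have : Fact (Nat.Prime 2) := ⟨Nat.prime_two⟩
  have E : WT (TG2 P) ≃* Multiplicative (ZMod 2) := mulEquivOfPrimeCardEq (p := 2) hcard (by simp)
  exact (g2_twG P hφ).exists_phiT E

end G2

end Cfsg.Agent.Lib.ChevAlg
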