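import Cfsg.Agent.Lib.ChevTwG

/-!
# Poincaré polynomials of the fixed Weyl groups
-/

set_option autoImplicit false

namespace Cfsg.Agent.Lib.ChevAlg

open Cfsg.Lie Cfsg.Agent.Lib.ChevTab Matrix

variable {D : ChevalleyDatum} {K : Type*} [Field K] {Q : ChevO D K} {T : Tw Q} {ι : Type*} (H : TwJ T ι)

open Classical in
variable (T) in
/-- sum over the fixed elements of `W_J` -/
noncomputable def wsumT (J : List ℕ) (q : ℤ) : ℤ :=
  ∑ w ∈ Finset.univ.filter (fun w => w ∈ WJ Q J ∧ T.ρ * w = w * T.ρ), q ^ ninv w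

open Classical in
variable (T) in
/-- sum over the fixed elements of `W_J` mapping `β` to `γ` -/
noncomputable def fsumT (J : List ℕ) (q : ℤ) (β γ : Fin D.nroots) : ℤ :=
  ∑ w ∈ Finset.univ.filter (fun w => (w ∈ WJ Q J ∧ T.ρ * w = w * T.ρ) ∧ w β = γ), q ^ ninv w

/-- table data for one level -/
structure LevT (H : TwJ T ι) (J J' : List ℕ) (b : ℕ) (dist : ℕ → ℕ) : Prop where
  L : LevD D J J' b dist
  bfix : T.ρ ⟨b, L.b_lt⟩ = ⟨b, L.b_lt⟩
  stable : ∀ i, ∀ a ∈ H.J i, a ∈ J → ∀ a' ∈ H.J i, a' ∈ J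
  step : ∀ g : Fin D.nroots, dist g ≠ 0 → T.ρ g = g → ∀ i, ∀ a ∈ H.J i, a ∈ J → 0 < D.cartan a g →
    (∀ a' ∈ H.J i, 0 < D.cartan a' g) ∧ dist (H.wJ i g : Fin D.nroots) + ninv (H.wJ i) = dist g ∧
    dist (H.wJ i g : Fin D.nroots) ≠ 0 ∧ ∀ a' ∈ H.J i, D.cartan a' (H.wJ i g : Fin D.nroots) < 0

variable {H}

lemma wJ_mem_WJ {J : List ℕ} {i : ι} (h : ∀ a ∈ H.J i, a ∈ J) : H.wJ i ∈ WJ Q J := by
  have h1 : WJ Q (H.J i) ≤ WJ Q J := by
    rw [WJ, Subgroup.closure_le]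
    rintro _ ⟨a, ha, hr, rfl⟩
    exact sr_mem_WJ Q (h a ha) hr
  exact h1 (H.memJ i)

section lev

variable (hS : SuppD Q.C) {J J' : List ℕ} {b : ℕ} {dist : ℕ → ℕ} (L : LevT H J J' b dist)

include hS L in
lemma fsumT_step (q : ℤ) {i : ι} (hJ : ∀ a ∈ H.J i, a ∈ J) {γ : Fin D.nroots} (hneg : ∀ a ∈ H.J i, D.cartan a γ < 0) :
    fsumT T J q ⟨b, L.L.b_lt⟩ (H.wJ i γ) = q ^ ninv (H.wJ i) * fsumT T J q ⟨b, L.L.b_lt⟩ γ := by
  classical
  rw [fsumT, fsumT, Finset.mul_sum]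
  symm
  have hwm := wJ_mem_WJ hJ
  apply Finset.sum_nbij' (i := fun w => H.wJ i * w) (j := fun w => H.wJ i * w)
  · intro w hw
    rw [Finset.mem_filter] at hw ⊢
    obtain ⟨-, ⟨h1, h1'⟩, h2⟩ := hw
    refine ⟨Finset.mem_univ _, ⟨Subgroup.mul_mem _ hwm h1, TwJ.comm_mul (H.comm i) h1'⟩, ?_⟩
    rw [Equiv.Perm.mul_apply, h2]
  · intro w hw
    rw [Finset.mem_filter] at hw ⊢
    obtain ⟨-, ⟨h1, h1'⟩, h2⟩ := hw
    refine ⟨Finset.mem_univ _, ⟨Subgroup.mul_mem _ hwm h1, TwJ.comm_mul (H.comm i) h1'⟩, ?_⟩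
    rw [Equiv.Perm.mul_apply, h2, H.wJ_wJ]
  · intro w _
    rw [← mul_assoc, H.wJ_sq, one_mul]
  · intro w _
    rw [← mul_assoc, H.wJ_sq, one_mul]
  · intro w hw
    rw [Finset.mem_filter] at hw
    obtain ⟨-, ⟨h1, h1'⟩, h2⟩ := hw
    have hwa := WG_waut Q (WJ_le Q J h1)
    have hp : ∀ r : Fin D.nroots, (r : ℕ) ∈ PJ Q (H.J i) → ps (w⁻¹ r) := by
      apply pos_of_simple_J hwa.inv
      intro a ha haJ
      apply ps_of_pair_neg hS L.L.anti (supp_WJ (Subgroup.inv_mem _ h1) ha (hJ a haJ))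
      have h3 := hwa.inv.pair (si Q a ha) γ
      have h4 : w⁻¹ γ = ⟨b, L.L.b_lt⟩ := by rw [← h2, perm_inv_apply]
      rw [h4, pair_si] at h3
      have h5 : pairD D (w⁻¹ (si Q a ha)) b = D.cartan a γ := h3
      rw [h5]; exact hneg a haJ
    have h6 := H.ninv_mul hwa.inv hp
    have h7 : ninv (H.wJ i * w) = ninv (w⁻¹ * H.wJ i) := by
      rw [← ninv_inv (Q := Q) (WG_waut Q (Subgroup.mul_mem _ (H.mem i) (WJ_le Q J h1))), _root_.mul_inv_rev, H.wJ_inv]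
    rw [h7, h6, ninv_inv (Q := Q) hwa, pow_add, mul_comm]

include hS L in
lemma fsumT_eq (q : ℤ) : ∀ (k : ℕ) (γ : Fin D.nroots), T.ρ γ = γ → dist γ = k + 1 →
    fsumT T J q ⟨b, L.L.b_lt⟩ γ = q ^ k * fsumT T J q ⟨b, L.L.b_lt⟩ ⟨b, L.L.b_lt⟩ := by
  intro k
  induction k using Nat.strong_induction_on with
  | _ k ih =>
    intro γ hf hγ
    rcases L.L.down γ γ.2 (by omega) with h | ⟨j, hJ, h⟩
    · have h1 : γ = ⟨b, L.L.b_lt⟩ := Fin.ext h
      have h2 : k = 0 := by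
        have := L.L.dist_b
        rw [h] at hγ
        omega
      rw [h1, h2, pow_zero, one_mul]
    · obtain ⟨i, hi⟩ := H.cover j (L.L.lt j hJ)
      obtain ⟨h1, h2, h3, h4⟩ := L.step γ (by omega) hf i j hi hJ h
      have h5 := fsumT_step hS L q (i := i) (γ := H.wJ i γ) (fun a ha => L.stable i j hi hJ a ha) h4
      rw [H.wJ_wJ] at h5
      have h6 : T.ρ (H.wJ i γ) = H.wJ i γ := by
        rw [← Equiv.Perm.mul_apply, H.comm i, Equiv.Perm.mul_apply, hf]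
      have h7 := H.ninv_pos i
      obtain ⟨m, hm⟩ : ∃ m, dist (H.wJ i γ : Fin D.nroots) = m + 1 := ⟨dist (H.wJ i γ : Fin D.nroots) - 1, by omega⟩
      rw [h5, ih m (by omega) (H.wJ i γ) h6 hm, ← mul_assoc, ← pow_add]
      congr 2
      omega

include hS L in
theorem wsumT_lev (q : ℤ) : wsumT T J q =
    (∑ γ : Fin D.nroots, if dist γ = 0 ∨ T.ρ γ ≠ γ then 0 else q ^ (dist γ - 1)) * wsumT T J' q := by
  classical
  have h1 : wsumT T J q = ∑ γ : Fin D.nroots, fsumT T J q ⟨b, L.L.b_lt⟩ γ := by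
    rw [wsumT, ← Finset.sum_fiberwise (Finset.univ.filter (fun w => w ∈ WJ Q J ∧ T.ρ * w = w * T.ρ)) (fun w => w ⟨b, L.L.b_lt⟩)]
    apply Finset.sum_congr rfl
    intro γ _
    rw [fsumT, Finset.filter_filter]
  have h2 : fsumT T J q ⟨b, L.L.b_lt⟩ ⟨b, L.L.b_lt⟩ = wsumT T J' q := by
    rw [fsumT, wsumT]
    congr 1
    ext w
    rw [Finset.mem_filter, Finset.mem_filter]
    constructor
    · rintro ⟨-, ⟨h3, h3'⟩, h4⟩
      exact ⟨Finset.mem_univ _, mem_WJ' hS L.L _ w rfl h3 h4, h3'⟩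
    · rintro ⟨-, h3, h3'⟩
      exact ⟨Finset.mem_univ _, ⟨WJ'_le L.L h3, h3'⟩, WJ'_fix L.L h3⟩
  have h3 : ∀ γ : Fin D.nroots, fsumT T J q ⟨b, L.L.b_lt⟩ γ =
      (if dist γ = 0 ∨ T.ρ γ ≠ γ then 0 else q ^ (dist γ - 1)) * wsumT T J' q := by
    intro γ
    split_ifs with h
    · rw [zero_mul, fsumT]
      apply Finset.sum_eq_zero
      intro w hw
      rw [Finset.mem_filter] at hw
      obtain ⟨-, ⟨h4, h4'⟩, h5⟩ := hw
      exfalso
      rcases h with h | h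
      · have := dist_ne_zero L.L h4
        rw [h5] at this
        exact this h
      · apply h
        rw [← h5, ← Equiv.Perm.mul_apply, h4', Equiv.Perm.mul_apply, L.bfix]
    · push Not at h
      rw [fsumT_eq hS L q (dist γ - 1) γ h.2 (by have := h.1; omega), h2]
  rw [h1, Finset.sum_congr rfl (fun γ _ => h3 γ), ← Finset.sum_mul]

end lev

lemma ninv_one' : ninv (1 : Equiv.Perm (Fin D.nroots)) = 0 := by
  classical
  rw [ninv, Finset.card_eq_zero, Finset.filter_eq_empty_iff]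
  intro s _ hs
  exact hs.2 hs.1

/-- a single class -/
lemma wsumT_single (H : TwJ T ι) (i : ι) (q : ℤ) : wsumT T (H.J i) q = 1 + q ^ ninv (H.wJ i) := by
  classical
  have h1 : (Finset.univ.filter (fun w => w ∈ WJ Q (H.J i) ∧ T.ρ * w = w * T.ρ)) = {1, H.wJ i} := by
    ext w
    rw [Finset.mem_filter, Finset.mem_insert, Finset.mem_singleton]
    constructor
    · rintro ⟨-, h1, h2⟩
      by_cases h : w = 1
      · exact Or.inl h
      · exact Or.inr (H.eq_wJ h1 h2 h)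
    · rintro (rfl | rfl)
      · exact ⟨Finset.mem_univ _, Subgroup.one_mem _, by rw [mul_one, one_mul]⟩
      · exact ⟨Finset.mem_univ _, H.memJ i, H.comm i⟩
  rw [wsumT, h1, Finset.sum_pair (H.ne_one i).symm, ninv_one', pow_zero]

/-- number of inversions of the longest element of a commuting class -/
lemma ComJ.ninv {J : List ℕ} (hJ : ComJ D J) (hS : SuppD Q.C) {i : ι} (H : TwJ T ι) (h : H.J i = J) :
    Cfsg.Agent.Lib.ChevAlg.ninv (H.wJ i) = J.length := by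
  rw [← length_lst_inv, H.inv_wJ, h, (hJ.perm hS).length_eq, List.length_map]

end Cfsg.Agent.Lib.ChevAlg
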