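import Cfsg.Agent.Lib.ChevStH

/-!
# Central extensions: the commutator form
-/

set_option autoImplicit false

namespace Cfsg.Agent.Lib.ChevAlg

/-- the data of a central extension -/
structure CExt {E M : Type*} [Group E] [Group M] (π : E →* M) : Prop where
  surj : Function.Surjective π
  cent : π.ker ≤ Subgroup.center E

section cext

variable {E M : Type*} [Group E] [Group M] {π : E →* M} (H : CExt π)

/-- a chosen lift -/
noncomputable def CExt.lif (H : CExt π) (m : M) : E := (H.surj m).choose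

lemma CExt.lif_spec (m : M) : π (H.lif m) = m := (H.surj m).choose_spec

include H in
lemma CExt.comm_ker {z : E} (hz : π z = 1) (x : E) : z * x = x * z := (Subgroup.mem_center_iff.1 (H.cent hz) x).symm

include H in
lemma CExt.ratio {x x' : E} (h : π x = π x') : ∃ z, π z = 1 ∧ x = x' * z :=
  ⟨x'⁻¹ * x, by rw [map_mul, map_inv, h, inv_mul_cancel], by group⟩

include H in
/-- commutators only depend on images -/
lemma CExt.comm_eq {x x' y y' : E} (hx : π x = π x') (hy : π y = π y') :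
    x * y * x⁻¹ * y⁻¹ = x' * y' * x'⁻¹ * y'⁻¹ := by
  obtain ⟨z, hz, rfl⟩ := H.ratio hx
  obtain ⟨w, hw, rfl⟩ := H.ratio hy
  have cz := H.comm_ker hz
  have cw := H.comm_ker hw
  have e1 : x' * z * (y' * w) * (x' * z)⁻¹ * (y' * w)⁻¹ = x' * (z * y') * (w * z⁻¹) * x'⁻¹ * (w⁻¹ * y'⁻¹) := by group
  have e2 : w⁻¹ * y'⁻¹ = y'⁻¹ * w⁻¹ := by
    have := H.comm_ker (z := w⁻¹) (by rw [map_inv, hw, inv_one]) y'⁻¹
    exact this
  rw [e1, cz, e2]
  have e3 : x' * (y' * z) * (w * z⁻¹) * x'⁻¹ * (y'⁻¹ * w⁻¹) = x' * y' * (z * (w * z⁻¹) * (x'⁻¹ * y'⁻¹) * w⁻¹) := by group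
  have e4 : z * (w * z⁻¹) = w := by rw [cz (w * z⁻¹)]; group
  rw [e3, e4, cw (x'⁻¹ * y'⁻¹)]
  group

/-- the commutator of lifts -/
noncomputable def CExt.cm (H : CExt π) (a b : M) : E := H.lif a * H.lif b * (H.lif a)⁻¹ * (H.lif b)⁻¹

lemma CExt.cm_eq (x y : E) : H.cm (π x) (π y) = x * y * x⁻¹ * y⁻¹ :=
  H.comm_eq (H.lif_spec _) (H.lif_spec _)

lemma CExt.cm_of {x y : E} {a b : M} (hx : π x = a) (hy : π y = b) : H.cm a b = x * y * x⁻¹ * y⁻¹ := by
  subst hx hy; exact H.cm_eq x y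

lemma CExt.map_cm (a b : M) : π (H.cm a b) = a * b * a⁻¹ * b⁻¹ := by
  rw [CExt.cm, map_mul, map_mul, map_mul, map_inv, map_inv, H.lif_spec, H.lif_spec]

lemma CExt.conj_cm (g : E) (a b : M) : g * H.cm a b * g⁻¹ = H.cm (π g * a * (π g)⁻¹) (π g * b * (π g)⁻¹) := by
  rw [H.cm_of (a := π g * a * (π g)⁻¹) (b := π g * b * (π g)⁻¹) (x := g * H.lif a * g⁻¹) (y := g * H.lif b * g⁻¹)
    (by rw [map_mul, map_mul, map_inv, H.lif_spec]) (by rw [map_mul, map_mul, map_inv, H.lif_spec]), CExt.cm]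
  group

lemma CExt.cm_symm (a b : M) : H.cm b a = (H.cm a b)⁻¹ := by rw [CExt.cm, CExt.cm]; group

lemma CExt.cm_one_left (b : M) : H.cm 1 b = 1 := by
  rw [H.cm_of (map_one π) (H.lif_spec b)]; group

lemma CExt.cm_one_right (b : M) : H.cm b 1 = 1 := by
  rw [H.cm_symm, H.cm_one_left, inv_one]

lemma CExt.cm_self (b : M) : H.cm b b = 1 := by rw [CExt.cm]; group

lemma CExt.cm_mul_left (a a' b : M) : H.cm (a * a') b = H.lif a * H.cm a' b * (H.lif a)⁻¹ * H.cm a b := by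
  rw [H.cm_of (x := H.lif a * H.lif a') (y := H.lif b) (by rw [map_mul, H.lif_spec, H.lif_spec]) (H.lif_spec b), CExt.cm, CExt.cm]
  group

lemma CExt.cm_mul_right (a b b' : M) : H.cm a (b * b') = H.cm a b * (H.lif b * H.cm a b' * (H.lif b)⁻¹) := by
  rw [H.cm_of (y := H.lif b * H.lif b') (x := H.lif a) (H.lif_spec a) (by rw [map_mul, H.lif_spec, H.lif_spec]), CExt.cm, CExt.cm]
  group

/-- lifts commute -/
lemma CExt.cm_eq_one {x y : E} : H.cm (π x) (π y) = 1 ↔ x * y = y * x := by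
  rw [H.cm_eq, mul_inv_eq_one, mul_inv_eq_iff_eq_mul]

lemma CExt.cm_eq_one' {x y : E} {a b : M} (hx : π x = a) (hy : π y = b) : H.cm a b = 1 ↔ x * y = y * x := by
  subst hx hy; exact H.cm_eq_one

lemma CExt.cm_ker {a b : M} (h : a * b = b * a) : π (H.cm a b) = 1 := by
  rw [H.map_cm, h]; group

/-- bimultiplicativity on commuting elements -/
lemma CExt.cm_bi {a a' b : M} (h' : a' * b = b * a') : H.cm (a * a') b = H.cm a b * H.cm a' b := by
  rw [H.cm_mul_left]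
  have h1 := H.comm_ker (H.cm_ker h')
  rw [← h1 (H.lif a), mul_inv_cancel_right, h1]

lemma CExt.cm_bi' {a b b' : M} (h' : a * b' = b' * a) : H.cm a (b * b') = H.cm a b * H.cm a b' := by
  rw [H.cm_mul_right]
  have h1 := H.comm_ker (H.cm_ker h')
  rw [← h1 (H.lif b), mul_inv_cancel_right]

/-- conjugation invariance on commuting elements -/
lemma CExt.cm_conj {a b : M} (h : a * b = b * a) (g : M) : H.cm (g * a * g⁻¹) (g * b * g⁻¹) = H.cm a b := by
  have h1 := H.conj_cm (H.lif g) a b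
  rw [H.lif_spec] at h1
  rw [← h1, ← H.comm_ker (H.cm_ker h), mul_inv_cancel_right]

/-- **first trick** -/
lemma CExt.cm_comm {a b y : M} (h1 : y * a = a * y) (h2 : y * b = b * y) : H.cm (a * b * a⁻¹ * b⁻¹) y = 1 := by
  rw [H.cm_eq_one' (H.map_cm a b) (H.lif_spec y)]
  have h3 := H.conj_cm (H.lif y) a b
  rw [H.lif_spec, h1, mul_inv_cancel_right, h2, mul_inv_cancel_right, mul_inv_eq_iff_eq_mul] at h3
  exact h3.symm

/-- **Hall-Witt** -/
lemma CExt.hallWitt {x y z : M} (hxz : H.cm x z = 1) (hk : H.cm (z * y * z⁻¹ * y⁻¹) (x * y * x⁻¹ * y⁻¹) = 1) :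
    H.cm z (x * y * x⁻¹ * y⁻¹) = H.cm x (z * y * z⁻¹ * y⁻¹) := by
  obtain ⟨x, rfl⟩ := H.surj x
  obtain ⟨y, rfl⟩ := H.surj y
  obtain ⟨z, rfl⟩ := H.surj z
  rw [H.cm_eq_one] at hxz
  have e1 : π x * π y * (π x)⁻¹ * (π y)⁻¹ = π (x * y * x⁻¹ * y⁻¹) := by simp
  have e2 : π z * π y * (π z)⁻¹ * (π y)⁻¹ = π (z * y * z⁻¹ * y⁻¹) := by simp
  rw [e1, e2, H.cm_eq_one] at hk
  rw [e1, e2, H.cm_eq, H.cm_eq]
  set k := z * y * z⁻¹ * y⁻¹ with hkd
  -- `z y z⁻¹ = k y`
  have h1 : z * y * z⁻¹ = k * y := by rw [hkd]; group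
  have h2 : z * x * z⁻¹ = x := by rw [← hxz]; group
  have h3 : z * (x * y * x⁻¹ * y⁻¹) * z⁻¹ = x * (k * y) * x⁻¹ * (k * y)⁻¹ := by
    have : z * (x * y * x⁻¹ * y⁻¹) * z⁻¹ = (z * x * z⁻¹) * (z * y * z⁻¹) * (z * x * z⁻¹)⁻¹ * (z * y * z⁻¹)⁻¹ := by group
    rw [this, h1, h2]
  have h4 : x * (k * y) * x⁻¹ * (k * y)⁻¹ = (x * k * x⁻¹ * k⁻¹) * (k * (x * y * x⁻¹ * y⁻¹)) * k⁻¹ := by group
  rw [h4, hk] at h3
  rw [h3]
  group

/-- central elements lift to central elements when `M` is perfect -/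
lemma CExt.cm_center (hP : commutator M = ⊤) {z : M} (hz : z ∈ Subgroup.center M) (b : M) : H.cm z b = 1 := by
  have hz' := Subgroup.mem_center_iff.1 hz
  let f : M →* E := MonoidHom.mk' (fun b => H.cm z b) (fun a b => H.cm_bi' (hz' b).symm)
  have h1 : commutator M ≤ f.ker := by
    rw [commutator_def, Subgroup.commutator_le]
    intro a _ b _
    have h3 : f a * f b = f b * f a := H.comm_ker (H.cm_ker (hz' a).symm) _
    rw [MonoidHom.mem_ker]
    show f (a * b * a⁻¹ * b⁻¹) = 1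
    rw [map_mul, map_mul, map_mul, map_inv, map_inv, h3]
    group
  rw [hP] at h1
  exact h1 (Subgroup.mem_top b)

lemma CExt.cm_mul_center (hP : commutator M = ⊤) {z : M} (hz : z ∈ Subgroup.center M) (a b : M) : H.cm (a * z) b = H.cm a b := by
  rw [H.cm_mul_left, H.cm_center hP hz, mul_one, mul_inv_cancel, one_mul]

end cext

/-- pullback of a central extension -/
def pull {E G M : Type*} [Group E] [Group G] [Group M] (π : E →* G) (σ : M →* G) : Subgroup (E × M) where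
  carrier := {p | π p.1 = σ p.2}
  mul_mem' := by
    rintro ⟨a, b⟩ ⟨c, d⟩ h h'
    show π (a * c) = σ (b * d)
    have h1 : π a = σ b := h
    have h2 : π c = σ d := h'
    rw [map_mul, map_mul, h1, h2]
  one_mem' := by show π 1 = σ 1; rw [map_one, map_one]
  inv_mem' := by
    rintro ⟨a, b⟩ h
    show π a⁻¹ = σ b⁻¹
    have h1 : π a = σ b := h
    rw [map_inv, map_inv, h1]

lemma pull_cext {E G M : Type*} [Group E] [Group G] [Group M] {π : E →* G} (H : CExt π) (σ : M →* G) :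
    CExt ((MonoidHom.snd E M).comp (pull π σ).subtype) := by
  constructor
  · intro m
    obtain ⟨e, he⟩ := H.surj (σ m)
    exact ⟨⟨(e, m), he⟩, rfl⟩
  · rintro ⟨⟨a, b⟩, h⟩ hk
    have hb : b = 1 := hk
    subst hb
    have ha : π a = 1 := by
      have h1 : π a = σ 1 := h
      rw [h1, map_one]
    rw [Subgroup.mem_center_iff]
    rintro ⟨⟨c, d⟩, h'⟩
    apply Subtype.ext
    show (c * a, d * 1) = (a * c, 1 * d)
    rw [H.comm_ker ha, mul_one, one_mul]

end Cfsg.Agent.Lib.ChevAlg
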