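import Cfsg.Agent.Lib.ChevUcA

/-!
# Lifting Steinberg's relations to central extensions: the simply laced case
-/

set_option autoImplicit false

namespace Cfsg.Agent.Lib.ChevAlg

open Cfsg.Lie Cfsg.Agent.Lib.ChevTab Matrix

/-- commuting roots -/
def Com {D : ChevalleyDatum} (C : Cert D) (r s : ℕ) : Prop := C.S r s = D.nroots ∧ s ≠ D.nroots - 1 - r

/-- the Hall-Witt configuration -/
def HW {D : ChevalleyDatum} (C : Cert D) (c d a a' : ℕ) : Prop :=
  ∃ b < D.nroots, C.S a b = d ∧ C.S c b = a' ∧ Com C a c ∧ Com C a' d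

/-- combinatorial conditions for lifting -/
structure SLift {D : ChevalleyDatum} (C : Cert D) : Prop where
  dbl : ∀ a < D.nroots, ∀ b < D.nroots, C.S a b < D.nroots → C.S a (C.S a b) = D.nroots
  unit : ∀ a < D.nroots, ∀ b < D.nroots, C.S a b < D.nroots → C.N a b = 1 ∨ C.N a b = -1
  wit : ∀ r < D.nroots, ∀ s < D.nroots, Com C r s → ∃ a < D.nroots, ∃ b < D.nroots, C.S a b = r ∧ Com C a s ∧ Com C b s
  base : ∃ p q : ℕ → ℕ, ∀ r < D.nroots, p r < D.nroots ∧ q r < D.nroots ∧ C.S (p r) (q r) = r ∧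
    (∃ c < D.nroots, ∃ d < D.nroots, C.S c d = r ∧ HW C c d (p r) (q r)) ∧
    ∀ c < D.nroots, ∀ d < D.nroots, C.S c d = r →
      (c = p r ∧ d = q r) ∨ (c = q r ∧ d = p r) ∨ HW C c d (p r) (q r) ∨ HW C c d (q r) (p r)

section

variable {D : ChevalleyDatum} {F : Type*} [Field F] {Q : ChevO D F} {M : Type*} [Group M] {X : ℕ → F → M} {θ : M →* GL D.Idx F}
  (hX : StF Q X θ)

include Q in
lemma S_top {r : ℕ} (hr : r < D.nroots) : Q.C.S r D.nroots = D.nroots :=
  (Q.C.S_iff r hr.le D.nroots le_rfl).2 (Q.C.N_right r hr.le)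

lemma commTerms_nil {r s : ℕ} (hr : r < D.nroots) (hs : s < D.nroots) (h : Q.C.S r s = D.nroots) : D.commTerms r s = [] := by
  have h' : Q.C.S s r = D.nroots := by rw [Q.C.S_symm r hr s hs, h]
  rw [commTerms_eq (C := Q.C) hr hs (by rw [S3, h, S_top hr, S_top hr]) (by rw [S3, h', S_top hs, S_top hs]), if_pos h,
    if_pos (by rw [S2, h, S_top hr]), if_pos (by rw [S2, h', S_top hs])]
  rfl

lemma Com.symm {C : Cert D} {r s : ℕ} (hr : r < D.nroots) (hs : s < D.nroots) (h : Com C r s) : Com C s r := by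
  refine ⟨by rw [C.S_symm r hr s hs]; exact h.1, ?_⟩
  have := h.2
  omega

include hX in
lemma StF.com {r s : ℕ} (hr : r < D.nroots) (hs : s < D.nroots) (h : Com Q.C r s) (t u : F) : X r t * X s u = X s u * X r t := by
  by_cases hrs : s = r
  · subst hrs
    rw [hX.add s hs, hX.add s hs, add_comm]
  · have := hX.comm r hr s hs hrs h.2 t u
    rw [ChevalleyDatum.commWord, commTerms_nil hr hs h.1] at this
    simpa [wM] using this.symm

include hX in
lemma StF.inj {r : ℕ} (hr : r < D.nroots) {t u : F} (h : X r t = X r u) : t = u := by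
  have := congrArg θ h
  rw [hX.map r hr, hX.map r hr] at this
  exact xG_inj Q hr this

section sl

variable (hL : SLift Q.C)

include hL

lemma SLift.ne {a b : ℕ} (ha : a < D.nroots) (hb : b < D.nroots) (h : Q.C.S a b < D.nroots) : b ≠ a ∧ b ≠ D.nroots - 1 - a := by
  constructor
  · rintro rfl
    have := (Q.C.S_iff b hb.le b hb.le).2 (Q.C.N_self b hb)
    omega
  · rintro rfl
    have := (Q.C.S_iff a ha.le _ hb.le).2 (Q.C.N_neg_self a ha)
    omega

lemma SLift.terms {a b : ℕ} (ha : a < D.nroots) (hb : b < D.nroots) (h : Q.C.S a b < D.nroots) :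
    D.commTerms a b = [(Q.C.S a b, Q.C.N a b, 1, 1)] := by
  have h2 : Q.C.S a (Q.C.S a b) = D.nroots := hL.dbl a ha b hb h
  have h' : Q.C.S b a < D.nroots := by rw [Q.C.S_symm a ha b hb]; exact h
  have h2' : Q.C.S b (Q.C.S b a) = D.nroots := hL.dbl b hb a ha h'
  rw [commTerms_eq (C := Q.C) ha hb (by rw [S3, h2, S_top ha]) (by rw [S3, h2', S_top hb]), if_neg h.ne,
    if_pos (by rw [S2, h2]), if_pos (by rw [S2, h2'])]
  rfl

lemma SLift.com_left {a b : ℕ} (ha : a < D.nroots) (hb : b < D.nroots) (h : Q.C.S a b < D.nroots) : Com Q.C a (Q.C.S a b) :=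
  ⟨hL.dbl a ha b hb h, Q.C.S_ne_neg a ha b hb⟩

lemma SLift.com_right {a b : ℕ} (ha : a < D.nroots) (hb : b < D.nroots) (h : Q.C.S a b < D.nroots) : Com Q.C b (Q.C.S a b) := by
  have h' : Q.C.S b a < D.nroots := by rw [Q.C.S_symm a ha b hb]; exact h
  have := hL.com_left hb ha h'
  rwa [Q.C.S_symm a ha b hb] at this

lemma SLift.NN {a b : ℕ} (ha : a < D.nroots) (hb : b < D.nroots) (h : Q.C.S a b < D.nroots) : (Q.C.N a b : F) * Q.C.N a b = 1 := by
  rcases hL.unit a ha b hb h with h | h <;> rw [h] <;> norm_num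

include hX in
lemma StF.cab {a b : ℕ} (ha : a < D.nroots) (hb : b < D.nroots) (h : Q.C.S a b < D.nroots) (t u : F) :
    X a t * X b u * (X a t)⁻¹ * (X b u)⁻¹ = X (Q.C.S a b) (Q.C.N a b * t * u) := by
  obtain ⟨h1, h2⟩ := hL.ne ha hb h
  have e := hX.comm a ha b hb h1 h2 t u
  rw [ChevalleyDatum.commWord, hL.terms ha hb h] at e
  simp only [List.map_cons, List.map_nil, wM, List.prod_cons, List.prod_nil, mul_one, pow_one] at e
  have ca := hX.com ha h (hL.com_left ha hb h)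
  have cb := hX.com hb h (hL.com_right ha hb h)
  set k := Q.C.S a b
  have e1 : X k (Q.C.N a b * t * u) * X k (Q.C.N a b * -t * u) = 1 := by
    rw [hX.add k h]
    have : (Q.C.N a b : F) * t * u + Q.C.N a b * -t * u = 0 := by ring
    rw [this, hX.zero h]
  have e2 : X a t * X b u = X k (Q.C.N a b * t * u) * (X b u * X a t) := by
    rw [e, ← mul_assoc, ← mul_assoc, ← ca, mul_assoc (X a t), ← cb, ← mul_assoc, mul_assoc (X a t * X b u), e1, mul_one]
  rw [e2]; group

variable {E : Type*} [Group E] {π : E →* M} (H : CExt π)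

include hX

lemma SLift.cc {r s : ℕ} (hr : r < D.nroots) (hs : s < D.nroots) (h : Com Q.C r s) (t u : F) : H.cm (X r t) (X s u) = 1 := by
  obtain ⟨a, ha, b, hb, e, h1, h2⟩ := hL.wit r hr s hs h
  have hlt : Q.C.S a b < D.nroots := by rw [e]; exact hr
  have e1 := hX.cab hL ha hb hlt (Q.C.N a b * t) 1
  rw [mul_one, ← mul_assoc, hL.NN ha hb hlt, one_mul, e] at e1
  rw [← e1]
  exact H.cm_comm (hX.com ha hs h1 _ _).symm (hX.com hb hs h2 _ _).symm

lemma SLift.map_F {c d : ℕ} (hc : c < D.nroots) (hd : d < D.nroots) (h : Q.C.S c d < D.nroots) (t u : F) :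
    π (H.cm (X c t) (X d u)) = X (Q.C.S c d) (Q.C.N c d * t * u) := by
  rw [H.map_cm, hX.cab hL hc hd h]

include H in
lemma SLift.lif_comm {a b : ℕ} (ha : a < D.nroots) (hb : b < D.nroots) (h : Com Q.C a b) {x y : E} {t u : F} (hx : π x = X a t)
    (hy : π y = X b u) : x * y = y * x :=
  (H.cm_eq_one' hx hy).1 (hL.cc hX H ha hb h t u)

lemma SLift.F_add {c d : ℕ} (hc : c < D.nroots) (hd : d < D.nroots) (h : Q.C.S c d < D.nroots) (t t' u : F) :
    H.cm (X c (t + t')) (X d u) = H.cm (X c t) (X d u) * H.cm (X c t') (X d u) := by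
  have h1 := hL.lif_comm hX H hc h (hL.com_left hc hd h) (H.lif_spec (X c t)) (hL.map_F hX H hc hd h t' u)
  have h2 := hL.lif_comm hX H h h ⟨(Q.C.S_iff _ h.le _ h.le).2 (Q.C.N_self _ h), by
    have := Q.C.even
    omega⟩ (hL.map_F hX H hc hd h t u) (hL.map_F hX H hc hd h t' u)
  rw [← hX.add c hc, H.cm_mul_left, h1, mul_inv_cancel_right, h2]

lemma SLift.F_zero {c d : ℕ} (hc : c < D.nroots) (u : F) : H.cm (X c 0) (X d u) = 1 := by
  rw [hX.zero hc, H.cm_one_left]

lemma SLift.F_zero' {c d : ℕ} (hd : d < D.nroots) (u : F) : H.cm (X c u) (X d 0) = 1 := by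
  rw [hX.zero hd, H.cm_one_right]

lemma SLift.F_neg {c d : ℕ} (hc : c < D.nroots) (hd : d < D.nroots) (h : Q.C.S c d < D.nroots) (t u : F) :
    H.cm (X c (-t)) (X d u) = (H.cm (X c t) (X d u))⁻¹ := by
  rw [eq_inv_iff_mul_eq_one, ← hL.F_add hX H hc hd h, neg_add_cancel, hL.F_zero hX H hc]

lemma SLift.F_swap {c d : ℕ} (hc : c < D.nroots) (hd : d < D.nroots) (h : Q.C.S c d < D.nroots) (t u : F) :
    H.cm (X d u) (X c t) = H.cm (X c (-t)) (X d u) := by
  rw [hL.F_neg hX H hc hd h, H.cm_symm]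

omit hL hX in
/-- the relation between two decompositions -/
def Rel (Q : ChevO D F) (X : ℕ → F → M) (H : CExt π) (c d a a' : ℕ) : Prop := ∀ v s t s' : F, (Q.C.N c d : F) * v * s = Q.C.N a a' * t * s' →
  H.cm (X c v) (X d s) = H.cm (X a t) (X a' s')

omit hL hX in
lemma Rel.symm {c d a a' : ℕ} (h : Rel Q X H c d a a') : Rel Q X H a a' c d := fun v s t s' e => (h t s' v s e.symm).symm

omit hX in
lemma Rel.trans {c d a a' b b' : ℕ} (ha : a < D.nroots) (ha' : a' < D.nroots) (hlt : Q.C.S a a' < D.nroots)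
    (h : Rel Q X H c d a a') (h' : Rel Q X H a a' b b') : Rel Q X H c d b b' := by
  intro v s t s' e
  have e1 : (Q.C.N a a' : F) * 1 * (Q.C.N a a' * (Q.C.N c d * v * s)) = Q.C.N c d * v * s := by
    linear_combination (Q.C.N c d * v * s : F) * hL.NN (F := F) ha ha' hlt
  rw [h v s 1 _ e1.symm]
  exact h' _ _ _ _ (e1.trans e)

lemma Rel.swap {c d a a' : ℕ} (ha : a < D.nroots) (ha' : a' < D.nroots) (hlt : Q.C.S a a' < D.nroots)
    (h : Rel Q X H c d a a') : Rel Q X H c d a' a := by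
  intro v s t s' e
  rw [hL.F_swap hX H ha ha' hlt]
  apply h
  rw [e, Q.C.N_symm a ha a' ha']
  push_cast; ring

lemma Rel.ofHW {c d a a' : ℕ} (hc : c < D.nroots) (hd : d < D.nroots) (ha : a < D.nroots) (ha' : a' < D.nroots)
    (hcd : Q.C.S c d < D.nroots) (haa : Q.C.S a a' = Q.C.S c d) (h : HW Q.C c d a a') : Rel Q X H c d a a' := by
  obtain ⟨b, hb, h1, h2, h3, h4⟩ := h
  have hab : Q.C.S a b < D.nroots := by rw [h1]; exact hd
  have hcb : Q.C.S c b < D.nroots := by rw [h2]; exact ha'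
  have haa' : Q.C.S a a' < D.nroots := by rw [haa]; exact hcd
  have key : ∀ t u v : F, H.cm (X c v) (X d (Q.C.N a b * t * u)) = H.cm (X a t) (X a' (Q.C.N c b * v * u)) := by
    intro t u v
    have e1 := hX.cab hL ha hb hab t u
    have e2 := hX.cab hL hc hb hcb v u
    rw [h1] at e1
    rw [h2] at e2
    have := H.hallWitt (x := X a t) (y := X b u) (z := X c v) (hL.cc hX H ha hc h3 t v) (by
      rw [e1, e2]
      exact hL.cc hX H ha' hd h4 _ _)
    rwa [e1, e2] at this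
  have hsg : (Q.C.N c d : F) * Q.C.N a b = Q.C.N a a' * Q.C.N c b := by
    have e := congrArg π (key 1 1 1)
    rw [hL.map_F hX H hc hd hcd, hL.map_F hX H ha ha' haa', haa] at e
    have := hX.inj hcd e
    linear_combination this
  have n1 := hL.NN (F := F) ha hb hab
  have n2 := hL.NN (F := F) ha ha' haa'
  intro v s t s' e
  by_cases ht : t = 0
  · subst ht
    have n3 := hL.NN (F := F) hc hd hcd
    have h0 : v * s = 0 := by
      have : (Q.C.N c d : F) * Q.C.N c d * (v * s) = 0 := by linear_combination (Q.C.N c d : F) * e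
      rwa [n3, one_mul] at this
    rw [hL.F_zero hX H ha]
    rcases mul_eq_zero.1 h0 with rfl | rfl
    · exact hL.F_zero hX H hc _
    · exact hL.F_zero' hX H hd _
  · have k := key t (Q.C.N a b * s / t) v
    have e1 : (Q.C.N a b : F) * t * (Q.C.N a b * s / t) = s := by
      field_simp
      linear_combination s * n1
    have e2 : (Q.C.N c b : F) * v * (Q.C.N a b * s / t) = s' := by
      field_simp
      have : (Q.C.N c b : F) * Q.C.N a b = Q.C.N a a' * Q.C.N c d := by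
        linear_combination (-(Q.C.N a a' : F) * Q.C.N a b) * hsg + ((Q.C.N a a' : F) * Q.C.N c d) * n1 - (Q.C.N c b * Q.C.N a b : F) * n2
      have e3 : (Q.C.N c b : F) * v * Q.C.N a b * s = Q.C.N a a' * (Q.C.N c d * v * s) := by linear_combination (v * s) * this
      linear_combination e3 + (Q.C.N a a' : F) * e + (t * s') * n2
    rw [e1, e2] at k
    exact k

include H in
/-- **lifting** -/
theorem SLift.lift : ∃ Y : ℕ → F → E, RelAB D Y ∧ ∀ r < D.nroots, ∀ t, π (Y r t) = X r t := by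
  obtain ⟨p, q, hb⟩ := hL.base
  have hall : ∀ r < D.nroots, ∀ c < D.nroots, ∀ d < D.nroots, Q.C.S c d = r → Rel Q X H c d (p r) (q r) := by
    intro r hr c hc d hd hcd
    obtain ⟨hp, hq, hpq, ⟨c', hc', d', hd', hcd', hw⟩, hbr⟩ := hb r hr
    have hpql : Q.C.S (p r) (q r) < D.nroots := by rw [hpq]; exact hr
    have hqp : Q.C.S (q r) (p r) = r := by rw [Q.C.S_symm _ hp _ hq, hpq]
    have h0 : Rel Q X H (p r) (q r) (p r) (q r) := by
      have h1 := Rel.ofHW hX hL H hc' hd' hp hq (by rw [hcd']; exact hr) (by rw [hpq, hcd']) hw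
      exact (h1.symm H).trans hL H hc' hd' (by rw [hcd']; exact hr) h1
    rcases hbr c hc d hd hcd with ⟨rfl, rfl⟩ | ⟨rfl, rfl⟩ | h | h
    · exact h0
    · exact (h0.swap hX hL H hp hq hpql).symm H
    · exact Rel.ofHW hX hL H hc hd hp hq (by rw [hcd]; exact hr) (by rw [hpq, hcd]) h
    · have h1 := Rel.ofHW hX hL H hc hd hq hp (by rw [hcd]; exact hr) (by rw [hqp, hcd]) h
      exact h1.swap hX hL H hq hp (by rw [hqp]; exact hr)
  refine ⟨fun r z => H.cm (X (p r) (Q.C.N (p r) (q r) * z)) (X (q r) 1), ?_, ?_⟩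
  swap
  · intro r hr t
    obtain ⟨hp, hq, hpq, -, -⟩ := hb r hr
    have hpql : Q.C.S (p r) (q r) < D.nroots := by rw [hpq]; exact hr
    show π (H.cm (X (p r) (Q.C.N (p r) (q r) * t)) (X (q r) 1)) = _
    rw [hL.map_F hX H hp hq hpql, hpq, ← mul_assoc, hL.NN hp hq hpql, one_mul, mul_one]
  set Y : ℕ → F → E := fun r z => H.cm (X (p r) (Q.C.N (p r) (q r) * z)) (X (q r) 1) with hY
  have hπ : ∀ r < D.nroots, ∀ t, π (Y r t) = X r t := by
    intro r hr t
    obtain ⟨hp, hq, hpq, -, -⟩ := hb r hr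
    have hpql : Q.C.S (p r) (q r) < D.nroots := by rw [hpq]; exact hr
    show π (H.cm (X (p r) (Q.C.N (p r) (q r) * t)) (X (q r) 1)) = _
    rw [hL.map_F hX H hp hq hpql, hpq, ← mul_assoc, hL.NN hp hq hpql, one_mul, mul_one]
  have hF : ∀ c < D.nroots, ∀ d < D.nroots, Q.C.S c d < D.nroots → ∀ v s, H.cm (X c v) (X d s) = Y (Q.C.S c d) (Q.C.N c d * v * s) := by
    intro c hc d hd h v s
    apply hall _ h c hc d hd rfl
    obtain ⟨hp, hq, hpq, -, -⟩ := hb _ h
    have hpql : Q.C.S (p (Q.C.S c d)) (q (Q.C.S c d)) < D.nroots := by rw [hpq]; exact h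
    linear_combination (-(Q.C.N c d : F) * v * s) * hL.NN (F := F) hp hq hpql
  have hadd : ∀ r < D.nroots, ∀ t u, Y r t * Y r u = Y r (t + u) := by
    intro r hr t u
    obtain ⟨hp, hq, hpq, -, -⟩ := hb r hr
    have hpql : Q.C.S (p r) (q r) < D.nroots := by rw [hpq]; exact hr
    show H.cm _ _ * H.cm _ _ = H.cm _ _
    rw [mul_add, hL.F_add hX H hp hq hpql]
  refine ⟨hadd, ?_⟩
  intro r hr s hs hne hneg t u
  by_cases hS : Q.C.S r s = D.nroots
  · rw [ChevalleyDatum.commWord, commTerms_nil hr hs hS]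
    simp only [List.map_nil, wM, List.prod_nil, mul_one]
    exact (hL.lif_comm hX H hr hs ⟨hS, hneg⟩ (hπ r hr t) (hπ s hs u)).symm
  · have hlt : Q.C.S r s < D.nroots := lt_of_le_of_ne (Q.C.S_le r hr.le s hs.le) hS
    rw [ChevalleyDatum.commWord, hL.terms hr hs hlt]
    simp only [List.map_cons, List.map_nil, wM, List.prod_cons, List.prod_nil, mul_one, pow_one]
    have e := hF r hr s hs hlt t u
    rw [H.cm_of (hπ r hr t) (hπ s hs u)] at e
    have c1 := hL.lif_comm hX H hr hlt (hL.com_left hr hs hlt) (hπ r hr t) (hπ _ hlt (Q.C.N r s * -t * u))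
    have c2 := hL.lif_comm hX H hs hlt (hL.com_right hr hs hlt) (hπ s hs u) (hπ _ hlt (Q.C.N r s * -t * u))
    have e1 : Y (Q.C.S r s) (Q.C.N r s * -t * u) * Y (Q.C.S r s) (Q.C.N r s * t * u) = 1 := by
      rw [hadd _ hlt]
      have : (Q.C.N r s : F) * -t * u + Q.C.N r s * t * u = 0 := by ring
      rw [this]
      have h0 := hadd _ hlt 0 0
      rw [add_zero] at h0
      exact mul_eq_left.1 h0
    have e2 : Y r t * Y s u = Y (Q.C.S r s) (Q.C.N r s * t * u) * (Y s u * Y r t) := by rw [← e]; group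
    generalize Y (Q.C.S r s) (Q.C.N r s * -t * u) = Z at c1 c2 e1 ⊢
    generalize Y (Q.C.S r s) (Q.C.N r s * t * u) = W at e1 e2
    have e3 : Y s u * Y r t = Z * (Y r t * Y s u) := by rw [e2, ← mul_assoc, e1, one_mul]
    rw [e3, mul_assoc, c2, ← mul_assoc, ← mul_assoc, c1]

end sl

end

end Cfsg.Agent.Lib.ChevAlg
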