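import Cfsg.Agent.Lib.ChevUcB

/-!
# Checker for the combinatorial lifting conditions
-/

set_option autoImplicit false

namespace Cfsg.Agent.Lib.ChevAlg

open Cfsg.Lie Cfsg.Agent.Lib.ChevTab

variable (T : Raw)

/-- commuting pairs -/
noncomputable def comB (a b : ℕ) : Bool := andB (Nat.beq (T.S a b) T.n) (iteB (Nat.beq b (T.n - 1 - a)) false true)

/-- Hall-Witt pairs -/
noncomputable def hwB (c d a a' : ℕ) : Bool :=
  (fun b => andB (Nat.blt b T.n) <| andB (Nat.beq (T.S a b) d) <| andB (Nat.beq (T.S c b) a') <|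
    andB (comB T a c) (comB T a' d)) (T.S (T.n - 1 - c) a')

/-- no strings, units -/
noncomputable def chkDU : Bool := allB T.n fun a => allB T.n fun b =>
  orB (Nat.beq (T.S a b) T.n) <| andB (Nat.beq (T.S a (T.S a b)) T.n) (orB (Nat.beq (T.N' a b) 3) (Nat.beq (T.N' a b) 5))

/-- decompositions -/
noncomputable def chkWit (W : BT) : Bool := allB T.n fun r => allB T.n fun s => impB (comB T r s) <|
  (fun a => (fun b => andB (Nat.blt a T.n) <| andB (Nat.blt b T.n) <| andB (Nat.beq (T.S a b) r) <|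
    andB (comB T a s) (comB T b s)) (T.S (T.n - 1 - a) r)) (byt (W.get r) s)

/-- base decompositions -/
noncomputable def chkBase (P : ℕ) : Bool := allB T.n fun r =>
  (fun p => (fun q => andB (Nat.blt p T.n) <| andB (Nat.blt q T.n) <| andB (Nat.beq (T.S p q) r) <|
    andB (exB T.n fun c => (fun d => andB (Nat.blt d T.n) <| andB (Nat.beq (T.S c d) r) (hwB T c d p q)) (T.S (T.n - 1 - c) r))
      (allB T.n fun c => (fun d => orB (Nat.beq d T.n) <| orB (andB (Nat.beq c p) (Nat.beq d q)) <|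
        orB (andB (Nat.beq c q) (Nat.beq d p)) <| orB (hwB T c d p q) (hwB T c d q p)) (T.S (T.n - 1 - c) r)))
    (T.S (T.n - 1 - p) r)) (byt P r)

variable {T} {D : ChevalleyDatum}

lemma com_of (h : Checks T D) {a b : ℕ} (hc : comB T a b = true) : Com (mkCert T D h) a b := by
  have hn := h.mtch'.2.1
  rw [comB, andB_iff, beq_iff, iteB_iff] at hc
  refine ⟨by rw [hn]; exact hc.1, ?_⟩
  intro hb
  rw [hn] at hb
  have := hc.2.1 ((beq_iff _ _).2 hb)
  exact absurd this (by decide)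

lemma com_to (h : Checks T D) {a b : ℕ} (hc : Com (mkCert T D h) a b) : comB T a b = true := by
  have hn := h.mtch'.2.1
  obtain ⟨h1, h2⟩ := hc
  rw [hn] at h1 h2
  rw [comB, andB_iff, beq_iff, iteB_iff]
  refine ⟨h1, fun h3 => absurd ((beq_iff _ _).1 h3) h2, fun _ => rfl⟩

lemma hw_of (h : Checks T D) {c d a a' : ℕ} (hc : hwB T c d a a' = true) : HW (mkCert T D h) c d a a' := by
  have hn := h.mtch'.2.1
  simp only [hwB, andB_iff, beq_iff, Nat.blt_eq] at hc
  obtain ⟨h1, h2, h3, h4, h5⟩ := hc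
  exact ⟨_, by rw [hn]; exact h1, h2, h3, com_of h h4, com_of h h5⟩

/-- subtraction of roots -/
lemma Cert.sub_eq (C : Cert D) {c d : ℕ} (hc : c < D.nroots) (hd : d < D.nroots) (h : C.S c d < D.nroots) :
    C.S (D.nroots - 1 - c) (C.S c d) = d := by
  have h1 := C.rot d hd c hc (by rw [C.S_symm c hc d hd]; exact h)
  rw [C.S_symm c hc d hd] at h1
  have hr : D.nroots - 1 - C.S c d < D.nroots := by omega
  have h2 := C.S_neg c hc _ hr (by rw [h1]; omega)
  rw [h1] at h2
  have e1 : D.nroots - 1 - (D.nroots - 1 - C.S c d) = C.S c d := by omega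
  have e2 : D.nroots - 1 - (D.nroots - 1 - d) = d := by omega
  rwa [e1, e2] at h2

theorem slift_sound (h : Checks T D) {W : BT} {P : ℕ} (h1 : chkDU T = true) (h2 : chkWit T W = true) (h3 : chkBase T P = true) :
    SLift (mkCert T D h) := by
  have hn := h.mtch'.2.1
  have hdu : ∀ a < T.n, ∀ b < T.n, T.S a b = T.n ∨ (T.S a (T.S a b) = T.n ∧ (T.N' a b = 3 ∨ T.N' a b = 5)) := by
    simp only [chkDU, allB_iff, orB_iff, andB_iff, beq_iff] at h1
    exact h1
  constructor
  · intro a ha b hb hlt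
    rw [hn] at ha hb hlt ⊢
    have hlt' : T.S a b < T.n := hlt
    rcases hdu a ha b hb with h4 | ⟨h4, -⟩
    · omega
    · exact h4
  · intro a ha b hb hlt
    rw [hn] at ha hb hlt
    have hlt' : T.S a b < T.n := hlt
    rcases hdu a ha b hb with h4 | ⟨-, h4⟩
    · omega
    · show T.N a b = 1 ∨ T.N a b = -1
      rw [Raw.N]
      rcases h4 with h4 | h4 <;> rw [h4] <;> norm_num
  · intro r hr s hs hc
    have hr' : r < T.n := by rw [← hn]; exact hr
    have hs' : s < T.n := by rw [← hn]; exact hs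
    rw [chkWit, allB_iff] at h2
    have h4 := h2 r hr'
    rw [allB_iff] at h4
    have h5 := h4 s hs'
    rw [impB_iff] at h5
    have h6 := h5 (com_to h hc)
    simp only [andB_iff, beq_iff, Nat.blt_eq] at h6
    obtain ⟨ha, hb, hS, c1, c2⟩ := h6
    exact ⟨_, by rw [hn]; exact ha, _, by rw [hn]; exact hb, hS, com_of h c1, com_of h c2⟩
  · refine ⟨fun r => byt P r, fun r => T.S (T.n - 1 - byt P r) r, ?_⟩
    intro r hr
    have hr' : r < T.n := by rw [← hn]; exact hr
    rw [chkBase, allB_iff] at h3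
    have h4 := h3 r hr'
    simp only [andB_iff, beq_iff, Nat.blt_eq, exB_iff, allB_iff, orB_iff] at h4
    obtain ⟨hp, hq, hS, ⟨c, hc, hd, hS', hw⟩, hall⟩ := h4
    refine ⟨by rw [hn]; exact hp, by rw [hn]; exact hq, hS, ⟨c, by rw [hn]; exact hc, _, by rw [hn]; exact hd, hS', hw_of h hw⟩, ?_⟩
    intro c hc d hd hcd
    have hc' : c < T.n := by rw [← hn]; exact hc
    have hsub := Cert.sub_eq (mkCert T D h) hc hd (by rw [hcd]; exact hr)
    rw [hcd, hn] at hsub
    have hsub' : T.S (T.n - 1 - c) r = d := hsub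
    have h5 := hall c hc'
    rw [hsub'] at h5
    rcases h5 with h5 | ⟨h5, h6⟩ | ⟨h5, h6⟩ | h5 | h5
    · exfalso
      rw [hn] at hd
      omega
    · exact Or.inl ⟨h5, h6⟩
    · exact Or.inr (Or.inl ⟨h5, h6⟩)
    · exact Or.inr (Or.inr (Or.inl (hw_of h h5)))
    · exact Or.inr (Or.inr (Or.inr (hw_of h h5)))

end Cfsg.Agent.Lib.ChevAlg
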