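import Cfsg.Agent.Lib.ChevUcB
import Cfsg.Agent.Lib.ChevOut

/-!
# Lifting Steinberg's relations to central extensions by means of the torus
-/

set_option autoImplicit false

namespace Cfsg.Agent.Lib.ChevAlg

open Cfsg.Lie Cfsg.Agent.Lib.ChevTab Matrix

section terms

variable {D : ChevalleyDatum}

lemma commTerms_vec {C : Cert D} {r s : ℕ} (hr : r < D.nroots) (hs : s < D.nroots) : ∀ c ∈ D.commTerms r s,
    c.1 < D.nroots ∧ ∀ l < D.rank, C.vec c.1 l = (c.2.2.1 : ℤ) * C.vec r l + (c.2.2.2 : ℤ) * C.vec s l := by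
  intro c hc
  have key : ∀ (o : Option ℕ) (e : ℤ × ℕ × ℕ), (∀ k, o = some k → k < D.nroots ∧ ∀ l < D.rank, C.vec k l = (e.2.1 : ℤ) * C.vec r l + (e.2.2 : ℤ) * C.vec s l) →
      ∀ c, (o, e).1.map (fun k => (k, (o, e).2)) = some c → c.1 < D.nroots ∧ ∀ l < D.rank, C.vec c.1 l = (c.2.2.1 : ℤ) * C.vec r l + (c.2.2.2 : ℤ) * C.vec s l := by
    intro o e h c hc
    simp only [Option.map_eq_some_iff] at hc
    obtain ⟨k, hk, rfl⟩ := hc
    exact h k hk
  simp only [ChevalleyDatum.commTerms, List.mem_filterMap, List.mem_cons, List.not_mem_nil, or_false] at hc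
  obtain ⟨x, hx, hc⟩ := hc
  rcases hx with rfl | rfl | rfl | rfl | rfl | rfl | rfl
  · refine key _ _ (fun k hk => ?_) c hc
    obtain ⟨h1, h2⟩ := chainRoot_vec (C := C) (Or.inl rfl) hr hs hk
    exact ⟨h1, fun l hl => by rw [h2 l hl]; push_cast; ring⟩
  · refine key _ _ (fun k hk => ?_) c hc
    obtain ⟨h1, h2⟩ := chainRoot_vec (C := C) (Or.inr (Or.inl rfl)) hr hs hk
    exact ⟨h1, fun l hl => by rw [h2 l hl]; push_cast; ring⟩
  · refine key _ _ (fun k hk => ?_) c hc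
    obtain ⟨h1, h2⟩ := chainRoot_vec (C := C) (Or.inr (Or.inl rfl)) hs hr hk
    exact ⟨h1, fun l hl => by rw [h2 l hl]; push_cast; ring⟩
  · refine key _ _ (fun k hk => ?_) c hc
    obtain ⟨h1, h2⟩ := chainRoot_vec (C := C) (Or.inr (Or.inr rfl)) hr hs hk
    exact ⟨h1, fun l hl => by rw [h2 l hl]; push_cast; ring⟩
  · refine key _ _ (fun k hk => ?_) c hc
    obtain ⟨h1, h2⟩ := chainRoot_vec (C := C) (Or.inr (Or.inr rfl)) hs hr hk
    exact ⟨h1, fun l hl => by rw [h2 l hl]; push_cast; ring⟩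
  · refine key _ _ (fun k hk => ?_) c hc
    rw [Option.bind_eq_some_iff] at hk
    obtain ⟨m, hm, hk⟩ := hk
    obtain ⟨h1, h2⟩ := chainRoot_vec (C := C) (Or.inr (Or.inr rfl)) hr hs hm
    obtain ⟨h3, h4⟩ := chainRoot_vec (C := C) (Or.inl rfl) h1 hs hk
    exact ⟨h3, fun l hl => by rw [h4 l hl, h2 l hl]; push_cast; ring⟩
  · refine key _ _ (fun k hk => ?_) c hc
    rw [Option.bind_eq_some_iff] at hk
    obtain ⟨m, hm, hk⟩ := hk
    obtain ⟨h1, h2⟩ := chainRoot_vec (C := C) (Or.inr (Or.inr rfl)) hs hr hm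
    obtain ⟨h3, h4⟩ := chainRoot_vec (C := C) (Or.inl rfl) h1 hr hk
    exact ⟨h3, fun l hl => by rw [h4 l hl, h2 l hl]; push_cast; ring⟩

lemma char_comb {F : Type*} [Field F] {Q : ChevO D F} {χ : ℕ → Fˣ} (hχ : IsChar Q.C χ) {r s k : ℕ} (hr : r < D.nroots)
    (hs : s < D.nroots) (hk : k < D.nroots) {i j : ℤ} (h : ∀ l < D.rank, Q.C.vec k l = i * Q.C.vec r l + j * Q.C.vec s l) :
    χ k = χ r ^ i * χ s ^ j := by
  have e : ∀ s < D.nroots, χ s = chS Q.C (fun i => χ (D.simple i)) s := fun s hs =>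
    char_ext Q hχ (isChar_chS Q.C _) (fun i => by
      rw [chS, Finset.prod_eq_single (i : ℕ)]
      · rw [Q.C.vec_simple i i.2 i i.2, if_pos rfl, zpow_one]
      · intro j hj hji
        rw [Q.C.vec_simple i i.2 j (Finset.mem_range.1 hj), if_neg (Ne.symm hji), zpow_zero]
      · intro h
        exact absurd (Finset.mem_range.2 i.2) h) hs
  rw [e k hk, e r hr, e s hs, chS, chS, chS, ← Finset.prod_zpow, ← Finset.prod_zpow, ← Finset.prod_mul_distrib]
  apply Finset.prod_congr rfl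
  intro l hl
  rw [h l (Finset.mem_range.1 hl), _root_.zpow_add, ← _root_.zpow_mul, ← _root_.zpow_mul, mul_comm i, mul_comm j]

end terms

section loc

variable {D : ChevalleyDatum} {F : Type*} [Field F] (Q : ChevO D F) {E : Type*} [Group E]

/-- local families -/
structure LFam (Y : ℕ → F → E) (θ : E →* GL D.Idx F) (Ψ : Set ℕ) : Prop where
  add : ∀ r ∈ Ψ, ∀ t u : F, Y r t * Y r u = Y r (t + u)
  comm : ∀ r ∈ Ψ, ∀ s ∈ Ψ, s ≠ r → ∀ t u : F, Y s u * Y r t = Y r t * Y s u * wM Y (D.commWord F r s t u)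
  map : ∀ r ∈ Ψ, ∀ t : F, θ (Y r t) = xG Q r t

variable {Q} {Y : ℕ → F → E} {θ : E →* GL D.Idx F}

lemma LFam.mono {Ψ Ψ' : Set ℕ} (h : LFam Q Y θ Ψ') (hs : Ψ ⊆ Ψ') : LFam Q Y θ Ψ :=
  ⟨fun r hr => h.add r (hs hr), fun r hr s hs' => h.comm r (hs hr) s (hs hs'), fun r hr => h.map r (hs hr)⟩

lemma LFam.zero {Ψ : Set ℕ} (h : LFam Q Y θ Ψ) {r : ℕ} (hr : r ∈ Ψ) : Y r 0 = 1 := by
  have := h.add r hr 0 0
  rw [add_zero] at this
  exact mul_eq_left.1 this

lemma LFam.inv {Ψ : Set ℕ} (h : LFam Q Y θ Ψ) {r : ℕ} (hr : r ∈ Ψ) (t : F) : (Y r t)⁻¹ = Y r (-t) := by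
  rw [inv_eq_iff_mul_eq_one, h.add r hr, add_neg_cancel, h.zero hr]

lemma LFam.wM_mem {Ψ : Set ℕ} {r s : ℕ} (hr : r < D.nroots) (hs : s < D.nroots) (h : Comb Q.C r s ⊆ Ψ) (t u : F) :
    wM Y (D.commWord F r s t u) ∈ YS Y Ψ := by
  apply ChevAlg.wM_mem
  intro p hp
  rw [ChevalleyDatum.commWord, List.mem_map] at hp
  obtain ⟨c, hc, rfl⟩ := hp
  exact h (commTerms_mem hr hs c hc)

/-- decomposition for a good list -/
lemma LFam.good_decomp {k : ℕ} {L : List ℕ} (hF : LFam Q Y θ {r | r ∈ k :: L}) (h : GoodL Q (k :: L)) {g : E}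
    (hg : g ∈ YS Y {r | r ∈ k :: L}) : ∃ t : F, ∃ y ∈ YS Y {r | r ∈ L}, g = Y k t * y := by
  obtain ⟨-, hk, hL, -⟩ := h
  have hkm : k ∈ {r | r ∈ k :: L} := List.mem_cons_self
  have hconj : ∀ t : F, ∀ y ∈ YS Y {r | r ∈ L}, Y k t * y * (Y k t)⁻¹ ∈ YS Y {r | r ∈ L} := by
    intro t y hy
    apply conj_YS_le _ hy
    intro r hr u
    by_cases hrk : r = k
    · subst hrk
      have : Y r t * Y r u * (Y r t)⁻¹ = Y r u := by
        rw [hF.inv hkm, hF.add r hkm, hF.add r hkm]; congr 1; ring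
      rw [this]
      exact YS_mem hr u
    · have hrm : r ∈ {r | r ∈ k :: L} := List.mem_cons_of_mem _ hr
      have e := hF.comm k hkm r hrm hrk (-t) u
      have e2 : Y k t * Y r u * (Y k t)⁻¹ = Y r u * wM Y (D.commWord F k r (-t) u) := by
        rw [hF.inv hkm, mul_assoc, e, ← mul_assoc, ← mul_assoc, hF.add k hkm, add_neg_cancel, hF.zero hkm, one_mul]
      rw [e2]
      exact Subgroup.mul_mem _ (YS_mem hr u) (LFam.wM_mem hk (hL r hr).1 (hL r hr).2.2 _ _)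
  have hn : YS Y {k} ≤ Subgroup.normalizer (YS Y {r | r ∈ L} : Set E) := by
    apply le_normalizer_of (S := {g | ∃ r ∈ ({k} : Set ℕ), ∃ t : F, g = Y r t}) le_rfl
    · rintro _ ⟨r, hr, t, rfl⟩ y hy
      rw [Set.mem_singleton_iff] at hr
      subst hr
      exact hconj t y hy
    · rintro _ ⟨r, hr, t, rfl⟩ y hy
      rw [Set.mem_singleton_iff] at hr
      subst hr
      have e : (Y r t)⁻¹ * y * Y r t = Y r (-t) * y * (Y r (-t))⁻¹ := by
        rw [hF.inv hkm, hF.inv hkm, neg_neg]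
      rw [e]
      exact hconj (-t) y hy
  rw [YS_cons, mem_sup_iff_mul hn] at hg
  obtain ⟨a, ha, b, hb, rfl⟩ := hg
  have : ∃ t : F, a = Y k t := by
    refine Subgroup.closure_induction (p := fun g _ => ∃ t : F, g = Y k t) ?_ ⟨0, (hF.zero hkm).symm⟩ ?_ ?_ ha
    · rintro _ ⟨r, hr, t, rfl⟩
      rw [Set.mem_singleton_iff] at hr
      exact ⟨t, by rw [hr]⟩
    · rintro x y _ _ ⟨t, rfl⟩ ⟨u, rfl⟩
      exact ⟨t + u, hF.add k hkm t u⟩
    · rintro x _ ⟨t, rfl⟩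
      exact ⟨-t, hF.inv hkm t⟩
  obtain ⟨t, rfl⟩ := this
  exact ⟨t, b, hb, rfl⟩

lemma LFam.map_YS {Ψ : Set ℕ} (hF : LFam Q Y θ Ψ) {y : E} (hy : y ∈ YS Y Ψ) : θ y ∈ XS Q Ψ := by
  have : YS Y Ψ ≤ (XS Q Ψ).comap θ := by
    rw [YS_le]
    intro r hr t
    rw [Subgroup.mem_comap, hF.map r hr]
    exact xG_mem Q hr t
  exact this hy

/-- local injectivity -/
theorem LFam.inj_good : ∀ L : List ℕ, LFam Q Y θ {r | r ∈ L} → GoodL Q L → ∀ g ∈ YS Y {r | r ∈ L}, θ g = 1 → g = 1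
  | [], _, _, g, hg, _ => by
    have : YS Y {r : ℕ | r ∈ ([] : List ℕ)} = ⊥ := by
      rw [eq_bot_iff, YS_le]
      intro r hr
      exact absurd hr List.not_mem_nil
    rw [this, Subgroup.mem_bot] at hg
    exact hg
  | k :: L, hF, h, g, hg, hg1 => by
    obtain ⟨t, y, hy, rfl⟩ := hF.good_decomp h hg
    obtain ⟨h1, hk, h2, h3⟩ := h
    have hkm : k ∈ {r | r ∈ k :: L} := List.mem_cons_self
    have hF' : LFam Q Y θ {r | r ∈ L} := hF.mono (fun r hr => List.mem_cons_of_mem _ hr)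
    rw [map_mul, hF.map k hkm] at hg1
    have hy' : θ y ∈ XS Q {r | r ∈ L} := hF'.map_YS hy
    have ht : t = 0 := by
      apply h3
      have : xG Q k t = (θ y)⁻¹ := mul_eq_one_iff_eq_inv.1 hg1
      rw [this]
      exact Subgroup.inv_mem _ hy'
    subst ht
    rw [xG_zero, one_mul] at hg1
    rw [hF.zero hkm, one_mul]
    exact LFam.inj_good L hF' h1 y hy hg1

open Classical in
/-- injectivity on the span of two roots -/
theorem LFam.inj_comb {r s : Fin D.nroots} (hne : s ≠ Fin.rev r) (hF : LFam Q Y θ (Comb Q.C r s)) {g : E}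
    (hg : g ∈ YS Y (Comb Q.C r s)) (h1 : θ g = 1) : g = 1 := by
  obtain ⟨w, hw, hr, hs⟩ := exists_posW2 Q hne
  obtain ⟨n, -, v, hm⟩ := exists_mono Q hw
  have hwa := WG_waut Q hw
  have hpos : ∀ k : Fin D.nroots, (k : ℕ) ∈ Comb Q.C r s → ps (w⁻¹ k) := by
    intro k hk
    have h3 : ((w⁻¹ k : Fin D.nroots) : ℕ) ∈ Comb Q.C (w⁻¹ r : Fin D.nroots) (w⁻¹ s : Fin D.nroots) := comb_waut hwa.inv hk
    exact (comb_gt Q.O ⟨mem_posW.1 hr, (w⁻¹ r).2⟩ ⟨mem_posW.1 hs, (w⁻¹ s).2⟩ h3).2.2.1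
  set L : List (Fin D.nroots) := (List.finRange D.nroots).filter (fun a => decide (((w a : Fin D.nroots) : ℕ) ∈ Comb Q.C r s)) with hL
  have hmem : ∀ a : Fin D.nroots, a ∈ L ↔ ((w a : Fin D.nroots) : ℕ) ∈ Comb Q.C r s := by intro a; simp [hL]
  have hpos' : ∀ a ∈ L, ps a := by
    intro a ha
    have := hpos (w a) ((hmem a).1 ha)
    rwa [perm_inv_apply] at this
  have hgood : GoodL Q (L.map fun s => (w s : ℕ)) := by
    apply good_map Q hwa hm
    · exact (List.sortedLT_finRange D.nroots).pairwise.filter _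
    · intro a ha
      exact ⟨hpos' a ha, a.2⟩
    · intro a ha b hb m hm'
      have h4 : ((w m : Fin D.nroots) : ℕ) ∈ Comb Q.C (w a : Fin D.nroots) (w b : Fin D.nroots) := comb_waut hwa hm'
      rw [hmem] at ha hb ⊢
      obtain ⟨_, i, j, hi, hj, e⟩ := ha
      obtain ⟨_, i', j', hi', hj', e'⟩ := hb
      obtain ⟨_, i'', j'', hi'', hj'', e''⟩ := h4
      refine ⟨(w m).2, i'' * i + j'' * i', i'' * j + j'' * j', by nlinarith, by nlinarith, fun l hl => ?_⟩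
      rw [e'' l hl, e l hl, e' l hl]; ring
  have hset : Comb Q.C r s = {k | k ∈ L.map fun s => (w s : ℕ)} := by
    ext k
    constructor
    · intro hk
      refine List.mem_map.2 ⟨w⁻¹ ⟨k, hk.1⟩, ?_, by rw [perm_apply_inv]⟩
      rw [hmem, perm_apply_inv]; exact hk
    · intro hk
      obtain ⟨a, ha, rfl⟩ := List.mem_map.1 hk
      exact (hmem a).1 ha
  rw [hset] at hF hg
  exact LFam.inj_good _ hF hgood g hg h1

end loc

end Cfsg.Agent.Lib.ChevAlg
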