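import Cfsg.Agent.Lib.ChevUcD

/-!
# Lifting Steinberg's relations to central extensions by means of the torus, II
-/

set_option autoImplicit false

namespace Cfsg.Agent.Lib.ChevAlg

open Cfsg.Lie Cfsg.Agent.Lib.ChevTab Matrix

variable {D : ChevalleyDatum} {F : Type*} [Field F] {Q : ChevO D F} {M : Type*} [Group M] {X : ℕ → F → M} {θ : M →* GL D.Idx F}

variable (Q) in
/-- torus elements with their characters -/
structure TorEl (X : ℕ → F → M) (θ : M →* GL D.Idx F) (g : M) (χ : ℕ → Fˣ) : Prop where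
  char : IsChar Q.C χ
  map : θ g = dG D χ
  act : ∀ s < D.nroots, ∀ t : F, g * X s t * g⁻¹ = X s (χ s * t)

lemma StF.torEl (hX : StF Q X θ) (hG : GenD D) {g : M} (hg : g ∈ HM D X) : ∃ χ, TorEl Q X θ g χ := by
  obtain ⟨⟨v, h1⟩, h2⟩ := hX.HM_mn hG hg
  obtain ⟨χ, hχ, e⟩ := diagonal_mono Q h2
  refine ⟨χ, hχ, e, fun s hs t => ?_⟩
  have h3 := h1.c ⟨s, hs⟩ t
  have h4 := h1.m.conj ⟨s, hs⟩ 1
  rw [e] at h4
  have h5 := dG_xG Q hχ hs 1
  have h6 : xG Q s (χ s * 1) = xG Q s (v ⟨s, hs⟩ * 1) := h5.symm.trans h4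
  have h7 := xG_inj Q hs h6
  rw [mul_one, mul_one] at h7
  rw [h7]
  exact h3

lemma StF.torEl_hM (hX : StF Q X θ) (hG : GenD D) {r : ℕ} (hr : r < D.nroots) (c : Fˣ) : TorEl Q X θ (hM D X r c) (cp D r c) :=
  ⟨isChar_cp Q.C r c, hX.map_hM hr c, fun _ hs t => hX.hM_conj hG hr hs c t⟩

lemma TorEl.mul {g g' : M} {χ χ' : ℕ → Fˣ} (h : TorEl Q X θ g χ) (h' : TorEl Q X θ g' χ') :
    TorEl Q X θ (g * g') (fun s => χ s * χ' s) :=
  ⟨isChar_mul Q h.char h'.char, by rw [map_mul, h.map, h'.map, dG_mul], fun s hs t => by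
    have e : g * g' * X s t * (g * g')⁻¹ = g * (g' * X s t * g'⁻¹) * g⁻¹ := by group
    rw [e, h'.act s hs, h.act s hs, Units.val_mul, mul_assoc]⟩

section

variable (hX : StF Q X θ) (hG : GenD D) (hgen : ∀ g : M, g ∈ YS X {r | r < D.nroots}) (hP : commutator M = ⊤)
  {E : Type*} [Group E] {π : E →* M} (H : CExt π)

include hX hG hgen in
lemma TorEl.comm {g g' : M} {χ χ' : ℕ → Fˣ} (h : TorEl Q X θ g χ) (h' : TorEl Q X θ g' χ') :
    ∃ z ∈ Subgroup.center M, g * g' * g⁻¹ = g' * z := by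
  refine ⟨g'⁻¹ * g * g' * g⁻¹, hX.ker_central hG hgen ?_, by group⟩
  have : θ g * θ g' = θ g' * θ g := by
    rw [h.map, h'.map, dG_mul, dG_mul]
    exact dG_congr fun s _ => mul_comm _ _
  rw [map_mul, map_mul, map_mul, map_inv, map_inv, mul_assoc (θ g')⁻¹, this]
  group

/-- lifted root elements -/
structure HL (Q : ChevO D F) (X : ℕ → F → M) (θ : M →* GL D.Idx F) (π : E →* M) (Y : ℕ → F → E) : Prop where
  map : ∀ r < D.nroots, ∀ t : F, π (Y r t) = X r t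
  add : ∀ r < D.nroots, ∀ t u : F, Y r t * Y r u = Y r (t + u)
  tor : ∀ (g' : E) (χ : ℕ → Fˣ), TorEl Q X θ (π g') χ → ∀ r < D.nroots, ∀ t : F, g' * Y r t * g'⁻¹ = Y r (χ r * t)

include hX hG hgen hP in
theorem exists_HL (hnz : ∀ r < D.nroots, ∃ g χ, TorEl Q X θ g χ ∧ χ r ≠ 1)
    (hself : ∀ r < D.nroots, ∀ t u, H.cm (X r t) (X r u) = 1) : ∃ Y : ℕ → F → E, HL Q X θ π Y := by
  have h1 : ∀ r, ∃ g χ, r < D.nroots → TorEl Q X θ g χ ∧ χ r ≠ 1 := by
    intro r
    by_cases hr : r < D.nroots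
    · obtain ⟨g, χ, h⟩ := hnz r hr
      exact ⟨g, χ, fun _ => h⟩
    · exact ⟨1, fun _ => 1, fun h => absurd h hr⟩
  choose g χ hgχ using h1
  have hz : ∀ r < D.nroots, (χ r r : F) - 1 ≠ 0 := fun r hr h => (hgχ r hr).2 (Units.ext (sub_eq_zero.1 h))
  have hmap : ∀ r < D.nroots, ∀ t : F, π (H.cm (g r) (X r (t / ((χ r r : F) - 1)))) = X r t := by
    intro r hr t
    rw [H.map_cm, (hgχ r hr).1.act r hr, hX.inv hr, hX.add r hr]
    congr 1
    have := hz r hr
    field_simp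
    ring
  refine ⟨fun r t => H.cm (g r) (X r (t / ((χ r r : F) - 1))), hmap, ?_, ?_⟩
  · intro r hr t u
    show _ * _ = H.cm (g r) (X r ((t + u) / ((χ r r : F) - 1)))
    rw [add_div, ← hX.add r hr, H.cm_mul_right]
    have h2 := (H.cm_eq_one' (H.lif_spec (X r (t / ((χ r r : F) - 1)))) (hmap r hr u)).1 (hself r hr _ _)
    rw [h2, mul_inv_cancel_right]
  · intro g' χ' hg' r hr t
    obtain ⟨z, hz1, hz2⟩ := hg'.comm hX hG hgen (hgχ r hr).1
    rw [H.conj_cm, hz2, H.cm_mul_center hP hz1, hg'.act r hr]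
    congr 2
    ring

/-- the words of the commutator formula under the torus -/
lemma HL.word {Y : ℕ → F → E} (hY : HL Q X θ π Y) {g' : E} {χ : ℕ → Fˣ} (hg : TorEl Q X θ (π g') χ) {r s : ℕ}
    (hr : r < D.nroots) (hs : s < D.nroots) (t u : F) :
    g' * wM Y (D.commWord F r s t u) * g'⁻¹ = wM Y (D.commWord F r s (χ r * t) (χ s * u)) := by
  have key : ∀ L : List (ℕ × ℤ × ℕ × ℕ), (∀ c ∈ L, c ∈ D.commTerms r s) →
      g' * wM Y (L.map fun c => (c.1, (c.2.1 : F) * (-t) ^ c.2.2.1 * u ^ c.2.2.2)) * g'⁻¹ =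
      wM Y (L.map fun c => (c.1, (c.2.1 : F) * (-(χ r * t)) ^ c.2.2.1 * (χ s * u) ^ c.2.2.2)) := by
    intro L
    induction L with
    | nil => intro _; simp [wM]
    | cons c L ih =>
      intro h
      have h1 := ih (fun c' hc' => h c' (List.mem_cons_of_mem _ hc'))
      obtain ⟨hk, hv⟩ := commTerms_vec (C := Q.C) hr hs c (h c List.mem_cons_self)
      have h2 := hY.tor g' χ hg c.1 hk ((c.2.1 : F) * (-t) ^ c.2.2.1 * u ^ c.2.2.2)
      have h3 := char_comb hg.char hr hs hk hv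
      have h4 : (χ c.1 : F) = (χ r : F) ^ c.2.2.1 * (χ s : F) ^ c.2.2.2 := by
        rw [h3]; push_cast; rw [zpow_natCast, zpow_natCast]
      have h5 : (χ c.1 : F) * ((c.2.1 : F) * (-t) ^ c.2.2.1 * u ^ c.2.2.2) = (c.2.1 : F) * (-(χ r * t)) ^ c.2.2.1 * (χ s * u) ^ c.2.2.2 := by
        rw [h4, mul_pow (χ s : F), neg_pow, neg_pow (_ * _), mul_pow]; ring
      rw [h5] at h2
      simp only [List.map_cons, wM, List.prod_cons] at h1 ⊢
      rw [← h1, ← h2]
      group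
  exact key _ (fun _ h => h)

lemma posW_comb {w : Equiv.Perm (Fin D.nroots)} (hwa : WAut Q.C w) {a b k : Fin D.nroots} (ha : (a : ℕ) ∈ PosW w)
    (hb : (b : ℕ) ∈ PosW w) (hk : (k : ℕ) ∈ Comb Q.C a b) : (k : ℕ) ∈ PosW w ∧ k ≠ a ∧ k ≠ b := by
  have h3 : ((w⁻¹ k : Fin D.nroots) : ℕ) ∈ Comb Q.C (w⁻¹ a : Fin D.nroots) (w⁻¹ b : Fin D.nroots) := comb_waut hwa.inv hk
  have h4 := comb_gt Q.O ⟨mem_posW.1 ha, (w⁻¹ a).2⟩ ⟨mem_posW.1 hb, (w⁻¹ b).2⟩ h3
  refine ⟨mem_posW.2 h4.2.2.1, ?_, ?_⟩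
  · rintro rfl; exact lt_irrefl _ h4.1
  · rintro rfl; exact lt_irrefl _ h4.2.1

lemma comb_trans {a b c d k : ℕ} {r s : ℕ} (ha : ∀ l < D.rank, Q.C.vec a l = (c : ℤ) * Q.C.vec r l + (d : ℤ) * Q.C.vec s l)
    (hb : b ∈ Comb Q.C r s) (hk : k ∈ Comb Q.C a b) : k ∈ Comb Q.C r s := by
  obtain ⟨_, i', j', hi', hj', e'⟩ := hb
  obtain ⟨hk0, i'', j'', hi'', hj'', e''⟩ := hk
  refine ⟨hk0, i'' * c + j'' * i', i'' * d + j'' * j', ?_, ?_, fun l hl => ?_⟩
  · have h1 : (0 : ℤ) ≤ i'' * c := by positivity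
    nlinarith
  · have h1 : (0 : ℤ) ≤ i'' * d := by positivity
    nlinarith
  · rw [e'' l hl, ha l hl, e' l hl]; ring

omit hX hG hgen hP H in
lemma fadd_aux {a a' b w w' w'' f f' f'' : E} (h1 : b * a = a * b * w * f) (h2 : b * a' = a' * b * w' * f')
    (h3 : b * (a * a') = a * a' * b * w'' * f'') (cf : ∀ x, f * x = x * f) (cf' : ∀ x, f' * x = x * f') :
    w' * (a'⁻¹ * w * a') * (f * f') = w'' * f'' := by
  have e : a * a' * b * (w' * (a'⁻¹ * w * a') * (f * f')) = a * a' * b * (w'' * f'') := by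
    calc a * a' * b * (w' * (a'⁻¹ * w * a') * (f * f')) = a * (a' * b * w' * ((a'⁻¹ * w * a') * f * f')) := by group
      _ = a * (a' * b * w' * (f' * ((a'⁻¹ * w * a') * f))) := by rw [cf']
      _ = a * (b * a') * a'⁻¹ * w * (a' * f) := by rw [h2]; group
      _ = a * b * w * f * a' := by rw [← cf a']; group
      _ = b * a * a' := by rw [h1]
      _ = _ := by rw [mul_assoc b, h3]; group
  exact mul_left_cancel e

include hX H in
/-- **the commutator relations lift** -/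
theorem HL.comm {Y : ℕ → F → E} (hY : HL Q X θ π Y)
    (hcc : ∀ r < D.nroots, ∀ s < D.nroots, Com Q.C r s → ∀ t u, H.cm (X r t) (X s u) = 1)
    (hpair : ∀ r < D.nroots, ∀ s < D.nroots, Q.C.S r s < D.nroots → ∃ g χ, TorEl Q X θ g χ ∧ χ s = 1 ∧ χ r ≠ 1) :
    ∀ (N : ℕ) (r s : ℕ), r < D.nroots → s < D.nroots → s ≠ r → s ≠ D.nroots - 1 - r → (Comb Q.C r s).ncard = N →
      ∀ t u : F, Y s u * Y r t = Y r t * Y s u * wM Y (D.commWord F r s t u) := by
  intro N
  induction N using Nat.strong_induction_on with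
  | _ N ih =>
  intro r s hr hs hne hneg hN t u
  by_cases hS : Q.C.S r s = D.nroots
  · rw [ChevalleyDatum.commWord, commTerms_nil hr hs hS]
    simp only [List.map_nil, wM, List.prod_nil, mul_one]
    exact ((H.cm_eq_one' (hY.map r hr t) (hY.map s hs u)).1 (hcc r hr s hs ⟨hS, hneg⟩ t u)).symm
  have hlt : Q.C.S r s < D.nroots := lt_of_le_of_ne (Q.C.S_le r hr.le s hs.le) hS
  have hne' : (⟨s, hs⟩ : Fin D.nroots) ≠ Fin.rev ⟨r, hr⟩ := by
    intro h
    apply hneg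
    have := congrArg Fin.val h
    rw [fin_rev_val] at this
    exact this
  obtain ⟨w, hw, hrw, hsw⟩ := exists_posW2 Q hne'
  have hwa := WG_waut Q hw
  have hpos : ∀ k ∈ Comb Q.C r s, k ∈ PosW w := fun k hk => (posW_comb (k := ⟨k, hk.1⟩) hwa hrw hsw hk).1
  have hfin : (Comb Q.C r s).Finite := (Set.finite_lt_nat D.nroots).subset fun k hk => hk.1
  have hopp : ∀ a ∈ PosW w, ∀ b ∈ PosW w, b ≠ D.nroots - 1 - a := by
    intro a ha b hb h
    have halt := posW_lt ha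
    apply posW_not_neg (Q := Q) hwa (s := ⟨a, halt⟩) ha
    rw [fin_rev_val, ← h]
    exact hb
  have hself : ∀ k ∈ Comb Q.C r s, ∀ a ∈ PosW w, k ∉ Comb Q.C a k := by
    intro k hk a ha hc
    have := posW_comb (a := ⟨a, posW_lt ha⟩) (b := ⟨k, hk.1⟩) (k := ⟨k, hk.1⟩) hwa ha (hpos k hk) hc
    exact this.2.2 rfl
  -- relations inside
  have hin : ∀ k ∈ Comb Q.C r s, ∀ l ∈ Comb Q.C r s, l ≠ k → ∀ t u : F, Y l u * Y k t = Y k t * Y l u * wM Y (D.commWord F k l t u) := by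
    intro k hk l hl hlk
    have hsub : Comb Q.C k l ⊆ Comb Q.C r s := by
      intro m hm
      obtain ⟨_, i, j, hi, hj, e⟩ := hk
      obtain ⟨i, rfl⟩ := Int.eq_ofNat_of_zero_le (by omega : 0 ≤ i)
      obtain ⟨j, rfl⟩ := Int.eq_ofNat_of_zero_le (by omega : 0 ≤ j)
      exact comb_trans (Q := Q) e hl hm
    refine ih (Comb Q.C k l).ncard ?_ k l hk.1 hl.1 hlk (hopp k (hpos k hk) l (hpos l hl)) rfl
    rw [← hN]
    exact Set.ncard_lt_ncard (Set.ssubset_iff_subset_ne.2 ⟨hsub, fun h => hself l hl k (hpos k hk) (by rw [h]; exact hl)⟩) hfin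
  have hrk : ∀ k ∈ Comb Q.C r s, ∀ t u : F, Y k u * Y r t = Y r t * Y k u * wM Y (D.commWord F r k t u) := by
    intro k hk
    have hkr : k ≠ r := by
      have := (posW_comb (k := ⟨k, hk.1⟩) hwa hrw hsw hk).2.1
      exact fun h => this (Fin.ext h)
    refine ih (Comb Q.C r k).ncard ?_ r k hr hk.1 hkr (hopp r hrw k (hpos k hk)) rfl
    rw [← hN]
    refine Set.ncard_lt_ncard (Set.ssubset_iff_subset_ne.2 ⟨fun m hm => ?_, fun h => hself k hk r hrw (by rw [h]; exact hk)⟩) hfin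
    exact comb_trans (Q := Q) (c := 1) (d := 0) (fun l hl => by push_cast; ring) hk hm
  have hLF : LFam Q Y (θ.comp π) (Comb Q.C r s) :=
    ⟨fun k hk => hY.add k hk.1, fun k hk l hl h => hin k hk l hl h, fun k hk t => by
      rw [MonoidHom.comp_apply, hY.map k hk.1, hX.map k hk.1]⟩
  have hzero : ∀ k < D.nroots, Y k 0 = 1 := by
    intro k hk
    have := hY.add k hk 0 0
    rw [add_zero] at this
    exact mul_eq_left.1 this
  have hinv : ∀ k < D.nroots, ∀ t, (Y k t)⁻¹ = Y k (-t) := by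
    intro k hk t
    rw [inv_eq_iff_mul_eq_one, hY.add k hk, add_neg_cancel, hzero k hk]
  have hconj : ∀ t : F, ∀ y ∈ YS Y (Comb Q.C r s), (Y r t)⁻¹ * y * Y r t ∈ YS Y (Comb Q.C r s) := by
    intro t y hy
    have e0 : (Y r t)⁻¹ * y * Y r t = Y r (-t) * y * (Y r (-t))⁻¹ := by rw [hinv r hr, hinv r hr, neg_neg]
    rw [e0]
    apply conj_YS_le _ hy
    intro k hk v
    have e := hrk k hk t v
    have e2 : Y r (-t) * Y k v * (Y r (-t))⁻¹ = Y k v * wM Y (D.commWord F r k t v) := by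
      rw [hinv r hr, neg_neg, mul_assoc, e, ← mul_assoc, ← mul_assoc, hY.add r hr, neg_add_cancel, hzero r hr, one_mul]
    rw [e2]
    refine Subgroup.mul_mem _ (YS_mem hk v) (LFam.wM_mem (Q := Q) hr hk.1 ?_ _ _)
    intro m hm
    exact comb_trans (Q := Q) (c := 1) (d := 0) (fun l hl => by push_cast; ring) hk hm
  set W : F → E := fun t => wM Y (D.commWord F r s t u) with hW
  have hWm : ∀ t, W t ∈ YS Y (Comb Q.C r s) := fun t => LFam.wM_mem (Q := Q) hr hs le_rfl t u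
  set f : F → E := fun t => (Y r t * Y s u * W t)⁻¹ * (Y s u * Y r t) with hf
  have fe : ∀ t, Y s u * Y r t = Y r t * Y s u * W t * f t := by intro t; rw [hf]; group
  have hfk : ∀ t, π (f t) = 1 := by
    intro t
    have h1 : π (W t) = wM X (D.commWord F r s t u) := by
      rw [hW]
      simp only [wM]
      rw [map_list_prod, List.map_map]
      congr 1
      apply List.map_congr_left
      intro p hp
      exact hY.map p.1 (commWord_lt Q hr hs t u p hp) p.2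
    rw [hf]
    simp only
    rw [map_mul, map_inv, map_mul, map_mul, map_mul, h1, hY.map r hr, hY.map s hs, hX.comm r hr s hs hne hneg]
    group
  have fc : ∀ t x, f t * x = x * f t := fun t x => H.comm_ker (hfk t) x
  have fadd : ∀ t t', f (t + t') = f t * f t' := by
    intro t t'
    have e5 : W t' * ((Y r t')⁻¹ * W t * Y r t') * (f t * f t') = W (t + t') * f (t + t') :=
      fadd_aux (fe t) (fe t') (by rw [hY.add r hr]; exact fe (t + t')) (fc t) (fc t')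
    have e6 : f (t + t') * (f t * f t')⁻¹ = (W (t + t'))⁻¹ * (W t' * ((Y r t')⁻¹ * W t * Y r t')) := by
      rw [mul_inv_eq_iff_eq_mul, mul_assoc, eq_inv_mul_iff_mul_eq]
      exact e5.symm
    have e7 : f (t + t') * (f t * f t')⁻¹ = 1 := by
      apply hLF.inj_comb (r := ⟨r, hr⟩) (s := ⟨s, hs⟩) hne'
      · rw [e6]
        exact Subgroup.mul_mem _ (Subgroup.inv_mem _ (hWm _)) (Subgroup.mul_mem _ (hWm _) (hconj _ _ (hWm _)))
      · have e8 : π (f (t + t') * (f t * f t')⁻¹) = 1 := by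
          rw [map_mul π (f (t + t')), map_inv π, map_mul π (f t), hfk, hfk, hfk]
          group
        rw [MonoidHom.comp_apply, e8, map_one]
    exact mul_inv_eq_one.1 e7
  obtain ⟨g, χ, hg, hχs, hχr⟩ := hpair r hr s hs hlt
  obtain ⟨g', rfl⟩ := H.surj g
  have hinvf : ∀ t, f (χ r * t) = f t := by
    intro t
    have h1 : g' * f t * g'⁻¹ = f t := by rw [← fc t g', mul_inv_cancel_right]
    have h2 := hY.word hg hr hs t u
    rw [hχs, Units.val_one, one_mul] at h2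
    have h3 := hY.tor g' χ hg r hr t
    have h4 := hY.tor g' χ hg s hs u
    rw [hχs, Units.val_one, one_mul] at h4
    rw [← h1]
    show (Y r (χ r * t) * Y s u * wM Y (D.commWord F r s (χ r * t) u))⁻¹ * (Y s u * Y r (χ r * t)) = _
    rw [← h2, ← h3]
    conv_lhs => rw [← h4]
    rw [hf]
    simp only [hW]
    group
  have hf0 : f 0 = 1 := by
    have := fadd 0 0
    rw [add_zero] at this
    exact mul_eq_left.1 this.symm
  have hz : (χ r : F) - 1 ≠ 0 := fun h => hχr (Units.ext (sub_eq_zero.1 h))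
  have hft : f t = 1 := by
    have e1 : t = χ r * (t / ((χ r : F) - 1)) + - (t / ((χ r : F) - 1)) := by
      field_simp; ring
    rw [e1, fadd, hinvf, ← fadd, add_neg_cancel, hf0]
  have := fe t
  rw [hft, mul_one] at this
  exact this

include hX hG hgen hP H in
/-- **lifting by the torus** -/
theorem lift_of_torus (hcc : ∀ r < D.nroots, ∀ s < D.nroots, Com Q.C r s → ∀ t u, H.cm (X r t) (X s u) = 1)
    (hnz : ∀ r < D.nroots, ∃ g χ, TorEl Q X θ g χ ∧ χ r ≠ 1)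
    (hpair : ∀ r < D.nroots, ∀ s < D.nroots, Q.C.S r s < D.nroots → ∃ g χ, TorEl Q X θ g χ ∧ χ s = 1 ∧ χ r ≠ 1) :
    ∃ Y : ℕ → F → E, RelAB D Y ∧ ∀ r < D.nroots, ∀ t, π (Y r t) = X r t := by
  obtain ⟨Y, hY⟩ := exists_HL hX hG hgen hP H hnz (fun r hr t u => hcc r hr r hr ⟨(Q.C.S_iff r hr.le r hr.le).2 (Q.C.N_self r hr), by
    have := Q.C.even
    omega⟩ t u)
  exact ⟨Y, ⟨hY.add, fun r hr s hs h1 h2 t u => hY.comm hX H hcc hpair _ r s hr hs h1 h2 rfl t u⟩, hY.map⟩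

end

end Cfsg.Agent.Lib.ChevAlg
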