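import Cfsg.Agent.Lib.ChevUcE
import Cfsg.Agent.Lib.ChevUcC

/-!
# Commuting root elements have commuting lifts
-/

set_option autoImplicit false

namespace Cfsg.Agent.Lib.ChevAlg

open Cfsg.Lie Cfsg.Agent.Lib.ChevTab Matrix

section

variable {D : ChevalleyDatum} {F : Type*} [Field F] {Q : ChevO D F} {M : Type*} [Group M] {X : ℕ → F → M} {θ : M →* GL D.Idx F}
  (hX : StF Q X θ) {E : Type*} [Group E] {π : E →* M} (H : CExt π)

include hX

/-- the commutator as a function of the first parameter -/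
lemma cc_add {r s : ℕ} (hr : r < D.nroots) (hs : s < D.nroots) (h : Com Q.C r s) (t t' u : F) :
    H.cm (X r (t + t')) (X s u) = H.cm (X r t) (X s u) * H.cm (X r t') (X s u) := by
  rw [← hX.add r hr, H.cm_bi (hX.com hr hs h t' u)]

lemma cc_add' {r s : ℕ} (hr : r < D.nroots) (hs : s < D.nroots) (h : Com Q.C r s) (t u u' : F) :
    H.cm (X r t) (X s (u + u')) = H.cm (X r t) (X s u) * H.cm (X r t) (X s u') := by
  rw [← hX.add s hs, H.cm_bi' (hX.com hr hs h t u')]

lemma cc_zero {r s : ℕ} (hr : r < D.nroots) (u : F) : H.cm (X r 0) (X s u) = 1 := by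
  rw [hX.zero hr, H.cm_one_left]

/-- use of the torus -/
lemma cc_of_tor {r s : ℕ} (hr : r < D.nroots) (hs : s < D.nroots) (h : Com Q.C r s) {g : M} {χ : ℕ → Fˣ}
    (hg : TorEl Q X θ g χ) (h1 : χ s = 1) (h2 : χ r ≠ 1) (t u : F) : H.cm (X r t) (X s u) = 1 := by
  have hinv : ∀ t, H.cm (X r (χ r * t)) (X s u) = H.cm (X r t) (X s u) := by
    intro t
    have := H.cm_conj (hX.com hr hs h t u) g
    rwa [hg.act r hr, hg.act s hs, h1, Units.val_one, one_mul] at this
  have hz : (χ r : F) - 1 ≠ 0 := fun h => h2 (Units.ext (sub_eq_zero.1 h))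
  have e1 : t = χ r * (t / ((χ r : F) - 1)) + - (t / ((χ r : F) - 1)) := by
    field_simp; ring
  rw [e1, cc_add hX H hr hs h, hinv, ← cc_add hX H hr hs h, add_neg_cancel, cc_zero hX H hr]

/-- use of commutators, one term -/
lemma cc_of_one {r s a b : ℕ} {c : ℤ} (hs : s < D.nroots) (ha : a < D.nroots) (hb : b < D.nroots)
    (hne : b ≠ a) (hneg : b ≠ D.nroots - 1 - a) (hc : (c : F) ≠ 0) (hT : D.commTerms a b = [(r, c, 1, 1)])
    (h1 : Com Q.C a s) (h2 : Com Q.C b s) (t u : F) : H.cm (X r t) (X s u) = 1 := by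
  have e := hX.comm a ha b hb hne hneg (-(t / c)) 1
  rw [ChevalleyDatum.commWord, hT] at e
  simp only [List.map_cons, List.map_nil, wM, List.prod_cons, List.prod_nil, mul_one, pow_one, neg_neg] at e
  have e1 : (c : F) * (t / c) = t := by field_simp
  rw [e1] at e
  have e2 : X r t = (X b 1)⁻¹ * (X a (-(t / c)))⁻¹ * (X b 1)⁻¹⁻¹ * (X a (-(t / c)))⁻¹⁻¹ := by
    rw [inv_inv, inv_inv, mul_assoc _ (X b 1), e]; group
  rw [e2, hX.inv hb, hX.inv ha]
  exact H.cm_comm (hX.com hb hs h2 _ _).symm (hX.com ha hs h1 _ _).symm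

/-- use of commutators, two terms -/
lemma cc_of_two {r s a b m : ℕ} {c c' : ℤ} (hs : s < D.nroots) (ha : a < D.nroots) (hb : b < D.nroots)
    (hne : b ≠ a) (hneg : b ≠ D.nroots - 1 - a) (hc : (c' : F) ≠ 0) (hT : D.commTerms a b = [(m, c, 1, 1), (r, c', 1, 2)])
    (h1 : Com Q.C a s) (h2 : Com Q.C b s) (hm : ∀ t u, H.cm (X m t) (X s u) = 1) (t u : F) : H.cm (X r t) (X s u) = 1 := by
  have e := hX.comm a ha b hb hne hneg (-(t / c')) 1
  rw [ChevalleyDatum.commWord, hT] at e
  simp only [List.map_cons, List.map_nil, wM, List.prod_cons, List.prod_nil, mul_one, pow_one, neg_neg, one_pow] at e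
  have e1 : (c' : F) * (t / c') = t := by field_simp
  rw [e1] at e
  set m' := X m ((c : F) * (t / c')) with hm'
  have e2 : m' * X r t = (X b 1)⁻¹ * (X a (-(t / c')))⁻¹ * (X b 1)⁻¹⁻¹ * (X a (-(t / c')))⁻¹⁻¹ := by
    rw [inv_inv, inv_inv, mul_assoc _ (X b 1), e]; group
  have e3 : H.cm (m' * X r t) (X s u) = 1 := by
    rw [e2, hX.inv hb, hX.inv ha]
    exact H.cm_comm (hX.com hb hs h2 _ _).symm (hX.com ha hs h1 _ _).symm
  rw [H.cm_mul_left, hm', hm, mul_one] at e3
  have e4 := mul_inv_eq_one.1 e3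
  exact mul_left_cancel (e4.trans (mul_one _).symm)

/-- use of full torus action -/
lemma cc_of_unit (hG : GenD D) {r γ : ℕ} (hr : r < D.nroots) (hγ : γ < D.nroots) (hp : pairD D γ r = 1)
    (h5 : ∃ x : F, x ≠ 0 ∧ 1 + x ≠ 0 ∧ 1 + x + x ^ 2 ≠ 0) (t u : F) : H.cm (X r t) (X r u) = 1 := by
  have hc : Com Q.C r r := ⟨(Q.C.S_iff r hr.le r hr.le).2 (Q.C.N_self r hr), by
    have := Q.C.even
    omega⟩
  have hinv : ∀ w t u : F, w ≠ 0 → H.cm (X r (w * t)) (X r (w * u)) = H.cm (X r t) (X r u) := by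
    intro w t u hw
    have hg := hX.torEl_hM hG hγ (Units.mk0 w hw)
    have := H.cm_conj (hX.com hr hr hc t u) (hM D X γ ((Units.mk0 w hw : Fˣ) : F))
    rw [hg.act r hr, hg.act r hr, cp, hp, zpow_one, Units.val_mk0] at this
    exact this
  set g : F → E := fun x => H.cm (X r 1) (X r x) with hg
  have hfg : ∀ t u : F, t ≠ 0 → H.cm (X r t) (X r u) = g (u / t) := by
    intro t u ht
    have := hinv t 1 (u / t) ht
    rw [mul_one, mul_div_cancel₀ _ ht] at this
    rw [this]
  have gadd : ∀ x y, g (x + y) = g x * g y := fun x y => cc_add' hX H hr hr hc 1 x y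
  obtain ⟨x, hx0, hx1, hx2⟩ := h5
  have key : ∀ u, g (u / (1 + x)) = g u * g (u / x) := by
    intro u
    rw [← hfg _ _ hx1, cc_add hX H hr hr hc, hfg x u hx0]
  have g0 : g 0 = 1 := by
    have := gadd 0 0
    rw [add_zero] at this
    exact mul_eq_left.1 this.symm
  have gneg : ∀ x, g (-x) = (g x)⁻¹ := by
    intro x
    rw [eq_inv_iff_mul_eq_one, ← gadd, neg_add_cancel, g0]
  have hg1 : ∀ u, g u = 1 := by
    intro u
    have e1 := key (u * (x * (1 + x)) / (1 + x + x ^ 2))
    have e2 : g (u * (x * (1 + x)) / (1 + x + x ^ 2) + u * (x * (1 + x)) / (1 + x + x ^ 2) / x +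
        -(u * (x * (1 + x)) / (1 + x + x ^ 2) / (1 + x))) = 1 := by
      rw [gadd, gadd, gneg, e1, mul_inv_cancel]
    have e3 : u * (x * (1 + x)) / (1 + x + x ^ 2) + u * (x * (1 + x)) / (1 + x + x ^ 2) / x +
        -(u * (x * (1 + x)) / (1 + x + x ^ 2) / (1 + x)) = u := by
      field_simp
      ring
    rwa [e3] at e2
  by_cases ht : t = 0
  · rw [ht]; exact cc_zero hX H hr u
  · rw [hfg t u ht, hg1]

end

section field

variable {F : Type*} [Field F]

open Classical in
lemma exists_five (h : ∃ s : Finset F, 4 < s.card) : ∃ x : F, x ≠ 0 ∧ 1 + x ≠ 0 ∧ 1 + x + x ^ 2 ≠ 0 := by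
  by_contra hc
  push Not at hc
  obtain ⟨s, hs⟩ := h
  -- all elements are roots of a polynomial of degree 4
  have key : ∀ x : F, x = 0 ∨ 1 + x = 0 ∨ 1 + x + x ^ 2 = 0 := by
    intro x
    by_cases h0 : x = 0
    · exact Or.inl h0
    · by_cases h1 : 1 + x = 0
      · exact Or.inr (Or.inl h1)
      · exact Or.inr (Or.inr (hc x h0 h1))
  by_cases hr : ∃ y : F, 1 + y + y ^ 2 = 0
  · obtain ⟨y, hy⟩ := hr
    have h2 : s ⊆ {0, -1, y, -1 - y} := by
      intro x _
      simp only [Finset.mem_insert, Finset.mem_singleton]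
      rcases key x with h | h | h
      · exact Or.inl h
      · right; left; linear_combination h
      · have h3 : (x - y) * (x - (-1 - y)) = 0 := by linear_combination h - hy
        rcases mul_eq_zero.1 h3 with h4 | h4
        · right; right; left; linear_combination h4
        · right; right; right; linear_combination h4
    have h3 := Finset.card_le_card h2
    have h4 : ({0, -1, y, -1 - y} : Finset F).card ≤ 4 := Finset.card_le_four
    omega
  · push Not at hr
    have h2 : s ⊆ {0, -1} := by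
      intro x _
      simp only [Finset.mem_insert, Finset.mem_singleton]
      rcases key x with h | h | h
      · exact Or.inl h
      · right; linear_combination h
      · exact absurd h (hr x)
    have h3 := Finset.card_le_card h2
    have h4 : ({0, -1} : Finset F).card ≤ 2 := Finset.card_le_two
    omega

open Classical in
/-- an element of the multiplicative group with non-trivial small powers -/
lemma exists_unit4 (h : ∃ s : Finset F, 4 < s.card) : ∃ v : Fˣ, ∀ e : ℤ, e ≠ 0 → -3 ≤ e → e ≤ 3 → v ^ e ≠ 1 := by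
  suffices hv : ∃ v : F, v ≠ 0 ∧ v ^ 2 ≠ 1 ∧ v ^ 3 ≠ 1 by
    obtain ⟨v, h0, h2, h3⟩ := hv
    have k2 : (Units.mk0 v h0) ^ 2 ≠ 1 := fun h => h2 (by have := congrArg Units.val h; simpa using this)
    have k3 : (Units.mk0 v h0) ^ 3 ≠ 1 := fun h => h3 (by have := congrArg Units.val h; simpa using this)
    have k1 : Units.mk0 v h0 ≠ 1 := fun h => k2 (by rw [h, _root_.one_pow])
    refine ⟨Units.mk0 v h0, fun e he h1 h2' => ?_⟩
    have : e = -3 ∨ e = -2 ∨ e = -1 ∨ e = 1 ∨ e = 2 ∨ e = 3 := by omega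
    rcases this with rfl | rfl | rfl | rfl | rfl | rfl
    · rw [show (-3 : ℤ) = -((3 : ℕ) : ℤ) by norm_num, _root_.zpow_neg, zpow_natCast]; exact inv_ne_one.2 k3
    · rw [show (-2 : ℤ) = -((2 : ℕ) : ℤ) by norm_num, _root_.zpow_neg, zpow_natCast]; exact inv_ne_one.2 k2
    · rw [_root_.zpow_neg, zpow_one]; exact inv_ne_one.2 k1
    · rw [zpow_one]; exact k1
    · rw [show (2 : ℤ) = ((2 : ℕ) : ℤ) by norm_num, zpow_natCast]; exact k2
    · rw [show (3 : ℤ) = ((3 : ℕ) : ℤ) by norm_num, zpow_natCast]; exact k3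
  by_contra hc
  push Not at hc
  obtain ⟨s, hs⟩ := h
  -- a finite field
  have hroots : ∀ x : F, x ≠ 0 → x ^ 6 = 1 := by
    intro x hx
    by_cases h2 : x ^ 2 = 1
    · have : x ^ 6 = (x ^ 2) ^ 3 := by ring
      rw [this, h2, _root_.one_pow]
    · have h3 := hc x hx h2
      have : x ^ 6 = (x ^ 3) ^ 2 := by ring
      rw [this, h3, _root_.one_pow]
  have hfin : Finite F := by
    by_contra hinf
    rw [not_finite_iff_infinite] at hinf
    have h1 : (Polynomial.X ^ 7 - Polynomial.X : Polynomial F) ≠ 0 := by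
      intro h
      have := congrArg (fun p => Polynomial.coeff p 7) h
      simp [Polynomial.coeff_X] at this
    obtain ⟨x, hx⟩ := Infinite.exists_notMem_finset (Polynomial.roots (Polynomial.X ^ 7 - Polynomial.X : Polynomial F)).toFinset
    apply hx
    rw [Multiset.mem_toFinset, Polynomial.mem_roots h1, Polynomial.IsRoot.def]
    simp only [Polynomial.eval_sub, Polynomial.eval_pow, Polynomial.eval_X]
    by_cases hx0 : x = 0
    · rw [hx0]; simp
    · have := hroots x hx0
      linear_combination x * this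
  obtain ⟨g, hg⟩ := IsCyclic.exists_generator (α := Fˣ)
  have hcard : 4 < Nat.card F := by
    have := Fintype.ofFinite F
    rw [Nat.card_eq_fintype_card]
    exact lt_of_lt_of_le hs (Finset.card_le_univ s)
  have hord : orderOf g = Nat.card F - 1 := by
    rw [orderOf_eq_card_of_forall_mem_zpowers hg]
    have := Fintype.ofFinite F
    rw [Nat.card_eq_fintype_card, Nat.card_eq_fintype_card, Fintype.card_units]
  have hle : orderOf g ≤ 3 := by
    by_cases h2 : (g : F) ^ 2 = 1
    · have : g ^ 2 = 1 := Units.ext (by simpa using h2)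
      exact (orderOf_le_of_pow_eq_one (by norm_num) this).trans (by norm_num)
    · have h3 := hc g g.ne_zero h2
      have : g ^ 3 = 1 := Units.ext (by simpa using h3)
      exact orderOf_le_of_pow_eq_one (by norm_num) this
  omega

end field

end Cfsg.Agent.Lib.ChevAlg
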