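import Cfsg.Agent.Lib.ChevUcF

/-!
# Root data for lifting by the torus
-/

set_option autoImplicit false

namespace Cfsg.Agent.Lib.ChevAlg

open Cfsg.Lie Cfsg.Agent.Lib.ChevTab

section props

variable {D : ChevalleyDatum} (C : Cert D)

/-- separation of two roots by a coroot, exact form -/
def PZ (r s : ℕ) : Prop := ∃ γ < D.nroots, pairD D γ s = 0 ∧ pairD D γ r ≠ 0 ∧ -3 ≤ pairD D γ r ∧ pairD D γ r ≤ 3

/-- separation of two roots by a coroot, modular form -/
def PM (D : ChevalleyDatum) (m : ℤ) (r s : ℕ) : Prop := ∃ γ < D.nroots, pairD D γ s % m = 0 ∧ pairD D γ r % m ≠ 0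

/-- `x_r` is a commutator (coefficient `c`) of elements commuting with `x_s` -/
def TOne (k : ℤ) (r s : ℕ) : Prop := ∃ a < D.nroots, ∃ b < D.nroots, ∃ c : ℤ, b ≠ a ∧ b ≠ D.nroots - 1 - a ∧ (c = k ∨ c = -k) ∧
  D.commTerms a b = [(r, c, 1, 1)] ∧ Com C a s ∧ Com C b s

/-- two terms -/
def TTwo (r : ℕ) : Prop := ∃ a < D.nroots, ∃ b < D.nroots, ∃ m < D.nroots, ∃ c c' : ℤ, b ≠ a ∧ b ≠ D.nroots - 1 - a ∧ (c' = 1 ∨ c' = -1) ∧
  D.commTerms a b = [(m, c, 1, 1), (r, c', 1, 2)] ∧ Com C a r ∧ Com C b r ∧ Com C m r ∧ m ≠ r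

end props

variable (T : Raw)

/-- check for `TOne` -/
noncomputable def tOneB (k : ℕ) (r s : ℕ) : Bool := exB T.n fun a =>
  (fun b => andB (Nat.blt b T.n) <| andB (Nat.beq (T.S a b) r) <|
    andB (orB (Nat.beq (T.N' a b) (4 + k)) (Nat.beq (T.N' a b + k) 4)) <|
    andB (Nat.beq (S2 T.S a b) T.n) <| andB (Nat.beq (S2 T.S b a) T.n) <| andB (comB T a s) (comB T b s)) (T.S (T.n - 1 - a) r)

/-- check for `TTwo` -/
noncomputable def tTwoB (r : ℕ) : Bool := exB T.n fun a => exB T.n fun b =>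
  andB (Nat.beq (S2 T.S b a) r) <| andB (Nat.blt (T.S a b) T.n) <|
    andB (decide (M2 T.N T.S b a = 1 ∨ M2 T.N T.S b a = -1)) <| andB (Nat.beq (S2 T.S a b) T.n) <| andB (Nat.beq (S3 T.S b a) T.n) <|
    andB (comB T a r) <| andB (comB T b r) <| andB (comB T (T.S a b) r) (iteB (Nat.beq (T.S a b) r) false true)

/-- check for `PZ` -/
noncomputable def chkPZ : Bool := allB T.n fun r => allB T.n fun s => orB (Nat.beq s r) <| orB (Nat.beq s (T.n - 1 - r)) <|
  exB T.n fun γ => andB (decide (T.pair γ s = 0)) (decide (T.pair γ r ≠ 0 ∧ -3 ≤ T.pair γ r ∧ T.pair γ r ≤ 3))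

/-- check for `PM` -/
noncomputable def pmB (m : ℤ) (r s : ℕ) : Bool := exB T.n fun γ => andB (decide (T.pair γ s % m = 0)) (decide (T.pair γ r % m ≠ 0))

/-- check for `PM`, non-commuting pairs -/
noncomputable def chkPMn (m : ℤ) : Bool := allB T.n fun r => allB T.n fun s => orB (Nat.beq (T.S r s) T.n) (pmB T m r s)

/-- check for `PM`, commuting pairs -/
noncomputable def chkPMc (m : ℤ) : Bool := allB T.n fun r => allB T.n fun s => orB (Nat.beq s r) <|
  impB (comB T r s) (orB (pmB T m r s) (tOneB T 2 r s))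

/-- check for `PM`, single roots -/
noncomputable def chkPMs (m : ℤ) : Bool := allB T.n fun r => exB T.n fun γ => decide (T.pair γ r % m ≠ 0)

/-- unit pairings -/
noncomputable def unitB (r : ℕ) : Bool := exB T.n fun γ => decide (T.pair γ r = 1)

variable {T} {D : ChevalleyDatum}

lemma tOne_of (h : Checks T D) {k r s : ℕ} (hr : r < D.nroots) (hc : tOneB T k r s = true) : TOne (mkCert T D h) k r s := by
  have hn := h.mtch'.2.1
  simp only [tOneB, exB_iff, andB_iff, orB_iff, beq_iff, Nat.blt_eq] at hc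
  obtain ⟨a, ha, hb, h1, h2, h3, h4, c1, c2⟩ := hc
  set b := T.S (T.n - 1 - a) r with hbdef
  have ha' : a < D.nroots := by rw [hn]; exact ha
  have hb' : b < D.nroots := by rw [hn]; exact hb
  have hS : (mkCert T D h).S a b = r := h1
  obtain ⟨n1, n2⟩ := ne_self_of (C := mkCert T D h) ha' (by rw [hS]; exact hr)
  have n2' : b ≠ D.nroots - 1 - a := by
    intro h5
    apply n2
    rw [h5]
    exact ((mkCert T D h).neg_eq a ha').symm
  refine ⟨a, ha', b, hb', T.N a b, n1, n2', ?_, ?_, com_of h c1, com_of h c2⟩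
  · rw [Raw.N]
    rcases h2 with h2 | h2 <;> omega
  · have e2 : S2 (mkCert T D h).S a b = D.nroots := by rw [hn]; exact h3
    have e2' : S2 (mkCert T D h).S b a = D.nroots := by rw [hn]; exact h4
    rw [commTerms_eq (C := mkCert T D h) ha' hb' (S3_of_S2 _ ha' e2) (S3_of_S2 _ hb' e2'), if_pos e2, if_pos e2',
      if_neg (by rw [hS]; exact hr.ne), hS]
    rfl

lemma tTwo_of (h : Checks T D) {r : ℕ} (hr : r < D.nroots) (hc : tTwoB T r = true) : TTwo (mkCert T D h) r := by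
  have hn := h.mtch'.2.1
  simp only [tTwoB, exB_iff, andB_iff, beq_iff, decide_eq_true_eq, Nat.blt_eq] at hc
  obtain ⟨a, ha, b, hb, h1, h2, h4, h5, h6, c1, c2, c3, c4⟩ := hc
  have ha' : a < D.nroots := by rw [hn]; exact ha
  have hb' : b < D.nroots := by rw [hn]; exact hb
  have hm : T.S a b < D.nroots := by rw [hn]; exact h2
  obtain ⟨n1, n2⟩ := ne_self_of (C := mkCert T D h) ha' hm
  have n2' : b ≠ D.nroots - 1 - a := by
    intro h5
    apply n2
    rw [h5]
    exact ((mkCert T D h).neg_eq a ha').symm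
  refine ⟨a, ha', b, hb', T.S a b, hm, T.N a b, M2 T.N T.S b a, n1, n2', h4, ?_, com_of h c1, com_of h c2, com_of h c3, ?_⟩
  · have e2 : S2 (mkCert T D h).S a b = D.nroots := by rw [hn]; exact h5
    have e3' : S3 (mkCert T D h).S b a = D.nroots := by rw [hn]; exact h6
    have e1 : S2 (mkCert T D h).S b a = r := h1
    rw [commTerms_eq (C := mkCert T D h) ha' hb' (S3_of_S2 _ ha' e2) e3', if_pos e2,
      if_neg (show ¬ (mkCert T D h).S a b = D.nroots from hm.ne), if_neg (by rw [e1]; exact hr.ne), e1]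
    rfl
  · intro h7
    rw [iteB_iff] at c4
    have := c4.1 ((beq_iff _ _).2 h7)
    exact absurd this (by decide)

lemma pz_of (h : Checks T D) (hc : chkPZ T = true) {r s : ℕ} (hr : r < D.nroots) (hs : s < D.nroots) (h1 : s ≠ r)
    (h2 : s ≠ D.nroots - 1 - r) : PZ (D := D) r s := by
  have hn := h.mtch'.2.1
  rw [hn] at hr hs h2
  simp only [chkPZ, allB_iff, exB_iff, andB_iff, orB_iff, beq_iff, decide_eq_true_eq] at hc
  rcases hc r hr s hs with h3 | h3 | ⟨γ, hγ, h3, h4⟩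
  · exact absurd h3 h1
  · exact absurd h3 h2
  · refine ⟨γ, by rw [hn]; exact hγ, ?_, ?_⟩
    · rw [h.pair_eq γ hγ s hs]; exact h3
    · rw [h.pair_eq γ hγ r hr]; exact h4

lemma pm_of (h : Checks T D) {m : ℤ} {r s : ℕ} (hr : r < D.nroots) (hs : s < D.nroots) (hc : pmB T m r s = true) : PM D m r s := by
  have hn := h.mtch'.2.1
  rw [hn] at hr hs
  simp only [pmB, exB_iff, andB_iff, decide_eq_true_eq] at hc
  obtain ⟨γ, hγ, h3, h4⟩ := hc
  refine ⟨γ, by rw [hn]; exact hγ, ?_, ?_⟩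
  · rw [h.pair_eq γ hγ s hs]; exact h3
  · rw [h.pair_eq γ hγ r hr]; exact h4

lemma pmn_of (h : Checks T D) {m : ℤ} (hc : chkPMn T m = true) {r s : ℕ} (hr : r < D.nroots) (hs : s < D.nroots)
    (hS : (mkCert T D h).S r s < D.nroots) : PM D m r s := by
  have hn := h.mtch'.2.1
  simp only [chkPMn, allB_iff, orB_iff, beq_iff] at hc
  rcases hc r (by rw [← hn]; exact hr) s (by rw [← hn]; exact hs) with h3 | h3
  · rw [hn] at hS
    exact absurd h3 hS.ne
  · exact pm_of h hr hs h3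

lemma pmc_of (h : Checks T D) {m : ℤ} (hc : chkPMc T m = true) {r s : ℕ} (hr : r < D.nroots) (hs : s < D.nroots) (h1 : s ≠ r)
    (hC : Com (mkCert T D h) r s) : PM D m r s ∨ TOne (mkCert T D h) 2 r s := by
  have hn := h.mtch'.2.1
  simp only [chkPMc, allB_iff, orB_iff, impB_iff, beq_iff] at hc
  rcases hc r (by rw [← hn]; exact hr) s (by rw [← hn]; exact hs) with h3 | h3
  · exact absurd h3 h1
  · rcases h3 (com_to h hC) with h3 | h3
    · exact Or.inl (pm_of h hr hs h3)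
    · exact Or.inr (tOne_of h hr h3)

lemma pms_of (h : Checks T D) {m : ℤ} (hc : chkPMs T m = true) {r : ℕ} (hr : r < D.nroots) :
    ∃ γ < D.nroots, pairD D γ r % m ≠ 0 := by
  have hn := h.mtch'.2.1
  rw [hn] at hr
  simp only [chkPMs, allB_iff, exB_iff, decide_eq_true_eq] at hc
  obtain ⟨γ, hγ, h3⟩ := hc r hr
  exact ⟨γ, by rw [hn]; exact hγ, by rw [h.pair_eq γ hγ r hr]; exact h3⟩

lemma unit_of (h : Checks T D) {r : ℕ} (hr : r < D.nroots) (hc : unitB T r = true) : ∃ γ < D.nroots, pairD D γ r = 1 := by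
  have hn := h.mtch'.2.1
  rw [hn] at hr
  simp only [unitB, exB_iff, decide_eq_true_eq] at hc
  obtain ⟨γ, hγ, h3⟩ := hc
  exact ⟨γ, by rw [hn]; exact hγ, by rw [h.pair_eq γ hγ r hr]; exact h3⟩

end Cfsg.Agent.Lib.ChevAlg
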