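import Cfsg.Agent.Lib.ChevUcG
import Cfsg.Agent.Lib.ChevG2
import Cfsg.Agent.Lib.ChevB2
import Cfsg.Agent.Lib.ChevD4
import Cfsg.Agent.Lib.ChevF4

/-!
# Root data for lifting by the torus: types G2, B2, D4, F4
-/

set_option autoImplicit false
set_option maxRecDepth 100000

namespace Cfsg.Agent.Lib.ChevAlg

open Cfsg.Lie Cfsg.Agent.Lib.ChevTab

theorem pzG2 : chkPZ ChevG2.T = true := by decide +kernel
theorem pzB2 : chkPZ ChevB2.T = true := by decide +kernel
theorem pzD4 : chkPZ ChevD4.T = true := by decide +kernel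
theorem pzF4 : chkPZ ChevF4.T = true := by decide +kernel

theorem selfG2 : (allB ChevG2.T.n fun r => unitB ChevG2.T r) = true := by decide +kernel
theorem selfB2 : (allB ChevB2.T.n fun r => orB (unitB ChevB2.T r) (tTwoB ChevB2.T r)) = true := by decide +kernel
theorem selfD4 : (allB ChevD4.T.n fun r => tOneB ChevD4.T 1 r r) = true := by decide +kernel
theorem selfF4 : (allB ChevF4.T.n fun r => tOneB ChevF4.T 1 r r) = true := by decide +kernel

theorem pmnF4 : chkPMn ChevF4.T 2 = true ∧ chkPMn ChevF4.T 3 = true := by decide +kernel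
theorem pmcF4 : chkPMc ChevF4.T 2 = true ∧ chkPMc ChevF4.T 3 = true := by decide +kernel
theorem pmsF4 : chkPMs ChevF4.T 2 = true ∧ chkPMs ChevF4.T 3 = true := by decide +kernel

end Cfsg.Agent.Lib.ChevAlg
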