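import Cfsg.Agent.Lib.ChevUcH
import Cfsg.Agent.Lib.ChevUc_E6
import Cfsg.Agent.Lib.ChevUc_E7
import Cfsg.Agent.Lib.ChevUc_E8

/-!
# The lifting theorem
-/

set_option autoImplicit false
set_option maxRecDepth 100000

namespace Cfsg.Agent.Lib.ChevAlg

open Cfsg.Lie Cfsg.Agent.Lib.ChevTab Matrix

universe v w

/-- Steinberg's relations lift to central extensions -/
def LiftP {D : ChevalleyDatum} {F : Type*} [Field F] (Q : ChevO D F) : Prop :=
  ∀ (M : Type v) [Group M] (X : ℕ → F → M) (θ : M →* GL D.Idx F), StF Q X θ → (∀ g : M, g ∈ YS X {r | r < D.nroots}) →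
    commutator M = ⊤ → ∀ (E : Type w) [Group E] (π : E →* M), CExt π → ∃ Y : ℕ → F → E, RelAB D Y ∧ ∀ r < D.nroots, ∀ t, π (Y r t) = X r t

section

variable {D : ChevalleyDatum} {F : Type*} [Field F] {Q : ChevO D F}

theorem liftP_of_slift (h : SLift Q.C) : LiftP.{v, w} Q := by
  intro M _ X θ hX _ _ E _ π H
  exact h.lift hX H

lemma ne_of_S {a b : ℕ} (ha : a < D.nroots) (hb : b < D.nroots) (h : Q.C.S a b < D.nroots) : b ≠ a ∧ b ≠ D.nroots - 1 - a := by
  constructor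
  · rintro rfl
    have := (Q.C.S_iff b hb.le b hb.le).2 (Q.C.N_self b hb)
    omega
  · rintro rfl
    have := (Q.C.S_iff a ha.le _ hb.le).2 (Q.C.N_neg_self a ha)
    omega

theorem liftP_of_PZ (hG : GenD D) (h5 : ∃ s : Finset F, 4 < s.card)
    (hpz : ∀ r < D.nroots, ∀ s < D.nroots, s ≠ r → s ≠ D.nroots - 1 - r → PZ (D := D) r s)
    (hself : ∀ r < D.nroots, (∃ γ < D.nroots, pairD D γ r = 1) ∨ TOne Q.C 1 r r ∨ TTwo Q.C r) : LiftP.{v, w} Q := by
  intro M _ X θ hX hgen hP E _ π H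
  obtain ⟨v, hv⟩ := exists_unit4 h5
  have htor : ∀ r < D.nroots, ∀ s < D.nroots, s ≠ r → s ≠ D.nroots - 1 - r → ∃ g χ, TorEl Q X θ g χ ∧ χ s = 1 ∧ χ r ≠ 1 := by
    intro r hr s hs h1 h2
    obtain ⟨γ, hγ, e1, e2, e3, e4⟩ := hpz r hr s hs h1 h2
    refine ⟨_, _, hX.torEl_hM hG hγ v, ?_, ?_⟩
    · rw [cp, e1, zpow_zero]
    · rw [cp]; exact hv _ e2 e3 e4
  have hcom : ∀ r < D.nroots, ∀ s < D.nroots, s ≠ r → Com Q.C r s → ∀ t u, H.cm (X r t) (X s u) = 1 := by
    intro r hr s hs h1 hc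
    obtain ⟨g, χ, hg, e1, e2⟩ := htor r hr s hs h1 hc.2
    exact cc_of_tor hX H hr hs hc hg e1 e2
  refine lift_of_torus hX hG hgen hP H ?_ ?_ ?_
  · intro r hr s hs hc
    by_cases hrs : s = r
    · subst hrs
      rcases hself s hs with ⟨γ, hγ, e⟩ | ⟨a, ha, b, hb, c, h1, h2, h3, h4, h5', h6⟩ | ⟨a, ha, b, hb, m, hm, c, c', h1, h2, h3, h4, h5', h6, h7, h8⟩
      · exact cc_of_unit hX H hG hs hγ e (exists_five h5)
      · refine cc_of_one hX H hs ha hb h1 h2 (c := c) ?_ h4 h5' h6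
        rcases h3 with rfl | rfl <;> simp
      · refine cc_of_two hX H hs ha hb h1 h2 (c' := c') ?_ h4 h5' h6 (hcom m hm s hs h8.symm h7)
        rcases h3 with rfl | rfl <;> simp
    · exact hcom r hr s hs hrs hc
  · intro r hr
    refine ⟨_, _, hX.torEl_hM hG hr v, ?_⟩
    rw [cp, Q.C.pair_self r hr]
    exact hv 2 (by norm_num) (by norm_num) (by norm_num)
  · intro r hr s hs hS
    obtain ⟨h1, h2⟩ := ne_of_S hr hs hS
    exact htor r hr s hs h1 h2

theorem liftP_of_PM (hG : GenD D) {m : ℤ} {v : Fˣ} (hv0 : ∀ e : ℤ, e % m = 0 → v ^ e = 1) (hv1 : ∀ e : ℤ, e % m ≠ 0 → v ^ e ≠ 1)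
    (hn : ∀ r < D.nroots, ∀ s < D.nroots, Q.C.S r s < D.nroots → PM D m r s)
    (hc : ∀ r < D.nroots, ∀ s < D.nroots, s ≠ r → Com Q.C r s → PM D m r s ∨ ((2 : F) ≠ 0 ∧ TOne Q.C 2 r s))
    (hs1 : ∀ r < D.nroots, ∃ γ < D.nroots, pairD D γ r % m ≠ 0)
    (hself : ∀ r < D.nroots, TOne Q.C 1 r r) : LiftP.{v, w} Q := by
  intro M _ X θ hX hgen hP E _ π H
  have htor : ∀ r s, PM D m r s → ∃ g χ, TorEl Q X θ g χ ∧ χ s = 1 ∧ χ r ≠ 1 := by
    rintro r s ⟨γ, hγ, e1, e2⟩
    exact ⟨_, _, hX.torEl_hM hG hγ v, hv0 _ e1, hv1 _ e2⟩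
  refine lift_of_torus hX hG hgen hP H ?_ ?_ ?_
  · intro r hr s hs hcm
    by_cases hrs : s = r
    · subst hrs
      obtain ⟨a, ha, b, hb, c, h1, h2, h3, h4, h5', h6⟩ := hself s hs
      refine cc_of_one hX H hs ha hb h1 h2 (c := c) ?_ h4 h5' h6
      rcases h3 with rfl | rfl <;> simp
    · rcases hc r hr s hs hrs hcm with h | ⟨h20, a, ha, b, hb, c, h1, h2, h3, h4, h5', h6⟩
      · obtain ⟨g, χ, hg, e1, e2⟩ := htor r s h
        exact cc_of_tor hX H hr hs hcm hg e1 e2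
      · refine cc_of_one hX H hs ha hb h1 h2 (c := c) ?_ h4 h5' h6
        rcases h3 with rfl | rfl
        · exact_mod_cast h20
        · push_cast; exact neg_ne_zero.2 h20
  · intro r hr
    obtain ⟨γ, hγ, e⟩ := hs1 r hr
    exact ⟨_, _, hX.torEl_hM hG hγ v, hv1 _ e⟩
  · intro r hr s hs hS
    exact htor r s (hn r hr s hs hS)

end

theorem pmaF4 : (allB ChevF4.T.n fun r => allB ChevF4.T.n fun s => orB (Nat.beq s r) <| orB (Nat.beq s (ChevF4.T.n - 1 - r)) (pmB ChevF4.T 3 r s)) = true := by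
  decide +kernel

/-- **the lifting theorem over fields with more than four elements, and over all fields for type `E`** -/
theorem exists_lift (D : ChevalleyDatum) (hD : D ∈ [chevG2, chevB2, chevD4, chevF4, chevE6, chevE7, chevE8])
    (F : Type*) [Field F] (h5 : D ∈ [chevE6, chevE7, chevE8] ∨ ∃ s : Finset F, 4 < s.card) : ∃ Q : ChevO D F, LiftP.{v, w} Q := by
  have hG := gen_of D hD
  simp only [List.mem_cons, List.not_mem_nil, or_false] at hD
  have hE : ∀ T : Prop, (D ∈ [chevE6, chevE7, chevE8] → T) → (D ∈ [chevE6, chevE7, chevE8] ∨ T) → T := by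
    intro T h1 h2; tauto
  rcases hD with rfl | rfl | rfl | rfl | rfl | rfl | rfl
  · have h5' := hE _ (fun h => by
      exfalso
      simp only [List.mem_cons, List.not_mem_nil, or_false] at h
      rcases h with h | h | h <;> exact absurd (congrArg ChevalleyDatum.rank h) (by decide)) h5
    refine ⟨⟨⟨ChevG2.cert, ChevG2.cert2, fun r s hr hs h1 h2 t u =>
      comm_of_chkPoly ChevG2.checks ChevG2.poly r s hr hs h1 h2 t u⟩, mkOrd _ _ ChevG2.checks⟩, ?_⟩
    refine liftP_of_PZ hG h5' (fun r hr s hs h1 h2 => pz_of ChevG2.checks pzG2 hr hs h1 h2) (fun r hr => Or.inl ?_)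
    have := (allB_iff _ _).1 selfG2 r (by rw [← ChevG2.checks.mtch'.2.1]; exact hr)
    exact unit_of ChevG2.checks hr this
  · have h5' := hE _ (fun h => by
      exfalso
      simp only [List.mem_cons, List.not_mem_nil, or_false] at h
      rcases h with h | h | h <;> exact absurd (congrArg ChevalleyDatum.rank h) (by decide)) h5
    refine ⟨⟨⟨ChevB2.cert, ChevB2.cert2, fun r s hr hs h1 h2 t u =>
      comm_of_chkTyp ChevB2.checks ChevB2.typ r s hr hs h1 h2 t u⟩, mkOrd _ _ ChevB2.checks⟩, ?_⟩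
    refine liftP_of_PZ hG h5' (fun r hr s hs h1 h2 => pz_of ChevB2.checks pzB2 hr hs h1 h2) (fun r hr => ?_)
    have := (allB_iff _ _).1 selfB2 r (by rw [← ChevB2.checks.mtch'.2.1]; exact hr)
    rw [orB_iff] at this
    rcases this with h | h
    · exact Or.inl (unit_of ChevB2.checks hr h)
    · exact Or.inr (Or.inr (tTwo_of ChevB2.checks hr h))
  · have h5' := hE _ (fun h => by
      exfalso
      simp only [List.mem_cons, List.not_mem_nil, or_false] at h
      rcases h with h | h | h <;> exact absurd (congrArg ChevalleyDatum.rank h) (by decide)) h5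
    refine ⟨⟨⟨ChevD4.cert, ChevD4.cert2, fun r s hr hs h1 h2 t u =>
      comm_of_chkTyp ChevD4.checks ChevD4.typ r s hr hs h1 h2 t u⟩, mkOrd _ _ ChevD4.checks⟩, ?_⟩
    refine liftP_of_PZ hG h5' (fun r hr s hs h1 h2 => pz_of ChevD4.checks pzD4 hr hs h1 h2) (fun r hr => Or.inr (Or.inl ?_))
    have := (allB_iff _ _).1 selfD4 r (by rw [← ChevD4.checks.mtch'.2.1]; exact hr)
    exact tOne_of ChevD4.checks hr this
  · have h5' := hE _ (fun h => by
      exfalso
      simp only [List.mem_cons, List.not_mem_nil, or_false] at h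
      rcases h with h | h | h <;> exact absurd (congrArg ChevalleyDatum.rank h) (by decide)) h5
    refine ⟨⟨⟨ChevF4.cert, ChevF4.cert2, fun r s hr hs h1 h2 t u =>
      comm_of_chkTyp ChevF4.checks ChevF4.typ r s hr hs h1 h2 t u⟩, mkOrd _ _ ChevF4.checks⟩, ?_⟩
    refine liftP_of_PZ hG h5' (fun r hr s hs h1 h2 => pz_of ChevF4.checks pzF4 hr hs h1 h2) (fun r hr => Or.inr (Or.inl ?_))
    have := (allB_iff _ _).1 selfF4 r (by rw [← ChevF4.checks.mtch'.2.1]; exact hr)
    exact tOne_of ChevF4.checks hr this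
  · exact ⟨⟨⟨ChevE6.cert, ChevE6.cert2, fun r s hr hs h1 h2 t u =>
      comm_of_chkTyp ChevE6.checks ChevE6.typ r s hr hs h1 h2 t u⟩, mkOrd _ _ ChevE6.checks⟩, liftP_of_slift ChevE6.slift⟩
  · exact ⟨⟨⟨ChevE7.cert, ChevE7.cert2, fun r s hr hs h1 h2 t u =>
      comm_of_chkTyp ChevE7.checks ChevE7.typ r s hr hs h1 h2 t u⟩, mkOrd _ _ ChevE7.checks⟩, liftP_of_slift ChevE7.slift⟩
  · exact ⟨⟨⟨ChevE8.cert, ChevE8.cert2, fun r s hr hs h1 h2 t u =>
      comm_of_chkTyp ChevE8.checks ChevE8.typ r s hr hs h1 h2 t u⟩, mkOrd _ _ ChevE8.checks⟩, liftP_of_slift ChevE8.slift⟩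

/-- **lifting in type `F₄`** -/
theorem exists_lift_F4 (F : Type*) [Field F] [Finite F] (h3 : 3 ≤ Nat.card F) : ∃ Q : ChevO chevF4 F, LiftP.{v, w} Q := by
  by_cases h5 : 4 < Nat.card F
  · apply exists_lift chevF4 (by simp) F
    right
    have := Fintype.ofFinite F
    exact ⟨Finset.univ, by rwa [Finset.card_univ, ← Nat.card_eq_fintype_card]⟩
  have hG := gen_of chevF4 (by simp)
  have hcu : Nat.card Fˣ = Nat.card F - 1 := by
    have := Fintype.ofFinite F
    classical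
    rw [Nat.card_eq_fintype_card, Nat.card_eq_fintype_card, Fintype.card_units]
  obtain ⟨v, hv⟩ : ∃ v : Fˣ, v ≠ 1 := by
    by_contra hc
    push Not at hc
    have : Subsingleton Fˣ := ⟨fun a b => by rw [hc a, hc b]⟩
    have := Nat.card_of_subsingleton (1 : Fˣ)
    omega
  have hvo : v ^ Nat.card Fˣ = 1 := pow_card_eq_one'
  have hself : ∀ r < chevF4.nroots, TOne (mkCert ChevF4.T chevF4 ChevF4.checks) 1 r r := by
    intro r hr
    have := (allB_iff _ _).1 selfF4 r (by rw [← ChevF4.checks.mtch'.2.1]; exact hr)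
    exact tOne_of ChevF4.checks hr this
  refine ⟨⟨⟨ChevF4.cert, ChevF4.cert2, fun r s hr hs h1 h2 t u =>
      comm_of_chkTyp ChevF4.checks ChevF4.typ r s hr hs h1 h2 t u⟩, mkOrd _ _ ChevF4.checks⟩, ?_⟩
  have hprime : ∀ p : ℕ, p.Prime → v ^ p = 1 → (∀ e : ℤ, e % (p : ℤ) = 0 → v ^ e = 1) ∧ (∀ e : ℤ, e % (p : ℤ) ≠ 0 → v ^ e ≠ 1) := by
    intro p hp hvp
    have := Fact.mk hp
    have ho : orderOf v = p := orderOf_eq_prime hvp hv
    constructor
    · intro e he
      rw [← orderOf_dvd_iff_zpow_eq_one, ho]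
      exact Int.dvd_of_emod_eq_zero he
    · intro e he h
      rw [← orderOf_dvd_iff_zpow_eq_one, ho] at h
      exact he (Int.emod_eq_zero_of_dvd h)
  rcases (by omega : Nat.card F = 3 ∨ Nat.card F = 4) with hq | hq
  · rw [hcu, hq] at hvo
    obtain ⟨h0, h1⟩ := hprime 2 Nat.prime_two hvo
    have h20 : (2 : F) ≠ 0 := by
      intro h2
      have h22 : (-1 : F) = 1 := by linear_combination (-1 : F) * h2
      have h4 : (v : F) ^ 2 = 1 := by
        have := congrArg Units.val hvo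
        simpa using this
      have h5 : ((v : F) - 1) * (v + 1) = 0 := by linear_combination h4
      rcases mul_eq_zero.1 h5 with h6 | h6
      · exact hv (Units.ext (by rw [Units.val_one]; linear_combination h6))
      · exact hv (Units.ext (by rw [Units.val_one]; linear_combination h6 - h2))
    exact liftP_of_PM hG (m := ((2 : ℕ) : ℤ)) h0 h1 (fun r hr s hs hS => pmn_of ChevF4.checks pmnF4.1 hr hs hS)
      (fun r hr s hs h1 hC => (pmc_of ChevF4.checks pmcF4.1 hr hs h1 hC).imp id (fun h => ⟨h20, h⟩))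
      (fun r hr => pms_of ChevF4.checks pmsF4.1 hr) hself
  · rw [hcu, hq] at hvo
    obtain ⟨h0, h1⟩ := hprime 3 Nat.prime_three hvo
    refine liftP_of_PM hG (m := ((3 : ℕ) : ℤ)) h0 h1 (fun r hr s hs hS => pmn_of ChevF4.checks pmnF4.2 hr hs hS)
      (fun r hr s hs h1 hC => Or.inl ?_) (fun r hr => pms_of ChevF4.checks pmsF4.2 hr) hself
    have hn := ChevF4.checks.mtch'.2.1
    have := pmaF4
    simp only [allB_iff, orB_iff, beq_iff] at this
    rcases this r (by rw [← hn]; exact hr) s (by rw [← hn]; exact hs) with h2 | h2 | h2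
    · exact absurd h2 h1
    · rw [← hn] at h2
      exact absurd h2 hC.2
    · exact pm_of ChevF4.checks hr hs h2

end Cfsg.Agent.Lib.ChevAlg
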