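import Cfsg.Agent.Lib.ChevUcI

/-!
# Universality of Steinberg's group
-/

set_option autoImplicit false

namespace Cfsg.Agent.Lib.ChevAlg

open Cfsg.Lie Cfsg.Agent.Lib.ChevTab Matrix

universe v w u

section

/-- homomorphisms from a perfect group are determined modulo the kernel of a central extension -/
lemma hom_unique {N E G : Type*} [Group N] [Group E] [Group G] {π : E →* G} (H : CExt π) (hP : commutator N = ⊤) {f g : N →* E}
    (h : π.comp f = π.comp g) : f = g := by
  have hz : ∀ x, ∃ z, π z = 1 ∧ f x = g x * z := fun x => H.ratio (DFunLike.congr_fun h x)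
  have key : ∀ x y, f (x * y * x⁻¹ * y⁻¹) = g (x * y * x⁻¹ * y⁻¹) := by
    intro x y
    rw [map_mul, map_mul, map_mul, map_inv, map_inv, map_mul, map_mul, map_mul, map_inv, map_inv]
    exact H.comm_eq (DFunLike.congr_fun h x) (DFunLike.congr_fun h y)
  have h1 : commutator N ≤ f.eqLocus g := by
    rw [commutator_def, Subgroup.commutator_le]
    intro x _ y _
    exact key x y
  rw [hP] at h1
  exact MonoidHom.ext fun x => h1 (Subgroup.mem_top x)

variable {D : ChevalleyDatum} {K : Type u} [Field K] {Q : ChevO D K}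

/-- a lift of the cover along a central extension of a quotient -/
theorem exists_cover_lift (hL : LiftP.{u, max v u} Q) (hG : GenD D) (hP : commutator (D.SteinbergCover K) = ⊤)
    {G₁ : Type w} {E : Type v} [Group G₁] [Group E] {π : E →* G₁} (H : CExt π) (σ : D.SteinbergCover K →* G₁) :
    ∃ τ : D.SteinbergCover K →* E, π.comp τ = σ := by
  obtain ⟨Y, hY, hYX⟩ := hL (D.SteinbergCover K) (D.scGen K) _ (coverStF Q) (coverGen Q) hP (↥(pull π σ)) _ (pull_cext H σ)
  refine ⟨((MonoidHom.fst E (D.SteinbergCover K)).comp (pull π σ).subtype).comp (coverLift Q hY), ?_⟩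
  set L := coverLift Q hY with hLd
  have h1 : ∀ x, ((L x : ↥(pull π σ)) : E × D.SteinbergCover K).2 = x := by
    have h2 : (((MonoidHom.snd E (D.SteinbergCover K)).comp (pull π σ).subtype).comp L) = MonoidHom.id _ := by
      apply MonoidHom.ext
      intro x
      have h3 : YS (D.scGen K) {r | r < D.nroots} ≤
          MonoidHom.eqLocus (((MonoidHom.snd E (D.SteinbergCover K)).comp (pull π σ).subtype).comp L) (MonoidHom.id _) := by
        rw [YS_le]
        intro r hr t
        show ((L (D.scGen K r t) : ↥(pull π σ)) : E × D.SteinbergCover K).2 = D.scGen K r t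
        rw [hLd, coverLift_gen Q hY hr]
        exact hYX r hr t
      exact h3 (coverGen Q x)
    exact fun x => DFunLike.congr_fun h2 x
  apply MonoidHom.ext
  intro x
  show π ((L x : ↥(pull π σ)) : E × D.SteinbergCover K).1 = σ x
  have h4 : π ((L x : ↥(pull π σ)) : E × D.SteinbergCover K).1 = σ ((L x : ↥(pull π σ)) : E × D.SteinbergCover K).2 := (L x).2
  rw [h4, h1]

end

/-- perfectness of the cover -/
theorem cover_perfect (D : ChevalleyDatum) (hD : D ∈ [chevG2, chevB2, chevD4, chevF4, chevE6, chevE7, chevE8]) (K : Type*) [Field K]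
    (hK : D ∈ [chevB2, chevG2] → ∃ x : K, x ≠ 0 ∧ x ≠ 1) (Q : ChevO D K) : commutator (D.SteinbergCover K) = ⊤ :=
  (coverStF Q).perfect (gen_of D hD) (coverGen Q) (perfD D hD hK)

open Classical in
lemma exists_ne_of_card {K : Type*} [Field K] (h : ∃ s : Finset K, 4 < s.card) : ∃ x : K, x ≠ 0 ∧ x ≠ 1 := by
  by_contra hc
  push Not at hc
  obtain ⟨s, hs⟩ := h
  have : s ⊆ {0, 1} := by
    intro x _
    simp only [Finset.mem_insert, Finset.mem_singleton]
    by_cases hx : x = 0
    · exact Or.inl hx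
    · exact Or.inr (hc x hx)
  have h1 := Finset.card_le_card this
  have h2 : ({0, 1} : Finset K).card ≤ 2 := Finset.card_le_two
  omega

/-- **universality of the cover** -/
theorem cover_universal {K : Type u} [Field K] (hK5 : ∃ s : Finset K, 4 < s.card) (D : ChevalleyDatum)
    (hD : D ∈ [chevG2, chevB2, chevD4, chevF4, chevE6, chevE7, chevE8])
    {G₁ : Type w} {E : Type v} [Group G₁] [Group E] (π₁ : E →* G₁) (hπ : Function.Surjective π₁) (hc : π₁.ker ≤ Subgroup.center E)
    (σ : D.SteinbergCover K →* G₁) : ∃! τ : D.SteinbergCover K →* E, π₁.comp τ = σ := by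
  obtain ⟨Q, hQ⟩ := exists_lift.{u, max v u} D hD K (Or.inr hK5)
  have hP := cover_perfect D hD K (fun _ => exists_ne_of_card hK5) Q
  obtain ⟨τ, hτ⟩ := exists_cover_lift.{v, w, u} hQ (gen_of D hD) hP ⟨hπ, hc⟩ σ
  exact ⟨τ, hτ, fun τ' hτ' => hom_unique ⟨hπ, hc⟩ hP (hτ'.trans hτ.symm)⟩

end Cfsg.Agent.Lib.ChevAlg
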