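import Cfsg.Agent.Lib.ChevUcJ
import Cfsg.Prelude.Def_KGroupFacts

/-!
# Kernels of the universal groups and Schur multipliers
-/

set_option autoImplicit false
set_option maxRecDepth 100000

namespace Cfsg.Agent.Lib.ChevAlg

open Cfsg.Lie Cfsg.Agent.Lib.ChevTab Matrix

universe u

section emb

variable {D D' : ChevalleyDatum} (C : Cert D) (C' : Cert D')

/-- embeddings of root data -/
structure Emb (ι : ℕ → ℕ) : Prop where
  lt : ∀ r < D.nroots, ι r < D'.nroots
  inj : ∀ r < D.nroots, ∀ s < D.nroots, ι r = ι s → r = s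
  neg : ∀ r < D.nroots, ι (D.nroots - 1 - r) = D'.nroots - 1 - ι r
  S : ∀ r < D.nroots, ∀ s < D.nroots, C'.S (ι r) (ι s) = if C.S r s = D.nroots then D'.nroots else ι (C.S r s)
  N : ∀ r < D.nroots, ∀ s < D.nroots, C'.N (ι r) (ι s) = C.N r s
  rank : D.rank ≤ D'.rank
  simple : ∀ i < D.rank, ι (D.simple i) = D'.simple i

end emb

section

variable {D D' : ChevalleyDatum} {K : Type*} [Field K] {Q : ChevO D K} {Q' : ChevO D' K} {ι : ℕ → ℕ}

theorem Emb.relAB (h : Emb Q.C Q'.C ι) (hL : SLift Q.C) (hL' : SLift Q'.C) : RelAB D (fun r (t : K) => xg Q' (ι r) t) := by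
  constructor
  · intro r _ t u
    exact xg_add Q' _ t u
  · intro r hr s hs hne hneg t u
    have h1 := h.lt r hr
    have h2 := h.lt s hs
    have e := (relAB_xg Q').comm (ι r) h1 (ι s) h2 (fun e => hne (h.inj s hs r hr e)) (fun e => hneg (by
      rw [← h.neg r hr] at e
      exact h.inj s hs _ (neg_lt hr) e)) t u
    show xg Q' (ι s) u * xg Q' (ι r) t = xg Q' (ι r) t * xg Q' (ι s) u * _
    rw [e]
    congr 1
    rw [ChevalleyDatum.commWord, ChevalleyDatum.commWord]
    have hS := h.S r hr s hs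
    by_cases h0 : Q.C.S r s = D.nroots
    · rw [if_pos h0] at hS
      rw [commTerms_nil hr hs h0, commTerms_nil h1 h2 hS]
      rfl
    · rw [if_neg h0] at hS
      have hlt : Q.C.S r s < D.nroots := lt_of_le_of_ne (Q.C.S_le r hr.le s hs.le) h0
      have hlt' : Q'.C.S (ι r) (ι s) < D'.nroots := by rw [hS]; exact h.lt _ hlt
      rw [hL.terms hr hs hlt, hL'.terms h1 h2 hlt', hS, h.N r hr s hs]
      rfl

lemma Emb.hM (h : Emb Q.C Q'.C ι) {r : ℕ} (hr : r < D.nroots) (t : K) :
    ChevAlg.hM D (fun r (t : K) => xg Q' (ι r) t) r t = ChevAlg.hM D' (xg Q') (ι r) t := by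
  simp only [ChevAlg.hM, nM, h.neg r hr]

theorem Emb.relC (h : Emb Q.C Q'.C ι) : RelC D (fun r (t : K) => xg Q' (ι r) t) := by
  intro r hr t u ht hu
  rw [h.hM hr, h.hM hr, h.hM hr]
  exact relC_xg Q' (ι r) (h.lt r hr) t u ht hu

variable (Q') in
lemma stF_self : StF Q' (xg Q') (D'.group K).subtype := ⟨(relAB_xg Q').add, (relAB_xg Q').comm, fun _ _ _ => rfl⟩

/-- extension by one of tuples -/
def extHom (K : Type*) [Field K] {a b : ℕ} (_ : a ≤ b) : (Fin a → Kˣ) →* (Fin b → Kˣ) where
  toFun c j := if hj : (j : ℕ) < a then c ⟨j, hj⟩ else 1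
  map_one' := by
    funext j
    simp
  map_mul' c c' := by
    funext j
    by_cases hj : (j : ℕ) < a
    · simp [hj]
    · simp [hj]

lemma extHom_inj {a b : ℕ} (h : a ≤ b) : Function.Injective (extHom K h) := by
  intro c c' e
  funext j
  have := congrFun e ⟨j, lt_of_lt_of_le j.2 h⟩
  simpa [extHom] using this

/-- injectivity of the torus homomorphism -/
theorem tor_injective {M : Type*} [Group M] {X : ℕ → K → M} {θ : M →* GL D.Idx K} (hX : StF Q X θ) (hG : GenD D) (hC : RelC D X)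
    (hG' : GenD D') (hE : Emb Q.C Q'.C ι) (f : M →* ↥(D'.group K)) (hf : ∀ r < D.nroots, ∀ t, f (X r t) = xg Q' (ι r) t)
    {d : List ℕ} (hs : Smith D' d) (hd : ∀ i : Fin D'.rank, d.getD i 0 = 1) : Function.Injective (hX.tor hG hC) := by
  have hX' := stF_self (K := K) Q'
  have e : f.comp (hX.tor hG hC) = (hX'.tor hG' (relC_xg Q')).comp (extHom K hE.rank) := by
    apply MonoidHom.pi_ext
    intro i t
    have e1 : extHom K hE.rank (Pi.mulSingle i t) = Pi.mulSingle (⟨i, lt_of_lt_of_le i.2 hE.rank⟩ : Fin D'.rank) t := by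
      funext j
      by_cases hj : (j : ℕ) = i
      · have hj' : j = ⟨i, lt_of_lt_of_le i.2 hE.rank⟩ := Fin.ext hj
        rw [hj', Pi.mulSingle_eq_same]
        simp [extHom]
      · rw [Pi.mulSingle_eq_of_ne (fun h => hj (congrArg Fin.val h))]
        by_cases hj2 : (j : ℕ) < D.rank
        · have : (⟨j, hj2⟩ : Fin D.rank) ≠ i := fun h => hj (congrArg Fin.val h)
          simp [extHom, hj2, Pi.mulSingle_eq_of_ne this]
        · simp [extHom, hj2]
    rw [MonoidHom.comp_apply, MonoidHom.comp_apply, e1, hX.tor_single hG hC, hX'.tor_single hG' (relC_xg Q')]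
    have hi := Q.C.simple_lt i i.2
    have hsi : ι (D.simple i) = D'.simple i := hE.simple i i.2
    have e2 : ∀ t : K, f (nM D X (D.simple i) t) = nM D' (xg Q') (D'.simple i) t := by
      intro t
      rw [nM, map_mul, map_mul, hf _ hi, hf _ (neg_lt hi), hE.neg _ hi, hsi]
      rfl
    rw [ChevAlg.hM, map_mul, e2, e2]
    rfl
  rw [injective_iff_map_eq_one]
  intro c hc
  have h1 := DFunLike.congr_fun e c
  rw [MonoidHom.comp_apply, hc, map_one, MonoidHom.comp_apply] at h1
  have h2 := hX'.map_tor hG' (relC_xg Q') (extHom K hE.rank c)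
  rw [← h1, map_one] at h2
  have h3 := (tor_eq_one_iff Q' (extHom K hE.rank c)).1 h2.symm
  have h4 := act_eq_one_of_unimod hs hd h3
  exact extHom_inj hE.rank (h4.trans (map_one _).symm)

theorem tor_injective_of_unimod {M : Type*} [Group M] {X : ℕ → K → M} {θ : M →* GL D.Idx K} (hX : StF Q X θ) (hG : GenD D) (hC : RelC D X)
    {d : List ℕ} (hs : Smith D d) (hd : ∀ i : Fin D.rank, d.getD i 0 = 1) : Function.Injective (hX.tor hG hC) := by
  rw [injective_iff_map_eq_one]
  intro c hc
  have h2 := hX.map_tor hG hC c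
  rw [hc, map_one] at h2
  have h3 := (tor_eq_one_iff Q c).1 h2.symm
  exact act_eq_one_of_unimod hs hd h3

end

section cyc

variable {D : ChevalleyDatum} {F : Type*} [Field F]

/-- the kernel of the torus homomorphism is cyclic -/
theorem tor_ker_cyclic [Finite F] (Q : ChevO D F) {d : List ℕ} (h : Smith D d) (i₀ : Fin D.rank) (hd : ∀ i : Fin D.rank, i ≠ i₀ → d.getD i 0 = 1) :
    IsCyclic ↥(torHom D F).ker := by
  obtain ⟨P, P', R, R', h1, h2, h3, h4, h5⟩ := h.ex
  have hone : ∀ B : Matrix (Fin D.rank) (Fin D.rank) ℤ, act B (fun _ => (1 : Fˣ)) = fun _ => 1 := by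
    intro B; funext j; simp [act]
  let ψ : ↥(torHom D F).ker →* Fˣ :=
    { toFun := fun c => act P' c.1 i₀
      map_one' := by
        have : ((1 : ↥(torHom D F).ker) : Fin D.rank → Fˣ) = fun _ => 1 := rfl
        rw [this, hone]
      map_mul' := by
        intro a b
        simp only [act]
        rw [← Finset.prod_mul_distrib]
        apply Finset.prod_congr rfl
        intro k _
        have : ((a * b : ↥(torHom D F).ker) : Fin D.rank → Fˣ) k = (a : Fin D.rank → Fˣ) k * (b : Fin D.rank → Fˣ) k := rfl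
        rw [this, mul_zpow] }
  apply isCyclic_of_injective ψ
  rw [injective_iff_map_eq_one]
  rintro ⟨c, hc⟩ hψ
  have hψ' : act P' c i₀ = 1 := hψ
  have hc' : act (cartM D) c = fun _ => 1 := by
    rw [MonoidHom.mem_ker] at hc
    exact (tor_eq_one_iff Q c).1 hc
  have hy : act (Matrix.diagonal (fun i : Fin D.rank => (d.getD i 0 : ℤ))) (act P' c) = fun _ => 1 := by
    rw [← h5, act_mul (P * cartM D) R, act_mul P (cartM D), ← act_mul P' P, h2, act_one, hc', hone]
  have hy' : act P' c = fun _ => 1 := by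
    funext j
    by_cases hj : j = i₀
    · rw [hj]; exact hψ'
    · have := congrFun hy j
      simp only [act] at this
      rw [Finset.prod_eq_single j] at this
      · rw [Matrix.diagonal_apply_eq, hd j hj, Nat.cast_one, zpow_one] at this
        exact this
      · intro b _ hb
        rw [Matrix.diagonal_apply_ne _ hb, zpow_zero]
      · intro h; exact absurd (Finset.mem_univ _) h
  have hc1 : c = fun _ => 1 := by
    have := congrArg (act P) hy'
    rwa [← act_mul, h2, act_one, hone] at this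
  exact Subtype.ext hc1

theorem tor_ker_card [Fintype F] (Q : ChevO D F) {d : List ℕ} (hd : Smith D d) :
    Nat.card ↥(torHom D F).ker = ∏ i : Fin D.rank, Nat.gcd (Fintype.card F - 1) (d.getD i 0) := by
  classical
  obtain ⟨P, P', R, R', h1, h2, h3, h4, h5⟩ := hd.ex
  have hcard : Nat.card Fˣ = Fintype.card F - 1 := by
    rw [Nat.card_eq_fintype_card, Fintype.card_units]
  have e2 := card_ker (M := Fˣ) (cartM D) P P' R R' (fun i => d.getD i 0) h1 h2 h3 h4 h5
  rw [hcard] at e2
  rw [← e2]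
  apply Nat.card_congr
  refine Equiv.subtypeEquivRight (fun c => ?_)
  rw [MonoidHom.mem_ker]
  exact tor_eq_one_iff Q c

/-- the kernel of `θ` -/
theorem ker_equiv {Q : ChevO D F} {M : Type*} [Group M] {X : ℕ → F → M} (θ : M →* ↥(D.group F)) (hX : StF Q X ((D.group F).subtype.comp θ))
    (hG : GenD D) (hC : RelC D X) (hgen : ∀ g : M, g ∈ YS X {r | r < D.nroots}) (hinj : Function.Injective (hX.tor hG hC)) :
    Nonempty (↥(torHom D F).ker ≃* ↥θ.ker) := by
  have hk : ∀ g : M, g ∈ θ.ker ↔ (D.group F).subtype.comp θ g = 1 := by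
    intro g
    rw [MonoidHom.mem_ker]
    constructor
    · intro h; rw [MonoidHom.comp_apply, h, map_one]
    · intro h; exact Subtype.ext h
  have hmem : ∀ c : Fin D.rank → Fˣ, c ∈ (torHom D F).ker → hX.tor hG hC c ∈ θ.ker := by
    intro c hc
    rw [hk, hX.map_tor hG hC]
    exact hc
  refine ⟨MulEquiv.ofBijective (((hX.tor hG hC).comp (torHom D F).ker.subtype).codRestrict θ.ker (fun c => hmem c.1 c.2)) ⟨?_, ?_⟩⟩
  · intro a b hab
    exact Subtype.ext (hinj (congrArg Subtype.val hab))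
  · rintro ⟨g, hg⟩
    obtain ⟨c, hc, e⟩ := (hX.mem_ker hG hC hgen).1 ((hk g).1 hg)
    have hcm : c ∈ (torHom D F).ker := by
      rw [MonoidHom.mem_ker]
      exact (tor_eq_one_iff Q c).2 hc
    exact ⟨⟨c, hcm⟩, Subtype.ext e.symm⟩

end cyc

section schur

variable {D : ChevalleyDatum} {F : Type u} [Field F] [Fintype F] {Q : ChevO D F}

/-- **Schur multipliers** -/
theorem schur_cyclic (hL : LiftP.{u, u} Q) (hG : GenD D) (hP : commutator (D.SteinbergCover F) = ⊤)
    (hinj : Function.Injective ((coverStF Q).tor hG ((coverStF Q).relC_of_finite hG (coverGen Q))))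
    (hcyc : IsCyclic ↥(torHom D F).ker) {n : ℕ} (hn : Nat.card ↥(torHom D F).ker = n) :
    Cfsg.HasCyclicSchurMultiplier ↥(D.group F) n := by
  obtain ⟨e⟩ := ker_equiv (coverHom Q) (coverStF Q) hG ((coverStF Q).relC_of_finite hG (coverGen Q)) (coverGen Q) hinj
  have hn0 : n ≠ 0 := by rw [← hn]; exact Nat.card_pos.ne'
  have : NeZero n := ⟨hn0⟩
  have hcyc2 : IsCyclic (Multiplicative (ZMod n)) := inferInstance
  have e0 : Nat.card (Multiplicative (ZMod n)) = Nat.card ↥(torHom D F).ker := by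
    rw [hn]
    show Nat.card (ZMod n) = n
    exact Nat.card_zmod n
  let e1 : Multiplicative (ZMod n) ≃* ↥(coverHom Q).ker := (mulEquivOfCyclicCardEq e0).trans e
  have hkfin : Finite ↥(coverHom Q).ker := Finite.of_equiv _ e.toEquiv
  have hfin : Finite (D.SteinbergCover F) := by
    have h1 : Finite (D.SteinbergCover F ⧸ (coverHom Q).ker) :=
      Finite.of_equiv _ (QuotientGroup.quotientKerEquivRange (coverHom Q)).symm.toEquiv
    exact Finite.of_equiv _ (Subgroup.groupEquivQuotientProdSubgroup (s := (coverHom Q).ker)).symm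
  have hker := coverHom_ker Q hG
  constructor
  · refine ⟨D.SteinbergCover F, inferInstance, hfin, coverHom Q, ⟨coverHom_surj Q, hker.le, ?_⟩, ⟨e1.symm⟩⟩
    rw [hP]; exact le_top
  · intro Γ _ _ σ hσ
    obtain ⟨hs, hc, hst⟩ := hσ
    have H : CExt σ := ⟨hs, hc⟩
    obtain ⟨τ, hτ⟩ := exists_cover_lift.{u, u, u} hL hG hP H (coverHom Q)
    have hτ' : ∀ x, σ (τ x) = coverHom Q x := fun x => DFunLike.congr_fun hτ x
    -- `τ` is surjective
    have hsurj : Function.Surjective τ := by
      have h1 : ∀ g : Γ, ∃ x, ∃ z, σ z = 1 ∧ g = τ x * z := by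
        intro g
        obtain ⟨x, hx⟩ := coverHom_surj Q (σ g)
        obtain ⟨z, hz, e⟩ := H.ratio (x := g) (x' := τ x) (by rw [hτ', hx])
        exact ⟨x, z, hz, e⟩
      have h2 : commutator Γ ≤ τ.range := by
        rw [commutator_def, Subgroup.commutator_le]
        intro a _ b _
        obtain ⟨x, z, hz, rfl⟩ := h1 a
        obtain ⟨y, w, hw, rfl⟩ := h1 b
        refine ⟨x * y * x⁻¹ * y⁻¹, ?_⟩
        rw [map_mul, map_mul, map_mul, map_inv, map_inv]
        exact H.comm_eq (by rw [map_mul, hz, mul_one]) (by rw [map_mul, hw, mul_one])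
      intro g
      obtain ⟨x, z, hz, rfl⟩ := h1 g
      obtain ⟨y, hy⟩ := h2 (hst (MonoidHom.mem_ker.2 hz))
      exact ⟨x * y, by rw [map_mul, hy]⟩
    have hmem : ∀ x ∈ (coverHom Q).ker, τ x ∈ σ.ker := by
      intro x hx
      rw [MonoidHom.mem_ker, hτ']
      exact hx
    refine ⟨((τ.comp (coverHom Q).ker.subtype).codRestrict σ.ker (fun x => hmem x.1 x.2)).comp e1.toMonoidHom, ?_⟩
    rintro ⟨z, hz⟩
    obtain ⟨x, rfl⟩ := hsurj z
    have hx : x ∈ (coverHom Q).ker := by
      rw [MonoidHom.mem_ker, ← hτ']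
      exact hz
    refine ⟨e1.symm ⟨x, hx⟩, Subtype.ext ?_⟩
    show τ ((e1 (e1.symm ⟨x, hx⟩) : ↥(coverHom Q).ker) : D.SteinbergCover F) = τ x
    rw [MulEquiv.apply_symm_apply]

end schur

end Cfsg.Agent.Lib.ChevAlg
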