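import Cfsg.Agent.Lib.ChevUcK

/-!
# Embeddings into type E8, and the Schur multipliers
-/

set_option autoImplicit false
set_option maxRecDepth 100000

namespace Cfsg.Agent.Lib.ChevAlg

open Cfsg.Lie Cfsg.Agent.Lib.ChevTab Matrix

universe u

/-- check for embeddings -/
noncomputable def chkEmb (T T' : Raw) (P : ℕ) : Bool :=
  andB (allB T.n fun r => Nat.blt (byt P r) T'.n) <|
  andB (allB (T.n - 1) fun r => Nat.blt (byt P r) (byt P (r + 1))) <|
  andB (allB T.n fun r => Nat.beq (byt P (T.n - 1 - r)) (T'.n - 1 - byt P r)) <|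
  andB (allB T.l fun i => Nat.beq (byt P (T.simp.get i)) (T'.simp.get i)) <|
  allB T.n fun r => allB T.n fun s => andB (Nat.beq (T'.N' (byt P r) (byt P s)) (T.N' r s)) <|
    iteB (Nat.beq (T.S r s) T.n) (Nat.beq (T'.S (byt P r) (byt P s)) T'.n) (Nat.beq (T'.S (byt P r) (byt P s)) (byt P (T.S r s)))

theorem emb_sound {T T' : Raw} {D D' : ChevalleyDatum} (h : Checks T D) (h' : Checks T' D') {P : ℕ} (hl : T.l ≤ T'.l)
    (hc : chkEmb T T' P = true) : Emb (mkCert T D h) (mkCert T' D' h') (byt P) := by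
  have hn := h.mtch'.2.1
  have hn' := h'.mtch'.2.1
  simp only [chkEmb, andB_iff, allB_iff, beq_iff, Nat.blt_eq, iteB_iff] at hc
  obtain ⟨h1, h2, h3, h4, h5⟩ := hc
  have hmono : ∀ k r, r + k + 1 < T.n → byt P r < byt P (r + k + 1) := by
    intro k
    induction k with
    | zero => intro r hr; exact h2 r (by omega)
    | succ k ih =>
      intro r hr
      exact (ih r (by omega)).trans (h2 (r + k + 1) (by omega))
  constructor
  · rw [hn, hn']; exact h1
  · intro r hr s hs e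
    rw [hn] at hr hs
    rcases lt_trichotomy r s with hrs | hrs | hrs
    · have := hmono (s - r - 1) r (by omega)
      rw [show r + (s - r - 1) + 1 = s by omega] at this
      omega
    · exact hrs
    · have := hmono (r - s - 1) s (by omega)
      rw [show s + (r - s - 1) + 1 = r by omega] at this
      omega
  · rw [hn, hn']; exact h3
  · intro r hr s hs
    rw [hn] at hr hs ⊢
    rw [hn']
    obtain ⟨-, h6, h7⟩ := h5 r hr s hs
    show T'.S (byt P r) (byt P s) = if T.S r s = T.n then T'.n else byt P (T.S r s)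
    by_cases h0 : T.S r s = T.n
    · rw [if_pos h0]; exact h6 h0
    · rw [if_neg h0]
      apply h7
      cases hb : Nat.beq (T.S r s) T.n with
      | true => exact absurd ((beq_iff _ _).1 hb) h0
      | false => rfl
  · intro r hr s hs
    rw [hn] at hr hs
    obtain ⟨h6, -⟩ := h5 r hr s hs
    show T'.N (byt P r) (byt P s) = T.N r s
    rw [Raw.N, Raw.N, h6]
  · rw [h.mtch'.1, h'.mtch'.1]; exact hl
  · intro i hi
    rw [h.mtch'.1] at hi
    rw [h.simple_eq i hi, h'.simple_eq i (by omega)]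
    exact h4 i hi

/-- embedding of `E₆` -/
noncomputable def iE6 : ℕ := 0xccc2bcb9b8b2afaeabaaa9a6a5a4a3a29c9998959493908f8e8d8a8988878483827f7e7b7471706d6c6b686766656261605f5c5b5a5756534d4c4b4a4946454441403d3736332d23
/-- embedding of `E₇` -/
noncomputable def iE7 : ℕ := 0xe2dbd6d2cfcdccc8c5c3c2bfbdbcbab9b8b5b3b2b0afaeacabaaa9a7a6a5a4a3a29f9d9c9a99989695949391908f8e8d8b8a89888785848382807f7e7c7b7976747371706f6d6c6b6a68676665646261605f5e5c5b5a595756555352504d4c4b4a49484645444341403f3d3c3a3736353332302d2c2a272322201d19140d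

theorem embE6 : Emb ChevE6.cert ChevE8.cert (byt iE6) := emb_sound ChevE6.checks ChevE8.checks (by decide +kernel) (by decide +kernel)
theorem embE7 : Emb ChevE7.cert ChevE8.cert (byt iE7) := emb_sound ChevE7.checks ChevE8.checks (by decide +kernel) (by decide +kernel)

/-- certified data -/
noncomputable def qE6 (F : Type*) [Field F] : ChevO chevE6 F := ⟨⟨ChevE6.cert, ChevE6.cert2, fun r s hr hs h1 h2 t u =>
  comm_of_chkTyp ChevE6.checks ChevE6.typ r s hr hs h1 h2 t u⟩, mkOrd _ _ ChevE6.checks⟩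
/-- certified data -/
noncomputable def qE7 (F : Type*) [Field F] : ChevO chevE7 F := ⟨⟨ChevE7.cert, ChevE7.cert2, fun r s hr hs h1 h2 t u =>
  comm_of_chkTyp ChevE7.checks ChevE7.typ r s hr hs h1 h2 t u⟩, mkOrd _ _ ChevE7.checks⟩
/-- certified data -/
noncomputable def qE8 (F : Type*) [Field F] : ChevO chevE8 F := ⟨⟨ChevE8.cert, ChevE8.cert2, fun r s hr hs h1 h2 t u =>
  comm_of_chkTyp ChevE8.checks ChevE8.typ r s hr hs h1 h2 t u⟩, mkOrd _ _ ChevE8.checks⟩

section

variable {K : Type*} [Field K]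

/-- the torus of a Steinberg family in type `E₆` -/
theorem torE6_injective {M : Type*} [Group M] {X : ℕ → K → M} {θ : M →* GL chevE6.Idx K} (hX : StF (qE6 K) X θ) (hG : GenD chevE6)
    (hC : RelC chevE6 X) (f : M →* ↥(chevE8.group K)) (hf : ∀ r < chevE6.nroots, ∀ t, f (X r t) = xg (qE8 K) (byt iE6 r) t) :
    Function.Injective (hX.tor hG hC) :=
  tor_injective (Q := qE6 K) (Q' := qE8 K) hX hG hC (gen_of chevE8 (by simp)) embE6 f hf ordE8.smith (by decide +kernel)

/-- the torus of a Steinberg family in type `E₇` -/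
theorem torE7_injective {M : Type*} [Group M] {X : ℕ → K → M} {θ : M →* GL chevE7.Idx K} (hX : StF (qE7 K) X θ) (hG : GenD chevE7)
    (hC : RelC chevE7 X) (f : M →* ↥(chevE8.group K)) (hf : ∀ r < chevE7.nroots, ∀ t, f (X r t) = xg (qE8 K) (byt iE7 r) t) :
    Function.Injective (hX.tor hG hC) :=
  tor_injective (Q := qE7 K) (Q' := qE8 K) hX hG hC (gen_of chevE8 (by simp)) embE7 f hf ordE8.smith (by decide +kernel)

theorem relAB_E6 : RelAB chevE6 (fun r (t : K) => xg (qE8 K) (byt iE6 r) t) :=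
  Emb.relAB (Q := qE6 K) (Q' := qE8 K) embE6 ChevE6.slift ChevE8.slift
theorem relAB_E7 : RelAB chevE7 (fun r (t : K) => xg (qE8 K) (byt iE7 r) t) :=
  Emb.relAB (Q := qE7 K) (Q' := qE8 K) embE7 ChevE7.slift ChevE8.slift
theorem relC_E6 : RelC chevE6 (fun r (t : K) => xg (qE8 K) (byt iE6 r) t) :=
  Emb.relC (Q := qE6 K) (Q' := qE8 K) embE6
theorem relC_E7 : RelC chevE7 (fun r (t : K) => xg (qE8 K) (byt iE7 r) t) :=
  Emb.relC (Q := qE7 K) (Q' := qE8 K) embE7

end

lemma prod6 (q : ℕ) : ∏ i : Fin chevE6.rank, Nat.gcd (q - 1) ([1, 1, 1, 1, 1, 3].getD i 0) = Nat.gcd 3 (q - 1) := by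
  have : ∀ f : Fin 6 → ℕ, ∏ i : Fin 6, f i = f 0 * f 1 * f 2 * f 3 * f 4 * f 5 := fun f => by
    rw [Fin.prod_univ_six]
  show ∏ i : Fin 6, Nat.gcd (q - 1) ([1, 1, 1, 1, 1, 3].getD i 0) = _
  rw [this]
  simp [Nat.gcd_comm]

lemma prod7 (q : ℕ) : ∏ i : Fin chevE7.rank, Nat.gcd (q - 1) ([1, 1, 1, 1, 1, 1, 2].getD i 0) = Nat.gcd 2 (q - 1) := by
  have : ∀ f : Fin 7 → ℕ, ∏ i : Fin 7, f i = f 0 * f 1 * f 2 * f 3 * f 4 * f 5 * f 6 := fun f => by
    rw [Fin.prod_univ_seven]
  show ∏ i : Fin 7, Nat.gcd (q - 1) ([1, 1, 1, 1, 1, 1, 2].getD i 0) = _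
  rw [this]
  simp [Nat.gcd_comm]

lemma aux6 : ∀ i : Fin 6, i ≠ (⟨5, by decide⟩ : Fin 6) → ([1, 1, 1, 1, 1, 3] : List ℕ).getD i 0 = 1 := by decide
lemma aux7 : ∀ i : Fin 7, i ≠ (⟨6, by decide⟩ : Fin 7) → ([1, 1, 1, 1, 1, 1, 2] : List ℕ).getD i 0 = 1 := by decide

theorem schur_E6 {F : Type u} [Field F] [Fintype F] {q : ℕ} (hF : Fintype.card F = q) :
    Cfsg.HasCyclicSchurMultiplier ↥(chevE6.group F) (Nat.gcd 3 (q - 1)) := by
  have hG := gen_of chevE6 (by simp)
  refine schur_cyclic (Q := qE6 F) (liftP_of_slift ChevE6.slift) hG (cover_perfect chevE6 (by simp) F (fun h => by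
    exfalso
    simp only [List.mem_cons, List.not_mem_nil, or_false] at h
    rcases h with h | h <;> exact absurd (congrArg ChevalleyDatum.rank h) (by decide)) (qE6 F)) ?_
    (tor_ker_cyclic (qE6 F) ordE6.smith (⟨5, by decide⟩ : Fin 6) aux6) ?_
  · exact torE6_injective _ hG _ (coverLift (qE6 F) relAB_E6) (fun r hr t => coverLift_gen (qE6 F) relAB_E6 hr t)
  · rw [tor_ker_card (qE6 F) ordE6.smith, hF]
    exact prod6 q

theorem schur_E7 {F : Type u} [Field F] [Fintype F] {q : ℕ} (hF : Fintype.card F = q) :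
    Cfsg.HasCyclicSchurMultiplier ↥(chevE7.group F) (Nat.gcd 2 (q - 1)) := by
  have hG := gen_of chevE7 (by simp)
  refine schur_cyclic (Q := qE7 F) (liftP_of_slift ChevE7.slift) hG (cover_perfect chevE7 (by simp) F (fun h => by
    exfalso
    simp only [List.mem_cons, List.not_mem_nil, or_false] at h
    rcases h with h | h <;> exact absurd (congrArg ChevalleyDatum.rank h) (by decide)) (qE7 F)) ?_
    (tor_ker_cyclic (qE7 F) ordE7.smith (⟨6, by decide⟩ : Fin 7) aux7) ?_
  · exact torE7_injective _ hG _ (coverLift (qE7 F) relAB_E7) (fun r hr t => coverLift_gen (qE7 F) relAB_E7 hr t)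
  · rw [tor_ker_card (qE7 F) ordE7.smith, hF]
    exact prod7 q

/-- the unimodular types -/
theorem schur_unimod {D : ChevalleyDatum} {F : Type u} [Field F] [Fintype F] (Q : ChevO D F) (hL : LiftP.{u, u} Q) (hG : GenD D)
    (hP : commutator (D.SteinbergCover F) = ⊤) {d : List ℕ} (hs : Smith D d) (hd : ∀ i : Fin D.rank, d.getD i 0 = 1) (i₀ : Fin D.rank) :
    Cfsg.HasCyclicSchurMultiplier ↥(D.group F) 1 := by
  refine schur_cyclic hL hG hP (tor_injective_of_unimod _ hG _ hs hd) (tor_ker_cyclic Q hs i₀ (fun i _ => hd i)) ?_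
  rw [tor_ker_card Q hs]
  apply Finset.prod_eq_one
  intro i _
  rw [hd, Nat.gcd_one_right]

theorem schur_E8 {F : Type u} [Field F] [Fintype F] : Cfsg.HasCyclicSchurMultiplier ↥(chevE8.group F) 1 :=
  schur_unimod (qE8 F) (liftP_of_slift ChevE8.slift) (gen_of chevE8 (by simp)) (cover_perfect chevE8 (by simp) F (fun h => by
    exfalso
    simp only [List.mem_cons, List.not_mem_nil, or_false] at h
    rcases h with h | h <;> exact absurd (congrArg ChevalleyDatum.rank h) (by decide)) (qE8 F)) ordE8.smith (by decide +kernel) ⟨0, by decide⟩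

theorem schur_F4 {F : Type u} [Field F] [Fintype F] (hF : 3 ≤ Fintype.card F) : Cfsg.HasCyclicSchurMultiplier ↥(chevF4.group F) 1 := by
  obtain ⟨Q, hQ⟩ := exists_lift_F4.{u, u} F (by rw [Nat.card_eq_fintype_card]; exact hF)
  exact schur_unimod Q hQ (gen_of chevF4 (by simp)) (cover_perfect chevF4 (by simp) F (fun h => by
    exfalso
    simp only [List.mem_cons, List.not_mem_nil, or_false] at h
    rcases h with h | h <;> exact absurd (congrArg ChevalleyDatum.rank h) (by decide)) Q) ordF4.smith (by decide +kernel) ⟨0, by decide⟩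

theorem schur_G2 {F : Type u} [Field F] [Fintype F] (hF : 5 ≤ Fintype.card F) : Cfsg.HasCyclicSchurMultiplier ↥(chevG2.group F) 1 := by
  have h5 : ∃ s : Finset F, 4 < s.card := ⟨Finset.univ, by rw [Finset.card_univ]; omega⟩
  obtain ⟨Q, hQ⟩ := exists_lift.{u, u} chevG2 (by simp) F (Or.inr h5)
  exact schur_unimod Q hQ (gen_of chevG2 (by simp)) (cover_perfect chevG2 (by simp) F (fun _ => exists_ne_of_card h5) Q) ordG2.smith
    (by decide +kernel) ⟨0, by decide⟩

end Cfsg.Agent.Lib.ChevAlg
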