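import Cfsg.Agent.Lib.ChevUcL

/-!
# The order of the centre of the universal groups of types E6 and E7
-/

set_option autoImplicit false
set_option maxRecDepth 100000

namespace Cfsg.Agent.Lib.ChevAlg

open Cfsg.Lie Cfsg.Agent.Lib.ChevTab Matrix

theorem card_center {K : Type*} [Field K] [Fintype K] {q : ℕ} (hq : Fintype.card K = q)
    (p : ChevalleyDatum × ℕ) (hp : p ∈ [(chevE6, 3), (chevE7, 2)]) :
    Nat.card (Subgroup.center (p.1.SteinbergGroup K)) = Nat.gcd p.2 (q - 1) := by
  simp only [List.mem_cons, List.not_mem_nil, or_false] at hp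
  rcases hp with rfl | rfl
  · show Nat.card (Subgroup.center (chevE6.SteinbergGroup K)) = Nat.gcd 3 (q - 1)
    have hG := gen_of chevE6 (by simp)
    rw [← groupHom_ker (qE6 K) hG]
    obtain ⟨e⟩ := ker_equiv (groupHom (qE6 K)) (groupStF (qE6 K)) hG (groupRelC (qE6 K)) (groupGen (qE6 K))
      (torE6_injective _ hG _ (groupLift (qE6 K) relAB_E6 relC_E6) (fun r hr t => groupLift_gen (qE6 K) relAB_E6 relC_E6 hr t))
    rw [← Nat.card_congr e.toEquiv, tor_ker_card (qE6 K) ordE6.smith, hq]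
    exact prod6 q
  · show Nat.card (Subgroup.center (chevE7.SteinbergGroup K)) = Nat.gcd 2 (q - 1)
    have hG := gen_of chevE7 (by simp)
    rw [← groupHom_ker (qE7 K) hG]
    obtain ⟨e⟩ := ker_equiv (groupHom (qE7 K)) (groupStF (qE7 K)) hG (groupRelC (qE7 K)) (groupGen (qE7 K))
      (torE7_injective _ hG _ (groupLift (qE7 K) relAB_E7 relC_E7) (fun r hr t => groupLift_gen (qE7 K) relAB_E7 relC_E7 hr t))
    rw [← Nat.card_congr e.toEquiv, tor_ker_card (qE7 K) ordE7.smith, hq]
    exact prod7 q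

end Cfsg.Agent.Lib.ChevAlg
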