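import Cfsg.Agent.Lib.ChevUcJ

/-!
# Lifting along central extensions of order prime to the characteristic
-/

set_option autoImplicit false
set_option maxRecDepth 100000

namespace Cfsg.Agent.Lib.ChevAlg

open Cfsg.Lie Cfsg.Agent.Lib.ChevTab Matrix

universe u v w

section grp

variable {E M : Type*} [Group E] [Group M] {π : E →* M} (H : CExt π)

include H in
/-- the unique lift of a `p`-subgroup -/
theorem exists_p_lift {p : ℕ} (hp : p.Prime) (hk : Finite ↥π.ker) (hkp : (Nat.card ↥π.ker).Coprime p) {U : Subgroup M} [Finite ↥U]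
    (hU : IsPGroup p ↥U) : ∃ L : Subgroup E, (∀ m ∈ U, ∃ x ∈ L, π x = m) ∧ (∀ x ∈ L, π x = 1 → x = 1) ∧
      (∀ x ∈ L, π x ∈ U) ∧ ∀ x : E, π x ∈ U → x ^ p = 1 → x ∈ L := by
  have := Fact.mk hp
  set G : Subgroup E := U.comap π with hG
  set N : Subgroup ↥G := π.ker.subgroupOf G with hN
  have hkG : π.ker ≤ G := by
    intro x hx
    rw [hG, Subgroup.mem_comap, MonoidHom.mem_ker.1 hx]
    exact U.one_mem
  have hNn : N.Normal := inferInstance
  have hcN : Nat.card ↥N = Nat.card ↥π.ker := Nat.card_congr (Subgroup.subgroupOfEquivOfLe hkG).toEquiv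
  obtain ⟨k, hk2⟩ := hU.exists_card_eq
  let f : ↥G →* ↥U := (π.comp G.subtype).codRestrict U (fun x => x.2)
  have hf : Function.Surjective f := by
    rintro ⟨m, hm⟩
    obtain ⟨x, rfl⟩ := H.surj m
    exact ⟨⟨x, hm⟩, rfl⟩
  have hfk : f.ker = N := by
    ext x
    rw [MonoidHom.mem_ker, hN, Subgroup.mem_subgroupOf, MonoidHom.mem_ker]
    exact ⟨fun h => congrArg Subtype.val h, fun h => Subtype.ext h⟩
  have hidx : N.index = p ^ k := by
    rw [← hfk, Subgroup.index_ker, MonoidHom.range_eq_top.2 hf, Subgroup.card_top, hk2]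
  have hcop : (Nat.card ↥N).Coprime N.index := by
    rw [hcN, hidx]
    exact Nat.Coprime.pow_right k hkp
  have hfinG : Finite ↥G := by
    have h1 : Finite ↥N := Nat.finite_of_card_ne_zero (by rw [hcN]; exact Nat.card_pos.ne')
    have h2 : Finite (↥G ⧸ N) := by
      apply Nat.finite_of_card_ne_zero
      show N.index ≠ 0
      rw [hidx]
      exact pow_ne_zero _ hp.ne_zero
    exact Finite.of_equiv _ (Subgroup.groupEquivQuotientProdSubgroup (s := N)).symm
  obtain ⟨L, hL⟩ := Subgroup.exists_right_complement'_of_coprime hcop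
  have hdec : ∀ x : ↥G, ∃ c : ↥G, ∃ l ∈ L, π c = 1 ∧ x = c * l := by
    intro x
    obtain ⟨⟨c, l⟩, hcl, -⟩ := (Subgroup.isComplement_iff_existsUnique.1 hL) x
    exact ⟨c, l, l.2, MonoidHom.mem_ker.1 (Subgroup.mem_subgroupOf.1 c.2), hcl.symm⟩
  have hdisj : ∀ x : ↥G, x ∈ L → π x = 1 → x = 1 := by
    intro x hx h1
    have h2 : x ∈ N ⊓ L := ⟨Subgroup.mem_subgroupOf.2 (MonoidHom.mem_ker.2 h1), hx⟩
    rw [hL.disjoint.eq_bot] at h2
    exact h2
  refine ⟨L.map G.subtype, ?_, ?_, ?_, ?_⟩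
  · intro m hm
    obtain ⟨x, rfl⟩ := H.surj m
    obtain ⟨c, l, hl, hc, e⟩ := hdec ⟨x, hm⟩
    refine ⟨l, ⟨l, hl, rfl⟩, ?_⟩
    have e2 : x = (c : E) * l := congrArg Subtype.val e
    rw [e2, map_mul, hc, one_mul]
  · rintro _ ⟨x, hx, rfl⟩ h1
    have := hdisj x hx h1
    rw [this]; rfl
  · rintro _ ⟨x, hx, rfl⟩
    exact x.2
  · intro x hx hxp
    obtain ⟨c, l, hl, hc, e⟩ := hdec ⟨x, hx⟩
    have e2 : x = (c : E) * l := congrArg Subtype.val e
    have hcc : ∀ y, (c : E) * y = y * c := H.comm_ker hc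
    have e3 : (c : E) ^ p * (l : E) ^ p = 1 := by
      have : Commute (c : E) (l : E) := hcc _
      rw [← this.mul_pow, ← e2, hxp]
    have e4 : (l ^ p : ↥G) = 1 := by
      apply hdisj _ (L.pow_mem hl p)
      have := congrArg π e3
      rw [map_mul, map_pow, hc, _root_.one_pow, one_mul, map_one] at this
      exact this
    have e5 : (l : E) ^ p = 1 := congrArg Subtype.val e4
    rw [e5, mul_one] at e3
    have hck : (c : E) ∈ π.ker := MonoidHom.mem_ker.2 hc
    have e6 : (c : E) ^ Nat.card ↥π.ker = 1 := by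
      have := pow_card_eq_one' (G := ↥π.ker) (x := ⟨c, hck⟩)
      exact congrArg Subtype.val this
    have e7 : (c : E) = 1 := by
      have h1 := orderOf_dvd_of_pow_eq_one e3
      have h2 := orderOf_dvd_of_pow_eq_one e6
      have h3 := Nat.dvd_gcd h2 h1
      rw [hkp] at h3
      exact orderOf_eq_one_iff.1 (Nat.dvd_one.1 h3)
    rw [e2, e7, one_mul]
    exact ⟨l, hl, rfl⟩

end grp

section

variable {D : ChevalleyDatum} {F : Type*} [Field F] {Q : ChevO D F} {M : Type*} [Group M] {X : ℕ → F → M} {θ : M →* GL D.Idx F}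
  (hX : StF Q X θ)

include hX in
/-- unipotent subgroups of a Steinberg family over a finite field -/
lemma posW_pgroup [Finite F] {p : ℕ} (hp : p.Prime) [CharP F p] {w : Equiv.Perm (Fin D.nroots)} (hw : w ∈ WG Q.C2) :
    Finite ↥(YS X (PosW w)) ∧ IsPGroup p ↥(YS X (PosW w)) := by
  have := Fact.mk hp
  have : Fintype F := Fintype.ofFinite F
  obtain ⟨n, -, v, hm⟩ := exists_mono Q hw
  have hwa := WG_waut Q hw
  have hmem : ∀ y ∈ YS X (PosW w), n⁻¹ * θ y * n⁻¹⁻¹ ∈ XS Q (Pos D) := by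
    intro y hy
    apply conj_XS_le Q _ (hX.map_YS (fun r hr => posW_lt hr) hy)
    intro r hr t
    have hrl := posW_lt hr
    have h1 := hm.inv.conj ⟨r, hrl⟩ t
    rw [h1]
    have h2 : ((w⁻¹ ⟨r, hrl⟩ : Fin D.nroots) : ℕ) ∈ Pos D := ⟨mem_posW.1 hr, (w⁻¹ ⟨r, hrl⟩).2⟩
    exact xG_mem Q h2 _
  let f : ↥(YS X (PosW w)) →* ↥(XS Q (Pos D)) :=
    { toFun := fun y => ⟨n⁻¹ * θ y * n⁻¹⁻¹, hmem y y.2⟩
      map_one' := by
        apply Subtype.ext
        show n⁻¹ * θ 1 * n⁻¹⁻¹ = 1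
        rw [map_one]; group
      map_mul' := by
        intro a b
        apply Subtype.ext
        show n⁻¹ * θ (a * b) * n⁻¹⁻¹ = (n⁻¹ * θ a * n⁻¹⁻¹) * (n⁻¹ * θ b * n⁻¹⁻¹)
        rw [map_mul]; group }
  have hf : Function.Injective f := by
    rw [injective_iff_map_eq_one]
    rintro ⟨y, hy⟩ h
    have h1 : n⁻¹ * θ y * n⁻¹⁻¹ = 1 := congrArg Subtype.val h
    have h2 : θ y = 1 := by
      rw [mul_inv_eq_one] at h1
      have := congrArg (n * ·) h1
      simpa using this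
    exact Subtype.ext (hX.inj_posW hw hy h2)
  have hcard := card_U (F := F) Q
  have hfin : Finite ↥(XS Q (Pos D)) := Nat.finite_of_card_ne_zero (by rw [hcard]; exact pow_ne_zero _ Fintype.card_ne_zero)
  refine ⟨Finite.of_injective f hf, IsPGroup.of_injective ?_ f hf⟩
  obtain ⟨m, -, hm'⟩ := FiniteField.card F p
  apply IsPGroup.of_card (n := m * (D.nroots / 2))
  rw [hcard, hm', ← pow_mul]

include hX in
/-- **lifting, kernel of order prime to `p`** -/
theorem lift_coprime [Finite F] {p : ℕ} (hp : p.Prime) [CharP F p] {E : Type*} [Group E] {π : E →* M} (H : CExt π)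
    (hk : Finite ↥π.ker) (hkp : (Nat.card ↥π.ker).Coprime p) :
    ∃ Y : ℕ → F → E, RelAB D Y ∧ ∀ r < D.nroots, ∀ t, π (Y r t) = X r t := by
  have hL : ∀ w ∈ WG Q.C2, ∃ L : Subgroup E, (∀ m ∈ YS X (PosW w), ∃ x ∈ L, π x = m) ∧ (∀ x ∈ L, π x = 1 → x = 1) ∧
      (∀ x ∈ L, π x ∈ YS X (PosW w)) ∧ ∀ x : E, π x ∈ YS X (PosW w) → x ^ p = 1 → x ∈ L := by
    intro w hw
    obtain ⟨h1, h2⟩ := posW_pgroup hX hp hw
    exact exists_p_lift H hp hk hkp h2
  have hXp : ∀ r < D.nroots, ∀ t, X r t ^ p = 1 := by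
    intro r hr t
    have h1 : ∀ k : ℕ, X r t ^ k = X r (k * t) := by
      intro k
      induction k with
      | zero => rw [pow_zero, Nat.cast_zero, zero_mul, hX.zero hr]
      | succ k ih =>
        rw [pow_succ, ih, hX.add r hr]
        congr 1
        push_cast; ring
    rw [h1, CharP.cast_eq_zero, zero_mul, hX.zero hr]
  have hex : ∀ r t, ∃ y : E, r < D.nroots → π y = X r t ∧ y ^ p = 1 := by
    intro r t
    by_cases hr : r < D.nroots
    · obtain ⟨w, hw, i, hi, e⟩ := exists_simple Q ⟨r, hr⟩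
      have hrw : r ∈ PosW w := by
        have : ((⟨r, hr⟩ : Fin D.nroots) : ℕ) ∈ PosW w := by
          rw [mem_posW, ← e, perm_inv_apply]
          exact ps_si Q hi
        exact this
      obtain ⟨L, h1, h2, h3, h4⟩ := hL w hw
      obtain ⟨y, hy, e⟩ := h1 _ (YS_mem hrw t)
      refine ⟨y, fun _ => ⟨e, ?_⟩⟩
      apply h2 _ (L.pow_mem hy p)
      rw [map_pow, e, hXp r hr]
    · exact ⟨1, fun h => absurd h hr⟩
  choose Y hY using hex
  refine ⟨Y, ⟨?_, ?_⟩, fun r hr t => (hY r t hr).1⟩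
  · intro r hr t u
    obtain ⟨w, hw, i, hi, e⟩ := exists_simple Q ⟨r, hr⟩
    have hrw : r ∈ PosW w := by
      have : ((⟨r, hr⟩ : Fin D.nroots) : ℕ) ∈ PosW w := by
        rw [mem_posW, ← e, perm_inv_apply]
        exact ps_si Q hi
      exact this
    obtain ⟨L, h1, h2, h3, h4⟩ := hL w hw
    have hm : ∀ t, Y r t ∈ L := fun t => h4 _ (by rw [(hY r t hr).1]; exact YS_mem hrw t) (hY r t hr).2
    have := h2 (Y r t * Y r u * (Y r (t + u))⁻¹) (L.mul_mem (L.mul_mem (hm _) (hm _)) (L.inv_mem (hm _))) (by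
      rw [map_mul, map_mul, map_inv, (hY r t hr).1, (hY r u hr).1, (hY r (t + u) hr).1, hX.add r hr, mul_inv_cancel])
    exact mul_inv_eq_one.1 this
  · intro r hr s hs hne hneg t u
    have hne' : (⟨s, hs⟩ : Fin D.nroots) ≠ Fin.rev ⟨r, hr⟩ := by
      intro h
      apply hneg
      have := congrArg Fin.val h
      rw [fin_rev_val] at this
      exact this
    obtain ⟨w, hw, hrw, hsw⟩ := exists_posW2 Q hne'
    have hwa := WG_waut Q hw
    have hpos : ∀ k ∈ Comb Q.C r s, k ∈ PosW w := fun k hk => (posW_comb (k := ⟨k, hk.1⟩) hwa hrw hsw hk).1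
    obtain ⟨L, h1, h2, h3, h4⟩ := hL w hw
    have hm : ∀ k, k < D.nroots → k ∈ PosW w → ∀ t, Y k t ∈ L := fun k hk hkw t =>
      h4 _ (by rw [(hY k t hk).1]; exact YS_mem hkw t) (hY k t hk).2
    have hwm : wM Y (D.commWord F r s t u) ∈ L := by
      apply Subgroup.list_prod_mem
      intro y hy
      rw [List.mem_map] at hy
      obtain ⟨p', hp', rfl⟩ := hy
      rw [ChevalleyDatum.commWord, List.mem_map] at hp'
      obtain ⟨c, hc, rfl⟩ := hp'
      have hcc := commTerms_mem (C := Q.C) hr hs c hc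
      exact hm c.1 hcc.1 (hpos _ hcc) _
    have hπw : π (wM Y (D.commWord F r s t u)) = wM X (D.commWord F r s t u) := by
      simp only [wM]
      rw [map_list_prod, List.map_map]
      congr 1
      apply List.map_congr_left
      intro p' hp'
      exact (hY p'.1 p'.2 (commWord_lt Q hr hs t u p' hp')).1
    have := h2 (Y s u * Y r t * (Y r t * Y s u * wM Y (D.commWord F r s t u))⁻¹)
      (L.mul_mem (L.mul_mem (hm s hs hsw _) (hm r hr hrw _)) (L.inv_mem (L.mul_mem (L.mul_mem (hm r hr hrw _) (hm s hs hsw _)) hwm))) (by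
      rw [map_mul, map_mul, map_inv, map_mul, map_mul, hπw, (hY r t hr).1, (hY s u hs).1, hX.comm r hr s hs hne hneg, mul_inv_cancel])
    exact mul_inv_eq_one.1 this

end

end Cfsg.Agent.Lib.ChevAlg
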