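import Cfsg.Agent.Lib.ChevUcN

/-!
# Projective representations in the natural characteristic
-/

set_option autoImplicit false
set_option maxRecDepth 100000

namespace Cfsg.Agent.Lib.ChevAlg

open Cfsg.Lie Cfsg.Agent.Lib.ChevTab Matrix

universe u v w

section comm

variable {E M : Type*} [Group E] [Group M] {π : E →* M} (H : CExt π)

include H in
/-- the commutator subgroup of a central extension of a perfect group -/
lemma cext_commutator (hP : commutator M = ⊤) : CExt (π.comp (commutator E).subtype) := by
  constructor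
  · have h1 : commutator M ≤ (π.comp (commutator E).subtype).range := by
      rw [commutator_def, Subgroup.commutator_le]
      intro a _ b _
      obtain ⟨x, rfl⟩ := H.surj a
      obtain ⟨y, rfl⟩ := H.surj b
      have hm : x * y * x⁻¹ * y⁻¹ ∈ commutator E :=
        Subgroup.commutator_mem_commutator (Subgroup.mem_top x) (Subgroup.mem_top y)
      refine ⟨⟨_, hm⟩, ?_⟩
      show π (x * y * x⁻¹ * y⁻¹) = π x * π y * (π x)⁻¹ * (π y)⁻¹
      simp
    rw [hP] at h1
    exact MonoidHom.range_eq_top.1 (top_le_iff.1 h1)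
  · rintro ⟨x, hx⟩ hk
    rw [Subgroup.mem_center_iff]
    rintro ⟨y, hy⟩
    exact Subtype.ext (H.comm_ker hk y).symm

end comm

/-- scalar matrices of determinant one -/
lemma finite_of_scalar {L : Type*} [Field L] {n : ℕ} {C : Type*} [Group C] (f : C →* GL (Fin n) L) (hf : Function.Injective f)
    (hc : ∀ x, f x ∈ Subgroup.center (GL (Fin n) L)) (hd : ∀ x, Matrix.GeneralLinearGroup.det (f x) = 1) {p : ℕ} (hp : p.Prime) [CharP L p] :
    Finite C ∧ (Nat.card C).Coprime p := by
  have hs : ∀ x : C, ∃ a : Lˣ, (Matrix.GeneralLinearGroup.scalar (Fin n)) a = f x := by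
    intro x
    have := hc x
    rw [Matrix.GeneralLinearGroup.center_eq_range_scalar] at this
    exact this
  have := Fact.mk hp
  by_cases hn : n = 0
  · subst hn
    have hsub : Subsingleton (GL (Fin 0) L) := ⟨fun a b => Units.ext (Subsingleton.elim _ _)⟩
    have : Subsingleton C := hf.subsingleton
    refine ⟨inferInstance, ?_⟩
    rw [Nat.card_of_subsingleton (1 : C)]
    exact Nat.coprime_one_left p
  have : NeZero n := ⟨hn⟩
  have : Nonempty (Fin n) := ⟨⟨0, Nat.pos_of_ne_zero hn⟩⟩
  choose a ha using hs
  have hdet : ∀ x, a x ^ n = 1 := by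
    intro x
    have h1 := hd x
    rw [← ha x] at h1
    have h2 := congrArg Units.val h1
    apply Units.ext
    rw [Units.val_pow_eq_pow_val, Units.val_one]
    have h3 : ((Matrix.GeneralLinearGroup.det ((Matrix.GeneralLinearGroup.scalar (Fin n)) (a x)) : Lˣ) : L) =
        Matrix.det (Matrix.scalar (Fin n) (a x : L)) := rfl
    rw [h3] at h2
    simpa using h2
  have hinj : Function.Injective (fun x : C => (⟨a x, (mem_rootsOfUnity _ _).2 (hdet x)⟩ : rootsOfUnity n L)) := by
    intro x y h
    apply hf
    have : a x = a y := congrArg (fun z : rootsOfUnity n L => (z : Lˣ)) h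
    rw [← ha x, ← ha y, this]
  have hfin : Finite C := Finite.of_injective _ hinj
  refine ⟨hfin, ?_⟩
  rw [Nat.coprime_comm, hp.coprime_iff_not_dvd]
  intro hdvd
  obtain ⟨x, hx⟩ := exists_prime_orderOf_dvd_card' p hdvd
  have hxp : x ^ p = 1 := by rw [← hx]; exact pow_orderOf_eq_one x
  have h1 : (Matrix.GeneralLinearGroup.scalar (Fin n)) (a x ^ p) = 1 := by
    rw [map_pow, ha, ← map_pow, hxp, map_one]
  have h2 : a x ^ p = 1 := by
    have h3 := congrArg (fun g : GL (Fin n) L => (g : Matrix (Fin n) (Fin n) L)) h1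
    have h4 : Matrix.scalar (Fin n) ((a x ^ p : Lˣ) : L) = 1 := h3
    have h5 := congrFun (congrFun h4 (Classical.arbitrary (Fin n))) (Classical.arbitrary (Fin n))
    apply Units.ext
    simpa using h5
  have h3 : (a x : L) = 1 := by
    have h4 : ((a x : L) - 1) ^ p = 0 := by
      rw [sub_pow_char, _root_.one_pow, ← Units.val_pow_eq_pow_val, h2, Units.val_one, sub_self]
    exact sub_eq_zero.1 (pow_eq_zero_iff hp.ne_zero |>.1 h4)
  have h4 : x = 1 := by
    apply hf
    have h3' : a x = 1 := Units.ext h3
    rw [map_one, ← ha x, h3', map_one]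
  rw [h4, orderOf_one] at hx
  exact hp.one_lt.ne hx

/-- **projective representations lift** -/
theorem proj_lift {K : Type u} [Field K] (D : ChevalleyDatum) (hD : D ∈ [chevG2, chevB2, chevD4, chevF4, chevE6, chevE7, chevE8])
    (hK : D ∈ [chevB2, chevG2] → ∃ x : K, x ≠ 0 ∧ x ≠ 1) {L : Type v} [Field L] (hL : ringChar L = ringChar K) {n : ℕ}
    (σ : D.SteinbergCover K →* GL (Fin n) L ⧸ Subgroup.center (GL (Fin n) L)) :
    ∃! ψ : D.SteinbergCover K →* GL (Fin n) L, (QuotientGroup.mk' (Subgroup.center (GL (Fin n) L))).comp ψ = σ := by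
  have H : CExt (QuotientGroup.mk' (Subgroup.center (GL (Fin n) L))) :=
    ⟨QuotientGroup.mk'_surjective _, by rw [QuotientGroup.ker_mk']⟩
  have hG := gen_of D hD
  suffices hex : ∃ ψ : D.SteinbergCover K →* GL (Fin n) L, (QuotientGroup.mk' (Subgroup.center (GL (Fin n) L))).comp ψ = σ by
    obtain ⟨ψ, hψ⟩ := hex
    obtain ⟨Q, -⟩ := exists_chevS D hD K
    have hP := cover_perfect D hD K hK Q
    exact ⟨ψ, hψ, fun ψ' hψ' => hom_unique H hP (hψ'.trans hψ.symm)⟩
  by_cases h5 : ∃ s : Finset K, 4 < s.card
  · obtain ⟨Q, hQ⟩ := exists_lift.{u, max v u} D hD K (Or.inr h5)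
    exact exists_cover_lift.{v, v, u} hQ hG (cover_perfect D hD K hK Q) H σ
  · have hfin : Finite K := by
      by_contra hinf
      rw [not_finite_iff_infinite] at hinf
      obtain ⟨s, hs⟩ := Infinite.exists_subset_card_eq K 5
      exact h5 ⟨s, by omega⟩
    obtain ⟨Q, -⟩ := exists_chevS D hD K
    have hP := cover_perfect D hD K hK Q
    obtain ⟨p, hpc⟩ := CharP.exists K
    have hp : p.Prime := (CharP.char_is_prime_or_zero K p).resolve_right (CharP.char_ne_zero_of_finite K p)
    have hcL : CharP L p := by
      have h1 : ringChar K = p := ringChar.eq K p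
      rw [h1] at hL
      exact ringChar.of_eq hL
    set E' := ↥(pull (QuotientGroup.mk' (Subgroup.center (GL (Fin n) L))) σ) with hE'
    have H' := pull_cext H σ
    have H'' := cext_commutator H' hP
    set π'' := ((MonoidHom.snd (GL (Fin n) L) (D.SteinbergCover K)).comp (pull (QuotientGroup.mk' (Subgroup.center (GL (Fin n) L))) σ).subtype).comp
      (commutator E').subtype with hπ''
    -- the kernel
    let fE : E' →* GL (Fin n) L := (MonoidHom.fst (GL (Fin n) L) (D.SteinbergCover K)).comp (pull (QuotientGroup.mk' (Subgroup.center (GL (Fin n) L))) σ).subtype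
    let f : ↥π''.ker →* GL (Fin n) L := (fE.comp (commutator E').subtype).comp π''.ker.subtype
    have hsnd : ∀ x : ↥π''.ker, ((((x : ↥(commutator E')) : E') : GL (Fin n) L × D.SteinbergCover K)).2 = 1 := fun x => x.2
    have hf : Function.Injective f := by
      rw [injective_iff_map_eq_one]
      intro x hx
      have h1 : ((((x : ↥(commutator E')) : E') : GL (Fin n) L × D.SteinbergCover K)).1 = 1 := hx
      exact Subtype.ext (Subtype.ext (Subtype.ext (Prod.ext h1 (hsnd x))))
    have hcen : ∀ x, f x ∈ Subgroup.center (GL (Fin n) L) := by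
      intro x
      have h1 : QuotientGroup.mk' (Subgroup.center (GL (Fin n) L)) ((((x : ↥(commutator E')) : E') : GL (Fin n) L × D.SteinbergCover K)).1 =
          σ ((((x : ↥(commutator E')) : E') : GL (Fin n) L × D.SteinbergCover K)).2 := ((x : ↥(commutator E')) : E').2
      rw [hsnd x, map_one] at h1
      exact (QuotientGroup.eq_one_iff _).1 h1
    have hdet : ∀ x, Matrix.GeneralLinearGroup.det (f x) = 1 := by
      intro x
      have h1 : commutator E' ≤ ((Matrix.GeneralLinearGroup.det (n := Fin n) (R := L)).comp fE).ker := Abelianization.commutator_subset_ker _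
      exact h1 (x : ↥(commutator E')).2
    obtain ⟨hkf, hkc⟩ := finite_of_scalar f hf hcen hdet hp
    obtain ⟨Y, hY, hYX⟩ := lift_coprime (coverStF Q) hp H'' hkf hkc
    refine ⟨(fE.comp (commutator E').subtype).comp (coverLift Q hY), ?_⟩
    have h1 : ∀ x, ((((coverLift Q hY x : ↥(commutator E')) : E') : GL (Fin n) L × D.SteinbergCover K)).2 = x := by
      have h2 : π''.comp (coverLift Q hY) = MonoidHom.id _ := by
        apply MonoidHom.ext
        intro x
        have h3 : YS (D.scGen K) {r | r < D.nroots} ≤ MonoidHom.eqLocus (π''.comp (coverLift Q hY)) (MonoidHom.id _) := by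
          rw [YS_le]
          intro r hr t
          show π'' (coverLift Q hY (D.scGen K r t)) = D.scGen K r t
          rw [coverLift_gen Q hY hr]
          exact hYX r hr t
        exact h3 (coverGen Q x)
      exact fun x => DFunLike.congr_fun h2 x
    apply MonoidHom.ext
    intro x
    have h4 : QuotientGroup.mk' (Subgroup.center (GL (Fin n) L)) ((((coverLift Q hY x : ↥(commutator E')) : E') : GL (Fin n) L × D.SteinbergCover K)).1 =
        σ ((((coverLift Q hY x : ↥(commutator E')) : E') : GL (Fin n) L × D.SteinbergCover K)).2 := ((coverLift Q hY x : ↥(commutator E')) : E').2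
    rw [h1] at h4
    exact h4

end Cfsg.Agent.Lib.ChevAlg
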