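import Mathlib

/-!
Power formulas in groups of class at most three.
-/

set_option autoImplicit false
set_option linter.unusedSectionVars false
set_option linter.unusedVariables false

namespace Cfsg.Agent.Lib.ClThree

open Subgroup
open scoped commutatorElement

universe u v

variable {G : Type u} [Group G]

/-- sum of squares -/
def sq (n : ℕ) : ℕ := ∑ k ∈ Finset.range n, k ^ 2

theorem sq_succ (n : ℕ) : sq (n + 1) = sq n + n ^ 2 := Finset.sum_range_succ _ _

theorem six_sq (n : ℕ) : 6 * sq (n + 1) = n * (n + 1) * (2 * n + 1) := by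
  induction n with
  | zero => simp [sq]
  | succ n ih => rw [sq_succ, mul_add, ih]; ring

theorem dvd_sq {p : ℕ} (hp : p.Prime) (h3 : 3 < p) : p ∣ sq p := by
  obtain ⟨m, rfl⟩ : ∃ m, p = m + 1 := ⟨p - 1, by omega⟩
  have h1 : (m + 1) ∣ 6 * sq (m + 1) := by
    rw [six_sq]
    exact Dvd.intro (m * (2 * m + 1)) (by ring)
  have h2 : (m + 1).Coprime 6 := by
    rw [Nat.Prime.coprime_iff_not_dvd hp]
    intro h
    have h5 : (m + 1) ∣ 2 * 3 := h
    rcases (Nat.Prime.dvd_mul hp).1 h5 with h6 | h6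
    · have := Nat.le_of_dvd (by norm_num) h6; omega
    · have := Nat.le_of_dvd (by norm_num) h6; omega
  exact h2.dvd_of_dvd_mul_left h1

/-- in class three: the data -/
structure Dat (x y c d e : G) : Prop where
  hc : y * x = c * x * y
  hd : x * c = d * c * x
  he : y * c = e * c * y
  dz : ∀ g, Commute d g
  ez : ∀ g, Commute e g

variable {x y c d e : G}

theorem Dat.y_pow_c (h : Dat x y c d e) (n : ℕ) : y ^ n * c = e ^ n * c * y ^ n := by
  induction n with
  | zero => simp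
  | succ n ih =>
    calc y ^ (n + 1) * c = y ^ n * (y * c) := by rw [pow_succ]; group
      _ = y ^ n * (e * c * y) := by rw [h.he]
      _ = (y ^ n * e) * c * y := by group
      _ = (e * y ^ n) * c * y := by rw [(h.ez (y ^ n)).eq]
      _ = e * (y ^ n * c) * y := by group
      _ = e * (e ^ n * c * y ^ n) * y := by rw [ih]
      _ = e ^ (n + 1) * c * y ^ (n + 1) := by rw [pow_succ' e, pow_succ y]; group

theorem Dat.y_pow_x (h : Dat x y c d e) (n : ℕ) : y ^ n * x = c ^ n * e ^ (n.choose 2) * x * y ^ n := by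
  induction n with
  | zero => simp
  | succ n ih =>
    have hce : ∀ k l : ℕ, Commute (e ^ k) (c ^ l) := fun k l => ((h.ez c).pow_left k).pow_right l
    have he' : ∀ k (g : G), Commute (e ^ k) g := fun k g => (h.ez g).pow_left k
    calc y ^ (n + 1) * x = y ^ n * (y * x) := by rw [pow_succ]; group
      _ = (y ^ n * c) * x * y := by rw [h.hc]; group
      _ = e ^ n * c * (y ^ n * x) * y := by rw [h.y_pow_c]; group
      _ = e ^ n * c * (c ^ n * e ^ (n.choose 2) * x * y ^ n) * y := by rw [ih]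
      _ = e ^ n * (c ^ (n + 1) * e ^ (n.choose 2)) * x * y ^ (n + 1) := by rw [pow_succ' c, pow_succ y]; group
      _ = c ^ (n + 1) * e ^ ((n + 1).choose 2) * x * y ^ (n + 1) := by
        rw [← mul_assoc, (hce n (n + 1)).eq, mul_assoc (c ^ (n + 1)), ← pow_add, Nat.choose_succ_succ' n 1, Nat.choose_one_right]

theorem Dat.x_pow_c (h : Dat x y c d e) (n : ℕ) : x ^ n * c = d ^ n * c * x ^ n := by
  induction n with
  | zero => simp
  | succ n ih =>
    calc x ^ (n + 1) * c = x ^ n * (x * c) := by rw [pow_succ]; group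
      _ = x ^ n * (d * c * x) := by rw [h.hd]
      _ = (x ^ n * d) * c * x := by group
      _ = (d * x ^ n) * c * x := by rw [(h.dz (x ^ n)).eq]
      _ = d * (x ^ n * c) * x := by group
      _ = d * (d ^ n * c * x ^ n) * x := by rw [ih]
      _ = d ^ (n + 1) * c * x ^ (n + 1) := by rw [pow_succ' d, pow_succ x]; group

theorem Dat.x_pow_c_pow (h : Dat x y c d e) (n m : ℕ) : x ^ n * c ^ m = d ^ (n * m) * c ^ m * x ^ n := by
  induction m with
  | zero => simp
  | succ m ih =>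
    have hd' : ∀ k (g : G), Commute (d ^ k) g := fun k g => (h.dz g).pow_left k
    calc x ^ n * c ^ (m + 1) = (x ^ n * c ^ m) * c := by rw [pow_succ]; group
      _ = d ^ (n * m) * c ^ m * (x ^ n * c) := by rw [ih]; group
      _ = d ^ (n * m) * (c ^ m * d ^ n) * c * x ^ n := by rw [h.x_pow_c]; group
      _ = d ^ (n * m) * (d ^ n * c ^ m) * c * x ^ n := by rw [(hd' n (c ^ m)).eq]
      _ = d ^ (n * (m + 1)) * c ^ (m + 1) * x ^ n := by rw [mul_add, mul_one, pow_add, pow_succ c]; group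

/-- the power formula -/
theorem Dat.mul_pow (h : Dat x y c d e) (n : ℕ) :
    (x * y) ^ n = c ^ (n.choose 2) * d ^ (sq n) * e ^ (n.choose 3) * x ^ n * y ^ n := by
  induction n with
  | zero => simp [sq]
  | succ n ih =>
    have hd' : ∀ k (g : G), Commute (d ^ k) g := fun k g => (h.dz g).pow_left k
    have he' : ∀ k (g : G), Commute (e ^ k) g := fun k g => (h.ez g).pow_left k
    have e1 : x ^ n * y ^ n * (x * y) = d ^ (n ^ 2) * c ^ n * e ^ (n.choose 2) * x ^ (n + 1) * y ^ (n + 1) := by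
      calc x ^ n * y ^ n * (x * y) = x ^ n * (y ^ n * x) * y := by group
        _ = x ^ n * c ^ n * e ^ (n.choose 2) * x * y ^ n * y := by rw [h.y_pow_x]; group
        _ = d ^ (n * n) * c ^ n * x ^ n * e ^ (n.choose 2) * x * y ^ n * y := by rw [h.x_pow_c_pow]
        _ = d ^ (n * n) * c ^ n * (x ^ n * e ^ (n.choose 2)) * x * y ^ n * y := by group
        _ = d ^ (n * n) * c ^ n * (e ^ (n.choose 2) * x ^ n) * x * y ^ n * y := by rw [(he' _ (x ^ n)).eq]
        _ = _ := by rw [← pow_two, pow_succ x, pow_succ y]; group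
    rw [pow_succ, ih]
    calc c ^ (n.choose 2) * d ^ (sq n) * e ^ (n.choose 3) * x ^ n * y ^ n * (x * y)
        = c ^ (n.choose 2) * d ^ (sq n) * e ^ (n.choose 3) * (x ^ n * y ^ n * (x * y)) := by group
      _ = c ^ (n.choose 2) * d ^ (sq n) * e ^ (n.choose 3) * (d ^ (n ^ 2) * c ^ n * e ^ (n.choose 2) * x ^ (n + 1) * y ^ (n + 1)) := by rw [e1]
      _ = c ^ (n.choose 2) * d ^ (sq n) * (e ^ (n.choose 3) * d ^ (n ^ 2)) * c ^ n * e ^ (n.choose 2) * x ^ (n + 1) * y ^ (n + 1) := by group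
      _ = c ^ (n.choose 2) * d ^ (sq n) * (d ^ (n ^ 2) * e ^ (n.choose 3)) * c ^ n * e ^ (n.choose 2) * x ^ (n + 1) * y ^ (n + 1) := by
        rw [((hd' (n ^ 2) (e ^ (n.choose 3)))).eq]
      _ = c ^ (n.choose 2) * (d ^ (sq n) * d ^ (n ^ 2)) * (e ^ (n.choose 3) * c ^ n) * e ^ (n.choose 2) * x ^ (n + 1) * y ^ (n + 1) := by group
      _ = c ^ (n.choose 2) * (d ^ (sq n) * d ^ (n ^ 2)) * (c ^ n * e ^ (n.choose 3)) * e ^ (n.choose 2) * x ^ (n + 1) * y ^ (n + 1) := by
        rw [(he' (n.choose 3) (c ^ n)).eq]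
      _ = c ^ (n.choose 2) * (d ^ (sq (n + 1)) * c ^ n) * (e ^ (n.choose 3) * e ^ (n.choose 2)) * x ^ (n + 1) * y ^ (n + 1) := by
        rw [sq_succ, pow_add d]; group
      _ = c ^ (n.choose 2) * (c ^ n * d ^ (sq (n + 1))) * (e ^ (n.choose 3) * e ^ (n.choose 2)) * x ^ (n + 1) * y ^ (n + 1) := by
        rw [(hd' _ (c ^ n)).eq]
      _ = (c ^ (n.choose 2) * c ^ n) * d ^ (sq (n + 1)) * (e ^ (n.choose 3) * e ^ (n.choose 2)) * x ^ (n + 1) * y ^ (n + 1) := by group
      _ = c ^ ((n + 1).choose 2) * d ^ (sq (n + 1)) * e ^ ((n + 1).choose 3) * x ^ (n + 1) * y ^ (n + 1) := by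
        have e2 : n.choose 2 + n = (n + 1).choose 2 := by rw [Nat.choose_succ_succ' n 1, Nat.choose_one_right, add_comm]
        have e3 : n.choose 3 + n.choose 2 = (n + 1).choose 3 := by rw [Nat.choose_succ_succ' n 2, add_comm]
        rw [← pow_add, ← pow_add, e2, e3]

/-- class at most three -/
def Cl3 (G : Type*) [Group G] : Prop := ∀ x y z : G, ⁅⁅x, y⁆, z⁆ ∈ center G

theorem cl3_of (h : ⁅⁅_root_.commutator G, (⊤ : Subgroup G)⁆, (⊤ : Subgroup G)⁆ = ⊥) : Cl3 G := by
  intro x y z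
  rw [mem_center_iff]
  intro w
  have h1 : ⁅x, y⁆ ∈ _root_.commutator G := by
    rw [_root_.commutator_def]; exact commutator_mem_commutator (mem_top _) (mem_top _)
  have h2 : ⁅⁅⁅x, y⁆, z⁆, w⁆ ∈ (⊥ : Subgroup G) := by
    rw [← h]; exact commutator_mem_commutator (commutator_mem_commutator h1 (mem_top z)) (mem_top w)
  rw [mem_bot, commutatorElement_eq_one_iff_mul_comm] at h2
  exact h2.symm

theorem Cl3.dat (h : Cl3 G) (x y : G) : Dat x y ⁅y, x⁆ ⁅x, ⁅y, x⁆⁆ ⁅y, ⁅y, x⁆⁆ := by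
  have hz : ∀ z : G, ⁅z, ⁅y, x⁆⁆ ∈ center G := by
    intro z
    have h1 := (center G).inv_mem (h y x z)
    rwa [commutatorElement_inv] at h1
  refine ⟨?_, ?_, ?_, fun g => (mem_center_iff.mp (hz x) g).symm, fun g => (mem_center_iff.mp (hz y) g).symm⟩
  · rw [_root_.commutatorElement_def]; group
  · rw [_root_.commutatorElement_def x ⁅y, x⁆]; group
  · rw [_root_.commutatorElement_def y ⁅y, x⁆]; group

theorem Dat.e_pow (h : Dat x y c d e) {n : ℕ} (hy : ∀ g, Commute (y ^ n) g) : e ^ n = 1 := by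
  have h1 := h.y_pow_c n
  rw [(hy c).eq] at h1
  have h2 : c = e ^ n * c := mul_right_cancel h1
  exact (left_eq_mul.mp (by rw [← ((h.ez c).pow_left n).eq]; exact h2 : c = c * e ^ n))

theorem Dat.d_pow (h : Dat x y c d e) {n : ℕ} (hx : ∀ g, Commute (x ^ n) g) : d ^ n = 1 := by
  have h1 := h.x_pow_c n
  rw [(hx c).eq] at h1
  have h2 : c = d ^ n * c := mul_right_cancel h1
  exact (left_eq_mul.mp (by rw [← ((h.dz c).pow_left n).eq]; exact h2 : c = c * d ^ n))

theorem Dat.c_pow (h : Dat x y c d e) {n : ℕ} (hn : n ∣ n.choose 2) (hy : ∀ g, Commute (y ^ n) g) : c ^ n = 1 := by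
  have h1 := h.y_pow_x n
  obtain ⟨k, hk⟩ := hn
  have h2 : e ^ (n.choose 2) = 1 := by rw [hk, pow_mul, h.e_pow hy, one_pow]
  rw [h2, mul_one, (hy x).eq] at h1
  have h3 : x = c ^ n * x := mul_right_cancel h1
  exact (right_eq_mul.mp h3)

theorem dvd_choose_two {p : ℕ} (hp : p.Prime) (h2 : 2 < p) : p ∣ p.choose 2 := hp.dvd_choose_self (by norm_num) h2

theorem dvd_choose_three {p : ℕ} (hp : p.Prime) (h2 : 3 < p) : p ∣ p.choose 3 := hp.dvd_choose_self (by norm_num) h2

/-- the `p`-power map is multiplicative when `p`-th powers are central -/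
theorem Cl3.mul_pow_of_central (h : Cl3 G) {p : ℕ} (hp : p.Prime) (h3 : 3 < p) {x y : G} (hx : ∀ g, Commute (x ^ p) g)
    (hy : ∀ g, Commute (y ^ p) g) : (x * y) ^ p = x ^ p * y ^ p := by
  have hD := h.dat x y
  rw [hD.mul_pow]
  obtain ⟨a, ha⟩ := dvd_choose_two hp (by omega)
  obtain ⟨b, hb⟩ := dvd_choose_three hp h3
  obtain ⟨s, hs⟩ := dvd_sq hp h3
  rw [ha, hb, hs, pow_mul, pow_mul, pow_mul, hD.c_pow (dvd_choose_two hp (by omega)) hy, hD.d_pow hx, hD.e_pow hy]
  simp

theorem Cl3.omega (h : Cl3 G) {p : ℕ} (hp : p.Prime) (h3 : 3 < p) {g : G} (hg : g ∈ Subgroup.closure {x : G | x ^ p = 1}) :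
    g ^ p = 1 := by
  induction hg using Subgroup.closure_induction with
  | mem x hx => exact hx
  | one => exact one_pow p
  | mul x y _ _ hx hy =>
    rw [h.mul_pow_of_central hp h3 (fun g => by rw [hx]; exact Commute.one_left g) (fun g => by rw [hy]; exact Commute.one_left g), hx, hy, one_mul]
  | inv x _ hx => rw [inv_pow, hx, inv_one]

/-- the `p`-power map is multiplicative when commutators have order dividing `p` -/
theorem Cl3.mul_pow_of_exp (h : Cl3 G) {p : ℕ} (hp : p.Prime) (h3 : 3 < p) (hc : ∀ x y : G, ⁅x, y⁆ ^ p = 1) (x y : G) :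
    (x * y) ^ p = x ^ p * y ^ p := by
  have hD := h.dat x y
  rw [hD.mul_pow]
  obtain ⟨a, ha⟩ := dvd_choose_two hp (by omega)
  obtain ⟨b, hb⟩ := dvd_choose_three hp h3
  obtain ⟨s, hs⟩ := dvd_sq hp h3
  rw [ha, hb, hs, pow_mul, pow_mul, pow_mul, hc, hc, hc]
  simp

end Cfsg.Agent.Lib.ClThree
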