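import Mathlib
import Cfsg.Agent.Lib.Cox1

/-! Symmetric groups generated by transvections in characteristic two. -/

set_option linter.all false
set_option maxHeartbeats 400000

namespace Cfsg.Agent.Lib.Cox

open scoped Nat

/-- transvections in characteristic two -/
structure TV {G : Type*} [Group G] {F : Type*} [Field F] {V : Type*} [AddCommGroup V] [Module F V]
    (act : G →* (V →ₗ[F] V)) (B : V → V → F) {n : ℕ} (v : Fin n → V) (g : Fin n → G) : Prop where
  inj : Function.Injective act
  add : ∀ x y z, B (x + y) z = B x z + B y z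
  smul : ∀ (c : F) x z, B (c • x) z = c * B x z
  self : ∀ x, B x x = 0
  symm : ∀ x y, B x y = B y x
  gact : ∀ i x, act (g i) x = x + B x (v i) • v i
  adj : ∀ i j : Fin n, ((j : ℕ) + 1 = i ∨ (i : ℕ) + 1 = j) → B (v i) (v j) = 1
  nadj : ∀ i j : Fin n, ¬ ((j : ℕ) + 1 = i ∨ (i : ℕ) + 1 = j) → B (v i) (v j) = 0

theorem TV.liftable {G : Type*} [Group G] {F : Type*} [Field F] [CharP F 2] {V : Type*} [AddCommGroup V] [Module F V]
    {act : G →* (V →ₗ[F] V)} {B : V → V → F} {n : ℕ} {v : Fin n → V} {g : Fin n → G} (h : TV act B v g) :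
    CoxeterMatrix.IsLiftable (CoxeterMatrix.A n) g := by
  have h2 : ∀ a : F, a + a = 0 := fun a => CharTwo.add_self_eq_zero a
  have hsq : ∀ i, g i * g i = 1 := by
    intro i
    apply h.inj
    rw [map_mul, map_one]
    apply LinearMap.ext
    intro x
    show act (g i) (act (g i) x) = x
    rw [h.gact, h.gact, h.add, h.smul, h.self, mul_zero, add_zero, add_assoc, ← add_smul, h2, zero_smul, add_zero]
  intro i j
  show (g i * g j) ^ (if i = j then 1 else (if (j : ℕ) + 1 = i ∨ (i : ℕ) + 1 = j then 3 else 2)) = 1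
  split_ifs with h1 h3
  · rw [h1, pow_one, hsq]
  · have e1 : B (v i) (v j) = 1 := h.adj i j h3
    have e2 : B (v j) (v i) = 1 := by rw [h.symm]; exact e1
    apply h.inj
    rw [map_pow, map_mul, map_one, pow_succ, pow_two]
    apply LinearMap.ext
    intro x
    have hi : ∀ s t : F, act (g i) (x + s • v i + t • v j) = x + (s + B x (v i) + t) • v i + t • v j := by
      intro s t
      rw [h.gact, h.add, h.add, h.smul, h.smul, h.self, e2, mul_zero, add_zero, mul_one]
      module
    have hj : ∀ s t : F, act (g j) (x + s • v i + t • v j) = x + s • v i + (t + B x (v j) + s) • v j := by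
      intro s t
      rw [h.gact, h.add, h.add, h.smul, h.smul, h.self, e1, mul_zero, add_zero, mul_one]
      module
    show act (g i) (act (g j) (act (g i) (act (g j) (act (g i) (act (g j) x))))) = x
    have hx : x = x + (0 : F) • v i + (0 : F) • v j := by rw [zero_smul, zero_smul, add_zero, add_zero]
    have step : ∀ s t : F, act (g i) (act (g j) (x + s • v i + t • v j)) = x + (t + B x (v i) + B x (v j)) • v i + (t + B x (v j) + s) • v j := by
      intro s t
      rw [hj, hi]
      congr 3
      have := h2 s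
      linear_combination this
    conv_lhs => rw [hx]
    rw [step, step, step]
    have ea := h2 (B x (v i))
    have eb := h2 (B x (v j))
    have c1 : ((0 : F) + B x (v j) + 0 + B x (v j) + (0 + B x (v i) + B x (v j))) + B x (v i) + B x (v j) = 0 := by
      linear_combination ea + 2 * eb
    have c2 : ((0 : F) + B x (v j) + 0 + B x (v j) + (0 + B x (v i) + B x (v j))) + B x (v j) + ((0 : F) + B x (v j) + 0 + B x (v i) + B x (v j)) = 0 := by
      linear_combination ea + 3 * eb
    rw [c1, c2, zero_smul, zero_smul, add_zero, add_zero]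
  · have e1 : B (v i) (v j) = 0 := h.nadj i j h3
    have e2 : B (v j) (v i) = 0 := by rw [h.symm]; exact e1
    have hc : g i * g j = g j * g i := by
      apply h.inj
      rw [map_mul, map_mul]
      apply LinearMap.ext
      intro x
      show act (g i) (act (g j) x) = act (g j) (act (g i) x)
      rw [h.gact i, h.gact j, h.gact i, h.gact j, h.add, h.add, h.smul, h.smul, e1, e2]
      module
    have hcom : Commute (g i) (g j) := hc
    rw [hcom.mul_pow, pow_two, pow_two, hsq, hsq, mul_one]

/-- the homomorphism from the symmetric group -/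
theorem exists_hom {G : Type*} [Group G] {n : ℕ} {g : Fin n → G} (h : CoxeterMatrix.IsLiftable (CoxeterMatrix.A n) g) :
    ∃ f : Equiv.Perm (Fin (n + 1)) →* G, ∀ i : Fin n, f (Equiv.swap i.castSucc i.succ) = g i := by
  obtain ⟨cs, hcs⟩ := s2530 n
  refine ⟨cs.lift ⟨g, h⟩, fun i => ?_⟩
  rw [← hcs]
  exact cs.lift_apply_simple h i

/-- injectivity -/
theorem inj_of_ne {G : Type*} [Group G] {n : ℕ} (hn : 5 ≤ n) (f : Equiv.Perm (Fin n) →* G) {a b : Equiv.Perm (Fin n)} (ha : Equiv.Perm.sign a = Equiv.Perm.sign b)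
    (hab : f a ≠ f b) : Function.Injective f := by
  classical
  rw [← MonoidHom.ker_eq_bot_iff]
  by_contra hk
  have hle : alternatingGroup (Fin n) ≤ f.ker := by
    haveI : IsSimpleGroup (alternatingGroup (Fin n)) := alternatingGroup.isSimpleGroup (by rw [Nat.card_eq_fintype_card, Fintype.card_fin]; exact hn)
    have hN : (f.ker.subgroupOf (alternatingGroup (Fin n))).Normal := inferInstance
    rcases hN.eq_bot_or_eq_top with h | h
    · exfalso
      apply hk
      -- kernel is central
      rw [eq_bot_iff]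
      intro k hkk
      have hcen : ∀ σ : Equiv.Perm (Fin n), k * σ = σ * k := by
        intro σ
        have h1 : k * σ * k⁻¹ * σ⁻¹ ∈ f.ker := by
          have h2 : k * (σ * k⁻¹ * σ⁻¹) ∈ f.ker := f.ker.mul_mem hkk ((inferInstance : f.ker.Normal).conj_mem _ (f.ker.inv_mem hkk) σ)
          rwa [← mul_assoc, ← mul_assoc] at h2
        have h2 : k * σ * k⁻¹ * σ⁻¹ ∈ alternatingGroup (Fin n) := by
          rw [Equiv.Perm.mem_alternatingGroup, map_mul, map_mul, map_mul, map_inv, map_inv, mul_comm (Equiv.Perm.sign k)]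
          group
        have h3 : (⟨k * σ * k⁻¹ * σ⁻¹, h2⟩ : alternatingGroup (Fin n)) ∈ f.ker.subgroupOf (alternatingGroup (Fin n)) := h1
        rw [h, Subgroup.mem_bot] at h3
        have h4 : k * σ * k⁻¹ * σ⁻¹ = 1 := congrArg Subtype.val h3
        rw [mul_inv_eq_one, mul_inv_eq_iff_eq_mul] at h4
        exact h4
      rw [Subgroup.mem_bot]
      by_contra hk1
      obtain ⟨x, hx⟩ : ∃ x, k x ≠ x := by
        by_contra hcon
        push Not at hcon
        exact hk1 (Equiv.ext hcon)
      obtain ⟨y, hy1, hy2⟩ : ∃ y, y ≠ x ∧ y ≠ k x := by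
        by_contra hcon
        push Not at hcon
        have h5 : (Finset.univ : Finset (Fin n)) ⊆ {x, k x} := by
          intro y _
          by_cases h6 : y = x
          · rw [h6]; simp
          · rw [hcon y h6]; simp
        have h6 := Finset.card_le_card h5
        rw [Finset.card_univ, Fintype.card_fin] at h6
        have h7 := Finset.card_le_two (a := x) (b := k x)
        omega
      have h8 := hcen (Equiv.swap (k x) y)
      have h9 : (k * Equiv.swap (k x) y) x = (Equiv.swap (k x) y * k) x := by rw [h8]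
      rw [Equiv.Perm.mul_apply, Equiv.Perm.mul_apply, Equiv.swap_apply_left, Equiv.swap_apply_of_ne_of_ne hx.symm hy1.symm] at h9
      exact hy2 h9.symm
    · intro x hx
      have : (⟨x, hx⟩ : alternatingGroup (Fin n)) ∈ f.ker.subgroupOf (alternatingGroup (Fin n)) := by rw [h]; trivial
      exact this
  apply hab
  have h1 : a * b⁻¹ ∈ alternatingGroup (Fin n) := by
    rw [Equiv.Perm.mem_alternatingGroup, map_mul, map_inv, ha, mul_inv_cancel]
  have h2 : f (a * b⁻¹) = 1 := hle h1
  rwa [map_mul, map_inv, mul_inv_eq_one] at h2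

theorem TV.exists_inj {G : Type*} [Group G] {F : Type*} [Field F] [CharP F 2] {V : Type*} [AddCommGroup V] [Module F V]
    {act : G →* (V →ₗ[F] V)} {B : V → V → F} {n : ℕ} {v : Fin n → V} {g : Fin n → G} (h : TV act B v g) (hn : 5 ≤ n + 1)
    (hne : g ⟨0, by omega⟩ ≠ g ⟨1, by omega⟩) :
    ∃ f : Equiv.Perm (Fin (n + 1)) →* G, Function.Injective f := by
  obtain ⟨f, hf⟩ := exists_hom h.liftable
  refine ⟨f, inj_of_ne hn f (a := Equiv.swap (⟨0, by omega⟩ : Fin n).castSucc (⟨0, by omega⟩ : Fin n).succ)
    (b := Equiv.swap (⟨1, by omega⟩ : Fin n).castSucc (⟨1, by omega⟩ : Fin n).succ) ?_ ?_⟩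
  · rw [Equiv.Perm.sign_swap (Fin.castSucc_lt_succ).ne, Equiv.Perm.sign_swap (Fin.castSucc_lt_succ).ne]
  · rw [hf, hf]
    exact hne

end Cfsg.Agent.Lib.Cox
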