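import Mathlib
import Cfsg.Agent.Lib.Cox2
import Cfsg.Agent.Lib.Symp
import Cfsg.Agent.S0245

/-! Symmetric groups in symplectic groups over fields of characteristic two. -/

set_option linter.all false
set_option maxHeartbeats 400000

namespace Cfsg.Agent.Lib.Cox

open Matrix Cfsg.Agent.Lib.Symp

variable {F : Type*} [Field F]

/-- the path vectors -/
def pv (m : ℕ) (F : Type*) [Field F] (k : ℕ) : Fin m ⊕ Fin m → F
  | Sum.inl j => if k = 2 * (j : ℕ) ∨ k = 2 * (j : ℕ) + 2 then 1 else 0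
  | Sum.inr j => if k = 2 * (j : ℕ) + 1 then 1 else 0

theorem pv_inl (m k : ℕ) (j : Fin m) : pv m F k (Sum.inl j) = if k = 2 * (j : ℕ) ∨ k = 2 * (j : ℕ) + 2 then 1 else 0 := rfl
theorem pv_inr (m k : ℕ) (j : Fin m) : pv m F k (Sum.inr j) = if k = 2 * (j : ℕ) + 1 then 1 else 0 := rfl

theorem sum1 (m k l : ℕ) (hk : k ≤ 2 * m) : ∑ j : Fin m, pv m F k (Sum.inr j) * pv m F l (Sum.inl j) = if k % 2 = 1 ∧ (l + 1 = k ∨ k + 1 = l) then 1 else 0 := by
  simp only [pv_inl, pv_inr]
  by_cases h : k % 2 = 1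
  · obtain ⟨i, hi⟩ : ∃ i, k = 2 * i + 1 := ⟨k / 2, by omega⟩
    rw [Finset.sum_eq_single (⟨i, by omega⟩ : Fin m)]
    · rw [if_pos hi, one_mul]
      show (if l = 2 * i ∨ l = 2 * i + 2 then (1 : F) else 0) = _
      apply if_congr _ rfl rfl
      constructor
      · rintro (h1 | h1)
        · exact ⟨h, Or.inl (by omega)⟩
        · exact ⟨h, Or.inr (by omega)⟩
      · rintro ⟨_, h1 | h1⟩
        · left; omega
        · right; omega
    · intro j _ hj
      rw [if_neg, zero_mul]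
      intro h1
      apply hj
      apply Fin.ext
      show (j : ℕ) = i
      omega
    · intro h1
      exact absurd (Finset.mem_univ _) h1
  · rw [if_neg (fun h1 => h h1.1)]
    apply Finset.sum_eq_zero
    intro j _
    rw [if_neg, zero_mul]
    omega

theorem symp_pv [CharP F 2] (m k l : ℕ) (hk : k ≤ 2 * m) (hl : l ≤ 2 * m) : Cfsg.sympForm m F (pv m F k) (pv m F l) = if (l + 1 = k ∨ k + 1 = l) then 1 else 0 := by
  rw [sympForm_eq]
  have h1 := sum1 (F := F) m k l hk
  have h2 := sum1 (F := F) m l k hl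
  have h3 : ∑ i : Fin m, (pv m F k (Sum.inr i) * pv m F l (Sum.inl i) - pv m F k (Sum.inl i) * pv m F l (Sum.inr i)) =
      ∑ j : Fin m, pv m F k (Sum.inr j) * pv m F l (Sum.inl j) + ∑ j : Fin m, pv m F l (Sum.inr j) * pv m F k (Sum.inl j) := by
    rw [← Finset.sum_add_distrib]
    apply Finset.sum_congr rfl
    intro j _
    rw [sub_eq_add_neg, CharTwo.neg_eq, mul_comm (pv m F k (Sum.inl j))]
  rw [h3, h1, h2]
  by_cases h4 : l + 1 = k ∨ k + 1 = l
  · rw [if_pos h4]
    by_cases h5 : k % 2 = 1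
    · rw [if_pos ⟨h5, h4⟩, if_neg (by omega), add_zero]
    · rw [if_neg (by omega), if_pos (by omega), zero_add]
  · rw [if_neg h4, if_neg (by omega), if_neg (by omega), add_zero]

/-- the action map for the symplectic group -/
def actSp (m : ℕ) (F : Type*) [Field F] : Matrix.symplecticGroup (Fin m) F →* ((Fin m ⊕ Fin m → F) →ₗ[F] (Fin m ⊕ Fin m → F)) where
  toFun g := (g : Matrix (Fin m ⊕ Fin m) (Fin m ⊕ Fin m) F).mulVecLin
  map_one' := Matrix.mulVecLin_one
  map_mul' := fun a b => Matrix.mulVecLin_mul _ _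

/-- the transvections -/
def gSp (m : ℕ) (F : Type*) [Field F] (v : Fin m ⊕ Fin m → F) : Matrix.symplecticGroup (Fin m) F := ⟨Cfsg.sympTransvection m v 1, sympTransvection_mem v 1⟩

theorem tvSp [CharP F 2] (m : ℕ) : TV (actSp m F) (Cfsg.sympForm m F) (fun i : Fin (2 * m + 1) => pv m F (i : ℕ)) (fun i => gSp m F (pv m F (i : ℕ))) := by
  refine ⟨?_, sympForm_add_left, sympForm_smul_left, sympForm_self, ?_, ?_, ?_, ?_⟩
  · intro g h hgh
    apply Subtype.ext
    apply ext_mulVec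
    intro x
    exact LinearMap.congr_fun hgh x
  · intro x y
    rw [sympForm_swap, CharTwo.neg_eq]
  · intro i x
    show Cfsg.sympTransvection m (pv m F (i : ℕ)) 1 *ᵥ x = _
    rw [sympTransvection_mulVec, one_mul]
  · intro i j h
    rw [symp_pv m i j (by omega) (by omega), if_pos h]
  · intro i j h
    rw [symp_pv m i j (by omega) (by omega), if_neg h]

theorem sp_emb [CharP F 2] (m : ℕ) (hm : 2 ≤ m) : ∃ f : Equiv.Perm (Fin (2 * m + 1 + 1)) →* Matrix.symplecticGroup (Fin m) F, Function.Injective f := by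
  apply (tvSp (F := F) m).exists_inj (by omega)
  intro h
  have h1 : actSp m F (gSp m F (pv m F 0)) (pv m F 0) = actSp m F (gSp m F (pv m F 1)) (pv m F 0) := by
    have h2 : gSp m F (pv m F 0) = gSp m F (pv m F 1) := h
    rw [h2]
  have g0 := (tvSp (F := F) m).gact ⟨0, by omega⟩ (pv m F 0)
  have g1 := (tvSp (F := F) m).gact ⟨1, by omega⟩ (pv m F 0)
  simp only at g0 g1
  rw [g0, g1, symp_pv m 0 0 (by omega) (by omega), symp_pv m 0 1 (by omega) (by omega), if_neg (by omega), if_pos (by omega), zero_smul, one_smul, add_zero] at h1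
  have h3 : pv m F 1 = 0 := by
    have := h1.symm
    rwa [add_eq_left] at this
  have h4 := congrFun h3 (Sum.inr ⟨0, by omega⟩)
  rw [pv_inr] at h4
  change (if 1 = 2 * 0 + 1 then (1 : F) else 0) = 0 at h4
  rw [if_pos rfl] at h4
  exact one_ne_zero h4

theorem s0826 (n : ℕ) (hn : 3 ≤ n) : ∃ f : Equiv.Perm (Fin (2 * n)) →* Matrix.symplecticGroup (Fin (n - 1)) (ZMod 2), Function.Injective f := by
  obtain ⟨m, rfl⟩ : ∃ m, n = m + 1 := ⟨n - 1, by omega⟩
  exact sp_emb (F := ZMod 2) m (by omega)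

theorem s0247 {F : Type*} [Field F] [Fintype F] (hF : Fintype.card F = 2) : Nonempty (Matrix.symplecticGroup (Fin 2) F ≃* Equiv.Perm (Fin 6)) := by
  haveI : CharP F 2 := by
    obtain ⟨p, hp⟩ := CharP.exists F
    obtain ⟨n, hpp, hn⟩ := FiniteField.card F p
    rw [hF] at hn
    have h2 : p = 2 := by
      have h3 : p ∣ 2 := by rw [hn]; exact dvd_pow_self p n.2.ne'
      exact (Nat.prime_dvd_prime_iff_eq hpp Nat.prime_two).mp h3
    rw [← h2]; exact hp
  obtain ⟨f, hf⟩ := sp_emb (F := F) 2 le_rfl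
  have hcard := Cfsg.Agent.S0245.result hF 2
  have hc : Nat.card (Equiv.Perm (Fin 6)) = Nat.card (Matrix.symplecticGroup (Fin 2) F) := by
    rw [hcard, Nat.card_perm, Nat.card_eq_fintype_card (α := Fin 6), Fintype.card_fin]
    decide
  haveI : Finite (Matrix.symplecticGroup (Fin 2) F) := by
    apply Nat.finite_of_card_ne_zero
    rw [← hc]
    exact Nat.card_pos.ne'
  exact ⟨(MulEquiv.ofBijective f ((Nat.bijective_iff_injective_and_card f).mpr ⟨hf, hc⟩)).symm⟩

end Cfsg.Agent.Lib.Cox
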