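import Mathlib
import Cfsg.Agent.Lib.Cox2
import Cfsg.Agent.Lib.Orth9
import Cfsg.Agent.Lib.Orth12
import Cfsg.Agent.S0287
import Cfsg.Agent.S0288

/-! Symmetric groups in orthogonal groups over the field with two elements. -/

set_option linter.all false
set_option maxHeartbeats 400000

namespace Cfsg.Agent.Lib.Cox

open QuadraticMap Cfsg.Agent.Lib.Orth

/-- the action map of the orthogonal group -/
def actO {F : Type*} [Field F] {V : Type*} [AddCommGroup V] [Module F V] (Q : QuadraticForm F V) : ↥(O Q) →* (V →ₗ[F] V) where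
  toFun g := (g.1 : V →ₗ[F] V)
  map_one' := rfl
  map_mul' := fun a b => rfl

theorem orth_tv {F : Type*} [Field F] [CharP F 2] {V : Type*} [AddCommGroup V] [Module F V] (Q : QuadraticForm F V) {n : ℕ} (v : Fin n → V)
    (h1 : ∀ i, Q (v i) = 1) (hadj : ∀ i j : Fin n, ((j : ℕ) + 1 = i ∨ (i : ℕ) + 1 = j) → polar Q (v i) (v j) = 1)
    (hnadj : ∀ i j : Fin n, i ≠ j → ¬ ((j : ℕ) + 1 = i ∨ (i : ℕ) + 1 = j) → polar Q (v i) (v j) = 0) :
    TV (actO Q) (polar Q) v (fun i => (⟨refl Q (v i), refl_mem Q (v i)⟩ : ↥(O Q))) := by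
  have hself : ∀ x, polar Q x x = 0 := by
    intro x
    rw [polar_self', CharTwo.two_eq_zero, zero_mul]
  refine ⟨?_, fun x y z => polar_add_left Q x y z, fun c x z => by rw [polar_smul_left, smul_eq_mul], hself, fun x y => polar_comm Q x y, ?_, hadj, ?_⟩
  · intro g h hgh
    apply Subtype.ext
    apply LinearEquiv.ext
    intro x
    exact LinearMap.congr_fun hgh x
  · intro i x
    show refl Q (v i) x = _
    rw [refl_apply, h1, inv_one, one_mul, sub_eq_add_neg, ← neg_smul, CharTwo.neg_eq]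
  · intro i j h
    by_cases hij : i = j
    · rw [hij]; exact hself _
    · exact hnadj i j hij h

theorem orth_emb {F : Type*} [Field F] [CharP F 2] {V : Type*} [AddCommGroup V] [Module F V] (Q : QuadraticForm F V) {n : ℕ} (hn : 4 ≤ n) (v : Fin n → V)
    (h1 : ∀ i, Q (v i) = 1) (hadj : ∀ i j : Fin n, ((j : ℕ) + 1 = i ∨ (i : ℕ) + 1 = j) → polar Q (v i) (v j) = 1)
    (hnadj : ∀ i j : Fin n, i ≠ j → ¬ ((j : ℕ) + 1 = i ∨ (i : ℕ) + 1 = j) → polar Q (v i) (v j) = 0) :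
    ∃ f : Equiv.Perm (Fin (n + 1)) →* ↥(O Q), Function.Injective f := by
  have htv := orth_tv Q v h1 hadj hnadj
  apply htv.exists_inj (by omega)
  intro h
  have g0 := htv.gact ⟨0, by omega⟩ (v ⟨0, by omega⟩)
  have g1 := htv.gact ⟨1, by omega⟩ (v ⟨0, by omega⟩)
  simp only at g0 g1
  rw [h, g1, htv.self, htv.adj ⟨0, by omega⟩ ⟨1, by omega⟩ (Or.inr rfl), zero_smul, one_smul, add_zero, add_eq_left] at g0
  have h2 := h1 ⟨1, by omega⟩
  rw [g0, QuadraticMap.map_zero] at h2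
  exact zero_ne_one h2

theorem charTwo_of_card {F : Type*} [Field F] [Fintype F] (hF : Fintype.card F = 2) : CharP F 2 := by
  obtain ⟨p, hp⟩ := CharP.exists F
  obtain ⟨n, hpp, hn⟩ := FiniteField.card F p
  rw [hF] at hn
  have h2 : p = 2 := by
    have h3 : p ∣ 2 := by rw [hn]; exact dvd_pow_self p n.2.ne'
    exact (Nat.prime_dvd_prime_iff_eq hpp Nat.prime_two).mp h3
  rw [← h2]; exact hp

/-- vectors for the plus form in dimension 6 -/
def w6 : Fin 7 → (Fin 3 ⊕ Fin 3) → ZMod 2 := ![Sum.elim ![1,1,0] ![0,1,0], Sum.elim ![0,1,0] ![1,1,0], Sum.elim ![1,1,1] ![0,1,0],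
  Sum.elim ![0,0,1] ![0,0,1], Sum.elim ![0,1,1] ![0,1,0], Sum.elim ![1,1,0] ![1,0,0], Sum.elim ![0,1,0] ![0,1,0]]

theorem w6_Q : ∀ i : Fin 7, ∑ j : Fin 3, w6 i (Sum.inl j) * w6 i (Sum.inr j) = 1 := by decide
theorem w6_adj : ∀ i j : Fin 7, ((j : ℕ) + 1 = i ∨ (i : ℕ) + 1 = j) → ∑ k : Fin 3, (w6 i (Sum.inl k) * w6 j (Sum.inr k) + w6 j (Sum.inl k) * w6 i (Sum.inr k)) = 1 := by decide
theorem w6_nadj : ∀ i j : Fin 7, i ≠ j → ¬ ((j : ℕ) + 1 = i ∨ (i : ℕ) + 1 = j) → ∑ k : Fin 3, (w6 i (Sum.inl k) * w6 j (Sum.inr k) + w6 j (Sum.inl k) * w6 i (Sum.inr k)) = 0 := by decide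

theorem o6_emb {F : Type*} [Field F] [CharP F 2] : ∃ f : Equiv.Perm (Fin 8) →* ↥(O (qPlus 3 F)), Function.Injective f := by
  let φ : ZMod 2 →+* F := ZMod.castHom dvd_rfl F
  have hpol : ∀ u v : Fin 3 ⊕ Fin 3 → ZMod 2, polar (qPlus 3 F) (φ ∘ u) (φ ∘ v) = φ (∑ k : Fin 3, (u (Sum.inl k) * v (Sum.inr k) + v (Sum.inl k) * u (Sum.inr k))) := by
    intro u v
    rw [polar_qPlus, map_sum]
    apply Finset.sum_congr rfl
    intro k _
    rw [map_add, map_mul, map_mul]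
    rfl
  have hQ : ∀ u : Fin 3 ⊕ Fin 3 → ZMod 2, qPlus 3 F (φ ∘ u) = φ (∑ k : Fin 3, u (Sum.inl k) * u (Sum.inr k)) := by
    intro u
    rw [qPlus_apply, Cfsg.quadFormPlus, map_sum]
    apply Finset.sum_congr rfl
    intro k _
    rw [map_mul]
    rfl
  refine orth_emb (qPlus 3 F) (n := 7) (by norm_num) (fun i => φ ∘ w6 i) ?_ ?_ ?_
  · intro i
    rw [hQ, w6_Q, map_one]
  · intro i j h
    rw [hpol, w6_adj i j h, map_one]
  · intro i j hij h
    rw [hpol, w6_nadj i j hij h, map_zero]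

theorem s0825 {F : Type*} [Field F] [Fintype F] (hF : Fintype.card F = 2) : Nonempty (↥(Cfsg.isometryGroup F (Cfsg.quadFormPlus 3 F)) ≃* Equiv.Perm (Fin 8)) := by
  haveI := charTwo_of_card hF
  obtain ⟨f, hf⟩ := o6_emb (F := F)
  have hcard := Cfsg.Agent.S0287.result hF 3 (by norm_num)
  rw [← coe_qPlus] at hcard ⊢
  let g : Equiv.Perm (Fin 8) →* ↥(Cfsg.isometryGroup F ⇑(qPlus 3 F)) := (isoO (qPlus 3 F)).symm.toMonoidHom.comp f
  have hg : Function.Injective g := (isoO (qPlus 3 F)).symm.injective.comp hf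
  have hc : Nat.card (Equiv.Perm (Fin 8)) = Nat.card ↥(Cfsg.isometryGroup F ⇑(qPlus 3 F)) := by
    rw [hcard, Nat.card_perm, Nat.card_eq_fintype_card (α := Fin 8), Fintype.card_fin]
    decide
  exact ⟨(MulEquiv.ofBijective g ((Nat.bijective_iff_injective_and_card g).mpr ⟨hg, hc⟩)).symm⟩

/-- vectors for the minus form in dimension 4 -/
def w4 : Fin 4 → ((Fin 1 ⊕ Fin 1) ⊕ Fin 2) → ZMod 2 := ![Sum.elim (Sum.elim ![0] ![0]) ![1,0], Sum.elim (Sum.elim ![0] ![0]) ![0,1],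
  Sum.elim (Sum.elim ![1] ![0]) ![1,0], Sum.elim (Sum.elim ![1] ![1]) ![0,0]]

/-- the form and its polar on `ZMod 2` -/
def qf (u : ((Fin 1 ⊕ Fin 1) ⊕ Fin 2) → ZMod 2) : ZMod 2 :=
  u (Sum.inl (Sum.inl 0)) * u (Sum.inl (Sum.inr 0)) + (u (Sum.inr 0) * u (Sum.inr 0) + u (Sum.inr 0) * u (Sum.inr 1) + u (Sum.inr 1) * u (Sum.inr 1))
def bfm (u v : ((Fin 1 ⊕ Fin 1) ⊕ Fin 2) → ZMod 2) : ZMod 2 :=
  (u (Sum.inl (Sum.inl 0)) * v (Sum.inl (Sum.inr 0)) + v (Sum.inl (Sum.inl 0)) * u (Sum.inl (Sum.inr 0))) + (u (Sum.inr 0) * v (Sum.inr 1) + v (Sum.inr 0) * u (Sum.inr 1))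

theorem w4_Q : ∀ i : Fin 4, qf (w4 i) = 1 := by decide
theorem w4_adj : ∀ i j : Fin 4, ((j : ℕ) + 1 = i ∨ (i : ℕ) + 1 = j) → bfm (w4 i) (w4 j) = 1 := by decide
theorem w4_nadj : ∀ i j : Fin 4, i ≠ j → ¬ ((j : ℕ) + 1 = i ∨ (i : ℕ) + 1 = j) → bfm (w4 i) (w4 j) = 0 := by decide

theorem o4_emb {F : Type*} [Field F] [CharP F 2] : ∃ f : Equiv.Perm (Fin 5) →* ↥(O (qMinus 1 F 1 1)), Function.Injective f := by
  let φ : ZMod 2 →+* F := ZMod.castHom dvd_rfl F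
  have h2 : (2 : F) = 0 := CharTwo.two_eq_zero
  have hpol : ∀ u v : ((Fin 1 ⊕ Fin 1) ⊕ Fin 2) → ZMod 2, polar (qMinus 1 F 1 1) (φ ∘ u) (φ ∘ v) = φ (bfm u v) := by
    intro u v
    rw [polar_qMinus, Fin.sum_univ_one, h2, bfm]
    simp only [map_add, map_mul, Function.comp_apply]
    ring
  have hQ : ∀ u : ((Fin 1 ⊕ Fin 1) ⊕ Fin 2) → ZMod 2, qMinus 1 F 1 1 (φ ∘ u) = φ (qf u) := by
    intro u
    rw [qMinus_apply, Cfsg.quadFormMinus, Fin.sum_univ_one, qf]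
    simp only [map_add, map_mul, Function.comp_apply]
    ring
  refine orth_emb (qMinus 1 F 1 1) (n := 4) (by norm_num) (fun i => φ ∘ w4 i) ?_ ?_ ?_
  · intro i
    rw [hQ, w4_Q, map_one]
  · intro i j h
    rw [hpol, w4_adj i j h, map_one]
  · intro i j hij h
    rw [hpol, w4_nadj i j hij h, map_zero]

theorem s0824 {F : Type*} [Field F] [Fintype F] (hF : Fintype.card F = 2) : Nonempty (↥(Cfsg.isometryGroup F (Cfsg.quadFormMinus 1 F 1 1)) ≃* Equiv.Perm (Fin 5)) := by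
  haveI := charTwo_of_card hF
  obtain ⟨f, hf⟩ := o4_emb (F := F)
  have hF2 : ∀ x : F, x = 0 ∨ x = 1 := by
    intro x
    by_contra hcon
    push Not at hcon
    have h1 : ({0, 1, x} : Set F).ncard ≤ Nat.card F := by
      rw [← Set.ncard_univ]
      exact Set.ncard_le_ncard (Set.subset_univ _)
    rw [Set.ncard_insert_of_notMem (by simp only [Set.mem_insert_iff, Set.mem_singleton_iff, not_or]; exact ⟨zero_ne_one, hcon.1.symm⟩), Set.ncard_pair hcon.2.symm, Nat.card_eq_fintype_card, hF] at h1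
    omega
  have hcard := Cfsg.Agent.S0288.result hF 2 (by norm_num) 1 1 (by
    intro z₁ z₂ h
    rcases hF2 z₁ with rfl | rfl <;> rcases hF2 z₂ with rfl | rfl
    · exact ⟨rfl, rfl⟩
    · exfalso; apply one_ne_zero (α := F); linear_combination h
    · exfalso; apply one_ne_zero (α := F); linear_combination h
    · exfalso; apply one_ne_zero (α := F); linear_combination h - CharTwo.two_eq_zero (R := F))
  have e : Cfsg.quadFormMinus (2 - 1) F 1 1 = ⇑(qMinus 1 F 1 1) := (coe_qMinus (F := F) (m := 1) (a := 1) (b := 1)).symm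
  rw [← coe_qMinus]
  have hcard' : Nat.card ↥(Cfsg.isometryGroup F ⇑(qMinus 1 F 1 1)) = 2 * 2 ^ (2 * (2 - 1)) * (2 ^ 2 + 1) * ∏ i ∈ Finset.range (2 - 1), (2 ^ (2 * (i + 1)) - 1) := by
    rw [← hcard, coe_qMinus]
  let g : Equiv.Perm (Fin 5) →* ↥(Cfsg.isometryGroup F ⇑(qMinus 1 F 1 1)) := (isoO (qMinus 1 F 1 1)).symm.toMonoidHom.comp f
  have hg : Function.Injective g := (isoO (qMinus 1 F 1 1)).symm.injective.comp hf
  have hc : Nat.card (Equiv.Perm (Fin 5)) = Nat.card ↥(Cfsg.isometryGroup F ⇑(qMinus 1 F 1 1)) := by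
    rw [hcard', Nat.card_perm, Nat.card_eq_fintype_card (α := Fin 5), Fintype.card_fin]
    decide
  exact ⟨(MulEquiv.ofBijective g ((Nat.bijective_iff_injective_and_card g).mpr ⟨hg, hc⟩)).symm⟩

theorem s2565 :
    (Cfsg.Omega (ZMod 2) (Cfsg.quadFormPlus 3 (ZMod 2))).index = 2 ∧
    Nonempty (↥(Cfsg.Omega (ZMod 2) (Cfsg.quadFormPlus 3 (ZMod 2))) ≃* alternatingGroup (Fin 8)) := by
  obtain ⟨e⟩ := s0825 (F := ZMod 2) (by rw [ZMod.card])
  have h1 : commutator (Equiv.Perm (Fin 8)) = alternatingGroup (Fin 8) := alternatingGroup.commutator_perm_eq (by rw [Nat.card_eq_fintype_card, Fintype.card_fin]; norm_num)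
  have h2 : (Cfsg.Omega (ZMod 2) (Cfsg.quadFormPlus 3 (ZMod 2))).map e.toMonoidHom = alternatingGroup (Fin 8) := by
    rw [← h1]
    exact map_commutator_equiv e
  refine ⟨?_, ⟨(Subgroup.equivMapOfInjective _ e.toMonoidHom e.injective).trans (MulEquiv.subgroupCongr h2)⟩⟩
  have h3 : (Cfsg.Omega (ZMod 2) (Cfsg.quadFormPlus 3 (ZMod 2))).index = (commutator (Equiv.Perm (Fin 8))).index := index_commutator_equiv e
  rw [h3, h1]
  exact alternatingGroup.index_eq_two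

end Cfsg.Agent.Lib.Cox
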