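import Mathlib
import Cfsg.Agent.Lib.Orth18

/-! Quadratic forms over the field of two elements: types and counts. -/

set_option linter.all false

namespace Cfsg.Agent.Lib.Orth

open Module QuadraticMap

universe u

/-- the span of `e` -/
theorem HF.exists_sing {F : Type*} [Field F] {V : Type*} [AddCommGroup V] [Module F V]
    [FiniteDimensional F V] {Q : QuadraticForm F V} {m : ℕ} {e f : Fin m → V} (h : HF Q e f) :
    ∃ U : Submodule F V, (∀ u ∈ U, Q u = 0) ∧ finrank F U = m := by
  refine ⟨Submodule.span F (Set.range e), ?_, ?_⟩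
  · have hp : ∀ x ∈ Submodule.span F (Set.range e), ∀ j, polar Q x (e j) = 0 := by
      intro x hx j
      induction hx using Submodule.span_induction with
      | mem x hx => obtain ⟨i, rfl⟩ := hx; exact h.hee i j
      | zero => rw [polar, zero_add, QuadraticMap.map_zero]; ring
      | add x y _ _ h1 h2 => rw [polar_add_left, h1, h2, add_zero]
      | smul a x _ h1 => rw [polar_smul_left, h1, smul_zero]
    intro x hx
    induction hx using Submodule.span_induction with
    | mem x hx => obtain ⟨i, rfl⟩ := hx; exact h.he i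
    | zero => exact QuadraticMap.map_zero Q
    | add x y hx hy h1 h2 =>
      rw [map_add', h1, h2]
      have : polar Q x y = 0 := by
        clear h1 h2
        induction hy using Submodule.span_induction with
        | mem y hy => obtain ⟨j, rfl⟩ := hy; exact hp x hx j
        | zero => rw [polar, add_zero, QuadraticMap.map_zero]; ring
        | add y z _ _ h1 h2 => rw [polar_add_right, h1, h2, add_zero]
        | smul a y _ h1 => rw [polar_smul_right, h1, smul_zero]
      rw [this]; ring
    | smul a x _ h1 => rw [map_smul', h1, mul_zero]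
  · have hli : LinearIndependent F e := by
      have := h.li (κ := Fin 0) (w := Fin.elim0) (fun k => k.elim0) linearIndependent_empty_type
      have h2 := this.comp (Sum.inl ∘ Sum.inl : Fin m → (Fin m ⊕ Fin m) ⊕ Fin 0)
        (Sum.inl_injective.comp Sum.inl_injective)
      exact h2
    rw [finrank_span_eq_card hli, Fintype.card_fin]

/-- hyperbolic families with trivial complement give an isometry with the plus form -/
theorem HF.iso_plus {F : Type*} [Field F] {V : Type u} [AddCommGroup V] [Module F V]
    [FiniteDimensional F V] {Q : QuadraticForm F V} {m : ℕ} {e f : Fin m → V} (h : HF Q e f)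
    (hd : finrank F (cpl Q e f) = 0) :
    ∃ g : V ≃ₗ[F] (Fin m ⊕ Fin m → F), ∀ v, qPlus m F (g v) = Q v := by
  let w : Fin 0 → V := Fin.elim0
  let b := h.basis (w := w) (fun k => k.elim0) linearIndependent_empty_type (by simp [hd])
  let w' : Fin 0 → (Fin m ⊕ Fin m → F) := Fin.elim0
  have hd' : finrank F (cpl (qPlus m F) (ePlus : Fin m → _) fPlus) = 0 := by
    rw [cpl_plus, finrank_bot]
  let b' := (hfPlus (m := m) (F := F)).basis (w := w') (fun k => k.elim0)
    linearIndependent_empty_type (by simp [hd'])
  refine ⟨b.equiv b' (Equiv.refl _), fun v => isometry_of_bases b b' ?_ ?_ v⟩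
  · intro i
    simp only [b, b', HF.basis_apply]
    rcases i with (i | i) | i
    · exact (h.he i).trans (hfPlus.he i).symm
    · exact (h.hf i).trans (hfPlus.hf i).symm
    · exact i.elim0
  · intro i j
    simp only [b, b', HF.basis_apply]
    rcases i with (i | i) | i
    · rcases j with (j | j) | j
      · exact (h.hee i j).trans (hfPlus.hee i j).symm
      · exact (h.hef i j).trans (hfPlus.hef i j).symm
      · exact j.elim0
    · rcases j with (j | j) | j
      · exact (h.hfe i j).trans (hfPlus.hfe i j).symm
      · exact (h.hff i j).trans (hfPlus.hff i j).symm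
      · exact j.elim0
    · exact i.elim0

/-- the standard binary vectors of the minus form -/
def zMinus (m : ℕ) (F : Type*) [Field F] (k : Fin 2) : (Fin m ⊕ Fin m) ⊕ Fin 2 → F :=
  Pi.single (Sum.inr k) 1

theorem zMinus_mem {F : Type*} [Field F] (m : ℕ) (a b : F) (k : Fin 2) :
    zMinus m F k ∈ cpl (qMinus m F a b) (eMinus : Fin m → _) fMinus := by
  rw [mem_cpl]
  intro i
  rw [polar_eMinus, polar_fMinus]
  simp [zMinus]

theorem zMinus_li {F : Type*} [Field F] (m : ℕ) :
    LinearIndependent F (zMinus m F) := by
  have h1 := (Pi.basisFun F ((Fin m ⊕ Fin m) ⊕ Fin 2)).linearIndependent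
  have h2 := h1.comp (Sum.inr : Fin 2 → (Fin m ⊕ Fin m) ⊕ Fin 2) Sum.inr_injective
  convert h2 using 1
  funext i
  simp [zMinus]

/-- isometry with a minus form -/
theorem HF.iso_minus {F : Type*} [Field F] {V : Type u} [AddCommGroup V] [Module F V]
    [FiniteDimensional F V] {Q : QuadraticForm F V} {m : ℕ} {e f : Fin m → V} (h : HF Q e f)
    (hd : finrank F (cpl Q e f) = 2) {x y : V} (hx : x ∈ cpl Q e f) (hy : y ∈ cpl Q e f)
    (hli : LinearIndependent F ![x, y]) (hx1 : Q x = 1) :
    ∃ g : V ≃ₗ[F] ((Fin m ⊕ Fin m) ⊕ Fin 2 → F),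
      ∀ v, qMinus m F (polar Q x y) (Q y) (g v) = Q v := by
  set a := polar Q x y with ha
  set c := Q y with hc
  have hw : ∀ k, ![x, y] k ∈ cpl Q e f := by
    intro k
    fin_cases k
    · exact hx
    · exact hy
  let b := h.basis hw hli (by simp [hd])
  let b' := (hfMinus (m := m) (F := F) (a := a) (b := c)).basis (w := zMinus m F)
    (zMinus_mem m a c) (zMinus_li m) (by rw [finrank_cpl_minus]; simp)
  have hz0 : qMinus m F a c (zMinus m F 0) = 1 := by
    rw [qMinus_apply]
    simp [Cfsg.quadFormMinus, zMinus]
  have hz1 : qMinus m F a c (zMinus m F 1) = c := by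
    rw [qMinus_apply]
    simp [Cfsg.quadFormMinus, zMinus]
  have hz01 : polar (qMinus m F a c) (zMinus m F 0) (zMinus m F 1) = a := by
    rw [polar_qMinus]
    simp [zMinus]
  refine ⟨b.equiv b' (Equiv.refl _), fun v => isometry_of_bases b b' ?_ ?_ v⟩
  · intro i
    simp only [b, b', HF.basis_apply]
    rcases i with (i | i) | i
    · exact (h.he i).trans (hfMinus.he i).symm
    · exact (h.hf i).trans (hfMinus.hf i).symm
    · simp only [Sum.elim_inr]
      fin_cases i
      · exact hx1.trans hz0.symm
      · exact hz1.symm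
  · intro i j
    simp only [b, b', HF.basis_apply]
    rcases i with (i | i) | i
    · rcases j with (j | j) | j
      · exact (h.hee i j).trans (hfMinus.hee i j).symm
      · exact (h.hef i j).trans (hfMinus.hef i j).symm
      · simp only [Sum.elim_inl, Sum.elim_inr]
        rw [polar_comm, (mem_cpl.mp (hw j) i).1, polar_comm, (mem_cpl.mp (zMinus_mem m a c j) i).1]
    · rcases j with (j | j) | j
      · exact (h.hfe i j).trans (hfMinus.hfe i j).symm
      · exact (h.hff i j).trans (hfMinus.hff i j).symm
      · simp only [Sum.elim_inl, Sum.elim_inr]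
        rw [polar_comm, (mem_cpl.mp (hw j) i).2, polar_comm, (mem_cpl.mp (zMinus_mem m a c j) i).2]
    · rcases j with (j | j) | j
      · simp only [Sum.elim_inl, Sum.elim_inr]
        rw [(mem_cpl.mp (hw i) j).1, (mem_cpl.mp (zMinus_mem m a c i) j).1]
      · simp only [Sum.elim_inl, Sum.elim_inr]
        rw [(mem_cpl.mp (hw i) j).2, (mem_cpl.mp (zMinus_mem m a c i) j).2]
      · simp only [Sum.elim_inr]
        fin_cases i <;> fin_cases j
        · show polar Q x x = polar (qMinus m F a c) (zMinus m F 0) (zMinus m F 0)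
          rw [polar_self', polar_self', hx1, hz0]
        · exact hz01.symm
        · show polar Q y x = polar (qMinus m F a c) (zMinus m F 1) (zMinus m F 0)
          rw [polar_comm, ← ha, polar_comm, hz01]
        · show polar Q y y = polar (qMinus m F a c) (zMinus m F 1) (zMinus m F 1)
          rw [polar_self', polar_self', ← hc, hz1]

/-- **classification in even dimension** (any finite field): plus or minus. -/
theorem plus_or_minus {F : Type*} [Field F] [Finite F] {V : Type u} [AddCommGroup V] [Module F V]
    [FiniteDimensional F V] {Q : QuadraticForm F V} (hQ : ND Q) {m : ℕ}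
    (hn : finrank F V = 2 * m) :
    (∃ g : V ≃ₗ[F] (Fin m ⊕ Fin m → F), ∀ v, qPlus m F (g v) = Q v) ∨
    (1 ≤ m ∧ ∃ μ : F, (∀ t : F, t ^ 2 + t + μ ≠ 0) ∧
      ∃ g : V ≃ₗ[F] ((Fin (m - 1) ⊕ Fin (m - 1)) ⊕ Fin 2 → F),
        ∀ v, qMinus (m - 1) F 1 μ (g v) = Q v) := by
  obtain ⟨m', e, f, h, ha, h2, hd⟩ := exists_decomp hQ
  have hcase : finrank F (cpl Q e f) = 0 ∨ finrank F (cpl Q e f) = 2 := by omega
  rcases hcase with h0 | h0
  · have : m' = m := by omega
    subst this
    exact Or.inl (h.iso_plus h0)
  · have : m' = m - 1 := by omega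
    subst this
    refine Or.inr ⟨by omega, ?_⟩
    have hnd := nd_cpl V Q h hQ
    obtain ⟨x, y, hli, hx, hxy, ht⟩ := exists_anis_basis hnd (fun x hx => by
      have := ha x.1 x.2 hx
      exact Subtype.ext this) h0
    have hli' : LinearIndependent F ![(x : V), (y : V)] := by
      have h5 : ![(x : V), (y : V)] = (cpl Q e f).subtype ∘ ![x, y] := by
        funext i
        fin_cases i <;> rfl
      rw [h5]
      exact hli.map' (cpl Q e f).subtype (Submodule.ker_subtype _)
    obtain ⟨g, hg⟩ := h.iso_minus h0 x.2 y.2 hli' hx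
    refine ⟨Q y, ht, g, fun v => ?_⟩
    have h3 : polar Q (x : V) (y : V) = 1 := hxy
    rw [h3] at hg
    exact hg v

end Cfsg.Agent.Lib.Orth
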