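import Mathlib
import Cfsg.Agent.Lib.Orth24

/-! Quadratic forms over `ZMod 2` polarizing to the standard alternating form. -/

set_option linter.all false

namespace Cfsg.Agent.Lib.Orth

open Module QuadraticMap

instance orth25_fact_two : Fact (Nat.Prime 2) := ⟨Nat.prime_two⟩

/-- number of zeros -/
noncomputable def nz {V : Type*} (q : V → ZMod 2) : ℕ := Nat.card {v : V // q v = 0}

theorem nz_comp {V V' : Type*} (q : V → ZMod 2) (q' : V' → ZMod 2) (g : V ≃ V')
    (h : ∀ v, q' (g v) = q v) : nz q = nz q' :=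
  Nat.card_congr (g.subtypeEquiv (fun v => by rw [h]))

variable {m : ℕ}

theorem nz_plus (m : ℕ) (hm : 1 ≤ m) : nz (qPlus m (ZMod 2)) = 2 ^ (2 * m - 1) + 2 ^ (m - 1) := by
  have h := HF.card_zero (d := 0) _ (qPlus m (ZMod 2)) (hfPlus (m := m) (F := ZMod 2))
    (by rw [cpl_plus, finrank_bot]) (by
      rw [cpl_plus]
      intro x hx _
      exact (Submodule.mem_bot _).mp hx)
  rw [Nat.card_zmod] at h
  have h' : nz (qPlus m (ZMod 2)) * 2 = (2 ^ m - 1) * (2 ^ (m + 0) + 2) + 2 := h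
  obtain ⟨k, rfl⟩ : ∃ k, m = k + 1 := ⟨m - 1, by omega⟩
  have e1 : 2 * (k + 1) - 1 = 2 * k + 1 := by omega
  rw [e1, Nat.add_sub_cancel]
  have e2 : (2 ^ (k + 1) - 1) * (2 ^ (k + 1 + 0) + 2) + 2 = 2 * (2 ^ (2 * k + 1) + 2 ^ k) := by
    have hp : 1 ≤ 2 ^ (k + 1) := Nat.one_le_two_pow
    obtain ⟨a, ha⟩ : ∃ a, 2 ^ (k + 1) = a + 1 := ⟨2 ^ (k + 1) - 1, by omega⟩
    have hk : 2 * 2 ^ k = a + 1 := by rw [← ha, pow_succ]; ring
    rw [add_zero, ha, Nat.add_sub_cancel]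
    have : 2 ^ (2 * k + 1) * 2 = (a + 1) * (a + 1) := by
      rw [← ha]; ring
    nlinarith
  rw [e2] at h'
  omega

theorem minus_anis : ∀ z₁ z₂ : ZMod 2, z₁ ^ 2 + 1 * z₁ * z₂ + 1 * z₂ ^ 2 = 0 → z₁ = 0 ∧ z₂ = 0 := by
  decide

theorem nz_minus (k : ℕ) : nz (qMinus k (ZMod 2) 1 1) = 2 ^ (2 * k + 1) - 2 ^ k := by
  have h := HF.card_zero (d := 2) _ (qMinus k (ZMod 2) 1 1) (hfMinus (m := k) (F := ZMod 2))
    finrank_cpl_minus (anis_minus minus_anis)
  rw [Nat.card_zmod] at h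
  have h' : nz (qMinus k (ZMod 2) 1 1) * 2 = (2 ^ k - 1) * (2 ^ (k + 2) + 2) + 2 := h
  have hp : 1 ≤ 2 ^ k := Nat.one_le_two_pow
  obtain ⟨a, ha⟩ : ∃ a, 2 ^ k = a + 1 := ⟨2 ^ k - 1, by omega⟩
  have e1 : 2 ^ (k + 2) = 4 * (a + 1) := by rw [pow_add, ha]; ring
  have e2 : 2 ^ (2 * k + 1) = 2 * ((a + 1) * (a + 1)) := by
    rw [← ha]; ring
  rw [ha, e1, Nat.add_sub_cancel] at h'
  rw [e2, ha]
  have e3 : nz (qMinus k (ZMod 2) 1 1) * 2 = 2 * (2 * ((a + 1) * (a + 1)) - (a + 1)) := by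
    rw [h', Nat.mul_sub]
    have : a * (4 * (a + 1) + 2) + 2 + 2 * (a + 1) = 2 * (2 * ((a + 1) * (a + 1))) := by ring
    omega
  omega

/-- a function polarizing to the polar form of `qPlus` is a quadratic form -/
def ofFun (q : (Fin m ⊕ Fin m → ZMod 2) → ZMod 2)
    (hq : ∀ u v, q (u + v) = q u + q v + polar (qPlus m (ZMod 2)) u v) :
    QuadraticForm (ZMod 2) (Fin m ⊕ Fin m → ZMod 2) where
  toFun := q
  toFun_smul := by
    intro a x
    have h0 : q 0 = 0 := by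
      have := hq 0 0
      rw [add_zero] at this
      have h1 : polar (qPlus m (ZMod 2)) 0 0 = 0 := by
        rw [polar, add_zero, QuadraticMap.map_zero]; ring
      rw [h1, add_zero] at this
      have h2 : q 0 + 0 = q 0 + q 0 := by rw [add_zero]; exact this
      exact (add_left_cancel h2).symm
    have ha : a = 0 ∨ a = 1 := by revert a; decide
    rcases ha with rfl | rfl
    · rw [zero_smul, h0, mul_zero, zero_smul]
    · rw [one_smul, mul_one, one_smul]
  exists_companion' := ⟨QuadraticMap.polarBilin (qPlus m (ZMod 2)), hq⟩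

theorem polar_ofFun (q : (Fin m ⊕ Fin m → ZMod 2) → ZMod 2)
    (hq : ∀ u v, q (u + v) = q u + q v + polar (qPlus m (ZMod 2)) u v) (u v) :
    polar (ofFun q hq) u v = polar (qPlus m (ZMod 2)) u v := by
  show q (u + v) - q u - q v = _
  rw [hq]; ring

theorem nd_ofFun (q : (Fin m ⊕ Fin m → ZMod 2) → ZMod 2)
    (hq : ∀ u v, q (u + v) = q u + q v + polar (qPlus m (ZMod 2)) u v) : ND (ofFun q hq) := by
  refine nd_of_forall (fun x hx => nd_plus.eq_zero (fun y => ?_))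
  rw [← polar_ofFun q hq]
  exact hx y

/-- type `+` -/
def IsPlus (m : ℕ) (q : (Fin m ⊕ Fin m → ZMod 2) → ZMod 2) : Prop :=
  ∃ g : (Fin m ⊕ Fin m → ZMod 2) ≃ₗ[ZMod 2] (Fin m ⊕ Fin m → ZMod 2),
    ∀ v, q v = Cfsg.quadFormPlus m (ZMod 2) (g v)

/-- type `-` -/
def IsMinus (m : ℕ) (q : (Fin m ⊕ Fin m → ZMod 2) → ZMod 2) : Prop :=
  ∃ g : (Fin m ⊕ Fin m → ZMod 2) ≃ₗ[ZMod 2] ((Fin (m - 1) ⊕ Fin (m - 1)) ⊕ Fin 2 → ZMod 2),
    ∀ v, q v = Cfsg.quadFormMinus (m - 1) (ZMod 2) 1 1 (g v)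

theorem plus_or_minus_two (q : (Fin m ⊕ Fin m → ZMod 2) → ZMod 2)
    (hq : ∀ u v, q (u + v) = q u + q v + polar (qPlus m (ZMod 2)) u v) :
    IsPlus m q ∨ IsMinus m q := by
  rcases plus_or_minus (nd_ofFun q hq) (m := m) (by
    rw [finrank_pi', Fintype.card_sum, Fintype.card_fin]; ring) with ⟨g, hg⟩ | ⟨hm, μ, hμ, g, hg⟩
  · exact Or.inl ⟨g, fun v => by rw [← qPlus_apply, hg]; rfl⟩
  · have : μ = 1 := by
      have := hμ 0
      have h2 : μ = 0 ∨ μ = 1 := (by decide : ∀ a : ZMod 2, a = 0 ∨ a = 1) μ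
      rcases h2 with rfl | rfl
      · simp at this
      · rfl
    subst this
    exact Or.inr ⟨g, fun v => by rw [← qMinus_apply, hg]; rfl⟩

theorem IsPlus.nz {q : (Fin m ⊕ Fin m → ZMod 2) → ZMod 2} (h : IsPlus m q) (hm : 1 ≤ m) :
    nz q = 2 ^ (2 * m - 1) + 2 ^ (m - 1) := by
  obtain ⟨g, hg⟩ := h
  rw [← nz_plus m hm]
  exact nz_comp _ _ g.toEquiv (fun v => by
    show qPlus m (ZMod 2) (g v) = q v
    rw [hg, qPlus_apply])

theorem IsMinus.nz {q : (Fin m ⊕ Fin m → ZMod 2) → ZMod 2} (h : IsMinus m q) (hm : 1 ≤ m) :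
    nz q = 2 ^ (2 * m - 1) - 2 ^ (m - 1) := by
  obtain ⟨g, hg⟩ := h
  have e : 2 * m - 1 = 2 * (m - 1) + 1 := by omega
  rw [e, ← nz_minus (m - 1)]
  exact nz_comp _ _ g.toEquiv (fun v => by
    show qMinus (m - 1) (ZMod 2) 1 1 (g v) = q v
    rw [hg, qMinus_apply])

theorem two_pow_lt {m : ℕ} (hm : 1 ≤ m) : 2 ^ (m - 1) ≤ 2 ^ (2 * m - 1) ∧ 0 < 2 ^ (m - 1) :=
  ⟨Nat.pow_le_pow_right (by norm_num) (by omega), by positivity⟩

theorem not_both {q : (Fin m ⊕ Fin m → ZMod 2) → ZMod 2} (hm : 1 ≤ m) (h : IsPlus m q)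
    (h' : IsMinus m q) : False := by
  have h1 := h.nz hm
  have h2 := h'.nz hm
  have := two_pow_lt hm
  omega

theorem polar_zmod2 (q : (Fin m ⊕ Fin m → ZMod 2) → ZMod 2)
    (hq : ∀ u v, q (u + v) = q u + q v + polar (qPlus m (ZMod 2)) u v) (v w) :
    q v + polar (qPlus m (ZMod 2)) v w = q (v + w) + q w := by
  rw [hq]
  have : ∀ a b c : ZMod 2, a + b = a + c + b + c := by decide
  exact this _ _ _

theorem card_space (m : ℕ) : Nat.card (Fin m ⊕ Fin m → ZMod 2) = 2 ^ (2 * m) := by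
  rw [Nat.card_fun, Nat.card_zmod]
  congr 1
  rw [Nat.card_eq_fintype_card, Fintype.card_sum, Fintype.card_fin]
  ring

theorem nz_translate_one (q : (Fin m ⊕ Fin m → ZMod 2) → ZMod 2)
    (hq : ∀ u v, q (u + v) = q u + q v + polar (qPlus m (ZMod 2)) u v) {w} (hw : q w = 1) :
    nz (fun v => q v + polar (qPlus m (ZMod 2)) v w) + nz q = 2 ^ (2 * m) := by
  classical
  have h1 : nz (fun v => q v + polar (qPlus m (ZMod 2)) v w)
      = Nat.card {v : Fin m ⊕ Fin m → ZMod 2 // ¬ q v = 0} := by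
    refine Nat.card_congr ((Equiv.addRight w).subtypeEquiv (fun v => ?_))
    show q v + polar (qPlus m (ZMod 2)) v w = 0 ↔ ¬ q (v + w) = 0
    rw [polar_zmod2 q hq, hw]
    have : ∀ a : ZMod 2, a + 1 = 0 ↔ ¬ a = 0 := by decide
    exact this _
  rw [h1, ← card_space m, add_comm]
  have := Nat.card_congr (Equiv.sumCompl (fun v : Fin m ⊕ Fin m → ZMod 2 => q v = 0))
  rw [Nat.card_sum] at this
  exact this

theorem nz_translate_zero (q : (Fin m ⊕ Fin m → ZMod 2) → ZMod 2)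
    (hq : ∀ u v, q (u + v) = q u + q v + polar (qPlus m (ZMod 2)) u v) {w} (hw : q w = 0) :
    nz (fun v => q v + polar (qPlus m (ZMod 2)) v w) = nz q := by
  refine Nat.card_congr ((Equiv.addRight w).subtypeEquiv (fun v => ?_))
  show q v + polar (qPlus m (ZMod 2)) v w = 0 ↔ q (v + w) = 0
  rw [polar_zmod2 q hq, hw, add_zero]

theorem translate_polar (q : (Fin m ⊕ Fin m → ZMod 2) → ZMod 2)
    (hq : ∀ u v, q (u + v) = q u + q v + polar (qPlus m (ZMod 2)) u v) (w) (u v) :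
    (fun v => q v + polar (qPlus m (ZMod 2)) v w) (u + v) =
      (fun v => q v + polar (qPlus m (ZMod 2)) v w) u +
      (fun v => q v + polar (qPlus m (ZMod 2)) v w) v + polar (qPlus m (ZMod 2)) u v := by
  show q (u + v) + polar (qPlus m (ZMod 2)) (u + v) w = _
  rw [hq, polar_add_left]
  ring

theorem translate_iff (hm : 1 ≤ m) (q : (Fin m ⊕ Fin m → ZMod 2) → ZMod 2)
    (hq : ∀ u v, q (u + v) = q u + q v + polar (qPlus m (ZMod 2)) u v) (w) :
    (∃ g : (Fin m ⊕ Fin m → ZMod 2) ≃ₗ[ZMod 2] (Fin m ⊕ Fin m → ZMod 2),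
      ∀ v, q v + polar (qPlus m (ZMod 2)) v w = q (g v)) ↔ q w = 0 := by
  have hlt := two_pow_lt hm
  have hq' := translate_polar q hq w
  have e2 : 2 ^ (2 * m) = 2 * 2 ^ (2 * m - 1) := by
    rw [← pow_succ']; congr 1; omega
  constructor
  · rintro ⟨g, hg⟩
    by_contra hw
    have hw1 : q w = 1 := by
      have : ∀ a : ZMod 2, ¬ a = 0 → a = 1 := by decide
      exact this _ hw
    have h1 := nz_translate_one q hq hw1
    have h2 : nz (fun v => q v + polar (qPlus m (ZMod 2)) v w) = nz q :=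
      nz_comp _ _ g.toEquiv (fun v => (hg v).symm)
    rw [h2] at h1
    rcases plus_or_minus_two q hq with h | h
    · have := h.nz hm
      omega
    · have := h.nz hm
      omega
  · intro hw
    have h1 := nz_translate_zero q hq hw
    rcases plus_or_minus_two q hq with h | h <;>
      rcases plus_or_minus_two (fun v => q v + polar (qPlus m (ZMod 2)) v w) hq' with h' | h'
    · obtain ⟨g, hg⟩ := h
      obtain ⟨g', hg'⟩ := h'
      refine ⟨g'.trans g.symm, fun v => ?_⟩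
      refine (hg' v).trans ?_
      rw [hg]
      simp
    · have e := h.nz hm
      have e' := h'.nz hm
      omega
    · have e := h.nz hm
      have e' := h'.nz hm
      omega
    · obtain ⟨g, hg⟩ := h
      obtain ⟨g', hg'⟩ := h'
      refine ⟨g'.trans g.symm, fun v => ?_⟩
      refine (hg' v).trans ?_
      rw [hg]
      simp

/-- all forms polarizing to `f` -/
noncomputable def formEquiv (m : ℕ) : (Fin m ⊕ Fin m → ZMod 2) ≃
    {q : (Fin m ⊕ Fin m → ZMod 2) → ZMod 2 //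
      ∀ u v, q (u + v) = q u + q v + polar (qPlus m (ZMod 2)) u v} :=
  Equiv.ofBijective (fun w => ⟨fun v => qPlus m (ZMod 2) v + polar (qPlus m (ZMod 2)) v w,
    translate_polar _ (fun u v => by rw [map_add']) w⟩) (by
    constructor
    · intro w w' h
      have h1 : ∀ v, polar (qPlus m (ZMod 2)) v w = polar (qPlus m (ZMod 2)) v w' := by
        intro v
        have := congrFun (Subtype.ext_iff.mp h) v
        exact add_left_cancel this
      have : w - w' = 0 := nd_plus.eq_zero (fun y => by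
        rw [polar_sub_left, polar_comm, h1 y, polar_comm, sub_self])
      exact sub_eq_zero.mp this
    · rintro ⟨q, hq⟩
      let ℓ : (Fin m ⊕ Fin m → ZMod 2) →+ ZMod 2 :=
        { toFun := fun v => q v - qPlus m (ZMod 2) v
          map_zero' := by
            have h0 : q 0 = 0 := QuadraticMap.map_zero (ofFun q hq)
            rw [h0, QuadraticMap.map_zero, sub_zero]
          map_add' := fun u v => by
            rw [hq, map_add']; ring }
      let ℓ' : (Fin m ⊕ Fin m → ZMod 2) →ₗ[ZMod 2] ZMod 2 := ℓ.toZModLinearMap 2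
      have hnd : (QuadraticMap.polarBilin (qPlus m (ZMod 2))).Nondegenerate := nd_plus
      obtain ⟨w, hw⟩ := (LinearMap.BilinForm.toDual (QuadraticMap.polarBilin (qPlus m (ZMod 2))) hnd).surjective ℓ'
      refine ⟨w, Subtype.ext (funext fun v => ?_)⟩
      have h1 : polar (qPlus m (ZMod 2)) w v = q v - qPlus m (ZMod 2) v := by
        have := congrArg (fun T : (Fin m ⊕ Fin m → ZMod 2) →ₗ[ZMod 2] ZMod 2 => T v) hw
        exact this
      show qPlus m (ZMod 2) v + polar (qPlus m (ZMod 2)) v w = q v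
      rw [polar_comm, h1]
      ring)

theorem formEquiv_apply (w v : Fin m ⊕ Fin m → ZMod 2) :
    (formEquiv m w).1 v = qPlus m (ZMod 2) v + polar (qPlus m (ZMod 2)) v w := rfl

end Cfsg.Agent.Lib.Orth
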