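import Mathlib
import Cfsg.Agent.Lib.Cox3
import Cfsg.Agent.Lib.Cox4
import Cfsg.Agent.Lib.Orth25

/-! Symmetric groups of degree `4k+4` in orthogonal groups over the field with two elements. -/

set_option linter.all false
set_option maxHeartbeats 400000

namespace Cfsg.Agent.Lib.Cox

open QuadraticMap Cfsg.Agent.Lib.Orth

/-- the local form -/
def loc (j : ℕ) (x y : ZMod 2) : ZMod 2 := (if j % 2 = 0 then x else 0) + x * y + y

/-- the form -/
def qp (m : ℕ) (u : Fin m ⊕ Fin m → ZMod 2) : ZMod 2 := ∑ j : Fin m, loc (j : ℕ) (u (Sum.inl j)) (u (Sum.inr j))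

theorem qp_add (m : ℕ) (u v : Fin m ⊕ Fin m → ZMod 2) : qp m (u + v) = qp m u + qp m v + polar (qPlus m (ZMod 2)) u v := by
  rw [polar_qPlus, qp, qp, qp, ← Finset.sum_add_distrib, ← Finset.sum_add_distrib]
  apply Finset.sum_congr rfl
  intro j _
  simp only [loc, Pi.add_apply]
  split_ifs <;> ring

def χ (a : ZMod 2) : ℤ := if a = 0 then 1 else -1

theorem χ_add : ∀ a b : ZMod 2, χ (a + b) = χ a * χ b := by decide

theorem χ_sum {ι : Type*} (s : Finset ι) (f : ι → ZMod 2) : χ (∑ i ∈ s, f i) = ∏ i ∈ s, χ (f i) := by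
  classical
  induction s using Finset.induction_on with
  | empty => rw [Finset.sum_empty, Finset.prod_empty]; decide
  | insert a s ha ih => rw [Finset.sum_insert ha, Finset.prod_insert ha, χ_add, ih]

theorem loc_sum (j : ℕ) : ∑ p : ZMod 2 × ZMod 2, χ (loc j p.1 p.2) = if j % 2 = 0 then -2 else 2 := by
  unfold loc
  by_cases h : j % 2 = 0
  · simp only [if_pos h]
    decide
  · simp only [if_neg h]
    decide

theorem sum_signs (m : ℕ) : ∑ u : Fin m ⊕ Fin m → ZMod 2, χ (qp m u) = ∏ j : Fin m, (if (j : ℕ) % 2 = 0 then (-2 : ℤ) else 2) := by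
  have h1 : ∏ j : Fin m, (if (j : ℕ) % 2 = 0 then (-2 : ℤ) else 2) = ∏ j : Fin m, ∑ p : ZMod 2 × ZMod 2, χ (loc (j : ℕ) p.1 p.2) :=
    Finset.prod_congr rfl (fun j _ => (loc_sum (j : ℕ)).symm)
  rw [h1, Finset.prod_univ_sum, Fintype.piFinset_univ]
  let e : (Fin m ⊕ Fin m → ZMod 2) ≃ (Fin m → ZMod 2 × ZMod 2) :=
    { toFun := fun u j => (u (Sum.inl j), u (Sum.inr j))
      invFun := fun f => Sum.elim (fun j => (f j).1) (fun j => (f j).2)
      left_inv := fun u => by funext x; rcases x with x | x <;> rfl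
      right_inv := fun f => rfl }
  refine Fintype.sum_equiv e _ _ (fun u => ?_)
  rw [qp, χ_sum]
  rfl

theorem prod_signs (k : ℕ) : ∏ j : Fin (2 * k + 1), (if (j : ℕ) % 2 = 0 then (-2 : ℤ) else 2) = (-1) ^ (k + 1) * 2 ^ (2 * k + 1) := by
  rw [Fin.prod_univ_eq_prod_range (fun j => if j % 2 = 0 then (-2 : ℤ) else 2) (2 * k + 1)]
  induction k with
  | zero => simp
  | succ k ih =>
    rw [show 2 * (k + 1) + 1 = 2 * k + 1 + 1 + 1 by ring, Finset.prod_range_succ, Finset.prod_range_succ, ih, if_neg (by omega), if_pos (by omega)]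
    ring

theorem count_signs {V : Type*} [Fintype V] [DecidableEq V] (q : V → ZMod 2) : ∑ u : V, χ (q u) = 2 * (nz q : ℤ) - Fintype.card V := by
  classical
  have h1 : ∀ u, χ (q u) = 2 * (if q u = 0 then 1 else 0) - 1 := by
    intro u
    unfold χ
    split_ifs <;> norm_num
  rw [Finset.sum_congr rfl (fun u _ => h1 u), Finset.sum_sub_distrib, ← Finset.mul_sum, Finset.sum_boole, Finset.sum_const, Finset.card_univ, nz,
    Nat.card_eq_fintype_card, Fintype.card_subtype]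
  simp

theorem nz_qp (k : ℕ) : 2 * (nz (qp (2 * k + 1)) : ℤ) = 2 ^ (2 * (2 * k + 1)) + (-1) ^ (k + 1) * 2 ^ (2 * k + 1) := by
  have h1 := count_signs (qp (2 * k + 1))
  rw [sum_signs, prod_signs] at h1
  have h2 : Fintype.card (Fin (2 * k + 1) ⊕ Fin (2 * k + 1) → ZMod 2) = 2 ^ (2 * (2 * k + 1)) := by
    rw [← Nat.card_eq_fintype_card, card_space]
  rw [h2] at h1
  push_cast at h1
  linarith

theorem type_qp (k : ℕ) : (Odd k → IsPlus (2 * k + 1) (qp (2 * k + 1))) ∧ (Even k → IsMinus (2 * k + 1) (qp (2 * k + 1))) := by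
  have h1 := nz_qp k
  have hpow : 2 * 2 ^ (2 * (2 * k + 1) - 1) = 2 ^ (2 * (2 * k + 1)) := by
    rw [← pow_succ']; congr 1
  have hpow2 : 2 * 2 ^ (2 * k + 1 - 1) = 2 ^ (2 * k + 1) := by
    rw [← pow_succ']; congr 1
  have hlt := two_pow_lt (m := 2 * k + 1) (by omega)
  have hpos : 0 < 2 ^ (2 * k + 1) := by positivity
  constructor
  · intro hk
    rcases plus_or_minus_two (qp (2 * k + 1)) (qp_add _) with h | h
    · exact h
    · exfalso
      have h2 := h.nz (by omega)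
      have h3 : Even (k + 1) := hk.add_one
      rw [h3.neg_one_pow, one_mul] at h1
      have h4 : 2 * nz (qp (2 * k + 1)) = 2 ^ (2 * (2 * k + 1)) + 2 ^ (2 * k + 1) := by exact_mod_cast h1
      omega
  · intro hk
    rcases plus_or_minus_two (qp (2 * k + 1)) (qp_add _) with h | h
    · exfalso
      have h2 := h.nz (by omega)
      have h3 : Odd (k + 1) := hk.add_one
      rw [h3.neg_one_pow] at h1
      have h4 : (2 * nz (qp (2 * k + 1)) : ℤ) + 2 ^ (2 * k + 1) = 2 ^ (2 * (2 * k + 1)) := by linarith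
      have h5 : 2 * nz (qp (2 * k + 1)) + 2 ^ (2 * k + 1) = 2 ^ (2 * (2 * k + 1)) := by exact_mod_cast h4
      omega
    · exact h

theorem polar_pv (m k l : ℕ) (hk : k ≤ 2 * m) (hl : l ≤ 2 * m) : polar (qPlus m (ZMod 2)) (pv m (ZMod 2) k) (pv m (ZMod 2) l) = if (l + 1 = k ∨ k + 1 = l) then 1 else 0 := by
  rw [← symp_pv m k l hk hl, polar_qPlus, Symp.sympForm_eq]
  apply Finset.sum_congr rfl
  intro j _
  rw [sub_eq_add_neg, CharTwo.neg_eq]
  ring

theorem qp_pv (k : ℕ) (l : ℕ) (hl : l ≤ 2 * (2 * k + 1)) : qp (2 * k + 1) (pv (2 * k + 1) (ZMod 2) l) = 1 := by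
  -- induct using additivity on explicit sums
  have key : ∀ (j : Fin (2 * k + 1)), loc (j : ℕ) (pv (2 * k + 1) (ZMod 2) l (Sum.inl j)) (pv (2 * k + 1) (ZMod 2) l (Sum.inr j)) =
      if l % 2 = 1 then (if l = 2 * (j : ℕ) + 1 then 1 else 0) else (if (l = 2 * (j : ℕ) ∨ l = 2 * (j : ℕ) + 2) ∧ (j : ℕ) % 2 = 0 then 1 else 0) := by
    intro j
    rw [pv_inl, pv_inr, loc]
    by_cases h1 : l % 2 = 1
    · rw [if_pos h1, if_neg (by omega : ¬ (l = 2 * (j : ℕ) ∨ l = 2 * (j : ℕ) + 2))]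
      simp
    · rw [if_neg h1, if_neg (by omega : ¬ l = 2 * (j : ℕ) + 1), mul_zero, add_zero, add_zero]
      by_cases h2 : (j : ℕ) % 2 = 0
      · rw [if_pos h2]
        simp only [h2, and_true]
      · rw [if_neg h2, if_neg (fun h => h2 h.2)]
  rw [qp, Finset.sum_congr rfl (fun j _ => key j)]
  by_cases h1 : l % 2 = 1
  · simp only [if_pos h1]
    rw [Finset.sum_eq_single (⟨l / 2, by omega⟩ : Fin (2 * k + 1))]
    · rw [if_pos]
      show l = 2 * (l / 2) + 1
      omega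
    · intro j _ hj
      rw [if_neg]
      intro h
      apply hj
      apply Fin.ext
      show (j : ℕ) = l / 2
      omega
    · intro h
      exact absurd (Finset.mem_univ _) h
  · simp only [if_neg h1]
    -- the even index: i = l / 2 or l / 2 - 1
    obtain ⟨i, hi, hi2⟩ : ∃ i, (l = 2 * i ∨ l = 2 * i + 2) ∧ i % 2 = 0 := by
      by_cases h2 : (l / 2) % 2 = 0
      · exact ⟨l / 2, Or.inl (by omega), h2⟩
      · exact ⟨l / 2 - 1, Or.inr (by omega), by omega⟩
    have hik : i < 2 * k + 1 := by omega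
    rw [Finset.sum_eq_single (⟨i, hik⟩ : Fin (2 * k + 1))]
    · rw [if_pos]
      exact ⟨hi, hi2⟩
    · intro j _ hj
      rw [if_neg]
      intro h
      apply hj
      apply Fin.ext
      show (j : ℕ) = i
      omega
    · intro h
      exact absurd (Finset.mem_univ _) h

theorem emb_qp (k : ℕ) (hk : 1 ≤ k) : ∃ f : Equiv.Perm (Fin (4 * k + 4)) →* ↥(O (ofFun (qp (2 * k + 1)) (qp_add _))), Function.Injective f := by
  have h := orth_emb (ofFun (qp (2 * k + 1)) (qp_add _)) (n := 2 * (2 * k + 1) + 1) (by omega) (fun i => pv (2 * k + 1) (ZMod 2) (i : ℕ)) ?_ ?_ ?_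
  · have e : 2 * (2 * k + 1) + 1 + 1 = 4 * k + 4 := by ring
    rw [e] at h
    exact h
  · intro i
    exact qp_pv k i (by omega)
  · intro i j h
    rw [polar_ofFun, polar_pv _ _ _ (by omega) (by omega), if_pos h]
  · intro i j _ h
    rw [polar_ofFun, polar_pv _ _ _ (by omega) (by omega), if_neg h]

theorem s2563 (k : ℕ) (hk : 1 ≤ k) :
    (Odd k → ∃ φ : Equiv.Perm (Fin (4 * k + 4)) →* ↥(Cfsg.isometryGroup (ZMod 2) (Cfsg.quadFormPlus (2 * k + 1) (ZMod 2))), Function.Injective φ) ∧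
    (Even k → ∃ φ : Equiv.Perm (Fin (4 * k + 4)) →* ↥(Cfsg.isometryGroup (ZMod 2) (Cfsg.quadFormMinus (2 * k) (ZMod 2) 1 1)), Function.Injective φ) := by
  obtain ⟨f, hf⟩ := emb_qp k hk
  obtain ⟨hp, hm⟩ := type_qp k
  constructor
  · intro h
    obtain ⟨g, hg⟩ := hp h
    let c := congrO (Q := ofFun (qp (2 * k + 1)) (qp_add _)) (Q' := qPlus (2 * k + 1) (ZMod 2)) g (fun x => by
      rw [qPlus_apply, ← hg]; rfl)
    rw [← coe_qPlus]
    exact ⟨((isoO (qPlus (2 * k + 1) (ZMod 2))).symm.toMonoidHom.comp c.toMonoidHom).comp f,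
      ((isoO (qPlus (2 * k + 1) (ZMod 2))).symm.injective.comp c.injective).comp hf⟩
  · intro h
    obtain ⟨g, hg⟩ := hm h
    have hg' : ∀ v, qp (2 * k + 1) v = Cfsg.quadFormMinus (2 * k) (ZMod 2) 1 1 (g v) := hg
    let c := congrO (Q := ofFun (qp (2 * k + 1)) (qp_add _)) (Q' := qMinus (2 * k) (ZMod 2) 1 1) g (fun x => by
      rw [qMinus_apply]; exact (hg' x).symm)
    rw [← coe_qMinus]
    exact ⟨((isoO (qMinus (2 * k) (ZMod 2) 1 1)).symm.toMonoidHom.comp c.toMonoidHom).comp f,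
      ((isoO (qMinus (2 * k) (ZMod 2) 1 1)).symm.injective.comp c.injective).comp hf⟩

end Cfsg.Agent.Lib.Cox
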