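import Mathlib
import Cfsg.Prelude.Def_Local
import Cfsg.Agent.Lib.Basic
import Cfsg.Agent.Lib.Nilp
import Cfsg.Agent.Lib.Cores
import Cfsg.Agent.Lib.Components
import Cfsg.Agent.Lib.PGrpB
import Cfsg.Agent.Lib.TiSub

/-!
# Critical subgroups of `O_2(X)` and abelian TI subgroups
-/

open Subgroup Cfsg
open scoped commutatorElement Pointwise

namespace Cfsg.Agent.Lib.CritTi

open Cfsg.Agent.Lib.Cores Cfsg.Agent.Lib.PGrpB Cfsg.Agent.Lib.TiSub

universe u
variable {X : Type u} [Group X]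

/-- the critical subgroup of `O_2(X)`, seen in `X` -/
structure Crit (K : Subgroup X) : Prop where
  norm : K.Normal
  pgrp : IsPGroup 2 K
  comm : ∀ x ∈ K, ∀ y ∈ K, ⁅x, y⁆ ∈ centralizer (K : Set X)
  sq : ∀ x ∈ K, x ^ 2 ∈ centralizer (K : Set X)
  cent : centralizer (K : Set X) ≤ K
  stab : ∀ y : X, (∀ k ∈ K, k⁻¹ * (y * k * y⁻¹) ∈ centralizer (K : Set X)) →
    (∀ w ∈ centralizer (K : Set X), w ^ 2 = 1 → y * w * y⁻¹ = w) → y ∈ pCore 2 X

theorem exists_crit [Finite X] (hX : generalizedFittingSubgroup X = pCore 2 X) : ∃ K : Subgroup X, Crit K := by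
  haveI : Fact (Nat.Prime 2) := ⟨Nat.prime_two⟩
  set Q := pCore 2 X with hQ
  have hQn : Q.Normal := Cfsg.Agent.Lib.Cores.pCore_normal 2
  have hQp : IsPGroup 2 Q := Cfsg.Agent.Lib.Cores.pCore_isPGroup 2
  have hcQ : centralizer (Q : Set X) ≤ Q := by
    have := Cfsg.Agent.Lib.Components.centralizer_generalizedFitting_le (G := X)
    rwa [hX] at this
  obtain ⟨H, hHc, hHcen, hHcomm, hHsq⟩ := exists_critical (G := Q) hQp
  have hHn : H.Normal := by haveI := hHc; infer_instance
  set K : Subgroup X := H.map Q.subtype with hK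
  have hKn : K.Normal := by
    haveI := hQn
    haveI := hHc
    exact ConjAct.normal_of_characteristic_of_normal
  have hKQ : K ≤ Q := map_subtype_le H
  have hmemK : ∀ x : Q, (x : X) ∈ K ↔ x ∈ H := by
    intro x
    constructor
    · rintro ⟨y, hy, hyx⟩
      have : y = x := Subtype.ext hyx
      rwa [← this]
    · intro h; exact ⟨x, h, rfl⟩
  have hcK : ∀ x : Q, (x : X) ∈ centralizer (K : Set X) ↔ x ∈ centralizer (H : Set Q) := by
    intro x
    rw [mem_centralizer_iff, mem_centralizer_iff]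
    constructor
    · intro h y hy
      exact Subtype.ext (h y ((hmemK y).mpr hy))
    · rintro h _ ⟨y, hy, rfl⟩
      exact congrArg Subtype.val (h y hy)
  -- the stabilizer of the chain
  let Y : Subgroup X :=
    { carrier := {y | (∀ k ∈ K, k⁻¹ * (y * k * y⁻¹) ∈ centralizer (K : Set X) ⊓ Q) ∧
        (∀ w ∈ centralizer (K : Set X) ⊓ Q, w ^ 2 = 1 → y * w * y⁻¹ = w)}
      one_mem' := ⟨fun k _ => by
        have : k⁻¹ * (1 * k * 1⁻¹) = 1 := by group
        rw [this]; exact one_mem _, fun w _ _ => by group⟩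
      mul_mem' := by
        rintro y y' ⟨h1, h2⟩ ⟨h1', h2'⟩
        refine ⟨fun k hk => ?_, fun w hw hw2 => ?_⟩
        · have h3 := h1' k hk
          have h4 := h1 (y' * k * y'⁻¹) (hKn.conj_mem k hk y')
          have h5 : k⁻¹ * (y * y' * k * (y * y')⁻¹) =
              (k⁻¹ * (y' * k * y'⁻¹)) * ((y' * k * y'⁻¹)⁻¹ * (y * (y' * k * y'⁻¹) * y⁻¹)) := by group
          rw [h5]
          exact mul_mem h3 h4
        · have h3 := h2' w hw hw2
          have h4 := h2 w hw hw2
          calc y * y' * w * (y * y')⁻¹ = y * (y' * w * y'⁻¹) * y⁻¹ := by group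
            _ = w := by rw [h3, h4]
      inv_mem' := by
        rintro y ⟨h1, h2⟩
        refine ⟨fun k hk => ?_, fun w hw hw2 => ?_⟩
        · have h3 := h1 (y⁻¹ * k * y) (by simpa using hKn.conj_mem k hk y⁻¹)
          have h5 : k⁻¹ * (y⁻¹ * k * y⁻¹⁻¹) = ((y⁻¹ * k * y)⁻¹ * (y * (y⁻¹ * k * y) * y⁻¹))⁻¹ := by group
          rw [h5]
          exact inv_mem h3
        · have h3 := h2 w hw hw2
          calc y⁻¹ * w * y⁻¹⁻¹ = y⁻¹ * (y * w * y⁻¹) * y := by rw [h3]; group
            _ = w := by group }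
  have hYm : ∀ y, y ∈ Y ↔ (∀ k ∈ K, k⁻¹ * (y * k * y⁻¹) ∈ centralizer (K : Set X) ⊓ Q) ∧
      (∀ w ∈ centralizer (K : Set X) ⊓ Q, w ^ 2 = 1 → y * w * y⁻¹ = w) := fun y => Iff.rfl
  have hZn : (centralizer (K : Set X) ⊓ Q).Normal := by
    haveI := hKn
    haveI := hQn
    infer_instance
  have hYn : Y.Normal := by
    refine ⟨fun y hy x => ?_⟩
    rw [hYm] at hy ⊢
    refine ⟨fun k hk => ?_, fun w hw hw2 => ?_⟩
    · have h1 := hy.1 (x⁻¹ * k * x) (by simpa using hKn.conj_mem k hk x⁻¹)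
      have h2 := hZn.conj_mem _ h1 x
      have h3 : x * ((x⁻¹ * k * x)⁻¹ * (y * (x⁻¹ * k * x) * y⁻¹)) * x⁻¹ =
          k⁻¹ * (x * y * x⁻¹ * k * (x * y * x⁻¹)⁻¹) := by group
      rwa [h3] at h2
    · have h1 := hy.2 (x⁻¹ * w * x) (by simpa using hZn.conj_mem w hw x⁻¹) (by
        have : (x⁻¹ * w * x) ^ 2 = x⁻¹ * w ^ 2 * x := by rw [pow_two, pow_two]; group
        rw [this, hw2]; group)
      calc x * y * x⁻¹ * w * (x * y * x⁻¹)⁻¹ = x * (y * (x⁻¹ * w * x) * y⁻¹) * x⁻¹ := by group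
        _ = w := by rw [h1]; group
  have hYodd : ∀ y ∈ Y, (orderOf y).Coprime 2 → y = 1 := by
    intro y hy hyo
    obtain ⟨hy1, hy2⟩ := (hYm y).mp hy
    let a : MulAut Q := MulAut.conjNormal y
    have haa : ∀ q : Q, ((a q : Q) : X) = y * q * y⁻¹ := fun q => MulAut.conjNormal_apply y q
    have hao : (orderOf a).Coprime 2 := Nat.Coprime.coprime_dvd_left (orderOf_map_dvd MulAut.conjNormal y) hyo
    have hcc : ∀ w : Q, w ∈ centralizer (H : Set Q) → a w ∈ centralizer (H : Set Q) := by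
      intro w hw
      rw [← hcK] at hw ⊢
      rw [haa]
      exact (mem_inf.mp (hZn.conj_mem w (mem_inf.mpr ⟨hw, w.2⟩) y)).1
    have hab : ∀ w v : Q, w ∈ centralizer (H : Set Q) → v ∈ centralizer (H : Set Q) → w * v = v * w :=
      fun w v hw hv => mem_centralizer_iff.mp hv w (hHcen hw)
    have hfixW : ∀ (n : ℕ) (w : Q), w ∈ centralizer (H : Set Q) → w ^ 2 ^ n = 1 → a w = w := by
      intro n
      induction n with
      | zero =>
        intro w _ hw
        rw [pow_zero, pow_one] at hw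
        rw [hw, map_one]
      | succ n ih =>
        intro w hwc hw
        have h1 : a (w ^ 2) = w ^ 2 := ih (w ^ 2) (pow_mem hwc 2) (by rw [← pow_mul, ← pow_succ']; exact hw)
        set h := w⁻¹ * a w with hh
        have hhc : h ∈ centralizer (H : Set Q) := mul_mem (inv_mem hwc) (hcc w hwc)
        have h2 : h ^ 2 = 1 := by
          have h3 := hab (w⁻¹) (a w) (inv_mem hwc) (hcc w hwc)
          have h4 : h ^ 2 = (w⁻¹) ^ 2 * (a w) ^ 2 := (show Commute w⁻¹ (a w) from h3).mul_pow 2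
          rw [h4, ← map_pow, h1, inv_pow, inv_mul_cancel]
        have h3 : a h = h := by
          apply Subtype.ext
          rw [haa]
          exact hy2 h (mem_inf.mpr ⟨(hcK h).mpr hhc, h.2⟩) (by exact_mod_cast congrArg Subtype.val h2)
        have h4 : a w = w * h := by rw [hh, mul_inv_cancel_left]
        have h5 := eq_one_of_apply hQp hao h4 h3
        rw [h4, h5, mul_one]
    have hfixH : ∀ x ∈ H, a x = x := by
      intro x hx
      set h := x⁻¹ * a x with hh
      have hhc : h ∈ centralizer (H : Set Q) := by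
        rw [← hcK]
        exact (mem_inf.mp (hy1 x ((hmemK x).mpr hx))).1
      obtain ⟨n, hn⟩ := hQp h
      have h3 := hfixW n h hhc hn
      have h4 : a x = x * h := by rw [hh, mul_inv_cancel_left]
      have h5 := eq_one_of_apply hQp hao h4 h3
      rw [h4, h5, mul_one]
    haveI := hHn
    have ha1 := aut_eq_one_of_critical hQp hHcen hao hfixH
    have hyQ : y ∈ Q := by
      apply hcQ
      rw [mem_centralizer_iff]
      intro q hq
      have h1 := haa ⟨q, hq⟩
      rw [ha1, MulAut.one_apply] at h1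
      have h2 : q = y * q * y⁻¹ := h1
      calc q * y = (y * q * y⁻¹) * y := by rw [← h2]
        _ = y * q := by group
    obtain ⟨n, hn⟩ := hQp ⟨y, hyQ⟩
    have hn' : y ^ 2 ^ n = 1 := congrArg Subtype.val hn
    have h1 : orderOf y ∣ 2 ^ n := orderOf_dvd_of_pow_eq_one hn'
    exact orderOf_eq_one_iff.mp (Nat.eq_one_of_dvd_coprimes (hyo.pow_right n) dvd_rfl h1)
  have hYp : IsPGroup 2 Y := by
    intro y
    obtain ⟨k, m, hm, hkm⟩ := Nat.exists_eq_two_pow_mul_odd (orderOf_pos (y : X)).ne'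
    refine ⟨k, Subtype.ext ?_⟩
    change (y : X) ^ 2 ^ k = 1
    refine hYodd _ (pow_mem y.2 _) ?_
    rw [orderOf_pow, hkm, Nat.gcd_eq_right (dvd_mul_right _ _), Nat.mul_div_cancel_left _ (by positivity)]
    exact (Nat.coprime_two_right).mpr hm
  have hYQ : Y ≤ Q := Cfsg.Agent.Lib.Cores.le_pCore hYn hYp
  have hZK : centralizer (K : Set X) ⊓ Q ≤ K := by
    intro w hw
    obtain ⟨h1, h2⟩ := mem_inf.mp hw
    exact (hmemK ⟨w, h2⟩).mpr (hHcen ((hcK ⟨w, h2⟩).mp h1))
  have hcKY : centralizer (K : Set X) ≤ Y := by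
    intro y hy
    rw [mem_centralizer_iff] at hy
    refine (hYm y).mpr ⟨fun k hk => ?_, fun w hw _ => ?_⟩
    · have : k⁻¹ * (y * k * y⁻¹) = 1 := by rw [← hy k hk]; group
      rw [this]; exact one_mem _
    · rw [← hy w (hZK hw), mul_inv_cancel_right]
  have hcKQ : centralizer (K : Set X) ≤ Q := hcKY.trans hYQ
  have hcKK : centralizer (K : Set X) ≤ K := fun w hw => hZK (mem_inf.mpr ⟨hw, hcKQ hw⟩)
  refine ⟨K, hKn, hQp.to_le hKQ, ?_, ?_, hcKK, ?_⟩
  · rintro _ ⟨x, hx, rfl⟩ _ ⟨y, hy, rfl⟩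
    have h1 := (mem_inf.mp (hHcomm x hx y)).2
    rw [← hcK] at h1
    exact h1
  · rintro _ ⟨x, hx, rfl⟩
    have h1 := (mem_inf.mp (hHsq x hx)).2
    rw [← hcK] at h1
    exact h1
  · intro y h1 h2
    apply hYQ
    rw [hYm]
    exact ⟨fun k hk => mem_inf.mpr ⟨h1 k hk, hcKQ (h1 k hk)⟩, fun w hw hw2 => h2 w (mem_inf.mp hw).1 hw2⟩

/-- `[k, a]` -/
def del (a k : X) : X := k⁻¹ * (a * k * a⁻¹)

theorem del_spec (a k : X) : a * k * a⁻¹ = k * del a k := by unfold del; group

theorem del_mem {K : Subgroup X} (hK : K.Normal) {a k : X} (hk : k ∈ K) : del a k ∈ K :=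
  mul_mem (inv_mem hk) (hK.conj_mem k hk a)

theorem del_mem_A {A : Subgroup X} {a k : X} (ha : a ∈ A) (hk : k ∈ normalizer (A : Set X)) : del a k ∈ A := by
  have h1 := (mem_normalizer_iff.mp (inv_mem hk) a).mp ha
  rw [inv_inv] at h1
  have h2 : del a k = (k⁻¹ * a * k) * a⁻¹ := by unfold del; group
  rw [h2]
  exact mul_mem h1 (inv_mem ha)

/-- iterated commutators vanish -/
theorem del_iter [Finite X] {K : Subgroup X} (hK : K.Normal) (hKp : IsPGroup 2 K) {a : X} (ha : ∃ n, a ^ 2 ^ n = 1)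
    {k : X} (hk : k ∈ K) : ∃ n, (del a)^[n] k = 1 := by
  haveI : Fact (Nat.Prime 2) := ⟨Nat.prime_two⟩
  have h1 : IsPGroup 2 (zpowers a) := by
    obtain ⟨n, hn⟩ := ha
    obtain ⟨m, hm⟩ := (Nat.dvd_prime_pow Nat.prime_two).mp (orderOf_dvd_of_pow_eq_one hn)
    exact IsPGroup.of_card (n := m) (by rw [Nat.card_zpowers]; exact hm.2)
  have h2 : IsPGroup 2 (K ⊔ zpowers a : Subgroup X) := by
    haveI := hK
    exact IsPGroup.to_sup_of_normal_left hKp h1
  have h3 : Group.IsNilpotent (K ⊔ zpowers a : Subgroup X) := h2.isNilpotent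
  obtain ⟨n, hn⟩ := (Subgroup.isNilpotent_iff_lowerCentralSeries _).mp h3
  refine ⟨n, ?_⟩
  have key : ∀ j, (del a)^[j] k ∈ K ∧ (del a)^[j] k ∈ (K ⊔ zpowers a).lowerCentralSeries j := by
    intro j
    induction j with
    | zero => exact ⟨hk, mem_sup_left hk⟩
    | succ j ih =>
      rw [Function.iterate_succ_apply']
      refine ⟨del_mem hK ih.1, ?_⟩
      rw [Subgroup.lowerCentralSeries_succ]
      have h4 : del a ((del a)^[j] k) = ⁅((del a)^[j] k)⁻¹, a⁆ := by
        rw [_root_.commutatorElement_def]; unfold del; group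
      rw [h4]
      exact commutator_mem_commutator (inv_mem ih.2) (mem_sup_right (mem_zpowers a))
  have := (key n).2
  rw [hn, mem_bot] at this
  exact this

section
variable [Finite X] {K A : Subgroup X} (C : Crit K) (hA2 : IsPGroup 2 A) (hAa : IsMulCommutative A)
  (hti : ∀ h : X, A.map (MulAut.conj h).toMonoidHom = A ∨ A.map (MulAut.conj h).toMonoidHom ⊓ A = ⊥)

include hti in
theorem hnorm {x b : X} (hb : b ∈ A) (hb1 : b ≠ 1) (h : x * b = b * x) : x ∈ normalizer (A : Set X) := by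
  rcases hti x with h1 | h1
  · exact mem_normalizer_of_map_eq h1
  · exfalso
    have h2 : b ∈ A.map (MulAut.conj x).toMonoidHom ⊓ A := by
      refine mem_inf.mpr ⟨⟨b, hb, ?_⟩, hb⟩
      change x * b * x⁻¹ = b
      rw [h, mul_inv_cancel_right]
    rw [h1, mem_bot] at h2
    exact hb1 h2

include C hA2 hti in
/-- `a` centralizes `Z(K)` -/
theorem fixW (hAW : A ⊓ centralizer (K : Set X) = ⊥) {a : X} (ha : a ∈ A) (ha2 : a ^ 2 ≠ 1) :
    ∀ w ∈ centralizer (K : Set X), a * w * a⁻¹ = w := by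
  haveI := C.norm
  have hZp : IsPGroup 2 (centralizer (K : Set X)) := C.pgrp.to_le C.cent
  let t : MulAut (centralizer (K : Set X)) := MulAut.conjNormal a
  have ht : ∀ q, ((t q : centralizer (K : Set X)) : X) = a * q * a⁻¹ := fun q => MulAut.conjNormal_apply a q
  obtain ⟨n, hn⟩ := hA2 ⟨a, ha⟩
  have hn' : a ^ 2 ^ n = 1 := congrArg Subtype.val hn
  have h1 := fix_all (A := centralizer (K : Set X)) (fun x y => Subtype.ext
    (mem_centralizer_iff.mp y.2 x (C.cent x.2))) hZp t ⟨n, by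
      change (MulAut.conjNormal a) ^ 2 ^ n = 1
      rw [← map_pow, hn', map_one]⟩ (by
      intro w hw
      have h2 : a * (a * w * a⁻¹) * a⁻¹ = (w : X) := by
        have := congrArg Subtype.val hw
        rwa [ht, ht] at this
      have h3 : (w : X) * a ^ 2 = a ^ 2 * w := by
        calc (w : X) * a ^ 2 = (a * (a * w * a⁻¹) * a⁻¹) * a ^ 2 := by rw [h2]
          _ = a ^ 2 * w := by rw [pow_two]; group
      have h4 := hnorm hti (pow_mem ha 2) ha2 h3
      have h5 : del a (w : X) ∈ A ⊓ centralizer (K : Set X) :=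
        mem_inf.mpr ⟨del_mem_A ha h4, del_mem (inferInstance : (centralizer (K : Set X)).Normal) w.2⟩
      rw [hAW, mem_bot] at h5
      apply Subtype.ext
      rw [ht, del_spec, h5, mul_one])
  intro w hw
  have := congrArg Subtype.val (h1 ⟨w, hw⟩)
  rwa [ht] at this

include C hA2 hAa hti in
/-- the cubic step -/
theorem cubic (hAW : A ⊓ centralizer (K : Set X) = ⊥) {a : X} (ha : a ∈ A) (ha2 : a ^ 2 ≠ 1) {v : X} (hv : v ∈ K)
    (h3 : del a (del a (del a v)) = 1) : del a (del a v) = 1 := by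
  have hfix := fixW C hA2 hti hAW ha ha2
  have hAc := Cfsg.Agent.Lib.Nilp.isMulCommutative_iff_forall.mp hAa
  set u := del a v with hu
  set c := del a u with hc
  have huK : u ∈ K := del_mem C.norm hv
  have hcK : c ∈ K := del_mem C.norm huK
  have e1 : a * v * a⁻¹ = v * u := del_spec a v
  have e2 : a * u * a⁻¹ = u * c := del_spec a u
  have e3 : a * c * a⁻¹ = c := by rw [del_spec, h3, mul_one]
  clear_value u c
  -- squares are fixed
  have hsqf : ∀ x y : X, x ∈ K → a * x * a⁻¹ = x * y → x * y * (x * y) = x * x := by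
    intro x y hx hxy
    have h4 := hfix (x ^ 2) (C.sq x hx)
    calc x * y * (x * y) = (a * x * a⁻¹) * (a * x * a⁻¹) := by rw [hxy]
      _ = a * x ^ 2 * a⁻¹ := by rw [pow_two]; group
      _ = x * x := by rw [h4, pow_two]
  have E1 : c * u * c = u := by
    have := hsqf u c huK e2
    exact mul_left_cancel (by simpa [mul_assoc] using this : u * (c * u * c) = u * u)
  have E2 : u * v * u = v := by
    have := hsqf v u hv e1
    exact mul_left_cancel (by simpa [mul_assoc] using this : v * (u * v * u) = v * v)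
  -- general: if `y x y = x` then `y ^ 4 = 1`
  have hfour : ∀ x y : X, x ∈ K → y ∈ K → y * x * y = x → y ^ 4 = 1 := by
    intro x y hx hy hyx
    have h4 : x⁻¹ * y * x = y⁻¹ := by
      calc x⁻¹ * y * x = x⁻¹ * (y * x * y) * y⁻¹ := by group
        _ = y⁻¹ := by rw [hyx]; group
    -- `y²` is central in `K` so fixed by conjugation, which inverts it
    have h5 : x * y ^ 2 = y ^ 2 * x := mem_centralizer_iff.mp (C.sq y hy) x hx
    have h6 : x⁻¹ * y ^ 2 * x = (y ^ 2)⁻¹ := by
      calc x⁻¹ * y ^ 2 * x = (x⁻¹ * y * x) * (x⁻¹ * y * x) := by rw [pow_two]; group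
        _ = (y ^ 2)⁻¹ := by rw [h4, pow_two]; group
    have h7 : x⁻¹ * y ^ 2 * x = y ^ 2 := by
      calc x⁻¹ * y ^ 2 * x = x⁻¹ * (y ^ 2 * x) := by group
        _ = y ^ 2 := by rw [← h5]; group
    calc y ^ 4 = y ^ 2 * y ^ 2 := by group
      _ = (y ^ 2)⁻¹ * y ^ 2 := by rw [← h6, h7]
      _ = 1 := inv_mul_cancel _
  have hc4 : c ^ 4 = 1 := hfour u c huK hcK E1
  have hu4 : u ^ 4 = 1 := hfour v u hv huK E2
  have hc2K : c ^ 2 ∈ centralizer (K : Set X) := C.sq c hcK
  have hu2K : u ^ 2 ∈ centralizer (K : Set X) := C.sq u huK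
  have hcu2 : c * u ^ 2 = u ^ 2 * c := mem_centralizer_iff.mp hu2K c hcK
  -- action of `a ^ 2` and `a ^ 4`
  set b : MulAut X := MulAut.conj a with hb
  have hbx : ∀ x : X, b x = a * x * a⁻¹ := fun x => rfl
  have b1 : b v = v * u := e1
  have b2 : b u = u * c := e2
  have b3 : b c = c := e3
  have b4 : b (u ^ 2) = u ^ 2 := hfix _ hu2K
  have hb2 : ∀ x : X, a ^ 2 * x * (a ^ 2)⁻¹ = b (b x) := fun x => by rw [hbx, hbx, pow_two]; group
  have hb4 : ∀ x : X, a ^ 4 * x * (a ^ 4)⁻¹ = b (b (b (b x))) := fun x => by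
    rw [← hb2, ← hb2, show 4 = 2 + 2 by norm_num, pow_add]; group
  have g1 : b (b u) = u * c ^ 2 := by rw [b2, map_mul, b2, b3, pow_two, mul_assoc]
  have g2 : b (b v) = v * u ^ 2 * c := by
    rw [b1, map_mul, b1, b2, pow_two]; group
  have f1 : a ^ 2 * u * (a ^ 2)⁻¹ = u * c ^ 2 := by rw [hb2, g1]
  have f3 : a ^ 4 * u * (a ^ 4)⁻¹ = u := by
    rw [hb4, g1, map_mul, map_mul, map_pow, b3, map_pow, b3, g1, mul_assoc, ← pow_add, hc4, mul_one]
  have f6 : a ^ 4 * v * (a ^ 4)⁻¹ = v * c ^ 2 := by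
    rw [hb4, g2, map_mul, map_mul, map_mul, map_mul, b3, b3, b4, b4, g2]
    calc v * u ^ 2 * c * u ^ 2 * c = v * u ^ 2 * (c * u ^ 2) * c := by simp only [mul_assoc]
      _ = v * (u ^ 2 * u ^ 2) * c * c := by rw [hcu2]; simp only [mul_assoc]
      _ = v * c ^ 2 := by rw [← pow_add, hu4, mul_one, mul_assoc, ← pow_two]
  -- `c ^ 2 = 1`
  have hc2 : c ^ 2 = 1 := by
    by_cases ha4 : a ^ 4 = 1
    · rw [ha4, one_mul, inv_one, mul_one] at f6
      exact (left_eq_mul.mp f6)
    · have h4 : u * a ^ 4 = a ^ 4 * u := by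
        calc u * a ^ 4 = (a ^ 4 * u * (a ^ 4)⁻¹) * a ^ 4 := by rw [f3]
          _ = a ^ 4 * u := by group
      have h5 := hnorm hti (pow_mem ha 4) ha4 h4
      have h6 : c ∈ A := hc ▸ del_mem_A ha h5
      have h7 : c ^ 2 ∈ A ⊓ centralizer (K : Set X) := mem_inf.mpr ⟨pow_mem h6 2, hc2K⟩
      rwa [hAW, mem_bot] at h7
  have hua2 : u * a ^ 2 = a ^ 2 * u := by
    calc u * a ^ 2 = (a ^ 2 * u * (a ^ 2)⁻¹) * a ^ 2 := by rw [f1, hc2, mul_one]
      _ = a ^ 2 * u := by group
  have huN := hnorm hti (pow_mem ha 2) ha2 hua2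
  have hcA : c ∈ A := hc ▸ del_mem_A ha huN
  have hcc : c * c = 1 := by rw [← pow_two]; exact hc2
  have hcu : c * u = u * c := by
    calc c * u = (c * u * c) * c := by rw [mul_assoc (c * u), hcc, mul_one]
      _ = u * c := by rw [E1]
  -- conjugating `E2` by `a`
  have E3 : (u * c) * (v * u) * (u * c) = v * u := by
    calc (u * c) * (v * u) * (u * c) = (a * u * a⁻¹) * (a * v * a⁻¹) * (a * u * a⁻¹) := by rw [e1, e2]
      _ = a * (u * v * u) * a⁻¹ := by group
      _ = v * u := by rw [E2, e1]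
  have E4 : c * v * c = v := by
    have h4 : (u * c) * (v * u) * (u * c) = c * (u * v * u) * c * u := by
      calc (u * c) * (v * u) * (u * c) = (u * c) * v * u * (u * c) := by group
        _ = (c * u) * v * u * (c * u) := by rw [← hcu]
        _ = c * (u * v * u) * c * u := by group
    rw [h4, E2] at E3
    exact mul_right_cancel E3
  by_contra hc1
  have hcv : v * c = c * v := by
    calc v * c = (c * v * c) * c := by rw [E4]
      _ = c * v := by rw [mul_assoc (c * v), hcc, mul_one]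
  have hvN := hnorm hti hcA hc1 hcv
  have huA : u ∈ A := hu ▸ del_mem_A ha hvN
  apply hc1
  have h5 : a * u * a⁻¹ = u := by rw [hAc a ha u huA, mul_inv_cancel_right]
  rw [e2] at h5
  exact mul_eq_left.mp h5

include C hA2 hAa hti in
theorem quad (hAW : A ⊓ centralizer (K : Set X) = ⊥) {a : X} (ha : a ∈ A) (ha2 : a ^ 2 ≠ 1) {k : X} (hk : k ∈ K) :
    del a (del a k) = 1 := by
  classical
  obtain ⟨n, hn⟩ := hA2 ⟨a, ha⟩
  have hn' : a ^ 2 ^ n = 1 := congrArg Subtype.val hn
  have hex := del_iter C.norm C.pgrp ⟨n, hn'⟩ hk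
  have hmem : ∀ j, (del a)^[j] k ∈ K := by
    intro j
    induction j with
    | zero => exact hk
    | succ j ih => rw [Function.iterate_succ_apply']; exact del_mem C.norm ih
  have h1 := Nat.find_spec hex
  have hd1 : del a 1 = (1 : X) := by unfold del; group
  rcases Nat.lt_or_ge (Nat.find hex) 3 with h | h
  · have hmono : ∀ i j, i ≤ j → (del a)^[i] k = 1 → (del a)^[j] k = 1 := by
      intro i j hij hi
      induction j, hij using Nat.le_induction with
      | base => exact hi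
      | succ j _ ih => rw [Function.iterate_succ_apply', ih, hd1]
    exact hmono _ 2 (by omega) h1
  · exfalso
    obtain ⟨m, hm⟩ : ∃ m, Nat.find hex = m + 3 := ⟨Nat.find hex - 3, by omega⟩
    have h2 : del a (del a (del a ((del a)^[m] k))) = 1 := by
      rw [← Function.iterate_succ_apply' (del a) m, ← Function.iterate_succ_apply' (del a) (m + 1),
        ← Function.iterate_succ_apply' (del a) (m + 2)]
      rw [hm] at h1
      exact h1
    have h3 := cubic C hA2 hAa hti hAW ha ha2 (hmem m) h2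
    have h4 : (del a)^[m + 2] k = 1 := by
      rw [Function.iterate_succ_apply', Function.iterate_succ_apply']
      exact h3
    exact Nat.find_min hex (by omega) h4

include C hti in
/-- if `A` meets `Z(K)` nontrivially then `K` normalizes `A` -/
theorem norm_of_meet (hAW : A ⊓ centralizer (K : Set X) ≠ ⊥) : K ≤ normalizer (A : Set X) := by
  obtain ⟨⟨b, hb⟩, hb1⟩ := Subgroup.ne_bot_iff_exists_ne_one.mp hAW
  obtain ⟨hbA, hbW⟩ := mem_inf.mp hb
  intro k hk
  exact hnorm hti hbA (fun h => hb1 (Subtype.ext h)) (mem_centralizer_iff.mp hbW k hk)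

theorem two_step {a k : X} (h : del a (del a k) = 1) : a ^ 2 * k * (a ^ 2)⁻¹ = k * del a k ^ 2 := by
  have h1 : a * del a k * a⁻¹ = del a k := by rw [del_spec, h, mul_one]
  calc a ^ 2 * k * (a ^ 2)⁻¹ = a * (a * k * a⁻¹) * a⁻¹ := by rw [pow_two]; group
    _ = (a * k * a⁻¹) * (a * del a k * a⁻¹) := by
        have := del_spec a k
        calc a * (a * k * a⁻¹) * a⁻¹ = a * (k * del a k) * a⁻¹ := by rw [this]
          _ = (a * k * a⁻¹) * (a * del a k * a⁻¹) := by group
    _ = k * del a k ^ 2 := by rw [h1, del_spec, pow_two, mul_assoc]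

include C hA2 hAa hti in
theorem sq_mem {a : X} (ha : a ∈ A) : a ^ 2 ∈ pCore 2 X := by
  have hAc := Cfsg.Agent.Lib.Nilp.isMulCommutative_iff_forall.mp hAa
  by_cases ha2 : a ^ 2 = 1
  · rw [ha2]; exact one_mem _
  by_cases hAW : A ⊓ centralizer (K : Set X) = ⊥
  · have hfix := fixW C hA2 hti hAW ha ha2
    refine C.stab _ ?_ ?_
    · intro k hk
      rw [two_step (quad C hA2 hAa hti hAW ha ha2 hk), inv_mul_cancel_left]
      exact C.sq _ (del_mem C.norm hk)
    · intro w hw _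
      calc a ^ 2 * w * (a ^ 2)⁻¹ = a * (a * w * a⁻¹) * a⁻¹ := by rw [pow_two]; group
        _ = w := by rw [hfix w hw, hfix w hw]
  · have hKN := norm_of_meet C hti hAW
    have hq : ∀ k ∈ K, del a (del a k) = 1 := by
      intro k hk
      have h1 : del a k ∈ A := del_mem_A ha (hKN hk)
      unfold del at h1 ⊢
      rw [hAc a ha _ h1]; group
    refine C.stab _ ?_ ?_
    · intro k hk
      rw [two_step (hq k hk), inv_mul_cancel_left]
      exact C.sq _ (del_mem C.norm hk)
    · intro w hw hw2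
      have hwK := C.cent hw
      rw [two_step (hq w hwK)]
      have h1 : del a w ∈ centralizer (K : Set X) := by
        haveI := C.norm
        exact del_mem (inferInstance : (centralizer (K : Set X)).Normal) hw
      have h2 : del a w ^ 2 = 1 := by
        have h3 : w⁻¹ * (a * w * a⁻¹) = (a * w * a⁻¹) * w⁻¹ := by
          haveI := C.norm
          have h4 : a * w * a⁻¹ ∈ centralizer (K : Set X) :=
            (inferInstance : (centralizer (K : Set X)).Normal).conj_mem w hw a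
          exact (mem_centralizer_iff.mp h4 w⁻¹ (inv_mem hwK))
        have h5 : del a w ^ 2 = w⁻¹ ^ 2 * (a * w * a⁻¹) ^ 2 :=
          (show Commute w⁻¹ (a * w * a⁻¹) from h3).mul_pow 2
        have h6 : (a * w * a⁻¹) ^ 2 = a * w ^ 2 * a⁻¹ := by rw [pow_two, pow_two]; group
        rw [h5, h6, hw2, inv_pow, hw2]
        group
      rw [h2, mul_one]

include C hA2 hAa hti in
/-- S1783, second part -/
theorem pair_comm (hB : ¬ ∀ a ∈ A, a ^ 4 = 1) (x : X) {a b : X} (ha : a ∈ A) (hb : b ∈ A) :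
    a ^ 2 * (x * b ^ 2 * x⁻¹) = (x * b ^ 2 * x⁻¹) * a ^ 2 := by
  have hAc := Cfsg.Agent.Lib.Nilp.isMulCommutative_iff_forall.mp hAa
  have hAW : A ⊓ centralizer (K : Set X) ≠ ⊥ := by
    intro hAW
    apply hB
    intro a ha
    by_cases ha2 : a ^ 2 = 1
    · calc a ^ 4 = (a ^ 2) ^ 2 := by group
        _ = 1 := by rw [ha2, one_pow]
    have hfix := fixW C hA2 hti hAW ha ha2
    have h1 : a ^ 4 ∈ centralizer (K : Set X) := by
      rw [mem_centralizer_iff]
      intro k hk
      have hq := quad C hA2 hAa hti hAW ha ha2 hk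
      have h2 := two_step hq
      set m := del a k with hm
      have hmK : m ∈ K := del_mem C.norm hk
      have h3 : a * m * a⁻¹ = m := by rw [del_spec, hq, mul_one]
      have h4 : m * k * m = k := by
        have h5 := hfix (k ^ 2) (C.sq k hk)
        have h6 : (k * m) * (k * m) = k * k := by
          calc (k * m) * (k * m) = (a * k * a⁻¹) * (a * k * a⁻¹) := by rw [del_spec]
            _ = a * k ^ 2 * a⁻¹ := by rw [pow_two]; group
            _ = k * k := by rw [h5, pow_two]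
        exact mul_left_cancel (by simpa [mul_assoc] using h6 : k * (m * k * m) = k * k)
      have hm4 : m ^ 4 = 1 := by
        have h5 : k * m ^ 2 = m ^ 2 * k := mem_centralizer_iff.mp (C.sq m hmK) k hk
        have h6 : k⁻¹ * m * k = m⁻¹ := by
          calc k⁻¹ * m * k = k⁻¹ * (m * k * m) * m⁻¹ := by group
            _ = m⁻¹ := by rw [h4]; group
        have h7 : k⁻¹ * m ^ 2 * k = (m ^ 2)⁻¹ := by
          calc k⁻¹ * m ^ 2 * k = (k⁻¹ * m * k) * (k⁻¹ * m * k) := by rw [pow_two]; group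
            _ = (m ^ 2)⁻¹ := by rw [h6, pow_two]; group
        have h8 : k⁻¹ * m ^ 2 * k = m ^ 2 := by
          calc k⁻¹ * m ^ 2 * k = k⁻¹ * (m ^ 2 * k) := by group
            _ = m ^ 2 := by rw [← h5]; group
        calc m ^ 4 = m ^ 2 * m ^ 2 := by group
          _ = (m ^ 2)⁻¹ * m ^ 2 := by rw [← h7, h8]
          _ = 1 := inv_mul_cancel _
      have h9 : a ^ 2 * m ^ 2 * (a ^ 2)⁻¹ = m ^ 2 := by
        have h10 : a * m ^ 2 * a⁻¹ = m ^ 2 := by
          calc a * m ^ 2 * a⁻¹ = (a * m * a⁻¹) * (a * m * a⁻¹) := by rw [pow_two]; group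
            _ = m ^ 2 := by rw [h3, pow_two]
        calc a ^ 2 * m ^ 2 * (a ^ 2)⁻¹ = a * (a * m ^ 2 * a⁻¹) * a⁻¹ := by rw [pow_two a]; group
          _ = m ^ 2 := by rw [h10, h10]
      have h11 : a ^ 4 * k * (a ^ 4)⁻¹ = k := by
        have h12 : a ^ 4 * k * (a ^ 4)⁻¹ = a ^ 2 * (a ^ 2 * k * (a ^ 2)⁻¹) * (a ^ 2)⁻¹ := by
          rw [show 4 = 2 + 2 by norm_num, pow_add]; group
        rw [h12, h2]
        have h13 : a ^ 2 * (k * m ^ 2) * (a ^ 2)⁻¹ = (a ^ 2 * k * (a ^ 2)⁻¹) * (a ^ 2 * m ^ 2 * (a ^ 2)⁻¹) := by group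
        rw [h13, h2, h9, mul_assoc, ← pow_add, hm4, mul_one]
      calc k * a ^ 4 = (a ^ 4 * k * (a ^ 4)⁻¹) * a ^ 4 := by rw [h11]
        _ = a ^ 4 * k := by group
    have h2 : a ^ 4 ∈ A ⊓ centralizer (K : Set X) := mem_inf.mpr ⟨pow_mem ha 4, h1⟩
    rwa [hAW, mem_bot] at h2
  have hKN := norm_of_meet C hti hAW
  by_cases hx : A.map (MulAut.conj x).toMonoidHom = A
  · have h1 : x * b ^ 2 * x⁻¹ ∈ A := by
      rw [← hx]; exact ⟨_, pow_mem hb 2, rfl⟩
    exact hAc _ (pow_mem ha 2) _ h1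
  rcases ti_elementary hA2 hAa hti x hx with h | h
  · have hKN' : K ≤ normalizer ((A.map (MulAut.conj x).toMonoidHom : Subgroup X) : Set X) := by
      intro k hk
      have h1 : x⁻¹ * k * x ∈ K := by simpa using C.norm.conj_mem k hk x⁻¹
      have h2 := map_eq_of_mem_normalizer (hKN h1)
      apply mem_normalizer_of_map_eq
      ext y
      rw [mem_map_conj, mem_map_conj, mem_map_conj]
      have h3 := mem_map_conj (B := A) (g := x⁻¹ * k * x) (x := x⁻¹ * y * x)
      rw [h2] at h3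
      rw [h3]
      have h4 : (x⁻¹ * k * x)⁻¹ * (x⁻¹ * y * x) * (x⁻¹ * k * x) = x⁻¹ * (k⁻¹ * y * k) * x := by group
      rw [h4]
    have hall : ∀ c ∈ A, c ^ 2 ∈ centralizer (K : Set X) := by
      intro c hc
      rw [mem_centralizer_iff]
      intro k hk
      have h1 : del c k ∈ A := del_mem_A hc (hKN hk)
      have h2 : del c k ∈ K := del_mem C.norm hk
      have h3 : del c k ^ 2 = 1 := h.2 _ (mem_inf.mpr ⟨h1, hKN' h2⟩)
      have hq : del c (del c k) = 1 := by
        unfold del at h1 ⊢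
        rw [hAc c hc _ h1]; group
      have h4 := two_step hq
      rw [h3, mul_one] at h4
      calc k * c ^ 2 = (c ^ 2 * k * (c ^ 2)⁻¹) * c ^ 2 := by rw [h4]
        _ = c ^ 2 * k := by group
    have h5 : x * b ^ 2 * x⁻¹ ∈ centralizer (K : Set X) := by
      haveI := C.norm
      exact (inferInstance : (centralizer (K : Set X)).Normal).conj_mem _ (hall b hb) x
    exact mem_centralizer_iff.mp h5 _ (C.cent (hall a ha))
  · rw [commutator_eq_bot_iff_le_centralizer] at h
    exact (mem_centralizer_iff.mp (h (pow_mem ha 2)) _ ⟨_, pow_mem hb 2, rfl⟩).symm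
end

/-- S1783 -/
theorem s1783 [Finite X] (hX : generalizedFittingSubgroup X = pCore 2 X) (A : Subgroup X) (hA2 : IsPGroup 2 A)
    (hAa : IsMulCommutative A)
    (hti : ∀ h : X, A.map (MulAut.conj h).toMonoidHom = A ∨ A.map (MulAut.conj h).toMonoidHom ⊓ A = ⊥) :
    closure ((fun a : X => a ^ 2) '' (A : Set X)) ≤ pCore 2 X ∧
      (¬ IsElementaryAbelian 2 (closure ((fun a : X => a ^ 2) '' (A : Set X))) →
        IsMulCommutative (normalClosure ((fun a : X => a ^ 2) '' (A : Set X)))) := by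
  obtain ⟨K, C⟩ := exists_crit hX
  have hAc := Cfsg.Agent.Lib.Nilp.isMulCommutative_iff_forall.mp hAa
  refine ⟨?_, ?_⟩
  · rw [Subgroup.closure_le]
    rintro _ ⟨a, ha, rfl⟩
    exact sq_mem C hA2 hAa hti ha
  · intro hne
    have hB : ¬ ∀ a ∈ A, a ^ 4 = 1 := by
      intro h4
      apply hne
      have hle : closure ((fun a : X => a ^ 2) '' (A : Set X)) ≤ A := by
        rw [Subgroup.closure_le]
        rintro _ ⟨a, ha, rfl⟩
        exact pow_mem ha 2
      refine ⟨Cfsg.Agent.Lib.Nilp.isMulCommutative_of_le hle hAa, ?_⟩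
      intro y hy
      induction hy using Subgroup.closure_induction with
      | mem y hy =>
        obtain ⟨a, ha, rfl⟩ := hy
        have := h4 a ha
        calc (a ^ 2) ^ 2 = a ^ 4 := by group
          _ = 1 := this
      | one => exact one_pow 2
      | mul y z hy hz h1 h2 =>
        rw [(show Commute y z from hAc y (hle hy) z (hle hz)).mul_pow, h1, h2, one_mul]
      | inv y _ h1 => rw [inv_pow, h1, inv_one]
    have key : ∀ y ∈ Group.conjugatesOfSet ((fun a : X => a ^ 2) '' (A : Set X)),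
        ∀ z ∈ Group.conjugatesOfSet ((fun a : X => a ^ 2) '' (A : Set X)), y * z = z * y := by
      intro y hy z hz
      rw [Group.mem_conjugatesOfSet_iff] at hy hz
      obtain ⟨_, ⟨a, ha, rfl⟩, hy⟩ := hy
      obtain ⟨_, ⟨b, hb, rfl⟩, hz⟩ := hz
      obtain ⟨g, rfl⟩ := isConj_iff.mp hy
      obtain ⟨h, rfl⟩ := isConj_iff.mp hz
      have h1 := pair_comm C hA2 hAa hti hB (g⁻¹ * h) ha hb
      change g * a ^ 2 * g⁻¹ * (h * b ^ 2 * h⁻¹) = h * b ^ 2 * h⁻¹ * (g * a ^ 2 * g⁻¹)
      calc g * a ^ 2 * g⁻¹ * (h * b ^ 2 * h⁻¹) = g * (a ^ 2 * (g⁻¹ * h * b ^ 2 * (g⁻¹ * h)⁻¹)) * g⁻¹ := by group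
        _ = g * ((g⁻¹ * h * b ^ 2 * (g⁻¹ * h)⁻¹) * a ^ 2) * g⁻¹ := by rw [h1]
        _ = h * b ^ 2 * h⁻¹ * (g * a ^ 2 * g⁻¹) := by group
    have h1 : normalClosure ((fun a : X => a ^ 2) '' (A : Set X)) ≤
        centralizer (normalClosure ((fun a : X => a ^ 2) '' (A : Set X)) : Set X) := by
      have h2 : normalClosure ((fun a : X => a ^ 2) '' (A : Set X)) ≤
          centralizer (Group.conjugatesOfSet ((fun a : X => a ^ 2) '' (A : Set X))) := by
        unfold normalClosure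
        rw [Subgroup.closure_le]
        intro y hy
        rw [SetLike.mem_coe, mem_centralizer_iff]
        intro z hz
        exact key z hz y hy
      rw [le_centralizer_iff]
      unfold normalClosure at h2 ⊢
      rw [Subgroup.closure_le]
      intro y hy
      rw [SetLike.mem_coe, mem_centralizer_iff]
      intro z hz
      exact ((mem_centralizer_iff.mp (h2 hz)) y hy).symm
    rw [Cfsg.Agent.Lib.Nilp.isMulCommutative_iff_commutator_eq_bot, commutator_eq_bot_iff_le_centralizer]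
    exact h1

end Cfsg.Agent.Lib.CritTi
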