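import Mathlib
import Cfsg.Agent.Lib.Tw7

/-! Principal series functions of `GL_2` and `SL_2`: values, named versions. -/

set_option linter.all false
set_option maxHeartbeats 400000

namespace Cfsg.Agent.Lib.Tw

open Matrix Module Cfsg
open scoped MatrixGroups

variable {F : Type*} [Field F] [Fintype F] [DecidableEq F]

/-- the principal series function of `SL_2` -/
noncomputable def RS (α : MulChar F ℂ) : SL(2, F) → ℂ :=
  Cfsg.indFun ((Cfsg.upperTriangularGL 2 F).comap Matrix.SpecialLinearGroup.toGL)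
    (fun b => α (((b : Matrix.SpecialLinearGroup (Fin 2) F) : Matrix (Fin 2) (Fin 2) F) 0 0))

/-- the principal series function of `GL_2` -/
noncomputable def RG (α β : MulChar F ℂ) : GL (Fin 2) F → ℂ :=
  Cfsg.indFun (Cfsg.upperTriangularGL 2 F) (fun b => α (((b : Matrix.GeneralLinearGroup (Fin 2) F) : Matrix (Fin 2) (Fin 2) F) 0 0) *
    β (((b : Matrix.GeneralLinearGroup (Fin 2) F) : Matrix (Fin 2) (Fin 2) F) 1 1))

theorem RS_h (α : MulChar F ℂ) : ∀ b : (Cfsg.upperTriangularGL 2 F).comap (Matrix.SpecialLinearGroup.toGL (n := Fin 2) (R := F)),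
      (fun b : (Cfsg.upperTriangularGL 2 F).comap (Matrix.SpecialLinearGroup.toGL (n := Fin 2) (R := F)) =>
        α (((b : Matrix.SpecialLinearGroup (Fin 2) F) : Matrix (Fin 2) (Fin 2) F) 0 0)) b = (fun x _ : F => α x)
    ((Matrix.SpecialLinearGroup.toGL (b : Matrix.SpecialLinearGroup (Fin 2) F) : Matrix (Fin 2) (Fin 2) F) 0 0)
    ((Matrix.SpecialLinearGroup.toGL (b : Matrix.SpecialLinearGroup (Fin 2) F) : Matrix (Fin 2) (Fin 2) F) 1 1) := fun _ => rfl

theorem RG_h (α β : MulChar F ℂ) : ∀ b : (Cfsg.upperTriangularGL 2 F),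
      (fun b : (Cfsg.upperTriangularGL 2 F) => α (((b : Matrix.GeneralLinearGroup (Fin 2) F) : Matrix (Fin 2) (Fin 2) F) 0 0) *
    β (((b : Matrix.GeneralLinearGroup (Fin 2) F) : Matrix (Fin 2) (Fin 2) F) 1 1)) b = (fun x y : F => α x * β y)
    (((MonoidHom.id (GL (Fin 2) F)) b : Matrix (Fin 2) (Fin 2) F) 0 0)
    (((MonoidHom.id (GL (Fin 2) F)) b : Matrix (Fin 2) (Fin 2) F) 1 1) := fun _ => rfl

theorem RS_split (α : MulChar F ℂ) {g : SL(2, F)} {x y : F} (hxy : x ≠ y)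
    (ht : (g : Matrix (Fin 2) (Fin 2) F).trace = x + y) (hd : x * y = 1) : RS α g = α x + α y :=
  bdSL.val_split (Θ := fun x _ => α x) (RS_h α) hxy ht (g.det_coe.trans hd.symm)

theorem RS_ne (α : MulChar F ℂ) {g : SL(2, F)} (hg : NE (g : Matrix (Fin 2) (Fin 2) F)) : RS α g = 0 :=
  bdSL.val_ne (Θ := fun x _ => α x) (RS_h α) (g := g) hg

theorem RS_par (α : MulChar F ℂ) {g : SL(2, F)} {x : F} (hg : NS (g : Matrix (Fin 2) (Fin 2) F))
    (ht : (g : Matrix (Fin 2) (Fin 2) F).trace = x + x) (hd : x * x = 1) : RS α g = α x :=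
  bdSL.val_par (Θ := fun x _ => α x) (RS_h α) (g := g) hg ht (g.det_coe.trans hd.symm)

theorem RS_sc (α : MulChar F ℂ) {g : SL(2, F)} {x : F} (hg : (g : Matrix (Fin 2) (Fin 2) F) = x • 1) :
    RS α g = ((Fintype.card F : ℂ) + 1) * α x :=
  bdSL.val_sc (Θ := fun x _ => α x) (RS_h α) (g := g) hg

theorem RG_split (α β : MulChar F ℂ) {g : GL (Fin 2) F} {x y : F} (hxy : x ≠ y)
    (ht : (g : Matrix (Fin 2) (Fin 2) F).trace = x + y) (hd : (g : Matrix (Fin 2) (Fin 2) F).det = x * y) :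
    RG α β g = α x * β y + α y * β x :=
  bdGL.val_split (Θ := fun x y => α x * β y) (RG_h α β) hxy ht hd

theorem RG_ne (α β : MulChar F ℂ) {g : GL (Fin 2) F} (hg : NE (g : Matrix (Fin 2) (Fin 2) F)) : RG α β g = 0 :=
  bdGL.val_ne (Θ := fun x y => α x * β y) (RG_h α β) (g := g) hg

theorem RG_par (α β : MulChar F ℂ) {g : GL (Fin 2) F} {x : F} (hg : NS (g : Matrix (Fin 2) (Fin 2) F))
    (ht : (g : Matrix (Fin 2) (Fin 2) F).trace = x + x) (hd : (g : Matrix (Fin 2) (Fin 2) F).det = x * x) :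
    RG α β g = α x * β x :=
  bdGL.val_par (Θ := fun x y => α x * β y) (RG_h α β) (g := g) hg ht hd

theorem RG_sc (α β : MulChar F ℂ) {g : GL (Fin 2) F} {x : F} (hg : (g : Matrix (Fin 2) (Fin 2) F) = x • 1) :
    RG α β g = ((Fintype.card F : ℂ) + 1) * (α x * β x) :=
  bdGL.val_sc (Θ := fun x y => α x * β y) (RG_h α β) (g := g) hg

end Cfsg.Agent.Lib.Tw
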