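import Mathlib
import Cfsg.Agent.Lib.Tw8
import Cfsg.Agent.Lib.CharTable

/-! Principal series functions of `GL_2` and `SL_2`: inner products. -/

set_option linter.all false
set_option maxHeartbeats 400000

namespace Cfsg.Agent.Lib.Tw

open Matrix Module Cfsg Cfsg.Agent.Lib.CharBasic Cfsg.Agent.Lib.CharInd
open scoped MatrixGroups ComplexConjugate

variable {F : Type*} [Field F] [Fintype F] [DecidableEq F]

theorem sum_units {f : F → ℂ} (h0 : f 0 = 0) : ∑ u : Fˣ, f u = ∑ a : F, f a := by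
  have e1 : ∑ u : Fˣ, f u = ∑ a : {a : F // a ≠ 0}, f a :=
    Fintype.sum_equiv (unitsEquivNeZero (G₀ := F)) _ _ (fun u => rfl)
  rw [e1, ← Finset.sum_subtype (Finset.univ.filter (fun a : F => a ≠ 0)) (fun x => by simp) f]
  apply Finset.sum_filter_of_ne
  intro x _ hx h
  apply hx
  rw [h, h0]

theorem mulChar_orth (α β : MulChar F ℂ) [Decidable (α = β)] :
    ∑ x : Fˣ, α x * conj (β x) = if α = β then ((Fintype.card F : ℂ) - 1) else 0 := by
  have e : ∀ x : Fˣ, α x * conj (β x) = (α * β⁻¹) (x : F) := by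
    intro x
    rw [MulChar.mul_apply]
    congr 1
    exact MulChar.star_apply' β x
  rw [Finset.sum_congr rfl (fun x _ => e x)]
  split_ifs with h
  · subst h
    rw [mul_inv_cancel]
    have : ∀ x : Fˣ, (1 : MulChar F ℂ) (x : F) = 1 := fun x => MulChar.one_apply_coe x
    rw [Finset.sum_congr rfl (fun x _ => this x), Finset.sum_const, Finset.card_univ, nsmul_eq_mul, mul_one, Fintype.card_units,
      Nat.cast_sub Fintype.card_pos, Nat.cast_one]
  · rw [sum_units (f := fun a => (α * β⁻¹) a) (MulChar.map_zero _)]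
    apply MulChar.sum_eq_zero_of_ne_one
    rw [Ne, mul_inv_eq_one]
    exact h

/-! `SL_2` -/

/-- sum over the unipotent radical -/
noncomputable def JS (φ : SL(2, F) → ℂ) (x : Fˣ) : ℂ := ∑ z : F, φ (SL2.bMk x z)

theorem JS_add (φ ψ : SL(2, F) → ℂ) (x : Fˣ) : JS (φ + ψ) x = JS φ x + JS ψ x := by
  unfold JS
  rw [← Finset.sum_add_distrib]
  rfl

theorem JS_sub (φ ψ : SL(2, F) → ℂ) (x : Fˣ) : JS (φ - ψ) x = JS φ x - JS ψ x := by
  unfold JS
  rw [← Finset.sum_sub_distrib]
  rfl

theorem JS_one (x : Fˣ) : JS (fun _ : SL(2, F) => (1 : ℂ)) x = Fintype.card F := by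
  unfold JS
  simp

theorem JS_RS (α : MulChar F ℂ) (x : Fˣ) : JS (RS α) x = (Fintype.card F : ℂ) * (α x + α (x⁻¹ : Fˣ)) := by
  have htr : ∀ z : F, (SL2.bMk x z : Matrix (Fin 2) (Fin 2) F).trace = x + (x⁻¹ : Fˣ) := by
    intro z
    rw [SL2.bMk_coe, Matrix.trace_fin_two_of]
  by_cases hx : (x : F) = (x⁻¹ : Fˣ)
  · have hxx : (x : F) * x = 1 := by
      nth_rw 2 [hx]
      exact x.mul_inv
    have h0 : RS α (SL2.bMk x 0) = ((Fintype.card F : ℂ) + 1) * α x := by
      apply RS_sc
      rw [SL2.bMk_coe, ← hx]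
      ext i j
      fin_cases i <;> fin_cases j <;> simp
    have h1 : ∀ z : F, z ≠ 0 → RS α (SL2.bMk x z) = α x := by
      intro z hz
      apply RS_par
      · rintro ⟨h, _⟩
        rw [SL2.bMk_coe] at h
        exact hz h
      · rw [htr, ← hx]
      · exact hxx
    unfold JS
    rw [← Finset.add_sum_erase _ _ (Finset.mem_univ (0 : F)), h0,
      Finset.sum_congr rfl (fun z hz => h1 z (Finset.ne_of_mem_erase hz)), Finset.sum_const, Finset.card_erase_of_mem (Finset.mem_univ _),
      Finset.card_univ, nsmul_eq_mul, ← hx, Nat.cast_sub Fintype.card_pos]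
    push_cast
    ring
  · have h1 : ∀ z : F, RS α (SL2.bMk x z) = α x + α (x⁻¹ : Fˣ) := by
      intro z
      exact RS_split α hx (htr z) x.mul_inv
    unfold JS
    rw [Finset.sum_congr rfl (fun z _ => h1 z), Finset.sum_const, Finset.card_univ, nsmul_eq_mul]

/-- reciprocity -/
theorem inner_RS (α : MulChar F ℂ) (φ : SL(2, F) → ℂ) (hφ : IsClassFunction SL(2, F) φ) :
    classInner (RS α) φ = ((Fintype.card F : ℂ) * ((Fintype.card F : ℂ) - 1))⁻¹ * ∑ x : Fˣ, α x * conj (JS φ x) := by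
  classical
  unfold RS
  rw [reciprocity _ _ φ hφ, classInner_def]
  have hcard : (Nat.card ((Cfsg.upperTriangularGL 2 F).comap (Matrix.SpecialLinearGroup.toGL (n := Fin 2) (R := F))) : ℂ) =
      (Fintype.card F : ℂ) * ((Fintype.card F : ℂ) - 1) := by
    rw [comap_eq_B, SL2.card_B, Nat.card_units, Nat.card_eq_fintype_card, Nat.cast_mul, Nat.cast_sub Fintype.card_pos]
    push_cast; ring
  rw [hcard]
  congr 1
  let e : Fˣ × F ≃ (Cfsg.upperTriangularGL 2 F).comap (Matrix.SpecialLinearGroup.toGL (n := Fin 2) (R := F)) :=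
    (SL2.bEquiv F).trans (Equiv.setCongr (by rw [comap_eq_B]))
  have he : ∀ p, ((e p : (Cfsg.upperTriangularGL 2 F).comap (Matrix.SpecialLinearGroup.toGL (n := Fin 2) (R := F))) : SL(2, F)) =
      SL2.bMk p.1 p.2 := fun p => rfl
  rw [← Equiv.sum_comp e, Fintype.sum_prod_type]
  refine Finset.sum_congr rfl fun x _ => ?_
  unfold JS
  rw [map_sum, Finset.mul_sum]
  refine Finset.sum_congr rfl fun z _ => ?_
  show α ((SL2.bMk x z : Matrix (Fin 2) (Fin 2) F) 0 0) * conj (φ (SL2.bMk x z)) = _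
  rw [SL2.bMk_coe]
  rfl

theorem classFn_RS (α : MulChar F ℂ) : IsClassFunction SL(2, F) (RS α) := indFun_classFn _ _

theorem inner_RS_RS (α β : MulChar F ℂ) [Decidable (α = β)] [Decidable (α = β⁻¹)] :
    classInner (RS α) (RS β) = (if α = β then 1 else 0) + (if α = β⁻¹ then 1 else 0) := by
  rw [inner_RS α _ (classFn_RS β)]
  have e : ∀ x : Fˣ, α x * conj (JS (RS β) x) = (Fintype.card F : ℂ) * (α x * conj (β x)) + (Fintype.card F : ℂ) * (α x * conj (β⁻¹ x)) := by
    intro x
    rw [JS_RS, map_mul, map_add, MulChar.inv_apply_eq_inv', Complex.conj_natCast]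
    have : β (x⁻¹ : Fˣ) = (β x)⁻¹ := by
      rw [Units.val_inv_eq_inv_val]
      exact (MulChar.inv_apply' β x).symm.trans (MulChar.inv_apply_eq_inv' β x)
    rw [this]
    ring
  rw [Finset.sum_congr rfl (fun x _ => e x), Finset.sum_add_distrib, ← Finset.mul_sum, ← Finset.mul_sum, mulChar_orth, mulChar_orth]
  have h1 := q_ne (F := F)
  have h2 := q_sub_ne (F := F)
  split_ifs <;> field_simp <;> ring

/-! `GL_2` -/

/-- sum over the unipotent radical -/
noncomputable def JG (φ : GL (Fin 2) F → ℂ) (x y : Fˣ) : ℂ := ∑ z : F, φ (bG x y z)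

theorem JG_RG (α β : MulChar F ℂ) (x y : Fˣ) : JG (RG α β) x y = (Fintype.card F : ℂ) * (α x * β y + α y * β x) := by
  have htr : ∀ z : F, (bG x y z : Matrix (Fin 2) (Fin 2) F).trace = x + y := by
    intro z
    rw [bG_coe, Matrix.trace_fin_two_of]
  have hdet : ∀ z : F, (bG x y z : Matrix (Fin 2) (Fin 2) F).det = x * y := by
    intro z
    rw [bG_coe, Matrix.det_fin_two_of]; ring
  by_cases hx : (x : F) = y
  · have hxy : x = y := Units.ext hx
    subst hxy
    have h0 : RG α β (bG x x 0) = ((Fintype.card F : ℂ) + 1) * (α x * β x) := by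
      apply RG_sc
      rw [bG_coe]
      ext i j
      fin_cases i <;> fin_cases j <;> simp
    have h1 : ∀ z : F, z ≠ 0 → RG α β (bG x x z) = α x * β x := by
      intro z hz
      apply RG_par
      · rintro ⟨h, _⟩
        rw [bG_coe] at h
        exact hz h
      · rw [htr]
      · exact hdet z
    unfold JG
    rw [← Finset.add_sum_erase _ _ (Finset.mem_univ (0 : F)), h0,
      Finset.sum_congr rfl (fun z hz => h1 z (Finset.ne_of_mem_erase hz)), Finset.sum_const, Finset.card_erase_of_mem (Finset.mem_univ _),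
      Finset.card_univ, nsmul_eq_mul, Nat.cast_sub Fintype.card_pos]
    push_cast
    ring
  · have h1 : ∀ z : F, RG α β (bG x y z) = α x * β y + α y * β x := by
      intro z
      exact RG_split α β hx (htr z) (hdet z)
    unfold JG
    rw [Finset.sum_congr rfl (fun z _ => h1 z), Finset.sum_const, Finset.card_univ, nsmul_eq_mul]

theorem inner_RG (α β : MulChar F ℂ) (φ : GL (Fin 2) F → ℂ) (hφ : IsClassFunction (GL (Fin 2) F) φ) :
    classInner (RG α β) φ = ((Fintype.card F : ℂ) * ((Fintype.card F : ℂ) - 1) ^ 2)⁻¹ *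
      ∑ x : Fˣ, ∑ y : Fˣ, α x * β y * conj (JG φ x y) := by
  classical
  unfold RG
  rw [reciprocity _ _ φ hφ, classInner_def]
  have hcard : (Nat.card (Cfsg.upperTriangularGL 2 F) : ℂ) =
      (Fintype.card F : ℂ) * ((Fintype.card F : ℂ) - 1) ^ 2 := by
    rw [← Nat.card_congr (bGE F), Nat.card_prod, Nat.card_prod, Nat.card_units, Nat.card_eq_fintype_card, Nat.cast_mul, Nat.cast_mul,
      Nat.cast_sub Fintype.card_pos]
    push_cast; ring
  rw [hcard]
  congr 1
  rw [← Equiv.sum_comp (bGE F), Fintype.sum_prod_type, Fintype.sum_prod_type]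
  refine Finset.sum_congr rfl fun x _ => Finset.sum_congr rfl fun y _ => ?_
  unfold JG
  rw [map_sum, Finset.mul_sum]
  refine Finset.sum_congr rfl fun z _ => ?_
  show α ((bG x y z : Matrix (Fin 2) (Fin 2) F) 0 0) * β ((bG x y z : Matrix (Fin 2) (Fin 2) F) 1 1) * conj (φ (bG x y z)) = _
  rw [bG_coe]
  rfl

theorem classFn_RG (α β : MulChar F ℂ) : IsClassFunction (GL (Fin 2) F) (RG α β) := indFun_classFn _ _

theorem inner_RG_RG (α β α' β' : MulChar F ℂ) [Decidable (α = α')] [Decidable (β = β')] [Decidable (α = β')] [Decidable (β = α')] :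
    classInner (RG α β) (RG α' β') = (if α = α' then 1 else 0) * (if β = β' then 1 else 0) +
      (if α = β' then 1 else 0) * (if β = α' then 1 else 0) := by
  rw [inner_RG α β _ (classFn_RG α' β')]
  have e : ∀ x y : Fˣ, α x * β y * conj (JG (RG α' β') x y) =
      (Fintype.card F : ℂ) * ((α x * conj (α' x)) * (β y * conj (β' y))) + (Fintype.card F : ℂ) * ((α x * conj (β' x)) * (β y * conj (α' y))) := by
    intro x y
    rw [JG_RG, map_mul, map_add, map_mul, map_mul, Complex.conj_natCast]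
    ring
  have e2 : ∑ x : Fˣ, ∑ y : Fˣ, α x * β y * conj (JG (RG α' β') x y) =
      (Fintype.card F : ℂ) * ((∑ x : Fˣ, α x * conj (α' x)) * (∑ y : Fˣ, β y * conj (β' y))) +
      (Fintype.card F : ℂ) * ((∑ x : Fˣ, α x * conj (β' x)) * (∑ y : Fˣ, β y * conj (α' y))) := by
    rw [Finset.sum_mul_sum, Finset.sum_mul_sum, Finset.mul_sum, Finset.mul_sum, ← Finset.sum_add_distrib]
    refine Finset.sum_congr rfl fun x _ => ?_
    rw [Finset.mul_sum, Finset.mul_sum, ← Finset.sum_add_distrib]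
    exact Finset.sum_congr rfl fun y _ => e x y
  rw [e2, mulChar_orth, mulChar_orth, mulChar_orth, mulChar_orth]
  have h1 := q_ne (F := F)
  have h2 := q_sub_ne (F := F)
  split_ifs <;> field_simp <;> ring

end Cfsg.Agent.Lib.Tw
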