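import Mathlib
import Cfsg.Agent.Lib.Tw9
import Cfsg.Agent.Lib.CharNormal

/-! Principal series characters of `GL_2` and `SL_2`. -/

set_option linter.all false
set_option maxHeartbeats 400000

namespace Cfsg.Agent.Lib.Tw

open Matrix Module Cfsg Cfsg.Agent.Lib.CharBasic Cfsg.Agent.Lib.CharInd
open scoped MatrixGroups ComplexConjugate

variable {F : Type*} [Field F] [Fintype F] [DecidableEq F]

/-- the linear character of the upper triangular group -/
noncomputable def linG (α β : MulChar F ℂ) : Cfsg.upperTriangularGL 2 F →* ℂ where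
  toFun b := α (((b : GL (Fin 2) F) : Matrix (Fin 2) (Fin 2) F) 0 0) * β (((b : GL (Fin 2) F) : Matrix (Fin 2) (Fin 2) F) 1 1)
  map_one' := by simp
  map_mul' a b := by
    have ha := mem_ut.mp a.2
    have hb := mem_ut.mp b.2
    have h0 : (((a * b : Cfsg.upperTriangularGL 2 F) : GL (Fin 2) F) : Matrix (Fin 2) (Fin 2) F) 0 0 =
        ((a : GL (Fin 2) F) : Matrix (Fin 2) (Fin 2) F) 0 0 * ((b : GL (Fin 2) F) : Matrix (Fin 2) (Fin 2) F) 0 0 := by
      show (((a : GL (Fin 2) F) : Matrix (Fin 2) (Fin 2) F) * ((b : GL (Fin 2) F) : Matrix (Fin 2) (Fin 2) F)) 0 0 = _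
      rw [Matrix.mul_apply, Fin.sum_univ_two, hb, mul_zero, add_zero]
    have h1 : (((a * b : Cfsg.upperTriangularGL 2 F) : GL (Fin 2) F) : Matrix (Fin 2) (Fin 2) F) 1 1 =
        ((a : GL (Fin 2) F) : Matrix (Fin 2) (Fin 2) F) 1 1 * ((b : GL (Fin 2) F) : Matrix (Fin 2) (Fin 2) F) 1 1 := by
      show (((a : GL (Fin 2) F) : Matrix (Fin 2) (Fin 2) F) * ((b : GL (Fin 2) F) : Matrix (Fin 2) (Fin 2) F)) 1 1 = _
      rw [Matrix.mul_apply, Fin.sum_univ_two, ha, zero_mul, zero_add]
    rw [h0, h1, map_mul, map_mul]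
    ring

/-- the linear character of the upper triangular group -/
noncomputable def linS (α : MulChar F ℂ) : (Cfsg.upperTriangularGL 2 F).comap (Matrix.SpecialLinearGroup.toGL (n := Fin 2) (R := F)) →* ℂ where
  toFun b := α (((b : Matrix.SpecialLinearGroup (Fin 2) F) : Matrix (Fin 2) (Fin 2) F) 0 0)
  map_one' := by simp
  map_mul' a b := by
    have hb : ((b : SL(2, F)) : Matrix (Fin 2) (Fin 2) F) 1 0 = 0 := mem_ut.mp b.2
    have h0 : (((a * b : (Cfsg.upperTriangularGL 2 F).comap (Matrix.SpecialLinearGroup.toGL (n := Fin 2) (R := F))) : SL(2, F)) : Matrix (Fin 2) (Fin 2) F) 0 0 =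
        ((a : SL(2, F)) : Matrix (Fin 2) (Fin 2) F) 0 0 * ((b : SL(2, F)) : Matrix (Fin 2) (Fin 2) F) 0 0 := by
      show (((a : SL(2, F)) : Matrix (Fin 2) (Fin 2) F) * ((b : SL(2, F)) : Matrix (Fin 2) (Fin 2) F)) 0 0 = _
      rw [Matrix.mul_apply, Fin.sum_univ_two, hb, mul_zero, add_zero]
    rw [h0, map_mul]

theorem isChar_of_hom {H : Type*} [Group H] (f : H →* ℂ) : IsCharacter H (fun b => f b) := by
  have := isChar_of_irr (isIrr_lin f.toHomUnits)
  exact this

theorem isChar_RG (α β : MulChar F ℂ) : IsCharacter (GL (Fin 2) F) (RG α β) :=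
  isChar_ind _ (isChar_of_hom (linG α β))

theorem isChar_RS (α : MulChar F ℂ) : IsCharacter SL(2, F) (RS α) :=
  isChar_ind _ (isChar_of_hom (linS α))

theorem isIrr_RG {α β : MulChar F ℂ} (h : α ≠ β) : IsIrrCharacter (GL (Fin 2) F) (RG α β) := by
  classical
  apply isIrr_of_inner_self_one (isChar_RG α β)
  rw [inner_RG_RG, if_pos rfl, if_pos rfl, if_neg h, zero_mul, mul_one, add_zero]

theorem isIrr_RS_iff {α : MulChar F ℂ} : IsIrrCharacter SL(2, F) (RS α) ↔ α ^ 2 ≠ 1 := by
  classical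
  rw [isIrr_iff_inner_self (isChar_RS α), inner_RS_RS, if_pos rfl]
  have h1 : α = α⁻¹ ↔ α ^ 2 = 1 := by
    rw [pow_two, ← mul_eq_one_iff_eq_inv]
  constructor
  · intro h h2
    rw [if_pos (h1.mpr h2)] at h
    norm_num at h
  · intro h
    rw [if_neg (fun h2 => h (h1.mp h2)), add_zero]

theorem RG_comm (α β : MulChar F ℂ) : RG α β = RG β α := by
  classical
  rw [← sub_eq_zero]
  apply classInner_self_eq_zero
  rw [classInner_sub_left, classInner_sub_right, classInner_sub_right, inner_RG_RG, inner_RG_RG, inner_RG_RG, inner_RG_RG]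
  by_cases h : α = β
  · subst h; simp
  · have h' : ¬ β = α := fun h2 => h h2.symm
    simp [h, h']

theorem RG_eq_iff {α β α' β' : MulChar F ℂ} : RG α β = RG α' β' ↔ (α = α' ∧ β = β') ∨ (α = β' ∧ β = α') := by
  classical
  constructor
  · intro h
    have h1 := inner_RG_RG α β α β
    have h2 := inner_RG_RG α β α' β'
    rw [← h, h1] at h2
    by_contra hcon
    push Not at hcon
    obtain ⟨c1, c2⟩ := hcon
    have e1 : (if α = α' then (1 : ℂ) else 0) * (if β = β' then 1 else 0) = 0 := by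
      by_cases ha : α = α'
      · rw [if_neg (c1 ha), mul_zero]
      · rw [if_neg ha, zero_mul]
    have e2 : (if α = β' then (1 : ℂ) else 0) * (if β = α' then 1 else 0) = 0 := by
      by_cases ha : α = β'
      · rw [if_neg (c2 ha), mul_zero]
      · rw [if_neg ha, zero_mul]
    rw [e1, e2, if_pos rfl, if_pos rfl] at h2
    split_ifs at h2 <;> norm_num at h2
  · rintro (⟨rfl, rfl⟩ | ⟨rfl, rfl⟩)
    · rfl
    · exact RG_comm _ _

theorem RS_inv (α : MulChar F ℂ) : RS α = RS α⁻¹ := by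
  classical
  rw [← sub_eq_zero]
  apply classInner_self_eq_zero
  rw [classInner_sub_left, classInner_sub_right, classInner_sub_right, inner_RS_RS, inner_RS_RS, inner_RS_RS, inner_RS_RS]
  by_cases h : α = α⁻¹
  · rw [← h]; simp
  · have h' : ¬ α⁻¹ = α := fun h2 => h h2.symm
    simp [h, h']

theorem RS_eq_iff {α β : MulChar F ℂ} : RS α = RS β ↔ α = β ∨ α = β⁻¹ := by
  classical
  constructor
  · intro h
    have h1 := inner_RS_RS α α
    have h2 := inner_RS_RS α β
    rw [← h, h1] at h2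
    by_contra hcon
    push Not at hcon
    rw [if_neg hcon.1, if_neg hcon.2, if_pos rfl] at h2
    split_ifs at h2 <;> norm_num at h2
  · rintro (rfl | rfl)
    · rfl
    · exact (RS_inv _).symm

end Cfsg.Agent.Lib.Tw
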