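import Mathlib
import Cfsg.Agent.Lib.Tw10
import Cfsg.Agent.Lib.CharInt

/-! Fourier inversion for multiplicative characters; irreducible characters of `GL_2`. -/

set_option linter.all false
set_option maxHeartbeats 400000

namespace Cfsg.Agent.Lib.Tw

open Matrix Module Cfsg Cfsg.Agent.Lib.CharBasic Cfsg.Agent.Lib.CharInd
open scoped MatrixGroups ComplexConjugate

variable {F : Type*} [Field F] [Fintype F] [DecidableEq F]

noncomputable instance tw_fintype_mulChar : Fintype (MulChar F ℂ) := Fintype.ofFinite _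

theorem card_mulChar : Nat.card (MulChar F ℂ) = Fintype.card F - 1 := by
  rw [MulChar.card_eq_card_units_of_hasEnoughRootsOfUnity F ℂ, Nat.card_units, Nat.card_eq_fintype_card]

theorem sum_mulChar (z : Fˣ) : ∑ α : MulChar F ℂ, α z = if z = 1 then ((Fintype.card F : ℂ) - 1) else 0 := by
  split_ifs with h
  · subst h
    simp only [Units.val_one, map_one, Finset.sum_const, nsmul_eq_mul, mul_one]
    rw [Finset.card_univ, ← Nat.card_eq_fintype_card, card_mulChar, Nat.cast_sub Fintype.card_pos, Nat.cast_one]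
  · have hz : (z : F) ≠ 1 := fun h2 => h (Units.ext h2)
    obtain ⟨β, hβ⟩ := MulChar.exists_apply_ne_one_of_hasEnoughRootsOfUnity F ℂ hz
    have h1 : (β z) * ∑ α : MulChar F ℂ, α z = ∑ α : MulChar F ℂ, α z := by
      rw [Finset.mul_sum, ← Equiv.sum_comp (Equiv.mulLeft β) (fun α : MulChar F ℂ => α z)]
      refine Finset.sum_congr rfl fun α _ => ?_
      rw [Equiv.coe_mulLeft, MulChar.mul_apply]
    have h2 : (β z - 1) * ∑ α : MulChar F ℂ, α z = 0 := by rw [sub_mul, h1, one_mul, sub_self]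
    exact (mul_eq_zero.mp h2).resolve_left (sub_ne_zero.mpr hβ)

theorem four_one {φ : Fˣ → ℂ} (h : ∀ α : MulChar F ℂ, ∑ x : Fˣ, α x * conj (φ x) = 0) (y : Fˣ) : φ y = 0 := by
  have h1 : ∑ α : MulChar F ℂ, (α (y⁻¹ : Fˣ)) * ∑ x : Fˣ, α x * conj (φ x) = 0 := by
    apply Finset.sum_eq_zero
    intro α _
    rw [h, mul_zero]
  have h2 : ∑ α : MulChar F ℂ, (α (y⁻¹ : Fˣ)) * ∑ x : Fˣ, α x * conj (φ x) = ((Fintype.card F : ℂ) - 1) * conj (φ y) := by
    have e : ∀ α : MulChar F ℂ, (α (y⁻¹ : Fˣ)) * ∑ x : Fˣ, α x * conj (φ x) = ∑ x : Fˣ, α ((y⁻¹ * x : Fˣ) : F) * conj (φ x) := by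
      intro α
      rw [Finset.mul_sum]
      refine Finset.sum_congr rfl fun x _ => ?_
      rw [Units.val_mul, map_mul]
      ring
    rw [Finset.sum_congr rfl (fun α _ => e α), Finset.sum_comm, Finset.sum_eq_single y]
    · rw [← Finset.sum_mul, sum_mulChar, inv_mul_cancel, if_pos rfl]
    · intro x _ hx
      rw [← Finset.sum_mul, sum_mulChar, if_neg, zero_mul]
      intro h
      exact hx (inv_mul_eq_one.mp h).symm
    · intro h; exact absurd (Finset.mem_univ _) h
  rw [h2] at h1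
  have := (mul_eq_zero.mp h1).resolve_left q_sub_ne
  rwa [map_eq_zero] at this

theorem four_two {φ : Fˣ → Fˣ → ℂ} (h : ∀ α β : MulChar F ℂ, ∑ x : Fˣ, ∑ y : Fˣ, α x * β y * conj (φ x y) = 0) (x y : Fˣ) :
    φ x y = 0 := by
  have h1 : ∀ β : MulChar F ℂ, ∀ x : Fˣ, ∑ y : Fˣ, conj (β y) * φ x y = 0 := by
    intro β x
    refine four_one (φ := fun x => ∑ y : Fˣ, conj (β y) * φ x y) (fun α => ?_) x
    rw [← h α β]
    refine Finset.sum_congr rfl fun x _ => ?_
    rw [map_sum, Finset.mul_sum]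
    refine Finset.sum_congr rfl fun y _ => ?_
    rw [map_mul, Complex.conj_conj]
    ring
  refine four_one (φ := fun y => φ x y) (fun β => ?_) y
  have := congrArg conj (h1 β x)
  rw [map_zero, map_sum] at this
  rw [← this]
  refine Finset.sum_congr rfl fun y _ => ?_
  rw [map_mul, Complex.conj_conj]

theorem JS_eq_zero {φ : SL(2, F) → ℂ} (hφ : IsClassFunction SL(2, F) φ) (h : ∀ α, classInner (RS α) φ = 0) (x : Fˣ) : JS φ x = 0 := by
  refine four_one (fun α => ?_) x
  have := h α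
  rw [inner_RS α φ hφ] at this
  exact (mul_eq_zero.mp this).resolve_left (inv_ne_zero (mul_ne_zero q_ne q_sub_ne))

theorem JG_eq_zero {φ : GL (Fin 2) F → ℂ} (hφ : IsClassFunction (GL (Fin 2) F) φ) (h : ∀ α β, classInner (RG α β) φ = 0) (x y : Fˣ) :
    JG φ x y = 0 := by
  refine four_two (fun α β => ?_) x y
  have := h α β
  rw [inner_RG α β φ hφ] at this
  exact (mul_eq_zero.mp this).resolve_left (inv_ne_zero (mul_ne_zero q_ne (pow_ne_zero _ q_sub_ne)))

/-- unipotent elements of `GL_2` -/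
theorem bG_par_conj {φ : GL (Fin 2) F → ℂ} (hφ : IsClassFunction (GL (Fin 2) F) φ) (x : Fˣ) {z : F} (hz : z ≠ 0) :
    φ (bG x x z) = φ (bG x x 1) := by
  apply classFn_isConj hφ
  apply isConj_GL
  · rintro ⟨h, _⟩; rw [bG_coe] at h; exact hz h
  · rintro ⟨h, _⟩; rw [bG_coe] at h; exact one_ne_zero h
  · rw [bG_coe, bG_coe, Matrix.trace_fin_two_of, Matrix.trace_fin_two_of]
  · rw [bG_coe, bG_coe, Matrix.det_fin_two_of, Matrix.det_fin_two_of]; ring

theorem bG_one_zero : bG (1 : Fˣ) 1 0 = 1 := by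
  apply Units.ext
  rw [bG_coe]
  ext i j
  fin_cases i <;> fin_cases j <;> simp

theorem JG_one {φ : GL (Fin 2) F → ℂ} (hφ : IsClassFunction (GL (Fin 2) F) φ) :
    JG φ 1 1 = φ 1 + ((Fintype.card F : ℂ) - 1) * φ (bG 1 1 1) := by
  unfold JG
  rw [← Finset.add_sum_erase _ _ (Finset.mem_univ (0 : F)), bG_one_zero,
    Finset.sum_congr rfl (fun z hz => bG_par_conj hφ 1 (Finset.ne_of_mem_erase hz)), Finset.sum_const,
    Finset.card_erase_of_mem (Finset.mem_univ _), Finset.card_univ, nsmul_eq_mul, Nat.cast_sub Fintype.card_pos, Nat.cast_one]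

theorem JG_split {φ : GL (Fin 2) F → ℂ} (hφ : IsClassFunction (GL (Fin 2) F) φ) {x y : Fˣ} (hxy : x ≠ y) :
    JG φ x y = (Fintype.card F : ℂ) * φ (bG x y 0) := by
  unfold JG
  have e : ∀ z : F, φ (bG x y z) = φ (bG x y 0) := by
    intro z
    apply classFn_isConj hφ
    have hx : (x : F) ≠ y := fun h => hxy (Units.ext h)
    apply isConj_GL
    · rintro ⟨_, _, h⟩; rw [bG_coe] at h; exact hx h
    · rintro ⟨_, _, h⟩; rw [bG_coe] at h; exact hx h
    · rw [bG_coe, bG_coe, Matrix.trace_fin_two_of, Matrix.trace_fin_two_of]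
    · rw [bG_coe, bG_coe, Matrix.det_fin_two_of, Matrix.det_fin_two_of]; ring
  rw [Finset.sum_congr rfl (fun z _ => e z), Finset.sum_const, Finset.card_univ, nsmul_eq_mul]

end Cfsg.Agent.Lib.Tw
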