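import Mathlib
import Cfsg.Agent.Lib.Tw11

/-! Irreducible characters of `GL_2`. -/

set_option linter.all false
set_option maxHeartbeats 400000

namespace Cfsg.Agent.Lib.Tw

open Matrix Module Cfsg Cfsg.Agent.Lib.CharBasic Cfsg.Agent.Lib.CharInd
open scoped MatrixGroups ComplexConjugate

variable {F : Type*} [Field F] [Fintype F] [DecidableEq F]

/-- linear characters of `GL_2` -/
noncomputable def linD (γ : MulChar F ℂ) : GL (Fin 2) F → ℂ := fun g => γ (g : Matrix (Fin 2) (Fin 2) F).det

theorem isIrr_linD (γ : MulChar F ℂ) : IsIrrCharacter (GL (Fin 2) F) (linD γ) := by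
  let f : GL (Fin 2) F →* ℂ :=
    { toFun := linD γ
      map_one' := by show γ (1 : Matrix (Fin 2) (Fin 2) F).det = 1; rw [Matrix.det_one, map_one]
      map_mul' := fun a b => by
        show γ ((a : Matrix (Fin 2) (Fin 2) F) * (b : Matrix (Fin 2) (Fin 2) F)).det = _
        rw [Matrix.det_mul, map_mul]; rfl }
  exact isIrr_lin f.toHomUnits

theorem linD_one (γ : MulChar F ℂ) : linD γ 1 = 1 := by
  show γ (1 : Matrix (Fin 2) (Fin 2) F).det = 1
  rw [Matrix.det_one, map_one]

theorem JG_linD (γ : MulChar F ℂ) (x y : Fˣ) : JG (linD γ) x y = (Fintype.card F : ℂ) * (γ x * γ y) := by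
  unfold JG
  have : ∀ z : F, linD γ (bG x y z) = γ x * γ y := by
    intro z
    show γ (bG x y z : Matrix (Fin 2) (Fin 2) F).det = _
    rw [bG_coe, Matrix.det_fin_two_of, mul_zero, sub_zero, map_mul]
  rw [Finset.sum_congr rfl (fun z _ => this z), Finset.sum_const, Finset.card_univ, nsmul_eq_mul]

theorem inner_RG_linD (α β γ : MulChar F ℂ) [Decidable (α = γ)] [Decidable (β = γ)] :
    classInner (RG α β) (linD γ) = (if α = γ then 1 else 0) * (if β = γ then 1 else 0) := by
  rw [inner_RG α β _ (isChar_classFn (isChar_of_irr (isIrr_linD γ)))]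
  have e2 : ∑ x : Fˣ, ∑ y : Fˣ, α x * β y * conj (JG (linD γ) x y) =
      (Fintype.card F : ℂ) * ((∑ x : Fˣ, α x * conj (γ x)) * (∑ y : Fˣ, β y * conj (γ y))) := by
    rw [Finset.sum_mul_sum, Finset.mul_sum]
    refine Finset.sum_congr rfl fun x _ => ?_
    rw [Finset.mul_sum]
    refine Finset.sum_congr rfl fun y _ => ?_
    rw [JG_linD, map_mul, map_mul, Complex.conj_natCast]
    ring
  rw [e2, mulChar_orth, mulChar_orth]
  have h1 := q_ne (F := F)
  have h2 := q_sub_ne (F := F)
  split_ifs <;> field_simp <;> ring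

/-- Steinberg characters -/
noncomputable def StG (α : MulChar F ℂ) : GL (Fin 2) F → ℂ := RG α α - linD α

theorem RG_one (α β : MulChar F ℂ) : RG α β 1 = (Fintype.card F : ℂ) + 1 := by
  rw [RG_sc α β (g := 1) (x := 1) (by simp), map_one, map_one, mul_one, mul_one]

theorem StG_one (α : MulChar F ℂ) : StG α 1 = Fintype.card F := by
  unfold StG
  rw [Pi.sub_apply, RG_one, linD_one, add_sub_cancel_right]

theorem isIrr_StG (α : MulChar F ℂ) : IsIrrCharacter (GL (Fin 2) F) (StG α) := by
  classical
  have h1 : classInner (RG α α) (linD α) = 1 := by rw [inner_RG_linD, if_pos rfl, mul_one]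
  apply isIrr_of_inner_self_one
  · exact CharNormal.isChar_sub_constituent (isChar_RG α α) (isIrr_linD α) (by rw [h1]; exact one_ne_zero)
  · unfold StG
    have h2 : classInner (linD α) (RG α α) = 1 := by rw [← classInner_conj_symm, h1, map_one]
    rw [classInner_sub_left, classInner_sub_right, classInner_sub_right, inner_RG_RG, h1, h2, irr_inner_self (isIrr_linD α), if_pos rfl]
    norm_num

theorem inner_RG_StG (α β γ : MulChar F ℂ) [Decidable (α = γ)] [Decidable (β = γ)] :
    classInner (RG α β) (StG γ) = (if α = γ then 1 else 0) * (if β = γ then 1 else 0) := by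
  unfold StG
  rw [classInner_sub_right, inner_RG_RG, inner_RG_linD]
  ring

/-- cuspidal -/
def CuspG (χ : GL (Fin 2) F → ℂ) : Prop := ∀ α β : MulChar F ℂ, classInner (RG α β) χ = 0

theorem cases_G {χ : GL (Fin 2) F → ℂ} (hχ : IsIrrCharacter (GL (Fin 2) F) χ) :
    (∃ α, χ = linD α) ∨ (∃ α, χ = StG α) ∨ (∃ α β, α ≠ β ∧ χ = RG α β) ∨ CuspG χ := by
  by_cases h : CuspG χ
  · exact Or.inr (Or.inr (Or.inr h))
  · unfold CuspG at h
    push Not at h
    obtain ⟨α, β, h⟩ := h
    by_cases hαβ : α = β
    · subst hαβ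
      have e : RG α α = linD α + StG α := by unfold StG; ring
      rw [e, classInner_add_left] at h
      by_cases h2 : classInner (linD α) χ = 0
      · rw [h2, zero_add] at h
        exact Or.inr (Or.inl ⟨α, (irr_eq_of_inner_ne_zero (isIrr_StG α) hχ h).symm⟩)
      · exact Or.inl ⟨α, (irr_eq_of_inner_ne_zero (isIrr_linD α) hχ h2).symm⟩
    · exact Or.inr (Or.inr (Or.inl ⟨α, β, hαβ, (irr_eq_of_inner_ne_zero (isIrr_RG hαβ) hχ h).symm⟩))

theorem cusp_one {χ : GL (Fin 2) F → ℂ} (hχ : IsIrrCharacter (GL (Fin 2) F) χ) (h : CuspG χ) :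
    χ 1 + ((Fintype.card F : ℂ) - 1) * χ (bG 1 1 1) = 0 := by
  have hcl := isChar_classFn (isChar_of_irr hχ)
  rw [← JG_one hcl]
  exact JG_eq_zero hcl h 1 1

theorem cusp_dvd {χ : GL (Fin 2) F → ℂ} (hχ : IsIrrCharacter (GL (Fin 2) F) χ) (h : CuspG χ) {d : ℕ} (hd : χ 1 = d) :
    Fintype.card F - 1 ∣ d := by
  have hq : 1 < Fintype.card F := Fintype.one_lt_card
  apply CharInt.nat_dvd_of_isIntegral (by omega)
  have h1 := cusp_one hχ h
  have h2 : (d : ℂ) / ((Fintype.card F - 1 : ℕ) : ℂ) = - χ (bG 1 1 1) := by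
    rw [Nat.cast_sub hq.le, Nat.cast_one, div_eq_iff q_sub_ne, ← hd]
    linear_combination h1
  rw [h2]
  exact (char_isIntegral (isChar_of_irr hχ) _).neg

/-- all irreducible characters -/
noncomputable def eG : MulChar F ℂ ⊕ (MulChar F ℂ ⊕ ({s : Sym2 (MulChar F ℂ) // ¬ s.IsDiag} ⊕
    {χ : IrrCharacter (GL (Fin 2) F) // CuspG χ.1})) → IrrCharacter (GL (Fin 2) F) :=
  Sum.elim (fun α => ⟨linD α, isIrr_linD α⟩) (Sum.elim (fun α => ⟨StG α, isIrr_StG α⟩)
    (Sum.elim (fun s => ⟨Sym2.lift ⟨fun α β => RG α β, RG_comm⟩ s.1, by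
      obtain ⟨s, hs⟩ := s
      induction s with
      | _ α β =>
        rw [Sym2.isDiag_iff_proj_eq] at hs
        exact isIrr_RG hs⟩) (fun χ => χ.1)))

theorem eG_bij : Function.Bijective (eG (F := F)) := by
  classical
  have hq : 1 < Fintype.card F := Fintype.one_lt_card
  have q1 : (1 : ℂ) ≠ (Fintype.card F : ℂ) := by
    intro h; have : ((1 : ℕ) : ℂ) = (Fintype.card F : ℂ) := by exact_mod_cast h
    have := Nat.cast_injective this; omega
  have q2 : (1 : ℂ) ≠ (Fintype.card F : ℂ) + 1 := by
    intro h; have : ((1 : ℕ) : ℂ) = ((Fintype.card F + 1 : ℕ) : ℂ) := by push_cast; exact h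
    have := Nat.cast_injective this; omega
  have q3 : (Fintype.card F : ℂ) ≠ (Fintype.card F : ℂ) + 1 := by
    intro h
    exact one_ne_zero (α := ℂ) (by linear_combination -h)
  constructor
  · rintro (α | α | ⟨s, hs⟩ | χ) (α' | α' | ⟨s', hs'⟩ | χ') h
    · have h1 : linD α = linD α' := congrArg Subtype.val h
      have h2 := inner_RG_linD α α α
      rw [h1, inner_RG_linD, if_pos rfl] at h2
      by_cases hα : α = α'
      · rw [hα]
      · rw [if_neg hα] at h2; norm_num at h2
    · have h1 : linD α = StG α' := congrArg Subtype.val h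
      have h2 := congrFun h1 1
      rw [linD_one, StG_one] at h2
      exact absurd h2 q1
    · induction s' with
      | _ a b =>
        have h1 : linD α = RG a b := congrArg Subtype.val h
        have h2 := congrFun h1 1
        rw [linD_one, RG_one] at h2
        exact absurd h2 q2
    · have h1 : linD α = χ'.1.1 := congrArg Subtype.val h
      have h2 := χ'.2 α α
      rw [← h1, inner_RG_linD, if_pos rfl] at h2
      norm_num at h2
    · have h1 : linD α' = StG α := (congrArg Subtype.val h).symm
      have h2 := congrFun h1 1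
      rw [linD_one, StG_one] at h2
      exact absurd h2 q1
    · have h1 : StG α = StG α' := congrArg Subtype.val h
      have h2 := inner_RG_StG α α α
      rw [h1, inner_RG_StG, if_pos rfl] at h2
      by_cases hα : α = α'
      · rw [hα]
      · rw [if_neg hα] at h2; norm_num at h2
    · induction s' with
      | _ a b =>
        have h1 : StG α = RG a b := congrArg Subtype.val h
        have h2 := congrFun h1 1
        rw [StG_one, RG_one] at h2
        exact absurd h2 q3
    · have h1 : StG α = χ'.1.1 := congrArg Subtype.val h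
      have h2 := χ'.2 α α
      rw [← h1, inner_RG_StG, if_pos rfl] at h2
      norm_num at h2
    · induction s with
      | _ a b =>
        have h1 : linD α' = RG a b := (congrArg Subtype.val h).symm
        have h2 := congrFun h1 1
        rw [linD_one, RG_one] at h2
        exact absurd h2 q2
    · induction s with
      | _ a b =>
        have h1 : StG α' = RG a b := (congrArg Subtype.val h).symm
        have h2 := congrFun h1 1
        rw [StG_one, RG_one] at h2
        exact absurd h2 q3
    · induction s with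
      | _ a b =>
        induction s' with
        | _ a' b' =>
          have h1 : RG a b = RG a' b' := congrArg Subtype.val h
          rw [RG_eq_iff] at h1
          have : s(a, b) = s(a', b') := by
            rw [Sym2.eq_iff]; exact h1
          simp only [this]
    · induction s with
      | _ a b =>
        have h1 : RG a b = χ'.1.1 := congrArg Subtype.val h
        have h2 := χ'.2 a b
        rw [← h1, inner_RG_RG, if_pos rfl, if_pos rfl] at h2
        split_ifs at h2 <;> norm_num at h2
    · have h1 : linD α' = χ.1.1 := (congrArg Subtype.val h).symm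
      have h2 := χ.2 α' α'
      rw [← h1, inner_RG_linD, if_pos rfl] at h2
      norm_num at h2
    · have h1 : StG α' = χ.1.1 := (congrArg Subtype.val h).symm
      have h2 := χ.2 α' α'
      rw [← h1, inner_RG_StG, if_pos rfl] at h2
      norm_num at h2
    · induction s' with
      | _ a b =>
        have h1 : RG a b = χ.1.1 := (congrArg Subtype.val h).symm
        have h2 := χ.2 a b
        rw [← h1, inner_RG_RG, if_pos rfl, if_pos rfl] at h2
        split_ifs at h2 <;> norm_num at h2
    · have h1 : χ = χ' := Subtype.ext h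
      rw [h1]
  · intro χ
    rcases cases_G χ.2 with ⟨α, h⟩ | ⟨α, h⟩ | ⟨α, β, hαβ, h⟩ | h
    · exact ⟨Sum.inl α, Subtype.ext h.symm⟩
    · exact ⟨Sum.inr (Sum.inl α), Subtype.ext h.symm⟩
    · exact ⟨Sum.inr (Sum.inr (Sum.inl ⟨s(α, β), by rw [Sym2.isDiag_iff_proj_eq]; exact hαβ⟩)), Subtype.ext h.symm⟩
    · exact ⟨Sum.inr (Sum.inr (Sum.inr ⟨χ, h⟩)), rfl⟩

end Cfsg.Agent.Lib.Tw
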