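import Mathlib
import Cfsg.Agent.Lib.Tw12

/-! Degrees of the irreducible characters of `GL_2`. -/

set_option linter.all false
set_option maxHeartbeats 400000

namespace Cfsg.Agent.Lib.Tw

open Matrix Module Cfsg Cfsg.Agent.Lib.CharBasic Cfsg.Agent.Lib.CharInd
open scoped MatrixGroups ComplexConjugate

variable {F : Type*} [Field F] [Fintype F] [DecidableEq F]

/-- numerical input: equality of sums of squares -/
theorem all_eq {ι : Type*} [Fintype ι] {d : ι → ℕ} {m : ℕ} (h1 : ∀ i, m ≤ d i) (h2 : ∑ i, d i ^ 2 = Fintype.card ι * m ^ 2) (i : ι) :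
    d i = m := by
  have h3 : ∑ i : ι, m ^ 2 = ∑ i, d i ^ 2 := by
    rw [h2, Finset.sum_const, Finset.card_univ, smul_eq_mul]
  have h4 := (Finset.sum_eq_sum_iff_of_le (fun i _ => Nat.pow_le_pow_left (h1 i) 2)).mp h3 i (Finset.mem_univ i)
  exact (Nat.pow_left_injective two_ne_zero h4).symm

theorem cusp_degree_G {χ : GL (Fin 2) F → ℂ} (hχ : IsIrrCharacter (GL (Fin 2) F) χ) (h : CuspG χ) :
    χ 1 = (Fintype.card F : ℂ) - 1 := by
  classical
  haveI : Fintype {χ : IrrCharacter (GL (Fin 2) F) // CuspG χ.1} := Fintype.ofFinite _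
  have hq : 1 < Fintype.card F := Fintype.one_lt_card
  let E := Equiv.ofBijective _ (eG_bij (F := F))
  choose dd hdd using fun χ : IrrCharacter (GL (Fin 2) F) => isIrr_one_eq χ.2
  have hsq := CharTable.sum_sq_degrees dd (fun χ => (hdd χ).2)
  have hd0 : ∀ (χ : IrrCharacter (GL (Fin 2) F)) (n : ℕ), χ.1 1 = n → dd χ = n := by
    intro χ n hn
    have := (hdd χ).2.symm.trans hn
    exact_mod_cast this
  rw [← Equiv.sum_comp E, Fintype.sum_sum_type, Fintype.sum_sum_type, Fintype.sum_sum_type] at hsq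
  have e1 : ∀ α : MulChar F ℂ, dd (E (Sum.inl α)) = 1 := fun α => hd0 _ 1 (by
    show linD α 1 = _; rw [linD_one]; norm_num)
  have e2 : ∀ α : MulChar F ℂ, dd (E (Sum.inr (Sum.inl α))) = Fintype.card F := fun α => hd0 _ _ (StG_one α)
  have e3 : ∀ s : {s : Sym2 (MulChar F ℂ) // ¬ s.IsDiag}, dd (E (Sum.inr (Sum.inr (Sum.inl s)))) = Fintype.card F + 1 := by
    rintro ⟨s, hs⟩
    induction s with
    | _ a b => exact hd0 _ _ (by
        show RG a b 1 = _; rw [RG_one]; push_cast; rfl)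
  have e4 : ∀ χ : {χ : IrrCharacter (GL (Fin 2) F) // CuspG χ.1}, E (Sum.inr (Sum.inr (Sum.inr χ))) = χ.1 := fun χ => rfl
  simp only [e1, e2, e3, e4, Finset.sum_const, Finset.card_univ, smul_eq_mul] at hsq
  have c1 : Fintype.card (MulChar F ℂ) = Fintype.card F - 1 := by rw [← Nat.card_eq_fintype_card, card_mulChar]
  have c3 : Fintype.card {s : Sym2 (MulChar F ℂ) // ¬ s.IsDiag} = (Fintype.card F - 1).choose 2 := by
    rw [Sym2.card_subtype_not_diag, c1]
  have c4 := Nat.card_congr E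
  rw [card_irr, card_classesGL, Nat.card_eq_fintype_card, Fintype.card_sum, Fintype.card_sum, Fintype.card_sum, c1, c3] at c4
  rw [c1, c3, SL2.card_GL2'] at hsq
  obtain ⟨k, hk⟩ : ∃ k, Fintype.card F = k + 1 := ⟨Fintype.card F - 1, by omega⟩
  have hk0 : 0 < k := by omega
  rw [hk] at hsq c4
  simp only [Nat.add_sub_cancel] at hsq c4
  have hch : 2 * k.choose 2 = k * (k - 1) := by
    rw [Nat.choose_two_right]
    exact Nat.mul_div_cancel' (Nat.even_mul_pred_self k).two_dvd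
  obtain ⟨j, hj⟩ : ∃ j, k = j + 1 := ⟨k - 1, by omega⟩
  rw [hj, Nat.add_sub_cancel] at hch
  rw [hj] at hsq c4
  have hsq1 : (j + 1 + 1) ^ 2 - 1 = (j + 1) * (j + 3) := by
    have : (j + 1 + 1) ^ 2 = (j + 1) * (j + 3) + 1 := by ring
    omega
  rw [hsq1] at c4
  set c := Fintype.card {χ : IrrCharacter (GL (Fin 2) F) // CuspG χ.1} with hc
  set S := ∑ χ : {χ : IrrCharacter (GL (Fin 2) F) // CuspG χ.1}, dd χ.1 ^ 2 with hS
  set C := (j + 1).choose 2 with hC
  have hfin : S = c * (j + 1) ^ 2 := by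
    have h2c : 2 * c = (j + 2) * (j + 1) := by nlinarith
    have h2S : 2 * S = (2 * c) * (j + 1) ^ 2 := by
      rw [h2c]
      nlinarith
    nlinarith
  have hdeg := all_eq (d := fun χ : {χ : IrrCharacter (GL (Fin 2) F) // CuspG χ.1} => dd χ.1) (m := j + 1) (fun χ => by
    have h5 := cusp_dvd χ.1.2 χ.2 (hdd χ.1).2
    have h6 := Nat.le_of_dvd (hdd χ.1).1 h5
    omega) hfin ⟨⟨χ, hχ⟩, h⟩
  have h7 := (hdd ⟨χ, hχ⟩).2
  have h8 : dd ⟨χ, hχ⟩ = j + 1 := hdeg
  rw [h8] at h7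
  have h9 : χ 1 = ((j + 1 : ℕ) : ℂ) := h7
  rw [h9, hk, hj]
  push_cast
  ring

theorem card_cusp_G : 2 * Nat.card {χ : IrrCharacter (GL (Fin 2) F) // CuspG χ.1} = Fintype.card F * (Fintype.card F - 1) := by
  classical
  haveI : Fintype {χ : IrrCharacter (GL (Fin 2) F) // CuspG χ.1} := Fintype.ofFinite _
  have hq : 1 < Fintype.card F := Fintype.one_lt_card
  let E := Equiv.ofBijective _ (eG_bij (F := F))
  have c1 : Fintype.card (MulChar F ℂ) = Fintype.card F - 1 := by rw [← Nat.card_eq_fintype_card, card_mulChar]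
  have c3 : Fintype.card {s : Sym2 (MulChar F ℂ) // ¬ s.IsDiag} = (Fintype.card F - 1).choose 2 := by
    rw [Sym2.card_subtype_not_diag, c1]
  have c4 := Nat.card_congr E
  rw [card_irr, card_classesGL, Nat.card_eq_fintype_card, Fintype.card_sum, Fintype.card_sum, Fintype.card_sum, c1, c3] at c4
  obtain ⟨k, hk⟩ : ∃ k, Fintype.card F = k + 1 := ⟨Fintype.card F - 1, by omega⟩
  have hk0 : 0 < k := by omega
  rw [Nat.card_eq_fintype_card]
  rw [hk] at c4 ⊢
  simp only [Nat.add_sub_cancel] at c4 ⊢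
  have hch : 2 * k.choose 2 = k * (k - 1) := by
    rw [Nat.choose_two_right]
    exact Nat.mul_div_cancel' (Nat.even_mul_pred_self k).two_dvd
  obtain ⟨j, hj⟩ : ∃ j, k = j + 1 := ⟨k - 1, by omega⟩
  rw [hj, Nat.add_sub_cancel] at hch
  rw [hj] at c4 ⊢
  have hsq1 : (j + 1 + 1) ^ 2 - 1 = (j + 1) * (j + 3) := by
    have : (j + 1 + 1) ^ 2 = (j + 1) * (j + 3) + 1 := by ring
    omega
  rw [hsq1] at c4
  nlinarith

end Cfsg.Agent.Lib.Tw
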