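import Mathlib
import Cfsg.Agent.Lib.Tw13

/-! Character values of `GL_2`. -/

set_option linter.all false
set_option maxHeartbeats 400000

namespace Cfsg.Agent.Lib.Tw

open Matrix Module Cfsg Cfsg.Agent.Lib.CharBasic Cfsg.Agent.Lib.CharInd
open scoped MatrixGroups ComplexConjugate

variable {F : Type*} [Field F] [Fintype F] [DecidableEq F]

/-- comparing degrees -/
theorem cast_q {a b : ℤ} (h : (Fintype.card F : ℂ) + a = b) : (Fintype.card F : ℤ) + a = b := by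
  have : (((Fintype.card F : ℤ) + a : ℤ) : ℂ) = ((b : ℤ) : ℂ) := by push_cast; exact h
  exact_mod_cast this

theorem card_gt : (1 : ℤ) < (Fintype.card F : ℤ) := by exact_mod_cast Fintype.one_lt_card (α := F)

theorem deg_G {χ : GL (Fin 2) F → ℂ} (hχ : IsIrrCharacter (GL (Fin 2) F) χ) :
    χ 1 = 1 ∨ χ 1 = (Fintype.card F : ℂ) - 1 ∨ χ 1 = (Fintype.card F : ℂ) ∨ χ 1 = (Fintype.card F : ℂ) + 1 := by
  rcases cases_G hχ with ⟨α, rfl⟩ | ⟨α, rfl⟩ | ⟨α, β, hαβ, rfl⟩ | h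
  · exact Or.inl (linD_one α)
  · exact Or.inr (Or.inr (Or.inl (StG_one α)))
  · exact Or.inr (Or.inr (Or.inr (RG_one α β)))
  · exact Or.inr (Or.inl (cusp_degree_G hχ h))

theorem norm_mulChar (α : MulChar F ℂ) {x : F} (hx : x ≠ 0) : ‖α x‖ = 1 := by
  have h1 : α x * conj (α x) = 1 := by
    have : conj (α x) = α⁻¹ x := MulChar.star_apply' α x
    rw [this, ← MulChar.mul_apply, mul_inv_cancel]
    exact MulChar.one_apply hx.isUnit
  rw [Complex.mul_conj] at h1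
  have h2 : Complex.normSq (α x) = 1 := by exact_mod_cast h1
  rw [Complex.normSq_eq_norm_sq] at h2
  exact (pow_eq_one_iff_of_nonneg (norm_nonneg _) two_ne_zero).mp h2

theorem of_deg_q {χ : GL (Fin 2) F → ℂ} (hχ : IsIrrCharacter (GL (Fin 2) F) χ) (h : χ 1 = Fintype.card F) : ∃ α, χ = StG α := by
  have hq := card_gt (F := F)
  rcases cases_G hχ with ⟨α, rfl⟩ | ⟨α, rfl⟩ | ⟨α, β, hαβ, rfl⟩ | h2
  · rw [linD_one] at h
    have := cast_q (F := F) (a := 0) (b := 1) (by push_cast; rw [add_zero]; exact h.symm)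
    omega
  · exact ⟨α, rfl⟩
  · rw [RG_one] at h
    exact absurd (by linear_combination h : (1 : ℂ) = 0) one_ne_zero
  · rw [cusp_degree_G hχ h2] at h
    exact absurd (by linear_combination -h : (1 : ℂ) = 0) one_ne_zero

theorem of_deg_q_add {χ : GL (Fin 2) F → ℂ} (hχ : IsIrrCharacter (GL (Fin 2) F) χ) (h : χ 1 = (Fintype.card F : ℂ) + 1) :
    ∃ α β, α ≠ β ∧ χ = RG α β := by
  have hq := card_gt (F := F)
  rcases cases_G hχ with ⟨α, rfl⟩ | ⟨α, rfl⟩ | ⟨α, β, hαβ, rfl⟩ | h2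
  · rw [linD_one] at h
    have := cast_q (F := F) (a := 1) (b := 1) (by push_cast; exact h.symm)
    omega
  · rw [StG_one] at h
    exact absurd (by linear_combination -h : (1 : ℂ) = 0) one_ne_zero
  · exact ⟨α, β, hαβ, rfl⟩
  · rw [cusp_degree_G hχ h2] at h
    exact absurd (by linear_combination -h : (2 : ℂ) = 0) two_ne_zero

theorem of_deg_q_sub {χ : GL (Fin 2) F → ℂ} (hχ : IsIrrCharacter (GL (Fin 2) F) χ) (h : χ 1 = (Fintype.card F : ℂ) - 1) :
    CuspG χ ∨ Fintype.card F = 2 := by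
  have hq := card_gt (F := F)
  rcases cases_G hχ with ⟨α, rfl⟩ | ⟨α, rfl⟩ | ⟨α, β, hαβ, rfl⟩ | h2
  · rw [linD_one] at h
    right
    have := cast_q (F := F) (a := -1) (b := 1) (by push_cast; rw [← sub_eq_add_neg]; exact h.symm)
    omega
  · rw [StG_one] at h
    exact absurd (by linear_combination h : (1 : ℂ) = 0) one_ne_zero
  · rw [RG_one] at h
    exact absurd (by linear_combination h : (2 : ℂ) = 0) two_ne_zero
  · exact Or.inl h2

theorem of_deg_one {χ : GL (Fin 2) F → ℂ} (hχ : IsIrrCharacter (GL (Fin 2) F) χ) (h : χ 1 = 1) (h3 : 3 ≤ Fintype.card F) :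
    ∃ α, χ = linD α := by
  rcases cases_G hχ with ⟨α, rfl⟩ | ⟨α, rfl⟩ | ⟨α, β, hαβ, rfl⟩ | h2
  · exact ⟨α, rfl⟩
  · rw [StG_one] at h
    have := cast_q (F := F) (a := 0) (b := 1) (by push_cast; rw [add_zero]; exact h)
    omega
  · rw [RG_one] at h
    have := cast_q (F := F) (a := 1) (b := 1) (by push_cast; exact h)
    omega
  · rw [cusp_degree_G hχ h2] at h
    have := cast_q (F := F) (a := -1) (b := 1) (by push_cast; rw [← sub_eq_add_neg]; exact h)
    omega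

/-- cuspidal characters vanish on split regular elements -/
theorem cusp_split {χ : GL (Fin 2) F → ℂ} (hχ : IsIrrCharacter (GL (Fin 2) F) χ) (h : CuspG χ) {x y : Fˣ} (hxy : x ≠ y) :
    χ (bG x y 0) = 0 := by
  have hcl := isChar_classFn (isChar_of_irr hχ)
  have h1 := JG_split hcl hxy
  rw [JG_eq_zero hcl h x y] at h1
  exact (mul_eq_zero.mp h1.symm).resolve_left q_ne

theorem eq_bG {g : GL (Fin 2) F} (h01 : (g : Matrix (Fin 2) (Fin 2) F) 0 1 = 0) (h10 : (g : Matrix (Fin 2) (Fin 2) F) 1 0 = 0)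
    (hne : (g : Matrix (Fin 2) (Fin 2) F) 0 0 ≠ (g : Matrix (Fin 2) (Fin 2) F) 1 1) : ∃ x y : Fˣ, x ≠ y ∧ g = bG x y 0 := by
  have hd : (g : Matrix (Fin 2) (Fin 2) F).det ≠ 0 := ((Matrix.isUnit_iff_isUnit_det _).mp g.isUnit).ne_zero
  rw [Matrix.det_fin_two, h10, mul_zero, sub_zero] at hd
  refine ⟨Units.mk0 _ (left_ne_zero_of_mul hd), Units.mk0 _ (right_ne_zero_of_mul hd), fun h => hne (congrArg Units.val h), ?_⟩
  apply Units.ext
  rw [bG_coe]
  ext i j
  fin_cases i <;> fin_cases j <;> simp [h01, h10]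

theorem card_deg_one (h3 : 3 ≤ Fintype.card F) :
    Nat.card {χ : IrrCharacter (GL (Fin 2) F) // (χ : GL (Fin 2) F → ℂ) 1 = 1} = Fintype.card F - 1 := by
  rw [← card_mulChar (F := F)]
  refine Nat.card_congr (Equiv.symm (Equiv.ofBijective (fun α => ⟨⟨linD α, isIrr_linD α⟩, linD_one α⟩) ⟨?_, ?_⟩))
  · intro α β h
    have h1 := eG_bij.1 (a₁ := Sum.inl α) (a₂ := Sum.inl β) (congrArg Subtype.val h)
    exact Sum.inl_injective h1
  · rintro ⟨χ, hχ⟩
    obtain ⟨α, hα⟩ := of_deg_one χ.2 hχ h3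
    exact ⟨α, Subtype.ext (Subtype.ext hα.symm)⟩

theorem card_deg_q :
    Nat.card {χ : IrrCharacter (GL (Fin 2) F) // (χ : GL (Fin 2) F → ℂ) 1 = (Fintype.card F : ℂ)} = Fintype.card F - 1 := by
  rw [← card_mulChar (F := F)]
  refine Nat.card_congr (Equiv.symm (Equiv.ofBijective (fun α => ⟨⟨StG α, isIrr_StG α⟩, StG_one α⟩) ⟨?_, ?_⟩))
  · intro α β h
    have h1 := eG_bij.1 (a₁ := Sum.inr (Sum.inl α)) (a₂ := Sum.inr (Sum.inl β)) (congrArg Subtype.val h)
    exact Sum.inl_injective (Sum.inr_injective h1)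
  · rintro ⟨χ, hχ⟩
    obtain ⟨α, hα⟩ := of_deg_q χ.2 hχ
    exact ⟨α, Subtype.ext (Subtype.ext hα.symm)⟩

theorem card_deg_q_add :
    Nat.card {χ : IrrCharacter (GL (Fin 2) F) // (χ : GL (Fin 2) F → ℂ) 1 = (Fintype.card F : ℂ) + 1} =
      (Fintype.card F - 1) * (Fintype.card F - 2) / 2 := by
  classical
  have c1 : Fintype.card (MulChar F ℂ) = Fintype.card F - 1 := by rw [← Nat.card_eq_fintype_card, card_mulChar]
  have c3 : Nat.card {s : Sym2 (MulChar F ℂ) // ¬ s.IsDiag} = (Fintype.card F - 1).choose 2 := by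
    rw [Nat.card_eq_fintype_card, Sym2.card_subtype_not_diag, c1]
  rw [show (Fintype.card F - 1) * (Fintype.card F - 2) / 2 = (Fintype.card F - 1).choose 2 by rw [Nat.choose_two_right]; rfl, ← c3]
  refine Nat.card_congr (Equiv.symm (Equiv.ofBijective (fun s => ⟨eG (Sum.inr (Sum.inr (Sum.inl s))), ?_⟩) ⟨?_, ?_⟩))
  · obtain ⟨s, hs⟩ := s
    induction s with
    | _ a b => exact RG_one a b
  · intro α β h
    have h1 := eG_bij.1 (a₁ := Sum.inr (Sum.inr (Sum.inl α))) (a₂ := Sum.inr (Sum.inr (Sum.inl β))) (congrArg Subtype.val h)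
    exact Sum.inl_injective (Sum.inr_injective (Sum.inr_injective h1))
  · rintro ⟨χ, hχ⟩
    obtain ⟨α, β, hαβ, hα⟩ := of_deg_q_add χ.2 hχ
    exact ⟨⟨s(α, β), by rw [Sym2.isDiag_iff_proj_eq]; exact hαβ⟩, Subtype.ext (Subtype.ext hα.symm)⟩

theorem card_deg_q_sub (h3 : 3 ≤ Fintype.card F) :
    Nat.card {χ : IrrCharacter (GL (Fin 2) F) // (χ : GL (Fin 2) F → ℂ) 1 = (Fintype.card F : ℂ) - 1} =
      Fintype.card F * (Fintype.card F - 1) / 2 := by
  have h1 : Nat.card {χ : IrrCharacter (GL (Fin 2) F) // (χ : GL (Fin 2) F → ℂ) 1 = (Fintype.card F : ℂ) - 1} =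
      Nat.card {χ : IrrCharacter (GL (Fin 2) F) // CuspG χ.1} := by
    refine Nat.card_congr (Equiv.subtypeEquivRight (fun χ => ⟨fun h => ?_, fun h => cusp_degree_G χ.2 h⟩))
    rcases of_deg_q_sub χ.2 h with h | h
    · exact h
    · omega
  rw [h1]
  have := card_cusp_G (F := F)
  omega

end Cfsg.Agent.Lib.Tw
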