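import Mathlib
import Cfsg.Agent.Lib.Tw14
import Cfsg.Agent.Lib.CharClifford
import Cfsg.Agent.Lib.CharKer

/-! Irreducible characters of `SL_2` and their relation to those of `GL_2`. -/

set_option linter.all false
set_option maxHeartbeats 400000

namespace Cfsg.Agent.Lib.Tw

open Matrix Module Cfsg Cfsg.Agent.Lib.CharBasic Cfsg.Agent.Lib.CharInd
open scoped MatrixGroups ComplexConjugate

section clif

variable {G1 G : Type*} [Group G1] [Group G] [Fintype G1] [Fintype G] (ι : G1 →* G)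

theorem exists_above (hι : Function.Injective ι) {χ : G1 → ℂ} (hχ : IsIrrCharacter G1 χ) :
    ∃ θ : G → ℂ, IsIrrCharacter G θ ∧ classInner (fun g => θ (ι g)) χ ≠ 0 := by
  classical
  let e : G1 ≃* ι.range := MonoidHom.ofInjective hι
  haveI : Fintype ι.range := Fintype.ofFinite _
  let χ' : ι.range → ℂ := fun n => χ (e.symm n)
  have h1 : IsIrrCharacter ι.range χ' := isIrr_comp_surjective e.symm.toMonoidHom e.symm.surjective hχ
  have h2 : IsCharacter G (indFun ι.range χ') := isChar_ind _ (isChar_of_irr h1)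
  have h3 : indFun ι.range χ' ≠ 0 := by
    intro h
    have h4 := congrFun h 1
    rw [indFun_one, Pi.zero_apply] at h4
    rcases mul_eq_zero.mp h4 with h5 | h5
    · exact Subgroup.index_ne_zero_of_finite (Nat.cast_eq_zero.mp h5)
    · exact isIrr_one_ne_zero h1 h5
  obtain ⟨θ, hθ⟩ := char_ne_zero_exists_constituent h2 h3
  refine ⟨θ.1, θ.2, ?_⟩
  rw [reciprocity _ _ _ (isChar_classFn (isChar_of_irr θ.2))] at hθ
  have h5 : classInner (fun g => θ.1 (ι g)) χ = classInner (fun h : ι.range => θ.1 h) χ' := by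
    have := CharKer.inner_comp_surj e.toMonoidHom e.surjective (fun h : ι.range => θ.1 h) χ'
    rw [← this]
    congr 1
    funext g
    show χ g = χ (e.symm (e g))
    rw [e.symm_apply_apply]
  rw [h5, ← classInner_conj_symm]
  exact fun h => hθ ((map_eq_zero (starRingEnd ℂ)).mp h)

theorem exists_conj (hι : Function.Injective ι) (hn : ι.range.Normal) {θ : G → ℂ} (hθ : IsIrrCharacter G θ)
    {χ ψ : G1 → ℂ} (hχ : IsIrrCharacter G1 χ) (hψ : IsIrrCharacter G1 ψ)
    (h1 : classInner (fun g => θ (ι g)) χ ≠ 0) (h2 : classInner (fun g => θ (ι g)) ψ ≠ 0) :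
    ∃ x : G, ∀ g h : G1, ι h = x * ι g * x⁻¹ → χ h = ψ g := by
  classical
  let e : G1 ≃* ι.range := MonoidHom.ofInjective hι
  haveI : Fintype ι.range := Fintype.ofFinite _
  have key : ∀ φ : G1 → ℂ, IsIrrCharacter G1 φ → classInner (fun g => θ (ι g)) φ ≠ 0 →
      IsIrrCharacter ι.range (fun n => φ (e.symm n)) ∧ classInner (fun h : ι.range => θ h) (fun n => φ (e.symm n)) ≠ 0 := by
    intro φ hφ hne
    refine ⟨isIrr_comp_surjective e.symm.toMonoidHom e.symm.surjective hφ, ?_⟩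
    have := CharKer.inner_comp_surj e.toMonoidHom e.surjective (fun h : ι.range => θ h) (fun n => φ (e.symm n))
    rw [← this]
    have e2 : (fun g => (fun n => φ (e.symm n)) (e.toMonoidHom g)) = φ := by
      funext g
      show φ (e.symm (e g)) = φ g
      rw [e.symm_apply_apply]
    rw [e2]
    exact hne
  obtain ⟨a1, a2⟩ := key χ hχ h1
  obtain ⟨b1, b2⟩ := key ψ hψ h2
  obtain ⟨x, hx⟩ := CharNormal.exists_cj_of_constituents hθ a1 b1 a2 b2
  refine ⟨x, fun g h hgh => ?_⟩
  have h3 := congrFun hx (e g)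
  rw [CharNormal.cj_apply] at h3
  have h4 : (⟨x * (e g : G) * x⁻¹, hn.conj_mem _ (e g).2 x⟩ : ι.range) = e h := Subtype.ext hgh.symm
  rw [h4] at h3
  simp only [e.symm_apply_apply] at h3
  exact h3.symm

end clif

variable {F : Type*} [Field F] [Fintype F] [DecidableEq F]

theorem toGL_inj : Function.Injective (Matrix.SpecialLinearGroup.toGL (n := Fin 2) (R := F)) := by
  intro a b h
  apply Subtype.ext
  exact congrArg Units.val h

theorem toGL_normal : (Matrix.SpecialLinearGroup.toGL (n := Fin 2) (R := F)).range.Normal := by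
  have h : (Matrix.SpecialLinearGroup.toGL (n := Fin 2) (R := F)).range = (Matrix.GeneralLinearGroup.det (n := Fin 2) (R := F)).ker := by
    ext g
    rw [MonoidHom.mem_range, MonoidHom.mem_ker]
    constructor
    · rintro ⟨a, rfl⟩
      apply Units.ext
      exact a.det_coe
    · intro hg
      refine ⟨⟨(g : Matrix (Fin 2) (Fin 2) F), congrArg Units.val hg⟩, Units.ext rfl⟩
  rw [h]
  infer_instance

theorem four_kinds (g : SL(2, F)) : (∃ x : F, x * x = 1 ∧ (g : Matrix (Fin 2) (Fin 2) F) = x • 1) ∨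
    (∃ x : F, NS (g : Matrix (Fin 2) (Fin 2) F) ∧ (g : Matrix (Fin 2) (Fin 2) F).trace = x + x ∧ x * x = 1) ∨
    (∃ x y : F, x ≠ y ∧ (g : Matrix (Fin 2) (Fin 2) F).trace = x + y ∧ x * y = 1) ∨ NE (g : Matrix (Fin 2) (Fin 2) F) := by
  by_cases hns : NS (g : Matrix (Fin 2) (Fin 2) F)
  · rcases root_cases (g : Matrix (Fin 2) (Fin 2) F).trace 1 with ⟨x, y, ht, hd⟩ | h
    · by_cases hxy : x = y
      · subst hxy
        exact Or.inr (Or.inl ⟨x, hns, ht, hd.symm⟩)
      · exact Or.inr (Or.inr (Or.inl ⟨x, y, hxy, ht, hd.symm⟩))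
    · refine Or.inr (Or.inr (Or.inr (ne_iff.mpr ?_)))
      intro c
      rw [g.det_coe]
      exact h c
  · left
    rcases not_ns_SL hns with h | h
    · refine ⟨1, mul_one 1, ?_⟩
      rw [h, one_smul]; rfl
    · refine ⟨-1, by ring, ?_⟩
      rw [h, neg_smul, one_smul]; rfl

theorem mulChar_inv_apply (β : MulChar F ℂ) {x y : F} (h : x * y = 1) : β⁻¹ x = β y := by
  rw [MulChar.inv_apply', ← eq_inv_of_mul_eq_one_right h]

theorem RG_res (α β : MulChar F ℂ) (g : SL(2, F)) : RG α β (Matrix.SpecialLinearGroup.toGL g) = RS (α * β⁻¹) g := by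
  rcases four_kinds g with ⟨x, hx, hg⟩ | ⟨x, hns, ht, hx⟩ | ⟨x, y, hxy, ht, hd⟩ | hne
  · rw [RG_sc α β (g := Matrix.SpecialLinearGroup.toGL g) (x := x) hg, RS_sc _ hg, MulChar.mul_apply, mulChar_inv_apply β hx]
  · rw [RG_par α β (g := Matrix.SpecialLinearGroup.toGL g) hns ht (g.det_coe.trans hx.symm), RS_par _ hns ht hx, MulChar.mul_apply, mulChar_inv_apply β hx]
  · rw [RG_split α β (g := Matrix.SpecialLinearGroup.toGL g) hxy ht (g.det_coe.trans hd.symm), RS_split _ hxy ht hd, MulChar.mul_apply, MulChar.mul_apply, mulChar_inv_apply β hd,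
      mulChar_inv_apply β ((mul_comm y x).trans hd)]
  · rw [RG_ne α β (g := Matrix.SpecialLinearGroup.toGL g) hne, RS_ne _ hne]

theorem linD_res (γ : MulChar F ℂ) (g : SL(2, F)) : linD γ (Matrix.SpecialLinearGroup.toGL g) = 1 := by
  show γ (g : Matrix (Fin 2) (Fin 2) F).det = 1
  rw [g.det_coe, map_one]

theorem inner_RS_one (α : MulChar F ℂ) [Decidable (α = 1)] :
    classInner (RS α) (fun _ : SL(2, F) => (1 : ℂ)) = if α = 1 then 1 else 0 := by
  rw [inner_RS α _ (classFn_const 1)]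
  have e : ∀ x : Fˣ, α x * conj (JS (fun _ : SL(2, F) => (1 : ℂ)) x) = (Fintype.card F : ℂ) * (α x * conj ((1 : MulChar F ℂ) x)) := by
    intro x
    rw [JS_one, Complex.conj_natCast, MulChar.one_apply_coe, map_one]
    ring
  rw [Finset.sum_congr rfl (fun x _ => e x), ← Finset.mul_sum, mulChar_orth]
  have h1 := q_ne (F := F)
  have h2 := q_sub_ne (F := F)
  split_ifs
  · field_simp
  · rw [mul_zero, mul_zero]

/-- Steinberg character of `SL_2` -/
noncomputable def StS : SL(2, F) → ℂ := RS 1 - fun _ => 1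

theorem RS_one (α : MulChar F ℂ) : RS α 1 = (Fintype.card F : ℂ) + 1 := by
  rw [RS_sc α (g := 1) (x := 1) (by simp), map_one, mul_one]

theorem StS_one : (StS (F := F)) 1 = Fintype.card F := by
  unfold StS
  rw [Pi.sub_apply, RS_one, add_sub_cancel_right]

theorem StG_res (α : MulChar F ℂ) (g : SL(2, F)) : StG α (Matrix.SpecialLinearGroup.toGL g) = StS g := by
  show RG α α _ - linD α _ = RS 1 g - 1
  rw [RG_res, linD_res, mul_inv_cancel]

theorem isIrr_StS : IsIrrCharacter SL(2, F) StS := by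
  classical
  have h1 : classInner (RS 1) (fun _ : SL(2, F) => (1 : ℂ)) = 1 := by rw [inner_RS_one, if_pos rfl]
  apply isIrr_of_inner_self_one
  · exact CharNormal.isChar_sub_constituent (isChar_RS 1) isIrr_trivial (by rw [h1]; exact one_ne_zero)
  · unfold StS
    have h2 : classInner (fun _ : SL(2, F) => (1 : ℂ)) (RS 1) = 1 := by rw [← classInner_conj_symm, h1, map_one]
    rw [classInner_sub_left, classInner_sub_right, classInner_sub_right, inner_RS_RS, h1, h2, irr_inner_self isIrr_trivial, if_pos rfl,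
      if_pos inv_one.symm]
    norm_num

theorem inner_RS_StS (α : MulChar F ℂ) [Decidable (α = 1)] : classInner (RS α) StS = if α = 1 then 1 else 0 := by
  classical
  unfold StS
  rw [classInner_sub_right, inner_RS_RS, inner_RS_one, inv_one]
  by_cases h : α = 1
  · rw [if_pos h, if_pos h]; norm_num
  · rw [if_neg h, if_neg h]; norm_num

/-- cuspidal characters of `SL_2` -/
def CuspS (χ : SL(2, F) → ℂ) : Prop := ∀ α : MulChar F ℂ, classInner (RS α) χ = 0

theorem not_cuspS_one : ¬ CuspS (fun _ : SL(2, F) => (1 : ℂ)) := by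
  classical
  intro h
  have := h 1
  rw [inner_RS_one, if_pos rfl] at this
  exact one_ne_zero this

theorem cases_S {χ : SL(2, F) → ℂ} (hχ : IsIrrCharacter SL(2, F) χ) :
    χ = (fun _ => 1) ∨ χ = StS ∨ (∃ α : MulChar F ℂ, α ^ 2 ≠ 1 ∧ χ = RS α) ∨
      (∃ α : MulChar F ℂ, α ^ 2 = 1 ∧ α ≠ 1 ∧ classInner (RS α) χ ≠ 0) ∨ CuspS χ := by
  by_cases h : CuspS χ
  · exact Or.inr (Or.inr (Or.inr (Or.inr h)))
  · unfold CuspS at h
    push Not at h
    obtain ⟨α, h⟩ := h
    by_cases h2 : α ^ 2 = 1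
    · by_cases h1 : α = 1
      · subst h1
        have e : (RS 1 : SL(2, F) → ℂ) = (fun _ => 1) + StS := by unfold StS; ring
        rw [e, classInner_add_left] at h
        by_cases h3 : classInner (fun _ : SL(2, F) => (1 : ℂ)) χ = 0
        · rw [h3, zero_add] at h
          exact Or.inr (Or.inl (irr_eq_of_inner_ne_zero isIrr_StS hχ h).symm)
        · exact Or.inl (irr_eq_of_inner_ne_zero isIrr_trivial hχ h3).symm
      · exact Or.inr (Or.inr (Or.inr (Or.inl ⟨α, h2, h1, h⟩)))
    · exact Or.inr (Or.inr (Or.inl ⟨α, h2, (irr_eq_of_inner_ne_zero (isIrr_RS_iff.mpr h2) hχ h).symm⟩))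

theorem cusp_above {χ : SL(2, F) → ℂ} (hχ : IsIrrCharacter SL(2, F) χ) (h : CuspS χ) :
    ∃ θ : GL (Fin 2) F → ℂ, IsIrrCharacter (GL (Fin 2) F) θ ∧ CuspG θ ∧
      classInner (fun g : SL(2, F) => θ (Matrix.SpecialLinearGroup.toGL g)) χ ≠ 0 := by
  obtain ⟨θ, hθ, hne⟩ := exists_above _ toGL_inj hχ
  refine ⟨θ, hθ, ?_, hne⟩
  have h1 : classInner (fun _ : SL(2, F) => (1 : ℂ)) χ = 0 := by
    by_contra h3
    have h4 := irr_eq_of_inner_ne_zero isIrr_trivial hχ h3
    exact not_cuspS_one (h4 ▸ h)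
  rcases cases_G hθ with ⟨α, rfl⟩ | ⟨α, rfl⟩ | ⟨α, β, hαβ, rfl⟩ | h2
  · exact absurd (by rw [← h1]; congr 1; funext g; exact linD_res α g) hne
  · refine absurd ?_ hne
    have e : (fun g : SL(2, F) => StG α (Matrix.SpecialLinearGroup.toGL g)) = RS 1 - fun _ => 1 := by
      funext g; exact StG_res α g
    rw [e, classInner_sub_left, h 1, h1, sub_zero]
  · refine absurd ?_ hne
    have e : (fun g : SL(2, F) => RG α β (Matrix.SpecialLinearGroup.toGL g)) = RS (α * β⁻¹) := by
      funext g; exact RG_res α β g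
    rw [e, h]
  · exact h2

theorem cusp_le {χ : SL(2, F) → ℂ} (hχ : IsIrrCharacter SL(2, F) χ) (h : CuspS χ) {n : ℕ} (hn : χ 1 = n) : n ≤ Fintype.card F - 1 := by
  obtain ⟨θ, hθ, hc, hne⟩ := cusp_above hχ h
  have h1 := degree_le_of_constituent (isChar_comp (Matrix.SpecialLinearGroup.toGL (n := Fin 2) (R := F)) (isChar_of_irr hθ)) hχ hne
  have h2 : (χ 1).re ≤ (θ 1).re := by simpa using h1
  have hq : 1 < Fintype.card F := Fintype.one_lt_card
  rw [hn, cusp_degree_G hθ hc] at h2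
  have h3 : ((Fintype.card F : ℂ) - 1) = ((Fintype.card F - 1 : ℕ) : ℂ) := by
    rw [Nat.cast_sub hq.le, Nat.cast_one]
  rw [h3, Complex.natCast_re, Complex.natCast_re] at h2
  exact_mod_cast h2

end Cfsg.Agent.Lib.Tw
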