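import Mathlib
import Cfsg.Agent.Lib.Tw15

/-! Cuspidal characters of `SL_2`: divisibility. -/

set_option linter.all false
set_option maxHeartbeats 400000

namespace Cfsg.Agent.Lib.Tw

open Matrix Module Cfsg Cfsg.Agent.Lib.CharBasic Cfsg.Agent.Lib.CharInd
open scoped MatrixGroups ComplexConjugate

variable {F : Type*} [Field F] [Fintype F] [DecidableEq F]

theorem bMk_one (z : F) : SL2.bMk 1 z = SL2.t z := by
  apply Subtype.ext
  show !![((1 : Fˣ) : F), z; 0, ((1⁻¹ : Fˣ) : F)] = !![1, z; 0, 1]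
  rw [inv_one, Units.val_one]

theorem JS_one_eq (φ : SL(2, F) → ℂ) : JS φ 1 = φ 1 + ∑ z ∈ Finset.univ.erase (0 : F), φ (SL2.t z) := by
  unfold JS
  simp only [bMk_one]
  rw [← Finset.add_sum_erase _ _ (Finset.mem_univ (0 : F)), SL2.t_zero]

/-- on a split element the sum over the coset is a multiple of the value -/
theorem JS_split {φ : SL(2, F) → ℂ} (hφ : IsClassFunction SL(2, F) φ) {x : Fˣ} (hx : x ≠ x⁻¹) :
    JS φ x = (Fintype.card F : ℂ) * φ (SL2.bMk x 0) := by
  unfold JS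
  have : ∀ z : F, φ (SL2.bMk x z) = φ (SL2.bMk x 0) := by
    intro z
    apply classFn_isConj hφ
    have hne : (x : F) ≠ ((x⁻¹ : Fˣ) : F) := fun h => hx (Units.ext h)
    have ns : ∀ z : F, NS (SL2.bMk x z : Matrix (Fin 2) (Fin 2) F) := by
      rintro z ⟨_, _, h⟩
      rw [SL2.bMk_coe] at h
      exact hne h
    have tr : ∀ z : F, (SL2.bMk x z : Matrix (Fin 2) (Fin 2) F).trace = (x : F) + ((x⁻¹ : Fˣ) : F) := by
      intro z
      rw [SL2.bMk_coe, Matrix.trace_fin_two_of]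
    refine isConj_SL (ns z) (ns 0) ((tr z).trans (tr 0).symm) ?_
    rw [tr z]
    have := un_split hne
    rwa [x.mul_inv] at this
  rw [Finset.sum_congr rfl (fun z _ => this z), Finset.sum_const, Finset.card_univ, nsmul_eq_mul]

theorem cusp_split_S {χ : SL(2, F) → ℂ} (hχ : IsIrrCharacter SL(2, F) χ) (h : CuspS χ) {x : Fˣ} (hx : x ≠ x⁻¹) :
    χ (SL2.bMk x 0) = 0 := by
  have hcl := isChar_classFn (isChar_of_irr hχ)
  have h1 := JS_split hcl hx
  rw [JS_eq_zero hcl h x] at h1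
  exact (mul_eq_zero.mp h1.symm).resolve_left q_ne

/-! even characteristic -/

theorem t_conj_even [CharP F 2] {z : F} (hz : z ≠ 0) : IsConj (SL2.t z) (SL2.t (1 : F)) := by
  rw [isConj_t_iff hz one_ne_zero]
  exact FiniteField.isSquare_of_char_two (ringChar.eq F 2 ▸ rfl) _

theorem cusp_degree_even [CharP F 2] {χ : SL(2, F) → ℂ} (hχ : IsIrrCharacter SL(2, F) χ) (h : CuspS χ) :
    χ 1 = (Fintype.card F : ℂ) - 1 := by
  have hq : 1 < Fintype.card F := Fintype.one_lt_card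
  have hcl := isChar_classFn (isChar_of_irr hχ)
  obtain ⟨n, hn0, hn⟩ := isIrr_one_eq hχ
  have h1 := JS_eq_zero hcl h 1
  rw [JS_one_eq, Finset.sum_congr rfl (fun z hz => classFn_isConj hcl (t_conj_even (Finset.ne_of_mem_erase hz))),
    Finset.sum_const, Finset.card_erase_of_mem (Finset.mem_univ _), Finset.card_univ, nsmul_eq_mul] at h1
  have h2 : Fintype.card F - 1 ∣ n := by
    apply CharInt.nat_dvd_of_isIntegral (by omega)
    have h3 : (n : ℂ) / ((Fintype.card F - 1 : ℕ) : ℂ) = - χ (SL2.t 1) := by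
      rw [div_eq_iff (by rw [Nat.cast_sub hq.le, Nat.cast_one]; exact q_sub_ne), ← hn]
      linear_combination h1
    rw [h3]
    exact (char_isIntegral (isChar_of_irr hχ) _).neg
  have h4 := Nat.le_of_dvd hn0 h2
  have h5 := cusp_le hχ h hn
  rw [hn, show n = Fintype.card F - 1 by omega, Nat.cast_sub hq.le, Nat.cast_one]

theorem deg_even [CharP F 2] {χ : SL(2, F) → ℂ} (hχ : IsIrrCharacter SL(2, F) χ) :
    χ = (fun _ => 1) ∨ χ = StS ∨ (∃ α : MulChar F ℂ, α ^ 2 ≠ 1 ∧ χ = RS α) ∨ CuspS χ := by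
  rcases cases_S hχ with h | h | h | ⟨α, h1, h2, _⟩ | h
  · exact Or.inl h
  · exact Or.inr (Or.inl h)
  · exact Or.inr (Or.inr (Or.inl h))
  · exfalso
    apply h2
    ext x
    obtain ⟨y, hy⟩ : IsSquare (x : F) := FiniteField.isSquare_of_char_two (ringChar.eq F 2 ▸ rfl) _
    have hy0 : y ≠ 0 := by rintro rfl; exact x.ne_zero (by rw [hy, mul_zero])
    have h3 : α x = (α ^ 2) y := by
      rw [MulChar.pow_apply' α two_ne_zero, hy, map_mul, pow_two]
    rw [h3, h1, MulChar.one_apply hy0.isUnit, MulChar.one_apply_coe]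
  · exact Or.inr (Or.inr (Or.inr h))

end Cfsg.Agent.Lib.Tw
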