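import Mathlib
import Cfsg.Agent.Lib.Tw16

/-! The list of irreducible characters of `SL_2`. -/

set_option linter.all false
set_option maxHeartbeats 400000

namespace Cfsg.Agent.Lib.Tw

open Matrix Module Cfsg Cfsg.Agent.Lib.CharBasic Cfsg.Agent.Lib.CharInd
open scoped MatrixGroups ComplexConjugate

variable (F : Type*) [Field F] [Fintype F] [DecidableEq F]

/-- principal series -/
def T3 : Type _ := {χ : IrrCharacter SL(2, F) // ∃ α : MulChar F ℂ, α ^ 2 ≠ 1 ∧ χ.1 = RS α}
/-- halves -/
def T4 : Type _ := {χ : IrrCharacter SL(2, F) // ∃ α : MulChar F ℂ, α ^ 2 = 1 ∧ α ≠ 1 ∧ classInner (RS α) χ.1 ≠ 0}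
/-- cuspidal -/
def T5 : Type _ := {χ : IrrCharacter SL(2, F) // CuspS χ.1}

noncomputable instance tw_fintype_irr : Fintype (IrrCharacter SL(2, F)) := Fintype.ofFinite _
noncomputable instance tw_fintype_T3 : Fintype (T3 F) := by classical exact Fintype.ofFinite {χ : IrrCharacter SL(2, F) // ∃ α : MulChar F ℂ, α ^ 2 ≠ 1 ∧ χ.1 = RS α}
noncomputable instance tw_fintype_T4 : Fintype (T4 F) := by classical exact Fintype.ofFinite {χ : IrrCharacter SL(2, F) // ∃ α : MulChar F ℂ, α ^ 2 = 1 ∧ α ≠ 1 ∧ classInner (RS α) χ.1 ≠ 0}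
noncomputable instance tw_fintype_T5 : Fintype (T5 F) := by classical exact Fintype.ofFinite {χ : IrrCharacter SL(2, F) // CuspS χ.1}

/-- all irreducible characters of `SL_2` -/
noncomputable def eS : Unit ⊕ (Unit ⊕ (T3 F ⊕ (T4 F ⊕ T5 F))) → IrrCharacter SL(2, F) :=
  Sum.elim (fun _ => ⟨fun _ => 1, isIrr_trivial⟩) (Sum.elim (fun _ => ⟨StS, isIrr_StS⟩)
    (Sum.elim (fun χ => χ.1) (Sum.elim (fun χ => χ.1) (fun χ => χ.1))))

variable {F}

theorem q_ne1 : (1 : ℂ) ≠ (Fintype.card F : ℂ) := by
  have hq : 1 < Fintype.card F := Fintype.one_lt_card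
  intro h; have : ((1 : ℕ) : ℂ) = (Fintype.card F : ℂ) := by exact_mod_cast h
  have := Nat.cast_injective this; omega

theorem q_ne2 : (1 : ℂ) ≠ (Fintype.card F : ℂ) + 1 := by
  intro h
  exact q_ne (F := F) (by linear_combination -h)

theorem q_ne3 : (Fintype.card F : ℂ) ≠ (Fintype.card F : ℂ) + 1 := by
  intro h
  exact one_ne_zero (α := ℂ) (by linear_combination -h)

theorem eS_bij : Function.Bijective (eS F) := by
  classical
  constructor
  · unfold eS
    apply Function.Injective.sumElim (Function.injective_of_subsingleton _)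
    · apply Function.Injective.sumElim (Function.injective_of_subsingleton _)
      · apply Function.Injective.sumElim Subtype.val_injective
        · apply Function.Injective.sumElim Subtype.val_injective Subtype.val_injective
          rintro ⟨χ, α, h1, h2, h3⟩ ⟨ψ, hψ⟩ h
          have h' : χ = ψ := h
          subst h'
          exact h3 (hψ α)
        · rintro ⟨χ, α, h1, h2⟩ (⟨ψ, β, h3, h4, h5⟩ | ⟨ψ, hψ⟩) h
          · have h' : χ = ψ := h
            subst h'
            rw [h2, inner_RS_RS] at h5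
            have e1 : β ≠ α := by rintro rfl; exact h1 h3
            have e2 : β ≠ α⁻¹ := by
              rintro rfl
              apply h1
              rw [inv_pow, inv_eq_one] at h3
              exact h3
            rw [if_neg e1, if_neg e2, add_zero] at h5
            exact h5 rfl
          · have h' : χ = ψ := h
            subst h'
            have h5 := hψ α
            rw [h2, inner_RS_RS, if_pos rfl] at h5
            split_ifs at h5 <;> norm_num at h5
      · rintro ⟨⟩ (⟨χ, α, h1, h2⟩ | ⟨ψ, β, h3, h4, h5⟩ | ⟨ψ, hψ⟩) h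
        · have h' : StS = χ.1 := congrArg Subtype.val h
          have h3 := congrFun (h'.trans h2) 1
          rw [StS_one, RS_one] at h3
          exact q_ne3 h3
        · have h' : StS = ψ.1 := congrArg Subtype.val h
          rw [← h', inner_RS_StS, if_neg h4] at h5
          exact h5 rfl
        · have h' : StS = ψ.1 := congrArg Subtype.val h
          have h5 := hψ 1
          rw [← h', inner_RS_StS, if_pos rfl] at h5
          exact one_ne_zero h5
    · rintro ⟨⟩ (⟨⟩ | ⟨χ, α, h1, h2⟩ | ⟨ψ, β, h3, h4, h5⟩ | ⟨ψ, hψ⟩) h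
      · have h' : (fun _ => 1) = StS := congrArg Subtype.val h
        have h3 := congrFun h' 1
        rw [StS_one] at h3
        exact q_ne1 h3
      · have h' : (fun _ => 1) = χ.1 := congrArg Subtype.val h
        have h3 := congrFun (h'.trans h2) 1
        rw [RS_one] at h3
        exact q_ne2 h3
      · have h' : (fun _ => 1) = ψ.1 := congrArg Subtype.val h
        rw [← h', inner_RS_one, if_neg h4] at h5
        exact h5 rfl
      · have h' : (fun _ => 1) = ψ.1 := congrArg Subtype.val h
        have h5 := hψ 1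
        rw [← h', inner_RS_one, if_pos rfl] at h5
        exact one_ne_zero h5
  · intro χ
    rcases cases_S χ.2 with h | h | h | h | h
    · exact ⟨Sum.inl (), Subtype.ext h.symm⟩
    · exact ⟨Sum.inr (Sum.inl ()), Subtype.ext h.symm⟩
    · exact ⟨Sum.inr (Sum.inr (Sum.inl ⟨χ, h⟩)), rfl⟩
    · exact ⟨Sum.inr (Sum.inr (Sum.inr (Sum.inl ⟨χ, h⟩))), rfl⟩
    · exact ⟨Sum.inr (Sum.inr (Sum.inr (Sum.inr ⟨χ, h⟩))), rfl⟩

theorem card_total : Nat.card (ConjClasses SL(2, F)) = 1 + (1 + (Nat.card (T3 F) + (Nat.card (T4 F) + Nat.card (T5 F)))) := by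
  classical
  have h := Nat.card_congr (Equiv.ofBijective _ (eS_bij (F := F)))
  rw [card_irr] at h
  rw [← h]
  simp only [Nat.card_eq_fintype_card, Fintype.card_sum, Fintype.card_unit]

theorem sq_total {d : IrrCharacter SL(2, F) → ℕ} (hd : ∀ χ : IrrCharacter SL(2, F), χ.1 1 = d χ) :
    1 + (Fintype.card F ^ 2 + (Nat.card (T3 F) * (Fintype.card F + 1) ^ 2 + (∑ χ : T4 F, d χ.1 ^ 2 + ∑ χ : T5 F, d χ.1 ^ 2))) =
      Nat.card SL(2, F) := by
  classical
  have hsq := CharTable.sum_sq_degrees d hd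
  rw [← hsq, ← Equiv.sum_comp (Equiv.ofBijective _ (eS_bij (F := F))), Fintype.sum_sum_type, Fintype.sum_sum_type, Fintype.sum_sum_type, Fintype.sum_sum_type]
  have hd0 : ∀ (χ : IrrCharacter SL(2, F)) (n : ℕ), χ.1 1 = n → d χ = n := by
    intro χ n hn
    have := (hd χ).symm.trans hn
    exact_mod_cast this
  have e1 : ∀ u : Unit, d (Equiv.ofBijective _ (eS_bij (F := F)) (Sum.inl u)) = 1 := fun u => hd0 _ 1 (by
    show (1 : ℂ) = _; norm_num)
  have e2 : ∀ u : Unit, d (Equiv.ofBijective _ (eS_bij (F := F)) (Sum.inr (Sum.inl u))) = Fintype.card F := fun u => hd0 _ _ StS_one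
  have e3 : ∀ χ : T3 F, d (Equiv.ofBijective _ (eS_bij (F := F)) (Sum.inr (Sum.inr (Sum.inl χ)))) = Fintype.card F + 1 := by
    rintro ⟨χ, α, h1, h2⟩
    refine hd0 _ _ ?_
    show χ.1 1 = _
    rw [h2, RS_one]
    push_cast; rfl
  simp only [e1, e2, e3, Finset.sum_const, Finset.card_univ, smul_eq_mul, Fintype.card_unit, one_mul, one_pow, Nat.card_eq_fintype_card]
  rfl

end Cfsg.Agent.Lib.Tw
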