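import Mathlib
import Cfsg.Agent.Lib.Tw17

/-! Counting principal series of `SL_2`; the two halves. -/

set_option linter.all false
set_option maxHeartbeats 400000

namespace Cfsg.Agent.Lib.Tw

open Matrix Module Cfsg Cfsg.Agent.Lib.CharBasic Cfsg.Agent.Lib.CharInd
open scoped MatrixGroups ComplexConjugate

variable {F : Type*} [Field F] [Fintype F] [DecidableEq F]

theorem card_T3 : 2 * Nat.card (T3 F) = Nat.card {α : MulChar F ℂ // α ^ 2 ≠ 1} := by
  classical
  haveI : Fintype {α : MulChar F ℂ // α ^ 2 ≠ 1} := Fintype.ofFinite _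
  let f : {α : MulChar F ℂ // α ^ 2 ≠ 1} → T3 F := fun α => ⟨⟨RS α.1, isIrr_RS_iff.mpr α.2⟩, α.1, α.2, rfl⟩
  have hf : ∀ α β, f α = f β ↔ RS α.1 = RS β.1 := fun α β =>
    ⟨fun h => congrArg (fun x : T3 F => x.1.1) h, fun h => Subtype.ext (Subtype.ext h)⟩
  rw [Nat.card_eq_fintype_card, Nat.card_eq_fintype_card, ← Finset.card_univ (α := {α : MulChar F ℂ // α ^ 2 ≠ 1}),
    Finset.card_eq_sum_card_fiberwise (f := f) (s := Finset.univ) (t := Finset.univ) (fun _ _ => Finset.mem_coe.mpr (Finset.mem_univ _))]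
  have key : ∀ χ : T3 F, (Finset.univ.filter (fun α => f α = χ)).card = 2 := by
    rintro ⟨⟨χ, hχ⟩, α, h1, h2⟩
    have h2' : χ = RS α := h2
    subst h2'
    have hinv : α⁻¹ ^ 2 ≠ 1 := by rw [inv_pow]; exact fun h => h1 (inv_eq_one.mp h)
    rw [Finset.card_eq_two]
    refine ⟨⟨α, h1⟩, ⟨α⁻¹, hinv⟩, ?_, ?_⟩
    · intro h
      have h3 : α = α⁻¹ := congrArg Subtype.val h
      apply h1
      rw [pow_two]
      exact mul_eq_one_iff_eq_inv.mpr h3
    · ext β
      rw [Finset.mem_filter, Finset.mem_insert, Finset.mem_singleton]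
      have e : f β = ⟨⟨RS α, hχ⟩, α, h1, h2⟩ ↔ RS β.1 = RS α :=
        ⟨fun h => congrArg (fun x : T3 F => x.1.1) h, fun h => Subtype.ext (Subtype.ext h)⟩
      rw [e, RS_eq_iff]
      constructor
      · rintro ⟨_, h | h⟩
        · exact Or.inl (Subtype.ext h)
        · exact Or.inr (Subtype.ext h)
      · rintro (rfl | rfl)
        · exact ⟨Finset.mem_univ _, Or.inl rfl⟩
        · exact ⟨Finset.mem_univ _, Or.inr rfl⟩
  rw [Finset.sum_congr rfl (fun χ _ => key χ), Finset.sum_const, Finset.card_univ, smul_eq_mul, mul_comm]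

omit [DecidableEq F] in
theorem quad_sq {α : MulChar F ℂ} (h : α ^ 2 = 1) {x : F} (hx : x ≠ 0) : α x * α x = 1 := by
  have h1 : (α ^ 2) x = 1 := by rw [h, MulChar.one_apply hx.isUnit]
  rwa [MulChar.pow_apply' α two_ne_zero, pow_two] at h1

omit [DecidableEq F] in
theorem quad_one {α : MulChar F ℂ} (h : α ^ 2 = 1) {x : F} (hx : x ≠ 0) (hs : IsSquare x) : α x = 1 := by
  obtain ⟨y, rfl⟩ := hs
  rw [map_mul]
  exact quad_sq h (left_ne_zero_of_mul hx)

omit [DecidableEq F] in
theorem quad_neg {α : MulChar F ℂ} (h : α ^ 2 = 1) (h1 : α ≠ 1) {x : F} (hs : ¬ IsSquare x) : α x = -1 := by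
  have hx : x ≠ 0 := by rintro rfl; exact hs (IsSquare.zero)
  obtain ⟨y, hy⟩ : ∃ y : Fˣ, α y ≠ 1 := by
    by_contra hcon
    push Not at hcon
    exact h1 (MulChar.ext fun a => by rw [hcon a, MulChar.one_apply_coe])
  have hys : ¬ IsSquare (y : F) := fun hsq => hy (quad_one h y.ne_zero hsq)
  have h2 : α (x * y) = 1 := quad_one h (mul_ne_zero hx y.ne_zero) (sq_mul_of_not hs hys)
  have h3 : α y = -1 := by
    have := quad_sq h y.ne_zero
    rcases mul_self_eq_one_iff.mp this with h4 | h4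
    · exact absurd h4 hy
    · exact h4
  rw [map_mul, h3] at h2
  linear_combination -h2

omit [DecidableEq F] in
theorem quad_unique {α β : MulChar F ℂ} (h : α ^ 2 = 1) (h1 : α ≠ 1) (h' : β ^ 2 = 1) (h1' : β ≠ 1) : α = β := by
  ext x
  by_cases hs : IsSquare (x : F)
  · rw [quad_one h x.ne_zero hs, quad_one h' x.ne_zero hs]
  · rw [quad_neg h h1 hs, quad_neg h' h1' hs]

/-- the quadratic character -/
noncomputable def eta (F : Type*) [Field F] [Fintype F] [DecidableEq F] : MulChar F ℂ := (quadraticChar F).ringHomComp (Int.castRingHom ℂ)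

theorem eta_sq : eta F ^ 2 = 1 := by
  ext x
  rw [MulChar.pow_apply' _ two_ne_zero, MulChar.one_apply_coe]
  show ((quadraticChar F x : ℤ) : ℂ) ^ 2 = 1
  have := quadraticChar_sq_one x.ne_zero
  exact_mod_cast this

theorem eta_ne (h2 : (2 : F) ≠ 0) : eta F ≠ 1 := by
  obtain ⟨ν, hν0, hν⟩ := exists_nonsq h2
  intro h
  have h1 : eta F ν = 1 := by rw [h, MulChar.one_apply hν0.isUnit]
  have h3 : ((quadraticChar F ν : ℤ) : ℂ) = 1 := h1
  have h4 : quadraticChar F ν = 1 := by exact_mod_cast h3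
  rw [quadraticChar_one_iff_isSquare hν0] at h4
  exact hν h4

omit [DecidableEq F] in
theorem card_quad_even [CharP F 2] : Nat.card {α : MulChar F ℂ // α ^ 2 ≠ 1} = Fintype.card F - 2 := by
  classical
  have h1 : ∀ α : MulChar F ℂ, α ^ 2 = 1 ↔ α = 1 := by
    intro α
    constructor
    · intro h
      ext x
      rw [quad_one h x.ne_zero (FiniteField.isSquare_of_char_two (ringChar.eq F 2 ▸ rfl) _), MulChar.one_apply_coe]
    · rintro rfl; exact one_pow 2
  have h2 : Nat.card {α : MulChar F ℂ // α ^ 2 ≠ 1} = Nat.card {α : MulChar F ℂ // ¬ α = 1} :=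
    Nat.card_congr (Equiv.subtypeEquivRight fun α => not_congr (h1 α))
  have c1 : Fintype.card (MulChar F ℂ) = Fintype.card F - 1 := by rw [← Nat.card_eq_fintype_card, card_mulChar]
  rw [h2, Nat.card_eq_fintype_card, Fintype.card_subtype_compl, Fintype.card_subtype_eq, c1]
  rfl

omit [DecidableEq F] in
theorem card_quad_odd (h2 : (2 : F) ≠ 0) : Nat.card {α : MulChar F ℂ // α ^ 2 ≠ 1} = Fintype.card F - 3 := by
  classical
  have h1 : ∀ α : MulChar F ℂ, α ^ 2 = 1 ↔ α ∈ ({1, eta F} : Finset (MulChar F ℂ)) := by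
    intro α
    rw [Finset.mem_insert, Finset.mem_singleton]
    constructor
    · intro h
      by_cases h3 : α = 1
      · exact Or.inl h3
      · exact Or.inr (quad_unique h h3 eta_sq (eta_ne h2))
    · rintro (rfl | rfl)
      · exact one_pow 2
      · exact eta_sq
  have h2 : Nat.card {α : MulChar F ℂ // α ^ 2 ≠ 1} = Nat.card {α : MulChar F ℂ // ¬ α ∈ ({1, eta F} : Finset (MulChar F ℂ))} :=
    Nat.card_congr (Equiv.subtypeEquivRight fun α => not_congr (h1 α))
  have c1 : Fintype.card (MulChar F ℂ) = Fintype.card F - 1 := by rw [← Nat.card_eq_fintype_card, card_mulChar]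
  rw [h2, Nat.card_eq_fintype_card, Fintype.card_subtype_compl, Fintype.card_coe, Finset.card_pair (Ne.symm (eta_ne ‹_›)), c1]
  rfl

end Cfsg.Agent.Lib.Tw
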