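import Mathlib
import Cfsg.Agent.Lib.Tw18

/-! The degrees of the characters of `SL_2(q)`, `q` even; the halves for `q` odd. -/

set_option linter.all false
set_option maxHeartbeats 400000

namespace Cfsg.Agent.Lib.Tw

open Matrix Module Cfsg Cfsg.Agent.Lib.CharBasic Cfsg.Agent.Lib.CharInd
open scoped MatrixGroups ComplexConjugate

variable {F : Type*} [Field F] [Fintype F] [DecidableEq F]

theorem q_sub_cast : (Fintype.card F : ℂ) - 1 = ((Fintype.card F - 1 : ℕ) : ℂ) := by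
  rw [Nat.cast_sub Fintype.card_pos, Nat.cast_one]

theorem q_add_cast : (Fintype.card F : ℂ) + 1 = ((Fintype.card F + 1 : ℕ) : ℂ) := by push_cast; rfl

section even

variable [CharP F 2]

theorem deg_even_one {χ : SL(2, F) → ℂ} (hχ : IsIrrCharacter SL(2, F) χ) (h4 : 4 ≤ Fintype.card F) : χ 1 = 1 ↔ χ = (fun _ => 1) := by
  constructor
  · intro h
    rcases deg_even hχ with h1 | h1 | ⟨α, _, h1⟩ | h1
    · exact h1
    · rw [h1, StS_one] at h; exact absurd h.symm q_ne1
    · rw [h1, RS_one] at h; exact absurd h.symm q_ne2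
    · rw [cusp_degree_even hχ h1, q_sub_cast] at h
      have : ((Fintype.card F - 1 : ℕ) : ℂ) = ((1 : ℕ) : ℂ) := by rw [h]; norm_num
      have := Nat.cast_injective this; omega
  · rintro rfl; rfl

theorem deg_even_q {χ : SL(2, F) → ℂ} (hχ : IsIrrCharacter SL(2, F) χ) : χ 1 = Fintype.card F ↔ χ = StS := by
  constructor
  · intro h
    rcases deg_even hχ with h1 | h1 | ⟨α, _, h1⟩ | h1
    · rw [h1] at h; exact absurd h q_ne1
    · exact h1
    · rw [h1, RS_one] at h; exact absurd h.symm q_ne3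
    · rw [cusp_degree_even hχ h1] at h
      exact absurd (by linear_combination -h : (1 : ℂ) = 0) one_ne_zero
  · rintro rfl; exact StS_one

theorem deg_even_q_add {χ : SL(2, F) → ℂ} (hχ : IsIrrCharacter SL(2, F) χ) : χ 1 = (Fintype.card F : ℂ) + 1 ↔ ∃ α : MulChar F ℂ, α ^ 2 ≠ 1 ∧ χ = RS α := by
  constructor
  · intro h
    rcases deg_even hχ with h1 | h1 | h1 | h1
    · rw [h1] at h; exact absurd h q_ne2
    · rw [h1, StS_one] at h; exact absurd h q_ne3
    · exact h1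
    · rw [cusp_degree_even hχ h1] at h
      exact absurd (by linear_combination -h : (2 : ℂ) = 0) two_ne_zero
  · rintro ⟨α, _, rfl⟩; exact RS_one α

theorem deg_even_q_sub {χ : SL(2, F) → ℂ} (hχ : IsIrrCharacter SL(2, F) χ) (h4 : 4 ≤ Fintype.card F) :
    χ 1 = (Fintype.card F : ℂ) - 1 ↔ CuspS χ := by
  constructor
  · intro h
    rcases deg_even hχ with h1 | h1 | ⟨α, _, h1⟩ | h1
    · rw [h1, q_sub_cast] at h
      have : ((Fintype.card F - 1 : ℕ) : ℂ) = ((1 : ℕ) : ℂ) := by rw [← h]; norm_num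
      have := Nat.cast_injective this; omega
    · rw [h1, StS_one] at h
      exact absurd (by linear_combination h : (1 : ℂ) = 0) one_ne_zero
    · rw [h1, RS_one] at h
      exact absurd (by linear_combination h : (2 : ℂ) = 0) two_ne_zero
    · exact h1
  · exact fun h => cusp_degree_even hχ h

theorem card_T4_even : Nat.card (T4 F) = 0 := by
  have : IsEmpty (T4 F) := by
    constructor
    rintro ⟨χ, α, h1, h2, h3⟩
    rcases deg_even χ.2 with h | h | h | h
    · have := (eS_bij (F := F)).1 (a₁ := Sum.inl ()) (a₂ := Sum.inr (Sum.inr (Sum.inr (Sum.inl ⟨χ, α, h1, h2, h3⟩)))) (Subtype.ext h.symm)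
      cases this
    · have := (eS_bij (F := F)).1 (a₁ := Sum.inr (Sum.inl ())) (a₂ := Sum.inr (Sum.inr (Sum.inr (Sum.inl ⟨χ, α, h1, h2, h3⟩)))) (Subtype.ext h.symm)
      cases this
    · have := (eS_bij (F := F)).1 (a₁ := Sum.inr (Sum.inr (Sum.inl ⟨χ, h⟩))) (a₂ := Sum.inr (Sum.inr (Sum.inr (Sum.inl ⟨χ, α, h1, h2, h3⟩)))) rfl
      cases this
    · exact h3 (h α)
  exact Nat.card_of_isEmpty

theorem card_T5_even : 2 * Nat.card (T5 F) = Fintype.card F := by
  have h1 := card_total (F := F)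
  have h2 := card_T3 (F := F)
  rw [card_classesSL_even, card_T4_even] at h1
  rw [card_quad_even] at h2
  have hq : 1 < Fintype.card F := Fintype.one_lt_card
  omega

end even

/-! odd characteristic -/

theorem halves {α : MulChar F ℂ} (h : α ^ 2 = 1) (h1 : α ≠ 1) : ∃ χ₁ χ₂ : SL(2, F) → ℂ,
    IsIrrCharacter SL(2, F) χ₁ ∧ IsIrrCharacter SL(2, F) χ₂ ∧ χ₁ ≠ χ₂ ∧ RS α = χ₁ + χ₂ ∧
    (∀ χ, IsIrrCharacter SL(2, F) χ → classInner (RS α) χ ≠ 0 → χ = χ₁ ∨ χ = χ₂) ∧ classInner (RS α) χ₁ = 1 ∧ classInner (RS α) χ₂ = 1 := by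
  classical
  have hα : α = α⁻¹ := by rw [← mul_eq_one_iff_eq_inv, ← pow_two, h]
  have hnorm : classInner (RS α) (RS α) = 2 := by
    rw [inner_RS_RS, if_pos rfl, if_pos hα]; norm_num
  have hne : RS α ≠ 0 := by
    intro h0
    rw [h0, classInner_zero_left] at hnorm
    norm_num at hnorm
  obtain ⟨χ₁, hc1⟩ := char_ne_zero_exists_constituent (isChar_RS α) hne
  obtain ⟨m, hm⟩ := exists_nat_inner (isChar_RS α) χ₁.2
  have hm0 : m ≠ 0 := by rintro rfl; exact hc1 (by rw [hm, Nat.cast_zero])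
  have hch : IsCharacter SL(2, F) (RS α - χ₁.1) := CharNormal.isChar_sub_constituent (isChar_RS α) χ₁.2 hc1
  have hn2 : classInner (RS α - χ₁.1) (RS α - χ₁.1) = 3 - 2 * m := by
    rw [classInner_sub_left, classInner_sub_right, classInner_sub_right, hnorm, hm, irr_inner_self χ₁.2, ← classInner_conj_symm (RS α) χ₁.1, hm,
      Complex.conj_natCast]
    ring
  have hm1 : m = 1 := by
    have h3 := classInner_self_nonneg (RS α - χ₁.1)
    rw [hn2] at h3
    have h4 : ((3 : ℂ) - 2 * m).re = 3 - 2 * m := by simp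
    rw [h4] at h3
    have h5 : (2 * m : ℝ) ≤ 3 := by linarith
    have h6 : 2 * m ≤ 3 := by exact_mod_cast h5
    omega
  have hirr : IsIrrCharacter SL(2, F) (RS α - χ₁.1) := by
    apply isIrr_of_inner_self_one hch
    rw [hn2, hm1]; norm_num
  have hi1 : classInner (RS α) χ₁.1 = 1 := by rw [hm, hm1, Nat.cast_one]
  have hi2 : classInner (RS α) (RS α - χ₁.1) = 1 := by
    rw [classInner_sub_right, hnorm, hi1]; norm_num
  refine ⟨χ₁.1, RS α - χ₁.1, χ₁.2, hirr, ?_, by ring, ?_, hi1, hi2⟩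
  · intro heq
    have h3 : classInner (RS α) χ₁.1 = 2 := by
      have e : RS α = χ₁.1 + χ₁.1 := by
        rw [eq_sub_iff_add_eq] at heq
        exact heq.symm
      rw [e, classInner_add_left, irr_inner_self χ₁.2]; norm_num
    rw [hi1] at h3
    norm_num at h3
  · intro χ hχ hne
    have e : RS α = χ₁.1 + (RS α - χ₁.1) := by ring
    rw [e, classInner_add_left] at hne
    by_cases h3 : classInner χ₁.1 χ = 0
    · rw [h3, zero_add] at hne
      exact Or.inr (irr_eq_of_inner_ne_zero hirr hχ hne).symm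
    · exact Or.inl (irr_eq_of_inner_ne_zero χ₁.2 hχ h3).symm

theorem conj_SL_mem (x : GL (Fin 2) F) (g : SL(2, F)) : ∃ h : SL(2, F), Matrix.SpecialLinearGroup.toGL h = x * Matrix.SpecialLinearGroup.toGL g * x⁻¹ := by
  have := (toGL_normal (F := F)).conj_mem (Matrix.SpecialLinearGroup.toGL g) ⟨g, rfl⟩ x
  exact this

theorem halves_conj {α : MulChar F ℂ} (h : α ^ 2 = 1) (h1 : α ≠ 1) {χ₁ χ₂ : SL(2, F) → ℂ} (h2 : IsIrrCharacter SL(2, F) χ₁)
    (h3 : IsIrrCharacter SL(2, F) χ₂) (h4 : classInner (RS α) χ₁ ≠ 0) (h5 : classInner (RS α) χ₂ ≠ 0) :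
    ∃ x : GL (Fin 2) F, ∀ g h : SL(2, F),
        Matrix.SpecialLinearGroup.toGL h = x * Matrix.SpecialLinearGroup.toGL g * x⁻¹ → χ₂ h = χ₁ g := by
  have e : (fun g : SL(2, F) => RG α 1 (Matrix.SpecialLinearGroup.toGL g)) = RS α := by
    funext g; rw [RG_res, inv_one, mul_one]
  exact exists_conj _ toGL_inj toGL_normal (isIrr_RG h1) h3 h2 (by rw [e]; exact h5) (by rw [e]; exact h4)

theorem conj_one {χ₁ χ₂ : SL(2, F) → ℂ} (h : ∃ x : GL (Fin 2) F, ∀ g h : SL(2, F),
        Matrix.SpecialLinearGroup.toGL h = x * Matrix.SpecialLinearGroup.toGL g * x⁻¹ → χ₂ h = χ₁ g) : χ₂ 1 = χ₁ 1 := by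
  obtain ⟨x, hx⟩ := h
  exact hx 1 1 (by rw [map_one, mul_one, mul_inv_cancel])

theorem half_degree {α : MulChar F ℂ} (h : α ^ 2 = 1) (h1 : α ≠ 1) {χ : SL(2, F) → ℂ} (h2 : IsIrrCharacter SL(2, F) χ)
    (h4 : classInner (RS α) χ ≠ 0) : 2 * χ 1 = (Fintype.card F : ℂ) + 1 := by
  obtain ⟨χ₁, χ₂, a1, a2, hne, hsum, hall, b1, b2⟩ := halves h h1
  have h3 := conj_one (halves_conj h h1 a1 a2 (by rw [b1]; exact one_ne_zero) (by rw [b2]; exact one_ne_zero))
  have h5 := congrFun hsum 1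
  rw [RS_one, Pi.add_apply, h3] at h5
  rcases hall χ h2 h4 with rfl | rfl
  · linear_combination -h5
  · rw [h3]; linear_combination -h5

theorem half_cast (hodd : Odd (Fintype.card F)) : 2 * (((Fintype.card F + 1) / 2 : ℕ) : ℂ) = (Fintype.card F : ℂ) + 1 := by
  obtain ⟨k, hk⟩ := hodd
  have : 2 * ((Fintype.card F + 1) / 2) = Fintype.card F + 1 := by omega
  rw [q_add_cast]
  conv_rhs => rw [← this]
  push_cast; ring

theorem half_cast' (hodd : Odd (Fintype.card F)) : 2 * (((Fintype.card F - 1) / 2 : ℕ) : ℂ) = (Fintype.card F : ℂ) - 1 := by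
  obtain ⟨k, hk⟩ := hodd
  have : 2 * ((Fintype.card F - 1) / 2) = Fintype.card F - 1 := by omega
  rw [q_sub_cast]
  conv_rhs => rw [← this]
  push_cast; ring

end Cfsg.Agent.Lib.Tw
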