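import Mathlib
import Cfsg.Agent.Lib.Tw19

/-! The cuspidal characters of `SL_2(q)`, `q` odd. -/

set_option linter.all false
set_option maxHeartbeats 400000

namespace Cfsg.Agent.Lib.Tw

open Matrix Module Cfsg Cfsg.Agent.Lib.CharBasic Cfsg.Agent.Lib.CharInd
open scoped MatrixGroups ComplexConjugate

variable {F : Type*} [Field F] [Fintype F] [DecidableEq F]

theorem eta_apply (h2 : (2 : F) ≠ 0) {z : F} (hz : z ≠ 0) [Decidable (IsSquare z)] : eta F z = if IsSquare z then 1 else -1 := by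
  split_ifs with h
  · exact quad_one eta_sq hz h
  · exact quad_neg eta_sq (eta_ne h2) h

theorem sum_eta (h2 : (2 : F) ≠ 0) : ∑ z ∈ Finset.univ.erase (0 : F), eta F z = 0 := by
  have h := MulChar.sum_eq_zero_of_ne_one (eta_ne h2)
  rw [← Finset.add_sum_erase _ _ (Finset.mem_univ (0 : F)), MulChar.map_zero, zero_add] at h
  exact h

theorem t_val {φ : SL(2, F) → ℂ} (hφ : IsClassFunction SL(2, F) φ) (h2 : (2 : F) ≠ 0) {ν : F} (hν : ¬ IsSquare ν) {z : F} (hz : z ≠ 0) :
    φ (SL2.t z) = (φ (SL2.t 1) + φ (SL2.t ν)) / 2 + eta F z * ((φ (SL2.t 1) - φ (SL2.t ν)) / 2) := by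
  classical
  have hν0 : ν ≠ 0 := by rintro rfl; exact hν IsSquare.zero
  rw [eta_apply h2 hz]
  split_ifs with h
  · rw [classFn_isConj hφ ((isConj_t_iff hz one_ne_zero).mpr (by rwa [mul_one]))]
    ring
  · rw [classFn_isConj hφ ((isConj_t_iff hz hν0).mpr (sq_mul_of_not h hν))]
    ring

theorem JS_one_odd {φ : SL(2, F) → ℂ} (hφ : IsClassFunction SL(2, F) φ) (h2 : (2 : F) ≠ 0) {ν : F} (hν : ¬ IsSquare ν) :
    JS φ 1 = φ 1 + ((Fintype.card F : ℂ) - 1) * ((φ (SL2.t 1) + φ (SL2.t ν)) / 2) := by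
  rw [JS_one_eq, Finset.sum_congr rfl (fun z hz => t_val hφ h2 hν (Finset.ne_of_mem_erase hz)), Finset.sum_add_distrib, ← Finset.sum_mul,
    sum_eta h2, zero_mul, add_zero, Finset.sum_const, Finset.card_erase_of_mem (Finset.mem_univ _), Finset.card_univ, nsmul_eq_mul, q_sub_cast]

theorem cusp_degree_odd (hodd : Odd (Fintype.card F)) {χ : SL(2, F) → ℂ} (hχ : IsIrrCharacter SL(2, F) χ) (h : CuspS χ) {n : ℕ} (hn : χ 1 = n) :
    n = (Fintype.card F - 1) / 2 ∨ n = 2 * ((Fintype.card F - 1) / 2) := by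
  have hq : 1 < Fintype.card F := Fintype.one_lt_card
  have hcl := isChar_classFn (isChar_of_irr hχ)
  have hn0 : 0 < n := by
    obtain ⟨m, hm0, hm⟩ := isIrr_one_eq hχ
    have : m = n := by
      have := hm.symm.trans hn
      exact_mod_cast this
    omega
  have h2 := two_ne_zero_of_odd hodd
  obtain ⟨ν, hν0, hν⟩ := exists_nonsq h2
  have h1 := JS_eq_zero hcl h 1
  rw [JS_one_odd hcl h2 hν] at h1
  have hc := half_cast' hodd
  obtain ⟨k, hk⟩ := hodd
  have hpos : 0 < (Fintype.card F - 1) / 2 := by omega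
  have hdvd : (Fintype.card F - 1) / 2 ∣ n := by
    apply CharInt.nat_dvd_of_isIntegral (by omega)
    have h3 : (n : ℂ) / (((Fintype.card F - 1) / 2 : ℕ) : ℂ) = - (χ (SL2.t 1) + χ (SL2.t ν)) := by
      rw [div_eq_iff (by exact_mod_cast hpos.ne'), ← hn]
      linear_combination h1 + (χ (SL2.t 1) + χ (SL2.t ν)) / 2 * hc
    rw [h3]
    exact ((char_isIntegral (isChar_of_irr hχ) _).add (char_isIntegral (isChar_of_irr hχ) _)).neg
  have h5 := cusp_le hχ h hn
  obtain ⟨m, hm⟩ := hdvd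
  have hm0 : m ≠ 0 := by rintro rfl; rw [mul_zero] at hm; omega
  have hm2 : m ≤ 2 := by
    by_contra hcon
    push Not at hcon
    have : (Fintype.card F - 1) / 2 * 3 ≤ n := by rw [hm]; exact Nat.mul_le_mul_left _ hcon
    omega
  have : m = 1 ∨ m = 2 := by omega
  rcases this with rfl | rfl
  · left; omega
  · right; omega

/-- numerical lemma -/
theorem two_values {ι : Type*} [Fintype ι] [DecidableEq ι] {d : ι → ℕ} {a b : ℕ} (hab : a ≠ b) (h : ∀ i, d i = a ∨ d i = b) :
    (Finset.univ.filter (fun i => d i = a)).card + (Finset.univ.filter (fun i => d i = b)).card = Fintype.card ι ∧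
    (Finset.univ.filter (fun i => d i = a)).card * a ^ 2 + (Finset.univ.filter (fun i => d i = b)).card * b ^ 2 = ∑ i, d i ^ 2 := by
  have hfil : ∀ i ∈ (Finset.univ : Finset ι), ¬ d i = a ↔ d i = b := by
    intro i _
    constructor
    · exact fun h1 => (h i).resolve_left h1
    · intro h1 h2; exact hab (h2.symm.trans h1)
  constructor
  · rw [← Finset.filter_congr hfil, Finset.card_filter_add_card_filter_not, Finset.card_univ]
  · rw [← Finset.sum_filter_add_sum_filter_not Finset.univ (fun i => d i = a), Finset.filter_congr hfil,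
      Finset.sum_congr rfl (fun i hi => by rw [(Finset.mem_filter.mp hi).2] : ∀ i ∈ Finset.univ.filter (fun i => d i = a), d i ^ 2 = a ^ 2),
      Finset.sum_congr rfl (fun i hi => by rw [(Finset.mem_filter.mp hi).2] : ∀ i ∈ Finset.univ.filter (fun i => d i = b), d i ^ 2 = b ^ 2),
      Finset.sum_const, Finset.sum_const, smul_eq_mul, smul_eq_mul]

end Cfsg.Agent.Lib.Tw
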