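import Mathlib
import Cfsg.Agent.Lib.Tw20

/-! The degrees of the characters of `SL_2(q)`, `q` odd. -/

set_option linter.all false
set_option maxHeartbeats 400000

namespace Cfsg.Agent.Lib.Tw

open Matrix Module Cfsg Cfsg.Agent.Lib.CharBasic Cfsg.Agent.Lib.CharInd
open scoped MatrixGroups ComplexConjugate

variable {F : Type*} [Field F] [Fintype F] [DecidableEq F]

theorem T4_pair (h2 : (2 : F) ≠ 0) : ∃ χ₁ χ₂ : T4 F, χ₁ ≠ χ₂ ∧ (∀ χ : T4 F, χ = χ₁ ∨ χ = χ₂) ∧ RS (eta F) = χ₁.1.1 + χ₂.1.1 := by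
  obtain ⟨χ₁, χ₂, a1, a2, hne, hsum, hall, b1, b2⟩ := halves (eta_sq (F := F)) (eta_ne h2)
  refine ⟨⟨⟨χ₁, a1⟩, eta F, eta_sq, eta_ne h2, by rw [b1]; exact one_ne_zero⟩,
    ⟨⟨χ₂, a2⟩, eta F, eta_sq, eta_ne h2, by rw [b2]; exact one_ne_zero⟩, ?_, ?_, hsum⟩
  · intro h
    exact hne (congrArg (fun x : T4 F => x.1.1) h)
  · rintro ⟨χ, α, h1, h3, h4⟩
    rw [quad_unique h1 h3 eta_sq (eta_ne h2)] at h4
    rcases hall χ.1 χ.2 h4 with h | h
    · exact Or.inl (Subtype.ext (Subtype.ext h))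
    · exact Or.inr (Subtype.ext (Subtype.ext h))

theorem card_T4 (h2 : (2 : F) ≠ 0) : Nat.card (T4 F) = 2 := by
  obtain ⟨χ₁, χ₂, hne, hall, _⟩ := T4_pair h2
  rw [Nat.card_eq_two_iff]
  refine ⟨χ₁, χ₂, hne, ?_⟩
  ext χ
  simp only [Set.mem_insert_iff, Set.mem_singleton_iff, Set.mem_univ, iff_true]
  exact hall χ

theorem T4_degree (h2 : (2 : F) ≠ 0) (χ : T4 F) {n : ℕ} (hn : χ.1.1 1 = n) : 2 * n = Fintype.card F + 1 := by
  obtain ⟨χ, α, h1, h3, h4⟩ := χ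
  have h5 := half_degree h1 h3 χ.2 h4
  have h6 : χ.1 1 = n := hn
  rw [h6, q_add_cast] at h5
  exact_mod_cast h5

theorem T5_count (hodd : Odd (Fintype.card F)) {d : T5 F → ℕ} (hd : ∀ χ : T5 F, χ.1.1 1 = d χ) :
    (∀ χ, d χ = (Fintype.card F - 1) / 2 ∨ d χ = 2 * ((Fintype.card F - 1) / 2)) ∧
    Nat.card {χ : T5 F // d χ = (Fintype.card F - 1) / 2} = 2 ∧ Nat.card {χ : T5 F // d χ = 2 * ((Fintype.card F - 1) / 2)} = (Fintype.card F - 1) / 2 := by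
  classical
  have h2 := two_ne_zero_of_odd hodd
  have hq : 1 < Fintype.card F := Fintype.one_lt_card
  have hall : ∀ χ, d χ = (Fintype.card F - 1) / 2 ∨ d χ = 2 * ((Fintype.card F - 1) / 2) := fun χ => cusp_degree_odd hodd χ.1.2 χ.2 (hd χ)
  choose dd hdd using fun χ : IrrCharacter SL(2, F) => isIrr_one_eq χ.2
  have hsq := sq_total (d := dd) (fun χ => (hdd χ).2)
  have hcard := card_total (F := F)
  have h3 := card_T3 (F := F)
  rw [card_quad_odd h2] at h3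
  rw [card_classesSL_odd h2, card_T4 h2] at hcard
  have h4 : ∑ χ : T4 F, dd χ.1 ^ 2 = 2 * ((Fintype.card F + 1) / 2) ^ 2 := by
    have : ∀ χ : T4 F, dd χ.1 = (Fintype.card F + 1) / 2 := by
      intro χ
      have := T4_degree h2 χ (hdd χ.1).2
      omega
    rw [Finset.sum_congr rfl (fun χ _ => by rw [this χ]), Finset.sum_const, Finset.card_univ, ← Nat.card_eq_fintype_card, card_T4 h2, smul_eq_mul]
  have h5 : ∑ χ : T5 F, dd χ.1 ^ 2 = ∑ χ : T5 F, d χ ^ 2 := by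
    refine Finset.sum_congr rfl fun χ _ => ?_
    have : dd χ.1 = d χ := by
      have := (hdd χ.1).2.symm.trans (hd χ)
      exact_mod_cast this
    rw [this]
  rw [h4, h5, SL2.card_SL2] at hsq
  obtain ⟨k, hk⟩ := hodd
  have hk0 : 0 < k := by omega
  have e1 : (Fintype.card F - 1) / 2 = k := by omega
  have e2 : (Fintype.card F + 1) / 2 = k + 1 := by omega
  rw [e1] at hall ⊢
  obtain ⟨a1, a2⟩ := two_values (d := d) (a := k) (b := 2 * k) (by omega) hall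
  rw [← a2, e2, hk] at hsq
  rw [← Nat.card_eq_fintype_card] at a1
  have hT3 : Nat.card (T3 F) = k - 1 := by omega
  have hT5 : Nat.card (T5 F) = k + 2 := by omega
  rw [hT5] at a1
  rw [hT3] at hsq
  obtain ⟨j, rfl⟩ : ∃ j, k = j + 1 := ⟨k - 1, by omega⟩
  rw [Nat.card_eq_fintype_card, Fintype.card_subtype, Nat.card_eq_fintype_card, Fintype.card_subtype]
  set x := (Finset.univ.filter (fun i : T5 F => d i = j + 1)).card with hx
  set y := (Finset.univ.filter (fun i : T5 F => d i = 2 * (j + 1))).card with hy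
  refine ⟨hall, ?_⟩
  have hs : (2 * (j + 1) + 1) ^ 2 - 1 = 4 * (j + 1) * (j + 2) := by
    have : (2 * (j + 1) + 1) ^ 2 = 4 * (j + 1) * (j + 2) + 1 := by ring
    omega
  have hmain : (x + 4 * y) * (j + 1) ^ 2 = (4 * (j + 1) + 2) * (j + 1) ^ 2 := by
    simp only [Nat.add_sub_cancel] at hsq
    first
      | (rw [hs] at hsq; nlinarith)
      | nlinarith
  have h6 : x + 4 * y = 4 * (j + 1) + 2 := Nat.eq_of_mul_eq_mul_right (by positivity) hmain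
  omega

theorem deg_odd {χ : SL(2, F) → ℂ} (hodd : Odd (Fintype.card F)) (hχ : IsIrrCharacter SL(2, F) χ) : ∃ n : ℕ, χ 1 = n ∧
    ((χ = (fun _ => 1) ∧ n = 1) ∨ (χ = StS ∧ n = Fintype.card F) ∨ ((∃ α : MulChar F ℂ, α ^ 2 ≠ 1 ∧ χ = RS α) ∧ n = Fintype.card F + 1) ∨
      ((∃ α : MulChar F ℂ, α ^ 2 = 1 ∧ α ≠ 1 ∧ classInner (RS α) χ ≠ 0) ∧ 2 * n = Fintype.card F + 1) ∨
      (CuspS χ ∧ 2 * n + 1 = Fintype.card F) ∨ (CuspS χ ∧ n + 1 = Fintype.card F)) := by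
  obtain ⟨n, hn0, hn⟩ := isIrr_one_eq hχ
  refine ⟨n, hn, ?_⟩
  rcases cases_S hχ with h | h | h | h | h
  · left
    refine ⟨h, ?_⟩
    rw [h] at hn
    have hn' : (1 : ℂ) = n := hn
    exact_mod_cast hn'.symm
  · right; left
    refine ⟨h, ?_⟩
    rw [h, StS_one] at hn
    exact_mod_cast hn.symm
  · right; right; left
    refine ⟨h, ?_⟩
    obtain ⟨α, _, h⟩ := h
    rw [h, RS_one, q_add_cast] at hn
    exact_mod_cast hn.symm
  · right; right; right; left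
    exact ⟨h, T4_degree (two_ne_zero_of_odd hodd) ⟨⟨χ, hχ⟩, h⟩ hn⟩
  · right; right; right; right
    have hq : 1 < Fintype.card F := Fintype.one_lt_card
    rcases cusp_degree_odd hodd hχ h hn with h3 | h3
    · left; obtain ⟨k, hk⟩ := hodd; exact ⟨h, by omega⟩
    · right; obtain ⟨k, hk⟩ := hodd; exact ⟨h, by omega⟩

theorem card_q_sub (hodd : Odd (Fintype.card F)) : Nat.card {χ : IrrCharacter SL(2, F) // CuspS χ.1 ∧ χ.1 1 = (Fintype.card F : ℂ) - 1} = (Fintype.card F - 1) / 2 := by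
  choose d hd using fun χ : T5 F => isIrr_one_eq χ.1.2
  obtain ⟨_, _, h3⟩ := T5_count hodd (d := d) (fun χ => (hd χ).2)
  rw [← h3]
  refine Nat.card_congr ⟨fun χ => ⟨⟨χ.1, χ.2.1⟩, ?_⟩, fun χ => ⟨χ.1.1, χ.1.2, ?_⟩, fun χ => rfl, fun χ => rfl⟩
  · have h4 := (hd ⟨χ.1, χ.2.1⟩).2
    have h5 : (d ⟨χ.1, χ.2.1⟩ : ℂ) = (Fintype.card F : ℂ) - 1 := h4.symm.trans χ.2.2
    have h6 : d ⟨χ.1, χ.2.1⟩ = Fintype.card F - 1 := Nat.cast_injective (R := ℂ) (h5.trans q_sub_cast)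
    obtain ⟨k, hk⟩ := hodd
    exact h6.trans (by omega)
  · rw [(hd χ.1).2, χ.2, Nat.cast_mul]
    exact_mod_cast half_cast' hodd

theorem card_half_sub (hodd : Odd (Fintype.card F)) :
    Nat.card {χ : IrrCharacter SL(2, F) // CuspS χ.1 ∧ χ.1 1 = (((Fintype.card F - 1) / 2 : ℕ) : ℂ)} = 2 := by
  choose d hd using fun χ : T5 F => isIrr_one_eq χ.1.2
  obtain ⟨_, h3, _⟩ := T5_count hodd (d := d) (fun χ => (hd χ).2)
  refine Eq.trans ?_ h3
  refine Nat.card_congr ⟨fun χ => ⟨⟨χ.1, χ.2.1⟩, ?_⟩, fun χ => ⟨χ.1.1, χ.1.2, ?_⟩, fun χ => rfl, fun χ => rfl⟩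
  · exact Nat.cast_injective (R := ℂ) ((hd ⟨χ.1, χ.2.1⟩).2.symm.trans χ.2.2)
  · rw [(hd χ.1).2, χ.2]

end Cfsg.Agent.Lib.Tw
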