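import Mathlib
import Cfsg.Agent.Lib.Tw21

/-! Values of characters of `SL_2(q)`. -/

set_option linter.all false
set_option maxHeartbeats 400000

namespace Cfsg.Agent.Lib.Tw

open Matrix Module Cfsg Cfsg.Agent.Lib.CharBasic Cfsg.Agent.Lib.CharInd
open scoped MatrixGroups ComplexConjugate

variable {F : Type*} [Field F] [Fintype F] [DecidableEq F]

theorem nat_of {a b : ℕ} (h : (a : ℂ) = b) : a = b := Nat.cast_injective h

/-- classification by degree, uniformly -/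
theorem deg_S {χ : SL(2, F) → ℂ} (hχ : IsIrrCharacter SL(2, F) χ) : ∃ n : ℕ, 0 < n ∧ χ 1 = n ∧
    ((χ = (fun _ => 1) ∧ n = 1) ∨ (χ = StS ∧ n = Fintype.card F) ∨ ((∃ α : MulChar F ℂ, α ^ 2 ≠ 1 ∧ χ = RS α) ∧ n = Fintype.card F + 1) ∨
      ((∃ α : MulChar F ℂ, α ^ 2 = 1 ∧ α ≠ 1 ∧ classInner (RS α) χ ≠ 0) ∧ 2 * n = Fintype.card F + 1) ∨
      (CuspS χ ∧ n + 1 ≤ Fintype.card F)) := by
  have hq : 1 < Fintype.card F := Fintype.one_lt_card
  obtain ⟨n, hn0, hn⟩ := isIrr_one_eq hχ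
  refine ⟨n, hn0, hn, ?_⟩
  rcases cases_S hχ with h | h | h | h | h
  · left
    refine ⟨h, ?_⟩
    rw [h] at hn
    have hn' : (1 : ℂ) = n := hn
    exact_mod_cast hn'.symm
  · right; left
    refine ⟨h, ?_⟩
    rw [h, StS_one] at hn
    exact_mod_cast hn.symm
  · right; right; left
    refine ⟨h, ?_⟩
    obtain ⟨α, _, h⟩ := h
    rw [h, RS_one, q_add_cast] at hn
    exact_mod_cast hn.symm
  · right; right; right; left
    refine ⟨h, ?_⟩
    obtain ⟨α, h1, h2, h3⟩ := h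
    have h5 := half_degree h1 h2 hχ h3
    rw [hn, q_add_cast] at h5
    exact_mod_cast h5
  · right; right; right; right
    have := cusp_le hχ h hn
    exact ⟨h, by omega⟩

theorem eq_StS {χ : SL(2, F) → ℂ} (hχ : IsIrrCharacter SL(2, F) χ) (h : χ 1 = Fintype.card F) : χ = StS := by
  have hq : 1 < Fintype.card F := Fintype.one_lt_card
  obtain ⟨n, hn0, hn, hc⟩ := deg_S hχ
  have hnq := nat_of (hn.symm.trans h)
  rcases hc with ⟨_, h1⟩ | ⟨h1, _⟩ | ⟨_, h1⟩ | ⟨_, h1⟩ | ⟨_, h1⟩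
  · omega
  · exact h1
  · omega
  · omega
  · omega

theorem eq_RS {χ : SL(2, F) → ℂ} (hχ : IsIrrCharacter SL(2, F) χ) (h : χ 1 = (Fintype.card F : ℂ) + 1) : ∃ α : MulChar F ℂ, α ^ 2 ≠ 1 ∧ χ = RS α := by
  have hq : 1 < Fintype.card F := Fintype.one_lt_card
  obtain ⟨n, hn0, hn, hc⟩ := deg_S hχ
  have hnq := nat_of ((hn.symm.trans h).trans q_add_cast)
  rcases hc with ⟨_, h1⟩ | ⟨_, h1⟩ | ⟨h1, _⟩ | ⟨_, h1⟩ | ⟨_, h1⟩
  · omega
  · omega
  · exact h1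
  · omega
  · omega

theorem cusp_of_deg {χ : SL(2, F) → ℂ} (hχ : IsIrrCharacter SL(2, F) χ) (h : χ 1 = (Fintype.card F : ℂ) - 1) (h4 : 4 ≤ Fintype.card F) : CuspS χ := by
  obtain ⟨n, hn0, hn, hc⟩ := deg_S hχ
  have hnq := nat_of ((hn.symm.trans h).trans q_sub_cast)
  rcases hc with ⟨_, h1⟩ | ⟨_, h1⟩ | ⟨_, h1⟩ | ⟨_, h1⟩ | ⟨h1, _⟩
  · omega
  · omega
  · omega
  · omega
  · exact h1

theorem half_of_deg {χ : SL(2, F) → ℂ} (hχ : IsIrrCharacter SL(2, F) χ) (hodd : Odd (Fintype.card F)) (h : χ 1 = (((Fintype.card F + 1) / 2 : ℕ) : ℂ)) (h4 : 5 ≤ Fintype.card F) :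
    classInner (RS (eta F)) χ ≠ 0 := by
  have h2 := two_ne_zero_of_odd hodd
  obtain ⟨n, hn, hc⟩ := deg_odd hodd hχ
  have hnq := nat_of (hn.symm.trans h)
  obtain ⟨k, hk⟩ := hodd
  rcases hc with ⟨_, h1⟩ | ⟨_, h1⟩ | ⟨_, h1⟩ | ⟨⟨α, h1, h3, h5⟩, _⟩ | ⟨_, h1⟩ | ⟨_, h1⟩
  · omega
  · omega
  · omega
  · rwa [quad_unique h1 h3 eta_sq (eta_ne h2)] at h5
  · omega
  · omega

theorem cusp_of_half {χ : SL(2, F) → ℂ} (hχ : IsIrrCharacter SL(2, F) χ) (hodd : Odd (Fintype.card F)) (h : χ 1 = (((Fintype.card F - 1) / 2 : ℕ) : ℂ)) (h4 : 5 ≤ Fintype.card F) :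
    CuspS χ := by
  obtain ⟨n, hn, hc⟩ := deg_odd hodd hχ
  have hnq := nat_of (hn.symm.trans h)
  obtain ⟨k, hk⟩ := hodd
  rcases hc with ⟨_, h1⟩ | ⟨_, h1⟩ | ⟨_, h1⟩ | ⟨_, h1⟩ | ⟨h1, _⟩ | ⟨h1, _⟩
  · omega
  · omega
  · omega
  · omega
  · exact h1
  · exact h1

theorem eq_one_of_deg {χ : SL(2, F) → ℂ} (hχ : IsIrrCharacter SL(2, F) χ) (hodd : Odd (Fintype.card F)) (h : χ 1 = 1) (h4 : 5 ≤ Fintype.card F) :
    χ = fun _ => 1 := by
  obtain ⟨n, hn, hc⟩ := deg_odd hodd hχ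
  have hnq : n = 1 := nat_of ((hn.symm.trans h).trans Nat.cast_one.symm)
  rcases hc with ⟨h1, _⟩ | ⟨_, h1⟩ | ⟨_, h1⟩ | ⟨_, h1⟩ | ⟨_, h1⟩ | ⟨_, h1⟩
  · exact h1
  · omega
  · omega
  · omega
  · omega
  · omega

/-- cuspidal characters of full degree extend -/
theorem cusp_ext {χ : SL(2, F) → ℂ} (hχ : IsIrrCharacter SL(2, F) χ) (h : CuspS χ) (hd : χ 1 = (Fintype.card F : ℂ) - 1) :
    ∃ θ : GL (Fin 2) F → ℂ, IsIrrCharacter (GL (Fin 2) F) θ ∧ CuspG θ ∧ ∀ g : SL(2, F), χ g = θ (Matrix.SpecialLinearGroup.toGL g) := by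
  obtain ⟨θ, hθ, hc, hne⟩ := cusp_above hχ h
  refine ⟨θ, hθ, hc, ?_⟩
  have h1 := CharNormal.isChar_sub_constituent (isChar_comp (Matrix.SpecialLinearGroup.toGL (n := Fin 2) (R := F)) (isChar_of_irr hθ)) hχ hne
  have h2 : ((fun g => θ (Matrix.SpecialLinearGroup.toGL g)) - χ : SL(2, F) → ℂ) = 0 := by
    by_contra hcon
    obtain ⟨ψ, hψ⟩ := char_ne_zero_exists_constituent h1 hcon
    have h3 := degree_le_of_constituent h1 ψ.2 hψ
    have h4 : ((fun g => θ (Matrix.SpecialLinearGroup.toGL g)) - χ : SL(2, F) → ℂ) 1 = 0 := by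
      rw [Pi.sub_apply, map_one, cusp_degree_G hθ hc, hd, sub_self]
    rw [h4] at h3
    obtain ⟨n, hn0, hn⟩ := isIrr_one_eq ψ.2
    rw [hn, Complex.natCast_re, Complex.zero_re] at h3
    have : (n : ℝ) ≤ ((0 : ℕ) : ℝ) := by simpa using h3
    have := Nat.cast_le.mp this
    omega
  intro g
  have := congrFun h2 g
  rw [Pi.sub_apply, Pi.zero_apply, sub_eq_zero] at this
  exact this.symm

theorem JS_half {α : MulChar F ℂ} (h : α ^ 2 = 1) (h1 : α ≠ 1) {χ : SL(2, F) → ℂ} (h2 : IsIrrCharacter SL(2, F) χ)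
    (h4 : classInner (RS α) χ ≠ 0) (x : Fˣ) : JS χ x = (Fintype.card F : ℂ) * α x := by
  classical
  obtain ⟨χ₁, χ₂, a1, a2, hne, hsum, hall, b1, b2⟩ := halves h h1
  have hb : classInner (RS α) χ = 1 := by
    rcases hall χ h2 h4 with rfl | rfl
    · exact b1
    · exact b2
  have key : ∀ β : MulChar F ℂ, β ≠ α → classInner (RS β) χ = 0 := by
    intro β hβ
    have hα : α = α⁻¹ := by rw [← mul_eq_one_iff_eq_inv, ← pow_two, h]
    have h5 := inner_RS_RS β α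
    rw [← hα, if_neg hβ, add_zero, hsum, classInner_add_right] at h5
    obtain ⟨m1, hm1⟩ := exists_nat_inner (isChar_RS β) a1
    obtain ⟨m2, hm2⟩ := exists_nat_inner (isChar_RS β) a2
    rw [hm1, hm2] at h5
    have h6 : m1 + m2 = 0 := by exact_mod_cast h5
    rcases hall χ h2 h4 with rfl | rfl
    · rw [hm1, show m1 = 0 by omega, Nat.cast_zero]
    · rw [hm2, show m2 = 0 by omega, Nat.cast_zero]
  have hcl := isChar_classFn (isChar_of_irr h2)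
  have h7 := four_one (φ := fun x => JS χ x - (Fintype.card F : ℂ) * α x) (fun β => by
    have e : ∀ x : Fˣ, β x * conj (JS χ x - (Fintype.card F : ℂ) * α x) = β x * conj (JS χ x) - (Fintype.card F : ℂ) * (β x * conj (α x)) := by
      intro x; rw [map_sub, map_mul, Complex.conj_natCast]; ring
    rw [Finset.sum_congr rfl (fun x _ => e x), Finset.sum_sub_distrib, ← Finset.mul_sum, mulChar_orth]
    have h8 := inner_RS β χ hcl
    have h9 := q_ne (F := F)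
    have h10 := q_sub_ne (F := F)
    have h11 : ∑ x : Fˣ, β x * conj (JS χ x) = ((Fintype.card F : ℂ) * ((Fintype.card F : ℂ) - 1)) * classInner (RS β) χ := by
      rw [h8]; field_simp
    rw [h11]
    by_cases hβ : β = α
    · rw [if_pos hβ, hβ, hb]; ring
    · rw [if_neg hβ, key β hβ]; ring) x
  exact sub_eq_zero.mp h7

/-- the sum over the unipotent group -/
theorem sum_U (χ : SL(2, F) → ℂ) : (∑ g : SL(2, F), if (g : Matrix (Fin 2) (Fin 2) F) 1 0 = 0 ∧ (g : Matrix (Fin 2) (Fin 2) F) 0 0 = 1 ∧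
    (g : Matrix (Fin 2) (Fin 2) F) 1 1 = 1 then χ g else 0) = JS χ 1 := by
  unfold JS
  rw [← Finset.sum_filter]
  symm
  refine Finset.sum_bij (fun z _ => SL2.bMk 1 z) ?_ ?_ ?_ ?_
  · intro z _
    rw [bMk_one, Finset.mem_filter, SL2.t_coe]
    exact ⟨Finset.mem_univ _, rfl, rfl, rfl⟩
  · intro z _ z' _ h
    rw [bMk_one, bMk_one] at h
    exact SL2.t_injective h
  · intro g hg
    rw [Finset.mem_filter] at hg
    refine ⟨(g : Matrix (Fin 2) (Fin 2) F) 0 1, Finset.mem_univ _, ?_⟩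
    rw [bMk_one]
    apply Subtype.ext
    rw [SL2.t_coe]
    ext i j
    fin_cases i <;> fin_cases j
    · exact hg.2.2.1.symm
    · rfl
    · exact hg.2.1.symm
    · exact hg.2.2.2.symm
  · intro z _; rfl

/-- diagonal elements of `SL_2` -/
theorem eq_bMk {g : SL(2, F)} (h01 : (g : Matrix (Fin 2) (Fin 2) F) 0 1 = 0) (h10 : (g : Matrix (Fin 2) (Fin 2) F) 1 0 = 0)
    (ha : (g : Matrix (Fin 2) (Fin 2) F) 0 0 ^ 2 ≠ 1) : ∃ x : Fˣ, x ≠ x⁻¹ ∧ g = SL2.bMk x 0 ∧ (x : F) = (g : Matrix (Fin 2) (Fin 2) F) 0 0 := by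
  have hd := g.det_coe
  rw [Matrix.det_fin_two, h10, mul_zero, sub_zero] at hd
  refine ⟨Units.mkOfMulEqOne _ _ hd, ?_, ?_, rfl⟩
  · intro h
    apply ha
    have h2 : (g : Matrix (Fin 2) (Fin 2) F) 0 0 = (g : Matrix (Fin 2) (Fin 2) F) 1 1 := congrArg Units.val h
    rw [pow_two]
    nth_rewrite 2 [h2]
    exact hd
  · apply Subtype.ext
    rw [SL2.bMk_coe]
    ext i j
    fin_cases i <;> fin_cases j
    · rfl
    · exact h01
    · exact h10
    · rfl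

end Cfsg.Agent.Lib.Tw
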