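import Mathlib
import Cfsg.Agent.Lib.Tw22

/-! Values of characters of `SL_2(q)` on elements without eigenvectors. -/

set_option linter.all false
set_option maxHeartbeats 400000

namespace Cfsg.Agent.Lib.Tw

open Matrix Module Cfsg Cfsg.Agent.Lib.CharBasic Cfsg.Agent.Lib.CharInd
open scoped MatrixGroups ComplexConjugate

variable {F : Type*} [Field F] [Fintype F] [DecidableEq F]

omit [Fintype F] [DecidableEq F] in
theorem trace_of_toGL {x : GL (Fin 2) F} {g h : SL(2, F)} (e : Matrix.SpecialLinearGroup.toGL h = x * Matrix.SpecialLinearGroup.toGL g * x⁻¹) :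
    (h : Matrix (Fin 2) (Fin 2) F).trace = (g : Matrix (Fin 2) (Fin 2) F).trace :=
  trace_conj_GL (A := Matrix.SpecialLinearGroup.toGL h) (B := Matrix.SpecialLinearGroup.toGL g)
    (isConj_comm.mp (isConj_iff.mpr ⟨x, e.symm⟩))

omit [DecidableEq F] in
theorem isConj_of_ne {g h : SL(2, F)} (hg : NE (g : Matrix (Fin 2) (Fin 2) F)) (ht : (g : Matrix (Fin 2) (Fin 2) F).trace = (h : Matrix (Fin 2) (Fin 2) F).trace) :
    IsConj g h := by
  have h1 := ne_iff.mp hg
  rw [g.det_coe] at h1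
  have hh : NE (h : Matrix (Fin 2) (Fin 2) F) := by
    rw [ne_iff, h.det_coe, ← ht]; exact h1
  exact isConj_SL hg.ns hh.ns ht (un_ne h1).1

theorem half_ne {α : MulChar F ℂ} (h : α ^ 2 = 1) (h1 : α ≠ 1) {χ : SL(2, F) → ℂ} (h2 : IsIrrCharacter SL(2, F) χ)
    (h4 : classInner (RS α) χ ≠ 0) {g : SL(2, F)} (hg : NE (g : Matrix (Fin 2) (Fin 2) F)) : χ g = 0 := by
  obtain ⟨χ₁, χ₂, a1, a2, hne, hsum, hall, b1, b2⟩ := halves h h1
  obtain ⟨x, hx⟩ := halves_conj h h1 a1 a2 (by rw [b1]; exact one_ne_zero) (by rw [b2]; exact one_ne_zero)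
  obtain ⟨h', hh'⟩ := conj_SL_mem x g
  have h5 := hx g h' hh'
  have h6 : IsConj g h' := isConj_of_ne hg (trace_of_toGL hh').symm
  rw [← classFn_isConj (isChar_classFn (isChar_of_irr a2)) h6] at h5
  have h7 := congrFun hsum g
  rw [RS_ne _ hg, Pi.add_apply, h5] at h7
  have h8 : χ₁ g = 0 := by linear_combination -h7 / 2
  rcases hall χ h2 h4 with rfl | rfl
  · exact h8
  · rw [h5, h8]

theorem sum_T5_ne (hodd : Odd (Fintype.card F)) {g : SL(2, F)} (hg : NE (g : Matrix (Fin 2) (Fin 2) F)) :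
    ∑ χ : T5 F, Complex.normSq (χ.1.1 g) = (Fintype.card F : ℝ) - 1 := by
  classical
  have h := column_orth g g
  rw [if_pos (IsConj.refl g), card_centSL_ne hg, ← Equiv.sum_comp (Equiv.ofBijective _ (eS_bij (F := F))), Fintype.sum_sum_type, Fintype.sum_sum_type,
    Fintype.sum_sum_type, Fintype.sum_sum_type] at h
  have e1 : ∀ u : Unit, ((Equiv.ofBijective _ (eS_bij (F := F)) (Sum.inl u)).1 g * conj ((Equiv.ofBijective _ (eS_bij (F := F)) (Sum.inl u)).1 g)) = 1 := fun u => by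
    show (1 : ℂ) * conj (1 : ℂ) = 1; rw [map_one, mul_one]
  have e2 : ∀ u : Unit, ((Equiv.ofBijective _ (eS_bij (F := F)) (Sum.inr (Sum.inl u))).1 g * conj ((Equiv.ofBijective _ (eS_bij (F := F)) (Sum.inr (Sum.inl u))).1 g)) = 1 := fun u => by
    show (StS g) * conj (StS g) = 1
    have : StS g = -1 := by
      show RS 1 g - 1 = -1
      rw [RS_ne _ hg, zero_sub]
    rw [this, map_neg, map_one]; norm_num
  have e3 : ∀ χ : T3 F, ((Equiv.ofBijective _ (eS_bij (F := F)) (Sum.inr (Sum.inr (Sum.inl χ)))).1 g * conj ((Equiv.ofBijective _ (eS_bij (F := F)) (Sum.inr (Sum.inr (Sum.inl χ)))).1 g)) = 0 := by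
    rintro ⟨χ, α, h1, h2⟩
    show χ.1 g * conj (χ.1 g) = 0
    rw [h2, RS_ne _ hg, zero_mul]
  have e4 : ∀ χ : T4 F, ((Equiv.ofBijective _ (eS_bij (F := F)) (Sum.inr (Sum.inr (Sum.inr (Sum.inl χ))))).1 g * conj ((Equiv.ofBijective _ (eS_bij (F := F)) (Sum.inr (Sum.inr (Sum.inr (Sum.inl χ))))).1 g)) = 0 := by
    rintro ⟨χ, α, h1, h2, h3⟩
    show χ.1 g * conj (χ.1 g) = 0
    rw [half_ne h1 h2 χ.2 h3 hg, zero_mul]
  have e5 : ∀ χ : T5 F, ((Equiv.ofBijective _ (eS_bij (F := F)) (Sum.inr (Sum.inr (Sum.inr (Sum.inr χ))))).1 g * conj ((Equiv.ofBijective _ (eS_bij (F := F)) (Sum.inr (Sum.inr (Sum.inr (Sum.inr χ))))).1 g)) =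
      ((Complex.normSq (χ.1.1 g) : ℝ) : ℂ) := by
    intro χ
    show χ.1.1 g * conj (χ.1.1 g) = _
    rw [Complex.mul_conj]
  simp only [e1, e2, e3, e4, e5, Finset.sum_const_zero, Finset.univ_unique, Finset.sum_singleton, zero_add] at h
  have h' : ((∑ χ : T5 F, Complex.normSq (χ.1.1 g) : ℝ) : ℂ) = (((Fintype.card F : ℝ) - 1 : ℝ) : ℂ) := by
    push_cast
    push_cast at h
    linear_combination h
  exact_mod_cast h'

theorem norm_of_lin {G : Type*} [Group G] [Finite G] {χ : G → ℂ} (hχ : IsCharacter G χ) (h1 : χ 1 = 1) (g : G) : Complex.normSq (χ g) = 1 := by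
  obtain ⟨l, hl⟩ := exists_lin_of_one hχ h1
  have h2 : χ g * conj (χ g) = 1 := by
    rw [← char_inv hχ, hl]
    simp
  rw [Complex.mul_conj] at h2
  exact_mod_cast h2

/-- for `q = 3` the cuspidal character of degree `2` vanishes on elements of order `4` -/
theorem cusp_three (h3 : Fintype.card F = 3) {χ : SL(2, F) → ℂ} (hχ : IsIrrCharacter SL(2, F) χ) (h : CuspS χ) (hd : χ 1 = 2)
    {g : SL(2, F)} (hg : NE (g : Matrix (Fin 2) (Fin 2) F)) : χ g = 0 := by
  classical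
  have hodd : Odd (Fintype.card F) := by rw [h3]; decide
  have hsum := sum_T5_ne hodd hg
  choose d hd' using fun χ : T5 F => isIrr_one_eq χ.1.2
  obtain ⟨_, hcard, _⟩ := T5_count hodd (d := d) (fun χ => (hd' χ).2)
  rw [h3] at hcard
  rw [← Finset.sum_filter_add_sum_filter_not Finset.univ (fun χ : T5 F => d χ = 1)] at hsum
  have h4 : ∑ χ ∈ Finset.univ.filter (fun χ : T5 F => d χ = 1), Complex.normSq (χ.1.1 g) = 2 := by
    rw [Finset.sum_congr rfl (fun χ hχ => by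
      have h5 : d χ = 1 := (Finset.mem_filter.mp hχ).2
      exact norm_of_lin (isChar_of_irr χ.1.2) (by rw [(hd' χ).2, h5, Nat.cast_one]) g), Finset.sum_const, nsmul_eq_mul, mul_one]
    rw [Nat.card_eq_fintype_card, Fintype.card_subtype] at hcard
    have h6 : (Finset.univ.filter (fun χ : T5 F => d χ = 1)).card = 2 := hcard
    rw [h6]; norm_num
  rw [h4, h3] at hsum
  have h7 : ∑ χ ∈ Finset.univ.filter (fun χ : T5 F => ¬ d χ = 1), Complex.normSq (χ.1.1 g) = 0 := by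
    push_cast at hsum; linarith
  rw [Finset.sum_eq_zero_iff_of_nonneg (fun _ _ => Complex.normSq_nonneg _)] at h7
  obtain ⟨X, hX⟩ : ∃ X : T5 F, X.1.1 = χ := ⟨⟨⟨χ, hχ⟩, h⟩, rfl⟩
  have h8 := h7 X (by
    rw [Finset.mem_filter]
    refine ⟨Finset.mem_univ _, fun h9 => ?_⟩
    have h10 := (hd' X).2
    rw [h9, hX, hd] at h10
    norm_num at h10)
  rw [hX] at h8
  exact Complex.normSq_eq_zero.mp h8

end Cfsg.Agent.Lib.Tw
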