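import Mathlib
import Cfsg.Agent.Lib.Tw23

/-! Values of the characters of half degree on unipotent elements. -/

set_option linter.all false
set_option maxHeartbeats 400000

namespace Cfsg.Agent.Lib.Tw

open Matrix Module Cfsg Cfsg.Agent.Lib.CharBasic Cfsg.Agent.Lib.CharInd
open scoped MatrixGroups ComplexConjugate

variable {F : Type*} [Field F] [Fintype F] [DecidableEq F]

theorem conj_eta (h2 : (2 : F) ≠ 0) (z : F) : conj (eta F z) = eta F z := by
  by_cases hz : z = 0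
  · rw [hz, MulChar.map_zero, map_zero]
  · by_cases hs : IsSquare z
    · rw [quad_one eta_sq hz hs, map_one]
    · rw [quad_neg eta_sq (eta_ne h2) hs, map_neg, map_one]

theorem isQuad_eta : (eta F).IsQuadratic := (quadraticChar_isQuadratic F).comp _

theorem eta_neg_one (hodd : Odd (Fintype.card F)) : eta F (-1) = (-1 : ℂ) ^ ((Fintype.card F - 1) / 2) := by
  have hF : ringChar F ≠ 2 := by
    intro h
    have h1 := two_ne_zero_of_odd hodd
    apply h1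
    have := ringChar.Nat.cast_ringChar (R := F)
    rw [h] at this
    exact_mod_cast this
  have h1 := quadraticChar_neg_one hF
  have h2 : eta F (-1) = ((quadraticChar F (-1) : ℤ) : ℂ) := rfl
  have hm : Fintype.card F % 2 = 1 := Nat.odd_iff.mp hodd
  rw [h2, h1, ZMod.χ₄_eq_neg_one_pow hm]
  have : Fintype.card F / 2 = (Fintype.card F - 1) / 2 := by omega
  rw [this]
  push_cast
  rfl

theorem four_t {φ : SL(2, F) → ℂ} (hφ : IsClassFunction SL(2, F) φ) (h2 : (2 : F) ≠ 0) {ν : F} (hν : ¬ IsSquare ν) {ψ : AddChar F ℂ} (hψ : ψ ≠ 1) (a : Fˣ) :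
    ∑ z : F, φ (SL2.t z) * conj (ψ (a * z)) = (φ 1 - (φ (SL2.t 1) + φ (SL2.t ν)) / 2) +
      (φ (SL2.t 1) - φ (SL2.t ν)) / 2 * (eta F a * conj (gaussSum (eta F) ψ)) := by
  have e : ∀ z : F, φ (SL2.t z) * conj (ψ (a * z)) = (φ (SL2.t 1) + φ (SL2.t ν)) / 2 * conj (ψ (a * z)) +
      (φ (SL2.t 1) - φ (SL2.t ν)) / 2 * (conj (eta F z * ψ (a * z))) + (if z = 0 then (φ 1 - (φ (SL2.t 1) + φ (SL2.t ν)) / 2) else 0) := by
    intro z
    by_cases hz : z = 0
    · subst hz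
      rw [if_pos rfl, mul_zero, AddChar.map_zero_eq_one, map_one, MulChar.map_zero, zero_mul, map_zero, SL2.t_zero]
      ring
    · rw [if_neg hz, t_val hφ h2 hν hz, map_mul (starRingEnd ℂ), conj_eta h2]
      ring
  rw [Finset.sum_congr rfl (fun z _ => e z), Finset.sum_add_distrib, Finset.sum_add_distrib, ← Finset.mul_sum, ← Finset.mul_sum, ← map_sum (starRingEnd ℂ), ← map_sum (starRingEnd ℂ),
    Finset.sum_ite_eq' Finset.univ (0 : F), if_pos (Finset.mem_univ _)]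
  have h3 : ∑ z : F, ψ (a * z) = 0 := by
    have h4 : AddChar.mulShift ψ (a : F) ≠ 1 := AddChar.IsPrimitive.of_ne_one hψ a.ne_zero
    exact AddChar.sum_eq_zero_of_ne_one h4
  have h5 : ∑ z : F, eta F z * ψ (a * z) = eta F a * gaussSum (eta F) ψ := by
    have h6 := gaussSum_mulShift (eta F) ψ a
    have h7 : ∑ z : F, eta F z * ψ (a * z) = gaussSum (eta F) (AddChar.mulShift ψ (a : F)) := rfl
    rw [h7, ← h6, ← mul_assoc, quad_sq eta_sq a.ne_zero, one_mul]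
  rw [h3, h5, map_zero, mul_zero, map_mul (starRingEnd ℂ), conj_eta h2]
  ring

theorem nat_t {χ : SL(2, F) → ℂ} (hχ : IsCharacter SL(2, F) χ) (ψ : AddChar F ℂ) (a : F) :
    ∃ m : ℕ, ∑ z : F, χ (SL2.t z) * conj (ψ (a * z)) = (Fintype.card F : ℂ) * m := by
  let f : Multiplicative F →* SL(2, F) :=
    { toFun := fun z => SL2.t (Multiplicative.toAdd z)
      map_one' := SL2.t_zero
      map_mul' := fun x y => SL2.t_add _ _ }
  let l : Multiplicative F →* ℂ :=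
    { toFun := fun z => ψ (a * Multiplicative.toAdd z)
      map_one' := by show ψ (a * 0) = 1; rw [mul_zero, AddChar.map_zero_eq_one]
      map_mul' := fun x y => by
        show ψ (a * (Multiplicative.toAdd x + Multiplicative.toAdd y)) = _
        rw [mul_add, AddChar.map_add_eq_mul] }
  obtain ⟨m, hm⟩ := exists_nat_inner' (isChar_comp f hχ) (isChar_of_hom l)
  refine ⟨m, ?_⟩
  rw [classInner_def] at hm
  have h1 : (Nat.card (Multiplicative F) : ℂ) = Fintype.card F := by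
    rw [Nat.card_congr Multiplicative.toAdd, Nat.card_eq_fintype_card]
  rw [h1] at hm
  rw [← hm, ← mul_assoc, mul_inv_cancel₀ q_ne, one_mul]
  exact (Equiv.sum_comp Multiplicative.toAdd (fun z : F => χ (SL2.t z) * conj (ψ (a * z)))).symm

theorem exists_psi : ∃ ψ : AddChar F ℂ, ψ ≠ 1 := by
  obtain ⟨ψ, hψ⟩ := (AddChar.exists_apply_ne_zero (a := (1 : F))).mpr one_ne_zero
  exact ⟨ψ, fun h => hψ (by rw [h]; rfl)⟩

/-- the main relation -/
theorem half_vals (hodd : Odd (Fintype.card F)) {χ : SL(2, F) → ℂ} (hχ : IsCharacter SL(2, F) χ) {ν : F} (hν : ¬ IsSquare ν) {c : ℂ}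
    (hJ : JS χ 1 = c * Fintype.card F) (hd : 2 * χ 1 = 2 * c + ((Fintype.card F : ℂ) - 1)) :
    χ (SL2.t 1) + χ (SL2.t ν) = 2 * c - 1 ∧ (χ (SL2.t 1) - χ (SL2.t ν)) ^ 2 = (-1 : ℂ) ^ ((Fintype.card F - 1) / 2) * (Fintype.card F : ℂ) := by
  have h2 := two_ne_zero_of_odd hodd
  have hcl := isChar_classFn hχ
  have hν0 : ν ≠ 0 := by rintro rfl; exact hν IsSquare.zero
  obtain ⟨ψ, hψ⟩ := exists_psi (F := F)
  have hq := q_ne (F := F)
  have hq1 := q_sub_ne (F := F)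
  have h3 : χ (SL2.t 1) + χ (SL2.t ν) = 2 * c - 1 := by
    rw [JS_one_odd hcl h2 hν] at hJ
    have : ((Fintype.card F : ℂ) - 1) * (χ (SL2.t 1) + χ (SL2.t ν)) = ((Fintype.card F : ℂ) - 1) * (2 * c - 1) := by
      linear_combination 2 * hJ - hd
    exact mul_left_cancel₀ hq1 this
  refine ⟨h3, ?_⟩
  obtain ⟨m1, hm1⟩ := nat_t hχ ψ ((1 : Fˣ) : F)
  obtain ⟨m2, hm2⟩ := nat_t hχ ψ ((Units.mk0 ν hν0 : Fˣ) : F)
  rw [four_t hcl h2 hν hψ] at hm1 hm2
  rw [Units.val_one, map_one, one_mul] at hm1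
  rw [Units.val_mk0, quad_neg eta_sq (eta_ne h2) hν] at hm2
  set g := conj (gaussSum (eta F) ψ) with hg
  have hg2 : g ^ 2 = (-1 : ℂ) ^ ((Fintype.card F - 1) / 2) * (Fintype.card F : ℂ) := by
    rw [hg, ← map_pow, gaussSum_sq (eta_ne h2) isQuad_eta (AddChar.IsPrimitive.of_ne_one hψ), map_mul, conj_eta h2, eta_neg_one hodd, Complex.conj_natCast]
  have hsum : (m1 : ℂ) + m2 = 1 := by
    apply mul_left_cancel₀ hq
    linear_combination -hm1 - hm2 + hd - h3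
  have hsum' : m1 + m2 = 1 := by exact_mod_cast hsum
  have hsq : ((m1 : ℂ) - m2) ^ 2 = 1 := by
    have : (m1 = 0 ∧ m2 = 1) ∨ (m1 = 1 ∧ m2 = 0) := by omega
    rcases this with ⟨h, h'⟩ | ⟨h, h'⟩ <;> rw [h, h'] <;> norm_num
  have hdiff : (χ (SL2.t 1) - χ (SL2.t ν)) * g = (Fintype.card F : ℂ) * (m1 - m2) := by
    linear_combination hm1 - hm2
  have h5 : (χ (SL2.t 1) - χ (SL2.t ν)) ^ 2 * g ^ 2 = (Fintype.card F : ℂ) ^ 2 := by
    rw [← mul_pow, hdiff, mul_pow, hsq, mul_one]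
  have h6 : ((-1 : ℂ) ^ ((Fintype.card F - 1) / 2)) * ((-1 : ℂ) ^ ((Fintype.card F - 1) / 2)) = 1 := by
    rw [← mul_pow]; norm_num
  rw [hg2] at h5
  have h7 : (Fintype.card F : ℂ) * ((χ (SL2.t 1) - χ (SL2.t ν)) ^ 2) = (Fintype.card F : ℂ) * ((-1 : ℂ) ^ ((Fintype.card F - 1) / 2) * (Fintype.card F : ℂ)) := by
    linear_combination (-1 : ℂ) ^ ((Fintype.card F - 1) / 2) * h5 - (χ (SL2.t 1) - χ (SL2.t ν)) ^ 2 * (Fintype.card F : ℂ) * h6
  exact mul_left_cancel₀ hq h7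

/-- conjugation by a diagonal matrix -/
def dgS (ν : Fˣ) : SL(2, F) →* SL(2, F) where
  toFun g := ⟨!![(g : Matrix (Fin 2) (Fin 2) F) 0 0, (g : Matrix (Fin 2) (Fin 2) F) 0 1 * ((ν⁻¹ : Fˣ) : F);
    (ν : F) * (g : Matrix (Fin 2) (Fin 2) F) 1 0, (g : Matrix (Fin 2) (Fin 2) F) 1 1], by
      have := g.det_coe
      rw [Matrix.det_fin_two] at this
      rw [Matrix.det_fin_two_of]
      have h := ν.inv_mul
      linear_combination this - (g : Matrix (Fin 2) (Fin 2) F) 0 1 * (g : Matrix (Fin 2) (Fin 2) F) 1 0 * h⟩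
  map_one' := by
    apply Subtype.ext
    show !![((1 : SL(2, F)) : Matrix (Fin 2) (Fin 2) F) 0 0, _; _, _] = _
    ext i j
    fin_cases i <;> fin_cases j <;> simp
  map_mul' x y := by
    apply Subtype.ext
    have h := ν.inv_mul
    show !![((x * y : SL(2, F)) : Matrix (Fin 2) (Fin 2) F) 0 0, _; _, _] = !![_, _; _, _] * !![_, _; _, _]
    rw [Matrix.SpecialLinearGroup.coe_mul, Matrix.mul_fin_two]
    ext i j
    fin_cases i <;> fin_cases j <;> simp [Matrix.mul_apply, Fin.sum_univ_two]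
    · field_simp
    · field_simp
    · field_simp
    · field_simp

theorem dgS_t (ν : Fˣ) (z : F) : dgS ν (SL2.t z) = SL2.t (z * ((ν⁻¹ : Fˣ) : F)) := by
  apply Subtype.ext
  show !![(SL2.t z : Matrix (Fin 2) (Fin 2) F) 0 0, (SL2.t z : Matrix (Fin 2) (Fin 2) F) 0 1 * ((ν⁻¹ : Fˣ) : F);
    (ν : F) * (SL2.t z : Matrix (Fin 2) (Fin 2) F) 1 0, (SL2.t z : Matrix (Fin 2) (Fin 2) F) 1 1] = _
  rw [SL2.t_coe, SL2.t_coe]
  ext i j
  fin_cases i <;> fin_cases j <;> simp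

theorem dgS_surj (ν : Fˣ) : Function.Surjective (dgS (F := F) ν) := by
  intro g
  refine ⟨dgS ν⁻¹ g, ?_⟩
  apply Subtype.ext
  show !![(g : Matrix (Fin 2) (Fin 2) F) 0 0, ((g : Matrix (Fin 2) (Fin 2) F) 0 1 * (((ν⁻¹)⁻¹ : Fˣ) : F)) * ((ν⁻¹ : Fˣ) : F);
    (ν : F) * (((ν⁻¹ : Fˣ) : F) * (g : Matrix (Fin 2) (Fin 2) F) 1 0), (g : Matrix (Fin 2) (Fin 2) F) 1 1] = _
  rw [inv_inv, mul_assoc, ν.mul_inv, mul_one, ← mul_assoc, ν.mul_inv, one_mul]
  ext i j
  fin_cases i <;> fin_cases j <;> rfl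

end Cfsg.Agent.Lib.Tw
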