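import Mathlib
import Cfsg.Agent.Lib.Tw24
import Cfsg.Agent.Lib.Tor9

/-! Induction from tori of `SL_2(q)`. -/

set_option linter.all false
set_option maxHeartbeats 400000

namespace Cfsg.Agent.Lib.Cus

open Matrix Module Cfsg Cfsg.Agent.Lib.CharBasic Cfsg.Agent.Lib.CharInd Cfsg.Agent.Lib.Tw Cfsg.Agent.Lib.Tor
open scoped MatrixGroups ComplexConjugate

theorem central_mul {G : Type*} [Group G] {χ : G → ℂ} (hχ : IsIrrCharacter G χ) {z : G} (hz : z ∈ Subgroup.center G) :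
    ∃ c : ℂ, ∀ g, χ (z * g) = c * χ g := by
  obtain ⟨n, ρ, hρ, rfl⟩ := hχ
  haveI := hρ
  obtain ⟨c, hc⟩ := CharInt.center_scalar ρ z hz
  refine ⟨c, fun g => ?_⟩
  show LinearMap.trace ℂ _ (ρ (z * g)) = c * LinearMap.trace ℂ _ (ρ g)
  rw [map_mul, hc, ← smul_eq_mul c, ← map_smul]
  congr 1

variable {F : Type*} [Field F] [Fintype F] [DecidableEq F]

/-- values at central elements -/
theorem ind_central {G : Type*} [Group G] [Fintype G] (H : Subgroup G) (θ : H → ℂ) {z : G} (hz : z ∈ Subgroup.center G) (hzH : z ∈ H) :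
    indFun H θ z = (H.index : ℂ) * θ ⟨z, hzH⟩ := by
  rw [indFun_apply]
  have h1 : ∀ x : G, extendByZero H θ (x⁻¹ * z * x) = θ ⟨z, hzH⟩ := by
    intro x
    have : x⁻¹ * z * x = z := by
      rw [mul_assoc, ← Subgroup.mem_center_iff.mp hz x, inv_mul_cancel_left]
    rw [this, ext_mem]
  rw [Finset.sum_congr rfl (fun x _ => h1 x), Finset.sum_const, Finset.card_univ, nsmul_eq_mul, ← mul_assoc]
  congr 1
  have h2 := H.card_mul_index
  rw [Nat.card_eq_fintype_card (α := G)] at h2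
  rw [← h2]
  push_cast
  have h3 : (Nat.card H : ℂ) ≠ 0 := by exact_mod_cast Nat.card_pos.ne'
  field_simp

/-- values at regular elements of the torus -/
theorem ind_reg {A : SL(2, F)} (hA : Reg A) (θ : Ct A → ℂ) {g : SL(2, F)} (hg : g ∈ Ct A) (hns : NS (g : Matrix (Fin 2) (Fin 2) F)) :
    indFun (Ct A) θ g = θ ⟨g, hg⟩ + θ ⟨g⁻¹, (Ct A).inv_mem hg⟩ := by
  classical
  have hgr := reg_of_mem hA hg hns
  have hC := Ct_eq hA.ns hg hns
  obtain ⟨n, hn⟩ := exists_inverter hgr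
  have key : ∀ x : SL(2, F), extendByZero (Ct A) θ (x⁻¹ * g * x) = (if x ∈ Ct A then θ ⟨g, hg⟩ else 0) + (if n⁻¹ * x ∈ Ct A then θ ⟨g⁻¹, (Ct A).inv_mem hg⟩ else 0) := by
    intro x
    have h1 : x ∈ Ct A ↔ x⁻¹ * g * x = g := by
      rw [← hC, Subgroup.mem_centralizer_singleton_iff]
      constructor
      · intro h; rw [mul_assoc, ← h, inv_mul_cancel_left]
      · intro h
        have : g * x = x * g := by nth_rewrite 2 [← h]; group
        exact this.symm
    have h2 : n⁻¹ * x ∈ Ct A ↔ x⁻¹ * g * x = g⁻¹ := by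
      rw [← hC, Subgroup.mem_centralizer_singleton_iff]
      have hn' : n⁻¹ * g * n = g⁻¹ := by
        have : n⁻¹ * (n * g * n⁻¹) * n = n⁻¹ * g⁻¹ * n := by rw [hn]
        have h3 : n⁻¹ * (n * g * n⁻¹) * n = g := by group
        rw [h3] at this
        have h4 : n⁻¹ * g * n = (n⁻¹ * g⁻¹ * n)⁻¹ := by group
        rw [h4, ← this]
      constructor
      · intro h
        have h4 : x⁻¹ * g * x = (n⁻¹ * x)⁻¹ * (n⁻¹ * g * n) * (n⁻¹ * x) := by group
        rw [h4, hn', mul_assoc]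
        have h5 : g⁻¹ * (n⁻¹ * x) = (n⁻¹ * x) * g⁻¹ := by
          rw [inv_mul_eq_iff_eq_mul, ← mul_assoc, ← h, mul_inv_cancel_right]
        rw [h5, inv_mul_cancel_left]
      · intro h
        have h4 : (n⁻¹ * x)⁻¹ * (n⁻¹ * g * n) * (n⁻¹ * x) = g⁻¹ := by rw [← h]; group
        rw [hn', mul_assoc, inv_mul_eq_iff_eq_mul] at h4
        have h5 : g⁻¹ * (n⁻¹ * x) = (n⁻¹ * x) * g⁻¹ := h4
        rw [inv_mul_eq_iff_eq_mul, ← mul_assoc, eq_mul_inv_iff_mul_eq] at h5
        exact h5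
    have hne : ¬ (x⁻¹ * g * x = g ∧ x⁻¹ * g * x = g⁻¹) := fun h => hgr.ne_inv (h.1.symm.trans h.2)
    by_cases hx : x⁻¹ * g * x ∈ Ct A
    · have htr : ((x⁻¹ * g * x : SL(2, F)) : Matrix (Fin 2) (Fin 2) F).trace = (g : Matrix (Fin 2) (Fin 2) F).trace := by
        have := trace_conj g x⁻¹
        rwa [inv_inv] at this
      rw [ext_mem _ _ hx]
      have hx' := hx
      rw [← hC] at hx'
      rcases eq_or_inv hgr hx' htr with h3 | h3
      · rw [if_pos (h1.mpr h3), if_neg (fun h => hne ⟨h3, h2.mp h⟩), add_zero]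
        congr 1
        exact Subtype.ext h3
      · rw [if_neg (fun h => hne ⟨h1.mp h, h3⟩), if_pos (h2.mpr h3), zero_add]
        congr 1
        exact Subtype.ext h3
    · rw [ext_notMem _ _ hx, if_neg (fun h => hx (by rw [h1.mp h]; exact hg)), if_neg (fun h => hx (by rw [h2.mp h]; exact (Ct A).inv_mem hg)), add_zero]
  rw [indFun_apply, Finset.sum_congr rfl (fun x _ => key x), Finset.sum_add_distrib]
  have hc : ∀ c : ℂ, ∑ x : SL(2, F), (if x ∈ Ct A then c else 0) = (Nat.card (Ct A) : ℂ) * c := by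
    intro c
    rw [← Finset.sum_filter, Finset.sum_const, nsmul_eq_mul, ← Fintype.card_subtype, ← Nat.card_eq_fintype_card]
  have hc' : ∀ c : ℂ, ∑ x : SL(2, F), (if n⁻¹ * x ∈ Ct A then c else 0) = (Nat.card (Ct A) : ℂ) * c := by
    intro c
    rw [← hc c]
    exact Equiv.sum_comp (Equiv.mulLeft n⁻¹) (fun x => if x ∈ Ct A then c else 0)
  rw [hc, hc', ← mul_add, ← mul_assoc, inv_mul_cancel₀ (by exact_mod_cast Nat.card_pos.ne'), one_mul]

/-- values at other elements -/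
theorem ind_zero {A : SL(2, F)} (hA : Reg A) (θ : Ct A → ℂ) {g : SL(2, F)} (hns : NS (g : Matrix (Fin 2) (Fin 2) F))
    (h : Reg g → Nat.card (Ct g) ≠ Nat.card (Ct A)) : indFun (Ct A) θ g = 0 := by
  apply indFun_eq_zero_of_not_conj
  intro x hx
  exfalso
  have hns' : NS ((x⁻¹ * g * x : SL(2, F)) : Matrix (Fin 2) (Fin 2) F) := by
    apply ns_of_ne
    · intro h1
      have : g = 1 := by
        have h2 : g = x * (x⁻¹ * g * x) * x⁻¹ := by group
        rw [h2, h1]; group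
      rw [this] at hns
      exact not_ns_one hns
    · intro h1
      have : g = -1 := by
        have h2 : g = x * (x⁻¹ * g * x) * x⁻¹ := by group
        rw [h2, h1, mul_neg, mul_one, neg_mul, mul_inv_cancel]
      rw [this] at hns
      exact not_ns_neg_one hns
  have hr := reg_of_mem hA hx hns'
  have htr : ((x⁻¹ * g * x : SL(2, F)) : Matrix (Fin 2) (Fin 2) F).trace = (g : Matrix (Fin 2) (Fin 2) F).trace := by
    have := trace_conj g x⁻¹
    rwa [inv_inv] at this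
  have hgr : Reg g := by unfold Reg; rw [← htr]; exact hr
  apply h hgr
  rw [← Ct_eq hA.ns hx hns']
  have e1 : ∀ b, b ∈ Ct g ↔ x⁻¹ * b * x ∈ Ct (x⁻¹ * g * x) := by
    intro b
    have := Ct_conj g x⁻¹ b
    rw [inv_inv] at this
    exact this.symm
  refine Nat.card_congr ⟨fun b => ⟨x⁻¹ * b.1 * x, (e1 _).mp b.2⟩, fun b => ⟨x * b.1 * x⁻¹, ?_⟩, fun b => Subtype.ext (by simp [mul_assoc]), fun b => Subtype.ext (by simp [mul_assoc])⟩
  rw [e1]
  have : x⁻¹ * (x * b.1 * x⁻¹) * x = b.1 := by group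
  rw [this]; exact b.2

/-! ### the split torus -/

/-- diagonal torus -/
def hD (F : Type*) [Field F] : Fˣ →* SL(2, F) where
  toFun a := SL2.bMk a 0
  map_one' := by
    apply Subtype.ext
    rw [SL2.bMk_coe]
    ext i j
    fin_cases i <;> fin_cases j <;> simp
  map_mul' a b := by
    apply Subtype.ext
    rw [Matrix.SpecialLinearGroup.coe_mul, SL2.bMk_coe, SL2.bMk_coe, SL2.bMk_coe, Matrix.mul_fin_two]
    ext i j
    fin_cases i <;> fin_cases j <;> simp [mul_comm]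

theorem hD_inj : Function.Injective (hD F) := by
  intro a b h
  have := congrArg (fun g : SL(2, F) => (g : Matrix (Fin 2) (Fin 2) F) 0 0) h
  exact Units.ext this

theorem hD_apply (a : Fˣ) : hD F a = SL2.bMk a 0 := rfl

theorem range_hD {a : Fˣ} (ha : a ≠ a⁻¹) : (hD F).range = Ct (SL2.bMk a 0) ∧ Reg (SL2.bMk a 0) := by
  have hne : (a : F) ≠ ((a⁻¹ : Fˣ) : F) := fun h => ha (Units.ext h)
  have hr : Reg (SL2.bMk a 0) := reg_of_split hne (by rw [SL2.bMk_coe, Matrix.trace_fin_two_of]) a.mul_inv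
  refine ⟨?_, hr⟩
  have hle : (hD F).range ≤ Ct (SL2.bMk a 0) := by
    rintro _ ⟨b, rfl⟩
    rw [Subgroup.mem_centralizer_singleton_iff, ← hD_apply, ← map_mul, ← map_mul, mul_comm]
  apply Subgroup.eq_of_le_of_card_ge hle
  rw [card_centSL_split hne (by rw [SL2.bMk_coe, Matrix.trace_fin_two_of]) a.mul_inv, ← Nat.card_congr (MonoidHom.ofInjective hD_inj).toEquiv,
    GLSL.card_units_field]

/-- the function on the torus -/
noncomputable def fD (α : MulChar F ℂ) : (hD F).range → ℂ := fun d => α (((d : SL(2, F)) : Matrix (Fin 2) (Fin 2) F) 0 0)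

/-- `Ind_D^G α - RS α` -/
noncomputable def ED (α : MulChar F ℂ) : SL(2, F) → ℂ := indFun (hD F).range (fD α) - RS α

theorem index_D : ((hD F).range.index : ℂ) = (Fintype.card F : ℂ) * ((Fintype.card F : ℂ) + 1) := by
  have h := (hD F).range.card_mul_index
  rw [← Nat.card_congr (MonoidHom.ofInjective hD_inj).toEquiv, GLSL.card_units_field, SL2.card_SL2] at h
  have hq : 1 < Fintype.card F := Fintype.one_lt_card
  have h1 : (hD F).range.index = Fintype.card F * (Fintype.card F + 1) := by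
    apply Nat.eq_of_mul_eq_mul_left (by omega : 0 < Fintype.card F - 1)
    rw [h]; ring
  rw [h1]; push_cast; ring

theorem isChar_fD (α : MulChar F ℂ) : IsCharacter (hD F).range (fD α) := by
  let f : (hD F).range →* ℂ :=
    { toFun := fD α
      map_one' := by show α ((1 : Matrix (Fin 2) (Fin 2) F) 0 0) = 1; rw [Matrix.one_apply_eq, map_one]
      map_mul' := by
        rintro ⟨_, a, rfl⟩ ⟨_, b, rfl⟩
        have e : (hD F a * hD F b : SL(2, F)) = hD F (a * b) := (map_mul _ _ _).symm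
        show α (((hD F a * hD F b : SL(2, F)) : Matrix (Fin 2) (Fin 2) F) 0 0) = α ((hD F a : Matrix (Fin 2) (Fin 2) F) 0 0) * α ((hD F b : Matrix (Fin 2) (Fin 2) F) 0 0)
        rw [e]
        show α ((a * b : Fˣ) : F) = α (a : F) * α (b : F)
        rw [Units.val_mul, map_mul] }
  exact isChar_of_hom f

theorem ED_sc (α : MulChar F ℂ) {g : SL(2, F)} {x : F} (hx : x * x = 1) (hg : (g : Matrix (Fin 2) (Fin 2) F) = x • 1) :
    ED α g = ((Fintype.card F : ℂ) ^ 2 - 1) * α x := by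
  have hgc : g = 1 ∨ g = -1 := not_ns_SL (fun hns => (ns_iff.mp hns x) hg)
  have hz : g ∈ Subgroup.center SL(2, F) := mem_center.mpr hgc
  have hgD : g ∈ (hD F).range := by
    refine ⟨Units.mkOfMulEqOne x x hx, Subtype.ext ?_⟩
    rw [hg, hD_apply, SL2.bMk_coe]
    ext i j
    fin_cases i <;> fin_cases j <;> simp
    exact inv_eq_of_mul_eq_one_left hx
  unfold ED
  rw [Pi.sub_apply, ind_central _ _ hz hgD, RS_sc α hg, index_D]
  show _ * α ((g : Matrix (Fin 2) (Fin 2) F) 0 0) - _ = _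
  rw [hg, Matrix.smul_apply, Matrix.one_apply_eq, smul_eq_mul, mul_one]
  ring

theorem indD_zero (α : MulChar F ℂ) {g : SL(2, F)} (hns : NS (g : Matrix (Fin 2) (Fin 2) F))
    (h : ∀ x : Fˣ, x ≠ x⁻¹ → (g : Matrix (Fin 2) (Fin 2) F).trace ≠ x + (x⁻¹ : Fˣ)) : indFun (hD F).range (fD α) g = 0 := by
  apply indFun_eq_zero_of_not_conj
  rintro x ⟨a, ha⟩
  exfalso
  have htr : ((x⁻¹ * g * x : SL(2, F)) : Matrix (Fin 2) (Fin 2) F).trace = (g : Matrix (Fin 2) (Fin 2) F).trace := by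
    have := trace_conj g x⁻¹
    rwa [inv_inv] at this
  have ht : (g : Matrix (Fin 2) (Fin 2) F).trace = (a : F) + ((a⁻¹ : Fˣ) : F) := by
    rw [← htr, ← ha, hD_apply, SL2.bMk_coe, Matrix.trace_fin_two_of]
  by_cases haa : a = a⁻¹
  · -- then scalar
    have h1 : (x⁻¹ * g * x : SL(2, F)) = 1 ∨ (x⁻¹ * g * x : SL(2, F)) = -1 := by
      apply not_ns_SL
      rw [← ha, hD_apply, SL2.bMk_coe]
      intro hns'
      apply hns'
      refine ⟨rfl, rfl, ?_⟩
      show (a : F) = ((a⁻¹ : Fˣ) : F)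
      rw [← haa]
    have h2 : g = x * (x⁻¹ * g * x) * x⁻¹ := by group
    rcases h1 with h1 | h1
    · rw [h1, mul_one, mul_inv_cancel] at h2
      rw [h2] at hns
      exact not_ns_one hns
    · rw [h1, mul_neg, mul_one, neg_mul, mul_inv_cancel] at h2
      rw [h2] at hns
      exact not_ns_neg_one hns
  · exact h a haa ht

theorem ED_par (α : MulChar F ℂ) {g : SL(2, F)} {x : F} (hg : NS (g : Matrix (Fin 2) (Fin 2) F))
    (ht : (g : Matrix (Fin 2) (Fin 2) F).trace = x + x) (hd : x * x = 1) : ED α g = - α x := by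
  unfold ED
  rw [Pi.sub_apply, RS_par α hg ht hd, indD_zero α hg, zero_sub]
  intro a ha h
  have h1 : (a : F) ≠ ((a⁻¹ : Fˣ) : F) := fun h => ha (Units.ext h)
  rw [ht] at h
  apply h1
  have h2 := a.mul_inv
  have h3 : ((a : F) - ((a⁻¹ : Fˣ) : F)) ^ 2 = 0 := by
    linear_combination (-2 * x - ((a : F) + ((a⁻¹ : Fˣ) : F))) * h - 4 * h2 + 4 * hd
  exact sub_eq_zero.mp (pow_eq_zero_iff two_ne_zero |>.mp h3)

theorem ED_ne (α : MulChar F ℂ) {g : SL(2, F)} (hg : NE (g : Matrix (Fin 2) (Fin 2) F)) : ED α g = 0 := by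
  unfold ED
  rw [Pi.sub_apply, RS_ne α hg, indD_zero α hg.ns, sub_zero]
  intro a ha h
  apply ne_iff.mp hg a
  rw [h, g.det_coe]
  linear_combination -a.mul_inv

theorem ED_split (α : MulChar F ℂ) {g : SL(2, F)} {x y : F} (hxy : x ≠ y)
    (ht : (g : Matrix (Fin 2) (Fin 2) F).trace = x + y) (hd : x * y = 1) : ED α g = 0 := by
  let a : Fˣ := Units.mkOfMulEqOne x y hd
  have ha : a ≠ a⁻¹ := fun h => hxy (congrArg Units.val h)
  obtain ⟨h1, h2⟩ := range_hD ha
  have hgr : Reg g := reg_of_split hxy ht hd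
  have htr : (SL2.bMk a 0 : Matrix (Fin 2) (Fin 2) F).trace = x + y := by
    rw [SL2.bMk_coe, Matrix.trace_fin_two_of]; rfl
  have hconj : IsConj g (SL2.bMk a 0) := isConj_SL hgr.ns h2.ns (ht.trans htr.symm) hgr.un
  unfold ED
  rw [Pi.sub_apply, RS_split α hxy ht hd, classFn_isConj (indFun_classFn _ _) hconj]
  have key : ∀ (T : Subgroup SL(2, F)) (hT : T = Ct (SL2.bMk a 0)) (θ : T → ℂ) (h1 : SL2.bMk a 0 ∈ T) (h2 : (SL2.bMk a 0)⁻¹ ∈ T),
      indFun T θ (SL2.bMk a 0) = θ ⟨_, h1⟩ + θ ⟨_, h2⟩ := by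
    rintro T rfl θ h1 h2'
    exact ind_reg h2 θ h1 h2.ns
  rw [key _ h1 (fD α) ⟨a, rfl⟩ ⟨a⁻¹, by rw [map_inv, hD_apply]⟩]
  show α ((SL2.bMk a 0 : Matrix (Fin 2) (Fin 2) F) 0 0) + α ((((SL2.bMk a 0)⁻¹ : SL(2, F)) : Matrix (Fin 2) (Fin 2) F) 0 0) - _ = 0
  have e : ((SL2.bMk a 0)⁻¹ : SL(2, F)) = SL2.bMk a⁻¹ 0 := by rw [← hD_apply, ← hD_apply, map_inv]
  rw [e]
  show α x + α y - (α x + α y) = 0
  ring

end Cfsg.Agent.Lib.Cus
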