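import Mathlib
import Cfsg.Agent.Lib.Cus1
import Cfsg.Agent.Lib.CharExc

/-! The cuspidal characters of `SL_2(q)`. -/

set_option linter.all false
set_option maxHeartbeats 400000

namespace Cfsg.Agent.Lib.Cus

open Matrix Module Cfsg Cfsg.Agent.Lib.CharBasic Cfsg.Agent.Lib.CharInd Cfsg.Agent.Lib.Tw Cfsg.Agent.Lib.Tor
open scoped MatrixGroups ComplexConjugate

variable {F : Type*} [Field F] [Fintype F] [DecidableEq F]

/-- a cyclic subgroup of order `q+1` is a nonsplit torus -/
theorem exists_gen (hodd : Odd (Fintype.card F)) (C : Subgroup SL(2, F)) (hC : IsCyclic C) (hcard : Nat.card C = Fintype.card F + 1) :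
    ∃ A : SL(2, F), Reg A ∧ C = Ct A ∧ ∀ x ∈ C, x ∈ Subgroup.zpowers A := by
  obtain ⟨⟨A, hA⟩, hgen⟩ := hC.exists_generator
  have hgen' : ∀ x ∈ C, x ∈ Subgroup.zpowers A := by
    intro x hx
    obtain ⟨k, hk⟩ := hgen ⟨x, hx⟩
    exact ⟨k, congrArg Subtype.val hk⟩
  have hq : 1 < Fintype.card F := Fintype.one_lt_card
  have hord : orderOf A = Fintype.card F + 1 := by
    rw [← hcard, ← Nat.card_zpowers]
    have : Subgroup.zpowers A = C := le_antisymm (Subgroup.zpowers_le.mpr hA) hgen'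
    rw [this]
  have hns : NS (A : Matrix (Fin 2) (Fin 2) F) := by
    apply ns_of_ne
    · rintro rfl
      rw [orderOf_one] at hord
      omega
    · rintro rfl
      have : orderOf (-1 : SL(2, F)) ∣ 2 := orderOf_dvd_of_pow_eq_one (by rw [neg_sq, one_pow])
      have := Nat.le_of_dvd (by norm_num) this
      omega
  have hle : C ≤ Ct A := by
    intro x hx
    obtain ⟨k, hk⟩ := hgen' x hx
    rw [Subgroup.mem_centralizer_singleton_iff, ← hk]
    exact ((Commute.refl A).zpow_right k).symm.eq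
  have hdvd : Fintype.card F + 1 ∣ Nat.card (Ct A) := by
    rw [← hcard]; exact Subgroup.card_dvd_of_le hle
  have hne : Reg A := by
    rcases four_kinds A with ⟨x, hx, h⟩ | ⟨x, _, ht, hd⟩ | ⟨x, y, hxy, ht, hd⟩ | h
    · exact absurd h (ns_iff.mp hns x)
    · exfalso
      rw [card_centSL_par hns ht hd] at hdvd
      have hcop : Nat.Coprime (Fintype.card F + 1) (Fintype.card F) := by simp
      have h1 := Nat.le_of_dvd ?_ (hcop.dvd_of_dvd_mul_right hdvd)
      · have h2 : Nat.card {x : F // x ^ 2 = 1} ≤ 2 := by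
          rw [Nat.card_eq_fintype_card, Fintype.card_subtype]
          refine le_trans (Finset.card_le_card (t := {1, -1}) ?_) Finset.card_le_two
          intro x hx
          rw [Finset.mem_filter] at hx
          rcases mul_self_eq_one_iff.mp ((pow_two x).symm.trans hx.2) with h | h <;> simp [h]
        omega
      · exact @Nat.card_pos _ ⟨⟨1, one_pow 2⟩⟩ _
    · exact reg_of_split hxy ht hd
    · exact reg_of_ne' h
  refine ⟨A, hne, ?_, hgen'⟩
  apply Subgroup.eq_of_le_of_card_ge hle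
  rw [hcard]
  rcases card_Ct hne with h | h
  · omega
  · omega

/-- the virtual character -/
noncomputable def fC (A : SL(2, F)) (α : MulChar F ℂ) (θ : Ct A →* ℂˣ) : SL(2, F) → ℂ :=
  ED α - indFun (Ct A) (fun c => (θ c : ℂ))

theorem index_C {A : SL(2, F)} (hcard : Nat.card (Ct A) = Fintype.card F + 1) : ((Ct A).index : ℂ) = (Fintype.card F : ℂ) * ((Fintype.card F : ℂ) - 1) := by
  have h := (Ct A).card_mul_index
  rw [hcard, SL2.card_SL2] at h
  have hq : 1 < Fintype.card F := Fintype.one_lt_card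
  have h1 : (Ct A).index = Fintype.card F * (Fintype.card F - 1) := by
    apply Nat.eq_of_mul_eq_mul_left (by omega : 0 < Fintype.card F + 1)
    rw [h]; ring
  rw [h1, Nat.cast_mul, Nat.cast_sub hq.le, Nat.cast_one]

theorem neg_one_mem (A : SL(2, F)) : (-1 : SL(2, F)) ∈ Ct A := by
  rw [Subgroup.mem_centralizer_singleton_iff]
  simp

section
variable {A : SL(2, F)} {α : MulChar F ℂ} {θ : Ct A →* ℂˣ}

theorem fC_sc (hcard : Nat.card (Ct A) = Fintype.card F + 1) (hα : α (-1) = (θ ⟨-1, neg_one_mem A⟩ : ℂ)) {g : SL(2, F)} {x : F} (hx : x * x = 1)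
    (hg : (g : Matrix (Fin 2) (Fin 2) F) = x • 1) : fC A α θ g = ((Fintype.card F : ℂ) - 1) * α x := by
  have hgc : g = 1 ∨ g = -1 := not_ns_SL (fun hns => (ns_iff.mp hns x) hg)
  have hz : g ∈ Subgroup.center SL(2, F) := mem_center.mpr hgc
  have hgD : g ∈ Ct A := Subgroup.mem_centralizer_singleton_iff.mpr ((Subgroup.mem_center_iff.mp hz A).symm)
  unfold fC
  rw [Pi.sub_apply, ind_central _ _ hz hgD, ED_sc α hx hg, index_C hcard]
  have key : (θ ⟨g, hgD⟩ : ℂ) = α x := by
    have hx0 : (g : Matrix (Fin 2) (Fin 2) F) 0 0 = x := by rw [hg, Matrix.smul_apply, Matrix.one_apply_eq, smul_eq_mul, mul_one]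
    rcases hgc with rfl | rfl
    · have : x = 1 := by rw [← hx0]; rfl
      rw [this, map_one]
      have : (⟨1, hgD⟩ : Ct A) = 1 := rfl
      rw [this, map_one, Units.val_one]
    · have : x = -1 := by
        rw [← hx0]
        show (-(1 : Matrix (Fin 2) (Fin 2) F)) 0 0 = -1
        rw [Matrix.neg_apply, Matrix.one_apply_eq]
      rw [this, hα]
  rw [key]
  ring

theorem fC_par (hA : Reg A) {g : SL(2, F)} {x : F} (hg : NS (g : Matrix (Fin 2) (Fin 2) F))
    (ht : (g : Matrix (Fin 2) (Fin 2) F).trace = x + x) (hd : x * x = 1) : fC A α θ g = - α x := by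
  unfold fC
  rw [Pi.sub_apply, ED_par α hg ht hd, ind_zero hA _ hg, sub_zero]
  intro hr
  exfalso
  apply hr
  rw [ht]
  linear_combination 4 * hd

theorem fC_split (hA : Reg A) (hcard : Nat.card (Ct A) = Fintype.card F + 1) {g : SL(2, F)} {x y : F} (hxy : x ≠ y)
    (ht : (g : Matrix (Fin 2) (Fin 2) F).trace = x + y) (hd : x * y = 1) : fC A α θ g = 0 := by
  unfold fC
  rw [Pi.sub_apply, ED_split α hxy ht hd, ind_zero hA _ (reg_of_split hxy ht hd).ns, sub_zero]
  intro hr
  have h1 : Nat.card (Ct g) = Fintype.card F - 1 := card_centSL_split hxy ht hd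
  rw [h1, hcard]
  omega

theorem fC_torus (hA : Reg A) (hcard : Nat.card (Ct A) = Fintype.card F + 1) (c : Ct A) (hns : NS ((c : SL(2, F)) : Matrix (Fin 2) (Fin 2) F)) :
    NE ((c : SL(2, F)) : Matrix (Fin 2) (Fin 2) F) ∧ fC A α θ c = -((θ c : ℂ) + ((θ c)⁻¹ : ℂˣ)) := by
  have hr := reg_of_mem hA c.2 hns
  have hC := Ct_eq hA.ns c.2 hns
  have hne : NE ((c : SL(2, F)) : Matrix (Fin 2) (Fin 2) F) := by
    rcases hr.cases with ⟨a, b, hab, ht, hd⟩ | h
    · exfalso
      have h1 : Nat.card (Ct (c : SL(2, F))) = Fintype.card F - 1 := card_centSL_split hab ht hd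
      rw [hC, hcard] at h1
      omega
    · exact h
  refine ⟨hne, ?_⟩
  unfold fC
  rw [Pi.sub_apply, ED_ne α hne, ind_reg hA _ c.2 hns, zero_sub]
  have e : (⟨((c : SL(2, F)))⁻¹, (Ct A).inv_mem c.2⟩ : Ct A) = c⁻¹ := rfl
  rw [e, map_inv]

theorem fC_class : IsClassFunction SL(2, F) (fC A α θ) := by
  intro g h
  unfold fC ED
  simp only [Pi.sub_apply]
  rw [indFun_classFn _ _ g h, indFun_classFn _ _ g h, classFn_RS α g h]

theorem JS_fC (hA : Reg A) (hcard : Nat.card (Ct A) = Fintype.card F + 1) (hα : α (-1) = (θ ⟨-1, neg_one_mem A⟩ : ℂ)) (x : Fˣ) :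
    JS (fC A α θ) x = 0 := by
  have htr : ∀ z : F, (SL2.bMk x z : Matrix (Fin 2) (Fin 2) F).trace = x + (x⁻¹ : Fˣ) := by
    intro z
    rw [SL2.bMk_coe, Matrix.trace_fin_two_of]
  by_cases hx : x = x⁻¹
  · have hxx : (x : F) * x = 1 := by
      nth_rw 2 [hx]
      exact x.mul_inv
    have hxv : ((x⁻¹ : Fˣ) : F) = x := by rw [← hx]
    unfold JS
    rw [← Finset.add_sum_erase _ _ (Finset.mem_univ (0 : F))]
    have h0 : fC A α θ (SL2.bMk x 0) = ((Fintype.card F : ℂ) - 1) * α x := by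
      apply fC_sc hcard hα hxx
      rw [SL2.bMk_coe, hxv]
      ext i j
      fin_cases i <;> fin_cases j <;> simp
    have h1 : ∀ z ∈ Finset.univ.erase (0 : F), fC A α θ (SL2.bMk x z) = - α x := by
      intro z hz
      apply fC_par hA (x := (x : F)) _ _ hxx
      · rw [SL2.bMk_coe]
        rintro ⟨h1, h2, h3⟩
        apply Finset.ne_of_mem_erase hz
        first | exact h1 | exact h2 | simpa using h1 | simpa using h2
      · rw [htr, hxv]
    rw [h0, Finset.sum_congr rfl h1, Finset.sum_const, Finset.card_erase_of_mem (Finset.mem_univ _), Finset.card_univ, nsmul_eq_mul,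
      Nat.cast_sub Fintype.card_pos, Nat.cast_one]
    ring
  · rw [JS_split fC_class hx]
    have hne : (x : F) ≠ ((x⁻¹ : Fˣ) : F) := fun h => hx (Units.ext h)
    rw [fC_split hA hcard hne (htr 0) x.mul_inv, mul_zero]

theorem RS_fC (hA : Reg A) (hcard : Nat.card (Ct A) = Fintype.card F + 1) (hα : α (-1) = (θ ⟨-1, neg_one_mem A⟩ : ℂ)) (β : MulChar F ℂ) :
    classInner (RS β) (fC A α θ) = 0 := by
  rw [inner_RS β _ fC_class, Finset.sum_eq_zero, mul_zero]
  intro x _
  rw [JS_fC hA hcard hα, map_zero, mul_zero]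

theorem card_inv_units (h2 : (2 : F) ≠ 0) : (Finset.univ.filter (fun a : Fˣ => a = a⁻¹)).card = 2 := by
  have : (Finset.univ.filter (fun a : Fˣ => a = a⁻¹)) = {1, -1} := by
    ext a
    rw [Finset.mem_filter, Finset.mem_insert, Finset.mem_singleton]
    constructor
    · rintro ⟨_, h⟩
      have h1 : a * a = 1 := by nth_rewrite 2 [h]; exact mul_inv_cancel a
      rcases mul_self_eq_one_iff.mp (show (a : F) * a = 1 from by rw [← Units.val_mul, h1, Units.val_one]) with h3 | h3
      · exact Or.inl (Units.ext h3)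
      · exact Or.inr (Units.ext h3)
    · rintro (rfl | rfl) <;> simp
  rw [this, Finset.card_pair]
  intro h
  apply h2
  have h3 : (1 : F) = -1 := by
    have := congrArg Units.val h
    simpa using this
  linear_combination h3

theorem inner_D (hA : Reg A) (hcard : Nat.card (Ct A) = Fintype.card F + 1) (h2 : (2 : F) ≠ 0) (hα : α (-1) = (θ ⟨-1, neg_one_mem A⟩ : ℂ)) :
    classInner (indFun (hD F).range (fD α)) (fC A α θ) = 2 := by
  classical
  rw [reciprocity _ _ _ fC_class, classInner_def]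
  have e : Fˣ ≃ (hD F).range := (MonoidHom.ofInjective hD_inj).toEquiv
  have hc : (Nat.card (hD F).range : ℂ) = (Fintype.card F : ℂ) - 1 := by
    rw [← Nat.card_congr (MonoidHom.ofInjective hD_inj).toEquiv, GLSL.card_units_field, Nat.cast_sub Fintype.card_pos, Nat.cast_one]
  rw [hc, ← Equiv.sum_comp (MonoidHom.ofInjective (f := hD F) hD_inj).toEquiv]
  have key : ∀ a : Fˣ, fD α ((MonoidHom.ofInjective (f := hD F) hD_inj).toEquiv a) * conj (fC A α θ (((MonoidHom.ofInjective (f := hD F) hD_inj).toEquiv a : (hD F).range) : SL(2, F))) =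
      if a = a⁻¹ then ((Fintype.card F : ℂ) - 1) else 0 := by
    intro a
    show α a * conj (fC A α θ (SL2.bMk a 0)) = _
    split_ifs with h
    · have hxx : (a : F) * a = 1 := by
        nth_rw 2 [h]
        exact a.mul_inv
      have hxv : ((a⁻¹ : Fˣ) : F) = a := by rw [← h]
      have h0 : fC A α θ (SL2.bMk a 0) = ((Fintype.card F : ℂ) - 1) * α a := by
        apply fC_sc hcard hα hxx
        rw [SL2.bMk_coe, hxv]
        ext i j
        fin_cases i <;> fin_cases j <;> simp
      have h1 : α a * conj (α a) = 1 := by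
        have h3 : conj (α a) = α ((a⁻¹ : Fˣ) : F) := by
          have := MulChar.star_apply' α (a : F)
          rw [MulChar.inv_apply_eq_inv', ← MulChar.inv_apply_eq_inv'] at this
          rw [show conj (α a) = star (α a) from rfl, this]
          exact mulChar_inv_apply α a.mul_inv
        rw [h3, ← map_mul, Units.mul_inv, map_one]
      rw [h0, map_mul, map_sub, map_one, Complex.conj_natCast]
      linear_combination ((Fintype.card F : ℂ) - 1) * h1
    · have hne : (a : F) ≠ ((a⁻¹ : Fˣ) : F) := fun h' => h (Units.ext h')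
      rw [fC_split hA hcard hne (by rw [SL2.bMk_coe, Matrix.trace_fin_two_of]) a.mul_inv, map_zero, mul_zero]
  rw [Finset.sum_congr rfl (fun a _ => key a), ← Finset.sum_filter, Finset.sum_const, card_inv_units h2, nsmul_eq_mul]
  have : (Fintype.card F : ℂ) - 1 ≠ 0 := q_sub_ne
  field_simp
  norm_num

theorem conj_hom {H : Type*} [Group H] [Finite H] (θ : H →* ℂˣ) (c : H) : conj (θ c : ℂ) = ((θ c)⁻¹ : ℂˣ) := by
  have h := norm_of_lin (isChar_of_irr (isIrr_lin θ)) (by show ((θ 1 : ℂˣ) : ℂ) = 1; rw [map_one, Units.val_one]) c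
  rw [Units.val_inv_eq_inv_val, Complex.inv_def]
  have h' : Complex.normSq (θ c : ℂ) = 1 := h
  rw [h', inv_one]
  simp

theorem inner_C [Fintype (Ct A)] (hA : Reg A) (hcard : Nat.card (Ct A) = Fintype.card F + 1) (h2 : (2 : F) ≠ 0) (hα : α (-1) = (θ ⟨-1, neg_one_mem A⟩ : ℂ)) :
    classInner (indFun (Ct A) (fun c => (θ c : ℂ))) (fC A α θ) = 1 - ((Fintype.card F : ℂ) + 1)⁻¹ * ∑ c : Ct A, (θ c : ℂ) ^ 2 := by
  classical
  rw [reciprocity _ _ _ fC_class, classInner_def]
  have key : ∀ c : Ct A, (θ c : ℂ) * conj (fC A α θ c) = (-(1 + (θ c : ℂ) ^ 2)) +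
      if (c = 1 ∨ c = ⟨-1, neg_one_mem A⟩) then ((Fintype.card F : ℂ) + 1) else 0 := by
    intro c
    have hcc : (θ c : ℂ) * ((θ c)⁻¹ : ℂˣ) = 1 := Units.mul_inv _
    by_cases hc : c = 1 ∨ c = ⟨-1, neg_one_mem A⟩
    · rw [if_pos hc]
      have h3 : ∃ x : F, x * x = 1 ∧ ((c : SL(2, F)) : Matrix (Fin 2) (Fin 2) F) = x • 1 ∧ α x = (θ c : ℂ) := by
        rcases hc with rfl | rfl
        · refine ⟨1, one_mul 1, (one_smul _ _).symm, ?_⟩
          rw [map_one, map_one, Units.val_one]
        · refine ⟨-1, by ring, ?_, hα⟩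
          show (-(1 : Matrix (Fin 2) (Fin 2) F)) = _
          rw [neg_smul, one_smul]
      obtain ⟨x, h3, h4, h5⟩ := h3
      have h6 : (θ c : ℂ) ^ 2 = 1 := by rw [← h5, pow_two, ← map_mul, h3, map_one]
      rw [fC_sc hcard hα h3 h4, h5, map_mul, map_sub, map_one, Complex.conj_natCast, conj_hom]
      linear_combination ((Fintype.card F : ℂ) - 1) * hcc + h6
    · rw [if_neg hc, add_zero]
      push Not at hc
      have hns : NS ((c : SL(2, F)) : Matrix (Fin 2) (Fin 2) F) := by
        apply ns_of_ne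
        · exact fun h => hc.1 (Subtype.ext h)
        · exact fun h => hc.2 (Subtype.ext h)
      rw [(fC_torus hA hcard c hns).2, map_neg, map_add, conj_hom, ← map_inv, conj_hom, map_inv, inv_inv]
      linear_combination -hcc
  rw [Finset.sum_congr rfl (fun c _ => key c), Finset.sum_add_distrib, ← Finset.sum_filter, Finset.sum_const]
  have hne : (1 : Ct A) ≠ ⟨-1, neg_one_mem A⟩ := by
    intro h
    have h1 : (1 : SL(2, F)) = -1 := congrArg Subtype.val h
    have h3 := congrArg (fun g : SL(2, F) => (g : Matrix (Fin 2) (Fin 2) F) 0 0) h1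
    have h4 : (1 : F) = -1 := by
      simpa using h3
    apply h2
    linear_combination h4
  have hcd : (Finset.univ.filter (fun c : Ct A => c = 1 ∨ c = ⟨-1, neg_one_mem A⟩)).card = 2 := by
    have : (Finset.univ.filter (fun c : Ct A => c = 1 ∨ c = ⟨-1, neg_one_mem A⟩)) = {1, ⟨-1, neg_one_mem A⟩} := by
      ext c
      simp
    rw [this, Finset.card_pair hne]
  have hq : (Fintype.card F : ℂ) + 1 ≠ 0 := by
    have : ((Fintype.card F + 1 : ℕ) : ℂ) ≠ 0 := by exact_mod_cast Nat.succ_ne_zero (Fintype.card F)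
    push_cast at this; exact this
  have hcc : (Nat.card (Ct A) : ℂ) = (Fintype.card F : ℂ) + 1 := by rw [hcard]; push_cast; rfl
  have hcc' : ((Finset.univ : Finset (Ct A)).card : ℂ) = (Fintype.card F : ℂ) + 1 := by
    rw [Finset.card_univ, ← Nat.card_eq_fintype_card, hcc]
  rw [hcd, hcc, nsmul_eq_mul, Finset.sum_neg_distrib, Finset.sum_add_distrib, Finset.sum_const, nsmul_eq_mul, hcc']
  field_simp
  ring

theorem inner_ff [Fintype (Ct A)] (hA : Reg A) (hcard : Nat.card (Ct A) = Fintype.card F + 1) (h2 : (2 : F) ≠ 0) (hα : α (-1) = (θ ⟨-1, neg_one_mem A⟩ : ℂ)) :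
    classInner (fC A α θ) (fC A α θ) = 1 + ((Fintype.card F : ℂ) + 1)⁻¹ * ∑ c : Ct A, (θ c : ℂ) ^ 2 := by
  have e : fC A α θ = (indFun (hD F).range (fD α) - RS α) - indFun (Ct A) (fun c => (θ c : ℂ)) := rfl
  nth_rewrite 1 [e]
  rw [classInner_sub_left, classInner_sub_left, inner_D hA hcard h2 hα, RS_fC hA hcard hα, inner_C hA hcard h2 hα]
  ring

theorem sum_sq [Fintype (Ct A)] (h : ∃ c, θ c ^ 2 ≠ 1) : ∑ c : Ct A, (θ c : ℂ) ^ 2 = 0 := by
  have h1 := sum_hom_units_eq_zero ((Units.coeHom ℂ).comp (θ ^ 2)) (fun h2 => by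
    obtain ⟨c, hc⟩ := h
    apply hc
    have := DFunLike.congr_fun h2 c
    exact Units.ext this)
  exact h1

theorem gen_fC : IsGeneralizedCharacter SL(2, F) (fC A α θ) := by
  unfold fC ED
  apply CharExc.gen_sub
  · apply CharExc.gen_sub
    · exact CharExc.gen_of_char (isChar_ind _ (isChar_fD α))
    · exact CharExc.gen_of_char (isChar_RS α)
  · exact CharExc.gen_of_char (isChar_ind _ (isChar_of_irr (isIrr_lin θ)))

theorem fC_one (hcard : Nat.card (Ct A) = Fintype.card F + 1) (hα : α (-1) = (θ ⟨-1, neg_one_mem A⟩ : ℂ)) :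
    fC A α θ 1 = (Fintype.card F : ℂ) - 1 := by
  rw [fC_sc hcard hα (one_mul 1) (by rw [one_smul]; rfl), map_one, mul_one]

theorem isIrr_fC (hA : Reg A) (hcard : Nat.card (Ct A) = Fintype.card F + 1) (h2 : (2 : F) ≠ 0) (hα : α (-1) = (θ ⟨-1, neg_one_mem A⟩ : ℂ))
    (hθ : ∃ c, θ c ^ 2 ≠ 1) : IsIrrCharacter SL(2, F) (fC A α θ) := by
  haveI : Fintype (Ct A) := Fintype.ofFinite _
  apply CharExc.norm_one_pos gen_fC
  · rw [inner_ff hA hcard h2 hα, sum_sq hθ, mul_zero, add_zero]
  · rw [fC_one hcard hα]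
    have : (1 : ℝ) < Fintype.card F := by exact_mod_cast Fintype.one_lt_card
    rw [Complex.sub_re, Complex.natCast_re, Complex.one_re]
    linarith

theorem exists_alpha (θ : Ct A →* ℂˣ) : ∃ α : MulChar F ℂ, α (-1) = (θ ⟨-1, neg_one_mem A⟩ : ℂ) := by
  classical
  have hsq : (θ ⟨-1, neg_one_mem A⟩ : ℂ) * (θ ⟨-1, neg_one_mem A⟩ : ℂ) = 1 := by
    rw [← Units.val_mul, ← map_mul]
    have : (⟨-1, neg_one_mem A⟩ * ⟨-1, neg_one_mem A⟩ : Ct A) = 1 := by
      apply Subtype.ext
      show (-1 : SL(2, F)) * -1 = 1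
      rw [neg_mul_neg, one_mul]
    rw [this, map_one, Units.val_one]
  rcases mul_self_eq_one_iff.mp hsq with h | h
  · exact ⟨1, by rw [h, MulChar.one_apply (by simp)]⟩
  · by_cases h1 : (-1 : F) = 1
    · exfalso
      have : (⟨-1, neg_one_mem A⟩ : Ct A) = 1 := by
        apply Subtype.ext
        apply Subtype.ext
        show (-(1 : Matrix (Fin 2) (Fin 2) F)) = 1
        ext i j
        rw [Matrix.neg_apply, Matrix.one_apply]
        split_ifs
        · exact h1
        · exact neg_zero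
      rw [this, map_one, Units.val_one] at h
      norm_num at h
    · obtain ⟨α, hα⟩ := MulChar.exists_apply_ne_one_of_hasEnoughRootsOfUnity F ℂ h1
      refine ⟨α, ?_⟩
      rw [h]
      have : α (-1) * α (-1) = 1 := by rw [← map_mul]; simp
      exact (mul_self_eq_one_iff.mp this).resolve_left hα

end

end Cfsg.Agent.Lib.Cus
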