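import Mathlib
import Cfsg.Agent.Lib.Cus2

/-! The cuspidal characters of `SL_2(q)`: completeness. -/

set_option linter.all false
set_option maxHeartbeats 400000

namespace Cfsg.Agent.Lib.Cus

open Matrix Module Cfsg Cfsg.Agent.Lib.CharBasic Cfsg.Agent.Lib.CharInd Cfsg.Agent.Lib.Tw Cfsg.Agent.Lib.Tor
open scoped MatrixGroups ComplexConjugate

/-- homomorphisms from a cyclic group are determined by the generator -/
theorem hom_ext_gen {H : Type*} [Group H] {M : Type*} [Group M] {a : H} (ha : ∀ x, x ∈ Subgroup.zpowers a) {f g : H →* M} (h : f a = g a) : f = g := by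
  ext x
  obtain ⟨k, hk⟩ := ha x
  rw [← hk]
  simp only [map_zpow, h]

theorem card_hom_cyclic {H : Type*} [Group H] [Finite H] [hc : IsCyclic H] : Nat.card (H →* ℂˣ) = Nat.card H := by
  letI : CommGroup H := IsCyclic.commGroup
  exact CommGroup.card_monoidHom_of_hasEnoughRootsOfUnity H ℂ

theorem finite_hom {H : Type*} [Group H] [Finite H] [hc : IsCyclic H] : Finite (H →* ℂˣ) := by
  apply Nat.finite_of_card_ne_zero
  rw [card_hom_cyclic]
  exact Nat.card_pos.ne'

theorem card_sq_ne {H : Type*} [Group H] [Finite H] [hc : IsCyclic H] : Nat.card H - 2 ≤ Nat.card {θ : H →* ℂˣ // ∃ c, θ c ^ 2 ≠ 1} := by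
  classical
  haveI := finite_hom (H := H)
  haveI : Fintype (H →* ℂˣ) := Fintype.ofFinite _
  obtain ⟨a, ha⟩ := hc.exists_generator
  have h1 : Nat.card {θ : H →* ℂˣ // ¬ ∃ c, θ c ^ 2 ≠ 1} ≤ 2 := by
    have hinj : Function.Injective (fun θ : {θ : H →* ℂˣ // ¬ ∃ c, θ c ^ 2 ≠ 1} => (decide (θ.1 a = 1) : Bool)) := by
      intro θ θ' h
      apply Subtype.ext
      apply hom_ext_gen ha
      have key : ∀ θ : {θ : H →* ℂˣ // ¬ ∃ c, θ c ^ 2 ≠ 1}, θ.1 a = 1 ∨ θ.1 a = -1 := by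
        intro θ
        have := θ.2
        push Not at this
        have h3 := this a
        have h4 : ((θ.1 a : ℂˣ) : ℂ) * (θ.1 a : ℂˣ) = 1 := by rw [← Units.val_mul, ← pow_two, h3, Units.val_one]
        rcases mul_self_eq_one_iff.mp h4 with h5 | h5
        · exact Or.inl (Units.ext h5)
        · exact Or.inr (Units.ext h5)
      have hne : (-1 : ℂˣ) ≠ 1 := by
        intro h
        have := congrArg Units.val h
        norm_num at this
      rcases key θ with h3 | h3 <;> rcases key θ' with h4 | h4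
      · rw [h3, h4]
      · simp [h3, h4, hne] at h
      · simp [h3, h4, hne] at h
      · rw [h3, h4]
    have := Nat.card_le_card_of_injective _ hinj
    simpa using this
  have h2 := Nat.card_congr (Equiv.sumCompl (fun θ : H →* ℂˣ => ∃ c, θ c ^ 2 ≠ 1))
  rw [Nat.card_sum, card_hom_cyclic] at h2
  omega

variable {F : Type*} [Field F] [Fintype F] [DecidableEq F]

/-- the values at the generator determine `θ` up to inverse -/
theorem theta_inv {H : Type*} [Group H] {a : H} (ha : ∀ x, x ∈ Subgroup.zpowers a) {θ θ' : H →* ℂˣ}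
    (h : (θ a : ℂ) + ((θ a)⁻¹ : ℂˣ) = (θ' a : ℂ) + ((θ' a)⁻¹ : ℂˣ)) : θ' = θ ∨ θ' = θ⁻¹ := by
  have h1 : ((θ' a : ℂ) - θ a) * (1 - ((θ a)⁻¹ : ℂˣ) * ((θ' a)⁻¹ : ℂˣ)) = 0 := by
    have e1 : (θ a : ℂ) * ((θ a)⁻¹ : ℂˣ) = 1 := Units.mul_inv _
    have e2 : (θ' a : ℂ) * ((θ' a)⁻¹ : ℂˣ) = 1 := Units.mul_inv _
    linear_combination -h + ((θ' a)⁻¹ : ℂˣ) * e1 - ((θ a)⁻¹ : ℂˣ) * e2
  rcases mul_eq_zero.mp h1 with h2 | h2
  · left
    exact hom_ext_gen ha (Units.ext (sub_eq_zero.mp h2))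
  · right
    apply hom_ext_gen ha
    apply Units.ext
    have h3 : (((θ a)⁻¹ * (θ' a)⁻¹ : ℂˣ) : ℂ) = 1 := by rw [Units.val_mul]; exact (sub_eq_zero.mp h2).symm
    have h4 : (θ a)⁻¹ * (θ' a)⁻¹ = 1 := Units.ext h3
    have h5 : (θ a)⁻¹ = θ' a := mul_inv_eq_one.mp h4
    rw [MonoidHom.inv_apply, h5]

theorem all_cusp (hodd : Odd (Fintype.card F)) {A : SL(2, F)} (hA : Reg A) (hcard : Nat.card (Ct A) = Fintype.card F + 1)
    (hgen : ∀ x ∈ Ct A, x ∈ Subgroup.zpowers A) {χ : SL(2, F) → ℂ} (hχ : IsIrrCharacter SL(2, F) χ) (hcu : CuspS χ) (hd : χ 1 = (Fintype.card F : ℂ) - 1) :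
    ∃ (θ : Ct A →* ℂˣ) (α : MulChar F ℂ), α (-1) = (θ ⟨-1, neg_one_mem A⟩ : ℂ) ∧ (∃ c, θ c ^ 2 ≠ 1) ∧ χ = fC A α θ := by
  classical
  have h2 := two_ne_zero_of_odd hodd
  have hgen' : ∀ x : Ct A, x ∈ Subgroup.zpowers (⟨A, self_mem A⟩ : Ct A) := by
    intro x
    obtain ⟨k, hk⟩ := hgen x.1 x.2
    exact ⟨k, Subtype.ext hk⟩
  haveI hcyc : IsCyclic (Ct A) := ⟨⟨_, hgen'⟩⟩
  haveI := finite_hom (H := Ct A)
  haveI : Fintype (Ct A →* ℂˣ) := Fintype.ofFinite _
  haveI : Fintype {θ : Ct A →* ℂˣ // ∃ c, θ c ^ 2 ≠ 1} := Fintype.ofFinite _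
  let Y := {χ : IrrCharacter SL(2, F) // CuspS χ.1 ∧ χ.1 1 = (Fintype.card F : ℂ) - 1}
  haveI : Fintype Y := Fintype.ofFinite _
  choose al hal using fun θ : {θ : Ct A →* ℂˣ // ∃ c, θ c ^ 2 ≠ 1} => exists_alpha (F := F) (A := A) θ.1
  let Φ : {θ : Ct A →* ℂˣ // ∃ c, θ c ^ 2 ≠ 1} → Y := fun θ => ⟨⟨fC A (al θ) θ.1, isIrr_fC hA hcard h2 (hal θ) θ.2⟩, RS_fC hA hcard (hal θ), fC_one hcard (hal θ)⟩
  have hns : NS (A : Matrix (Fin 2) (Fin 2) F) := hA.ns
  have hfib : ∀ b ∈ Finset.univ.image Φ, (Finset.univ.filter (fun θ => Φ θ = b)).card ≤ 2 := by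
    intro b hb
    obtain ⟨θ, _, rfl⟩ := Finset.mem_image.mp hb
    have hθ' : ∃ c, (θ.1⁻¹) c ^ 2 ≠ 1 := by
      obtain ⟨c, hc⟩ := θ.2
      refine ⟨c, fun h => hc ?_⟩
      rwa [MonoidHom.inv_apply, inv_pow, inv_eq_one] at h
    refine le_trans (Finset.card_le_card (t := {θ, ⟨θ.1⁻¹, hθ'⟩}) ?_) Finset.card_le_two
    intro θ' h'
    rw [Finset.mem_filter] at h'
    have h3 : fC A (al θ') θ'.1 = fC A (al θ) θ.1 := congrArg (fun y : Y => y.1.1) h'.2
    have h4 := congrFun h3 A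
    have h5 := (fC_torus (α := al θ') (θ := θ'.1) hA hcard ⟨A, self_mem A⟩ hns).2
    have h6 := (fC_torus (α := al θ) (θ := θ.1) hA hcard ⟨A, self_mem A⟩ hns).2
    have h7 := (h5.symm.trans h4).trans h6
    rcases theta_inv hgen' (neg_injective h7).symm with h8 | h8
    · rw [Finset.mem_insert]
      exact Or.inl (Subtype.ext h8)
    · rw [Finset.mem_insert, Finset.mem_singleton]
      exact Or.inr (Subtype.ext h8)
  have h3 := Finset.card_le_mul_card_image Finset.univ 2 hfib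
  have h4 : Fintype.card F - 1 ≤ (Finset.univ : Finset {θ : Ct A →* ℂˣ // ∃ c, θ c ^ 2 ≠ 1}).card := by
    rw [Finset.card_univ]
    have := card_sq_ne (H := Ct A)
    rw [hcard, Nat.card_eq_fintype_card] at this
    omega
  have h5 : (Finset.univ : Finset Y).card = (Fintype.card F - 1) / 2 := by
    rw [Finset.card_univ, ← Nat.card_eq_fintype_card]
    exact card_q_sub hodd
  have h6 : Finset.univ.image Φ = Finset.univ := by
    apply Finset.eq_univ_of_card
    apply le_antisymm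
    · exact Finset.card_le_univ _
    · rw [← Finset.card_univ, h5]
      obtain ⟨k, hk⟩ := hodd
      omega
  have h7 : (⟨⟨χ, hχ⟩, hcu, hd⟩ : Y) ∈ Finset.univ.image Φ := by rw [h6]; exact Finset.mem_univ _
  obtain ⟨θ, _, hθ⟩ := Finset.mem_image.mp h7
  exact ⟨θ.1, al θ, hal θ, θ.2, (congrArg (fun y : Y => y.1.1) hθ).symm⟩

theorem s2434 (hodd : Odd (Fintype.card F))
    (C : Subgroup (Matrix.SpecialLinearGroup (Fin 2) F)) (hC : IsCyclic C) (hcard : Nat.card C = Fintype.card F + 1) :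
    (∀ θ : C →* ℂˣ, (∃ c : C, θ c ^ 2 ≠ 1) →
      ∃ χ : Matrix.SpecialLinearGroup (Fin 2) F → ℂ, Cfsg.IsIrrCharacter (Matrix.SpecialLinearGroup (Fin 2) F) χ ∧ χ 1 = (Fintype.card F : ℂ) - 1 ∧
        (∀ c : C, (c : Matrix.SpecialLinearGroup (Fin 2) F) ∉ Subgroup.center (Matrix.SpecialLinearGroup (Fin 2) F) → χ c = -((θ c).val + (θ c)⁻¹.val)) ∧
        (∀ c : C, (c : Matrix.SpecialLinearGroup (Fin 2) F) ∈ Subgroup.center (Matrix.SpecialLinearGroup (Fin 2) F) → ∀ g : Matrix.SpecialLinearGroup (Fin 2) F, χ ((c : Matrix.SpecialLinearGroup (Fin 2) F) * g) = (θ c).val * χ g) ∧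
        (∀ g : Matrix.SpecialLinearGroup (Fin 2) F, (g : Matrix (Fin 2) (Fin 2) F) 0 1 = 0 → (g : Matrix (Fin 2) (Fin 2) F) 1 0 = 0 → (g : Matrix (Fin 2) (Fin 2) F) 0 0 ^ 2 ≠ 1 → χ g = 0) ∧
        (∀ g : Matrix.SpecialLinearGroup (Fin 2) F, (g : Matrix (Fin 2) (Fin 2) F) 1 0 = 0 → (g : Matrix (Fin 2) (Fin 2) F) 0 0 = 1 → (g : Matrix (Fin 2) (Fin 2) F) 1 1 = 1 → (g : Matrix (Fin 2) (Fin 2) F) 0 1 ≠ 0 → χ g = -1)) ∧
    (∀ χ : Matrix.SpecialLinearGroup (Fin 2) F → ℂ, Cfsg.IsIrrCharacter (Matrix.SpecialLinearGroup (Fin 2) F) χ → χ 1 = (Fintype.card F : ℂ) - 1 →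
      ∃ θ : C →* ℂˣ, (∃ c : C, θ c ^ 2 ≠ 1) ∧
        ∀ c : C, (c : Matrix.SpecialLinearGroup (Fin 2) F) ∉ Subgroup.center (Matrix.SpecialLinearGroup (Fin 2) F) → χ c = -((θ c).val + (θ c)⁻¹.val)) := by
  classical
  have h2 := two_ne_zero_of_odd hodd
  obtain ⟨A, hA, rfl, hgen⟩ := exists_gen hodd C hC hcard
  have hnsc : ∀ c : Ct A, (c : SL(2, F)) ∉ Subgroup.center SL(2, F) → NS ((c : SL(2, F)) : Matrix (Fin 2) (Fin 2) F) := by
    intro c hc
    apply ns_of_ne
    · exact fun h => hc (mem_center.mpr (Or.inl h))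
    · exact fun h => hc (mem_center.mpr (Or.inr h))
  have hgen' : ∀ x : Ct A, x ∈ Subgroup.zpowers (⟨A, self_mem A⟩ : Ct A) := by
    intro x
    obtain ⟨k, hk⟩ := hgen x.1 x.2
    exact ⟨k, Subtype.ext hk⟩
  constructor
  · intro θ hθ
    obtain ⟨α, hα⟩ := exists_alpha (F := F) (A := A) θ
    have hirr := isIrr_fC hA hcard h2 hα hθ
    refine ⟨fC A α θ, hirr, fC_one hcard hα, ?_, ?_, ?_, ?_⟩
    · intro c hc
      exact (fC_torus hA hcard c (hnsc c hc)).2
    · intro c hc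
      obtain ⟨k, hk⟩ := central_mul hirr hc
      have h3 := hk 1
      rw [mul_one, fC_one hcard hα] at h3
      have h4 : ∃ x : F, x * x = 1 ∧ ((c : SL(2, F)) : Matrix (Fin 2) (Fin 2) F) = x • 1 ∧ α x = (θ c : ℂ) := by
        rcases mem_center.mp hc with h | h
        · have : c = 1 := Subtype.ext h
          subst this
          refine ⟨1, one_mul 1, (one_smul _ _).symm, ?_⟩
          rw [map_one, map_one, Units.val_one]
        · have : c = ⟨-1, neg_one_mem A⟩ := Subtype.ext h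
          subst this
          refine ⟨-1, by ring, ?_, hα⟩
          show (-(1 : Matrix (Fin 2) (Fin 2) F)) = _
          rw [neg_smul, one_smul]
      obtain ⟨x, h5, h6, h7⟩ := h4
      rw [fC_sc hcard hα h5 h6, mul_comm] at h3
      have h8 := mul_right_cancel₀ q_sub_ne h3
      intro g
      rw [hk g, ← h8, h7]
    · intro g h01 h10 h00
      have hdet := g.det_coe
      rw [Matrix.det_fin_two, h01, h10, mul_zero, sub_zero] at hdet
      apply fC_split hA hcard (x := (g : Matrix (Fin 2) (Fin 2) F) 0 0) (y := (g : Matrix (Fin 2) (Fin 2) F) 1 1) _ (Matrix.trace_fin_two _) hdet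
      intro h
      apply h00
      rw [pow_two]
      nth_rewrite 2 [h]
      exact hdet
    · intro g h10 h00 h11 h01
      rw [fC_par hA (x := 1) _ _ (one_mul 1), map_one]
      · rintro ⟨h3, h4, h5⟩
        first | exact h01 h3 | exact h01 h4
      · rw [Matrix.trace_fin_two, h00, h11]
  · intro χ hχ hd
    by_cases hcu : CuspS χ
    · obtain ⟨θ, α, hα, hθ, rfl⟩ := all_cusp hodd hA hcard hgen hχ hcu hd
      exact ⟨θ, hθ, fun c hc => (fC_torus hA hcard c (hnsc c hc)).2⟩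
    · -- then q = 3
      have hq : 1 < Fintype.card F := Fintype.one_lt_card
      have h3 : Fintype.card F = 3 := by
        by_contra h3
        apply hcu
        apply cusp_of_deg hχ hd
        obtain ⟨k, hk⟩ := hodd
        omega
      have hzero : ∀ g : SL(2, F), NE (g : Matrix (Fin 2) (Fin 2) F) → χ g = 0 := by
        intro g hg
        have h2' : (2 : ℂ) ≠ 1 := by norm_num
        rcases cases_S hχ with h | h | ⟨β, hβ, h⟩ | ⟨β, hβ, hβ1, h⟩ | h
        · exfalso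
          rw [h, h3] at hd
          norm_num at hd
        · exfalso
          rw [h, StS_one, h3] at hd
          norm_num at hd
        · exfalso
          rw [h, RS_one, h3] at hd
          norm_num at hd
        · exact half_ne hβ hβ1 hχ h hg
        · exact absurd h hcu
      haveI hcyc : IsCyclic (Ct A) := ⟨⟨_, hgen'⟩⟩
      have hcs := card_sq_ne (H := Ct A)
      rw [hcard, h3] at hcs
      have hne : Nonempty {θ : Ct A →* ℂˣ // ∃ c, θ c ^ 2 ≠ 1} := by
        by_contra h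
        rw [not_nonempty_iff] at h
        rw [Nat.card_of_isEmpty] at hcs
        omega
      obtain ⟨θ, hθ⟩ := hne
      refine ⟨θ, hθ, fun c hc => ?_⟩
      rw [hzero _ (fC_torus (α := 1) (θ := θ) hA hcard c (hnsc c hc)).1]
      -- θ c ^ 2 = -1
      have hA4 : (θ ⟨A, self_mem A⟩) ^ 4 = 1 := by
        rw [← map_pow]
        have : (⟨A, self_mem A⟩ : Ct A) ^ 4 = 1 := by
          have := pow_card_eq_one' (x := (⟨A, self_mem A⟩ : Ct A))
          rwa [hcard, h3] at this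
        rw [this, map_one]
      have hA2 : (θ ⟨A, self_mem A⟩) ^ 2 ≠ 1 := by
        intro h
        obtain ⟨d, hd⟩ := hθ
        apply hd
        obtain ⟨k, hk⟩ := hgen' d
        simp only at hk
        rw [← hk, map_zpow, ← zpow_natCast, zpow_comm, zpow_natCast, h, _root_.one_zpow]
      have hA2' : (θ ⟨A, self_mem A⟩ : ℂ) ^ 2 = -1 := by
        have h5 : ((θ ⟨A, self_mem A⟩ : ℂ) ^ 2) * ((θ ⟨A, self_mem A⟩ : ℂ) ^ 2) = 1 := by
          rw [← pow_add, ← Units.val_pow_eq_pow_val, hA4, Units.val_one]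
        rcases mul_self_eq_one_iff.mp h5 with h6 | h6
        · exact absurd (Units.ext h6) hA2
        · exact h6
      obtain ⟨k, hk⟩ := hgen' c
      simp only at hk
      have hcsq : (θ c : ℂ) ^ 2 = -1 := by
        rcases Int.even_or_odd' k with ⟨m, hm | hm⟩
        · exfalso
          apply hc
          rw [mem_center, ← sq_eq_one h2]
          have : c * c = 1 := by
            rw [← hk, hm, ← _root_.zpow_add]
            have : (⟨A, self_mem A⟩ : Ct A) ^ 4 = 1 := by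
              have := pow_card_eq_one' (x := (⟨A, self_mem A⟩ : Ct A))
              rwa [hcard, h3] at this
            have e : 2 * m + 2 * m = ((4 : ℕ) : ℤ) * m := by push_cast; ring
            rw [e, _root_.zpow_mul, zpow_natCast, this, _root_.one_zpow]
          exact congrArg Subtype.val this
        · rw [← hk, map_zpow, Units.val_zpow_eq_zpow_val, ← zpow_natCast, ← _root_.zpow_mul, mul_comm, _root_.zpow_mul, zpow_natCast, hA2', hm, zpow_add₀ (by norm_num), _root_.zpow_mul]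
          norm_num
      have hcc : (θ c : ℂ) * ((θ c)⁻¹ : ℂˣ) = 1 := Units.mul_inv _
      have : (θ c : ℂ) * ((θ c : ℂ) + ((θ c)⁻¹ : ℂˣ)) = 0 := by linear_combination hcsq + hcc
      rw [(mul_eq_zero.mp this).resolve_left (Units.ne_zero _), neg_zero]

end Cfsg.Agent.Lib.Cus
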