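import Mathlib
import Cfsg.Agent.Lib.Cus3

/-! The cuspidal characters of `SL_2(q)` of degree `(q-1)/2`. -/

set_option linter.all false
set_option maxHeartbeats 400000

namespace Cfsg.Agent.Lib.Cus

open Matrix Module Cfsg Cfsg.Agent.Lib.CharBasic Cfsg.Agent.Lib.CharInd Cfsg.Agent.Lib.Tw Cfsg.Agent.Lib.Tor
open scoped MatrixGroups ComplexConjugate

variable {F : Type*} [Field F] [Fintype F] [DecidableEq F]

/-- the multiplicities of the characters of the torus -/
theorem inner_ind_cusp {A : SL(2, F)} (hcard : Nat.card (Ct A) = Fintype.card F + 1) (h2 : (2 : F) ≠ 0)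
    {θ : Ct A →* ℂˣ} {α : MulChar F ℂ} (hα : α (-1) = (θ ⟨-1, neg_one_mem A⟩ : ℂ)) {χ : SL(2, F) → ℂ} (hχ : IsIrrCharacter SL(2, F) χ)
    (hcu : CuspS χ) {w : ℂ} (hw : conj w = w) (hw1 : χ (-1) = w * χ 1) (hne : classInner (fC A α θ) χ = 0) :
    classInner (indFun (Ct A) (fun c => (θ c : ℂ))) χ = ((Fintype.card F : ℂ) - 1)⁻¹ * (χ 1 * (1 + w * (θ ⟨-1, neg_one_mem A⟩ : ℂ))) := by
  classical
  have hcl := isChar_classFn (isChar_of_irr hχ)
  have e : fC A α θ = (indFun (hD F).range (fD α) - RS α) - indFun (Ct A) (fun c => (θ c : ℂ)) := rfl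
  rw [e, classInner_sub_left, classInner_sub_left, hcu α, sub_zero, sub_eq_zero] at hne
  rw [← hne, reciprocity _ _ _ hcl, classInner_def]
  have hc : (Nat.card (hD F).range : ℂ) = (Fintype.card F : ℂ) - 1 := by
    rw [← Nat.card_congr (MonoidHom.ofInjective hD_inj).toEquiv, GLSL.card_units_field, Nat.cast_sub Fintype.card_pos, Nat.cast_one]
  rw [hc, ← Equiv.sum_comp (MonoidHom.ofInjective (f := hD F) hD_inj).toEquiv]
  congr 1
  have hreal : conj (χ 1) = χ 1 := by
    obtain ⟨n, _, hn⟩ := isIrr_one_eq hχ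
    rw [hn, Complex.conj_natCast]
  have h0 : ∀ a : Fˣ, a ∉ ({1, -1} : Finset Fˣ) → α a * conj (χ (SL2.bMk a 0)) = 0 := by
    intro a ha
    rw [Finset.mem_insert, Finset.mem_singleton, not_or] at ha
    have haa : a ≠ a⁻¹ := by
      intro h
      have h1 : a * a = 1 := by nth_rewrite 2 [h]; exact mul_inv_cancel a
      rcases mul_self_eq_one_iff.mp (show (a : F) * a = 1 from by rw [← Units.val_mul, h1, Units.val_one]) with h3 | h3
      · exact ha.1 (Units.ext h3)
      · exact ha.2 (Units.ext h3)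
    rw [cusp_split_S hχ hcu haa, map_zero, mul_zero]
  have hne1 : (1 : Fˣ) ≠ -1 := by
    intro h
    apply h2
    have h3 : (1 : F) = -1 := by
      have := congrArg Units.val h
      simpa using this
    linear_combination h3
  show ∑ a : Fˣ, α a * conj (χ (SL2.bMk a 0)) = _
  rw [← Finset.sum_subset (Finset.subset_univ ({1, -1} : Finset Fˣ)) (fun a _ ha => h0 a ha), Finset.sum_pair hne1]
  have e1 : (SL2.bMk (1 : Fˣ) 0 : SL(2, F)) = 1 := map_one (hD F)
  have e2 : (SL2.bMk (-1 : Fˣ) 0 : SL(2, F)) = -1 := by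
    apply Subtype.ext
    rw [SL2.bMk_coe]
    show _ = (-(1 : Matrix (Fin 2) (Fin 2) F))
    ext i j
    fin_cases i <;> fin_cases j <;> simp
  rw [e1, e2, hw1, map_mul, hw, hreal, Units.val_one, map_one, Units.val_neg, Units.val_one, hα]
  ring

/-- elements without eigenvalues are conjugate into the torus -/
theorem conj_into (h2 : (2 : F) ≠ 0) {A g : SL(2, F)} (hA : Reg A) (hcard : Nat.card (Ct A) = Fintype.card F + 1) (hg : NE (g : Matrix (Fin 2) (Fin 2) F)) :
    ∃ c : Ct A, IsConj g c := by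
  have hne : NE (A : Matrix (Fin 2) (Fin 2) F) := by
    rcases hA.cases with ⟨a, b, hab, ht, hd⟩ | h
    · exfalso
      have h1 : Nat.card (Ct A) = Fintype.card F - 1 := card_centSL_split hab ht hd
      rw [hcard] at h1
      omega
    · exact h
  have key : ∀ {B : SL(2, F)}, NE (B : Matrix (Fin 2) (Fin 2) F) → ¬ IsSquare ((B : Matrix (Fin 2) (Fin 2) F).trace ^ 2 - 4) := by
    intro B hB hs
    obtain ⟨r, hr⟩ := hs
    have := ne_iff.mp hB (((B : Matrix (Fin 2) (Fin 2) F).trace + r) / 2)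
    apply this
    rw [B.det_coe]
    field_simp
    linear_combination -hr
  obtain ⟨y, hy⟩ := sq_div_of_not (key hg) (key hne)
  have hr0 : (A : Matrix (Fin 2) (Fin 2) F).trace ^ 2 - 4 ≠ 0 := sub_ne_zero.mpr hA
  rw [div_eq_iff hr0] at hy
  obtain ⟨h, hh, htr⟩ := exists_mem_trace h2 hA (s := (g : Matrix (Fin 2) (Fin 2) F).trace) (y := y) (by rw [hy]; ring)
  exact ⟨⟨h, hh⟩, isConj_of_ne (g := g) (h := h) hg htr.symm⟩

/-- `f_1 = St - 1` -/
theorem fC_triv {A : SL(2, F)} (h2 : (2 : F) ≠ 0) (hA : Reg A) (hcard : Nat.card (Ct A) = Fintype.card F + 1) (χ : SL(2, F) → ℂ) (hχ : IsIrrCharacter SL(2, F) χ) (hcu : CuspS χ) :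
    classInner (fC A 1 (1 : Ct A →* ℂˣ)) χ = 0 := by
  have hα : (1 : MulChar F ℂ) (-1) = ((1 : Ct A →* ℂˣ) ⟨-1, neg_one_mem A⟩ : ℂ) := by
    rw [MulChar.one_apply (by simp)]
    rfl
  have key : fC A 1 (1 : Ct A →* ℂˣ) = StS - fun _ => 1 := by
    funext g
    unfold StS
    simp only [Pi.sub_apply]
    rcases four_kinds g with ⟨x, hx, h⟩ | ⟨x, hns, ht, hd⟩ | ⟨x, y, hxy, ht, hd⟩ | h
    · rw [fC_sc hcard hα hx h, RS_sc 1 h, MulChar.one_apply (IsUnit.of_mul_eq_one _ hx)]
      ring
    · rw [fC_par hA hns ht hd, RS_par 1 hns ht hd, MulChar.one_apply (IsUnit.of_mul_eq_one _ hd)]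
      ring
    · rw [fC_split hA hcard hxy ht hd, RS_split 1 hxy ht hd, MulChar.one_apply (IsUnit.of_mul_eq_one _ hd),
        MulChar.one_apply (IsUnit.of_mul_eq_one _ ((mul_comm y x).trans hd))]
      ring
    · -- g is conjugate into the torus
      obtain ⟨c, hc⟩ := conj_into h2 hA hcard h
      have hns : NS ((c : SL(2, F)) : Matrix (Fin 2) (Fin 2) F) := by
        obtain ⟨n, hn⟩ := isConj_iff.mp hc
        apply ns_of_ne
        · intro h3
          rw [h3, mul_inv_eq_one] at hn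
          have : g = 1 := by
            have := congrArg (fun z => n⁻¹ * z) hn
            simpa using this
          rw [this] at h
          exact not_ns_one h.ns
        · intro h3
          rw [h3, mul_inv_eq_iff_eq_mul, neg_one_mul] at hn
          have : g = -1 := by
            have := congrArg (fun z => n⁻¹ * z) hn
            simpa using this
          rw [this] at h
          exact not_ns_neg_one h.ns
      rw [RS_ne 1 h, classFn_isConj fC_class hc, (fC_torus hA hcard c hns).2]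
      rw [MonoidHom.one_apply, inv_one, Units.val_one]
      ring
  rw [key, classInner_sub_left]
  have h1 : classInner (RS 1) χ = 0 := hcu 1
  have hneSt : classInner StS χ = 0 := by
    by_contra h
    have := irr_eq_of_inner_ne_zero isIrr_StS hχ h
    rw [← this] at h1
    rw [inner_RS_StS, if_pos rfl] at h1
    exact one_ne_zero h1
  have hone : classInner (fun _ : SL(2, F) => (1 : ℂ)) χ = 0 := by
    by_contra h
    have := irr_eq_of_inner_ne_zero isIrr_trivial hχ h
    rw [← this] at hcu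
    exact not_cuspS_one hcu
  rw [hneSt, hone, sub_zero]

/-- the quadratic character of a cyclic group -/
theorem exists_quad {H : Type*} [Group H] [Finite H] {a : H} (ha : ∀ x, x ∈ Subgroup.zpowers a) (heven : 2 ∣ Nat.card H) :
    ∃ θ : H →* ℂˣ, θ a = -1 ∧ ∀ k : ℤ, θ (a ^ k) = (-1) ^ k := by
  haveI hc : IsCyclic H := ⟨⟨a, ha⟩⟩
  letI : CommGroup H := IsCyclic.commGroup
  have hord : orderOf a = Nat.card H := orderOf_eq_card_of_forall_mem_zpowers ha
  have h1 : a ^ (Nat.card H / 2) ≠ 1 := by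
    intro h
    have := orderOf_dvd_of_pow_eq_one h
    rw [hord] at this
    have hpos : 0 < Nat.card H := Nat.card_pos
    have := Nat.le_of_dvd (by omega) this
    omega
  have hne : ∃ θ : H →* ℂˣ, θ a ^ (Nat.card H / 2) = -1 := by
    obtain ⟨θ, hθ⟩ := CommGroup.exists_apply_ne_one_of_hasEnoughRootsOfUnity H ℂ h1
    refine ⟨θ, ?_⟩
    rw [map_pow] at hθ
    have h2 : (θ a ^ (Nat.card H / 2)) * (θ a ^ (Nat.card H / 2)) = 1 := by
      rw [← pow_add, ← map_pow]
      have : Nat.card H / 2 + Nat.card H / 2 = Nat.card H := by omega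
      rw [this, ← hord, pow_orderOf_eq_one, map_one]
    have h3 : ((θ a ^ (Nat.card H / 2) : ℂˣ) : ℂ) * ((θ a ^ (Nat.card H / 2) : ℂˣ) : ℂ) = 1 := by
      rw [← Units.val_mul, h2, Units.val_one]
    rcases mul_self_eq_one_iff.mp h3 with h4 | h4
    · exact absurd (Units.ext h4) hθ
    · exact Units.ext h4
  obtain ⟨θ, hθ⟩ := hne
  refine ⟨θ ^ (Nat.card H / 2), ?_, fun k => ?_⟩
  · rw [MonoidHom.pow_apply, hθ]
  · rw [map_zpow, MonoidHom.pow_apply, hθ]

/-- values of the characters of degree `(q-1)/2` -/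
theorem half_cusp (hodd : Odd (Fintype.card F)) (h5 : 5 ≤ Fintype.card F) {A : SL(2, F)} (hA : Reg A) (hcard : Nat.card (Ct A) = Fintype.card F + 1)
    {a : Ct A} (ha : ∀ x, x ∈ Subgroup.zpowers a) {θ₀ : Ct A →* ℂˣ} (hθ₀ : θ₀ a = -1) {χ : SL(2, F) → ℂ} (hχ : IsIrrCharacter SL(2, F) χ)
    (hd : χ 1 = (((Fintype.card F - 1) / 2 : ℕ) : ℂ)) (c : Ct A) (hns : NS ((c : SL(2, F)) : Matrix (Fin 2) (Fin 2) F)) : χ c = -(θ₀ c : ℂ) := by
  classical
  have h2 := two_ne_zero_of_odd hodd
  have hcu := cusp_of_half hχ hodd hd h5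
  have hcl := isChar_classFn (isChar_of_irr hχ)
  haveI : Fintype (Ct A) := Fintype.ofFinite _
  -- the central character
  have hz : (-1 : SL(2, F)) ∈ Subgroup.center SL(2, F) := mem_center.mpr (Or.inr rfl)
  obtain ⟨w, hw⟩ := central_mul hχ hz
  have hχ1 : χ 1 ≠ 0 := by
    rw [hd]
    have : 0 < (Fintype.card F - 1) / 2 := by omega
    exact_mod_cast this.ne'
  have hww : w * w = 1 := by
    have h3 := hw (-1)
    rw [neg_mul_neg, one_mul] at h3
    have h4 := hw 1
    rw [mul_one] at h4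
    rw [h4, ← mul_assoc] at h3
    have : (w * w) * χ 1 = 1 * χ 1 := by rw [one_mul]; exact h3.symm
    exact mul_right_cancel₀ hχ1 this
  have hw1 : w = 1 ∨ w = -1 := mul_self_eq_one_iff.mp hww
  have hwr : conj w = w := by rcases hw1 with h | h <;> rw [h] <;> simp
  have hwχ : χ (-1) = w * χ 1 := by
    have := hw 1
    rwa [mul_one] at this
  have hdeg : χ 1 * 2 = (Fintype.card F : ℂ) - 1 := by
    rw [hd]
    have h3 : (Fintype.card F - 1) / 2 * 2 = Fintype.card F - 1 := by
      obtain ⟨k, hk⟩ := hodd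
      omega
    have h4 : (((Fintype.card F - 1) / 2 * 2 : ℕ) : ℂ) = ((Fintype.card F - 1 : ℕ) : ℂ) := congrArg _ h3
    rw [Nat.cast_mul, Nat.cast_sub Fintype.card_pos, Nat.cast_one] at h4
    exact h4
  have hq1 : (Fintype.card F : ℂ) - 1 ≠ 0 := q_sub_ne
  -- multiplicities
  have hmult : ∀ θ : Ct A →* ℂˣ, θ ≠ θ₀ → classInner (fun c : Ct A => (θ c : ℂ)) (fun c : Ct A => χ c) = (1 + w * (θ ⟨-1, neg_one_mem A⟩ : ℂ)) / 2 := by
    intro θ hθ
    rw [← reciprocity _ _ _ hcl]
    have hzero : ∃ α : MulChar F ℂ, α (-1) = (θ ⟨-1, neg_one_mem A⟩ : ℂ) ∧ classInner (fC A α θ) χ = 0 := by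
      by_cases h3 : ∃ c, θ c ^ 2 ≠ 1
      · obtain ⟨α, hα⟩ := exists_alpha (F := F) (A := A) θ
        refine ⟨α, hα, ?_⟩
        by_contra h4
        have h5' := irr_eq_of_inner_ne_zero (isIrr_fC hA hcard h2 hα h3) hχ h4
        have h6 := congrFun h5' 1
        rw [fC_one hcard hα, ← hdeg] at h6
        have h7 : χ 1 = 0 := by linear_combination h6
        exact hχ1 h7
      · push Not at h3
        have h4 : θ a = 1 := by
          have h5' : (θ a : ℂ) * (θ a : ℂ) = 1 := by rw [← Units.val_mul, ← pow_two, h3 a, Units.val_one]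
          rcases mul_self_eq_one_iff.mp h5' with h6 | h6
          · exact Units.ext h6
          · exfalso
            apply hθ
            apply hom_ext_gen ha
            rw [hθ₀]
            exact Units.ext h6
        have h5' : θ = 1 := hom_ext_gen ha (by rw [h4, MonoidHom.one_apply])
        subst h5'
        refine ⟨1, ?_, fC_triv h2 hA hcard χ hχ hcu⟩
        rw [MulChar.one_apply (by simp)]
        rfl
    obtain ⟨α, hα, h3⟩ := hzero
    rw [inner_ind_cusp hcard h2 hα hχ hcu hwr hwχ h3]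
    field_simp
    linear_combination (1 + w * (θ ⟨-1, neg_one_mem A⟩ : ℂ)) * hdeg
  -- the difference
  let m1 : Ct A := ⟨-1, neg_one_mem A⟩
  have hne : (1 : Ct A) ≠ m1 := by
    intro h
    have h1 : (1 : SL(2, F)) = -1 := congrArg Subtype.val h
    have h3 := congrArg (fun g : SL(2, F) => (g : Matrix (Fin 2) (Fin 2) F) 0 0) h1
    have h4 : (1 : F) = -1 := by
      simpa using h3
    apply h2
    linear_combination h4
  let ρ : Ct A → ℂ := fun c => ((Fintype.card F : ℂ) + 1) / 2 * ((if c = 1 then 1 else 0) + (if c = m1 then w else 0))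
  have hρ : ∀ θ : Ct A →* ℂˣ, classInner (fun c : Ct A => (θ c : ℂ)) ρ = (1 + w * (θ m1 : ℂ)) / 2 := by
    intro θ
    rw [classInner_def]
    have hq : (Fintype.card F : ℂ) + 1 ≠ 0 := by
      have : ((Fintype.card F + 1 : ℕ) : ℂ) ≠ 0 := by exact_mod_cast Nat.succ_ne_zero (Fintype.card F)
      push_cast at this; exact this
    have hcc : (Nat.card (Ct A) : ℂ) = (Fintype.card F : ℂ) + 1 := by rw [hcard]; push_cast; rfl
    have e : ∀ c : Ct A, (θ c : ℂ) * conj (ρ c) = ((Fintype.card F : ℂ) + 1) / 2 * ((if c = 1 then (θ c : ℂ) else 0) + (if c = m1 then w * (θ c : ℂ) else 0)) := by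
      intro c
      have e1 : conj (((Fintype.card F : ℂ) + 1) / 2) = ((Fintype.card F : ℂ) + 1) / 2 := by
        rw [map_div₀, map_add, Complex.conj_natCast, map_one, map_ofNat]
      show (θ c : ℂ) * conj (((Fintype.card F : ℂ) + 1) / 2 * ((if c = 1 then 1 else 0) + (if c = m1 then w else 0))) = _
      rw [map_mul, e1, map_add]
      split_ifs <;> simp [hwr] <;> ring
    rw [Finset.sum_congr rfl (fun c _ => e c), ← Finset.mul_sum, Finset.sum_add_distrib, Finset.sum_ite_eq' , Finset.sum_ite_eq', if_pos (Finset.mem_univ _), if_pos (Finset.mem_univ _), hcc,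
      map_one, Units.val_one]
    field_simp
  let φ : Ct A → ℂ := (fun c : Ct A => χ c) + (fun c : Ct A => (θ₀ c : ℂ)) - ρ
  have hcomm : ∀ x y : Ct A, x * y = y * x := fun x y => Subtype.ext (Ct_comm hA.ns x.2 y.2)
  have hφ1 : φ 1 = 0 := by
    show χ 1 + (θ₀ 1 : ℂ) - ((Fintype.card F : ℂ) + 1) / 2 * ((if (1 : Ct A) = 1 then 1 else 0) + (if (1 : Ct A) = m1 then w else 0)) = 0
    rw [if_pos rfl, if_neg hne, map_one, Units.val_one]
    linear_combination hdeg / 2
  have hlin : ∀ θ : Ct A →* ℂˣ, θ ≠ θ₀ → classInner φ (fun c : Ct A => (θ c : ℂ)) = 0 := by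
    intro θ hθ
    have h3 : classInner (fun c : Ct A => (θ c : ℂ)) φ = 0 := by
      show classInner (fun c : Ct A => (θ c : ℂ)) ((fun c : Ct A => χ c) + (fun c : Ct A => (θ₀ c : ℂ)) - ρ) = 0
      rw [classInner_sub_right, classInner_add_right, hmult θ hθ, hρ]
      have h4 : classInner (fun c : Ct A => (θ c : ℂ)) (fun c : Ct A => (θ₀ c : ℂ)) = 0 := by
        by_contra h4
        apply hθ
        have := irr_eq_of_inner_ne_zero (isIrr_lin θ) (isIrr_lin θ₀) h4
        ext c
        exact congrFun this c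
      rw [h4]
      ring
    rw [← classInner_conj_symm, h3, map_zero]
  have hzero : φ - (classInner φ (fun c : Ct A => (θ₀ c : ℂ))) • (fun c : Ct A => (θ₀ c : ℂ)) = 0 := by
    apply classFn_eq_zero_of_orth
    · intro x y
      rw [hcomm y x, mul_assoc, mul_inv_cancel, mul_one]
    · intro ψ
      obtain ⟨θ, hθ⟩ := irr_lin_of_comm hcomm ψ.2
      rw [hθ, classInner_sub_left, classInner_smul_left]
      by_cases h : θ = θ₀
      · subst h
        have h4 : classInner (fun c : Ct A => (θ c : ℂ)) (fun c : Ct A => (θ c : ℂ)) = 1 := irr_inner_self (isIrr_lin θ)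
        rw [h4, mul_one, sub_self]
      · rw [hlin θ h]
        have h4 : classInner (fun c : Ct A => (θ₀ c : ℂ)) (fun c : Ct A => (θ c : ℂ)) = 0 := by
          by_contra h4
          apply h
          have := irr_eq_of_inner_ne_zero (isIrr_lin θ₀) (isIrr_lin θ) h4
          ext c
          exact (congrFun this c).symm
        rw [h4, mul_zero, sub_zero]
  have hk : classInner φ (fun c : Ct A => (θ₀ c : ℂ)) = 0 := by
    have h3 := congrFun hzero 1
    rw [Pi.sub_apply, Pi.smul_apply, hφ1, map_one, Units.val_one, smul_eq_mul, mul_one, zero_sub, Pi.zero_apply, neg_eq_zero] at h3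
    exact h3
  have hφc := congrFun hzero c
  rw [hk, zero_smul, sub_zero] at hφc
  have h3 : χ c + (θ₀ c : ℂ) - ((Fintype.card F : ℂ) + 1) / 2 * ((if c = 1 then 1 else 0) + (if c = m1 then w else 0)) = 0 := hφc
  rw [if_neg, if_neg] at h3
  · linear_combination h3
  · intro h
    rw [h] at hns
    exact not_ns_neg_one hns
  · intro h
    rw [h] at hns
    exact not_ns_one hns

theorem s2435 (hodd : Odd (Fintype.card F)) (hq : 5 ≤ Fintype.card F)
    (χ : Matrix.SpecialLinearGroup (Fin 2) F → ℂ) (hχ : Cfsg.IsIrrCharacter (Matrix.SpecialLinearGroup (Fin 2) F) χ) (g : Matrix.SpecialLinearGroup (Fin 2) F) :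
    (χ 1 = (((Fintype.card F + 1) / 2 : ℕ) : ℂ) → (g : Matrix (Fin 2) (Fin 2) F) 0 1 = 0 → (g : Matrix (Fin 2) (Fin 2) F) 1 0 = 0 → (g : Matrix (Fin 2) (Fin 2) F) 0 0 ^ 2 ≠ 1 →
      (IsSquare ((g : Matrix (Fin 2) (Fin 2) F) 0 0) → χ g = 1) ∧ (¬ IsSquare ((g : Matrix (Fin 2) (Fin 2) F) 0 0) → χ g = -1)) ∧
    (χ 1 = (((Fintype.card F - 1) / 2 : ℕ) : ℂ) → (∀ (c : F) (v : Fin 2 → F), v ≠ 0 → (g : Matrix (Fin 2) (Fin 2) F).mulVec v ≠ c • v) →
      (((g ^ ((Fintype.card F + 1) / 2)) : Matrix (Fin 2) (Fin 2) F) = 1 → χ g = -1) ∧ (((g ^ ((Fintype.card F + 1) / 2)) : Matrix (Fin 2) (Fin 2) F) ≠ 1 → χ g = 1)) := by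
  classical
  have h2 := two_ne_zero_of_odd hodd
  constructor
  · intro hd h01 h10 h00
    have hin := half_of_deg hχ hodd hd hq
    have hdet := g.det_coe
    rw [Matrix.det_fin_two, h01, h10, mul_zero, sub_zero] at hdet
    let a : Fˣ := Units.mkOfMulEqOne _ _ hdet
    have ha : a ≠ a⁻¹ := by
      intro h
      apply h00
      have h3 : (g : Matrix (Fin 2) (Fin 2) F) 0 0 = (g : Matrix (Fin 2) (Fin 2) F) 1 1 := congrArg Units.val h
      rw [pow_two]
      nth_rewrite 2 [h3]
      exact hdet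
    have hg : g = SL2.bMk a 0 := by
      apply Subtype.ext
      rw [SL2.bMk_coe]
      ext i j
      fin_cases i <;> fin_cases j
      · rfl
      · exact h01
      · exact h10
      · rfl
    have hetasq : eta F ^ 2 = 1 := eta_sq
    have hetane : eta F ≠ 1 := eta_ne h2
    have h3 := JS_half hetasq hetane hχ hin a
    rw [JS_split (isChar_classFn (isChar_of_irr hχ)) ha] at h3
    have h4 := mul_left_cancel₀ q_ne h3
    rw [hg, h4, eta_apply h2 a.ne_zero]
    constructor
    · intro h5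
      exact if_pos h5
    · intro h5
      exact if_neg h5
  · intro hd hv
    have hne : NE (g : Matrix (Fin 2) (Fin 2) F) := hv
    have hr := reg_of_ne' hne
    have hcard : Nat.card (Ct g) = Fintype.card F + 1 := card_centSL_ne hne
    haveI := Ct_cyclic hr
    obtain ⟨a, ha⟩ := IsCyclic.exists_generator (α := Ct g)
    have heven : 2 ∣ Nat.card (Ct g) := by
      rw [hcard]
      obtain ⟨k, hk⟩ := hodd
      omega
    obtain ⟨θ₀, h1, h3⟩ := exists_quad ha heven
    have h4 := half_cusp hodd hq hr hcard ha h1 hχ hd ⟨g, self_mem g⟩ hr.ns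
    have h4' : χ g = -(θ₀ ⟨g, self_mem g⟩ : ℂ) := h4
    obtain ⟨k, hk⟩ := ha ⟨g, self_mem g⟩
    simp only at hk
    have hord : orderOf a = Fintype.card F + 1 := (orderOf_eq_card_of_forall_mem_zpowers ha).trans hcard
    have hpow : g ^ ((Fintype.card F + 1) / 2) = 1 ↔ Even k := by
      have e1 : g ^ ((Fintype.card F + 1) / 2) = 1 ↔ (⟨g, self_mem g⟩ : Ct g) ^ ((Fintype.card F + 1) / 2) = 1 := by
        constructor
        · intro h
          exact Subtype.ext h
        · intro h
          exact congrArg Subtype.val h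
      rw [e1, ← hk, ← zpow_natCast, ← _root_.zpow_mul, ← orderOf_dvd_iff_zpow_eq_one, hord]
      obtain ⟨m, hm⟩ := hodd
      have e2 : (Fintype.card F + 1) / 2 = m + 1 := by omega
      have e3 : Fintype.card F + 1 = 2 * (m + 1) := by omega
      rw [e2, e3, even_iff_two_dvd]
      push_cast
      constructor
      · intro h
        exact Int.dvd_of_mul_dvd_mul_right (by positivity : ((m : ℤ) + 1) ≠ 0) h
      · intro h
        exact mul_dvd_mul_right h _
    have hval : (θ₀ ⟨g, self_mem g⟩ : ℂ) = if Even k then 1 else -1 := by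
      rw [← hk, h3]
      rw [Units.val_zpow_eq_zpow_val, Units.val_neg, Units.val_one]
      split_ifs with h
      · exact h.neg_one_zpow
      · exact (Int.not_even_iff_odd.mp h).neg_one_zpow
    have hmat : ((g ^ ((Fintype.card F + 1) / 2) : SL(2, F)) : Matrix (Fin 2) (Fin 2) F) = (g : Matrix (Fin 2) (Fin 2) F) ^ ((Fintype.card F + 1) / 2) :=
      Matrix.SpecialLinearGroup.coe_pow _ _
    constructor
    · intro h
      have h5 : g ^ ((Fintype.card F + 1) / 2) = 1 := Subtype.ext (hmat.trans h)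
      rw [h4', hval, if_pos (hpow.mp h5)]
    · intro h
      have h5 : ¬ Even k := fun h5 => h (hmat.symm.trans (congrArg Subtype.val (hpow.mpr h5)))
      rw [h4', hval, if_neg h5, neg_neg]

end Cfsg.Agent.Lib.Cus
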