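import Mathlib
import Cfsg.Prelude.Def_Classical
import Cfsg.Agent.Lib.Tor13
import Cfsg.Agent.Lib.PGrpD
import Cfsg.Agent.S0287
import Cfsg.Agent.S0288

/-! Dihedral isometry groups in dimension two. -/

set_option linter.all false
set_option maxHeartbeats 400000

namespace Cfsg.Agent.Lib.Dih

open Matrix Cfsg.Agent.Lib.Tw
open scoped MatrixGroups

variable {F : Type*} [Field F]

/-- the determinant one elements commuting with `C` -/
def T (C : Matrix (Fin 2) (Fin 2) F) : Subgroup SL(2, F) where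
  carrier := {h | (h : Matrix (Fin 2) (Fin 2) F) * C = C * h}
  one_mem' := by
    show ((1 : SL(2, F)) : Matrix (Fin 2) (Fin 2) F) * C = C * ((1 : SL(2, F)) : Matrix (Fin 2) (Fin 2) F)
    rw [Matrix.SpecialLinearGroup.coe_one, one_mul, mul_one]
  mul_mem' := by
    intro a b ha hb
    show ((a * b : SL(2, F)) : Matrix (Fin 2) (Fin 2) F) * C = C * ((a * b : SL(2, F)) : Matrix (Fin 2) (Fin 2) F)
    rw [Matrix.SpecialLinearGroup.coe_mul, mul_assoc, show (b : Matrix (Fin 2) (Fin 2) F) * C = C * b from hb, ← mul_assoc,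
      show (a : Matrix (Fin 2) (Fin 2) F) * C = C * a from ha, mul_assoc]
  inv_mem' := by
    intro a ha
    have h1 : (a : Matrix (Fin 2) (Fin 2) F) * C = C * a := ha
    have h2 : ((a⁻¹ : SL(2, F)) : Matrix (Fin 2) (Fin 2) F) * a = 1 := by
      rw [← Matrix.SpecialLinearGroup.coe_mul, inv_mul_cancel, Matrix.SpecialLinearGroup.coe_one]
    have h3 : (a : Matrix (Fin 2) (Fin 2) F) * ((a⁻¹ : SL(2, F)) : Matrix (Fin 2) (Fin 2) F) = 1 := by
      rw [← Matrix.SpecialLinearGroup.coe_mul, mul_inv_cancel, Matrix.SpecialLinearGroup.coe_one]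
    show ((a⁻¹ : SL(2, F)) : Matrix (Fin 2) (Fin 2) F) * C = C * ((a⁻¹ : SL(2, F)) : Matrix (Fin 2) (Fin 2) F)
    calc ((a⁻¹ : SL(2, F)) : Matrix (Fin 2) (Fin 2) F) * C = ((a⁻¹ : SL(2, F)) : Matrix (Fin 2) (Fin 2) F) * (C * (a * ((a⁻¹ : SL(2, F)) : Matrix (Fin 2) (Fin 2) F))) := by rw [h3, mul_one]
      _ = ((a⁻¹ : SL(2, F)) : Matrix (Fin 2) (Fin 2) F) * a * C * ((a⁻¹ : SL(2, F)) : Matrix (Fin 2) (Fin 2) F) := by
          rw [← mul_assoc C, ← h1]; simp only [mul_assoc]
      _ = _ := by rw [h2, one_mul]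

theorem mem_T {C : Matrix (Fin 2) (Fin 2) F} (hC : NS C) {h : SL(2, F)} :
    h ∈ T C ↔ ∃ x y : F, (h : Matrix (Fin 2) (Fin 2) F) = x • (1 : Matrix (Fin 2) (Fin 2) F) + y • C := by
  constructor
  · intro h1
    exact comm_form hC h1
  · rintro ⟨x, y, hxy⟩
    show (h : Matrix (Fin 2) (Fin 2) F) * C = C * h
    rw [hxy]
    exact form_comm _ _ _

theorem card_T {C : Matrix (Fin 2) (Fin 2) F} (hC : NS C) :
    Nat.card (T C) = Nat.card {p : F × F // bf C.trace C.det p = 1} := by
  symm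
  refine Nat.card_congr (Equiv.ofBijective (fun p => ⟨⟨p.1.1 • (1 : Matrix (Fin 2) (Fin 2) F) + p.1.2 • C, by
      rw [det_form]; exact p.2⟩, (mem_T hC).mpr ⟨_, _, rfl⟩⟩) ⟨?_, ?_⟩)
  · intro p p' h
    have h1 := congrArg (fun z : T C => ((z : SL(2, F)) : Matrix (Fin 2) (Fin 2) F)) h
    obtain ⟨h2, h3⟩ := form_inj hC h1
    exact Subtype.ext (Prod.ext h2 h3)
  · intro z
    obtain ⟨x, y, hxy⟩ := (mem_T hC).mp z.2
    refine ⟨⟨(x, y), ?_⟩, ?_⟩
    · have h3 := det_form C x y
      rw [← hxy] at h3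
      rw [← h3]
      exact z.1.det_coe
    · apply Subtype.ext
      apply Subtype.ext
      exact hxy.symm

theorem T_cyclic [Finite F] {C : Matrix (Fin 2) (Fin 2) F} (hC : NE C) : IsCyclic (T C) := by
  classical
  obtain ⟨l, hl⟩ : ∃ l : AlgebraicClosure F, l ^ 2 - algebraMap F (AlgebraicClosure F) C.trace * l + algebraMap F (AlgebraicClosure F) C.det = 0 := by
    have hdeg : (Polynomial.X ^ 2 - Polynomial.C (algebraMap F (AlgebraicClosure F) C.trace) * Polynomial.X + Polynomial.C (algebraMap F (AlgebraicClosure F) C.det) :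
        Polynomial (AlgebraicClosure F)).degree ≠ 0 := by
      have : (Polynomial.X ^ 2 - Polynomial.C (algebraMap F (AlgebraicClosure F) C.trace) * Polynomial.X + Polynomial.C (algebraMap F (AlgebraicClosure F) C.det) :
        Polynomial (AlgebraicClosure F)).degree = 2 := by compute_degree!
      rw [this]; decide
    obtain ⟨l, hl⟩ := IsAlgClosed.exists_root _ hdeg
    refine ⟨l, ?_⟩
    simpa [Polynomial.IsRoot] using hl
  set φ := algebraMap F (AlgebraicClosure F) with hφ
  have hns := hC.ns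
  have hform : ∀ h : T C, ∃ p : F × F, ((h : SL(2, F)) : Matrix (Fin 2) (Fin 2) F) = p.1 • (1 : Matrix (Fin 2) (Fin 2) F) + p.2 • C := by
    intro h
    obtain ⟨x, y, hxy⟩ := (mem_T hns).mp h.2
    exact ⟨(x, y), hxy⟩
  choose p hp using hform
  have uniq : ∀ (h : T C) (x y : F), ((h : SL(2, F)) : Matrix (Fin 2) (Fin 2) F) = x • (1 : Matrix (Fin 2) (Fin 2) F) + y • C →
      (p h).1 = x ∧ (p h).2 = y := by
    intro h x y hxy
    exact form_inj hns ((hp h).symm.trans hxy)
  have hch : C * C = C.trace • C - C.det • (1 : Matrix (Fin 2) (Fin 2) F) := by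
    rw [Matrix.trace_fin_two, Matrix.det_fin_two]
    ext i j
    fin_cases i <;> fin_cases j <;> simp [Matrix.mul_apply, Fin.sum_univ_two] <;> ring
  let f : T C →* AlgebraicClosure F :=
    { toFun := fun h => φ (p h).1 + φ (p h).2 * l
      map_one' := by
        obtain ⟨e1, e2⟩ := uniq 1 1 0 (by rw [one_smul, zero_smul, add_zero]; rfl)
        rw [e1, e2, map_one, map_zero, zero_mul, add_zero]
      map_mul' := by
        intro h k
        have e : ((h * k : T C) : SL(2, F)) = (h : SL(2, F)) * k := rfl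
        obtain ⟨e1, e2⟩ := uniq (h * k) ((p h).1 * (p k).1 - C.det * (p h).2 * (p k).2) ((p h).1 * (p k).2 + (p h).2 * (p k).1 + C.trace * (p h).2 * (p k).2) (by
          rw [e, Matrix.SpecialLinearGroup.coe_mul]
          nth_rewrite 1 [hp h, hp k]
          rw [add_mul, mul_add, mul_add, smul_mul_assoc, smul_mul_assoc, smul_mul_assoc, smul_mul_assoc, one_mul, one_mul, mul_smul_comm, mul_smul_comm, mul_one, hch]
          module)
        rw [e1, e2]
        simp only [map_sub, map_add, map_mul]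
        linear_combination - φ (p h).2 * φ (p k).2 * hl }
  refine isCyclic_of_injective_ringHom f ?_
  rw [injective_iff_map_eq_one]
  intro h hh
  have h1 : φ (p h).1 + φ (p h).2 * l = 1 := hh
  have h4 : (p h).2 = 0 := by
    by_contra h5
    have h6 : φ (p h).2 ≠ 0 := fun h7 => h5 ((map_eq_zero φ).mp h7)
    have h7 : l = φ ((1 - (p h).1) / (p h).2) := by
      rw [map_div₀, map_sub, map_one, eq_div_iff h6]
      linear_combination h1
    rw [h7, ← map_pow, ← map_mul, ← map_sub, ← map_add] at hl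
    exact ne_iff.mp hC _ ((map_eq_zero φ).mp hl)
  rw [h4, map_zero, zero_mul, add_zero] at h1
  have h5 : (p h).1 = 1 := by
    apply φ.injective
    rw [h1, map_one]
  have h6 := hp h
  rw [h4, h5, one_smul, zero_smul, add_zero] at h6
  apply Subtype.ext
  apply Subtype.ext
  exact h6

theorem exists_gen [Fintype F] {C : Matrix (Fin 2) (Fin 2) F} (hC : NE C) : ∃ M ∈ T C, orderOf M = Fintype.card F + 1 := by
  haveI := T_cyclic hC
  obtain ⟨g, hg⟩ := IsCyclic.exists_ofOrder_eq_natCard (α := T C)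
  refine ⟨g.1, g.2, ?_⟩
  rw [Subgroup.orderOf_coe, hg, card_T hC.ns]
  exact (un_ne (ne_iff.mp hC)).2

end Cfsg.Agent.Lib.Dih
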