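import Mathlib
import Cfsg.Agent.Lib.Dih1

/-! Dihedral isometry groups in dimension two. -/

set_option linter.all false
set_option maxHeartbeats 400000

namespace Cfsg.Agent.Lib.Dih

open Matrix Cfsg.Agent.Lib.Tw
open scoped MatrixGroups

theorem mem_iso {ι : Type} [Fintype ι] [DecidableEq ι] {F : Type*} [Field F] {Q : (ι → F) → F} {g : Matrix.GeneralLinearGroup ι F} :
    g ∈ Cfsg.isometryGroup F Q ↔ ∀ v, Q ((g : Matrix ι ι F) *ᵥ v) = Q v :=
  ⟨fun h v => h v v, fun h u v => h u⟩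

/-- reindexing -/
def ri {F : Type*} [Field F] {ι : Type} [Fintype ι] [DecidableEq ι] (e : Fin 2 ≃ ι) : GL (Fin 2) F →* Matrix.GeneralLinearGroup ι F :=
  (Units.mapEquiv (Matrix.reindexAlgEquiv F F e).toMulEquiv).toMonoidHom

theorem ri_inj {F : Type*} [Field F] {ι : Type} [Fintype ι] [DecidableEq ι] (e : Fin 2 ≃ ι) : Function.Injective (ri (F := F) e) :=
  (Units.mapEquiv (Matrix.reindexAlgEquiv F F e).toMulEquiv).injective

theorem ri_coe {F : Type*} [Field F] {ι : Type} [Fintype ι] [DecidableEq ι] (e : Fin 2 ≃ ι) (g : GL (Fin 2) F) :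
    ((ri e g : Matrix.GeneralLinearGroup ι F) : Matrix ι ι F) = (g : Matrix (Fin 2) (Fin 2) F).submatrix e.symm e.symm := rfl

theorem ri_mulVec {F : Type*} [Field F] {ι : Type} [Fintype ι] [DecidableEq ι] (e : Fin 2 ≃ ι) (g : GL (Fin 2) F) (v : ι → F) :
    ((ri e g : Matrix.GeneralLinearGroup ι F) : Matrix ι ι F) *ᵥ v = ((g : Matrix (Fin 2) (Fin 2) F) *ᵥ (v ∘ e)) ∘ e.symm := by
  rw [ri_coe, Matrix.submatrix_mulVec_equiv]
  rfl

/-- main criterion -/
theorem main {F : Type*} [Field F] [Fintype F] {ι : Type} [Fintype ι] [DecidableEq ι] (Q : (ι → F) → F) (e : Fin 2 ≃ ι) (Q0 : (Fin 2 → F) → F)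
    (hQ : ∀ v, Q v = Q0 (v ∘ e)) {a b : GL (Fin 2) F} (ha : ∀ v, Q0 ((a : Matrix (Fin 2) (Fin 2) F) *ᵥ v) = Q0 v)
    (hb : ∀ v, Q0 ((b : Matrix (Fin 2) (Fin 2) F) *ᵥ v) = Q0 v) {n : ℕ} (hn : orderOf a = n) (hb2 : b ^ 2 = 1) (hba : b * a * b⁻¹ = a⁻¹)
    (hnot : b ∉ Subgroup.zpowers a) (hcard : Nat.card (Cfsg.isometryGroup F Q) = 2 * n) :
    Nonempty (Cfsg.isometryGroup F Q ≃* DihedralGroup n) := by
  have hm : ∀ g : GL (Fin 2) F, (∀ v, Q0 ((g : Matrix (Fin 2) (Fin 2) F) *ᵥ v) = Q0 v) → ri e g ∈ Cfsg.isometryGroup F Q := by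
    intro g hg
    rw [mem_iso]
    intro v
    rw [ri_mulVec, hQ, hQ]
    have : (((g : Matrix (Fin 2) (Fin 2) F) *ᵥ (v ∘ e)) ∘ e.symm) ∘ e = (g : Matrix (Fin 2) (Fin 2) F) *ᵥ (v ∘ e) := by
      funext i
      simp
    rw [this, hg]
  haveI : Finite (Matrix.GeneralLinearGroup ι F) := inferInstance
  let A : Cfsg.isometryGroup F Q := ⟨ri e a, hm a ha⟩
  let B : Cfsg.isometryGroup F Q := ⟨ri e b, hm b hb⟩
  have hA : orderOf A = n := by
    rw [← Subgroup.orderOf_coe]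
    show orderOf (ri e a) = n
    rw [orderOf_injective _ (ri_inj e), hn]
  have h1 := Cfsg.Agent.Lib.PGrpD.dihedral_iso (a := A) (b := B) (Subtype.ext (by
    show ri e b ^ 2 = 1
    rw [← map_pow, hb2, map_one])) (Subtype.ext (by
    show ri e b * ri e a * (ri e b)⁻¹ = (ri e a)⁻¹
    rw [← map_mul, ← map_inv, ← map_mul, ← map_inv, hba])) (by
    rintro ⟨k, hk⟩
    apply hnot
    refine ⟨k, ?_⟩
    apply ri_inj e
    have h2 : ((A ^ k : Cfsg.isometryGroup F Q) : Matrix.GeneralLinearGroup ι F) = (B : Matrix.GeneralLinearGroup ι F) := congrArg Subtype.val hk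
    rw [Subgroup.coe_zpow] at h2
    show ri e (a ^ k) = ri e b
    rw [map_zpow]
    exact h2) (by rw [hcard, hA])
  rwa [hA] at h1

theorem s0305 {F : Type*} [Field F] [Fintype F] {q : ℕ} (hF : Fintype.card F = q) :
    Nonempty (Cfsg.isometryGroup F (Cfsg.quadFormPlus 1 F) ≃* DihedralGroup (q - 1)) := by
  classical
  obtain ⟨g, hg⟩ := IsCyclic.exists_ofOrder_eq_natCard (α := Fˣ)
  have hcard := Cfsg.Agent.S0287.result hF 1 le_rfl
  have hg' : orderOf g = q - 1 := by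
    rw [hg, Nat.card_eq_fintype_card, Fintype.card_units, hF]
  let a : GL (Fin 2) F := ⟨!![(g : F), 0; 0, ((g⁻¹ : Fˣ) : F)], !![((g⁻¹ : Fˣ) : F), 0; 0, (g : F)], by
    rw [Matrix.mul_fin_two, Matrix.one_fin_two]; simp, by
    rw [Matrix.mul_fin_two, Matrix.one_fin_two]; simp⟩
  let b : GL (Fin 2) F := ⟨!![0, 1; 1, 0], !![0, 1; 1, 0], by
    rw [Matrix.mul_fin_two, Matrix.one_fin_two]; simp, by
    rw [Matrix.mul_fin_two, Matrix.one_fin_two]; simp⟩
  let e : Fin 2 ≃ Fin 1 ⊕ Fin 1 := (finSumFinEquiv (m := 1) (n := 1)).symm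
  have e0 : e 0 = Sum.inl 0 := by decide
  have e1 : e 1 = Sum.inr 0 := by decide
  have hbi : b⁻¹ = b := rfl
  have hapow : ∀ k : ℤ, ((a ^ k : GL (Fin 2) F) : Matrix (Fin 2) (Fin 2) F) = !![((g ^ k : Fˣ) : F), 0; 0, (((g ^ k)⁻¹ : Fˣ) : F)] := by
    let d : Fˣ →* GL (Fin 2) F :=
      { toFun := fun g => ⟨!![(g : F), 0; 0, ((g⁻¹ : Fˣ) : F)], !![((g⁻¹ : Fˣ) : F), 0; 0, (g : F)], by
          rw [Matrix.mul_fin_two, Matrix.one_fin_two]; simp, by
          rw [Matrix.mul_fin_two, Matrix.one_fin_two]; simp⟩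
        map_one' := by
          apply Units.ext
          show !![((1 : Fˣ) : F), 0; 0, (((1 : Fˣ)⁻¹ : Fˣ) : F)] = 1
          rw [Matrix.one_fin_two]; simp
        map_mul' := by
          intro x y
          apply Units.ext
          show !![((x * y : Fˣ) : F), 0; 0, (((x * y)⁻¹ : Fˣ) : F)] = !![(x : F), 0; 0, ((x⁻¹ : Fˣ) : F)] * !![(y : F), 0; 0, ((y⁻¹ : Fˣ) : F)]
          rw [Matrix.mul_fin_two]; simp [mul_comm] }
    intro k
    have : a ^ k = d (g ^ k) := by rw [map_zpow]; rfl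
    rw [this]
    rfl
  have hord : orderOf a = q - 1 := by
    rw [← hg']
    apply orderOf_eq_orderOf_iff.mpr
    intro n
    constructor
    · intro h
      have h1 := hapow n
      rw [zpow_natCast, zpow_natCast, h] at h1
      have h2 := congrFun (congrFun h1 0) 0
      apply Units.ext
      simpa using h2.symm
    · intro h
      apply Units.ext
      have h1 := hapow n
      rw [zpow_natCast, zpow_natCast, h] at h1
      rw [h1]
      show !![((1 : Fˣ) : F), 0; 0, (((1 : Fˣ)⁻¹ : Fˣ) : F)] = 1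
      rw [Matrix.one_fin_two]
      simp
  refine main (Cfsg.quadFormPlus 1 F) e (fun v => v 0 * v 1) (fun v => ?_) (a := a) (b := b) (fun v => ?_) (fun v => ?_) hord ?_ ?_ ?_ ?_
  · show ∑ i : Fin 1, v (.inl i) * v (.inr i) = v (e 0) * v (e 1)
    rw [e0, e1, Fin.sum_univ_one]
  · show (!![(g : F), 0; 0, ((g⁻¹ : Fˣ) : F)] *ᵥ v) 0 * (!![(g : F), 0; 0, ((g⁻¹ : Fˣ) : F)] *ᵥ v) 1 = v 0 * v 1
    simp only [Matrix.mulVec, dotProduct, Fin.sum_univ_two]
    simp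
    field_simp
  · show (!![(0 : F), 1; 1, 0] *ᵥ v) 0 * (!![(0 : F), 1; 1, 0] *ᵥ v) 1 = v 0 * v 1
    simp only [Matrix.mulVec, dotProduct, Fin.sum_univ_two]
    simp
    ring
  · apply Units.ext
    show ((b ^ 2 : GL (Fin 2) F) : Matrix (Fin 2) (Fin 2) F) = 1
    rw [Units.val_pow_eq_pow_val, pow_two]
    show !![(0 : F), 1; 1, 0] * !![(0 : F), 1; 1, 0] = 1
    rw [Matrix.mul_fin_two, Matrix.one_fin_two]; simp
  · rw [hbi]
    apply Units.ext
    show !![(0 : F), 1; 1, 0] * !![(g : F), 0; 0, ((g⁻¹ : Fˣ) : F)] * !![(0 : F), 1; 1, 0] = !![((g⁻¹ : Fˣ) : F), 0; 0, (g : F)]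
    rw [Matrix.mul_fin_two, Matrix.mul_fin_two]; simp
  · rintro ⟨k, hk⟩
    have h1 := hapow k
    have h2 : ((a ^ k : GL (Fin 2) F) : Matrix (Fin 2) (Fin 2) F) = !![(0 : F), 1; 1, 0] := congrArg Units.val hk
    rw [h2] at h1
    have h3 := congrFun (congrFun h1 0) 1
    simp at h3
  · rw [hcard]
    simp

theorem s0306 {F : Type*} [Field F] [Fintype F] {q : ℕ} (hF : Fintype.card F = q) (a b : F)
    (hab : ∀ z₁ z₂ : F, z₁ ^ 2 + a * z₁ * z₂ + b * z₂ ^ 2 = 0 → z₁ = 0 ∧ z₂ = 0) :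
    Nonempty (Cfsg.isometryGroup F (Cfsg.quadFormMinus 0 F a b) ≃* DihedralGroup (q + 1)) := by
  classical
  have hcard := Cfsg.Agent.S0288.result hF 1 le_rfl a b hab
  have hNE : NE (cmp a b) := by
    rw [ne_iff]
    intro c hc
    rw [trace_cmp, det_cmp] at hc
    have := hab (-c) 1 (by linear_combination hc)
    exact one_ne_zero this.2
  obtain ⟨M, hMT, hM⟩ := exists_gen hNE
  obtain ⟨x, y, hxy⟩ := (mem_T hNE.ns).mp hMT
  have hdet := M.det_coe
  rw [hxy, det_form, trace_cmp, det_cmp] at hdet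
  unfold bf at hdet
  simp only at hdet
  have hMat : (M : Matrix (Fin 2) (Fin 2) F) = !![x, -b * y; y, x + a * y] := by
    rw [hxy, Tw.cmp]
    ext i j
    fin_cases i <;> fin_cases j <;> simp <;> ring
  let A : GL (Fin 2) F := ⟨!![x, -b * y; y, x + a * y], !![x + a * y, b * y; -y, x], by
    rw [Matrix.mul_fin_two, Matrix.one_fin_two]
    ext i j
    fin_cases i <;> fin_cases j <;> simp <;> first | (ring1) | (linear_combination hdet), by
    rw [Matrix.mul_fin_two, Matrix.one_fin_two]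
    ext i j
    fin_cases i <;> fin_cases j <;> simp <;> first | (ring1) | (linear_combination hdet)⟩
  let B : GL (Fin 2) F := ⟨!![1, a; 0, -1], !![1, a; 0, -1], by
    rw [Matrix.mul_fin_two, Matrix.one_fin_two]; simp, by
    rw [Matrix.mul_fin_two, Matrix.one_fin_two]; simp⟩
  have hAM : A = Matrix.SpecialLinearGroup.toGL M := by
    apply Units.ext
    exact hMat.symm
  have hAord : orderOf A = q + 1 := by
    rw [hAM, orderOf_injective _ Matrix.SpecialLinearGroup.toGL_injective, hM, hF]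
  have hBi : B⁻¹ = B := rfl
  have hBA : B * A * B⁻¹ = A⁻¹ := by
    rw [hBi]
    apply Units.ext
    show !![(1 : F), a; 0, -1] * !![x, -b * y; y, x + a * y] * !![(1 : F), a; 0, -1] = !![x + a * y, b * y; -y, x]
    rw [Matrix.mul_fin_two, Matrix.mul_fin_two]
    ext i j
    fin_cases i <;> fin_cases j <;> simp <;> ring
  let e : Fin 2 ≃ (Fin 0 ⊕ Fin 0) ⊕ Fin 2 := (Equiv.emptySum (Fin 0 ⊕ Fin 0) (Fin 2)).symm
  have e0 : e 0 = Sum.inr 0 := rfl
  have e1 : e 1 = Sum.inr 1 := rfl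
  have hq : 2 ≤ q := by rw [← hF]; exact Fintype.one_lt_card
  refine main (Cfsg.quadFormMinus 0 F a b) e (fun v => v 0 ^ 2 + a * v 0 * v 1 + b * v 1 ^ 2) (fun v => ?_) (a := A) (b := B) (fun v => ?_) (fun v => ?_) hAord ?_ hBA ?_ ?_
  · show (∑ i : Fin 0, v (.inl (.inl i)) * v (.inl (.inr i))) + (v (.inr 0) ^ 2 + a * v (.inr 0) * v (.inr 1) + b * v (.inr 1) ^ 2) =
      v (e 0) ^ 2 + a * v (e 0) * v (e 1) + b * v (e 1) ^ 2
    rw [e0, e1, Fin.sum_univ_zero, zero_add]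
  · have h0 : (!![x, -b * y; y, x + a * y] *ᵥ v) 0 = x * v 0 + -b * y * v 1 := by
      simp [Matrix.mulVec, dotProduct, Fin.sum_univ_two]
    have h1 : (!![x, -b * y; y, x + a * y] *ᵥ v) 1 = y * v 0 + (x + a * y) * v 1 := by
      simp [Matrix.mulVec, dotProduct, Fin.sum_univ_two]
    show (!![x, -b * y; y, x + a * y] *ᵥ v) 0 ^ 2 + a * (!![x, -b * y; y, x + a * y] *ᵥ v) 0 * (!![x, -b * y; y, x + a * y] *ᵥ v) 1 + b * (!![x, -b * y; y, x + a * y] *ᵥ v) 1 ^ 2 = v 0 ^ 2 + a * v 0 * v 1 + b * v 1 ^ 2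
    rw [h0, h1]
    linear_combination (v 0 ^ 2 + a * v 0 * v 1 + b * v 1 ^ 2) * hdet
  · have h0 : (!![(1 : F), a; 0, -1] *ᵥ v) 0 = v 0 + a * v 1 := by
      simp [Matrix.mulVec, dotProduct, Fin.sum_univ_two]
    have h1 : (!![(1 : F), a; 0, -1] *ᵥ v) 1 = - v 1 := by
      simp [Matrix.mulVec, dotProduct, Fin.sum_univ_two]
    show (!![(1 : F), a; 0, -1] *ᵥ v) 0 ^ 2 + a * (!![(1 : F), a; 0, -1] *ᵥ v) 0 * (!![(1 : F), a; 0, -1] *ᵥ v) 1 + b * (!![(1 : F), a; 0, -1] *ᵥ v) 1 ^ 2 = v 0 ^ 2 + a * v 0 * v 1 + b * v 1 ^ 2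
    rw [h0, h1]
    ring
  · apply Units.ext
    show ((B ^ 2 : GL (Fin 2) F) : Matrix (Fin 2) (Fin 2) F) = 1
    rw [Units.val_pow_eq_pow_val, pow_two]
    show !![(1 : F), a; 0, -1] * !![(1 : F), a; 0, -1] = 1
    rw [Matrix.mul_fin_two, Matrix.one_fin_two]; simp
  · rintro ⟨k, hk⟩
    have h1 : B * A * B⁻¹ = A := by
      rw [← hk]
      show A ^ k * A * (A ^ k)⁻¹ = A
      group
    rw [h1] at hBA
    have h2 : A ^ 2 = 1 := by
      rw [pow_two]
      nth_rewrite 1 [hBA]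
      exact inv_mul_cancel A
    have h3 := orderOf_dvd_of_pow_eq_one h2
    rw [hAord] at h3
    have := Nat.le_of_dvd (by norm_num) h3
    omega
  · show Nat.card (Cfsg.isometryGroup F (Cfsg.quadFormMinus (1 - 1) F a b)) = 2 * (q + 1)
    rw [hcard]
    simp

end Cfsg.Agent.Lib.Dih
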