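import Cfsg.Agent.Lib.PNilp
import Cfsg.Agent.Lib.Invol
import Mathlib.GroupTheory.SpecificGroups.Dihedral

/-!
# Centralizers of involutions in groups with dihedral Sylow 2-subgroups
-/

set_option autoImplicit false

namespace Cfsg.Agent.Lib.DihCent

open Subgroup

variable {G : Type*} [Group G]

theorem step {g : G} (hg : Odd (orderOf g)) {R V : Subgroup G} (hR : IsPGroup 2 R)
    (hgR : ∀ r ∈ R, g * r * g⁻¹ ∈ R) (hgV : ∀ v ∈ V, g * v = v * g) (hVR : V ≤ R)
    (hidx : ∀ r ∈ R, ∀ r' ∈ R, r ∉ V → r' ∉ V → r⁻¹ * r' ∈ V) : ∀ r ∈ R, g * r = r * g := by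
  intro r hr
  by_cases hrV : r ∈ V
  · exact hgV r hrV
  · have h1 : g * r * g⁻¹ ∉ V := by
      intro h
      apply hrV
      have h2 := hgV _ h
      have h3 : r = g⁻¹ * (g * r * g⁻¹ * g) := by group
      rw [h3, ← h2]
      rwa [inv_mul_cancel_left]
    set v := r⁻¹ * (g * r * g⁻¹) with hv
    have hvV : v ∈ V := hidx r hr _ (hgR r hr) hrV h1
    have hgr : g * r * g⁻¹ = r * v := by rw [hv]; group
    have hcomm : Commute g v := hgV v hvV
    have h2 : ∀ j : ℕ, g ^ j * r * (g ^ j)⁻¹ = r * v ^ j := by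
      intro j
      induction j with
      | zero => simp
      | succ j ih =>
        have h3 : Commute (g ^ j) v := hcomm.pow_left j
        calc g ^ (j + 1) * r * (g ^ (j + 1))⁻¹ = g ^ j * (g * r * g⁻¹) * (g ^ j)⁻¹ := by
              rw [pow_succ]; group
          _ = g ^ j * r * (v * (g ^ j)⁻¹) := by rw [hgr]; group
          _ = g ^ j * r * ((g ^ j)⁻¹ * v) := by rw [h3.inv_left.eq]
          _ = (g ^ j * r * (g ^ j)⁻¹) * v := by group
          _ = r * v ^ (j + 1) := by rw [ih, pow_succ, mul_assoc]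
    have h3 := h2 (orderOf g)
    rw [pow_orderOf_eq_one, one_mul, inv_one, mul_one] at h3
    have h4 : v ^ orderOf g = 1 := by
      have : r * 1 = r * v ^ orderOf g := by rw [mul_one]; exact h3
      exact (mul_left_cancel this).symm
    have h5 : orderOf v ∣ orderOf g := orderOf_dvd_of_pow_eq_one h4
    obtain ⟨k, hk⟩ := (IsPGroup.iff_orderOf.mp hR) ⟨v, hVR hvV⟩
    rw [← Subgroup.orderOf_coe] at hk
    change orderOf v = 2 ^ k at hk
    have h6 : v = 1 := by
      rw [← orderOf_eq_one_iff]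
      rw [hk] at h5 ⊢
      have h7 : Nat.Coprime (2 ^ k) (orderOf g) := Nat.Coprime.pow_left _ (Nat.coprime_two_left.mpr hg)
      exact Nat.Coprime.eq_one_of_dvd h7 h5
    rw [h6, mul_one] at hgr
    exact mul_inv_eq_iff_eq_mul.mp hgr

theorem cyc {g u : G} (hg : Odd (orderOf g)) {m : ℕ} (hu : u ^ (2 ^ m) = 1)
    (hgu : g * u * g⁻¹ ∈ zpowers u) : g * u = u * g := by
  have key : ∀ j : ℕ, j ≤ m → ∀ r ∈ zpowers (u ^ (2 ^ (m - j))), g * r = r * g := by
    intro j
    induction j with
    | zero =>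
      intro _ r hr
      rw [Nat.sub_zero, hu] at hr
      rw [mem_zpowers_iff] at hr
      obtain ⟨k, rfl⟩ := hr
      simp
    | succ j ih =>
      intro hj
      have h1 := ih (by omega)
      set i := m - (j + 1) with hi
      have hi' : m - j = i + 1 := by omega
      rw [hi'] at h1
      have hsq : u ^ (2 ^ (i + 1)) = (u ^ (2 ^ i)) ^ 2 := by rw [← pow_mul, pow_succ]
      apply step hg (V := zpowers (u ^ (2 ^ (i + 1))))
      · apply IsPGroup.of_card_dvd_pow (n := m)
        rw [Nat.card_zpowers]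
        apply orderOf_dvd_of_pow_eq_one
        rw [← pow_mul, mul_comm, pow_mul, hu, one_pow]
      · intro r hr
        obtain ⟨a, rfl⟩ := mem_zpowers_iff.mp hr
        obtain ⟨b, hb⟩ := mem_zpowers_iff.mp hgu
        rw [mem_zpowers_iff]
        refine ⟨b * a, ?_⟩
        rw [← conj_zpow, ← conj_pow, ← hb, ← zpow_natCast, ← zpow_natCast, ← zpow_mul, ← zpow_mul, ← zpow_mul]
        congr 1
        ring
      · exact h1
      · rw [hsq, zpowers_le]
        exact pow_mem (mem_zpowers _) 2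
      · intro r hr r' hr' hrV hrV'
        obtain ⟨a, rfl⟩ := mem_zpowers_iff.mp hr
        obtain ⟨b, rfl⟩ := mem_zpowers_iff.mp hr'
        have hodd : ∀ a : ℤ, (u ^ (2 ^ i)) ^ a ∉ zpowers (u ^ (2 ^ (i + 1))) → Odd a := by
          intro a ha
          by_contra hc
          rw [Int.not_odd_iff_even] at hc
          obtain ⟨c, rfl⟩ := hc
          apply ha
          rw [hsq, mem_zpowers_iff]
          refine ⟨c, ?_⟩
          rw [← zpow_natCast (u ^ 2 ^ i) 2, ← zpow_mul]
          congr 1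
          push_cast
          ring
        obtain ⟨c, hc⟩ := (hodd b hrV').sub_odd (hodd a hrV)
        rw [← zpow_neg, ← zpow_add, hsq, mem_zpowers_iff]
        refine ⟨c, ?_⟩
        rw [← zpow_natCast (u ^ 2 ^ i) 2, ← zpow_mul]
        congr 1
        push_cast
        linarith
  have h1 := key m le_rfl u
  rw [Nat.sub_self, pow_zero, pow_one] at h1
  exact h1 (mem_zpowers u)

/-- the essential data of a dihedral group -/
structure DD (S A : Subgroup G) : Prop where
  le : A ≤ S
  cyc : ∃ u ∈ A, ∀ x ∈ A, x ∈ zpowers u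
  mem : ∀ x ∈ S, ∀ y ∈ S, x ∉ A → y ∉ A → x⁻¹ * y ∈ A
  sq : ∀ x ∈ S, x ∉ A → x * x = 1

theorem cent [Finite G] {S A : Subgroup G} (h : DD S A) (hS : IsPGroup 2 S) {t g : G} {R : Subgroup G}
    (hRS : R ≤ S) (ht : t ∈ R) (ht1 : t ≠ 1) (ht2 : t * t = 1) (htR : ∀ r ∈ R, t * r = r * t)
    (hgt : g * t = t * g) (hg : Odd (orderOf g)) (hgR : ∀ r ∈ R, g * r * g⁻¹ ∈ R) :
    ∀ r ∈ R, g * r = r * g := by
  have hRp : IsPGroup 2 R := hS.to_le hRS
  -- a generator of `R ∩ A`
  obtain ⟨u, hu⟩ : ∃ u, zpowers u = R ⊓ A := by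
    obtain ⟨a, ha, haA⟩ := h.cyc
    have hA : A = zpowers a := le_antisymm haA (zpowers_le.mpr ha)
    have h1 : IsCyclic A := by rw [hA]; infer_instance
    have h2 : IsCyclic ↥(R ⊓ A) := by
      have h3 : IsCyclic ((R ⊓ A).subgroupOf A) := inferInstance
      exact isCyclic_of_surjective (subgroupOfEquivOfLe (inf_le_right : R ⊓ A ≤ A))
        (subgroupOfEquivOfLe (inf_le_right : R ⊓ A ≤ A)).surjective
    obtain ⟨u, hu⟩ := (Subgroup.isCyclic_iff_exists_zpowers_eq_top _).mp h2
    exact ⟨u, hu⟩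
  have huRA : u ∈ R ⊓ A := by rw [← hu]; exact mem_zpowers u
  by_cases hsq : u * u = 1
  · -- small case
    have hU : ∀ x ∈ R, x ∈ A → x = 1 ∨ x = u := by
      intro x hxR hxA
      have h1 : x ∈ zpowers u := by rw [hu]; exact ⟨hxR, hxA⟩
      obtain ⟨k, rfl⟩ := mem_zpowers_iff.mp h1
      rcases Int.even_or_odd' k with ⟨c, rfl | rfl⟩
      · left
        rw [zpow_mul, zpow_two, hsq, one_zpow]
      · right
        rw [zpow_add, zpow_mul, zpow_two, hsq, one_zpow, one_mul, zpow_one]
    have hti : t⁻¹ = t := inv_eq_of_mul_eq_one_left ht2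
    have htz : ∀ x, x ∈ zpowers t ↔ x = 1 ∨ x = t := by
      intro x
      constructor
      · intro hx
        obtain ⟨k, rfl⟩ := mem_zpowers_iff.mp hx
        rcases Int.even_or_odd' k with ⟨c, rfl | rfl⟩
        · left
          rw [zpow_mul, zpow_two, ht2, one_zpow]
        · right
          rw [zpow_add, zpow_mul, zpow_two, ht2, one_zpow, one_mul, zpow_one]
      · rintro (rfl | rfl)
        · exact one_mem _
        · exact mem_zpowers _
    apply step hg hRp hgR (V := zpowers t)
    · intro v hv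
      rcases (htz v).mp hv with rfl | rfl
      · simp
      · exact hgt
    · rw [zpowers_le]; exact ht
    · by_cases htA : t ∈ A
      · have hut : t = u := (hU t ht htA).resolve_left ht1
        have hV : ∀ x ∈ R, x ∉ zpowers t → x ∉ A := by
          intro x hx hxt hxA
          apply hxt
          rw [htz, hut]
          exact hU x hx hxA
        intro r hr r' hr' hrV hrV'
        have h1 := h.mem r (hRS hr) r' (hRS hr') (hV r hr hrV) (hV r' hr' hrV')
        rw [htz]
        have := hU _ (mul_mem (inv_mem hr) hr') h1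
        rwa [hut]
      · have hV : ∀ x ∈ R, x ∉ zpowers t → x = u ∨ x = t * u := by
          intro x hx hxt
          rw [htz, not_or] at hxt
          by_cases hxA : x ∈ A
          · exact Or.inl ((hU x hx hxA).resolve_left hxt.1)
          · have h1 := h.mem t (hRS ht) x (hRS hx) htA hxA
            rcases hU _ (mul_mem (inv_mem ht) hx) h1 with h2 | h2
            · exact absurd (inv_mul_eq_one.mp h2).symm hxt.2
            · right
              rw [← h2, mul_inv_cancel_left]
        have htu : t * u = u * t := htR u huRA.1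
        intro r hr r' hr' hrV hrV'
        rw [htz]
        rcases hV r hr hrV with rfl | rfl <;> rcases hV r' hr' hrV' with rfl | rfl
        · left; group
        · right; rw [htu]; group
        · right; rw [htu, mul_inv_rev, hti]; group
        · left; group
  · -- `g` normalises `R ∩ A`
    have hui : g * u * g⁻¹ ∈ zpowers u := by
      rw [hu]
      refine ⟨hgR u huRA.1, ?_⟩
      by_contra hc
      have h1 := h.sq _ (hRS (hgR u huRA.1)) hc
      apply hsq
      have h2 : u * u = g⁻¹ * (g * u * g⁻¹ * (g * u * g⁻¹)) * g := by group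
      rw [h2, h1]; group
    obtain ⟨k, hk⟩ := (IsPGroup.iff_orderOf.mp hRp) ⟨u, huRA.1⟩
    rw [← Subgroup.orderOf_coe] at hk
    have hgu : g * u = u * g := cyc hg (m := k) (by rw [← hk]; exact pow_orderOf_eq_one u) hui
    apply step hg hRp hgR (V := R ⊓ A)
    · intro v hv
      rw [← hu] at hv
      obtain ⟨j, rfl⟩ := mem_zpowers_iff.mp hv
      exact (Commute.zpow_right hgu j).eq
    · exact inf_le_left
    · intro r hr r' hr' hrV hrV'
      refine ⟨R.mul_mem (R.inv_mem hr) hr', ?_⟩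
      exact h.mem r (hRS hr) r' (hRS hr') (fun hc => hrV ⟨hr, hc⟩) (fun hc => hrV' ⟨hr', hc⟩)

/-- dihedral groups satisfy the condition -/
theorem dd_of_dihedral {S : Subgroup G} {n : ℕ} (e : S ≃* DihedralGroup n) : ∃ A : Subgroup G, DD S A := by
  let A₀ : Subgroup S := (zpowers (DihedralGroup.r 1 : DihedralGroup n)).comap e.toMonoidHom
  have hmem : ∀ x : S, x ∈ A₀ ↔ e x ∈ zpowers (DihedralGroup.r 1 : DihedralGroup n) := fun x => Iff.rfl
  have hr : ∀ y : DihedralGroup n, y ∉ zpowers (DihedralGroup.r 1 : DihedralGroup n) → ∃ i, y = DihedralGroup.sr i := by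
    intro y hy
    rcases y with i | i
    · exfalso
      apply hy
      rw [mem_zpowers_iff]
      obtain ⟨k, rfl⟩ := ZMod.intCast_surjective i
      refine ⟨k, ?_⟩
      rw [DihedralGroup.r_one_zpow]
    · exact ⟨i, rfl⟩
  have hr' : ∀ i, (DihedralGroup.r i : DihedralGroup n) ∈ zpowers (DihedralGroup.r 1 : DihedralGroup n) := by
    intro i
    rw [mem_zpowers_iff]
    obtain ⟨k, rfl⟩ := ZMod.intCast_surjective i
    exact ⟨k, DihedralGroup.r_one_zpow k⟩
  have hA : ∀ x (hx : x ∈ S), x ∈ A₀.map S.subtype ↔ e ⟨x, hx⟩ ∈ zpowers (DihedralGroup.r 1 : DihedralGroup n) := by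
    intro x hx
    constructor
    · rintro ⟨y, hy, rfl⟩
      exact hy
    · intro h
      exact ⟨⟨x, hx⟩, h, rfl⟩
  refine ⟨A₀.map S.subtype, map_subtype_le _, ?_, ?_, ?_⟩
  · refine ⟨(e.symm (DihedralGroup.r 1) : S), ?_, ?_⟩
    · rw [hA _ (SetLike.coe_mem _)]
      simp only [Subtype.coe_eta, MulEquiv.apply_symm_apply]
      exact mem_zpowers _
    · rintro _ ⟨y, hy, rfl⟩
      obtain ⟨k, hk⟩ := mem_zpowers_iff.mp hy
      rw [mem_zpowers_iff]
      refine ⟨k, ?_⟩
      have h1 : (e.symm (DihedralGroup.r 1)) ^ k = y := by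
        rw [← map_zpow, hk]
        exact e.symm_apply_apply y
      exact congrArg Subtype.val h1
  · intro x hx y hy hxA hyA
    rw [hA x hx] at hxA
    rw [hA y hy] at hyA
    obtain ⟨i, hi⟩ := hr _ hxA
    obtain ⟨j, hj⟩ := hr _ hyA
    rw [hA _ (mul_mem (inv_mem hx) hy)]
    have h1 : e ⟨x⁻¹ * y, mul_mem (inv_mem hx) hy⟩ = (e ⟨x, hx⟩)⁻¹ * e ⟨y, hy⟩ := by
      rw [← map_inv, ← map_mul]; rfl
    rw [h1, hi, hj]
    have h2 : (DihedralGroup.sr i : DihedralGroup n)⁻¹ = DihedralGroup.sr i := by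
      rw [inv_eq_iff_mul_eq_one]; exact DihedralGroup.sr_mul_self i
    rw [h2, DihedralGroup.sr_mul_sr]
    exact hr' _
  · intro x hx hxA
    rw [hA x hx] at hxA
    obtain ⟨i, hi⟩ := hr _ hxA
    have h1 : (⟨x, hx⟩ : S) * ⟨x, hx⟩ = 1 := by
      apply e.injective
      rw [map_mul, hi, DihedralGroup.sr_mul_self, map_one]
    exact congrArg Subtype.val h1

theorem frobCond [Finite G] (S : Sylow 2 G) {n : ℕ} (e : (S : Subgroup G) ≃* DihedralGroup n) {t : G}
    (ht : orderOf t = 2) : PNilp.FrobCond 2 (centralizer ({t} : Set G)) := by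
  haveI : Fact (Nat.Prime 2) := ⟨Nat.prime_two⟩
  intro Q hQ g hg hgo
  have hgodd : Odd (orderOf (g : G)) := by
    rw [Subgroup.orderOf_coe]; exact Nat.coprime_two_right.mp hgo
  have htC : t ∈ centralizer ({t} : Set G) := mem_centralizer_singleton_iff.mpr rfl
  have hcomm : ∀ x : centralizer ({t} : Set G), (x : G) * t = t * x :=
    fun x => mem_centralizer_singleton_iff.mp x.2
  let t' : centralizer ({t} : Set G) := ⟨t, htC⟩
  have ht' : ∀ x : centralizer ({t} : Set G), x * t' = t' * x := fun x => Subtype.ext (hcomm x)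
  have hTn : (zpowers t').Normal := by
    constructor
    intro x hx y
    obtain ⟨k, rfl⟩ := mem_zpowers_iff.mp hx
    have h1 : Commute y (t' ^ k) := Commute.zpow_right (ht' y) k
    rw [h1.eq, mul_inv_cancel_right]
    exact hx
  have hTp : IsPGroup 2 (zpowers t') := by
    apply IsPGroup.of_card (n := 1)
    rw [Nat.card_zpowers, ← Subgroup.orderOf_coe, pow_one]
    exact ht
  set R : Subgroup (centralizer ({t} : Set G)) := Q ⊔ zpowers t' with hRdef
  have hRp : IsPGroup 2 R := hQ.to_sup_of_normal_right hTp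
  have hgR : ∀ r ∈ R, g * r * g⁻¹ ∈ R := by
    intro r hr
    have h1 : R ≤ R.comap (MulAut.conj g).toMonoidHom := by
      apply sup_le
      · intro q hq
        exact (le_sup_left : Q ≤ R) ((mem_normalizer_iff.mp hg q).mp hq)
      · intro q hq
        exact (le_sup_right : zpowers t' ≤ R) (hTn.conj_mem q hq g)
    exact h1 hr
  obtain ⟨S', hS'⟩ := (hRp.map (centralizer ({t} : Set G)).subtype).exists_le_sylow
  obtain ⟨A, hA⟩ := dd_of_dihedral ((S'.equiv S).trans e)
  have hmemR : ∀ x : G, x ∈ R.map (centralizer ({t} : Set G)).subtype → x * t = t * x := by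
    rintro _ ⟨x, -, rfl⟩
    exact hcomm x
  have h2 := cent hA S'.isPGroup' hS' (t := t) (g := (g : G))
    (by exact ⟨t', (le_sup_right : zpowers t' ≤ R) (mem_zpowers t'), rfl⟩)
    (by intro e'; rw [e', orderOf_one] at ht; exact absurd ht (by decide))
    (Invol.mul_self ht) (fun r hr => (hmemR r hr).symm) (hcomm g) hgodd (by
      rintro _ ⟨x, hx, rfl⟩
      exact ⟨g * x * g⁻¹, hgR x hx, rfl⟩)
  rw [mem_centralizer_iff]
  intro q hq
  have h3 := h2 q ⟨q, (le_sup_left : Q ≤ R) hq, rfl⟩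
  exact Subtype.ext h3.symm

end Cfsg.Agent.Lib.DihCent
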