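import Mathlib
import Cfsg.Prelude.Def_ClassicalGeometry
import Cfsg.Agent.Lib.Symp

set_option autoImplicit false
set_option linter.all false

namespace Cfsg.Agent.Lib.DyeQ

open Matrix
open Cfsg.Agent.Lib.Symp

variable {F : Type*} [Field F] {m : ℕ}

/-- the standard form -/
noncomputable def Q0 (F : Type*) [Field F] (m : ℕ) : QuadraticForm F (Fin m ⊕ Fin m → F) :=
  ∑ i : Fin m, QuadraticMap.linMulLin (LinearMap.proj (Sum.inl i)) (LinearMap.proj (Sum.inr i))

theorem Q0_apply (v : Fin m ⊕ Fin m → F) : Q0 F m v = ∑ i : Fin m, v (Sum.inl i) * v (Sum.inr i) := by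
  unfold Q0
  rw [QuadraticMap.sum_apply]
  rfl

theorem Q0_add [CharP F 2] (u v : Fin m ⊕ Fin m → F) : Q0 F m (u + v) = Q0 F m u + Q0 F m v + Cfsg.sympForm m F u v := by
  rw [Q0_apply, Q0_apply, Q0_apply, sympForm_eq, ← Finset.sum_add_distrib, ← Finset.sum_add_distrib]
  refine Finset.sum_congr rfl fun i _ => ?_
  have h2 : (2 : F) = 0 := CharTwo.two_eq_zero
  simp only [Pi.add_apply]
  linear_combination (u (Sum.inl i) * v (Sum.inr i)) * h2

theorem dye [Fintype F] [CharP F 2] (A : Matrix.symplecticGroup (Fin m) F) :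
    ∃ Q : QuadraticForm F (Fin m ⊕ Fin m → F), (∀ u v : Fin m ⊕ Fin m → F, QuadraticMap.polar ⇑Q u v = Cfsg.sympForm m F u v) ∧
      ∀ v : Fin m ⊕ Fin m → F, Q ((A : Matrix (Fin m ⊕ Fin m) (Fin m ⊕ Fin m) F).mulVec v) = Q v := by
  classical
  obtain ⟨A, hA⟩ := A
  have hpres := (mem_iff_preserves A).1 hA
  have h2 : (2 : F) = 0 := CharTwo.two_eq_zero
  let D : (Fin m ⊕ Fin m → F) → F := fun v => Q0 F m (A *ᵥ v) - Q0 F m v
  have hDadd : ∀ u v, D (u + v) = D u + D v := by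
    intro u v
    show Q0 F m (A *ᵥ (u + v)) - Q0 F m (u + v) = (Q0 F m (A *ᵥ u) - Q0 F m u) + (Q0 F m (A *ᵥ v) - Q0 F m v)
    rw [Matrix.mulVec_add, Q0_add, Q0_add, hpres]
    ring
  have hDsmul : ∀ (c : F) v, D (c • v) = c ^ 2 * D v := by
    intro c v
    show Q0 F m (A *ᵥ (c • v)) - Q0 F m (c • v) = c ^ 2 * (Q0 F m (A *ᵥ v) - Q0 F m v)
    rw [Matrix.mulVec_smul, QuadraticMap.map_smul, QuadraticMap.map_smul]
    simp only [smul_eq_mul]
    ring
  have hsq : ∀ x : F, ((frobeniusEquiv F 2).symm x) ^ 2 = x := fun x => frobeniusEquiv_symm_pow_p F 2 x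
  have hsq' : ∀ x : F, (frobeniusEquiv F 2).symm (x ^ 2) = x := fun x => frobeniusEquiv_symm_pow F 2 x
  let lam : (Fin m ⊕ Fin m → F) →ₗ[F] F :=
    { toFun := fun v => (frobeniusEquiv F 2).symm (D v)
      map_add' := fun u v => by
        show (frobeniusEquiv F 2).symm (D (u + v)) = _
        rw [hDadd, map_add]
      map_smul' := fun c v => by
        show (frobeniusEquiv F 2).symm (D (c • v)) = _
        rw [hDsmul, map_mul, hsq']
        rfl }
  have hlam : ∀ v, lam v ^ 2 = D v := fun v => hsq (D v)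
  let T : (Fin m ⊕ Fin m → F) →ₗ[F] (Fin m ⊕ Fin m → F) := A.mulVecLin - LinearMap.id
  have hT : ∀ v, T v = A *ᵥ v - v := fun v => rfl
  have hker : lam ∈ (LinearMap.ker T).dualAnnihilator := by
    rw [Submodule.mem_dualAnnihilator]
    intro v hv
    have h1 : A *ᵥ v = v := by
      have : A *ᵥ v - v = 0 := by rw [← hT]; exact hv
      exact sub_eq_zero.1 this
    have h3 : D v = 0 := by
      show Q0 F m (A *ᵥ v) - Q0 F m v = 0
      rw [h1, sub_self]
    have h4 := hlam v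
    rw [h3] at h4
    exact pow_eq_zero_iff (two_ne_zero) |>.1 h4
  rw [← LinearMap.range_dualMap_eq_dualAnnihilator_ker] at hker
  obtain ⟨mu, hmu⟩ := hker
  have hmu' : ∀ v, mu (A *ᵥ v) - mu v = lam v := by
    intro v
    rw [← hmu, ← map_sub]
    rfl
  refine ⟨Q0 F m + QuadraticMap.linMulLin mu mu, ?_, ?_⟩
  · intro u v
    show (Q0 F m (u + v) + mu (u + v) * mu (u + v)) - (Q0 F m u + mu u * mu u) - (Q0 F m v + mu v * mu v) = _
    rw [Q0_add, map_add]
    linear_combination (mu u * mu v) * h2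
  · intro v
    show Q0 F m (A *ᵥ v) + mu (A *ᵥ v) * mu (A *ᵥ v) = Q0 F m v + mu v * mu v
    have h3 : Q0 F m (A *ᵥ v) - Q0 F m v = lam v ^ 2 := (hlam v).symm
    rw [← hmu' v] at h3
    linear_combination h3 + (mu (A *ᵥ v) ^ 2 - mu (A *ᵥ v) * mu v) * h2
end Cfsg.Agent.Lib.DyeQ
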