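import Mathlib
import Cfsg.Agent.Lib.BForm4
import Cfsg.Agent.Lib.Herm12
import Cfsg.Agent.Lib.Orth25

/-! Field extension embeddings of classical groups. -/

set_option linter.all false
set_option maxHeartbeats 400000

namespace Cfsg.Agent.Lib.Emb

open Module Matrix

section Gen

variable {F : Type*} [Field F] {G : Type*} [Group G] {W : Type*} [AddCommGroup W] [Module F W]
  [FiniteDimensional F W]

/-- a faithful representation with an invariant nondegenerate alternating form gives an embedding in `Sp` -/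
theorem exists_symp {m : ℕ} (ρ : G →* Module.End F W) (hρ : Function.Injective ρ)
    (C : LinearMap.BilinForm F W) (hC : C.Nondegenerate) (hCa : C.IsAlt)
    (hinv : ∀ g x y, C (ρ g x) (ρ g y) = C x y) (hd : finrank F W = 2 * m) :
    ∃ φ : G →* ↥(Matrix.symplecticGroup (Fin m) F), Function.Injective φ := by
  obtain ⟨k, hk⟩ := BForm.alt_iso (B := C) (C := Symp.sympBilin m F) hC Symp.sympBilin_nondegenerate hCa Symp.sympBilin_isAlt
    (by rw [hd, finrank_pi, Fintype.card_sum, Fintype.card_fin]; ring)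
  have hk' : ∀ x y, C (k.symm x) (k.symm y) = Symp.sympBilin m F x y := by
    intro x y
    rw [← hk, k.apply_symm_apply, k.apply_symm_apply]
  let ψ : G →* Matrix (Fin m ⊕ Fin m) (Fin m ⊕ Fin m) F :=
    (((LinearMap.toMatrixAlgEquiv' : Module.End F (Fin m ⊕ Fin m → F) ≃ₐ[F] _) : Module.End F (Fin m ⊕ Fin m → F) →* _).comp
      ((k.conjRingEquiv : Module.End F W ≃+* Module.End F (Fin m ⊕ Fin m → F)) : Module.End F W →* _)).comp ρ
  have hψ : ∀ g x, ψ g *ᵥ x = k (ρ g (k.symm x)) := by
    intro g x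
    show (LinearMap.toMatrixAlgEquiv' (k.conjRingEquiv (ρ g))) *ᵥ x = _
    rw [← Matrix.toLinAlgEquiv'_apply, Matrix.toLinAlgEquiv'_toMatrixAlgEquiv']
    rfl
  refine ⟨ψ.codRestrict _ (fun g => ?_), ?_⟩
  · rw [Symp.mem_iff_preserves]
    intro u v
    rw [hψ, hψ, ← Symp.sympBilin_apply, hk, hinv, hk', Symp.sympBilin_apply]
  · intro g h hgh
    apply hρ
    have h1 : ψ g = ψ h := congrArg Subtype.val hgh
    apply LinearMap.ext
    intro x
    have h2 : ψ g *ᵥ (k x) = ψ h *ᵥ (k x) := by rw [h1]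
    rw [hψ, hψ, k.symm_apply_apply] at h2
    exact k.injective h2

/-- the same for quadratic forms -/
theorem exists_orth {ι : Type} [Fintype ι] [DecidableEq ι] (ρ : G →* Module.End F W) (hρ : Function.Injective ρ)
    (Q : W → F) (hinv : ∀ g x, Q (ρ g x) = Q x) (Q' : (ι → F) → F) (k : W ≃ₗ[F] (ι → F)) (hk : ∀ x, Q' (k x) = Q x) :
    ∃ φ : G →* ↥(Cfsg.isometryGroup F Q'), Function.Injective φ := by
  have hk' : ∀ x, Q (k.symm x) = Q' x := by
    intro x
    rw [← hk, k.apply_symm_apply]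
  let ψ : G →* Matrix ι ι F :=
    (((LinearMap.toMatrixAlgEquiv' : Module.End F (ι → F) ≃ₐ[F] _) : Module.End F (ι → F) →* _).comp
      ((k.conjRingEquiv : Module.End F W ≃+* Module.End F (ι → F)) : Module.End F W →* _)).comp ρ
  have hψ : ∀ g x, ψ g *ᵥ x = k (ρ g (k.symm x)) := by
    intro g x
    show (LinearMap.toMatrixAlgEquiv' (k.conjRingEquiv (ρ g))) *ᵥ x = _
    rw [← Matrix.toLinAlgEquiv'_apply, Matrix.toLinAlgEquiv'_toMatrixAlgEquiv']
    rfl
  refine ⟨ψ.toHomUnits.codRestrict _ (fun g => ?_), ?_⟩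
  · intro u v
    show Q' (ψ g *ᵥ u) = Q' u
    rw [hψ, hk, hinv, hk']
  · intro g h hgh
    apply hρ
    have h1 : ψ g = ψ h := congrArg (fun x : ↥(Cfsg.isometryGroup F Q') => ((x : GL ι F) : Matrix ι ι F)) hgh
    apply LinearMap.ext
    intro x
    have h2 : ψ g *ᵥ (k x) = ψ h *ᵥ (k x) := by rw [h1]
    rw [hψ, hψ, k.symm_apply_apply] at h2
    exact k.injective h2

end Gen

section Ext

variable {F K : Type*} [Field F] [Fintype F] [Field K] [Fintype K] [Algebra F K] {q : ℕ}

theorem finrank_two (hF : Fintype.card F = q) (hK : Fintype.card K = q ^ 2) : finrank F K = 2 := by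
  have h := Module.card_eq_pow_finrank (K := F) (V := K)
  rw [hK, hF] at h
  have hq : 1 < q := by rw [← hF]; exact Fintype.one_lt_card
  exact (Nat.pow_right_injective hq h).symm

variable {σ : K ≃+* K}

theorem tr_eq (hF : Fintype.card F = q) (hK : Fintype.card K = q ^ 2) (hq : ∀ a, σ a = a ^ q) (x : K) :
    algebraMap F K (Algebra.trace F K x) = x + σ x := by
  rw [FiniteField.algebraMap_trace_eq_sum_pow, finrank_two hF hK, Finset.sum_range_succ, Finset.sum_range_one,
    Nat.card_eq_fintype_card, hF, pow_zero, pow_one, pow_one, hq]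

theorem nm_eq (hF : Fintype.card F = q) (hK : Fintype.card K = q ^ 2) (hq : ∀ a, σ a = a ^ q) (x : K) :
    algebraMap F K (Algebra.norm F x) = x * σ x := by
  rw [FiniteField.algebraMap_norm_eq_prod_pow, finrank_two hF hK, Finset.prod_range_succ, Finset.prod_range_one,
    Nat.card_eq_fintype_card, hF, pow_zero, pow_one, pow_one, hq]

theorem sigma_alg (hF : Fintype.card F = q) (hq : ∀ a, σ a = a ^ q) (a : F) :
    σ (algebraMap F K a) = algebraMap F K a := by
  rw [hq, ← map_pow, ← hF, FiniteField.pow_card]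

theorem tr_mul_nd {x : K} (h : ∀ c : K, Algebra.trace F K (c * x) = 0) : x = 0 := by
  by_contra hx
  obtain ⟨t, ht⟩ : ∃ t, Algebra.trace F K t ≠ 0 := by
    by_contra h0
    push Not at h0
    exact Algebra.trace_ne_zero F K (LinearMap.ext h0)
  apply ht
  have := h (t * x⁻¹)
  rwa [mul_assoc, inv_mul_cancel₀ hx, mul_one] at this

end Ext

end Cfsg.Agent.Lib.Emb
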