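import Mathlib
import Cfsg.Agent.Lib.Emb1

/-! Field extension embeddings of classical groups: quadratic extensions. -/

set_option linter.all false
set_option maxHeartbeats 400000

namespace Cfsg.Agent.Lib.Emb

open Module Matrix QuadraticMap

section Ext

variable {F K : Type*} [Field F] [Fintype F] [Field K] [Fintype K] {q : ℕ}

theorem exists_alg (hF : Fintype.card F = q) (hK : Fintype.card K = q ^ 2) : Nonempty (Algebra F K) := by
  obtain ⟨p, hp⟩ := CharP.exists F
  obtain ⟨f, hpp, hf⟩ := FiniteField.card F p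
  haveI : Fact p.Prime := ⟨hpp⟩
  letI : Fintype (FiniteField.Extension F p 2) := Fintype.ofFinite _
  have h1 : Fintype.card (FiniteField.Extension F p 2) = Fintype.card K := by
    rw [← Nat.card_eq_fintype_card, FiniteField.natCard_extension, Nat.card_eq_fintype_card, hF, hK]
  exact ⟨((FiniteField.ringEquivOfCardEq h1 : FiniteField.Extension F p 2 →+* K).comp
    (algebraMap F (FiniteField.Extension F p 2))).toAlgebra⟩

variable [Algebra F K] {σ : K ≃+* K}

/-- anisotropic binary forms are norm forms -/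
theorem exists_root (hF : Fintype.card F = q) (hK : Fintype.card K = q ^ 2) (hq : ∀ a, σ a = a ^ q) {a b : F}
    (hab : ∀ z₁ z₂ : F, z₁ ^ 2 + a * z₁ * z₂ + b * z₂ ^ 2 = 0 → z₁ = 0 ∧ z₂ = 0) :
    ∃ α : K, α + σ α = algebraMap F K a ∧ α * σ α = algebraMap F K b ∧ σ α ≠ α ∧
      LinearIndependent F ![1, α] := by
  classical
  let f : Polynomial F := Polynomial.X ^ 2 - Polynomial.C a * Polynomial.X + Polynomial.C b
  have hdeg : f.natDegree = 2 := by
    show (Polynomial.X ^ 2 - Polynomial.C a * Polynomial.X + Polynomial.C b : Polynomial F).natDegree = 2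
    compute_degree!
  have hmon : f.Monic := by
    show (Polynomial.X ^ 2 - Polynomial.C a * Polynomial.X + Polynomial.C b : Polynomial F).Monic
    monicity!
  have hirr : Irreducible f := by
    refine Polynomial.irreducible_of_degree_le_three_of_not_isRoot (by rw [hdeg]; simp) ?_
    intro x hx
    have h1 : x ^ 2 - a * x + b = 0 := by
      have : f.eval x = 0 := hx
      simpa [f] using this
    have h2 := hab x (-1) (by rw [← h1]; ring)
    exact one_ne_zero (neg_eq_zero.mp h2.2)
  have hdvd : f ∣ Polynomial.X ^ (Nat.card F) ^ 2 - Polynomial.X := by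
    rw [← hirr.natDegree_dvd_iff_dvd_X_pow_card_pow_sub_X, hdeg]
  have hs : (f.map (algebraMap F K)).Splits := by
    have h3 := (FiniteField.isSplittingField_sub K F).splits
    refine Polynomial.Splits.of_dvd h3 ?_ ?_
    · rw [Polynomial.map_ne_zero_iff (algebraMap F K).injective]
      exact FiniteField.X_pow_card_sub_X_ne_zero F Fintype.one_lt_card
    · apply Polynomial.map_dvd
      rw [hK, ← hF, ← Nat.card_eq_fintype_card]
      exact hdvd
  obtain ⟨α, hα⟩ := hs.exists_eval_eq_zero (by
    rw [Polynomial.degree_map, Polynomial.degree_eq_natDegree hmon.ne_zero, hdeg]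
    norm_num)
  have hα' : α ^ 2 - algebraMap F K a * α + algebraMap F K b = 0 := by
    simpa [f] using hα
  have hσα : (σ α) ^ 2 - algebraMap F K a * σ α + algebraMap F K b = 0 := by
    have := congrArg σ hα'
    rw [map_zero, map_add, map_sub, map_mul, map_pow, sigma_alg hF hq, sigma_alg hF hq] at this
    exact this
  have hne : σ α ≠ α := by
    intro h
    rw [hq] at h
    have h5 : Polynomial.aeval α f = 0 := by
      rw [Polynomial.aeval_def, ← Polynomial.eval_map]; exact hα
    have h4 : f ∣ Polynomial.X ^ (Nat.card F) ^ 1 - Polynomial.X := by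
      rw [minpoly.eq_of_irreducible_of_monic hirr h5 hmon]
      apply minpoly.dvd
      simp [Nat.card_eq_fintype_card, hF, h]
    rw [← hirr.natDegree_dvd_iff_dvd_X_pow_card_pow_sub_X, hdeg] at h4
    omega
  have hsum : α + σ α = algebraMap F K a := by
    have h6 : (σ α - α) * (α + σ α - algebraMap F K a) = 0 := by
      linear_combination hσα - hα'
    rcases mul_eq_zero.mp h6 with h | h
    · exact absurd (sub_eq_zero.mp h) hne
    · exact sub_eq_zero.mp h
  refine ⟨α, hsum, ?_, hne, ?_⟩
  · have : σ α = algebraMap F K a - α := by rw [← hsum]; ring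
    rw [this]
    linear_combination -hα'
  · rw [LinearIndependent.pair_iff]
    intro s t hst
    have ht : t = 0 := by
      by_contra ht
      apply hne
      have h7 : α = algebraMap F K (-(t⁻¹ * s)) := by
        have h8 : algebraMap F K s + algebraMap F K t * α = 0 := by
          rw [Algebra.smul_def, Algebra.smul_def, mul_one] at hst
          exact hst
        have ht' : algebraMap F K t ≠ 0 := by
          rw [Ne, map_eq_zero]; exact ht
        rw [map_neg, map_mul, map_inv₀]
        field_simp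
        linear_combination h8
      rw [h7, sigma_alg hF hq]
    subst ht
    rw [zero_smul, add_zero, Algebra.smul_def, mul_one, map_eq_zero] at hst
    exact ⟨hst, rfl⟩

/-- the norm form -/
noncomputable def nq (F K : Type*) [Field F] [Field K] [Algebra F K] [Fintype F] [Fintype K] {q : ℕ}
    (hF : Fintype.card F = q) (hK : Fintype.card K = q ^ 2) : QuadraticForm F K where
  toFun := Algebra.norm F
  toFun_smul a x := by
    rw [Algebra.smul_def, map_mul, Algebra.norm_algebraMap, finrank_two hF hK, pow_two, smul_eq_mul]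
  exists_companion' := by
    obtain ⟨σ, hσ, hq⟩ := Herm.exists_sigma hK
    refine ⟨LinearMap.mk₂ F (fun x y => Algebra.trace F K (x * σ y)) ?_ ?_ ?_ ?_, ?_⟩
    · intro x y z; rw [add_mul, map_add]
    · intro c x y; rw [smul_mul_assoc, map_smul]
    · intro x y z; rw [map_add, mul_add, map_add]
    · intro c x y
      have e : x * σ (c • y) = c • (x * σ y) := by
        rw [Algebra.smul_def, Algebra.smul_def, map_mul σ, sigma_alg hF hq, mul_left_comm]
      rw [e, map_smul]
    · intro x y
      rw [LinearMap.mk₂_apply]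
      apply (algebraMap F K).injective
      rw [map_add (algebraMap F K), map_add (algebraMap F K), nm_eq hF hK hq, nm_eq hF hK hq, nm_eq hF hK hq, tr_eq hF hK hq,
        map_add σ, map_mul σ]
      have : σ (σ y) = y := by rw [hq, hq, ← pow_mul, ← pow_two, ← hK, FiniteField.pow_card]
      rw [this]
      ring

/-- the sum of norms -/
noncomputable def NQ (F K : Type*) [Field F] [Field K] [Algebra F K] [Fintype F] [Fintype K] {q : ℕ}
    (hF : Fintype.card F = q) (hK : Fintype.card K = q ^ 2) (m : ℕ) : QuadraticForm F (Fin m → K) :=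
  ∑ i, (nq F K hF hK).comp (LinearMap.proj i)

theorem NQ_apply (hF : Fintype.card F = q) (hK : Fintype.card K = q ^ 2) (hq : ∀ a, σ a = a ^ q) {m : ℕ} (x : Fin m → K) :
    algebraMap F K (NQ F K hF hK m x) = ∑ i, x i * σ (x i) := by
  unfold NQ
  rw [QuadraticMap.sum_apply, map_sum]
  refine Finset.sum_congr rfl fun i _ => ?_
  exact nm_eq hF hK hq (x i)

theorem polar_NQ (hF : Fintype.card F = q) (hK : Fintype.card K = q ^ 2) (hσ2 : ∀ a, σ (σ a) = a) (hq : ∀ a, σ a = a ^ q) {m : ℕ} (x y : Fin m → K) :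
    polar (NQ F K hF hK m) x y = Algebra.trace F K (∑ i, x i * σ (y i)) := by
  apply (algebraMap F K).injective
  rw [tr_eq hF hK hq]
  unfold polar
  rw [map_sub, map_sub, NQ_apply hF hK hq, NQ_apply hF hK hq, NQ_apply hF hK hq, map_sum, ← Finset.sum_sub_distrib,
    ← Finset.sum_sub_distrib, ← Finset.sum_add_distrib]
  refine Finset.sum_congr rfl fun i _ => ?_
  rw [Pi.add_apply, map_add, map_mul, hσ2]
  ring

theorem nd_NQ (hF : Fintype.card F = q) (hK : Fintype.card K = q ^ 2) (m : ℕ) : Orth.ND (NQ F K hF hK m) := by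
  obtain ⟨σ, hσ, hq⟩ := Herm.exists_sigma hK
  obtain ⟨hσ2, h2, h3⟩ := Herm.sigma_facts hσ
  refine Orth.nd_of_forall (fun x hx => ?_)
  funext i
  apply tr_mul_nd (F := F)
  intro c
  have := hx (Pi.single i (σ c))
  rw [polar_NQ hF hK hσ2 hq, Finset.sum_eq_single i, Pi.single_eq_same, hσ2, mul_comm] at this
  · exact this
  · intro j _ hj
    rw [Pi.single_eq_of_ne hj, map_zero, mul_zero]
  · intro h; exact absurd (Finset.mem_univ _) h

theorem card_NQ (hF : Fintype.card F = q) (hK : Fintype.card K = q ^ 2) (m : ℕ) :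
    Nat.card {x : Fin m → K // NQ F K hF hK m x = 0} =
      (if Even m then (q ^ m - 1) * (q ^ (m - 1) + 1) else (q ^ m + 1) * (q ^ (m - 1) - 1)) + 1 := by
  obtain ⟨σ, hσ, hq⟩ := Herm.exists_sigma hK
  rw [← Herm.card_std_zero hK hσ hq]
  refine Nat.card_congr (Equiv.subtypeEquivRight fun x => ?_)
  rw [← NQ_apply hF hK hq, map_eq_zero (algebraMap F K)]

theorem finrank_K (hF : Fintype.card F = q) (hK : Fintype.card K = q ^ 2) (m : ℕ) :
    finrank F (Fin m → K) = 2 * m := by
  rw [Module.finrank_pi_fintype, Finset.sum_const, finrank_two hF hK, Finset.card_univ, Fintype.card_fin, smul_eq_mul,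
    mul_comm]

theorem NQ_even (hF : Fintype.card F = q) (hK : Fintype.card K = q ^ 2) {m : ℕ} (hm : Even m) :
    ∃ g : (Fin m → K) ≃ₗ[F] (Fin m ⊕ Fin m → F), ∀ v, Cfsg.quadFormPlus m F (g v) = NQ F K hF hK m v := by
  rcases Orth.plus_or_minus (nd_NQ hF hK m) (finrank_K hF hK m) with ⟨g, hg⟩ | ⟨h1, μ, hμ, g, hg⟩
  · exact ⟨g, fun v => by rw [← Orth.qPlus_apply, hg]⟩
  · exfalso
    have hq1 : 1 < q := by rw [← hF]; exact Fintype.one_lt_card
    obtain ⟨k, rfl⟩ : ∃ k, m = k + 2 := ⟨m - 2, by
      obtain ⟨c, hc⟩ := hm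
      omega⟩
    have hc := card_NQ (F := F) (K := K) hF hK (k + 2)
    have han : ∀ z₁ z₂ : F, z₁ ^ 2 + 1 * z₁ * z₂ + μ * z₂ ^ 2 = 0 → z₁ = 0 ∧ z₂ = 0 := by
      intro z₁ z₂ hz
      have hz2 : z₂ = 0 := by
        by_contra hz2
        apply hμ (z₁ / z₂)
        field_simp
        linear_combination hz
      subst hz2
      refine ⟨?_, rfl⟩
      have : z₁ ^ 2 = 0 := by linear_combination hz
      exact pow_eq_zero_iff (two_ne_zero) |>.mp this
    have h2 := Orth.HF.card_zero' (d := 2) (m := k) (Orth.hfMinus (m := k + 1) (F := F) (a := 1) (b := μ))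
      Orth.finrank_cpl_minus (Orth.anis_minus han)
    have h3 : Nat.card {x : Fin (k + 2) → K // NQ F K hF hK (k + 2) x = 0} = Nat.card {x : (Fin (k + 1) ⊕ Fin (k + 1)) ⊕ Fin 2 → F //
        Orth.qMinus (k + 1) F 1 μ x = 0} :=
      Nat.card_congr (g.toEquiv.subtypeEquiv (fun v => by
        show _ ↔ Orth.qMinus (k + 1) F 1 μ (g v) = 0
        rw [← hg]; rfl))
    rw [h3, h2, if_pos hm, Nat.card_eq_fintype_card, hF] at hc
    have h4 : 1 ≤ q ^ (k + 1) := Nat.one_le_pow _ _ (by omega)
    have h5 : q ^ (k + 1) < q ^ (k + 2) := Nat.pow_lt_pow_right hq1 (by omega)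
    obtain ⟨A, hA⟩ : ∃ A, q ^ (k + 1) = A + 1 := ⟨q ^ (k + 1) - 1, by omega⟩
    obtain ⟨B, hB⟩ : ∃ B, q ^ (k + 2) = B + 1 := ⟨q ^ (k + 2) - 1, by omega⟩
    have e1 : k + 2 - 1 = k + 1 := by omega
    rw [e1, hA, hB] at hc
    simp only [Nat.add_sub_cancel] at hc
    rw [hA, hB] at h5
    nlinarith

theorem NQ_odd (hF : Fintype.card F = q) (hK : Fintype.card K = q ^ 2) {n : ℕ} (hn : Even n) {a b : F}
    (hab : ∀ z₁ z₂ : F, z₁ ^ 2 + a * z₁ * z₂ + b * z₂ ^ 2 = 0 → z₁ = 0 ∧ z₂ = 0) :
    ∃ g : (Fin (n + 1) → K) ≃ₗ[F] ((Fin n ⊕ Fin n) ⊕ Fin 2 → F), ∀ v,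
      Cfsg.quadFormMinus n F a b (g v) = NQ F K hF hK (n + 1) v := by
  obtain ⟨σ, hσ, hq⟩ := Herm.exists_sigma hK
  obtain ⟨α, h1, h2, h3, hli⟩ := exists_root hF hK hq hab
  obtain ⟨g, hg⟩ := NQ_even (F := F) (K := K) hF hK hn
  let L : ((Fin n ⊕ Fin n) ⊕ Fin 2 → F) →ₗ[F] (Fin (n + 1) → K) :=
    { toFun := fun v => Fin.snoc (α := fun _ => K) (g.symm (v ∘ Sum.inl)) (algebraMap F K (v (Sum.inr 0)) + algebraMap F K (v (Sum.inr 1)) * α)
      map_add' := by
        intro x y
        funext i
        refine Fin.lastCases ?_ (fun i => ?_) i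
        · simp only [Fin.snoc_last, Pi.add_apply, map_add]; ring
        · have : (x + y) ∘ Sum.inl = (x ∘ Sum.inl : (Fin n ⊕ Fin n) → F) + y ∘ Sum.inl := rfl
          simp only [Fin.snoc_castSucc, Pi.add_apply, this, map_add]
      map_smul' := by
        intro c x
        funext i
        refine Fin.lastCases ?_ (fun i => ?_) i
        · simp only [Fin.snoc_last, Pi.smul_apply, smul_eq_mul, map_mul, RingHom.id_apply, Algebra.smul_def]; ring
        · have : (c • x) ∘ Sum.inl = c • (x ∘ Sum.inl : (Fin n ⊕ Fin n) → F) := rfl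
          simp only [Fin.snoc_castSucc, Pi.smul_apply, this, map_smul, RingHom.id_apply] }
  have e1 : ∀ v, ∀ i : Fin n, L v (Fin.castSucc i) = (g.symm (v ∘ Sum.inl)) i := fun v i => by
    exact Fin.snoc_castSucc (α := fun _ => K) _ _ i
  have e2 : ∀ v, L v (Fin.last n) = algebraMap F K (v (Sum.inr 0)) + algebraMap F K (v (Sum.inr 1)) * α := fun v => by
    exact Fin.snoc_last (α := fun _ => K) _ _
  have hLn : ∀ v, NQ F K hF hK (n + 1) (L v) = Cfsg.quadFormMinus n F a b v := by
    intro v
    apply (algebraMap F K).injective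
    rw [NQ_apply hF hK hq, Fin.sum_univ_castSucc]
    simp only [e1, e2]
    rw [← NQ_apply hF hK hq, ← hg, g.apply_symm_apply]
    unfold Cfsg.quadFormMinus Cfsg.quadFormPlus
    simp only [map_add, map_mul, map_pow, map_sum, sigma_alg hF hq, Function.comp_apply]
    linear_combination (algebraMap F K (v (Sum.inr 0)) * algebraMap F K (v (Sum.inr 1))) * h1 +
      (algebraMap F K (v (Sum.inr 1)))^2 * h2
  have hLinj : Function.Injective L := by
    rw [← LinearMap.ker_eq_bot, LinearMap.ker_eq_bot']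
    intro v hv
    have e1 : g.symm (v ∘ Sum.inl) = 0 := by
      funext i
      have := congrFun hv (Fin.castSucc i)
      rw [e1] at this
      exact this
    have e2 : algebraMap F K (v (Sum.inr 0)) + algebraMap F K (v (Sum.inr 1)) * α = 0 := by
      have := congrFun hv (Fin.last n)
      rw [e2] at this
      exact this
    have e3 := LinearIndependent.pair_iff.mp hli (v (Sum.inr 0)) (v (Sum.inr 1)) (by
      rw [Algebra.smul_def, Algebra.smul_def, mul_one]; exact e2)
    have e4 : (v ∘ Sum.inl : (Fin n ⊕ Fin n) → F) = 0 := by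
      rw [map_eq_zero_iff _ g.symm.injective] at e1
      exact e1
    funext i
    rcases i with i | i
    · exact congrFun e4 i
    · fin_cases i
      · exact e3.1
      · exact e3.2
  have hfr : finrank F ((Fin n ⊕ Fin n) ⊕ Fin 2 → F) = finrank F (Fin (n + 1) → K) := by
    rw [finrank_K hF hK, Module.finrank_fintype_fun_eq_card, Fintype.card_sum, Fintype.card_sum, Fintype.card_fin,
      Fintype.card_fin]
    ring
  let E := LinearEquiv.ofInjectiveOfFinrankEq L hLinj hfr
  have hE : ∀ v, E v = L v := fun v => rfl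
  refine ⟨E.symm, fun v => ?_⟩
  rw [← hLn, ← hE, E.apply_symm_apply]

end Ext

end Cfsg.Agent.Lib.Emb
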