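import Mathlib
import Cfsg.Agent.Lib.Emb2

/-! Field extension embeddings of classical groups: the groups. -/

set_option linter.all false
set_option maxHeartbeats 400000

namespace Cfsg.Agent.Lib.Emb

open Module Matrix QuadraticMap

section Ext

variable {F K : Type*} [Field F] [Fintype F] [Field K] [Fintype K] {q : ℕ} [Algebra F K] {σ : K ≃+* K}

/-- matrices acting `F`-linearly -/
noncomputable def mE (F K : Type*) [Field F] [Field K] [Algebra F K] (ι : Type*) [Fintype ι] [DecidableEq ι] :
    Matrix ι ι K →* Module.End F (ι → K) where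
  toFun A := (Matrix.toLin' A).restrictScalars F
  map_one' := by
    apply LinearMap.ext
    intro x
    show Matrix.toLin' (1 : Matrix ι ι K) x = x
    rw [Matrix.toLin'_apply, Matrix.one_mulVec]
  map_mul' A B := by
    apply LinearMap.ext
    intro x
    show Matrix.toLin' (A * B) x = Matrix.toLin' A (Matrix.toLin' B x)
    rw [Matrix.toLin'_apply, Matrix.toLin'_apply, Matrix.toLin'_apply, Matrix.mulVec_mulVec]

theorem mE_apply {ι : Type*} [Fintype ι] [DecidableEq ι] (A : Matrix ι ι K) (x : ι → K) :
    mE F K ι A x = A *ᵥ x := rfl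

theorem mE_inj {ι : Type*} [Fintype ι] [DecidableEq ι] : Function.Injective (mE F K ι) := by
  intro A B h
  apply Symp.ext_mulVec
  intro x
  rw [← mE_apply (F := F), h, mE_apply]

/-- trace of a hermitian form -/
noncomputable def trH (hF : Fintype.card F = q) (hσ2 : ∀ a, σ (σ a) = a) (hq : ∀ a, σ a = a ^ q) (e : K) (m : ℕ) :
    LinearMap.BilinForm F (Fin m → K) :=
  LinearMap.mk₂ F (fun x y => Algebra.trace F K (e * (Herm.std σ hσ2 m).h x y))
    (by intro x y z; rw [(Herm.std σ hσ2 m).add_left, mul_add, map_add])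
    (by
      intro c x y
      have e1 : c • x = algebraMap F K c • x := (algebraMap_smul K c x).symm
      rw [e1, (Herm.std σ hσ2 m).smul_left, mul_left_comm, ← Algebra.smul_def, map_smul])
    (by intro x y z; rw [(Herm.std σ hσ2 m).add_right, mul_add, map_add])
    (by
      intro c x y
      have e1 : c • y = algebraMap F K c • y := (algebraMap_smul K c y).symm
      rw [e1, (Herm.std σ hσ2 m).smul_right, sigma_alg hF hq, mul_left_comm, ← Algebra.smul_def, map_smul])

theorem trH_apply (hF : Fintype.card F = q) (hσ2 : ∀ a, σ (σ a) = a) (hq : ∀ a, σ a = a ^ q) (e : K) (m : ℕ) (x y) :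
    trH (F := F) hF hσ2 hq e m x y = Algebra.trace F K (e * (Herm.std σ hσ2 m).h x y) := rfl

theorem gu_symp (hF : Fintype.card F = q) (hK : Fintype.card K = q ^ 2) (m : ℕ) :
    ∃ φ : ↥(Cfsg.GU m K q) →* ↥(Matrix.symplecticGroup (Fin m) F), Function.Injective φ := by
  obtain ⟨σ, hσ, hq⟩ := Herm.exists_sigma hK
  obtain ⟨hσ2, hne, h3⟩ := Herm.sigma_facts hσ
  obtain ⟨e, he0, he⟩ := Herm.exists_skew hσ2 hne
  let ρ : ↥(Cfsg.GU m K q) →* Module.End F (Fin m → K) :=
    (mE F K (Fin m)).comp ((Units.coeHom (Matrix (Fin m) (Fin m) K)).comp (Cfsg.GU m K q).subtype)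
  refine exists_symp ρ ?_ (trH hF hσ2 hq e m) ?_ ?_ ?_ (finrank_K hF hK m)
  · intro g h hgh
    apply Subtype.ext
    apply Units.ext
    exact mE_inj hgh
  · have hnd : ∀ x, (∀ y, trH (F := F) hF hσ2 hq e m x y = 0) → x = 0 := by
      intro x hx
      funext i
      have h4 : e * x i = 0 := by
        apply tr_mul_nd (F := F)
        intro c
        have := hx (Pi.single i (σ c))
        rw [trH_apply] at this
        have h5 : (Herm.std σ hσ2 m).h x (Pi.single i (σ c)) = x i * c := by
          show ∑ j, x j * σ ((Pi.single i (σ c) : Fin m → K) j) = _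
          rw [Finset.sum_eq_single i, Pi.single_eq_same, hσ2]
          · intro j _ hj
            rw [Pi.single_eq_of_ne hj, map_zero, mul_zero]
          · intro h; exact absurd (Finset.mem_univ _) h
        rw [h5] at this
        rw [← this]
        congr 1
        ring
      exact (mul_eq_zero.mp h4).resolve_left he0
    have hsw : ∀ x y, trH (F := F) hF hσ2 hq e m x y = - trH (F := F) hF hσ2 hq e m y x := by
      intro x y
      apply (algebraMap F K).injective
      rw [map_neg, trH_apply, trH_apply, tr_eq hF hK hq, tr_eq hF hK hq, map_mul, map_mul, he, ← (Herm.std σ hσ2 m).symm x y,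
        ← (Herm.std σ hσ2 m).symm y x]
      ring_nf
    refine ⟨fun x hx => hnd x hx, fun y hy => hnd y (fun x => ?_)⟩
    rw [hsw, hy, neg_zero]
  · intro x
    apply (algebraMap F K).injective
    rw [trH_apply, tr_eq hF hK hq, map_mul, he, ← (Herm.std σ hσ2 m).symm x x, map_zero]
    ring
  · intro g x y
    rw [trH_apply, trH_apply]
    have h6 := (Herm.mem_GU hσ2 hq g.1).mp g.2 x y
    have h7 : (Herm.std σ hσ2 m).h (ρ g x) (ρ g y) = (Herm.std σ hσ2 m).h x y := h6
    rw [h7]

theorem gu_orth (hF : Fintype.card F = q) (hK : Fintype.card K = q ^ 2) (m : ℕ) {ι : Type} [Fintype ι] [DecidableEq ι]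
    (Q' : (ι → F) → F) (k : (Fin m → K) ≃ₗ[F] (ι → F)) (hk : ∀ x, Q' (k x) = NQ F K hF hK m x) :
    ∃ φ : ↥(Cfsg.GU m K q) →* ↥(Cfsg.isometryGroup F Q'), Function.Injective φ := by
  obtain ⟨σ, hσ, hq⟩ := Herm.exists_sigma hK
  obtain ⟨hσ2, hne, h3⟩ := Herm.sigma_facts hσ
  let ρ : ↥(Cfsg.GU m K q) →* Module.End F (Fin m → K) :=
    (mE F K (Fin m)).comp ((Units.coeHom (Matrix (Fin m) (Fin m) K)).comp (Cfsg.GU m K q).subtype)
  refine exists_orth ρ ?_ (NQ F K hF hK m) ?_ Q' k hk
  · intro g h hgh
    apply Subtype.ext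
    apply Units.ext
    exact mE_inj hgh
  · intro g x
    apply (algebraMap F K).injective
    rw [NQ_apply hF hK hq, NQ_apply hF hK hq]
    exact (Herm.mem_GU hσ2 hq g.1).mp g.2 x x

/-- trace of the symplectic form -/
noncomputable def trS (F K : Type*) [Field F] [Field K] [Algebra F K] (a : ℕ) : LinearMap.BilinForm F (Fin a ⊕ Fin a → K) :=
  LinearMap.mk₂ F (fun x y => Algebra.trace F K (Symp.sympBilin a K x y))
    (by intro x y z; rw [map_add, LinearMap.add_apply, map_add])
    (by
      intro c x y
      have e1 : c • x = algebraMap F K c • x := (algebraMap_smul K c x).symm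
      rw [e1, map_smul, LinearMap.smul_apply, smul_eq_mul, ← Algebra.smul_def, map_smul])
    (by intro x y z; rw [map_add, map_add])
    (by
      intro c x y
      have e1 : c • y = algebraMap F K c • y := (algebraMap_smul K c y).symm
      rw [e1, map_smul, smul_eq_mul, ← Algebra.smul_def, map_smul])

theorem trS_apply (a : ℕ) (x y : Fin a ⊕ Fin a → K) :
    trS F K a x y = Algebra.trace F K (Symp.sympBilin a K x y) := rfl

theorem sp_symp (hF : Fintype.card F = q) (hK : Fintype.card K = q ^ 2) (a : ℕ) :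
    ∃ φ : ↥(Matrix.symplecticGroup (Fin a) K) →* ↥(Matrix.symplecticGroup (Fin (2 * a)) F), Function.Injective φ := by
  let ρ : ↥(Matrix.symplecticGroup (Fin a) K) →* Module.End F (Fin a ⊕ Fin a → K) :=
    (mE F K (Fin a ⊕ Fin a)).comp (Matrix.symplecticGroup (Fin a) K).subtype
  refine exists_symp ρ ?_ (trS F K a) ?_ ?_ ?_ ?_
  · intro g h hgh
    apply Subtype.ext
    exact mE_inj hgh
  · have hnd : ∀ x, (∀ y, trS F K a x y = 0) → x = 0 := by
      intro x hx
      apply Symp.sympBilin_nondegenerate.1 x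
      intro y
      apply tr_mul_nd (F := F)
      intro c
      have := hx (c • y)
      rw [trS_apply, map_smul, smul_eq_mul] at this
      exact this
    refine ⟨fun x hx => hnd x hx, fun y hy => hnd y (fun x => ?_)⟩
    have h1 := hy x
    rw [trS_apply, Symp.sympBilin_apply, Symp.sympForm_swap, map_neg, neg_eq_zero] at h1
    rw [trS_apply, Symp.sympBilin_apply]
    exact h1
  · intro x
    rw [trS_apply, Symp.sympBilin_isAlt x, map_zero]
  · intro g x y
    rw [trS_apply, trS_apply]
    have h7 : Symp.sympBilin a K (ρ g x) (ρ g y) = Symp.sympBilin a K x y := BForm.spE_form g x y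
    rw [h7]
  · rw [Module.finrank_pi_fintype, Finset.sum_const, finrank_two hF hK, Finset.card_univ, Fintype.card_sum, Fintype.card_fin, smul_eq_mul]
    ring

end Ext

end Cfsg.Agent.Lib.Emb
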