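import Mathlib
import Cfsg.Agent.Lib.Emb3

/-! The minus form becomes hyperbolic over the quadratic extension. -/

set_option linter.all false
set_option maxHeartbeats 400000

namespace Cfsg.Agent.Lib.Emb

open Module Matrix QuadraticMap

section Ext

variable {F K : Type*} [Field F] [Fintype F] [Field K] [Fintype K] {q : ℕ} [Algebra F K] {σ : K ≃+* K}

theorem quad_ext {ι : Type*} [Fintype ι] [DecidableEq ι] {Q₁ Q₂ : QuadraticForm K (ι → K)}
    (h1 : ∀ i, Q₁ (Pi.single i 1) = Q₂ (Pi.single i 1))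
    (h2 : ∀ i j, polar Q₁ (Pi.single i 1) (Pi.single j 1) = polar Q₂ (Pi.single i 1) (Pi.single j 1)) (w : ι → K) :
    Q₁ w = Q₂ w := by
  have hw : w = ∑ i, w i • (Pi.single i (1 : K) : ι → K) := by
    funext j
    rw [Finset.sum_apply, Finset.sum_eq_single j]
    · rw [Pi.smul_apply, Pi.single_eq_same, smul_eq_mul, mul_one]
    · intro i _ hi
      rw [Pi.smul_apply, Pi.single_eq_of_ne (Ne.symm hi), smul_zero]
    · intro h; exact absurd (Finset.mem_univ _) h
  rw [hw, QuadraticMap.map_sum, QuadraticMap.map_sum]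
  congr 1
  · refine Finset.sum_congr rfl fun i _ => ?_
    rw [QuadraticMap.map_smul, QuadraticMap.map_smul, h1]
  · refine Finset.sum_congr rfl fun ij _ => ?_
    induction ij with
    | _ i j =>
      rw [Sym2.map_mk, polarSym2_sym2Mk, polarSym2_sym2Mk, polar_smul_left, polar_smul_left, polar_smul_right,
        polar_smul_right, h2]

variable {n : ℕ} {a c : F}

theorem qMinus_map (v : (Fin n ⊕ Fin n) ⊕ Fin 2 → F) :
    Orth.qMinus n K (algebraMap F K a) (algebraMap F K c) (fun i => algebraMap F K (v i)) =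
      algebraMap F K (Orth.qMinus n F a c v) := by
  rw [Orth.qMinus_apply, Orth.qMinus_apply]
  unfold Cfsg.quadFormMinus
  simp only [map_add, map_mul, map_pow, map_sum, Function.comp_apply]

theorem polar_qMinus_map (u v : (Fin n ⊕ Fin n) ⊕ Fin 2 → F) :
    polar (Orth.qMinus n K (algebraMap F K a) (algebraMap F K c)) (fun i => algebraMap F K (u i)) (fun i => algebraMap F K (v i)) =
      algebraMap F K (polar (Orth.qMinus n F a c) u v) := by
  unfold polar
  have e : ((fun i => algebraMap F K (u i)) + (fun i => algebraMap F K (v i))) = (fun i => algebraMap F K ((u + v) i)) := by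
    funext i; simp
  rw [e, qMinus_map, qMinus_map, qMinus_map, map_sub, map_sub]

/-- the quadratic form transformed by a matrix -/
theorem map_isom {g : Matrix ((Fin n ⊕ Fin n) ⊕ Fin 2) ((Fin n ⊕ Fin n) ⊕ Fin 2) F}
    (hg : ∀ v, Orth.qMinus n F a c (g *ᵥ v) = Orth.qMinus n F a c v) (w : (Fin n ⊕ Fin n) ⊕ Fin 2 → K) :
    Orth.qMinus n K (algebraMap F K a) (algebraMap F K c) (g.map (algebraMap F K) *ᵥ w) =
      Orth.qMinus n K (algebraMap F K a) (algebraMap F K c) w := by
  have hpol : ∀ u v, polar (Orth.qMinus n F a c) (g *ᵥ u) (g *ᵥ v) = polar (Orth.qMinus n F a c) u v := by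
    intro u v
    unfold polar
    rw [← Matrix.mulVec_add, hg, hg, hg]
  have hs : ∀ i, (fun j => algebraMap F K ((Pi.single i (1 : F) : (Fin n ⊕ Fin n) ⊕ Fin 2 → F) j)) = Pi.single i (1 : K) := by
    intro i
    funext j
    by_cases h : j = i
    · subst h; simp
    · rw [Pi.single_eq_of_ne h, Pi.single_eq_of_ne h, map_zero]
  have hm : ∀ i, g.map (algebraMap F K) *ᵥ (Pi.single i (1 : K)) =
      fun j => algebraMap F K ((g *ᵥ (Pi.single i (1 : F))) j) := by
    intro i
    funext j
    rw [Matrix.mulVec_single_one, Matrix.mulVec_single_one]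
    rfl
  have := quad_ext (Q₁ := (Orth.qMinus n K (algebraMap F K a) (algebraMap F K c)).comp (Matrix.toLin' (g.map (algebraMap F K))))
    (Q₂ := Orth.qMinus n K (algebraMap F K a) (algebraMap F K c)) (by
      intro i
      show Orth.qMinus n K (algebraMap F K a) (algebraMap F K c) (g.map (algebraMap F K) *ᵥ (Pi.single i (1 : K))) = _
      rw [hm, qMinus_map, hg, ← qMinus_map, hs]) (by
      intro i j
      have e : ∀ x y, polar ((Orth.qMinus n K (algebraMap F K a) (algebraMap F K c)).comp (Matrix.toLin' (g.map (algebraMap F K)))) x y =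
        polar (Orth.qMinus n K (algebraMap F K a) (algebraMap F K c)) (g.map (algebraMap F K) *ᵥ x) (g.map (algebraMap F K) *ᵥ y) := by
        intro x y
        unfold polar
        rw [← Matrix.mulVec_add]
        rfl
      rw [e, hm, hm, polar_qMinus_map, hpol, ← polar_qMinus_map, hs, hs]) w
  exact this

theorem exists_split (hF : Fintype.card F = q) (hK : Fintype.card K = q ^ 2)
    (hac : ∀ z₁ z₂ : F, z₁ ^ 2 + a * z₁ * z₂ + c * z₂ ^ 2 = 0 → z₁ = 0 ∧ z₂ = 0) :
    ∃ k : ((Fin n ⊕ Fin n) ⊕ Fin 2 → K) ≃ₗ[K] (Fin (n + 1) ⊕ Fin (n + 1) → K), ∀ x,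
      Cfsg.quadFormPlus (n + 1) K (k x) = Cfsg.quadFormMinus n K (algebraMap F K a) (algebraMap F K c) x := by
  obtain ⟨σ, hσ, hq⟩ := Herm.exists_sigma hK
  obtain ⟨α, h1, h2, h3, hli⟩ := exists_root hF hK hq hac
  let L : ((Fin n ⊕ Fin n) ⊕ Fin 2 → K) →ₗ[K] (Fin (n + 1) ⊕ Fin (n + 1) → K) :=
    { toFun := fun v => Sum.elim (Fin.snoc (α := fun _ => K) (fun i => v (Sum.inl (Sum.inl i))) (v (Sum.inr 0) + α * v (Sum.inr 1)))
        (Fin.snoc (α := fun _ => K) (fun i => v (Sum.inl (Sum.inr i))) (v (Sum.inr 0) + σ α * v (Sum.inr 1)))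
      map_add' := by
        intro x y
        funext i
        rcases i with i | i
        · refine Fin.lastCases ?_ (fun i => ?_) i
          · simp only [Sum.elim_inl, Fin.snoc_last, Pi.add_apply]; ring
          · simp only [Sum.elim_inl, Fin.snoc_castSucc, Pi.add_apply]
        · refine Fin.lastCases ?_ (fun i => ?_) i
          · simp only [Sum.elim_inr, Fin.snoc_last, Pi.add_apply]; ring
          · simp only [Sum.elim_inr, Fin.snoc_castSucc, Pi.add_apply]
      map_smul' := by
        intro c x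
        funext i
        rcases i with i | i
        · refine Fin.lastCases ?_ (fun i => ?_) i
          · simp only [Sum.elim_inl, Fin.snoc_last, Pi.smul_apply, smul_eq_mul, RingHom.id_apply]; ring
          · simp only [Sum.elim_inl, Fin.snoc_castSucc, Pi.smul_apply, smul_eq_mul, RingHom.id_apply]
        · refine Fin.lastCases ?_ (fun i => ?_) i
          · simp only [Sum.elim_inr, Fin.snoc_last, Pi.smul_apply, smul_eq_mul, RingHom.id_apply]; ring
          · simp only [Sum.elim_inr, Fin.snoc_castSucc, Pi.smul_apply, smul_eq_mul, RingHom.id_apply] }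
  have l1 : ∀ v (i : Fin n), L v (Sum.inl (Fin.castSucc i)) = v (Sum.inl (Sum.inl i)) := fun v i => by
    show (Fin.snoc (α := fun _ => K) (fun i => v (Sum.inl (Sum.inl i))) (v (Sum.inr 0) + α * v (Sum.inr 1)) : Fin (n+1) → K) (Fin.castSucc i) = _
    rw [Fin.snoc_castSucc]
  have l2 : ∀ v (i : Fin n), L v (Sum.inr (Fin.castSucc i)) = v (Sum.inl (Sum.inr i)) := fun v i => by
    show (Fin.snoc (α := fun _ => K) (fun i => v (Sum.inl (Sum.inr i))) (v (Sum.inr 0) + σ α * v (Sum.inr 1)) : Fin (n+1) → K) (Fin.castSucc i) = _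
    rw [Fin.snoc_castSucc]
  have l3 : ∀ v, L v (Sum.inl (Fin.last n)) = v (Sum.inr 0) + α * v (Sum.inr 1) := fun v => by
    show (Fin.snoc (α := fun _ => K) (fun i => v (Sum.inl (Sum.inl i))) (v (Sum.inr 0) + α * v (Sum.inr 1)) : Fin (n+1) → K) (Fin.last n) = _
    rw [Fin.snoc_last]
  have l4 : ∀ v, L v (Sum.inr (Fin.last n)) = v (Sum.inr 0) + σ α * v (Sum.inr 1) := fun v => by
    show (Fin.snoc (α := fun _ => K) (fun i => v (Sum.inl (Sum.inr i))) (v (Sum.inr 0) + σ α * v (Sum.inr 1)) : Fin (n+1) → K) (Fin.last n) = _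
    rw [Fin.snoc_last]
  have hL : ∀ v, Cfsg.quadFormPlus (n + 1) K (L v) = Cfsg.quadFormMinus n K (algebraMap F K a) (algebraMap F K c) v := by
    intro v
    unfold Cfsg.quadFormMinus Cfsg.quadFormPlus
    rw [Fin.sum_univ_castSucc]
    simp only [l1, l2, l3, l4, Function.comp_apply]
    linear_combination (v (Sum.inr 0) * v (Sum.inr 1)) * h1 + (v (Sum.inr 1))^2 * h2
  have hLinj : Function.Injective L := by
    rw [← LinearMap.ker_eq_bot, LinearMap.ker_eq_bot']
    intro v hv
    have e3 := congrFun hv (Sum.inl (Fin.last n))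
    have e4 := congrFun hv (Sum.inr (Fin.last n))
    rw [l3] at e3
    rw [l4] at e4
    simp only [Pi.zero_apply] at e3 e4
    have e5 : v (Sum.inr 1) = 0 := by
      have : (σ α - α) * v (Sum.inr 1) = 0 := by linear_combination e4 - e3
      exact (mul_eq_zero.mp this).resolve_left (sub_ne_zero.mpr h3)
    have e6 : v (Sum.inr 0) = 0 := by
      rw [e5, mul_zero, add_zero] at e3
      exact e3
    funext i
    rcases i with (i | i) | i
    · have := congrFun hv (Sum.inl (Fin.castSucc i))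
      rw [l1] at this
      exact this
    · have := congrFun hv (Sum.inr (Fin.castSucc i))
      rw [l2] at this
      exact this
    · fin_cases i
      · exact e6
      · exact e5
  have hfr : finrank K ((Fin n ⊕ Fin n) ⊕ Fin 2 → K) = finrank K (Fin (n + 1) ⊕ Fin (n + 1) → K) := by
    rw [Module.finrank_fintype_fun_eq_card, Module.finrank_fintype_fun_eq_card, Fintype.card_sum, Fintype.card_sum, Fintype.card_fin,
      Fintype.card_fin, Fintype.card_sum, Fintype.card_fin]
    ring
  exact ⟨LinearEquiv.ofInjectiveOfFinrankEq L hLinj hfr, hL⟩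

theorem minus_plus (hF : Fintype.card F = q) (hK : Fintype.card K = q ^ 2)
    (hac : ∀ z₁ z₂ : F, z₁ ^ 2 + a * z₁ * z₂ + c * z₂ ^ 2 = 0 → z₁ = 0 ∧ z₂ = 0) :
    ∃ φ : ↥(Cfsg.isometryGroup F (Cfsg.quadFormMinus n F a c)) →* ↥(Cfsg.isometryGroup K (Cfsg.quadFormPlus (n + 1) K)),
      Function.Injective φ := by
  obtain ⟨k, hk⟩ := exists_split (n := n) (F := F) (K := K) hF hK hac
  let ρ : ↥(Cfsg.isometryGroup F (Cfsg.quadFormMinus n F a c)) →* Module.End K ((Fin n ⊕ Fin n) ⊕ Fin 2 → K) :=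
    (mE K K _).comp ((((algebraMap F K).mapMatrix : Matrix ((Fin n ⊕ Fin n) ⊕ Fin 2) ((Fin n ⊕ Fin n) ⊕ Fin 2) F →+* _) : _ →* _).comp
      ((Units.coeHom (Matrix ((Fin n ⊕ Fin n) ⊕ Fin 2) ((Fin n ⊕ Fin n) ⊕ Fin 2) F)).comp (Cfsg.isometryGroup F (Cfsg.quadFormMinus n F a c)).subtype))
  refine exists_orth ρ ?_ (Cfsg.quadFormMinus n K (algebraMap F K a) (algebraMap F K c)) ?_ _ k hk
  · intro g h hgh
    apply Subtype.ext
    apply Units.ext
    have h1 := mE_inj hgh
    exact (Matrix.map_injective (algebraMap F K).injective) h1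
  · intro g x
    rw [← Orth.coe_qMinus]
    refine map_isom (fun v => ?_) x
    rw [Orth.coe_qMinus]
    exact g.2 v v

end Ext

end Cfsg.Agent.Lib.Emb
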