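import Mathlib
import Cfsg.Agent.Lib.FFJ

/-! Failure of factorization, part M: coprime operators on the structure. -/

namespace Cfsg.Agent.Lib.FFM

open Subgroup Cfsg.Agent.Lib Cfsg.Agent.Lib.Basic Cfsg.Agent.Lib.Cores Cfsg.Agent.Lib.Coprime
  Cfsg.Agent.Lib.CoprimeB Cfsg.Agent.Lib.ThompsonJ Cfsg.Agent.Lib.Quadratic Cfsg.Agent.Lib.QuadA
  Cfsg.Agent.Lib.QuadB Cfsg.Agent.Lib.PNilp Cfsg.Agent.Lib.FFA Cfsg.Agent.Lib.FFB Cfsg.Agent.Lib.FFC
  Cfsg.Agent.Lib.FFD Cfsg.Agent.Lib.FFE Cfsg.Agent.Lib.FFF Cfsg.Agent.Lib.FFG Cfsg.Agent.Lib.FFH Cfsg.Agent.Lib.FFI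
  Cfsg.Agent.Lib.FFJ

open scoped commutatorElement Pointwise

universe u
variable {G : Type u} [Group G] {p : ℕ} {V H : Subgroup G}

/-- a group of order prime to 6 acts trivially on a plane, `p ≤ 3` -/
theorem centralizes_plane [Finite G] [hp : Fact p.Prime] {W Y : Subgroup G} (hW : Cfsg.IsElementaryAbelian p W)
    (hcard : Nat.card W = p ^ 2) (hp23 : p = 2 ∨ p = 3) (hY : Y ≤ normalizer (W : Set G)) (hc : (Nat.card Y).Coprime 6) :
    Y ≤ centralizer (W : Set G) := by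
  have h1 : 1 < Nat.card W := by rw [hcard]; exact Nat.one_lt_pow two_ne_zero hp.out.one_lt
  have hWb : W ≠ ⊥ := by
    rintro rfl; rw [card_bot] at h1; omega
  obtain ⟨u, hu, hu1⟩ := (bot_or_exists_ne_one W).resolve_left hWb
  have hlt : zpowers u < W := by
    refine lt_of_le_of_ne (zpowers_le.mpr hu) fun e => ?_
    have h2 : Nat.card (zpowers u) ≤ p := by
      rw [Nat.card_zpowers]; exact orderOf_le_of_pow_eq_one hp.out.pos ((ea_iff.mp hW).2 u hu)
    rw [e, hcard, sq] at h2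
    have := hp.out.two_le
    have h3 : p * 2 ≤ p * p := Nat.mul_le_mul_left _ this
    omega
  obtain ⟨v, hv, hvu⟩ := SetLike.exists_of_lt hlt
  obtain ⟨M, hM, -⟩ := PlaneA.exists_rep hW hcard hu hv hu1 hvu hY
  let f : Y →* GL (Fin 2) (ZMod p) := M.toHomUnits
  have h2 : Nat.card f.range ∣ Nat.card (GL (Fin 2) (ZMod p)) := card_subgroup_dvd_card _
  have h3 : Nat.card f.range ∣ Nat.card Y := card_range_dvd f
  have h4 : Nat.card f.range ∣ 48 := by
    refine h2.trans ?_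
    rw [SL2.card_GL2', ZMod.card]
    rcases hp23 with rfl | rfl <;> norm_num
  have h5 : Nat.card f.range = 1 := by
    have h6 : (Nat.card f.range).Coprime 48 := by
      have h7 : (Nat.card Y).Coprime (2 * 3) := hc
      have h8 := Nat.Coprime.coprime_mul_right_right h7
      have h9 := Nat.Coprime.coprime_mul_left_right h7
      have h10 : (Nat.card Y).Coprime (2 ^ 4 * 3) := Nat.Coprime.mul_right (Nat.Coprime.pow_right 4 h8) h9
      exact Nat.Coprime.coprime_dvd_left h3 (by simpa using h10)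
    exact Nat.Coprime.eq_one_of_dvd h6 h4
  intro y hy
  refine hM ⟨y, hy⟩ ?_
  have h6 : f ⟨y, hy⟩ ∈ f.range := ⟨_, rfl⟩
  rw [card_eq_one.mp h5, mem_bot] at h6
  exact congrArg Units.val h6

/-- the diagonal element -/
theorem diag {ι : Type*} [Fintype ι] [DecidableEq ι] (f : ι → G) (hc : ∀ i j, f i * f j = f j * f i) (X : Subgroup G)
    (hσ : ∀ z ∈ X, ∃ σ : Equiv.Perm ι, ∀ i, z * f i * z⁻¹ = f (σ i)) (i₀ : ι) :
    ∃ δ ∈ centralizer (X : Set G), δ ∈ closure (Set.range f) ∧ ∃ m ∈ closure (f '' {i | i ≠ i₀}), δ = f i₀ * m := by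
  letI : CommGroup (closure (Set.range f)) := closureCommGroupOfComm (by
    rintro _ ⟨i, rfl⟩ _ ⟨j, rfl⟩; exact hc i j)
  let g : ι → closure (Set.range f) := fun i => ⟨f i, subset_closure ⟨i, rfl⟩⟩
  refine ⟨((∏ i, g i : closure (Set.range f)) : G), ?_, (∏ i, g i : closure (Set.range f)).2, ?_⟩
  · refine mem_centralizer_iff.mpr fun z hz => ?_
    obtain ⟨σ, hσ'⟩ := hσ z hz
    have hz : ∀ a ∈ closure (Set.range f), z * a * z⁻¹ ∈ closure (Set.range f) := by
      intro a ha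
      have : (closure (Set.range f)).map (MulAut.conj z).toMonoidHom ≤ closure (Set.range f) := by
        rw [MonoidHom.map_closure, Subgroup.closure_le]
        rintro _ ⟨_, ⟨i, rfl⟩, rfl⟩
        change z * f i * z⁻¹ ∈ _
        rw [hσ']; exact subset_closure ⟨_, rfl⟩
      exact this ⟨a, ha, rfl⟩
    let ψ : closure (Set.range f) →* closure (Set.range f) :=
      { toFun := fun a => ⟨z * a * z⁻¹, hz a a.2⟩
        map_one' := Subtype.ext (by simp)
        map_mul' := fun a b => Subtype.ext (by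
          change z * (a * b : G) * z⁻¹ = (z * a * z⁻¹) * (z * b * z⁻¹)
          group) }
    have h1 : ψ (∏ i, g i) = ∏ i, g i := by
      rw [map_prod]
      have : ∀ i, ψ (g i) = g (σ i) := fun i => Subtype.ext (hσ' i)
      simp_rw [this]
      exact Equiv.prod_comp σ g
    have h2 : z * ((∏ i, g i : closure (Set.range f)) : G) * z⁻¹ = ((∏ i, g i : closure (Set.range f)) : G) := congrArg Subtype.val h1
    rw [mul_inv_eq_iff_eq_mul] at h2
    exact h2
  · have h1 : (∏ i, g i) = g i₀ * ∏ i ∈ Finset.univ.erase i₀, g i := (Finset.mul_prod_erase _ _ (Finset.mem_univ i₀)).symm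
    refine ⟨((∏ i ∈ Finset.univ.erase i₀, g i : closure (Set.range f)) : G), ?_, ?_⟩
    · have h2 : (∏ i ∈ Finset.univ.erase i₀, g i) ∈ (closure (f '' {i | i ≠ i₀})).subgroupOf (closure (Set.range f)) := by
        refine Subgroup.prod_mem _ fun i hi => ?_
        exact mem_subgroupOf.mpr (subset_closure ⟨i, Finset.ne_of_mem_erase hi, rfl⟩)
      exact mem_subgroupOf.mp h2
    · rw [h1]; rfl

/-- the diagonal element along an orbit of subgroups -/
theorem orbit_diag [Finite G] {X E : Subgroup G} {a : G} (hstab : ∀ x ∈ X, MulAut.conj x • E = E → x * a * x⁻¹ = a)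
    (hcomm : ∀ x ∈ X, ∀ y ∈ X, MulAut.conj x • E ≠ MulAut.conj y • E → (x * a * x⁻¹) * (y * a * y⁻¹) = (y * a * y⁻¹) * (x * a * x⁻¹)) :
    ∃ δ ∈ centralizer (X : Set G), δ ∈ closure {g : G | ∃ x ∈ X, g = x * a * x⁻¹} ∧
      ∃ m ∈ closure {g : G | ∃ x ∈ X, MulAut.conj x • E ≠ E ∧ g = x * a * x⁻¹}, δ = a * m := by
  classical
  let ι := {E' : Subgroup G // ∃ x ∈ X, MulAut.conj x • E = E'}
  haveI : Fintype ι := Fintype.ofFinite ι
  choose xf hxf hxE using fun i : ι => i.2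
  let f : ι → G := fun i => xf i * a * (xf i)⁻¹
  -- independence of the choice
  have hind : ∀ x ∈ X, ∀ i : ι, MulAut.conj x • E = (i : Subgroup G) → x * a * x⁻¹ = f i := by
    intro x hx i hi
    have h1 : MulAut.conj ((xf i)⁻¹ * x) • E = E := by
      rw [map_mul, mul_smul, hi, map_inv, inv_smul_eq_iff, hxE]
    have h2 := hstab _ (mul_mem (inv_mem (hxf i)) hx) h1
    have h3 : x * a * x⁻¹ = xf i * (((xf i)⁻¹ * x) * a * ((xf i)⁻¹ * x)⁻¹) * (xf i)⁻¹ := by group
    rw [h3, h2]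
  let i₀ : ι := ⟨E, 1, X.one_mem, by rw [map_one, one_smul]⟩
  have hi₀ : f i₀ = a := by
    have := hind 1 X.one_mem i₀ (by rw [map_one, one_smul])
    rw [← this]; group
  have hc : ∀ i j, f i * f j = f j * f i := by
    intro i j
    by_cases hij : (i : Subgroup G) = (j : Subgroup G)
    · rw [Subtype.ext hij]
    · exact hcomm _ (hxf i) _ (hxf j) (by rw [hxE, hxE]; exact hij)
  obtain ⟨δ, hδ1, hδ2, m, hm, hδ3⟩ := diag f hc X (by
    intro z hz
    refine ⟨⟨fun i => ⟨MulAut.conj z • (i : Subgroup G), z * xf i, mul_mem hz (hxf i), by rw [map_mul, mul_smul, hxE]⟩,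
      fun i => ⟨MulAut.conj z⁻¹ • (i : Subgroup G), z⁻¹ * xf i, mul_mem (inv_mem hz) (hxf i), by rw [map_mul, mul_smul, hxE]⟩,
      ?_, ?_⟩, ?_⟩
    · intro i; apply Subtype.ext; simp [map_inv]
    · intro i; apply Subtype.ext; simp [map_inv]
    · intro i
      change z * (xf i * a * (xf i)⁻¹) * z⁻¹ = _
      have h1 : z * (xf i * a * (xf i)⁻¹) * z⁻¹ = (z * xf i) * a * (z * xf i)⁻¹ := by group
      rw [h1]
      exact hind _ (mul_mem hz (hxf i)) _ (by rw [map_mul, mul_smul, hxE]; rfl)) i₀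
  refine ⟨δ, hδ1, ?_, m, ?_, by rw [hδ3, hi₀]⟩
  · refine closure_mono ?_ hδ2
    rintro _ ⟨i, rfl⟩
    exact ⟨xf i, hxf i, rfl⟩
  · refine closure_mono ?_ hm
    rintro _ ⟨i, hi, rfl⟩
    refine ⟨xf i, hxf i, ?_, rfl⟩
    rw [hxE]
    intro h
    exact hi (Subtype.ext h)

/-- the standing assumptions on the operator group -/
structure Op (p : ℕ) (V H X : Subgroup G) : Prop where
  hXV : X ≤ normalizer (V : Set G)
  hXH : X ≤ normalizer (H : Set G)
  hc : (Nat.card X).Coprime (Nat.card H)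

variable {X : Subgroup G}

theorem Op.smul_V (hX : Op p V H X) {x : G} (hx : x ∈ X) : MulAut.conj x • V = V :=
  conj_smul_eq_of_mem_normalizer (hX.hXV hx)

theorem Op.smul_H (hX : Op p V H X) {x : G} (hx : x ∈ X) : MulAut.conj x • H = H :=
  conj_smul_eq_of_mem_normalizer (hX.hXH hx)

theorem le_KK {N : Subgroup G} (hNH : N ≤ H) (hn : H ≤ normalizer (N : Set G)) (hc : (Nat.card N).Coprime p) : N ≤ KK p H := by
  have h1 : (N.subgroupOf H).Normal := (normal_subgroupOf_iff_le_normalizer hNH).mpr hn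
  have h2 : (Nat.card (N.subgroupOf H)).Coprime p := by
    rwa [Nat.card_congr (subgroupOfEquivOfLe hNH).toEquiv]
  have h3 := le_pPrimeCore h1 h2
  intro x hx
  exact ⟨⟨x, hNH hx⟩, h3 (mem_subgroupOf.mpr hx), rfl⟩

theorem smul_le_smul_normalizer {x : G} {A B : Subgroup G} (h : A ≤ normalizer (B : Set G)) :
    MulAut.conj x • A ≤ normalizer ((MulAut.conj x • B : Subgroup G) : Set G) := by
  rintro _ ⟨a, ha, rfl⟩
  have h1 := mem_normalizer_iff_conj_smul_eq.mp (h ha)
  rw [mem_normalizer_iff_conj_smul_eq]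
  change MulAut.conj (x * a * x⁻¹) • MulAut.conj x • B = _
  rw [← mul_smul, ← map_mul]
  have : x * a * x⁻¹ * x = x * a := by group
  rw [this, map_mul, mul_smul, h1]

theorem Op.smul_KK [Finite G] (hX : Op p V H X) {x : G} (hx : x ∈ X) : MulAut.conj x • KK p H = KK p H := by
  have hH := hX.smul_H hx
  have h1 : MulAut.conj x • KK p H ≤ KK p H := by
    refine le_KK ?_ ?_ ?_
    · conv_rhs => rw [← hH]
      exact pointwise_smul_le_pointwise_smul_iff.mpr KK_le
    · have := smul_le_smul_normalizer (x := x) (KK_normal (p := p) (H := H))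
      rwa [hH] at this
    · rw [card_smul]; exact KK_coprime
  exact eq_of_le_of_card_ge h1 (by rw [card_smul])

theorem Op.smul_EE [Finite G] (hX : Op p V H X) {x : G} (hx : x ∈ X) (A : Subgroup G) :
    MulAut.conj x • EE p H A = EE p H (MulAut.conj x • A) := by
  unfold EE; rw [smul_sup, smul_commutator, hX.smul_KK hx]

theorem Op.minOff [Finite G] (hX : Op p V H X) {x : G} (hx : x ∈ X) {A : Subgroup G} (hAH : A ≤ H) (hA : MinOff p V A) :
    MulAut.conj x • A ≤ H ∧ MinOff p V (MulAut.conj x • A) := by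
  refine ⟨?_, minOff_smul (hX.hXV hx) hA⟩
  conv_rhs => rw [← hX.smul_H hx]
  exact pointwise_smul_le_pointwise_smul_iff.mpr hAH

theorem Op.smul_W [Finite G] (hX : Op p V H X) {x : G} (hx : x ∈ X) (E : Subgroup G) :
    MulAut.conj x • ⁅V, E⁆ = ⁅V, MulAut.conj x • E⁆ := by
  rw [smul_commutator, hX.smul_V hx]

/-- the order of `X` is prime to 6 -/
theorem Op.coprime_six [Finite G] [hp : Fact p.Prime] (h : FF p V H) (hX : Op p V H X) {A : Subgroup G} (hAH : A ≤ H)
    (hA : MinOff p V A) : (Nat.card X).Coprime 6 := by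
  obtain ⟨e⟩ := h.sl hAH hA
  have h1 : Nat.card (EE p H A) = p * (p ^ 2 - 1) := by
    rw [Nat.card_congr e.toEquiv, SL2.card_SL2_eq, ZMod.card]
  have h2 : 6 ∣ Nat.card (EE p H A) := by
    rw [h1]
    rcases (h.dat hAH hA).1 with rfl | rfl <;> norm_num
  exact Nat.Coprime.coprime_dvd_right (h2.trans (card_dvd_of_le (EE_le hAH))) hX.hc

/-- stabilizers centralize -/
theorem Op.stab [Finite G] [hp : Fact p.Prime] (h : FF p V H) (hX : Op p V H X) {A : Subgroup G} (hAH : A ≤ H)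
    (hA : MinOff p V A) {x : G} (hx : x ∈ X) (hxE : MulAut.conj x • EE p H A = EE p H A) :
    x ∈ centralizer ((⁅V, EE p H A⁆ : Subgroup G) : Set G) ∧ x ∈ centralizer (EE p H A : Set G) := by
  have hd := (h.dat hAH hA).2
  set E := EE p H A with hE
  set Y := X ⊓ normalizer (E : Set G) with hY
  have hxY : x ∈ Y := mem_inf.mpr ⟨hx, mem_normalizer_iff_conj_smul_eq.mpr hxE⟩
  have hYV : Y ≤ normalizer (V : Set G) := inf_le_left.trans hX.hXV
  have hYE : Y ≤ normalizer (E : Set G) := inf_le_right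
  have hYW : Y ≤ normalizer ((⁅V, E⁆ : Subgroup G) : Set G) := CoprimeB.le_normalizer_commutator hYV hYE
  have hYc : (Nat.card Y).Coprime 6 := Nat.Coprime.coprime_dvd_left (card_dvd_of_le inf_le_left) (hX.coprime_six h hAH hA)
  have hWV : ⁅V, E⁆ ≤ V := commutator_le_of_normalizes ((EE_le hAH).trans h.hHV)
  have h1 : Y ≤ centralizer ((⁅V, E⁆ : Subgroup G) : Set G) :=
    centralizes_plane (ea_mono h.hV hWV) hd.card (h.dat hAH hA).1 hYW hYc
  have h2 : ⁅⁅Y, ⁅V, E⁆⁆, E⁆ = ⊥ := by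
    rw [commutator_eq_bot_iff_le_centralizer.mpr h1, commutator_bot_left]
  have h3 : ⁅⁅⁅V, E⁆, E⁆, Y⁆ = ⊥ := by
    rw [eq_bot_iff]
    refine (commutator_mono (commutator_mono hWV le_rfl) le_rfl).trans ?_
    rw [commutator_comm, commutator_eq_bot_iff_le_centralizer.mpr h1]
  have h4 := three_subgroups h2 h3
  have h5 : ⁅E, Y⁆ = ⊥ := by
    rw [eq_bot_iff, ← hd.faith]
    exact le_inf (commutator_le_of_normalizes hYE) (commutator_eq_bot_iff_le_centralizer.mp h4)
  refine ⟨h1 hxY, ?_⟩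
  rw [commutator_eq_bot_iff_le_centralizer, le_centralizer_iff] at h5
  exact h5 hxY

/-- `E = [E,P]P` for conjugates `P` of `A` -/
theorem EE_eq_sup [Finite G] [hp : Fact p.Prime] (h : FF p V H) {A : Subgroup G} (hAH : A ≤ H) (hA : MinOff p V A) {e : G}
    (he : e ∈ EE p H A) : EE p H A = ⁅EE p H A, MulAut.conj e • A⁆ ⊔ MulAut.conj e • A := by
  have hea := h.ea hAH hA.1
  have hcop : (Nat.card A).Coprime (Nat.card (KK p H)) := by
    obtain ⟨n, hn⟩ := card_dvd_of_ea hea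
    rw [hn]; exact Nat.Coprime.pow_left _ (Nat.Coprime.symm KK_coprime)
  have h1 : ⁅⁅KK p H, A⁆, A⁆ = ⁅KK p H, A⁆ := Coprime.commutator_commutator_eq (hAH.trans KK_normal) hcop
    (Or.inl (isSolvable_of_isPGroup (QuadC.isPGroup_of_ea hea)))
  have hAE : A ≤ EE p H A := le_sup_right
  have hDE : ⁅KK p H, A⁆ ≤ EE p H A := le_sup_left
  have h2 : EE p H A = ⁅EE p H A, A⁆ ⊔ A := by
    apply le_antisymm
    · refine sup_le ?_ le_sup_right
      calc ⁅KK p H, A⁆ = ⁅⁅KK p H, A⁆, A⁆ := h1.symm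
        _ ≤ ⁅EE p H A, A⁆ := commutator_mono hDE le_rfl
        _ ≤ _ := le_sup_left
    · exact sup_le ((commutator_mono le_rfl hAE).trans (commutator_le_of_normalizes le_normalizer)) hAE
  have h3 : MulAut.conj e • EE p H A = EE p H A := conj_smul_eq_of_mem_normalizer (le_normalizer he)
  have h4 := congrArg (MulAut.conj e • ·) h2
  change MulAut.conj e • EE p H A = MulAut.conj e • (⁅EE p H A, A⁆ ⊔ A) at h4
  rw [smul_sup, smul_commutator, h3] at h4
  exact h4

/-- the diagonal element of `e ∈ E` -/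
theorem Op.diagE [Finite G] [hp : Fact p.Prime] (h : FF p V H)
    (hX : Op p V H X) {A : Subgroup G} (hAH : A ≤ H) (hA : MinOff p V A) {e : G} (he : e ∈ EE p H A) :
    ∃ δ ∈ centralizer (X : Set G), δ ∈ (⨆ x : X, MulAut.conj (x : G) • EE p H A) ∧
      ∃ m ∈ centralizer (EE p H A : Set G), m ∈ centralizer ((⁅V, EE p H A⁆ : Subgroup G) : Set G) ∧ δ = e * m := by
  have hmem : ∀ x ∈ X, x * e * x⁻¹ ∈ MulAut.conj x • EE p H A := fun x _ => smul_mem_pointwise_smul e (MulAut.conj x) _ he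
  obtain ⟨δ, h1, h2, m, h3, h4⟩ := orbit_diag (X := X) (E := EE p H A) (a := e)
    (fun x hx hxE => by
      have := mem_centralizer_iff.mp (hX.stab h hAH hA hx hxE).2 e he
      rw [← this]; group)
    (fun x hx y hy hne => by
      obtain ⟨ax, mx⟩ := hX.minOff hx hAH hA
      obtain ⟨ay, my⟩ := hX.minOff hy hAH hA
      have hc := (h.commute ax mx ay my (by rw [← hX.smul_EE hx, ← hX.smul_EE hy]; exact hne)).2.2.1
      have h1 := commutator_mem_commutator (H₁ := EE p H (MulAut.conj x • A)) (H₂ := EE p H (MulAut.conj y • A))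
        (by rw [← hX.smul_EE hx]; exact hmem x hx) (by rw [← hX.smul_EE hy]; exact hmem y hy)
      rw [hc, mem_bot, commutatorElement_eq_one_iff_mul_comm] at h1
      exact h1)
  refine ⟨δ, h1, ?_, m, ?_, ?_, h4⟩
  · refine (Subgroup.closure_le _).mpr ?_ h2
    rintro _ ⟨x, hx, rfl⟩
    exact (le_iSup (fun x : X => MulAut.conj (x : G) • EE p H A) ⟨x, hx⟩) (hmem x hx)
  · refine (Subgroup.closure_le _).mpr ?_ h3
    rintro _ ⟨x, hx, hne, rfl⟩
    obtain ⟨ax, mx⟩ := hX.minOff hx hAH hA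
    have hc := (h.commute ax mx hAH hA (by rw [← hX.smul_EE hx]; exact hne)).2.2.1
    exact (commutator_eq_bot_iff_le_centralizer.mp hc) (by rw [← hX.smul_EE hx]; exact hmem x hx)
  · refine (Subgroup.closure_le _).mpr ?_ h3
    rintro _ ⟨x, hx, hne, rfl⟩
    obtain ⟨ax, mx⟩ := hX.minOff hx hAH hA
    have hc := (h.commute hAH hA ax mx (by rw [← hX.smul_EE hx]; exact hne.symm)).2.1
    exact (le_centralizer_iff.mp (commutator_eq_bot_iff_le_centralizer.mp hc)) (by rw [← hX.smul_EE hx]; exact hmem x hx)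

/-- generation -/
theorem Op.gen [Finite G] [hp : Fact p.Prime] (h : FF p V H)
    (hS3 : H = ⨆ A : {A : Subgroup G // A ≤ H ∧ Cfsg.IsBestOffenderOn p V A}, (A : Subgroup G))
    (hX : Op p V H X) {T : Subgroup G} (hT1 : ∀ A : Subgroup G, A ≤ H → MinOff p V A → ∃ e ∈ EE p H A, MulAut.conj e • A ≤ T)
    (hT2 : H ⊓ centralizer (X : Set G) ≤ T) : H ≤ T := by
  rw [← h.sSup_fam hS3]
  refine sSup_le ?_
  rintro _ ⟨A, hAH, hA, rfl⟩
  obtain ⟨e, he, heT⟩ := hT1 A hAH hA
  rw [EE_eq_sup h hAH hA he]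
  refine sup_le ?_ heT
  rw [commutator_le]
  intro e' he' s hs
  have hsE : s ∈ EE p H A := by
    have h1 : MulAut.conj e • A ≤ EE p H A := by
      have h3 : MulAut.conj e • EE p H A = EE p H A := conj_smul_eq_of_mem_normalizer (le_normalizer he)
      conv_rhs => rw [← h3]
      exact pointwise_smul_le_pointwise_smul_iff.mpr le_sup_right
    exact h1 hs
  obtain ⟨δ, hδ1, hδ2, m, hm1, -, hδ3⟩ := hX.diagE h hAH hA he'
  have hδT : δ ∈ T := by
    refine hT2 (mem_inf.mpr ⟨?_, hδ1⟩)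
    refine (iSup_le fun x : X => ?_ : (⨆ x : X, MulAut.conj (x : G) • EE p H A) ≤ H) hδ2
    rw [hX.smul_EE x.2]
    exact EE_le (hX.minOff x.2 hAH hA).1
  have h1 : ⁅e', s⁆ = ⁅δ, s⁆ := by
    have hms : s * m = m * s := mem_centralizer_iff.mp hm1 s hsE
    rw [hδ3, _root_.commutatorElement_def, _root_.commutatorElement_def]
    calc e' * s * e'⁻¹ * s⁻¹ = e' * (s * m) * m⁻¹ * e'⁻¹ * s⁻¹ := by group
      _ = e' * (m * s) * m⁻¹ * e'⁻¹ * s⁻¹ := by rw [hms]
      _ = _ := by group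
  rw [h1, _root_.commutatorElement_def]
  exact T.mul_mem (T.mul_mem (T.mul_mem hδT (heT hs)) (T.inv_mem hδT)) (T.inv_mem (heT hs))

end Cfsg.Agent.Lib.FFM
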