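import Mathlib
import Cfsg.Agent.Lib.FFM

/-! Failure of factorization, part N: the diagonal plane. -/

namespace Cfsg.Agent.Lib.FFN

open Subgroup Cfsg.Agent.Lib Cfsg.Agent.Lib.Basic Cfsg.Agent.Lib.Cores Cfsg.Agent.Lib.Coprime
  Cfsg.Agent.Lib.CoprimeB Cfsg.Agent.Lib.ThompsonJ Cfsg.Agent.Lib.Quadratic Cfsg.Agent.Lib.QuadA
  Cfsg.Agent.Lib.QuadB Cfsg.Agent.Lib.PNilp Cfsg.Agent.Lib.FFA Cfsg.Agent.Lib.FFB Cfsg.Agent.Lib.FFC
  Cfsg.Agent.Lib.FFD Cfsg.Agent.Lib.FFE Cfsg.Agent.Lib.FFF Cfsg.Agent.Lib.FFG Cfsg.Agent.Lib.FFH Cfsg.Agent.Lib.FFI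
  Cfsg.Agent.Lib.FFJ Cfsg.Agent.Lib.FFM

open scoped commutatorElement Pointwise

universe u v
variable {G : Type u} [Group G] {p : ℕ} {V H X : Subgroup G}

/-- the orbit sum of planes -/
def V0 (p : ℕ) (V H X A : Subgroup G) : Subgroup G := ⨆ x : X, MulAut.conj (x : G) • ⁅V, EE p H A⁆

/-- the diagonal plane -/
def WW (p : ℕ) (V H X A : Subgroup G) : Subgroup G := V0 p V H X A ⊓ centralizer (X : Set G)

/-- the orbit product -/
def NN (p : ℕ) (H X A : Subgroup G) : Subgroup G := ⨆ x : X, MulAut.conj (x : G) • EE p H A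

/-- the other planes -/
def M0 (p : ℕ) (V H X A : Subgroup G) : Subgroup G :=
  ⨆ x : {x : X // MulAut.conj (x : G) • EE p H A ≠ EE p H A}, MulAut.conj ((x : X) : G) • ⁅V, EE p H A⁆

variable [Finite G] [hp : Fact p.Prime] {A : Subgroup G}

section
variable (h : FF p V H) (hX : Op p V H X) (hAH : A ≤ H) (hA : MinOff p V A)
include h hX hAH hA

omit hp in
omit hX hA in
theorem W_le : ⁅V, EE p H A⁆ ≤ V := commutator_le_of_normalizes ((EE_le hAH).trans h.hHV)

theorem smulW {x : G} (hx : x ∈ X) : MulAut.conj x • ⁅V, EE p H A⁆ = ⁅V, EE p H (MulAut.conj x • A)⁆ := by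
  rw [hX.smul_W hx, hX.smul_EE hx]

theorem V0_eq : V0 p V H X A = ⁅V, EE p H A⁆ ⊔ M0 p V H X A := by
  apply le_antisymm
  · refine iSup_le fun x => ?_
    by_cases hxE : MulAut.conj (x : G) • EE p H A = EE p H A
    · rw [hX.smul_W x.2, hxE]; exact le_sup_left
    · exact le_sup_of_le_right (le_iSup (fun x : {x : X // MulAut.conj (x : G) • EE p H A ≠ EE p H A} => MulAut.conj ((x : X) : G) • ⁅V, EE p H A⁆) ⟨x, hxE⟩)
  · refine sup_le ?_ (iSup_le fun x => ?_)
    · have := le_iSup (fun x : X => MulAut.conj (x : G) • ⁅V, EE p H A⁆) 1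
      rwa [show ((1 : X) : G) = 1 from rfl, map_one, one_smul] at this
    · exact le_iSup (fun x : X => MulAut.conj (x : G) • ⁅V, EE p H A⁆) x.1

theorem V0_le : V0 p V H X A ≤ V := by
  refine iSup_le fun x => ?_
  rw [smulW h hX hAH hA x.2]
  exact commutator_le_of_normalizes ((EE_le (hX.minOff x.2 hAH hA).1).trans h.hHV)

theorem M0_le : M0 p V H X A ≤ V := le_trans (by rw [V0_eq h hX hAH hA]; exact le_sup_right) (V0_le h hX hAH hA)

theorem cent_M0 : M0 p V H X A ≤ centralizer (EE p H A : Set G) := by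
  refine iSup_le fun x => ?_
  obtain ⟨ax, mx⟩ := hX.minOff x.1.2 hAH hA
  rw [smulW h hX hAH hA x.1.2]
  exact commutator_eq_bot_iff_le_centralizer.mp (h.commute ax mx hAH hA (by rw [← hX.smul_EE x.1.2]; exact x.2)).2.1

theorem W_inf_M0 : ⁅V, EE p H A⁆ ⊓ M0 p V H X A = ⊥ := by
  have hd := (h.dat hAH hA).2
  have h1 := hd.irr.cent
  rw [hd.dW] at h1
  rw [eq_bot_iff, ← h1]
  exact le_inf inf_le_left (inf_le_right.trans ((cent_M0 h hX hAH hA).trans (centralizer_le (show DD p H A ≤ EE p H A from le_sup_left))))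

theorem WW_inf_M0 : WW p V H X A ⊓ M0 p V H X A = ⊥ := by
  set R := ⨆ x : X, MulAut.conj (x : G) • DD p H A with hR
  have hDx : ∀ x : X, MulAut.conj (x : G) • DD p H A = DD p H (MulAut.conj (x : G) • A) := by
    intro x; unfold DD; rw [smul_commutator, hX.smul_KK x.2]
  have hRK : R ≤ KK p H := iSup_le fun x => by rw [hDx]; exact DD_le (hX.minOff x.2 hAH hA).1
  have hRV : R ≤ normalizer (V : Set G) := (hRK.trans KK_le).trans h.hHV
  have hcop : (Nat.card R).Coprime (Nat.card V) := by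
    obtain ⟨n, hn⟩ := card_dvd_of_ea h.hV
    rw [hn]; exact Nat.Coprime.pow_right _ (Nat.Coprime.coprime_dvd_left (card_dvd_of_le hRK) KK_coprime)
  have h1 := abelian_inf_eq_bot h.hV.1 hRV hcop
  rw [eq_bot_iff, ← h1]
  intro v hv
  obtain ⟨hvW, hvM⟩ := mem_inf.mp hv
  obtain ⟨hv0, hvX⟩ := mem_inf.mp hvW
  refine mem_inf.mpr ⟨mem_inf.mpr ⟨V0_le h hX hAH hA hv0, ?_⟩, ?_⟩
  · have h2 : R ≤ centralizer ({v} : Set G) := by
      refine iSup_le fun x => ?_
      rintro _ ⟨d, hd, rfl⟩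
      change (x : G) * d * (x : G)⁻¹ ∈ _
      have hdv : d * v = v * d := mem_centralizer_iff.mp (cent_M0 h hX hAH hA hvM) d (mem_sup_left hd)
      have hxv : (x : G) * v = v * x := mem_centralizer_iff.mp hvX x x.2
      rw [mem_centralizer_singleton_iff]
      have hxv' : (x : G)⁻¹ * v = v * (x : G)⁻¹ := ((show Commute (x : G) v from hxv).inv_left).eq
      calc (x : G) * d * (x : G)⁻¹ * v = (x : G) * d * ((x : G)⁻¹ * v) := by group
        _ = (x : G) * (d * v) * (x : G)⁻¹ := by rw [hxv']; group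
        _ = ((x : G) * v) * d * (x : G)⁻¹ := by rw [hdv]; group
        _ = v * ((x : G) * d * (x : G)⁻¹) := by rw [hxv]; group
    exact mem_centralizer_iff.mpr fun y hy => (mem_centralizer_singleton_iff.mp (h2 hy))
  · have h2 : V0 p V H X A ≤ ⁅V, R⁆ := by
      refine iSup_le fun x => ?_
      obtain ⟨ax, mx⟩ := hX.minOff x.2 hAH hA
      rw [smulW h hX hAH hA x.2, ← (h.dat ax mx).2.dW, ← hDx]
      exact commutator_mono le_rfl (le_iSup (fun x : X => MulAut.conj (x : G) • DD p H A) x)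
    exact h2 hv0

theorem exists_diag {w : G} (hw : w ∈ ⁅V, EE p H A⁆) : ∃ m ∈ M0 p V H X A, w * m ∈ WW p V H X A := by
  have hWV := W_le h hAH (p := p)
  have hmem : ∀ x ∈ X, x * w * x⁻¹ ∈ MulAut.conj x • ⁅V, EE p H A⁆ := fun x _ => smul_mem_pointwise_smul w (MulAut.conj x) _ hw
  have hmemV : ∀ x ∈ X, x * w * x⁻¹ ∈ V := fun x hx => (mem_normalizer_iff.mp (hX.hXV hx) w).mp (hWV hw)
  obtain ⟨δ, h1, h2, m, h3, h4⟩ := orbit_diag (X := X) (E := EE p H A) (a := w)
    (fun x hx hxE => by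
      have := mem_centralizer_iff.mp (hX.stab h hAH hA hx hxE).1 w hw
      rw [← this]; group)
    (fun x hx y hy hne => (ea_iff.mp h.hV).1 _ (hmemV x hx) _ (hmemV y hy))
  refine ⟨m, ?_, ?_⟩
  · refine (Subgroup.closure_le _).mpr ?_ h3
    rintro _ ⟨x, hx, hne, rfl⟩
    exact (le_iSup (fun x : {x : X // MulAut.conj (x : G) • EE p H A ≠ EE p H A} => MulAut.conj ((x : X) : G) • ⁅V, EE p H A⁆) ⟨⟨x, hx⟩, hne⟩) (hmem x hx)
  · rw [← h4]
    refine mem_inf.mpr ⟨?_, h1⟩
    refine (Subgroup.closure_le _).mpr ?_ h2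
    rintro _ ⟨x, hx, rfl⟩
    exact (le_iSup (fun x : X => MulAut.conj (x : G) • ⁅V, EE p H A⁆) ⟨x, hx⟩) (hmem x hx)

theorem card_WW : Nat.card (WW p V H X A) = p ^ 2 := by
  have hV' := (ea_iff.mp h.hV).1
  have hWV : WW p V H X A ≤ V := inf_le_left.trans (V0_le h hX hAH hA)
  have h1 := card_sup_mul_inf_of_comm hV' hWV (M0_le h hX hAH hA)
  have h2 := card_sup_mul_inf_of_comm hV' (W_le h hAH (p := p)) (M0_le h hX hAH hA)
  have h3 : WW p V H X A ⊔ M0 p V H X A = ⁅V, EE p H A⁆ ⊔ M0 p V H X A := by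
    apply le_antisymm
    · refine sup_le ?_ le_sup_right
      rw [← V0_eq h hX hAH hA]; exact inf_le_left
    · refine sup_le ?_ le_sup_right
      intro w hw
      obtain ⟨m, hm, hwm⟩ := exists_diag h hX hAH hA hw
      have : w = (w * m) * m⁻¹ := by group
      rw [this]
      exact mul_mem (mem_sup_left hwm) (mem_sup_right (inv_mem hm))
  rw [WW_inf_M0 h hX hAH hA, card_bot, mul_one, h3] at h1
  rw [W_inf_M0 h hX hAH hA, card_bot, mul_one] at h2
  rw [h1] at h2
  have h4 := Nat.eq_of_mul_eq_mul_right Nat.card_pos h2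
  rw [h4, (h.dat hAH hA).2.card]

/-- the orbit product normalizes every plane in the orbit -/
theorem NN_norm {y : G} (hy : y ∈ X) : NN p H X A ≤ normalizer ((MulAut.conj y • ⁅V, EE p H A⁆ : Subgroup G) : Set G) := by
  refine iSup_le fun x => ?_
  obtain ⟨ax, mx⟩ := hX.minOff x.2 hAH hA
  obtain ⟨ay, my⟩ := hX.minOff hy hAH hA
  rw [smulW h hX hAH hA hy, hX.smul_EE x.2]
  by_cases he : EE p H (MulAut.conj (x : G) • A) = EE p H (MulAut.conj y • A)
  · rw [he]; exact le_normalizer_commutator_right _ _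
  · have := (h.commute ay my ax mx (Ne.symm he)).2.1
    exact (le_centralizer_iff.mp (commutator_eq_bot_iff_le_centralizer.mp this)).trans (centralizer_le_normalizer _)

theorem le_normalizer_iSup {ι : Sort*} {B : Subgroup G} (f : ι → Subgroup G) (hB : ∀ i, B ≤ normalizer (f i : Set G)) :
    B ≤ normalizer ((⨆ i, f i : Subgroup G) : Set G) := by
  intro b hb
  rw [mem_normalizer_iff_conj_smul_eq]
  change (⨆ i, f i).map (MulAut.conj b).toMonoidHom = _
  rw [Subgroup.map_iSup]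
  exact iSup_congr fun i => conj_smul_eq_of_mem_normalizer (hB i hb)

theorem NN_norm_V0 : NN p H X A ≤ normalizer ((V0 p V H X A : Subgroup G) : Set G) :=
  le_normalizer_iSup h hX hAH hA _ fun x => NN_norm h hX hAH hA x.2

theorem NN_norm_M0 : NN p H X A ≤ normalizer ((M0 p V H X A : Subgroup G) : Set G) :=
  le_normalizer_iSup h hX hAH hA _ fun x => NN_norm h hX hAH hA x.1.2

theorem NN_norm_W : NN p H X A ≤ normalizer ((⁅V, EE p H A⁆ : Subgroup G) : Set G) := by
  have := NN_norm h hX hAH hA X.one_mem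
  rwa [map_one, one_smul] at this

theorem D_norm_WW : NN p H X A ⊓ centralizer (X : Set G) ≤ normalizer ((WW p V H X A : Subgroup G) : Set G) :=
  le_normalizer_inf (inf_le_left.trans (NN_norm_V0 h hX hAH hA)) (inf_le_right.trans le_normalizer)

/-- centralizing the diagonal plane and the plane -/
theorem cent_iff {d : G} (hd : d ∈ NN p H X A ⊓ centralizer (X : Set G)) :
    d ∈ centralizer ((WW p V H X A : Subgroup G) : Set G) ↔ d ∈ centralizer ((⁅V, EE p H A⁆ : Subgroup G) : Set G) := by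
  obtain ⟨hdN, hdX⟩ := mem_inf.mp hd
  have hV' := (ea_iff.mp h.hV).1
  have hWV := W_le h hAH (p := p)
  have hMV := M0_le h hX hAH hA
  have hdM : ∀ m ∈ M0 p V H X A, d * m * d⁻¹ ∈ M0 p V H X A := fun m hm => (mem_normalizer_iff.mp (NN_norm_M0 h hX hAH hA hdN) m).mp hm
  have hdW : ∀ w ∈ ⁅V, EE p H A⁆, d * w * d⁻¹ ∈ ⁅V, EE p H A⁆ := fun m hm => (mem_normalizer_iff.mp (NN_norm_W h hX hAH hA hdN) m).mp hm
  have hdWW : ∀ w ∈ WW p V H X A, d * w * d⁻¹ ∈ WW p V H X A := fun m hm => (mem_normalizer_iff.mp (D_norm_WW h hX hAH hA hd) m).mp hm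
  constructor
  · intro hc
    refine mem_centralizer_iff.mpr fun w hw => ?_
    obtain ⟨m, hm, hwm⟩ := exists_diag h hX hAH hA hw
    have h1 := mem_centralizer_iff.mp hc _ hwm
    -- w⁻¹ d w d⁻¹ = m (d m d⁻¹)⁻¹
    have h2 : w⁻¹ * (d * w * d⁻¹) = m * (d * m * d⁻¹)⁻¹ := by
      have e1 : d * (w * m) * d⁻¹ = w * m := by rw [← h1]; group
      have e2 : (d * w * d⁻¹) * (d * m * d⁻¹) = w * m := by rw [← e1]; group
      have e3 : d * w * d⁻¹ = w * m * (d * m * d⁻¹)⁻¹ := by rw [← e2]; group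
      rw [e3]; group
    have h3 : w⁻¹ * (d * w * d⁻¹) ∈ ⁅V, EE p H A⁆ ⊓ M0 p V H X A := by
      refine mem_inf.mpr ⟨mul_mem (inv_mem hw) (hdW w hw), ?_⟩
      rw [h2]; exact mul_mem hm (inv_mem (hdM m hm))
    rw [W_inf_M0 h hX hAH hA, mem_bot, inv_mul_eq_one, eq_mul_inv_iff_mul_eq] at h3
    exact h3
  · intro hc
    refine mem_centralizer_iff.mpr fun w hw => ?_
    have hw0 : w ∈ ⁅V, EE p H A⁆ ⊔ M0 p V H X A := by rw [← V0_eq h hX hAH hA]; exact (mem_inf.mp hw).1
    obtain ⟨w1, hw1, m, hm, rfl⟩ := (mem_sup_iff_left (le_normalizer_of_comm hV' hMV hWV)).mp hw0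
    have h1 : d * w1 * d⁻¹ = w1 := by rw [← mem_centralizer_iff.mp hc w1 hw1]; group
    have h2 : (w1 * m)⁻¹ * (d * (w1 * m) * d⁻¹) = m⁻¹ * (d * m * d⁻¹) := by
      have : d * (w1 * m) * d⁻¹ = (d * w1 * d⁻¹) * (d * m * d⁻¹) := by group
      rw [this, h1]; group
    have h3 : (w1 * m)⁻¹ * (d * (w1 * m) * d⁻¹) ∈ WW p V H X A ⊓ M0 p V H X A := by
      refine mem_inf.mpr ⟨mul_mem (inv_mem hw) (hdWW _ hw), ?_⟩
      rw [h2]; exact mul_mem (inv_mem hm) (hdM m hm)
    rw [WW_inf_M0 h hX hAH hA, mem_bot, inv_mul_eq_one, eq_mul_inv_iff_mul_eq] at h3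
    exact h3

/-- the action of the orbit product on the plane is that of `E` -/
theorem NN_le : NN p H X A ≤ EE p H A ⊔ centralizer ((⁅V, EE p H A⁆ : Subgroup G) : Set G) := by
  refine iSup_le fun x => ?_
  by_cases hxE : MulAut.conj (x : G) • EE p H A = EE p H A
  · rw [hxE]; exact le_sup_left
  · obtain ⟨ax, mx⟩ := hX.minOff x.2 hAH hA
    refine le_sup_of_le_right ?_
    rw [hX.smul_EE x.2] at hxE ⊢
    exact le_centralizer_iff.mp (commutator_eq_bot_iff_le_centralizer.mp (h.commute hAH hA ax mx (Ne.symm hxE)).2.1)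

/-- the group induced on the diagonal plane is `SL₂(p)` -/
theorem exists_iso {D : Type v} [Group D] (τ : D →* G) (hτ : τ.range = NN p H X A ⊓ centralizer (X : Set G))
    (C : Subgroup D) [C.Normal] (hC : C = (centralizer ((WW p V H X A : Subgroup G) : Set G)).comap τ) :
    Nonempty (D ⧸ C ≃* Matrix.SpecialLinearGroup (Fin 2) (ZMod p)) := by
  set W := ⁅V, EE p H A⁆ with hW
  have hmem : ∀ d : D, τ d ∈ NN p H X A ⊓ centralizer (X : Set G) := by
    intro d; rw [← hτ]; exact ⟨d, rfl⟩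
  have hτW : ∀ d : D, τ d ∈ normalizer (W : Set G) := fun d =>
    NN_norm_W h hX hAH hA (mem_inf.mp (hmem d)).1
  let ρ : D →* MulAut W := (normalizerMonoidHom W).comp (τ.codRestrict (normalizer (W : Set G)) hτW)
  have hρ : ∀ d w, ((ρ d w : W) : G) = τ d * w * (τ d)⁻¹ := fun d w => rfl
  let ρE : EE p H A →* MulAut W := CoprimeB.act (le_normalizer_commutator_right _ _ : EE p H A ≤ normalizer (W : Set G))
  have hρE : ∀ e w, ((ρE e w : W) : G) = e * w * (e : G)⁻¹ := fun e w => rfl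
  have hEinj : Function.Injective ρE := by
    rw [injective_iff_map_eq_one]
    intro e he
    have h1 : (e : G) ∈ EE p H A ⊓ centralizer (W : Set G) := by
      refine mem_inf.mpr ⟨e.2, mem_centralizer_iff.mpr fun w hw => ?_⟩
      have h2 := hρE e ⟨w, hw⟩
      rw [he] at h2
      have h3 : w = e * w * (e : G)⁻¹ := h2
      rw [eq_mul_inv_iff_mul_eq] at h3
      exact h3
    rw [(h.dat hAH hA).2.faith, mem_bot] at h1
    exact Subtype.ext h1
  have hker : ρ.ker = C := by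
    ext d
    have hd : τ d ∈ NN p H X A ⊓ centralizer (X : Set G) := hmem d
    rw [hC, mem_comap, cent_iff h hX hAH hA hd, MonoidHom.mem_ker]
    constructor
    · intro he
      refine mem_centralizer_iff.mpr fun w hw => ?_
      have h2 := hρ d ⟨w, hw⟩
      rw [he] at h2
      have h3 : w = τ d * w * (τ d)⁻¹ := h2
      rw [eq_mul_inv_iff_mul_eq] at h3
      exact h3
    · intro hc
      apply MulEquiv.ext
      intro w
      apply Subtype.ext
      rw [hρ, ← mem_centralizer_iff.mp hc w w.2]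
      simp
  have hrange : ρ.range = ρE.range := by
    apply le_antisymm
    · rintro _ ⟨d, rfl⟩
      have hd : τ d ∈ NN p H X A ⊓ centralizer (X : Set G) := hmem d
      have h1 := NN_le h hX hAH hA (mem_inf.mp hd).1
      have h2 : EE p H A ≤ normalizer ((centralizer ((W : Subgroup G) : Set G) : Subgroup G) : Set G) :=
        (le_normalizer_commutator_right _ _).trans normalizer_centralizer_le
      obtain ⟨e, he, c, hc, hec⟩ := (mem_sup_iff_right h2).mp (by rw [sup_comm]; exact h1)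
      refine ⟨⟨e, he⟩, ?_⟩
      apply MulEquiv.ext
      intro w
      apply Subtype.ext
      rw [hρ, hρE, ← hec]
      have h3 : (w : G) * c = c * w := mem_centralizer_iff.mp hc w w.2
      calc e * (w : G) * e⁻¹ = e * ((w : G) * c) * c⁻¹ * e⁻¹ := by group
        _ = e * (c * w) * c⁻¹ * e⁻¹ := by rw [h3]
        _ = _ := by group
    · rintro _ ⟨e, rfl⟩
      obtain ⟨δ, h1, h2, m, _, h3, h4⟩ := hX.diagE h hAH hA e.2
      have h5 : δ ∈ τ.range := by rw [hτ]; exact mem_inf.mpr ⟨h2, h1⟩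
      obtain ⟨d, hd⟩ := h5
      refine ⟨d, ?_⟩
      apply MulEquiv.ext
      intro w
      apply Subtype.ext
      rw [hρ, hρE, hd, h4]
      have h3' : (w : G) * m = m * w := mem_centralizer_iff.mp h3 w w.2
      calc (e : G) * m * w * ((e : G) * m)⁻¹ = e * (m * w) * m⁻¹ * (e : G)⁻¹ := by group
        _ = e * ((w : G) * m) * m⁻¹ * (e : G)⁻¹ := by rw [h3']
        _ = _ := by group
  obtain ⟨eSL⟩ := h.sl hAH hA
  exact ⟨(QuotientGroup.quotientMulEquivOfEq hker.symm).trans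
    ((QuotientGroup.quotientKerEquivRange ρ).trans ((MulEquiv.subgroupCongr hrange).trans
      ((MonoidHom.ofInjective hEinj).symm.trans eSL)))⟩

end

end Cfsg.Agent.Lib.FFN
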