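import Mathlib
import Cfsg.Agent.Lib.FFN
import Cfsg.Agent.Lib.FFL

/-! Failure of factorization, part O: coprime operators on a `p`-solvable group. -/

namespace Cfsg.Agent.Lib.FFO

open Subgroup Cfsg.Agent.Lib Cfsg.Agent.Lib.Basic Cfsg.Agent.Lib.Cores Cfsg.Agent.Lib.Coprime
  Cfsg.Agent.Lib.CoprimeB Cfsg.Agent.Lib.ThompsonJ Cfsg.Agent.Lib.Quadratic Cfsg.Agent.Lib.QuadA
  Cfsg.Agent.Lib.QuadB Cfsg.Agent.Lib.PNilp Cfsg.Agent.Lib.FFA Cfsg.Agent.Lib.FFB Cfsg.Agent.Lib.FFC
  Cfsg.Agent.Lib.FFD Cfsg.Agent.Lib.FFE Cfsg.Agent.Lib.FFF Cfsg.Agent.Lib.FFG Cfsg.Agent.Lib.FFH Cfsg.Agent.Lib.FFI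
  Cfsg.Agent.Lib.FFJ Cfsg.Agent.Lib.FFM Cfsg.Agent.Lib.FFK Cfsg.Agent.Lib.FFL Cfsg.Agent.Lib.FFN Cfsg.Agent.Lib.QuadD

open scoped commutatorElement Pointwise

universe u v

theorem J_range {G : Type u} [Group G] [Finite G] {D : Type u} [Group D] [Finite D] {p : ℕ} (f : G →* D) (hf : Function.Injective f) :
    Cfsg.thompsonSubgroupOf p f.range = (Cfsg.thompsonSubgroup p G).map f := by
  rw [J_eq, QuadC.thompson_eq]
  have hback : ∀ A : Subgroup D, A ≤ f.range → (A.comap f).map f = A := fun A hA => by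
    rw [map_comap_eq]; exact inf_eq_right.mpr hA
  have hcb : ∀ A : Subgroup D, A ≤ f.range → Nat.card (A.comap f) = Nat.card A := fun A hA => by
    rw [← card_map_inj f hf, hback A hA]
  apply le_antisymm
  · refine sSup_le fun A hA => ?_
    rw [← hback A hA.1]
    refine map_mono (le_sSup ⟨le_top, ea_comap hA.2.1 f hf, fun E _ hE => ?_⟩)
    rw [hcb A hA.1, ← card_map_inj f hf E]
    exact hA.2.2 _ (map_le_range f E) (ea_map hE f)
  · rw [map_le_iff_le_comap]
    refine sSup_le fun A hA => ?_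
    rw [← map_le_iff_le_comap]
    refine le_sSup ⟨map_le_range f A, ea_map hA.2.1 f, fun E hE hE2 => ?_⟩
    rw [card_map_inj f hf, ← hcb E hE]
    exact hA.2.2 _ le_top (ea_comap hE2 f hf)

theorem ozc_char {G : Type u} [Group G] [Finite G] {p : ℕ} [Fact p.Prime] : (ozc p G).Characteristic := by
  rw [characteristic_iff_map_le]
  intro φ
  rw [ozc, Subgroup.map_iSup]
  refine iSup_le fun S => ?_
  rw [map_oz (fun x _ hx => φ.injective (hx.trans (map_one φ).symm))]
  have h1 : ((S : Subgroup G).map φ.toMonoidHom) = ((S.mapSurjective (f := φ.toMonoidHom) φ.surjective : Sylow p G) : Subgroup G) := rfl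
  rw [h1]
  exact oz_le_ozc _

section
variable {K : Type u} [Group K] {X : Type u} [Group X] (α : X →* MulAut K)

/-- images of characteristic subgroups are normal -/
theorem normal_map_inl {N : Subgroup K} (hN : N.Characteristic) :
    (N.map (SemidirectProduct.inl : K →* K ⋊[α] X)).Normal := by
  haveI : N.Normal := inferInstance
  refine ⟨?_⟩
  rintro _ ⟨n, hn, rfl⟩ g
  have h1 : (α g.right n) ∈ N := by
    have := (characteristic_iff_comap_eq.mp hN) (α g.right)
    have h2 : n ∈ N.comap (α g.right).toMonoidHom := by rw [this]; exact hn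
    exact h2
  refine ⟨g.left * α g.right n * g.left⁻¹, (inferInstance : N.Normal).conj_mem _ h1 _, ?_⟩
  have hg : g = SemidirectProduct.inl g.left * SemidirectProduct.inr g.right := (SemidirectProduct.inl_left_mul_inr_right g).symm
  conv_rhs => rw [hg]
  simp only [map_mul, map_inv, SemidirectProduct.inl_aut]
  group

/-- the fixed points -/
def Fix : Subgroup K where
  carrier := {k | ∀ x, α x k = k}
  one_mem' := fun x => map_one _
  mul_mem' := fun {a b} ha hb x => by rw [map_mul, ha x, hb x]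
  inv_mem' := fun {a} ha x => by rw [map_inv, ha x]

theorem mem_Fix {k : K} : k ∈ Fix α ↔ ∀ x, α x k = k := Iff.rfl

theorem mem_Fix_iff {k : K} : k ∈ Fix α ↔ (SemidirectProduct.inl k : K ⋊[α] X) ∈ centralizer ((SemidirectProduct.inr : X →* K ⋊[α] X).range : Set (K ⋊[α] X)) := by
  rw [mem_centralizer_iff, mem_Fix]
  constructor
  · rintro h _ ⟨x, rfl⟩
    have h1 := SemidirectProduct.inl_aut (φ := α) x k
    rw [h x, map_inv] at h1
    rw [eq_mul_inv_iff_mul_eq] at h1
    exact h1.symm
  · intro h x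
    have h1 := SemidirectProduct.inl_aut (φ := α) x k
    rw [h _ ⟨x, rfl⟩, map_inv, mul_inv_cancel_right] at h1
    exact SemidirectProduct.inl_injective h1

end

section
variable (p : ℕ) [hp : Fact p.Prime] {K : Type u} [Group K] [Finite K] {X : Type u} [Group X] [Finite X] (α : X →* MulAut K)

instance : Finite (K ⋊[α] X) := Finite.of_equiv _ SemidirectProduct.equivProd.symm

/-- `V` in `K ⋊ X` -/
def VV : Subgroup (K ⋊[α] X) := (ozc p K).map SemidirectProduct.inl

/-- `C_K(V)` in `K ⋊ X` -/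
def CC : Subgroup (K ⋊[α] X) := (centralizer (ozc p K : Set K)).map SemidirectProduct.inl

/-- `J(K)` in `K ⋊ X` -/
def JJ : Subgroup (K ⋊[α] X) := (Cfsg.thompsonSubgroup p K).map SemidirectProduct.inl

instance : (VV p α).Normal := normal_map_inl α ozc_char

theorem cent_char {G : Type u} [Group G] {N : Subgroup G} (hN : N.Characteristic) : (centralizer (N : Set G)).Characteristic := by
  haveI := hN
  infer_instance

instance : (CC p α).Normal := normal_map_inl α (cent_char ozc_char)

instance : (JJ p α).Normal := normal_map_inl α QuadC.thompson_char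

theorem CC_le : CC p α ≤ centralizer (VV p α : Set (K ⋊[α] X)) := by
  rintro _ ⟨c, hc, rfl⟩
  refine mem_centralizer_iff.mpr ?_
  rintro _ ⟨v, hv, rfl⟩
  rw [← map_mul, mem_centralizer_iff.mp hc v hv, map_mul]

/-- the map to `Γ` -/
def TT : (K ⋊[α] X) →* Gam (VV p α) (CC p α) (CC_le p α) := th (VV p α) (CC p α) (CC_le p α)

/-- the map from `K` to `Γ` -/
def ff : K →* Gam (VV p α) (CC p α) (CC_le p α) := (TT p α).comp SemidirectProduct.inl

theorem ff_ker : (ff p α).ker = centralizer (ozc p K : Set K) := by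
  ext k
  rw [MonoidHom.mem_ker, ff, MonoidHom.comp_apply, ← MonoidHom.mem_ker, TT, th_ker]
  constructor
  · rintro ⟨c, hc, hck⟩
    rwa [← SemidirectProduct.inl_injective hck]
  · intro h; exact ⟨k, h, rfl⟩

/-- `H` -/
def HH : Subgroup (Gam (VV p α) (CC p α) (CC_le p α)) := (JJ p α).map (TT p α)

/-- `X` in `Γ` -/
def XX : Subgroup (Gam (VV p α) (CC p α) (CC_le p α)) := ((SemidirectProduct.inr : X →* K ⋊[α] X).range).map (TT p α)

theorem HH_eq : HH p α = (Cfsg.thompsonSubgroup p K).map (ff p α) := by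
  rw [HH, JJ, Subgroup.map_map]; rfl

theorem inf_le_CC : (SemidirectProduct.inl : K →* K ⋊[α] X).range ⊓ centralizer (VV p α : Set (K ⋊[α] X)) ≤ CC p α := by
  rintro _ ⟨⟨k, rfl⟩, hc⟩
  refine ⟨k, mem_centralizer_iff.mpr fun v hv => ?_, rfl⟩
  have h1 := mem_centralizer_iff.mp hc (SemidirectProduct.inl v) ⟨v, hv, rfl⟩
  rw [← map_mul, ← map_mul] at h1
  exact SemidirectProduct.inl_injective h1

theorem pCore_range : Cfsg.pCore p ((⊤ : Subgroup K).map (ff p α)) = ⊥ := by
  haveI := ozc_normal (G := K) p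
  refine pCore_bot_of_surj ((ff p α).codRestrict ((⊤ : Subgroup K).map (ff p α)) (fun x => mem_map_of_mem _ (mem_top x))) ?_ ?_ (pCore_ozc (G := K) (p := p))
  · rintro ⟨_, x, _, rfl⟩
    exact ⟨x, rfl⟩
  · rw [MonoidHom.ker_codRestrict, ff_ker]

variable (hsol : Cfsg.IsPSolvable p K) (hO : Cfsg.pPrimeCore p K = ⊥)
include hsol hO

theorem FF_HH : FF p (jj (VV p α) (CC p α) (CC_le p α) (VV p α)) (HH p α) := by
  have hV : Cfsg.IsElementaryAbelian p (VV p α) := ea_map (ea_ozc (HallHigman.centralizer_pCore_le p hsol hO)) _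
  have hJle : JJ p α ≤ (SemidirectProduct.inl : K →* K ⋊[α] X).range := map_le_range _ _
  refine ff_map hV ((inf_le_inf_right _ hJle).trans (inf_le_CC p α)) ?_ ?_
  · exact PSol.of_equiv (PSol.subgroup hsol (Cfsg.thompsonSubgroup p K)) (equivMapOfInjective _ _ SemidirectProduct.inl_injective)
  · have hle : HH p α ≤ (⊤ : Subgroup K).map (ff p α) := by rw [HH_eq]; exact map_mono le_top
    have hnorm : ((HH p α).subgroupOf ((⊤ : Subgroup K).map (ff p α))).Normal := by
      refine (normal_subgroupOf_iff_le_normalizer hle).mpr ?_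
      rw [HH_eq]
      haveI := QuadC.thompson_char (G := K) (p := p)
      have h1 := le_normalizer_map (H := Cfsg.thompsonSubgroup p K) (ff p α)
      rw [normalizer_eq_top] at h1
      exact h1
    exact FFG.pCore_bot_of_subnormal hle hnorm.isSubnormal (pCore_range p α)

theorem HH_gen : HH p α = ⨆ A : {A : Subgroup (Gam (VV p α) (CC p α) (CC_le p α)) // A ≤ HH p α ∧
    Cfsg.IsBestOffenderOn p (jj (VV p α) (CC p α) (CC_le p α) (VV p α)) A}, (A : Subgroup (Gam (VV p α) (CC p α) (CC_le p α))) := by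
  have hV : Cfsg.IsElementaryAbelian p (VV p α) := ea_map (ea_ozc (HallHigman.centralizer_pCore_le p hsol hO)) _
  have hVle : VV p α ≤ (SemidirectProduct.inl : K →* K ⋊[α] X).range := map_le_range _ _
  refine J_gen hV hVle (HH p α) ?_
  rw [J_range _ SemidirectProduct.inl_injective]; rfl

omit hsol hO in
theorem Op_XX (hc : (Nat.card X).Coprime (Nat.card K)) : Op p (jj (VV p α) (CC p α) (CC_le p α) (VV p α)) (HH p α) (XX p α) := by
  refine ⟨map_le_normalizer _ le_rfl le_normalizer_of_normal, ?_, ?_⟩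
  · have h1 := le_normalizer_map (H := JJ p α) (TT p α)
    rw [normalizer_eq_top] at h1
    exact (map_mono le_top).trans h1
  · have h1 : Nat.card (XX p α) ∣ Nat.card X := by
      refine (card_map_dvd _ _).trans ?_
      exact card_range_dvd _
    have h2 : Nat.card (HH p α) ∣ Nat.card K := by
      rw [HH_eq]
      exact (card_map_dvd _ _).trans (card_subgroup_dvd_card _)
    exact Nat.Coprime.coprime_dvd_left h1 (Nat.Coprime.coprime_dvd_right h2 hc)

end

end Cfsg.Agent.Lib.FFO
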