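import Mathlib
import Cfsg.Agent.Lib.FFO

/-! Failure of factorization, part P: generation and the diagonal `SL₂(p)`. -/

namespace Cfsg.Agent.Lib.FFP

open Subgroup Cfsg.Agent.Lib Cfsg.Agent.Lib.Basic Cfsg.Agent.Lib.Cores Cfsg.Agent.Lib.Coprime
  Cfsg.Agent.Lib.CoprimeB Cfsg.Agent.Lib.ThompsonJ Cfsg.Agent.Lib.Quadratic Cfsg.Agent.Lib.QuadA
  Cfsg.Agent.Lib.QuadB Cfsg.Agent.Lib.PNilp Cfsg.Agent.Lib.FFA Cfsg.Agent.Lib.FFB Cfsg.Agent.Lib.FFC
  Cfsg.Agent.Lib.FFD Cfsg.Agent.Lib.FFE Cfsg.Agent.Lib.FFF Cfsg.Agent.Lib.FFG Cfsg.Agent.Lib.FFH Cfsg.Agent.Lib.FFI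
  Cfsg.Agent.Lib.FFJ Cfsg.Agent.Lib.FFM Cfsg.Agent.Lib.FFK Cfsg.Agent.Lib.FFL Cfsg.Agent.Lib.FFN Cfsg.Agent.Lib.QuadD
  Cfsg.Agent.Lib.FFO

open scoped commutatorElement Pointwise

universe u v

variable (p : ℕ) [hp : Fact p.Prime] {K : Type u} [Group K] [Finite K] {X : Type u} [Group X] [Finite X] (α : X →* MulAut K)

theorem lift_fix (hc : (Nat.card X).Coprime (Nat.card K)) (hXs : Group.IsSolvable X) {k : K}
    (hk : ff p α k ∈ centralizer (XX p α : Set (Gam (VV p α) (CC p α) (CC_le p α)))) : ∃ k' ∈ Fix α, ff p α k' = ff p α k := by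
  set A := (SemidirectProduct.inr : X →* K ⋊[α] X).range with hA
  have hAX : Nat.card A ∣ Nat.card X := card_range_dvd _
  have hDK : Nat.card (CC p α) ∣ Nat.card K := (card_map_dvd _ _).trans (card_subgroup_dvd_card _)
  have hAs : Group.IsSolvable A := by
    haveI := hXs
    exact solvable_of_surjective (f := (SemidirectProduct.inr : X →* K ⋊[α] X).rangeRestrict) (MonoidHom.rangeRestrict_surjective _)
  obtain ⟨d, hd, hdA⟩ := exists_mem_centralizer_coset (A := A) (D := CC p α) le_normalizer_of_normal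
    (Nat.Coprime.coprime_dvd_left hAX (Nat.Coprime.coprime_dvd_right hDK hc)) (Or.inl hAs) (SemidirectProduct.inl k) (by
      intro a ha
      have h1 : TT p α (SemidirectProduct.inl k) * TT p α a = TT p α a * TT p α (SemidirectProduct.inl k) :=
        (mem_centralizer_iff.mp hk (TT p α a) ⟨a, ha, rfl⟩).symm
      rw [← th_ker (VV p α) (CC p α) (CC_le p α), MonoidHom.mem_ker]
      change TT p α _ = 1
      rw [map_mul, map_mul, map_mul, ← h1]
      simp)
  obtain ⟨c, hcc, rfl⟩ := hd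
  rw [← map_mul] at hdA
  refine ⟨k * c, (mem_Fix_iff α).mpr hdA, ?_⟩
  have h2 : ff p α c = 1 := by
    rw [← MonoidHom.mem_ker, ff_ker]; exact hcc
  rw [map_mul, h2, mul_one]

variable (hsol : Cfsg.IsPSolvable p K) (hO : Cfsg.pPrimeCore p K = ⊥)
include hsol hO

/-- S0620 -/
theorem gen (hc : (Nat.card X).Coprime (Nat.card K)) (hXs : Group.IsSolvable X) (S : Sylow p K) :
    normalizer (Cfsg.thompsonSubgroupOf p (S : Subgroup K) : Set K) ⊔ centralizer (oz p (S : Subgroup K) : Set K) ⊔ Fix α = ⊤ := by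
  set P := normalizer (Cfsg.thompsonSubgroupOf p (S : Subgroup K) : Set K) ⊔ centralizer (oz p (S : Subgroup K) : Set K) ⊔ Fix α with hP
  have hNP : normalizer (Cfsg.thompsonSubgroupOf p (S : Subgroup K) : Set K) ≤ P := le_sup_left.trans le_sup_left
  have hCP : centralizer (oz p (S : Subgroup K) : Set K) ≤ P := le_sup_right.trans le_sup_left
  have hFP : Fix α ≤ P := le_sup_right
  have hff := FF_HH p α hsol hO
  have hgen := HH_gen p α hsol hO
  have hop := Op_XX p α hc
  have hCz : centralizer (ozc p K : Set K) ≤ P := (centralizer_le (oz_le_ozc S)).trans hCP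
  -- `S ≤ P`
  have hSN : (S : Subgroup K) ≤ normalizer (Cfsg.thompsonSubgroupOf p (S : Subgroup K) : Set K) := by
    intro s hs
    rw [mem_normalizer_iff_conj_smul_eq]
    change (Cfsg.thompsonSubgroupOf p (S : Subgroup K)).map (MulAut.conj s).toMonoidHom = _
    rw [J_conj]
    have : (S : Subgroup K).map (MulAut.conj s).toMonoidHom = S := conj_smul_eq_of_mem_normalizer (le_normalizer hs)
    rw [this]
  have hSP : (S : Subgroup K) ≤ P := hSN.trans hNP
  have hH := Op.gen hff hgen hop (T := P.map (ff p α)) (by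
    intro A hAH hA
    set J := Cfsg.thompsonSubgroup p K with hJ
    haveI hJn : J.Normal := by
      haveI := QuadC.thompson_char (G := K) (p := p)
      infer_instance
    obtain ⟨P', hP'⟩ := exists_sylow_inf J S
    have hHJ := HH_eq p α
    -- transport to H
    let g : J →* HH p α := ((ff p α).comp J.subtype).codRestrict (HH p α) (fun x => by rw [hHJ]; exact ⟨x, x.2, rfl⟩)
    have hg : Function.Surjective g := by
      rintro ⟨y, hy⟩
      have hy' : y ∈ J.map (ff p α) := by rw [← hHJ]; exact hy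
      obtain ⟨x, hx, rfl⟩ := hy'
      exact ⟨⟨x, hx⟩, rfl⟩
    set Q : Sylow p (HH p α) := P'.mapSurjective hg with hQ
    have hAp : IsPGroup p (A.subgroupOf (HH p α)) := by
      have h1 : IsPGroup p A := QuadC.isPGroup_of_ea (hff.ea hAH hA.1)
      exact h1.of_equiv (subgroupOfEquivOfLe hAH).symm
    obtain ⟨R, hR⟩ := hAp.exists_le_sylow
    obtain ⟨y, hy⟩ := MulAction.exists_smul_eq (HH p α) R Q
    -- conj y A ≤ Q
    have h2 : MulAut.conj (y : Gam (VV p α) (CC p α) (CC_le p α)) • A ≤ P.map (ff p α) := by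
      rintro _ ⟨a, ha, rfl⟩
      have h3 : y * ⟨a, hAH ha⟩ * y⁻¹ ∈ (Q : Subgroup (HH p α)) := by
        rw [← hy]
        exact ⟨⟨a, hAH ha⟩, hR (mem_subgroupOf.mpr ha), rfl⟩
      obtain ⟨s, hs, hsy⟩ := h3
      have hsS : (s : K) ∈ (S : Subgroup K) := by
        have : s ∈ (S : Subgroup K).subgroupOf J := hP' ▸ hs
        exact mem_subgroupOf.mp this
      refine ⟨s, hSP hsS, ?_⟩
      have := congrArg Subtype.val hsy
      exact this
    -- replace y by an element of E
    obtain ⟨c1, c2, c3, -⟩ := hff.compl hgen hAH hA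
    have hyH : (y : Gam (VV p α) (CC p α) (CC_le p α)) ∈ EE p (HH p α) A ⊔ sSup (Fam p (jj (VV p α) (CC p α) (CC_le p α) (VV p α)) (HH p α) \ {EE p (HH p α) A}) := by
      rw [c3]; exact y.2
    have hEM : EE p (HH p α) A ≤ normalizer ((sSup (Fam p (jj (VV p α) (CC p α) (CC_le p α) (VV p α)) (HH p α) \ {EE p (HH p α) A}) : Subgroup (Gam (VV p α) (CC p α) (CC_le p α))) : Set (Gam (VV p α) (CC p α) (CC_le p α))) :=
      (commutator_eq_bot_iff_le_centralizer.mp c2).trans (centralizer_le_normalizer _)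
    obtain ⟨e, he, m, hm, hem⟩ := (mem_sup_iff_right hEM).mp (by rw [sup_comm]; exact hyH)
    refine ⟨e, he, ?_⟩
    have hmA : MulAut.conj m • A = A := by
      apply conj_smul_eq_of_mem_normalizer
      have h3 : m ∈ centralizer (EE p (HH p α) A : Set (Gam (VV p α) (CC p α) (CC_le p α))) :=
        (le_centralizer_iff.mp (commutator_eq_bot_iff_le_centralizer.mp c2)) hm
      exact (centralizer_le_normalizer _) (centralizer_le (show A ≤ EE p (HH p α) A from le_sup_right) h3)
    rw [← hem, map_mul, mul_smul, hmA] at h2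
    exact h2) (by
    intro y hy
    obtain ⟨hyH, hyX⟩ := mem_inf.mp hy
    rw [HH_eq] at hyH
    obtain ⟨k, hk, rfl⟩ := hyH
    obtain ⟨k', hk', hkk⟩ := lift_fix p α hc hXs hyX
    exact ⟨k', hFP hk', hkk⟩)
  -- `J(K) ≤ P`
  have hJP : Cfsg.thompsonSubgroup p K ≤ P := by
    intro j hj
    have h1 : ff p α j ∈ HH p α := by rw [HH_eq]; exact ⟨j, hj, rfl⟩
    obtain ⟨k, hk, hkj⟩ := hH h1
    have h2 : k⁻¹ * j ∈ centralizer (ozc p K : Set K) := by
      rw [← ff_ker p α, MonoidHom.mem_ker, map_mul, map_inv, hkj, inv_mul_cancel]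
    have h3 : j = k * (k⁻¹ * j) := by group
    rw [h3]; exact mul_mem hk (hCz h2)
  -- Frattini
  rw [eq_top_iff]
  intro g _
  haveI hJn : (Cfsg.thompsonSubgroup p K).Normal := by
    haveI := QuadC.thompson_char (G := K) (p := p)
    infer_instance
  obtain ⟨c, hc', n, hn, rfl⟩ := frattini_inf (Cfsg.thompsonSubgroup p K) S g
  refine mul_mem (hJP hc') (hNP ?_)
  have hJS : Cfsg.thompsonSubgroupOf p (S : Subgroup K) ≤ Cfsg.thompsonSubgroup p K := by
    rw [QuadC.thompson_eq_iSup]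
    exact le_iSup (fun S : Sylow p K => Cfsg.thompsonSubgroupOf p (S : Subgroup K)) S
  have hJeq : Cfsg.thompsonSubgroupOf p ((S : Subgroup K) ⊓ Cfsg.thompsonSubgroup p K) = Cfsg.thompsonSubgroupOf p (S : Subgroup K) := by
    have h1 : Cfsg.thompsonSubgroupOf p (S : Subgroup K) ≤ (S : Subgroup K) ⊓ Cfsg.thompsonSubgroup p K := le_inf (J_le _ _) hJS
    apply le_antisymm
    · rw [J_eq, J_eq]
      obtain ⟨B, hB⟩ := exists_maxEA p (S : Subgroup K)
      have hBJ : B ≤ (S : Subgroup K) ⊓ Cfsg.thompsonSubgroup p K := le_trans (by rw [J_eq]; exact le_sSup hB) h1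
      refine sSup_le fun A hA => le_sSup ⟨hA.1.trans inf_le_left, hA.2.1, fun D hD hDE => ?_⟩
      exact (hB.2.2 D hD hDE).trans (hA.2.2 B hBJ hB.2.1)
    · exact J_le_J h1 (g := 1) (by rw [map_conj_one]; exact inf_le_left)
  rw [mem_normalizer_iff_conj_smul_eq]
  change (Cfsg.thompsonSubgroupOf p (S : Subgroup K)).map (MulAut.conj n).toMonoidHom = _
  rw [← hJeq, J_conj]
  have : ((S : Subgroup K) ⊓ Cfsg.thompsonSubgroup p K).map (MulAut.conj n).toMonoidHom = (S : Subgroup K) ⊓ Cfsg.thompsonSubgroup p K :=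
    conj_smul_eq_of_mem_normalizer hn
  rw [this]

/-- S0621 -/
theorem plane (hc : (Nat.card X).Coprime (Nat.card K)) (hXs : Group.IsSolvable X) (hnf : ¬ Cfsg.IsThompsonFactorizable p K) :
    (p = 2 ∨ p = 3) ∧ ∃ W D : Subgroup K, W ≤ Fix α ∧ D ≤ Fix α ∧ Cfsg.IsElementaryAbelian p W ∧ Nat.card W = p ^ 2 ∧
      D ≤ normalizer (W : Set K) ∧ ∃ π : D →* Matrix.SpecialLinearGroup (Fin 2) (ZMod p), Function.Surjective π ∧
        π.ker = (centralizer (W : Set K)).subgroupOf D := by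
  have hff := FF_HH p α hsol hO
  have hgen := HH_gen p α hsol hO
  have hop := Op_XX p α hc
  rw [factorizable_iff_le hO] at hnf
  have hne : HH p α ≠ ⊥ := by
    intro h
    rw [HH_eq, Subgroup.map_eq_bot_iff, ff_ker] at h
    exact hnf h
  obtain ⟨A, hAH, hA⟩ := hff.exists_min hgen hne
  refine ⟨(hff.dat hAH hA).1, ?_⟩
  set WG := WW p (jj (VV p α) (CC p α) (CC_le p α) (VV p α)) (HH p α) (XX p α) A with hWG
  have hWGV : WG ≤ jj (VV p α) (CC p α) (CC_le p α) (VV p α) := inf_le_left.trans (V0_le hff hop hAH hA)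
  obtain ⟨U, hU, hWU⟩ := exists_jj hWGV
  set W := U.comap (SemidirectProduct.inl : K →* K ⋊[α] X) with hW
  have hVr : VV p α ≤ (SemidirectProduct.inl : K →* K ⋊[α] X).range := map_le_range _ _
  have hUW : W.map SemidirectProduct.inl = U := by
    rw [hW, map_comap_eq]; exact inf_eq_right.mpr (hU.trans hVr)
  have hWV : W ≤ ozc p K := by
    intro w hw
    obtain ⟨v, hv, hvw⟩ := hU (mem_comap.mp hw)
    rwa [← SemidirectProduct.inl_injective hvw]
  have hmemW : ∀ (w : K) (hw : w ∈ ozc p K), iV (VV p α) (CC p α) (CC_le p α) ⟨SemidirectProduct.inl w, ⟨w, hw, rfl⟩⟩ ∈ WG ↔ w ∈ W := by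
    intro w hw
    rw [hWU, iV_mem_jj]; rfl
  have hV := ea_ozc (G := K) (p := p) (HallHigman.centralizer_pCore_le p hsol hO)
  have hozn := ozc_normal (G := K) p
  -- conjugation
  have hconj : ∀ (d w : K) (hw : w ∈ ozc p K), ff p α d * iV (VV p α) (CC p α) (CC_le p α) ⟨SemidirectProduct.inl w, ⟨w, hw, rfl⟩⟩ * (ff p α d)⁻¹ =
      iV (VV p α) (CC p α) (CC_le p α) ⟨SemidirectProduct.inl (d * w * d⁻¹), ⟨d * w * d⁻¹, hozn.conj_mem w hw d, rfl⟩⟩ := by
    intro d w hw
    have h1 := th_conj (VV p α) (CC p α) (CC_le p α) (SemidirectProduct.inl d) ⟨SemidirectProduct.inl w, ⟨w, hw, rfl⟩⟩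
    refine h1.trans ?_
    congr 1
    apply Subtype.ext
    simp
  have hfixX : ∀ k ∈ Fix α, ff p α k ∈ centralizer (XX p α : Set (Gam (VV p α) (CC p α) (CC_le p α))) := by
    intro k hk
    refine mem_centralizer_iff.mpr ?_
    rintro _ ⟨x, hx, rfl⟩
    have h1 := mem_centralizer_iff.mp ((mem_Fix_iff α).mp hk) x hx
    change TT p α x * TT p α (SemidirectProduct.inl k) = TT p α (SemidirectProduct.inl k) * TT p α x
    rw [← map_mul, h1, map_mul]
  set D := Fix α ⊓ (NN p (HH p α) (XX p α) A).comap (ff p α) with hD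
  have hDN : D ≤ normalizer (W : Set K) := by
    intro d hd
    obtain ⟨hd1, hd2⟩ := mem_inf.mp hd
    have h1 : ∀ d ∈ D, ∀ w ∈ W, d * w * d⁻¹ ∈ W := by
      intro d hd w hw
      obtain ⟨hd1, hd2⟩ := mem_inf.mp hd
      have h2 := D_norm_WW hff hop hAH hA (mem_inf.mpr ⟨hd2, hfixX d hd1⟩)
      have h3 := (mem_normalizer_iff.mp h2 _).mp ((hmemW w (hWV hw)).mpr hw)
      rw [hconj _ _ (hWV hw)] at h3
      exact (hmemW _ (hozn.conj_mem w (hWV hw) d)).mp h3
    refine mem_normalizer_iff.mpr fun w => ⟨fun hw => h1 d hd w hw, fun hw => ?_⟩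
    have h2 := h1 d⁻¹ (inv_mem hd) _ hw
    have h3 : d⁻¹ * (d * w * d⁻¹) * d⁻¹⁻¹ = w := by group
    rwa [h3] at h2
  refine ⟨W, D, ?_, inf_le_left, ea_mono hV hWV, ?_, hDN, ?_⟩
  · intro w hw
    have h1 := (hmemW w (hWV hw)).mpr hw
    have h2 := (mem_inf.mp h1).2
    exact (mem_Fix_iff α).mpr (mem_cent_map.mp h2)
  · have h1 := card_WW hff hop hAH hA
    rw [← h1]
    change Nat.card W = Nat.card WG
    rw [hWU, card_jj hU, ← hUW, card_map_inj _ SemidirectProduct.inl_injective]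
  · have hn : ((centralizer (W : Set K)).subgroupOf D).Normal :=
      normal_subgroupOf_of_le_normalizer (hDN.trans normalizer_centralizer_le)
    obtain ⟨e⟩ := exists_iso hff hop hAH hA (D := D) ((ff p α).comp D.subtype) (by
      apply le_antisymm
      · rintro _ ⟨d, rfl⟩
        obtain ⟨hd1, hd2⟩ := mem_inf.mp d.2
        exact mem_inf.mpr ⟨hd2, hfixX d hd1⟩
      · intro y hy
        obtain ⟨hy1, hy2⟩ := mem_inf.mp hy
        have hyH : y ∈ HH p α := by
          refine (iSup_le fun x : XX p α => ?_ : NN p (HH p α) (XX p α) A ≤ HH p α) hy1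
          rw [hop.smul_EE x.2]
          exact EE_le (hop.minOff x.2 hAH hA).1
        rw [HH_eq] at hyH
        obtain ⟨k, hk, rfl⟩ := hyH
        obtain ⟨k', hk', hkk⟩ := lift_fix p α hc hXs hy2
        exact ⟨⟨k', mem_inf.mpr ⟨hk', by rw [mem_comap, hkk]; exact hy1⟩⟩, hkk⟩)
      ((centralizer (W : Set K)).subgroupOf D) (by
        ext d
        rw [mem_subgroupOf, mem_comap]
        change _ ↔ ff p α d ∈ centralizer (WG : Set (Gam (VV p α) (CC p α) (CC_le p α)))
        constructor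
        · intro hd
          refine mem_centralizer_iff.mpr fun y hy => ?_
          obtain ⟨v, hv, rfl⟩ := mem_jj.mp (hWGV hy)
          obtain ⟨⟨_, ⟨w, hw, rfl⟩⟩, hv'⟩ : ∃ v' : VV p α, v' = v := ⟨v, rfl⟩
          subst hv'
          have h1 : w ∈ W := (hmemW w hw).mp hy
          have h2 := mem_centralizer_iff.mp hd w h1
          have h3 := hconj (d : K) w hw
          have h4 : (d : K) * w * (d : K)⁻¹ = w := by rw [← h2]; group
          simp only [h4] at h3
          rw [mul_inv_eq_iff_eq_mul] at h3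
          exact h3.symm
        · intro hd
          refine mem_centralizer_iff.mpr fun w hw => ?_
          have h1 := (hmemW w (hWV hw)).mpr hw
          have h2 := mem_centralizer_iff.mp hd _ h1
          have h3 := hconj (d : K) w (hWV hw)
          rw [← h2, mul_inv_cancel_right] at h3
          have h4 := congrArg Subtype.val (iV_inj _ _ _ h3)
          have h5 : w = (d : K) * w * (d : K)⁻¹ := SemidirectProduct.inl_injective h4
          rw [eq_mul_inv_iff_mul_eq] at h5
          exact h5)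
    refine ⟨e.toMonoidHom.comp (QuotientGroup.mk' _), e.surjective.comp (QuotientGroup.mk'_surjective _), ?_⟩
    ext x
    rw [MonoidHom.mem_ker]
    change e (QuotientGroup.mk' _ x) = 1 ↔ _
    rw [map_eq_one_iff e e.injective, ← MonoidHom.mem_ker, QuotientGroup.ker_mk']

end Cfsg.Agent.Lib.FFP
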