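import Mathlib
import Cfsg.Agent.Lib.Herm12
import Cfsg.Agent.Lib.FinGal2
import Cfsg.Agent.Lib.Tis1

/-! Field automorphisms acting on `GU_n`. -/

set_option linter.all false
set_option maxHeartbeats 1000000

namespace Cfsg.Agent.Lib.Fa

open Matrix Cfsg.Agent.Lib.Herm Cfsg.Agent.Lib.FinGal Cfsg.Agent.Lib.Tis

theorem card_fix {K : Type*} [Field K] [Fintype K] {q₀ q r : ℕ} (hr : r.Prime) (hq : q = q₀ ^ r) (hK : Fintype.card K = q ^ 2)
    (σ : K ≃+* K) (hσ : orderOf σ = r) : Nat.card (fixF σ) = q₀ ^ 2 := by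
  have h1 := card_fixF σ
  rw [hσ, Nat.card_eq_fintype_card, hK, hq, ← pow_mul, mul_comm r 2, pow_mul] at h1
  exact (Nat.pow_left_injective hr.pos.ne' h1).symm

theorem pow_fix {K₀ : Type*} [Field K₀] [Fintype K₀] {q₀ q r : ℕ} (hr : Odd r) (hq : q = q₀ ^ r) (hK : Fintype.card K₀ = q₀ ^ 2) (x : K₀) :
    x ^ q = x ^ q₀ := by
  obtain ⟨k, rfl⟩ := hr
  rw [hq, pow_add, pow_mul, pow_one, pow_mul, ← hK, FiniteField.pow_card_pow]

theorem gu_mem {K : Type*} [Field K] {q n : ℕ} {τ : K ≃+* K} (h2 : ∀ a, τ (τ a) = a) (hq : ∀ a, τ a = a ^ q) (g : GL (Fin n) K) :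
    g ∈ Cfsg.GU n K q ↔ (g : Matrix (Fin n) (Fin n) K).transpose * ((g : Matrix (Fin n) (Fin n) K).map τ) = 1 := gu_iff h2 hq g

theorem main {K : Type*} [Field K] [Fintype K] {q₀ q r n : ℕ} (hr : r.Prime) (hr2 : r ≠ 2) (hn : 1 ≤ n) (hq : q = q₀ ^ r) (hK : Fintype.card K = q ^ 2)
    (σ : K ≃+* K) (hσ : orderOf σ = r) :
    (q + 1) * (q₀ ^ (n * (n - 1) / 2) * ∏ i ∈ Finset.range n, (if Even i then q₀ ^ (i + 1) + 1 else q₀ ^ (i + 1) - 1)) =
    Nat.card {g : GL (Fin n) K // g ∈ Cfsg.GU n K q ∧ ∃ c : K, c ≠ 0 ∧ (g : Matrix (Fin n) (Fin n) K).map σ = c • (g : Matrix (Fin n) (Fin n) K)} * (q₀ + 1) := by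
  classical
  have hodd : Odd r := hr.odd_of_ne_two hr2
  let K₀ := fixF σ
  haveI : Fintype K₀ := Fintype.ofFinite _
  have hK₀ : Fintype.card K₀ = q₀ ^ 2 := by rw [← Nat.card_eq_fintype_card]; exact card_fix hr hq hK σ hσ
  obtain ⟨τ, hτo, hτq⟩ := exists_sigma hK
  obtain ⟨hτ2, _, _⟩ := sigma_facts hτo
  obtain ⟨τ₀, hτo₀, hτq₀⟩ := exists_sigma hK₀
  obtain ⟨hτ2₀, _, hτ3₀⟩ := sigma_facts hτo₀
  let ι : K₀ →+* K := K₀.subtype
  have hι : Function.Injective ι := ι.injective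
  have hιτ : ∀ x : K₀, τ (ι x) = ι (τ₀ x) := by
    intro x
    rw [hτq, hτq₀, ← map_pow, pow_fix hodd hq hK₀]
  have hισ : ∀ x : K₀, σ (ι x) = ι x := fun x => mem_fixF.mp x.2
  rw [← card_GU hK₀ n]
  -- the group of scalars
  let MS : Subgroup Kˣ :=
    { carrier := {l | (l : K) * τ (l : K) = 1}
      mul_mem' := by
        intro a b ha hb
        show ((a * b : Kˣ) : K) * τ ((a * b : Kˣ) : K) = 1
        have ha' : (a : K) * τ (a : K) = 1 := ha
        have hb' : (b : K) * τ (b : K) = 1 := hb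
        rw [Units.val_mul, map_mul]
        linear_combination ha' * ((b : K) * τ (b : K)) + hb'
      one_mem' := by
        show ((1 : Kˣ) : K) * τ ((1 : Kˣ) : K) = 1
        rw [Units.val_one, map_one, mul_one]
      inv_mem' := by
        intro a ha
        show ((a⁻¹ : Kˣ) : K) * τ ((a⁻¹ : Kˣ) : K) = 1
        have ha' : (a : K) * τ (a : K) = 1 := ha
        rw [Units.val_inv_eq_inv_val, map_inv₀, ← mul_inv, ha', inv_one] }
  have hMS : Nat.card MS = q + 1 := by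
    rw [← card_norm_sol hK hτo hτq one_ne_zero (map_one τ)]
    refine Nat.card_congr
      { toFun := fun l => ⟨(l.1 : K), l.2⟩
        invFun := fun x => ⟨Units.mk0 x.1 (by rintro h; have := x.2; rw [h, zero_mul] at this; exact zero_ne_one this), x.2⟩
        left_inv := fun l => Subtype.ext (Units.ext rfl)
        right_inv := fun x => rfl }
  rw [← hMS, ← Nat.card_prod]
  let mp : GL (Fin n) K₀ →* GL (Fin n) K := Matrix.GeneralLinearGroup.map ι
  have hmp : ∀ h : GL (Fin n) K₀, (mp h : Matrix (Fin n) (Fin n) K) = (h : Matrix (Fin n) (Fin n) K₀).map ι := fun h => rfl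
  let sc : Kˣ →* GL (Fin n) K := Units.map (Matrix.scalar (Fin n) : K →+* Matrix (Fin n) (Fin n) K).toMonoidHom
  have hsc : ∀ l : Kˣ, (sc l : Matrix (Fin n) (Fin n) K) = (l : K) • (1 : Matrix (Fin n) (Fin n) K) := by
    intro l
    show Matrix.scalar (Fin n) (l : K) = _
    rw [Matrix.smul_one_eq_diagonal]; rfl
  have hprod : ∀ (l : Kˣ) (h : GL (Fin n) K₀), ((sc l * mp h : GL (Fin n) K) : Matrix (Fin n) (Fin n) K) = (l : K) • ((h : Matrix (Fin n) (Fin n) K₀).map ι) := by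
    intro l h
    rw [Units.val_mul, hsc, hmp, Matrix.smul_mul, Matrix.one_mul]
  have hcomm : ∀ (l : Kˣ) (g : GL (Fin n) K), sc l * g = g * sc l := by
    intro l g
    apply Units.ext
    rw [Units.val_mul, Units.val_mul, hsc, Matrix.smul_mul, Matrix.one_mul, Matrix.mul_smul, Matrix.mul_one]
  let Φ : MS × Cfsg.GU n K₀ q₀ →* GL (Fin n) K :=
    { toFun := fun y => sc y.1.1 * mp y.2.1
      map_one' := by
        show sc 1 * mp 1 = 1
        rw [map_one, map_one, one_mul]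
      map_mul' := by
        intro a b
        show sc (a.1.1 * b.1.1) * mp (a.2.1 * b.2.1) = sc a.1.1 * mp a.2.1 * (sc b.1.1 * mp b.2.1)
        rw [map_mul, map_mul, mul_assoc, mul_assoc, ← mul_assoc (mp a.2.1) (sc b.1.1), ← hcomm b.1.1 (mp a.2.1), mul_assoc] }
  have hΦ : ∀ y, ((Φ y : GL (Fin n) K) : Matrix (Fin n) (Fin n) K) = ((y.1.1 : Kˣ) : K) • (((y.2.1 : GL (Fin n) K₀) : Matrix (Fin n) (Fin n) K₀).map ι) := fun y => hprod _ _
  have hmapτ : ∀ (A : Matrix (Fin n) (Fin n) K₀), (A.map ι).map τ = (A.map τ₀).map ι := by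
    intro A
    apply Matrix.ext
    intro i j
    exact hιτ (A i j)
  have hmapσ : ∀ (A : Matrix (Fin n) (Fin n) K₀), (A.map ι).map σ = A.map ι := by
    intro A
    apply Matrix.ext
    intro i j
    exact hισ (A i j)
  have hgu : ∀ (l : K) (A : Matrix (Fin n) (Fin n) K₀), (l • A.map ι).transpose * ((l • A.map ι).map τ) = (l * τ l) • ((A.transpose * A.map τ₀).map ι) := by
    intro l A
    have e1 : (l • A.map ι).map τ = τ l • ((A.map τ₀).map ι) := by
      rw [← hmapτ]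
      apply Matrix.ext
      intro i j
      show τ (l * ι (A i j)) = τ l * τ (ι (A i j))
      rw [map_mul]
    have e2 : (A.transpose * A.map τ₀).map ι = (A.map ι).transpose * ((A.map τ₀).map ι) := by
      have := Matrix.map_mul (L := A.transpose) (M := A.map τ₀) (f := ι)
      exact this
    rw [e1, e2, Matrix.transpose_smul, Matrix.smul_mul, Matrix.mul_smul, smul_smul]
  have hcount := orbit_count (fun y => Φ y) Φ.ker (by
    intro a b
    rw [MonoidHom.mem_ker, map_mul, map_inv, inv_mul_eq_one]) (fun g => g ∈ Cfsg.GU n K q ∧ ∃ c : K, c ≠ 0 ∧ (g : Matrix (Fin n) (Fin n) K).map σ = c • (g : Matrix (Fin n) (Fin n) K)) (by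
    intro g
    constructor
    · rintro ⟨hg, c, hc0, hc⟩
      have hg' := (gu_mem hτ2 hτq g).mp hg
      set A : Matrix (Fin n) (Fin n) K := (g : Matrix (Fin n) (Fin n) K) with hA
      have hcA : ∀ i j, σ (A i j) = c * A i j := by
        intro i j
        exact congrFun (congrFun hc i) j
      have hστ : ∀ a, σ (τ a) = τ (σ a) := by
        intro a
        rw [hτq, hτq, map_pow]
      have hcc : c * τ c = 1 := by
        have e1 : (A.transpose * A.map τ).map σ = (c * τ c) • (A.transpose * A.map τ) := by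
          apply Matrix.ext
          intro i j
          show σ (∑ k, A k i * τ (A k j)) = (c * τ c) * (∑ k, A k i * τ (A k j))
          rw [map_sum, Finset.mul_sum]
          apply Finset.sum_congr rfl
          intro k _
          rw [map_mul, hστ, hcA, hcA, map_mul]; ring
        rw [hg'] at e1
        have e2 := congrFun (congrFun e1 ⟨0, hn⟩) ⟨0, hn⟩
        rw [Matrix.map_apply, Matrix.smul_apply, Matrix.one_apply_eq, map_one, smul_eq_mul, mul_one] at e2
        exact e2.symm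
      obtain ⟨i0, j0, hij⟩ : ∃ i j, A i j ≠ 0 := by
        by_contra hcon
        push Not at hcon
        have hA0 : A = 0 := Matrix.ext hcon
        rw [hA0, Matrix.transpose_zero, Matrix.zero_mul] at hg'
        have := congrFun (congrFun hg' ⟨0, hn⟩) ⟨0, hn⟩
        rw [Matrix.one_apply_eq] at this
        exact zero_ne_one this
      set l0 := A i0 j0 with hl0
      have hσl0 : σ l0 = c * l0 := hcA i0 j0
      have hν : σ (l0 * τ l0) = l0 * τ l0 := by
        rw [map_mul, hστ, hσl0, map_mul]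
        linear_combination (l0 * τ l0) * hcc
      let ν₀ : K₀ := ⟨l0 * τ l0, mem_fixF.mpr hν⟩
      have hιν : ι ν₀ = l0 * τ l0 := rfl
      have hν0 : ν₀ ≠ 0 := by
        intro h
        have h1 : l0 * τ l0 = 0 := by rw [← hιν, h, map_zero]
        rcases mul_eq_zero.mp h1 with h3 | h3
        · exact hij h3
        · exact hij ((map_eq_zero_iff τ τ.injective).mp h3)
      have hτν : τ₀ ν₀ = ν₀ := by
        apply hι
        rw [← hιτ, hιν, map_mul, hτ2, mul_comm]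
      obtain ⟨b, hb0, hb⟩ := hτ3₀ ν₀⁻¹ (inv_ne_zero hν0) (by rw [map_inv₀, hτν])
      have hιb0 : ι b ≠ 0 := by rw [Ne, map_eq_zero_iff ι hι]; exact hb0
      have hl1 : l0 * ι b ≠ 0 := mul_ne_zero hij hιb0
      have hl2 : (l0 * ι b) * τ (l0 * ι b) = 1 := by
        rw [map_mul, hιτ]
        calc l0 * ι b * (τ l0 * ι (τ₀ b)) = (l0 * τ l0) * ι (b * τ₀ b) := by rw [map_mul]; ring
          _ = ι ν₀ * ι ν₀⁻¹ := by rw [hb, hιν]
          _ = 1 := by rw [← map_mul, mul_inv_cancel₀ hν0, map_one]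
      have hl3 : σ (l0 * ι b) = c * (l0 * ι b) := by rw [map_mul, hσl0, hισ]; ring
      set L := l0 * ι b with hL
      let H : Matrix (Fin n) (Fin n) K₀ := fun i j => ⟨L⁻¹ * A i j, mem_fixF.mpr (by
        rw [map_mul, map_inv₀, hl3, hcA]
        field_simp)⟩
      have hH : L • H.map ι = A := by
        apply Matrix.ext
        intro i j
        show L * (L⁻¹ * A i j) = A i j
        rw [← mul_assoc, mul_inv_cancel₀ hl1, one_mul]
      have hHG : H.transpose * H.map τ₀ = 1 := by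
        have e1 := hgu L H
        rw [hH, hg', hl2, one_smul] at e1
        apply Matrix.map_injective hι
        show (H.transpose * H.map τ₀).map ι = (1 : Matrix (Fin n) (Fin n) K₀).map ι
        rw [← e1]
        exact (Matrix.map_one ι (map_zero ι) (map_one ι)).symm
      have hdet : H.det ≠ 0 := by
        intro h
        have := congrArg Matrix.det hHG
        rw [Matrix.det_mul, Matrix.det_transpose, h, zero_mul, Matrix.det_one] at this
        exact zero_ne_one this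
      let h : GL (Fin n) K₀ := Matrix.GeneralLinearGroup.mkOfDetNeZero H hdet
      have hh : (h : Matrix (Fin n) (Fin n) K₀) = H := rfl
      refine ⟨(⟨Units.mk0 L hl1, hl2⟩, ⟨h, (gu_mem hτ2₀ hτq₀ h).mpr hHG⟩), ?_⟩
      apply Units.ext
      show ((Φ _ : GL (Fin n) K) : Matrix (Fin n) (Fin n) K) = A
      rw [hΦ]
      exact hH
    · rintro ⟨⟨l, h⟩, rfl⟩
      refine ⟨?_, σ (l.1 : K) * (l.1 : K)⁻¹, ?_, ?_⟩
      · rw [gu_mem hτ2 hτq, hΦ, hgu]
        have h1 := (gu_mem hτ2₀ hτq₀ h.1).mp h.2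
        have h3 : ((l.1 : Kˣ) : K) * τ ((l.1 : Kˣ) : K) = 1 := l.2
        rw [h1, h3, one_smul]
        exact Matrix.map_one ι (map_zero ι) (map_one ι)
      · exact mul_ne_zero (by rw [Ne, map_eq_zero_iff σ σ.injective]; exact l.1.ne_zero) (inv_ne_zero l.1.ne_zero)
      · rw [hΦ]
        apply Matrix.ext
        intro i j
        show σ ((l.1 : K) * ι (((h.1 : GL (Fin n) K₀) : Matrix (Fin n) (Fin n) K₀) i j)) = σ (l.1 : K) * (l.1 : K)⁻¹ * ((l.1 : K) * ι (((h.1 : GL (Fin n) K₀) : Matrix (Fin n) (Fin n) K₀) i j))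
        rw [map_mul, hισ]
        have := l.1.ne_zero
        field_simp)
  rw [hcount]
  congr 1
  rw [← card_norm_sol hK₀ hτo₀ hτq₀ one_ne_zero (map_one τ₀)]
  have hx0 : ∀ x : {x : K₀ // x * τ₀ x = 1}, x.1 ≠ 0 := by
    rintro ⟨x, hx⟩ h
    have h' : x = 0 := h
    rw [h', zero_mul] at hx
    exact zero_ne_one hx
  let sc₀ : K₀ˣ →* GL (Fin n) K₀ := Units.map (Matrix.scalar (Fin n) : K₀ →+* Matrix (Fin n) (Fin n) K₀).toMonoidHom
  have hsc₀ : ∀ l : K₀ˣ, (sc₀ l : Matrix (Fin n) (Fin n) K₀) = (l : K₀) • (1 : Matrix (Fin n) (Fin n) K₀) := by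
    intro l
    show Matrix.scalar (Fin n) (l : K₀) = _
    rw [Matrix.smul_one_eq_diagonal]; rfl
  have hm1 : ∀ x : {x : K₀ // x * τ₀ x = 1}, (Units.map ι.toMonoidHom (Units.mk0 x.1 (hx0 x)))⁻¹ ∈ MS := by
    intro x
    apply MS.inv_mem
    show ι x.1 * τ (ι x.1) = 1
    rw [hιτ, ← map_mul, x.2, map_one]
  have hm2 : ∀ x : {x : K₀ // x * τ₀ x = 1}, sc₀ (Units.mk0 x.1 (hx0 x)) ∈ Cfsg.GU n K₀ q₀ := by
    intro x
    rw [gu_mem hτ2₀ hτq₀, hsc₀]
    apply Matrix.ext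
    intro i j
    rw [Matrix.transpose_smul, Matrix.transpose_one, Matrix.smul_mul, Matrix.one_mul]
    show x.1 * τ₀ (x.1 * (1 : Matrix (Fin n) (Fin n) K₀) i j) = (1 : Matrix (Fin n) (Fin n) K₀) i j
    rw [Matrix.one_apply]
    by_cases hij : i = j
    · rw [if_pos hij, mul_one]; exact x.2
    · rw [if_neg hij, mul_zero, map_zero, mul_zero]
  refine (Nat.card_congr (Equiv.ofBijective (fun x : {x : K₀ // x * τ₀ x = 1} =>
    (⟨(⟨_, hm1 x⟩, ⟨_, hm2 x⟩), ?_⟩ : Φ.ker)) ⟨?_, ?_⟩)).symm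
  · rw [MonoidHom.mem_ker]
    apply Units.ext
    rw [hΦ, hsc₀]
    apply Matrix.ext
    intro i j
    show ((Units.map ι.toMonoidHom (Units.mk0 x.1 (hx0 x)))⁻¹ : Kˣ) * ι (x.1 * (1 : Matrix (Fin n) (Fin n) K₀) i j) = (1 : Matrix (Fin n) (Fin n) K) i j
    have hne : ι x.1 ≠ 0 := by rw [Ne, map_eq_zero_iff ι hι]; exact hx0 x
    rw [Units.val_inv_eq_inv_val]
    show (ι x.1)⁻¹ * ι (x.1 * (1 : Matrix (Fin n) (Fin n) K₀) i j) = (1 : Matrix (Fin n) (Fin n) K) i j
    rw [map_mul, ← mul_assoc, inv_mul_cancel₀ hne, one_mul, Matrix.one_apply, Matrix.one_apply]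
    split_ifs
    · exact map_one ι
    · exact map_zero ι
  · intro x y h
    have h1 : sc₀ (Units.mk0 x.1 (hx0 x)) = sc₀ (Units.mk0 y.1 (hx0 y)) := congrArg (fun z : Φ.ker => (z.1.2.1 : GL (Fin n) K₀)) h
    have h3 := congrArg (fun z : GL (Fin n) K₀ => (z : Matrix (Fin n) (Fin n) K₀) ⟨0, hn⟩ ⟨0, hn⟩) h1
    beta_reduce at h3
    rw [hsc₀, hsc₀, Matrix.smul_apply, Matrix.smul_apply, Matrix.one_apply_eq, smul_eq_mul, mul_one, smul_eq_mul, mul_one] at h3
    exact Subtype.ext h3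
  · rintro ⟨⟨⟨l, hl⟩, ⟨h, hh⟩⟩, hk⟩
    have e1 := congrArg (fun z : GL (Fin n) K => (z : Matrix (Fin n) (Fin n) K)) (MonoidHom.mem_ker.mp hk)
    beta_reduce at e1
    rw [hΦ] at e1
    have e2 : ∀ i j, (l : K) * ι ((h : Matrix (Fin n) (Fin n) K₀) i j) = (1 : Matrix (Fin n) (Fin n) K) i j := fun i j => congrFun (congrFun e1 i) j
    set κ := (h : Matrix (Fin n) (Fin n) K₀) ⟨0, hn⟩ ⟨0, hn⟩ with hκ
    have e3 : (l : K) * ι κ = 1 := (e2 ⟨0, hn⟩ ⟨0, hn⟩).trans (Matrix.one_apply_eq _)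
    have hl0 : (l : K) ≠ 0 := l.ne_zero
    have e4 : (h : Matrix (Fin n) (Fin n) K₀) = κ • (1 : Matrix (Fin n) (Fin n) K₀) := by
      apply Matrix.ext
      intro i j
      apply hι
      rw [Matrix.smul_apply, smul_eq_mul, map_mul]
      apply mul_left_cancel₀ hl0
      rw [e2, ← mul_assoc, e3, one_mul, Matrix.one_apply, Matrix.one_apply]
      split_ifs
      · exact (map_one ι).symm
      · exact (map_zero ι).symm
    have e5 : κ * τ₀ κ = 1 := by
      have e6 : (l : K) * τ (l : K) = 1 := hl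
      apply hι
      rw [map_mul, map_one, ← hιτ]
      have e7 : τ (l : K) * τ (ι κ) = 1 := by rw [← map_mul, e3, map_one]
      calc ι κ * τ (ι κ) = ((l : K) * ι κ) * (τ (l : K) * τ (ι κ)) * 1 := by
            rw [← e6]
            have h8 : ι κ * τ (ι κ) = (ι κ * τ (ι κ)) * 1 * 1 := by ring
            have h9 : (l : K) * ι κ * (τ (l : K) * τ (ι κ)) = 1 := by rw [e3, e7, one_mul]
            rw [h9, one_mul]
            have h10 : ((l : K) * τ (l : K)) * (ι κ * τ (ι κ)) = 1 := by linear_combination h9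
            rw [e6, one_mul] at h10
            rw [h10, e6]
        _ = 1 := by rw [e3, e7]; ring
    refine ⟨⟨κ, e5⟩, ?_⟩
    apply Subtype.ext
    apply Prod.ext
    · apply Subtype.ext
      apply Units.ext
      show (((Units.map ι.toMonoidHom (Units.mk0 κ _))⁻¹ : Kˣ) : K) = (l : K)
      rw [Units.val_inv_eq_inv_val]
      show (ι κ)⁻¹ = (l : K)
      exact inv_eq_of_mul_eq_one_left e3
    · apply Subtype.ext
      apply Units.ext
      show ((sc₀ (Units.mk0 κ _) : GL (Fin n) K₀) : Matrix (Fin n) (Fin n) K₀) = (h : Matrix (Fin n) (Fin n) K₀)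
      rw [hsc₀, e4]
      rfl

theorem s2677 {K : Type*} [Field K] [Fintype K] {q₀ q r n : ℕ} (hr : r.Prime) (hr2 : r ≠ 2) (hn : 1 ≤ n) (hq : q = q₀ ^ r) (hK : Fintype.card K = q ^ 2) (σ : K ≃+* K) (hσ : orderOf σ = r) : (Nat.card {g : ↥(Cfsg.GU n K q) // ∃ c : K, c ≠ 0 ∧ ((g : GL (Fin n) K) : Matrix (Fin n) (Fin n) K).map σ = c • ((g : GL (Fin n) K) : Matrix (Fin n) (Fin n) K)} : ℤ) = ((q + 1) / (q₀ + 1) : ℕ) * ((q₀ : ℤ) ^ (n * (n - 1) / 2) * ∏ i : Fin n, ((q₀ : ℤ) ^ ((i : ℕ) + 1) - (-1) ^ ((i : ℕ) + 1))) := by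
  classical
  have hm := main hr hr2 hn hq hK σ hσ
  have hodd : Odd r := hr.odd_of_ne_two hr2
  have e0 : Nat.card {g : ↥(Cfsg.GU n K q) // ∃ c : K, c ≠ 0 ∧ ((g : GL (Fin n) K) : Matrix (Fin n) (Fin n) K).map σ = c • ((g : GL (Fin n) K) : Matrix (Fin n) (Fin n) K)} =
      Nat.card {g : GL (Fin n) K // g ∈ Cfsg.GU n K q ∧ ∃ c : K, c ≠ 0 ∧ (g : Matrix (Fin n) (Fin n) K).map σ = c • (g : Matrix (Fin n) (Fin n) K)} :=
    Nat.card_congr
      { toFun := fun g => ⟨g.1.1, g.1.2, g.2⟩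
        invFun := fun g => ⟨⟨g.1, g.2.1⟩, g.2.2⟩
        left_inv := fun g => rfl
        right_inv := fun g => rfl }
  rw [e0]
  obtain ⟨k, hk⟩ : q₀ + 1 ∣ q + 1 := by
    have := Odd.nat_add_dvd_pow_add_pow q₀ 1 hodd
    rwa [one_pow, ← hq] at this
  have hk2 : (q + 1) / (q₀ + 1) = k := by rw [hk, Nat.mul_div_cancel_left _ (Nat.succ_pos q₀)]
  rw [hk2]
  rw [hk, mul_assoc, mul_comm (Nat.card _)] at hm
  have hm2 := Nat.eq_of_mul_eq_mul_left (Nat.succ_pos q₀) hm
  rw [← hm2]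
  have hq0 : 1 ≤ q₀ := by
    rcases Nat.eq_zero_or_pos q₀ with h | h
    · exfalso
      have h1 := Fintype.card_pos (α := K)
      rw [hK, hq, h, zero_pow hr.pos.ne'] at h1
      simp at h1
    · exact h
  rw [Fin.prod_univ_eq_prod_range (fun i => (q₀ : ℤ) ^ (i + 1) - (-1) ^ (i + 1)) n]
  push_cast
  congr 2
  apply Finset.prod_congr rfl
  intro i _
  by_cases hi : Even i
  · rw [if_pos hi, Odd.neg_one_pow hi.add_one]
    push_cast
    ring
  · rw [if_neg hi, Even.neg_one_pow (Nat.not_even_iff_odd.mp hi).add_one, Nat.cast_sub (Nat.one_le_pow _ _ hq0)]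
    push_cast
    ring

end Cfsg.Agent.Lib.Fa
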