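import Mathlib
import Cfsg.Agent.Lib.MinAct
/-! A solvable group in which `q'`-elements centralize `O_q(G)` for all `q` is nilpotent; normal
subgroup version. -/
open Subgroup Cfsg.Agent.Lib.Coprime Cfsg.Agent.Lib.CoprimeB Cfsg.Agent.H2 Cfsg
open scoped commutatorElement
universe u
namespace Cfsg.Agent.Lib.FitCrit
variable {G : Type u} [Group G]

theorem isPGroup_of_forall_orderOf [Finite G] {p : ℕ} (hp : p.Prime)
    (h : ∀ x : G, (orderOf x).Coprime p → x = 1) : IsPGroup p G := by
  have hp' : Fact p.Prime := ⟨hp⟩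
  rw [IsPGroup.iff_orderOf]
  intro x
  obtain ⟨k, m, hm, hk⟩ := Nat.exists_eq_pow_mul_and_not_dvd (orderOf_pos x).ne' p hp.one_lt.ne'
  have h1 : orderOf (x ^ p ^ k) = m := by
    rw [orderOf_pow_of_dvd (pow_pos hp.pos k).ne' (by rw [hk]; exact dvd_mul_right _ _), hk,
      Nat.mul_div_cancel_left m (pow_pos hp.pos k)]
  have h2 : x ^ p ^ k = 1 := h _ (by rw [h1]; exact ((hp.coprime_iff_not_dvd).2 hm).symm)
  rw [h2, orderOf_one] at h1
  exact ⟨k, by rw [hk, ← h1, mul_one]⟩

theorem nilpotent_of_centralizes [Finite G] (hG : Group.IsSolvable G)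
    (h : ∀ q : ℕ, q.Prime → ∀ x : G, (orderOf x).Coprime q → x ∈ centralizer (pCore q G : Set G)) :
    Group.IsNilpotent G := by
  classical
  -- G / C_r is an r-group
  have hC : ∀ r : (Nat.card G).primeFactors, Group.IsNilpotent (G ⧸ centralizer (pCore (r : ℕ) G : Set G)) := by
    intro r
    have hr : (r : ℕ).Prime := Nat.prime_of_mem_primeFactors r.2
    have hr' : Fact (r : ℕ).Prime := ⟨hr⟩
    have hn : (centralizer (pCore (r : ℕ) G : Set G)).Normal := by
      have := Lib.Cores.pCore_normal (G := G) (r : ℕ)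
      infer_instance
    have hp : IsPGroup (r : ℕ) (G ⧸ centralizer (pCore (r : ℕ) G : Set G)) := by
      apply isPGroup_of_forall_orderOf hr
      intro x hx
      induction x using QuotientGroup.induction_on with
      | H x =>
        -- the r'-part of x
        obtain ⟨k, m, hm, hk⟩ := Nat.exists_eq_pow_mul_and_not_dvd (orderOf_pos x).ne' (r : ℕ) hr.one_lt.ne'
        have h1 : orderOf (x ^ (r : ℕ) ^ k) = m := by
          rw [orderOf_pow_of_dvd (pow_pos hr.pos k).ne' (by rw [hk]; exact dvd_mul_right _ _), hk,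
            Nat.mul_div_cancel_left m (pow_pos hr.pos k)]
        have h2 : x ^ (r : ℕ) ^ k ∈ centralizer (pCore (r : ℕ) G : Set G) :=
          h r hr _ (by rw [h1]; exact ((hr.coprime_iff_not_dvd).2 hm).symm)
        have h3 : (x : G ⧸ centralizer (pCore (r : ℕ) G : Set G)) ^ (r : ℕ) ^ k = 1 := by
          rw [← QuotientGroup.mk_pow]; exact (QuotientGroup.eq_one_iff _).2 h2
        have h4 : orderOf (x : G ⧸ centralizer (pCore (r : ℕ) G : Set G)) ∣ 1 := by
          rw [← Nat.Coprime.gcd_eq_one (Nat.Coprime.pow_right k hx)]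
          exact Nat.dvd_gcd dvd_rfl (orderOf_dvd_of_pow_eq_one h3)
        rwa [Nat.dvd_one, orderOf_eq_one_iff] at h4
    exact hp.isNilpotent
  have hCn : ∀ r : (Nat.card G).primeFactors, (centralizer (pCore (r : ℕ) G : Set G)).Normal := by
    intro r
    have := Lib.Cores.pCore_normal (G := G) (r : ℕ)
    infer_instance
  let f : G →* ((r : (Nat.card G).primeFactors) → G ⧸ centralizer (pCore (r : ℕ) G : Set G)) :=
    MonoidHom.pi (fun r => QuotientGroup.mk' _)
  have hFn : (fittingSubgroup G).Normal := Lib.Cores.fitting_normal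
  have hkerF : f.ker ≤ fittingSubgroup G := by
    refine le_trans ?_ (Lib.Nilp.centralizer_fitting_le (G := G))
    intro x hx
    rw [mem_centralizer_iff]
    have h1 : fittingSubgroup G ≤ centralizer {x} := by
      rw [Lib.Cores.fitting_eq_iSup_pCore]
      refine iSup_le fun p => ?_
      intro y hy
      rw [mem_centralizer_singleton_iff]
      by_cases hpG : (p : ℕ) ∈ (Nat.card G).primeFactors
      · have h2 : QuotientGroup.mk' (centralizer (pCore (p : ℕ) G : Set G)) x = 1 := congrFun hx ⟨p, hpG⟩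
        have h3 := (QuotientGroup.eq_one_iff _).1 h2
        exact mem_centralizer_iff.1 h3 y hy
      · have h2 : y = 1 := by
          have hp' : Fact (p : ℕ).Prime := ⟨p.2⟩
          obtain ⟨k, hk⟩ := IsPGroup.iff_orderOf.1 (Lib.Cores.pCore_isPGroup (p : ℕ)) ⟨y, hy⟩
          rw [Subgroup.orderOf_mk] at hk
          rcases Nat.eq_zero_or_pos k with h0 | h0
          · rw [h0, pow_zero, orderOf_eq_one_iff] at hk; exact hk
          · exfalso
            apply hpG
            rw [Nat.mem_primeFactors]
            refine ⟨p.2, ?_, Nat.card_pos.ne'⟩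
            exact (dvd_pow_self _ h0.ne').trans (by rw [← hk]; exact orderOf_dvd_natCard y)
        rw [h2, one_mul, mul_one]
    intro y hy
    exact mem_centralizer_singleton_iff.1 (h1 hy)
  have hGF : Group.IsNilpotent (G ⧸ fittingSubgroup G) := by
    have h1 : Group.IsNilpotent ((r : (Nat.card G).primeFactors) → G ⧸ centralizer (pCore (r : ℕ) G : Set G)) :=
      inferInstance
    have h2 : Group.IsNilpotent (G ⧸ f.ker) :=
      Lib.NilpB.nilpotent_of_injective (QuotientGroup.kerLift f) (QuotientGroup.kerLift_injective f) h1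
    exact Group.nilpotent_of_surjective (QuotientGroup.map f.ker (fittingSubgroup G) (MonoidHom.id G) hkerF)
      (fun y => by
        obtain ⟨x, rfl⟩ := QuotientGroup.mk_surjective y
        exact ⟨(x : G ⧸ f.ker), rfl⟩)
  -- Sylow subgroups are normal
  refine ((Group.isNilpotent_of_finite_tfae (G := G)).out 0 3).2 ?_
  intro q hq Q
  have hFQ : fittingSubgroup G ≤ normalizer ((Q : Subgroup G) : Set G) := by
    rw [Lib.Cores.fitting_eq_iSup_pCore]
    refine iSup_le fun r => ?_
    have hr : (r : ℕ).Prime := r.2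
    have hr' : Fact (r : ℕ).Prime := ⟨hr⟩
    by_cases hrq : (r : ℕ) = q
    · rw [hrq]
      exact (Lib.Cores.pCore_le_sylow Q).trans le_normalizer
    · refine le_trans ?_ (centralizer_le_normalizer _)
      intro y hy
      rw [mem_centralizer_iff]
      intro x hx
      obtain ⟨k, hk⟩ := IsPGroup.iff_orderOf.1 Q.isPGroup' ⟨x, hx⟩
      rw [Subgroup.orderOf_mk] at hk
      have h1 := h r hr x (by
        rw [hk]; exact Nat.Coprime.pow_left k ((Nat.coprime_primes hq.out hr).2 (Ne.symm hrq)))
      exact (mem_centralizer_iff.1 h1 y hy).symm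
  -- Q F is normal
  have hQF : ((Q : Subgroup G) ⊔ fittingSubgroup G).Normal := by
    have hs := QuotientGroup.mk'_surjective (fittingSubgroup G)
    have h1 : ((Q.mapSurjective hs : Sylow q (G ⧸ fittingSubgroup G)) : Subgroup (G ⧸ fittingSubgroup G)).Normal :=
      PUtil.sylow_normal_of_nilpotent hGF (Q.mapSurjective hs)
    have h2 : ((Q : Subgroup G).map (QuotientGroup.mk' (fittingSubgroup G))).Normal := h1
    have h3 := Normal.comap h2 (QuotientGroup.mk' (fittingSubgroup G))
    rwa [comap_map_eq, QuotientGroup.ker_mk'] at h3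
  have hle : (Q : Subgroup G) ⊔ fittingSubgroup G ≤ normalizer ((Q : Subgroup G) : Set G) :=
    sup_le le_normalizer hFQ
  have h4 := Sylow.normalizer_sup_eq_top' Q (le_sup_left : (Q : Subgroup G) ≤ (Q : Subgroup G) ⊔ fittingSubgroup G)
  have h5 : normalizer ((Q : Subgroup G) : Set G) = ⊤ := by
    rw [eq_top_iff, ← h4]
    exact sup_le le_rfl hle
  exact normalizer_eq_top_iff.1 h5

/-- normal subgroup version -/
theorem le_fitting [Finite G] {K : Subgroup G} [hK : K.Normal] (hs : Group.IsSolvable K)
    (h : ∀ q : ℕ, q.Prime → ∀ x ∈ K, (orderOf x).Coprime q → ∀ y ∈ pCore q G, y ∈ K → x * y = y * x) :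
    K ≤ fittingSubgroup G := by
  have hn : Group.IsNilpotent K := by
    apply nilpotent_of_centralizes hs
    intro q hq x hx
    rw [mem_centralizer_iff]
    intro y hy
    have h1 : (y : G) ∈ pCore q G := Lib.Cores.map_pCore_le K ⟨y, hy, rfl⟩
    apply Subtype.ext
    have := h q hq x x.2 (by rw [Subgroup.orderOf_coe]; exact hx) y h1 y.2
    exact this.symm
  exact le_sSup ⟨hK, hn⟩

end Cfsg.Agent.Lib.FitCrit
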