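import Mathlib
import Cfsg.Agent.Lib.SLn

/-! Two generators of the special linear group. -/

set_option linter.all false
set_option maxHeartbeats 1000000

namespace Cfsg.Agent.Lib.Gn

open Matrix
open scoped commutatorElement

variable {K : Type*} [Field K] {n : ℕ}

/-- signs -/
def ε (K : Type*) [Field K] (n : ℕ) (i : Fin (n + 1)) : K := if i.val = n then (-1) ^ n else 1

theorem ε_ne (i : Fin (n + 1)) : ε K n i ≠ 0 := by
  rw [ε]
  split_ifs
  · exact pow_ne_zero _ (neg_ne_zero.mpr one_ne_zero)
  · exact one_ne_zero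

/-- the monomial matrix -/
def W (K : Type*) [Field K] (n : ℕ) : Matrix (Fin (n + 1)) (Fin (n + 1)) K :=
  Matrix.of (fun i j => if j.val = i.val + 1 then 1 else if i.val = n ∧ j.val = 0 then (-1) ^ n else 0)

theorem val_succ' (i : Fin (n + 1)) : (i + 1).val = if i.val = n then 0 else i.val + 1 := by
  rw [Fin.val_add_one]
  by_cases h : i = Fin.last n
  · rw [if_pos h, if_pos (by rw [h]; rfl)]
  · rw [if_neg h, if_neg (fun h' : i.val = n => h (Fin.ext h'))]

theorem pred_val {x : Fin (n + 1)} {m : ℕ} (h : x.val = m + 1) : (x - 1).val = m := by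
  have hm : m < n + 1 := by have := x.2; omega
  have h1 : (⟨m, hm⟩ : Fin (n + 1)) + 1 = x := by
    apply Fin.ext
    rw [val_succ', h, if_neg]
    show ¬ m = n
    have := x.2
    omega
  rw [← h1, add_sub_cancel_right]

theorem W_apply (i j : Fin (n + 1)) : W K n i j = if j = i + 1 then ε K n i else 0 := by
  rw [W, Matrix.of_apply, ε]
  have h1 := val_succ' i
  have h2 : j = i + 1 ↔ j.val = (i + 1).val := Fin.ext_iff
  by_cases hi : i.val = n
  · rw [if_pos hi] at h1
    have h3 : j.val ≠ i.val + 1 := by
      have := j.2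
      omega
    rw [if_neg h3]
    by_cases hj : j.val = 0
    · rw [if_pos ⟨hi, hj⟩, if_pos (h2.mpr (hj.trans h1.symm)), if_pos hi]
    · rw [if_neg (fun h => hj h.2), if_neg (fun h => hj ((h2.mp h).trans h1))]
  · rw [if_neg hi] at h1
    by_cases hj : j.val = i.val + 1
    · rw [if_pos hj, if_pos (h2.mpr (hj.trans h1.symm)), if_neg hi]
    · rw [if_neg hj, if_neg (fun h => hi h.1), if_neg (fun h => hj ((h2.mp h).trans h1))]

theorem conj_W {i j : Fin (n + 1)} (c : K) :
    Matrix.transvection i j c * W K n = W K n * Matrix.transvection (i + 1) (j + 1) (c * ε K n j * (ε K n i)⁻¹) := by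
  rw [Matrix.transvection, Matrix.transvection, add_mul, mul_add, one_mul, mul_one]
  congr 1
  apply Matrix.ext
  intro a b
  by_cases ha : a = i
  · subst ha
    rw [Matrix.single_mul_apply_same]
    by_cases hb : b = j + 1
    · subst hb
      rw [Matrix.mul_single_apply_same, W_apply, W_apply, if_pos rfl, if_pos rfl]
      have := ε_ne (K := K) a
      field_simp
    · rw [W_apply, if_neg hb, mul_zero, Matrix.mul_single_apply_of_ne (hbj := hb)]
  · rw [Matrix.single_mul_apply_of_ne _ _ _ _ _ ha]
    by_cases hb : b = j + 1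
    · subst hb
      rw [Matrix.mul_single_apply_same, W_apply, if_neg (fun h => ha (add_right_cancel h).symm), zero_mul]
    · rw [Matrix.mul_single_apply_of_ne (hbj := hb)]

abbrev T {i j : Fin (n + 1)} (h : i ≠ j) (c : K) : Matrix.SpecialLinearGroup (Fin (n + 1)) K := Matrix.SpecialLinearGroup.transvection h c

theorem T_coe {i j : Fin (n + 1)} (h : i ≠ j) (c : K) : (T h c : Matrix (Fin (n + 1)) (Fin (n + 1)) K) = Matrix.transvection i j c := rfl

theorem succ_ne {i j : Fin (n + 1)} (h : i ≠ j) : i + 1 ≠ j + 1 := fun h' => h (add_right_cancel h')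

theorem conj_w {w : Matrix.SpecialLinearGroup (Fin (n + 1)) K} (hw : (w : Matrix (Fin (n + 1)) (Fin (n + 1)) K) = W K n) {i j : Fin (n + 1)} (h : i ≠ j) (c : K) :
    w⁻¹ * T h c * w = T (succ_ne h) (c * ε K n j * (ε K n i)⁻¹) := by
  rw [mul_assoc, inv_mul_eq_iff_eq_mul]
  apply Subtype.ext
  show Matrix.transvection i j c * (w : Matrix (Fin (n + 1)) (Fin (n + 1)) K) = (w : Matrix (Fin (n + 1)) (Fin (n + 1)) K) * Matrix.transvection (i + 1) (j + 1) (c * ε K n j * (ε K n i)⁻¹)
  rw [hw]
  exact conj_W c

theorem gen (hn : 1 ≤ n) {w : Matrix.SpecialLinearGroup (Fin (n + 1)) K} (hw : (w : Matrix (Fin (n + 1)) (Fin (n + 1)) K) = W K n)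
    (H : Subgroup (Matrix.SpecialLinearGroup (Fin (n + 1)) K)) (hwH : w ∈ H) (h01 : (0 : Fin (n + 1)) ≠ 1) (hx : ∀ c : K, T h01 c ∈ H) : H = ⊤ := by
  -- adjacent transvections
  have hA : ∀ k : ℕ, ∀ i : Fin (n + 1), i.val = k → ∀ (h : i ≠ i + 1) (c : K), T h c ∈ H := by
    intro k
    induction k with
    | zero =>
      intro i hi h c
      have hi0 : i = 0 := Fin.ext hi
      have : T h c = T h01 c := by
        apply Subtype.ext
        show Matrix.transvection i (i + 1) c = Matrix.transvection 0 1 c
        rw [hi0, zero_add]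
      rw [this]
      exact hx c
    | succ k ih =>
      intro i hi h c
      have h1 : (i - 1).val = k := pred_val hi
      set i' := i - 1 with hi'
      have h2 : i' + 1 = i := by rw [hi', sub_add_cancel]
      have h' : i' ≠ i' + 1 := by
        intro h3
        apply h
        rw [← h2]
        exact congrArg (· + 1) h3
      have h3 := conj_w hw h' (c * ε K n i' * (ε K n (i' + 1))⁻¹)
      have h4 : c * ε K n i' * (ε K n (i' + 1))⁻¹ * ε K n (i' + 1) * (ε K n i')⁻¹ = c := by
        have e1 := ε_ne (K := K) i'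
        have e2 := ε_ne (K := K) (i' + 1)
        field_simp
      rw [h4] at h3
      have h5 : T h c = T (succ_ne h') c := by
        apply Subtype.ext
        show Matrix.transvection i (i + 1) c = Matrix.transvection (i' + 1) (i' + 1 + 1) c
        rw [h2]
      rw [h5, ← h3]
      exact H.mul_mem (H.mul_mem (H.inv_mem hwH) (ih i' h1 h' _)) hwH
  have hall : ∀ d : ℕ, ∀ (i j : Fin (n + 1)) (h : i ≠ j), (j - i).val = d + 1 → ∀ c : K, T h c ∈ H := by
    intro d
    induction d with
    | zero =>
      intro i j h hj c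
      have h1 : j - i = 1 := by
        apply Fin.ext
        rw [hj, Fin.val_one', Nat.mod_eq_of_lt (by omega)]
      have h2 : j = i + 1 := by rw [← h1]; abel
      subst h2
      exact hA _ i rfl h c
    | succ d ih =>
      intro i j h hj c
      set k : Fin (n + 1) := j - 1 with hk
      have hjk : k + 1 = j := by rw [hk, sub_add_cancel]
      have hki : (k - i).val = d + 1 := by
        have h1 : k - i = (j - i) - 1 := by rw [hk]; abel
        rw [h1]
        exact pred_val hj
      have hik : i ≠ k := by
        rintro rfl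
        rw [sub_self, Fin.val_zero] at hki
        omega
      have hkj : k ≠ j := by
        intro h1
        rw [← hjk] at h1
        have h2 : (1 : Fin (n + 1)) = 0 := by
          have h3 : k + 1 = k + 0 := by rw [add_zero]; exact h1.symm
          exact add_left_cancel h3
        exact h01 h2.symm
      rw [show T h c = ⁅T hik c, T hkj 1⁆ from (SLn.commutator_transvection h hik hkj c).symm, commutatorElement_def]
      have h1 : T hik c ∈ H := ih i k hik hki c
      have h2 : T hkj (1 : K) ∈ H := by
        have h3 : k ≠ k + 1 := by rw [hjk]; exact hkj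
        have h4 : T hkj (1 : K) = T h3 1 := by
          apply Subtype.ext
          show Matrix.transvection k j (1 : K) = Matrix.transvection k (k + 1) 1
          rw [hjk]
        rw [h4]
        exact hA _ k rfl h3 1
      exact H.mul_mem (H.mul_mem (H.mul_mem h1 h2) (H.inv_mem h1)) (H.inv_mem h2)
  rw [eq_top_iff, ← SLn.closure_transvectionSet, Subgroup.closure_le]
  rintro _ ⟨i, j, h, c, rfl⟩
  have h1 : (j - i).val ≠ 0 := by
    intro h2
    apply h
    have h3 : j - i = 0 := Fin.ext h2
    exact (sub_eq_zero.mp h3).symm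
  exact hall ((j - i).val - 1) i j h (by omega) c

theorem zero_ne_one' (hn : 1 ≤ n) : (0 : Fin (n + 1)) ≠ 1 := by
  intro h
  have h1 := congrArg Fin.val h
  rw [Fin.val_zero, Fin.val_one', Nat.mod_eq_of_lt (by omega)] at h1
  omega

theorem s2403 {K : Type*} [Field K] [Fintype K] (hK : Fintype.card K ≤ 3) (n : ℕ) (hn : 1 ≤ n)
    (x w : Matrix.SpecialLinearGroup (Fin (n + 1)) K)
    (hx : (x : Matrix (Fin (n + 1)) (Fin (n + 1)) K) = Matrix.transvection (0 : Fin (n + 1)) (1 : Fin (n + 1)) 1)
    (hw : (w : Matrix (Fin (n + 1)) (Fin (n + 1)) K) =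
      Matrix.of (fun i j => if j.val = i.val + 1 then 1 else if i.val = n ∧ j.val = 0 then (-1) ^ n else 0)) :
    Subgroup.closure ({x, w} : Set (Matrix.SpecialLinearGroup (Fin (n + 1)) K)) ⊔
      Subgroup.center (Matrix.SpecialLinearGroup (Fin (n + 1)) K) = ⊤ := by
  classical
  have h01 := zero_ne_one' (n := n) hn
  have hxT : x = T h01 1 := Subtype.ext hx
  have hxH : x ∈ Subgroup.closure ({x, w} : Set (Matrix.SpecialLinearGroup (Fin (n + 1)) K)) := Subgroup.subset_closure (Or.inl rfl)
  have hwH : w ∈ Subgroup.closure ({x, w} : Set (Matrix.SpecialLinearGroup (Fin (n + 1)) K)) := Subgroup.subset_closure (Or.inr rfl)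
  have htop := gen hn hw _ hwH h01 (fun c => by
    -- `c ∈ {0, 1, -1}`
    have hc : c = 0 ∨ c = 1 ∨ c = -1 := by
      by_contra hcon
      push Not at hcon
      obtain ⟨h0, h1, h2⟩ := hcon
      have h3 : c ^ (Fintype.card K - 1) = 1 := FiniteField.pow_card_sub_one_eq_one c h0
      have h4 : 1 < Fintype.card K := Fintype.one_lt_card
      have h5 : Fintype.card K = 2 ∨ Fintype.card K = 3 := by omega
      rcases h5 with h5 | h5
      · rw [h5] at h3
        exact h1 (by simpa using h3)
      · rw [h5] at h3
        have h6 : c * c = 1 := by rw [← pow_two]; exact h3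
        rcases mul_self_eq_one_iff.mp h6 with h | h
        · exact h1 h
        · exact h2 h
    rcases hc with rfl | rfl | rfl
    · have : T h01 (0 : K) = 1 := by
        apply Subtype.ext
        show Matrix.transvection (0 : Fin (n + 1)) 1 (0 : K) = 1
        rw [Matrix.transvection_zero]
      rw [this]; exact one_mem _
    · rw [← hxT]; exact hxH
    · have h1 : T h01 (-1 : K) = x⁻¹ := by
        rw [hxT]
        exact (Matrix.SpecialLinearGroup.transvection_inv h01 (1 : K)).symm
      rw [h1]
      exact inv_mem hxH)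
  rw [htop, top_sup_eq]

end Cfsg.Agent.Lib.Gn
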