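import Mathlib
import Cfsg.Agent.Lib.Gn1

/-! Two generators of the special linear group, large fields. -/

set_option linter.all false
set_option maxHeartbeats 1000000

namespace Cfsg.Agent.Lib.Gn

open Matrix
open scoped commutatorElement

variable {K : Type*} [Field K] {n : ℕ}

/-- additive subgroups stable under squares -/
theorem stable_top [Fintype K] (A : AddSubgroup K) (c0 : K) (hc0 : c0 ≠ 0) (hA0 : c0 ∈ A) (hsq : ∀ b : K, ∀ a ∈ A, b ^ 2 * a ∈ A) (c : K) : c ∈ A := by
  classical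
  have hall : ∀ b : K, ∀ a ∈ A, b * a ∈ A := by
    intro b a ha
    by_cases h2 : (2 : K) = 0
    · haveI : CharP K 2 := CharTwo.of_one_ne_zero_of_two_eq_zero one_ne_zero h2
      have hinj : Function.Injective (fun x : K => x ^ 2) := by
        intro x y hxy
        have h1 : (x - y) ^ 2 = 0 := by
          have h3 : x ^ 2 = y ^ 2 := hxy
          linear_combination h3 + (y ^ 2 - x * y) * h2
        exact sub_eq_zero.mp (pow_eq_zero_iff (two_ne_zero) |>.mp h1)
      obtain ⟨s, hs⟩ := (Finite.injective_iff_surjective.mp hinj) b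
      have hs' : s ^ 2 = b := hs
      rw [← hs']
      exact hsq s a ha
    · have h1 : b * a = ((b + 1) / 2) ^ 2 * a - ((b - 1) / 2) ^ 2 * a := by
        field_simp
        ring
      rw [h1]
      exact A.sub_mem (hsq _ a ha) (hsq _ a ha)
  have h1 := hall (c / c0) c0 hA0
  rwa [div_mul_cancel₀ c hc0] at h1

theorem diag_conj {D : Matrix.SpecialLinearGroup (Fin (n + 1)) K} {δ : Fin (n + 1) → K} (hD : (D : Matrix (Fin (n + 1)) (Fin (n + 1)) K) = Matrix.diagonal δ)
    {i j : Fin (n + 1)} (h : i ≠ j) (c : K) (hj : δ j ≠ 0) : D * T h c = T h (δ i * c * (δ j)⁻¹) * D := by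
  apply Subtype.ext
  show (D : Matrix (Fin (n + 1)) (Fin (n + 1)) K) * Matrix.transvection i j c = Matrix.transvection i j (δ i * c * (δ j)⁻¹) * (D : Matrix (Fin (n + 1)) (Fin (n + 1)) K)
  rw [hD, Matrix.transvection, Matrix.transvection, mul_add, add_mul, mul_one, one_mul]
  congr 1
  apply Matrix.ext
  intro a b
  rw [Matrix.diagonal_mul, Matrix.mul_diagonal, Matrix.single_apply, Matrix.single_apply]
  by_cases hab : i = a ∧ j = b
  · rw [if_pos hab, if_pos hab, ← hab.1, ← hab.2, mul_assoc, inv_mul_cancel₀ hj, mul_one]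
  · rw [if_neg hab, if_neg hab, mul_zero, zero_mul]

theorem s2402 {K : Type*} [Field K] [Fintype K] (hK : 3 < Fintype.card K) (n : ℕ) (hn : 1 ≤ n)
    (k : Kˣ) (hk : ∀ u : Kˣ, u ∈ Subgroup.zpowers k)
    (h x w : Matrix.SpecialLinearGroup (Fin (n + 1)) K)
    (hh : (h : Matrix (Fin (n + 1)) (Fin (n + 1)) K) =
      Matrix.diagonal (fun i => if i.val = 0 then (k : K) else if i.val = 1 then ((k⁻¹ : Kˣ) : K) else 1))
    (hx : (x : Matrix (Fin (n + 1)) (Fin (n + 1)) K) = Matrix.transvection (0 : Fin (n + 1)) (1 : Fin (n + 1)) 1)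
    (hw : (w : Matrix (Fin (n + 1)) (Fin (n + 1)) K) =
      Matrix.of (fun i j => if j.val = i.val + 1 then 1 else if i.val = n ∧ j.val = 0 then (-1) ^ n else 0)) :
    Subgroup.closure ({h, x * w} : Set (Matrix.SpecialLinearGroup (Fin (n + 1)) K)) ⊔
      Subgroup.center (Matrix.SpecialLinearGroup (Fin (n + 1)) K) = ⊤ := by
  classical
  have h01 := zero_ne_one' (n := n) hn
  have hxT : x = T h01 1 := Subtype.ext hx
  set H := Subgroup.closure ({h, x * w} : Set (Matrix.SpecialLinearGroup (Fin (n + 1)) K)) with hH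
  have hhH : h ∈ H := Subgroup.subset_closure (Or.inl rfl)
  have hyH : x * w ∈ H := Subgroup.subset_closure (Or.inr rfl)
  have hwW : (w : Matrix (Fin (n + 1)) (Fin (n + 1)) K) = W K n := hw
  set δ : Fin (n + 1) → K := fun i => if i.val = 0 then (k : K) else if i.val = 1 then ((k⁻¹ : Kˣ) : K) else 1 with hδ
  have hδne : ∀ i, δ i ≠ 0 := by
    intro i
    rw [hδ]
    dsimp only
    split_ifs
    · exact k.ne_zero
    · exact (k⁻¹).ne_zero
    · exact one_ne_zero
  have h1v : ((1 : Fin (n + 1)) : ℕ) = 1 := by rw [Fin.val_one', Nat.mod_eq_of_lt (by omega)]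
  have hδ0 : δ 0 = k := by rw [hδ]; dsimp only; rw [if_pos (Fin.val_zero _)]
  have hδ1 : δ 1 = ((k⁻¹ : Kˣ) : K) := by
    rw [hδ]; dsimp only; rw [if_neg (by rw [h1v]; exact one_ne_zero), if_pos h1v]
  -- orders
  have hok : orderOf k = Fintype.card K - 1 := by
    rw [orderOf_eq_card_of_forall_mem_zpowers hk, Nat.card_units, Nat.card_eq_fintype_card]
  have hk1 : (k : K) ≠ 1 := by
    intro h'
    have : k = 1 := Units.ext h'
    rw [this, orderOf_one] at hok
    omega
  have hk2 : (k : K) ^ 2 ≠ 1 := by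
    intro h'
    have h2 : k ^ 2 = 1 := Units.ext (by rw [Units.val_pow_eq_pow_val]; exact h')
    have h3 := Nat.le_of_dvd (by norm_num) (orderOf_dvd_of_pow_eq_one h2)
    omega
  -- the conjugate
  set h1 := w * h * w⁻¹ with hh1
  have hh1D : (h1 : Matrix (Fin (n + 1)) (Fin (n + 1)) K) = Matrix.diagonal (fun i => δ (i + 1)) := by
    have e1 : (h1 : Matrix (Fin (n + 1)) (Fin (n + 1)) K) * (w : Matrix (Fin (n + 1)) (Fin (n + 1)) K) = Matrix.diagonal (fun i => δ (i + 1)) * (w : Matrix (Fin (n + 1)) (Fin (n + 1)) K) := by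
      have e2 : h1 * w = w * h := by rw [hh1, inv_mul_cancel_right]
      have e3 : (h1 : Matrix (Fin (n + 1)) (Fin (n + 1)) K) * (w : Matrix (Fin (n + 1)) (Fin (n + 1)) K) = (w : Matrix (Fin (n + 1)) (Fin (n + 1)) K) * (h : Matrix (Fin (n + 1)) (Fin (n + 1)) K) := congrArg Subtype.val e2
      rw [e3, hh, hwW]
      apply Matrix.ext
      intro a b
      rw [Matrix.diagonal_mul, Matrix.mul_diagonal, W_apply]
      by_cases hb : b = a + 1
      · rw [if_pos hb, hb, mul_comm]
      · rw [if_neg hb, zero_mul, mul_zero]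
    have e4 : (w : Matrix (Fin (n + 1)) (Fin (n + 1)) K) * ((w⁻¹ : Matrix.SpecialLinearGroup (Fin (n + 1)) K) : Matrix (Fin (n + 1)) (Fin (n + 1)) K) = 1 := congrArg Subtype.val (mul_inv_cancel w)
    calc (h1 : Matrix (Fin (n + 1)) (Fin (n + 1)) K) = (h1 : Matrix (Fin (n + 1)) (Fin (n + 1)) K) * ((w : Matrix (Fin (n + 1)) (Fin (n + 1)) K) * ((w⁻¹ : Matrix.SpecialLinearGroup (Fin (n + 1)) K) : Matrix (Fin (n + 1)) (Fin (n + 1)) K)) := by rw [e4, mul_one]
      _ = (Matrix.diagonal (fun i => δ (i + 1)) * (w : Matrix (Fin (n + 1)) (Fin (n + 1)) K)) * ((w⁻¹ : Matrix.SpecialLinearGroup (Fin (n + 1)) K) : Matrix (Fin (n + 1)) (Fin (n + 1)) K) := by rw [← mul_assoc, e1]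
      _ = _ := by rw [mul_assoc, e4, mul_one]
  set r : K := δ (0 + 1) * (δ (1 + 1))⁻¹ with hr
  have hr1 : r ≠ 1 := by
    rw [hr, zero_add, hδ1]
    intro h'
    have h2 : δ (1 + 1) = ((k⁻¹ : Kˣ) : K) := by
      rw [mul_inv_eq_one₀ (hδne _)] at h'
      exact h'.symm
    by_cases hn1 : n = 1
    · have h3 : (1 + 1 : Fin (n + 1)) = 0 := by
        apply Fin.ext
        rw [val_succ', h1v, if_pos hn1.symm, Fin.val_zero]
      rw [h3, hδ0] at h2
      apply hk2
      have h4 : (k : K) * ((k⁻¹ : Kˣ) : K) = 1 := Units.mul_inv k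
      rw [← h2] at h4
      rw [pow_two]; exact h4
    · have h3 : ((1 + 1 : Fin (n + 1)) : ℕ) = 2 := by
        rw [val_succ', h1v, if_neg (fun h => hn1 h.symm)]
      rw [hδ] at h2
      dsimp only at h2
      rw [if_neg (by rw [h3]; norm_num), if_neg (by rw [h3]; norm_num)] at h2
      apply hk1
      have h4 : (k : K) * ((k⁻¹ : Kˣ) : K) = 1 := Units.mul_inv k
      rw [← h2, mul_one] at h4
      exact h4
  have hcT : ∀ c : K, h * T h01 c = T h01 ((k : K) ^ 2 * c) * h := by
    intro c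
    rw [diag_conj hh h01 c (hδne 1)]
    congr 2
    rw [hδ0, hδ1, Units.val_inv_eq_inv_val, inv_inv]
    ring
  have hc1 : ∀ c : K, h1 * T h01 c = T h01 (r * c) * h1 := by
    intro c
    rw [diag_conj hh1D h01 c (hδne _)]
    congr 2
    rw [hr]
    ring
  have hcomm : h * h1 = h1 * h := by
    apply Subtype.ext
    show (h : Matrix (Fin (n + 1)) (Fin (n + 1)) K) * (h1 : Matrix (Fin (n + 1)) (Fin (n + 1)) K) = (h1 : Matrix (Fin (n + 1)) (Fin (n + 1)) K) * (h : Matrix (Fin (n + 1)) (Fin (n + 1)) K)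
    rw [hh, hh1D, Matrix.diagonal_mul_diagonal, Matrix.diagonal_mul_diagonal]
    congr 1
    funext i
    exact mul_comm _ _
  have hTadd : ∀ a b : K, T h01 a * T h01 b = T h01 (a + b) := by
    intro a b
    apply Subtype.ext
    show Matrix.transvection (0 : Fin (n + 1)) 1 a * Matrix.transvection 0 1 b = Matrix.transvection 0 1 (a + b)
    exact Matrix.transvection_mul_transvection_same _ _ h01 _ _
  have hTinv : ∀ a : K, (T h01 a)⁻¹ = T h01 (-a) := fun a => Matrix.SpecialLinearGroup.transvection_inv h01 a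
  -- the element `h'`
  have hh' : (x * w) * h * (x * w)⁻¹ = T h01 (1 - r) * h1 := by
    have e1 : (x * w) * h * (x * w)⁻¹ = x * h1 * x⁻¹ := by rw [hh1]; group
    rw [e1, mul_inv_eq_iff_eq_mul, hxT, mul_assoc (T h01 (1 - r)) h1, hc1, ← mul_assoc (T h01 (1 - r)), hTadd]
    congr 2
    ring
  have hc0 : T h01 (((k : K) ^ 2 - 1) * (1 - r)) ∈ H := by
    have e1 : h * ((x * w) * h * (x * w)⁻¹) * h⁻¹ * ((x * w) * h * (x * w)⁻¹)⁻¹ ∈ H := by
      have m1 : (x * w) * h * (x * w)⁻¹ ∈ H := H.mul_mem (H.mul_mem hyH hhH) (H.inv_mem hyH)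
      exact H.mul_mem (H.mul_mem (H.mul_mem hhH m1) (H.inv_mem hhH)) (H.inv_mem m1)
    rw [hh'] at e1
    have e2 : h * (T h01 (1 - r) * h1) * h⁻¹ * (T h01 (1 - r) * h1)⁻¹ = T h01 (((k : K) ^ 2 - 1) * (1 - r)) := by
      calc h * (T h01 (1 - r) * h1) * h⁻¹ * (T h01 (1 - r) * h1)⁻¹ = (h * T h01 (1 - r)) * h1 * h⁻¹ * h1⁻¹ * (T h01 (1 - r))⁻¹ := by group
        _ = T h01 ((k : K) ^ 2 * (1 - r)) * (h * h1) * h⁻¹ * h1⁻¹ * (T h01 (1 - r))⁻¹ := by rw [hcT]; group
        _ = T h01 ((k : K) ^ 2 * (1 - r)) * (T h01 (1 - r))⁻¹ := by rw [hcomm]; group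
        _ = _ := by
          rw [hTinv, hTadd]
          congr 1
          ring
    rwa [e2] at e1
  let A : AddSubgroup K :=
    { carrier := {c | T h01 c ∈ H}
      add_mem' := by
        intro a b ha hb
        show T h01 (a + b) ∈ H
        rw [← hTadd]
        exact H.mul_mem ha hb
      zero_mem' := by
        show T h01 (0 : K) ∈ H
        have : T h01 (0 : K) = 1 := by
          apply Subtype.ext
          show Matrix.transvection (0 : Fin (n + 1)) 1 (0 : K) = 1
          rw [Matrix.transvection_zero]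
        rw [this]; exact H.one_mem
      neg_mem' := by
        intro a ha
        show T h01 (-a) ∈ H
        rw [← hTinv]
        exact H.inv_mem ha }
  have hAk : ∀ a ∈ A, (k : K) ^ 2 * a ∈ A := by
    intro a ha
    show T h01 ((k : K) ^ 2 * a) ∈ H
    have : T h01 ((k : K) ^ 2 * a) = h * T h01 a * h⁻¹ := by rw [hcT, mul_inv_cancel_right]
    rw [this]
    exact H.mul_mem (H.mul_mem hhH ha) (H.inv_mem hhH)
  have hAkj : ∀ j : ℕ, ∀ a ∈ A, ((k : K) ^ j) ^ 2 * a ∈ A := by
    intro j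
    induction j with
    | zero => intro a ha; rw [pow_zero, one_pow, one_mul]; exact ha
    | succ j ih =>
      intro a ha
      have : ((k : K) ^ (j + 1)) ^ 2 * a = (k : K) ^ 2 * (((k : K) ^ j) ^ 2 * a) := by ring
      rw [this]
      exact hAk _ (ih a ha)
  have hAsq : ∀ b : K, ∀ a ∈ A, b ^ 2 * a ∈ A := by
    intro b a ha
    by_cases hb : b = 0
    · rw [hb, zero_pow two_ne_zero, zero_mul]; exact A.zero_mem
    · obtain ⟨j, hj⟩ : ∃ j : ℕ, k ^ j = Units.mk0 b hb := by
        have := hk (Units.mk0 b hb)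
        rwa [← mem_powers_iff_mem_zpowers] at this
      have hj' : (k : K) ^ j = b := by
        rw [← Units.val_pow_eq_pow_val, hj, Units.val_mk0]
      rw [← hj']
      exact hAkj j a ha
  have hall : ∀ c : K, T h01 c ∈ H := by
    intro c
    exact stable_top A _ (mul_ne_zero (sub_ne_zero.mpr hk2) (sub_ne_zero.mpr (Ne.symm hr1))) hc0 hAsq c
  have hxH : x ∈ H := by rw [hxT]; exact hall 1
  have hwH : w ∈ H := by
    have : w = x⁻¹ * (x * w) := by group
    rw [this]
    exact H.mul_mem (H.inv_mem hxH) hyH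
  rw [gen hn hwW H hwH h01 hall, top_sup_eq]

end Cfsg.Agent.Lib.Gn
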