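import Mathlib
import Cfsg.Agent.Lib.Basic
import Cfsg.Agent.Lib.CharFrobThm
import Cfsg.Agent.Lib.H3Socle

/-! Burnside: minimal normal subgroups of 2-transitive groups (helper3) -/

set_option autoImplicit false

namespace Cfsg.Agent.Lib.H3Burn

open Subgroup MulAction Cfsg.Agent.Lib.H3Socle
open scoped Pointwise

universe u
variable {G : Type u} [Group G] [Finite G] {α : Type*} [Fintype α] [MulAction G α] [FaithfulSMul G α]

theorem ext_act {g h : G} (H : ∀ x : α, g • x = h • x) : g = h := FaithfulSMul.eq_of_smul_eq_smul H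

theorem normal_tr (h2 : ∀ a b c d : α, a ≠ b → c ≠ d → ∃ g : G, g • a = c ∧ g • b = d) (N : Subgroup G) [hNn : N.Normal]
    (hN : N ≠ ⊥) (x y : α) : ∃ m ∈ N, m • x = y := by
  by_cases hxy : x = y
  · exact ⟨1, one_mem _, by rw [one_smul, hxy]⟩
  obtain ⟨⟨n, hn⟩, hn1⟩ := Subgroup.ne_bot_iff_exists_ne_one.1 hN
  obtain ⟨c, hc⟩ : ∃ c : α, n • c ≠ c := by
    by_contra hcon
    push Not at hcon
    apply hn1
    apply Subtype.ext
    exact ext_act (α := α) (fun x => by rw [hcon x]; exact (one_smul G x).symm)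
  obtain ⟨g, h1, h3⟩ := h2 c (n • c) x y hc.symm hxy
  refine ⟨g * n * g⁻¹, hNn.conj_mem n hn g, ?_⟩
  rw [mul_smul, mul_smul, ← h1, inv_smul_smul, h3]

theorem semireg {A B : Subgroup G} (hcomm : ∀ a ∈ A, ∀ b ∈ B, a * b = b * a) (hB : ∀ x y : α, ∃ b ∈ B, b • x = y)
    {a : G} (ha : a ∈ A) {x : α} (hx : a • x = x) : a = 1 := by
  apply ext_act (α := α)
  intro y
  obtain ⟨b, hb, rfl⟩ := hB x y
  rw [one_smul, ← mul_smul, hcomm a ha b hb, mul_smul, hx]

theorem regular_case (h2 : ∀ a b c d : α, a ≠ b → c ≠ d → ∃ g : G, g • a = c ∧ g • b = d) (N : Subgroup G) [hNn : N.Normal]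
    (hN : N ≠ ⊥) (hmin : ∀ M : Subgroup G, M.Normal → M ≤ N → M = ⊥ ∨ M = N)
    (hreg : ∀ n ∈ N, ∀ x : α, n • x = x → n = 1) : IsMulCommutative N ∧ ∃ p : ℕ, p.Prime ∧ ∀ n ∈ N, n ^ p = 1 := by
  have hcard : Nat.card N ≠ 1 := fun h => hN (Subgroup.card_eq_one.1 h)
  obtain ⟨p, hp, hpd⟩ := Nat.exists_prime_and_dvd hcard
  haveI : Fact p.Prime := ⟨hp⟩
  obtain ⟨z, hz⟩ := exists_prime_orderOf_dvd_card' (G := N) p hpd
  have hz1 : (z : G) ≠ 1 := by
    intro h
    have : z = 1 := Subtype.ext h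
    rw [this, orderOf_one] at hz
    exact hp.one_lt.ne hz
  have hzp : (z : G) ^ p = 1 := by
    have := pow_orderOf_eq_one z
    rw [hz] at this
    exact_mod_cast congrArg Subtype.val this
  obtain ⟨a, ha⟩ : ∃ c : α, (z : G) • c ≠ c := by
    by_contra hcon
    push Not at hcon
    exact hz1 (ext_act (α := α) (fun x => by rw [hcon x, one_smul]))
  have key : ∀ n ∈ N, n ^ p = 1 := by
    intro n hn
    by_cases hn1 : n = 1
    · rw [hn1, one_pow]
    have hna : n • a ≠ a := fun h => hn1 (hreg n hn a h)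
    obtain ⟨g, h1, h3⟩ := h2 a ((z : G) • a) a (n • a) ha.symm hna.symm
    have h4 : (n⁻¹ * (g * z * g⁻¹)) • a = a := by
      have h5 : g⁻¹ • a = a := by rw [inv_smul_eq_iff, h1]
      rw [mul_smul, mul_smul, mul_smul, h5, h3, inv_smul_smul]
    have h5 := hreg _ (mul_mem (inv_mem hn) (hNn.conj_mem _ z.2 g)) a h4
    have h6 : g * z * g⁻¹ = n := by
      rw [inv_mul_eq_one] at h5
      exact h5.symm
    rw [← h6, conj_pow, hzp, mul_one, mul_inv_cancel]
  refine ⟨?_, p, hp, key⟩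
  have hpg : IsPGroup p N := by
    intro n
    refine ⟨1, ?_⟩
    rw [pow_one]
    exact Subtype.ext (by exact_mod_cast key n n.2)
  haveI : Nontrivial N := by
    rw [← Finite.one_lt_card_iff_nontrivial]
    have := Nat.card_pos (α := N)
    omega
  have hc : Nontrivial (center N) := hpg.center_nontrivial
  have hM : ((center N).map N.subtype).Normal := by
    constructor
    rintro _ ⟨n, hn, rfl⟩ g
    refine ⟨⟨g * n * g⁻¹, hNn.conj_mem _ n.2 g⟩, ?_, rfl⟩
    rw [SetLike.mem_coe, mem_center_iff]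
    intro m
    apply Subtype.ext
    change (m : G) * (g * n * g⁻¹) = (g * n * g⁻¹) * m
    have h1 := mem_center_iff.1 hn ⟨g⁻¹ * m * g, by
      have := hNn.conj_mem _ m.2 g⁻¹
      rwa [inv_inv] at this⟩
    have h3 : (g⁻¹ * (m : G) * g) * n = n * (g⁻¹ * (m : G) * g) := congrArg Subtype.val h1
    calc (m : G) * (g * n * g⁻¹) = g * ((g⁻¹ * m * g) * n) * g⁻¹ := by group
      _ = g * (n * (g⁻¹ * (m : G) * g)) * g⁻¹ := by rw [h3]
      _ = (g * n * g⁻¹) * m := by group
  rcases hmin _ hM (by rintro _ ⟨n, -, rfl⟩; exact n.2) with h | h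
  · exfalso
    rw [Subgroup.map_eq_bot_iff_of_injective _ N.subtype_injective] at h
    rw [h] at hc
    exact not_subsingleton _ (inferInstance : Subsingleton (⊥ : Subgroup N))
  · refine ⟨⟨fun x y => ?_⟩⟩
    have hx : (x : G) ∈ (center N).map N.subtype := by rw [h]; exact x.2
    obtain ⟨x', hx', hxx⟩ := hx
    have : x' = x := Subtype.ext hxx
    rw [← this]
    exact (mem_center_iff.1 hx' y).symm

/-- blocks -/
def Blk (N : Subgroup G) (B : Finset α) : Prop := ∀ n ∈ N, ∀ x ∈ B, n • x ∈ B → ∀ y ∈ B, n • y ∈ B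

theorem prim_case (h2 : ∀ a b c d : α, a ≠ b → c ≠ d → ∃ g : G, g • a = c ∧ g • b = d) (N : Subgroup G) [hNn : N.Normal]
    (hN : N ≠ ⊥) (hmin : ∀ M : Subgroup G, M.Normal → M ≤ N → M = ⊥ ∨ M = N) {a : α}
    (hna : MulAction.stabilizer N a ≠ ⊥) : IsPreprimitive N α := by
  classical
  haveI : IsPretransitive N α := ⟨fun x y => by
    obtain ⟨m, hm, h⟩ := normal_tr h2 N hN x y
    exact ⟨⟨m, hm⟩, h⟩⟩
  refine { isTrivialBlock_of_isBlock := ?_ }
  intro B₀ hB₀
  by_contra hnt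
  unfold IsTrivialBlock at hnt
  push Not at hnt
  obtain ⟨hnt1, hnt2⟩ := hnt
  obtain ⟨x₀, hx₀, y₀, hy₀, hxy₀⟩ := hnt1
  let S : Finset (Finset α) := Finset.univ.filter (fun B => Blk N B ∧ 2 ≤ B.card)
  have hB₀S : B₀.toFinset ∈ S := by
    rw [Finset.mem_filter]
    refine ⟨Finset.mem_univ _, ?_, ?_⟩
    · intro n hn x hx hnx y hy
      rw [Set.mem_toFinset] at hx hnx hy ⊢
      have h3 : (⟨n, hn⟩ : N) • B₀ = B₀ := hB₀.smul_eq_of_nonempty ⟨n • x, ⟨x, hx, rfl⟩, hnx⟩
      rw [← h3]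
      exact ⟨y, hy, rfl⟩
    · have : ({x₀, y₀} : Finset α).card = 2 := Finset.card_pair hxy₀
      rw [← this]
      apply Finset.card_le_card
      intro z hz
      rw [Set.mem_toFinset]
      rw [Finset.mem_insert, Finset.mem_singleton] at hz
      rcases hz with rfl | rfl
      · exact hx₀
      · exact hy₀
  obtain ⟨B, hBS, hBmin⟩ := Finset.exists_min_image S Finset.card ⟨_, hB₀S⟩
  have hBlt : B.card < Fintype.card α := by
    refine lt_of_le_of_lt (hBmin _ hB₀S) ?_
    rw [← Finset.card_univ]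
    apply Finset.card_lt_card
    rw [Finset.ssubset_univ_iff]
    intro h
    exact hnt2 (by rwa [Set.toFinset_eq_univ] at h)
  rw [Finset.mem_filter] at hBS
  obtain ⟨-, hBblk, hB2⟩ := hBS
  obtain ⟨u, hu, v, hv, huv⟩ := Finset.one_lt_card.1 hB2
  -- lines
  have hline : ∀ x y : α, x ≠ y → ∃ L : Finset α, Blk N L ∧ L.card = B.card ∧ x ∈ L ∧ y ∈ L := by
    intro x y hxy
    obtain ⟨g, rfl, rfl⟩ := h2 u v x y huv hxy
    refine ⟨B.image (g • ·), ?_, Finset.card_image_of_injective _ (MulAction.injective g), Finset.mem_image_of_mem _ hu,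
      Finset.mem_image_of_mem _ hv⟩
    intro n hn x hx hnx y hy
    rw [Finset.mem_image] at hx hnx hy
    obtain ⟨x', hx', rfl⟩ := hx
    obtain ⟨w, hw, hw2⟩ := hnx
    obtain ⟨y', hy', rfl⟩ := hy
    have hn' : g⁻¹ * n * g ∈ N := by
      have := hNn.conj_mem _ hn g⁻¹
      rwa [inv_inv] at this
    have h3 : (g⁻¹ * n * g) • x' = w := by
      rw [mul_smul, mul_smul, ← hw2, inv_smul_smul]
    have h4 := hBblk _ hn' x' hx' (by rw [h3]; exact hw) y' hy'
    rw [Finset.mem_image]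
    refine ⟨_, h4, ?_⟩
    change g • (g⁻¹ * n * g) • y' = n • g • y'
    rw [mul_smul, mul_smul, smul_inv_smul]
  have huniq : ∀ (L L' : Finset α), Blk N L → L.card = B.card → Blk N L' → L'.card = B.card → ∀ x y : α, x ≠ y →
      x ∈ L → y ∈ L → x ∈ L' → y ∈ L' → L = L' := by
    intro L L' hL hLc hL' hLc' x y hxy h1 h3 h4 h5
    have hI : L ∩ L' ∈ S := by
      rw [Finset.mem_filter]
      refine ⟨Finset.mem_univ _, ?_, ?_⟩
      · intro n hn z hz hnz w hw
        rw [Finset.mem_inter] at hz hnz hw ⊢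
        exact ⟨hL n hn z hz.1 hnz.1 w hw.1, hL' n hn z hz.2 hnz.2 w hw.2⟩
      · exact Finset.one_lt_card.2 ⟨x, Finset.mem_inter.2 ⟨h1, h4⟩, y, Finset.mem_inter.2 ⟨h3, h5⟩, hxy⟩
    have h6 := hBmin _ hI
    have h7 : L ∩ L' = L := Finset.eq_of_subset_of_card_le Finset.inter_subset_left (by omega)
    have h8 : L ∩ L' = L' := Finset.eq_of_subset_of_card_le Finset.inter_subset_right (by omega)
    rw [← h7, h8]
  -- two-point stabilizers are trivial
  have hstep : ∀ n ∈ N, ∀ x y : α, x ≠ y → n • x = x → n • y = y → ∀ L : Finset α, Blk N L → L.card = B.card → x ∈ L → y ∈ L →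
      ∀ c, c ∉ L → n • c = c := by
    intro n hn x y hxy hx hy L hL hLc hxL hyL c hc
    by_contra hcc
    have hcx : c ≠ x := by rintro rfl; exact hc hxL
    have hcy : c ≠ y := by rintro rfl; exact hc hyL
    obtain ⟨L1, hL1, hL1c, hx1, hc1⟩ := hline x c hcx.symm
    obtain ⟨L2, hL2, hL2c, hy2, hc2⟩ := hline y c hcy.symm
    have h3 : n • c ∈ L1 := hL1 n hn x hx1 (by rw [hx]; exact hx1) c hc1
    have h4 : n • c ∈ L2 := hL2 n hn y hy2 (by rw [hy]; exact hy2) c hc2
    have h5 := huniq L1 L2 hL1 hL1c hL2 hL2c _ _ hcc h3 hc1 h4 hc2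
    rw [← h5] at hy2
    have h6 := huniq L L1 hL hLc hL1 hL1c x y hxy hxL hyL hx1 hy2
    rw [h6] at hc
    exact hc hc1
  have hfix : ∀ n ∈ N, ∀ x y : α, x ≠ y → n • x = x → n • y = y → n = 1 := by
    intro n hn x y hxy hx hy
    obtain ⟨L, hL, hLc, hxL, hyL⟩ := hline x y hxy
    obtain ⟨c, hc⟩ : ∃ c, c ∉ L := by
      by_contra hcon
      push Not at hcon
      have h3 : L = Finset.univ := Finset.eq_univ_of_forall hcon
      rw [h3, Finset.card_univ] at hLc
      omega
    have hcfix := hstep n hn x y hxy hx hy L hL hLc hxL hyL c hc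
    apply ext_act (α := α)
    intro d
    rw [one_smul]
    by_cases hd : d ∈ L
    · by_cases hdx : d = x
      · rw [hdx, hx]
      · have hcx : c ≠ x := by rintro rfl; exact hc hxL
        obtain ⟨L1, hL1, hL1c, hx1, hc1⟩ := hline x c hcx.symm
        apply hstep n hn x c hcx.symm hx hcfix L1 hL1 hL1c hx1 hc1
        intro hd1
        have h6 := huniq L L1 hL hLc hL1 hL1c x d (Ne.symm hdx) hxL hd hx1 hd1
        rw [h6] at hc
        exact hc hc1
    · exact hstep n hn x y hxy hx hy L hL hLc hxL hyL d hd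
  -- Frobenius
  have hTI : Frob.TI (MulAction.stabilizer N a) := by
    intro g hg
    rw [eq_bot_iff]
    intro t ht
    rw [Subgroup.mem_inf, Subgroup.mem_pointwise_smul_iff_inv_smul_mem] at ht
    obtain ⟨h3, h4⟩ := ht
    have h5 : (g⁻¹ * t * g) • a = a := by
      have h6 : (MulAut.conj g)⁻¹ • t = g⁻¹ * t * g := by
        rw [← map_inv, MulAut.smul_def, MulAut.conj_apply, inv_inv]
      rw [h6] at h4
      exact h4
    have h6 : t • (g • a) = g • a := by
      rw [mul_smul, mul_smul, inv_smul_eq_iff] at h5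
      exact h5
    have h7 : g • a ≠ a := fun h => hg h
    have h8 := hfix t t.2 (g • a) a h7 h6 h3
    rw [Subgroup.mem_bot]
    exact Subtype.ext h8
  obtain ⟨K, hK, hKn, hKc⟩ := CharFrobThm.frobenius hTI
  have hmem : ∀ x : N, x ∈ K ↔ x = 1 ∨ ∀ y : α, (x : G) • y ≠ y := by
    intro x
    have h3 : x ∈ K ↔ x ∈ frobeniusKernel (MulAction.stabilizer N a) := by rw [← hK]; rfl
    rw [h3]
    unfold frobeniusKernel
    rw [Set.mem_setOf_eq]
    apply or_congr Iff.rfl
    constructor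
    · intro h4 y hy
      obtain ⟨g, rfl⟩ := exists_smul_eq N a y
      apply h4 g
      rw [Subgroup.mem_pointwise_smul_iff_inv_smul_mem, ← map_inv, MulAut.smul_def, MulAut.conj_apply, inv_inv,
        MulAction.mem_stabilizer_iff, mul_smul, mul_smul, inv_smul_eq_iff]
      exact hy
    · intro h4 g hg
      rw [Subgroup.mem_pointwise_smul_iff_inv_smul_mem, ← map_inv, MulAut.smul_def, MulAut.conj_apply, inv_inv,
        MulAction.mem_stabilizer_iff, mul_smul, mul_smul, inv_smul_eq_iff] at hg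
      exact h4 (g • a) hg
  have hM : (K.map N.subtype).Normal := by
    constructor
    rintro _ ⟨k, hk, rfl⟩ g
    refine ⟨⟨g * k * g⁻¹, hNn.conj_mem _ k.2 g⟩, ?_, rfl⟩
    rw [SetLike.mem_coe, hmem] at hk ⊢
    rcases hk with rfl | hk
    · left
      apply Subtype.ext
      change g * 1 * g⁻¹ = 1
      group
    · right
      intro y hy
      apply hk (g⁻¹ • y)
      change (g * (k : G) * g⁻¹) • y = y at hy
      rw [mul_smul, mul_smul, ← eq_inv_smul_iff] at hy
      exact hy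
  rcases hmin _ hM (by rintro _ ⟨n, -, rfl⟩; exact n.2) with h | h
  · rw [Subgroup.map_eq_bot_iff_of_injective _ N.subtype_injective] at h
    rw [h, Subgroup.isComplement'_bot_left] at hKc
    obtain ⟨m, hm⟩ := exists_smul_eq N u v
    -- everything is fixed by N
    have h3 : ∀ m : N, m • a = a := fun m => by
      have : m ∈ MulAction.stabilizer N a := by rw [hKc]; trivial
      exact this
    obtain ⟨m1, hm1⟩ := exists_smul_eq N a u
    obtain ⟨m2, hm2⟩ := exists_smul_eq N a v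
    rw [h3] at hm1 hm2
    exact huv (hm1.symm.trans hm2)
  · have hKt : K = ⊤ := by
      rw [eq_top_iff]
      intro x _
      have h3 : (x : G) ∈ K.map N.subtype := by rw [h]; exact x.2
      obtain ⟨x', hx', hxx⟩ := h3
      have : x' = x := Subtype.ext hxx
      rw [← this]; exact hx'
    rw [hKt, Subgroup.isComplement'_top_left] at hKc
    exact hna hKc

end Cfsg.Agent.Lib.H3Burn
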