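import Cfsg.Agent.Lib.H3Burn

/-! Burnside: minimal normal subgroups of 2-transitive groups, part two (helper3) -/

set_option autoImplicit false

namespace Cfsg.Agent.Lib.H3Burn

open Subgroup MulAction Cfsg.Agent.Lib.H3Socle
open scoped Pointwise

universe u
variable {G : Type u} [Group G] [Finite G] {α : Type*} [Fintype α] [MulAction G α] [FaithfulSMul G α]

theorem semireg1 {B : Subgroup G} {a : G} (hcomm : ∀ b ∈ B, a * b = b * a) (hB : ∀ x y : α, ∃ b ∈ B, b • x = y)
    {x : α} (hx : a • x = x) : a = 1 := by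
  apply ext_act (α := α)
  intro y
  obtain ⟨b, hb, rfl⟩ := hB x y
  rw [one_smul, ← mul_smul, hcomm b hb, mul_smul, hx]

theorem sum_orbits (H : Type*) [Group H] (Ω : Type*) [Finite Ω] [MulAction H Ω] [Fintype (MulAction.orbitRel.Quotient H Ω)] :
    Nat.card Ω = ∑ ω : MulAction.orbitRel.Quotient H Ω, Nat.card ω.orbit := by
  rw [Nat.card_congr (MulAction.selfEquivSigmaOrbits' H Ω), Nat.card_sigma]

theorem simple_case (h2 : ∀ a b c d : α, a ≠ b → c ≠ d → ∃ g : G, g • a = c ∧ g • b = d) (N : Subgroup G) [hNn : N.Normal]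
    (hN : N ≠ ⊥) (hmin : ∀ M : Subgroup G, M.Normal → M ≤ N → M = ⊥ ∨ M = N) {a : α}
    (hna : MulAction.stabilizer N a ≠ ⊥) (hprim : IsPreprimitive N α) : IsSimpleGroup N := by
  classical
  haveI := hprim
  -- transitivity of invariant subgroups
  have tr : ∀ M : Subgroup G, M ≤ N → (∀ n ∈ N, ∀ m ∈ M, n * m * n⁻¹ ∈ M) → M ≠ ⊥ →
      ∀ x y : α, ∃ m ∈ M, m • x = y := by
    intro M hMN hM hM1
    haveI : (M.subgroupOf N).Normal := ⟨fun m hm n => hM n n.2 m hm⟩
    have h3 : fixedPoints (M.subgroupOf N) α ≠ Set.univ := by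
      intro h
      apply hM1
      rw [eq_bot_iff]
      intro m hm
      rw [Subgroup.mem_bot]
      apply ext_act (α := α)
      intro x
      have h4 : x ∈ fixedPoints (M.subgroupOf N) α := by rw [h]; trivial
      rw [one_smul]
      exact h4 ⟨⟨m, hMN hm⟩, hm⟩
    have h4 : IsPretransitive (M.subgroupOf N) α := IsQuasiPreprimitive.isPretransitive_of_normal h3
    intro x y
    obtain ⟨m, hm⟩ := h4.exists_smul_eq x y
    exact ⟨m.1.1, m.2, hm⟩
  haveI : Nontrivial N := by
    rw [← Subgroup.nontrivial_iff_ne_bot] at hN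
    exact hN
  refine ⟨fun M₀ hM₀ => ?_⟩
  by_contra hcon
  push Not at hcon
  obtain ⟨hM1, hM2⟩ := hcon
  obtain ⟨T, ⟨hTM, hT1, hTn⟩, hTmin⟩ : ∃ T : Subgroup G, (T ≤ M₀.map N.subtype ∧ T ≠ ⊥ ∧ ∀ n ∈ N, ∀ t ∈ T, n * t * n⁻¹ ∈ T) ∧
      ∀ K : Subgroup G, (K ≤ M₀.map N.subtype ∧ K ≠ ⊥ ∧ ∀ n ∈ N, ∀ t ∈ K, n * t * n⁻¹ ∈ K) → K ≤ T → K = T := by
    obtain ⟨T, hT, hmin'⟩ := (Set.toFinite {T : Subgroup G | T ≤ M₀.map N.subtype ∧ T ≠ ⊥ ∧
      ∀ n ∈ N, ∀ t ∈ T, n * t * n⁻¹ ∈ T}).exists_minimal ⟨M₀.map N.subtype, le_rfl, by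
        intro h
        rw [Subgroup.map_eq_bot_iff_of_injective _ N.subtype_injective] at h
        exact hM1 h, by
        rintro n hn _ ⟨t, ht, rfl⟩
        exact ⟨_, hM₀.conj_mem t ht ⟨n, hn⟩, rfl⟩⟩
    exact ⟨T, hT, fun K hK hle => le_antisymm hle (hmin' hK hle)⟩
  have hTN : T ≤ N := hTM.trans (by rintro _ ⟨t, -, rfl⟩; exact t.2)
  -- conjugates
  have cN : ∀ g : G, cjj g T ≤ N := by
    intro g x hx
    rw [mem_cjj] at hx
    have h3 := hNn.conj_mem _ (hTN hx) g
    have h4 : g * (g⁻¹ * x * g) * g⁻¹ = x := by group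
    rwa [h4] at h3
  have cinv : ∀ g : G, ∀ n ∈ N, ∀ t ∈ cjj g T, n * t * n⁻¹ ∈ cjj g T := by
    intro g n hn t ht
    rw [mem_cjj] at ht ⊢
    have h3 : g⁻¹ * n * g ∈ N := by
      have := hNn.conj_mem _ hn g⁻¹
      rwa [inv_inv] at this
    have h4 := hTn _ h3 _ ht
    have h5 : g⁻¹ * n * g * (g⁻¹ * t * g) * (g⁻¹ * n * g)⁻¹ = g⁻¹ * (n * t * n⁻¹) * g := by group
    rwa [h5] at h4
  have ccard : ∀ g : G, Nat.card (cjj g T) = Nat.card T := fun g =>
    (Nat.card_congr (T.equivMapOfInjective _ (MulAut.conj g).injective).toEquiv).symm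
  have cne : ∀ g : G, cjj g T ≠ ⊥ := by
    intro g h
    have h3 := ccard g
    rw [h, Subgroup.card_bot] at h3
    exact hT1 (Subgroup.card_eq_one.1 h3.symm)
  have dich1 : ∀ g : G, cjj g T = T ∨ T ⊓ cjj g T = ⊥ := by
    intro g
    by_contra hcon
    push Not at hcon
    have h3 := hTmin (T ⊓ cjj g T) ⟨inf_le_left.trans hTM, hcon.2, fun n hn t ht =>
      ⟨hTn n hn t ht.1, cinv g n hn t ht.2⟩⟩ inf_le_left
    have h4 : T ≤ cjj g T := inf_eq_left.1 h3
    apply hcon.1
    symm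
    apply SetLike.coe_injective
    apply Set.eq_of_subset_of_ncard_le h4
    · rw [← Nat.card_coe_set_eq, ← Nat.card_coe_set_eq]
      exact (ccard g).le
  have dich : ∀ g h : G, cjj g T = cjj h T ∨ cjj h T ⊓ cjj g T = ⊥ := by
    intro g h
    have e1 : ∀ x : G, h⁻¹ * x * h ∈ cjj (h⁻¹ * g) T ↔ x ∈ cjj g T := by
      intro x
      rw [mem_cjj, mem_cjj]
      have : (h⁻¹ * g)⁻¹ * (h⁻¹ * x * h) * (h⁻¹ * g) = g⁻¹ * x * g := by group
      rw [this]
    rcases dich1 (h⁻¹ * g) with h3 | h3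
    · left
      ext x
      rw [← e1, h3, mem_cjj]
    · right
      rw [eq_bot_iff]
      intro x hx
      have h4 : h⁻¹ * x * h ∈ T ⊓ cjj (h⁻¹ * g) T := ⟨mem_cjj.1 hx.1, (e1 x).2 hx.2⟩
      rw [h3, Subgroup.mem_bot] at h4
      rw [Subgroup.mem_bot]
      have h5 : x = h * (h⁻¹ * x * h) * h⁻¹ := by group
      rw [h5, h4]; group
  have comm : ∀ g h : G, cjj h T ⊓ cjj g T = ⊥ → ∀ x ∈ cjj h T, ∀ y ∈ cjj g T, x * y = y * x := by
    intro g h h3 x hx y hy
    have h4 : x * y * x⁻¹ * y⁻¹ ∈ cjj h T ⊓ cjj g T := by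
      constructor
      · have h5 : x * y * x⁻¹ * y⁻¹ = x * (y * x⁻¹ * y⁻¹) := by group
        rw [h5]
        exact mul_mem hx (cinv h y (cN g hy) _ (inv_mem hx))
      · exact (cjj g T).mul_mem (cinv g x (cN h hx) y hy) ((cjj g T).inv_mem hy)
    rw [h3, Subgroup.mem_bot, mul_inv_eq_one, mul_inv_eq_iff_eq_mul] at h4
    exact h4
  have hc1 : cjj (1 : G) T = T := by
    ext x
    rw [mem_cjj, inv_one, one_mul, mul_one]
  obtain ⟨g, hg⟩ : ∃ g : G, cjj g T ≠ T := by
    by_contra hcon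
    push Not at hcon
    have hTnorm : T.Normal := ⟨fun t ht g => by
      have h3 : g * t * g⁻¹ ∈ cjj g T := by
        rw [mem_cjj]
        have : g⁻¹ * (g * t * g⁻¹) * g = t := by group
        rw [this]; exact ht
      rwa [hcon g] at h3⟩
    rcases hmin T hTnorm hTN with h | h
    · exact hT1 h
    · apply hM2
      rw [eq_top_iff]
      intro x _
      have h3 : (x : G) ∈ M₀.map N.subtype := hTM (by rw [h]; exact x.2)
      obtain ⟨x', hx', hxx⟩ := h3
      have : x' = x := Subtype.ext hxx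
      rw [← this]; exact hx'
  have hdisj : T ⊓ cjj g T = ⊥ := (dich1 g).resolve_left hg
  have hcomm : ∀ x ∈ T, ∀ y ∈ cjj g T, x * y = y * x := by
    have := comm g 1
    rw [hc1] at this
    exact this hdisj
  have trT := tr T hTN hTn hT1
  have trT2 := tr _ (cN g) (cinv g) (cne g)
  have two : ∀ h : G, cjj h T = T ∨ cjj h T = cjj g T := by
    intro h
    by_contra hcon
    push Not at hcon
    have d1 : T ⊓ cjj h T = ⊥ := (dich1 h).resolve_left hcon.1
    have d2 : cjj g T ⊓ cjj h T = ⊥ := (dich h g).resolve_left hcon.2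
    have k1 : ∀ x ∈ T, ∀ y ∈ cjj h T, x * y = y * x := by
      have := comm h 1
      rw [hc1] at this
      exact this d1
    have k2 := comm h g d2
    have trh := tr _ (cN h) (cinv h) (cne h)
    obtain ⟨⟨t2, ht2⟩, ht2'⟩ := Subgroup.ne_bot_iff_exists_ne_one.1 (cne g)
    obtain ⟨t, ht, hta⟩ := trT a (t2 • a)
    have h3 : (t⁻¹ * t2) • a = a := by rw [mul_smul, ← hta, inv_smul_smul]
    have h4 : t⁻¹ * t2 = 1 := semireg1 (B := cjj h T) (fun b hb => by
      rw [mul_assoc, k2 t2 ht2 b hb, ← mul_assoc, k1 t⁻¹ (inv_mem ht) b hb, mul_assoc]) trh h3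
    have h5 : t = t2 := inv_mul_eq_one.1 h4
    have h6 : t2 ∈ T ⊓ cjj g T := ⟨h5 ▸ ht, ht2⟩
    rw [hdisj, Subgroup.mem_bot] at h6
    exact ht2' (Subtype.ext h6)
  -- the product is normal
  have hDn : (T ⊔ cjj g T).Normal := by
    constructor
    intro x hx h
    have h3 : h * x * h⁻¹ ∈ (T ⊔ cjj g T).map (MulAut.conj h).toMonoidHom := ⟨x, hx, rfl⟩
    rw [Subgroup.map_sup] at h3
    have h4 : (cjj g T).map (MulAut.conj h).toMonoidHom = cjj (h * g) T := by
      rw [Subgroup.map_map]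
      congr 1
      ext y
      simp [MulAut.conj_apply, mul_assoc]
    rw [h4] at h3
    have h5 : ∀ k : G, cjj k T ≤ T ⊔ cjj g T := by
      intro k
      rcases two k with h6 | h6
      · rw [h6]; exact le_sup_left
      · rw [h6]; exact le_sup_right
    exact (sup_le (h5 h) (h5 (h * g))) h3
  have hD : T ⊔ cjj g T = N := by
    rcases hmin _ hDn (sup_le hTN (cN g)) with h | h
    · exfalso
      apply hT1
      rw [eq_bot_iff, ← h]
      exact le_sup_left
    · exact h
  -- orders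
  have cardT : ∀ (A B : Subgroup G), (∀ x ∈ A, ∀ y ∈ B, x * y = y * x) → (∀ x y : α, ∃ m ∈ A, m • x = y) →
      (∀ x y : α, ∃ m ∈ B, m • x = y) → Nat.card A = Nat.card α := by
    intro A B hAB hA hB
    apply Nat.card_congr
    apply Equiv.ofBijective (fun m : A => (m : G) • a)
    constructor
    · intro m m' hmm
      have hmm' : (m : G) • a = (m' : G) • a := hmm
      have h3 : ((m : G)⁻¹ * m') • a = a := by rw [mul_smul, ← hmm', inv_smul_smul]
      have h4 : (m : G)⁻¹ * m' = 1 := semireg1 (B := B) (fun b hb => hAB _ (mul_mem (inv_mem m.2) m'.2) b hb) hB h3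
      exact Subtype.ext (inv_mul_eq_one.1 h4)
    · intro y
      obtain ⟨m, hm, h3⟩ := hA a y
      exact ⟨⟨m, hm⟩, h3⟩
  have c1 := cardT T (cjj g T) hcomm trT trT2
  have c2 : Nat.card (cjj g T) = Nat.card α := (ccard g).trans c1
  have cN' : Nat.card N = Nat.card α * Nat.card α := by
    obtain ⟨e⟩ := sup_equiv hcomm hdisj
    rw [← hD, Nat.card_congr e.toEquiv, Nat.card_prod, c1, c2]
  have hαpos : 0 < Nat.card α := by
    haveI : Nonempty α := ⟨a⟩
    exact Nat.card_pos
  have cH : Nat.card (MulAction.stabilizer N a) = Nat.card α := by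
    have h3 := (MulAction.stabilizer N a).card_mul_index
    rw [MulAction.index_stabilizer_of_transitive, cN'] at h3
    exact Nat.eq_of_mul_eq_mul_right hαpos h3
  -- the orbits of the stabilizer
  have hle : ∀ x y : α, x ≠ a → y ≠ a → Nat.card (orbit (MulAction.stabilizer N a) x) ≤ Nat.card (orbit (MulAction.stabilizer N a) y) := by
    intro x y hx hy
    obtain ⟨h, h3, h4⟩ := h2 a x a y hx.symm hy.symm
    apply Nat.card_le_card_of_injective (fun z : orbit (MulAction.stabilizer N a) x =>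
      (⟨h • (z : α), by
        obtain ⟨z, n, hn⟩ := z
        have hn' : ((n : N) : G) • x = z := hn
        have h5 : h * (n : N) * h⁻¹ ∈ N := hNn.conj_mem _ n.1.2 h
        have h6 : (⟨h * (n : N) * h⁻¹, h5⟩ : N) ∈ MulAction.stabilizer N a := by
          rw [MulAction.mem_stabilizer_iff]
          change (h * ((n : N) : G) * h⁻¹) • a = a
          have h7 : h⁻¹ • a = a := by rw [inv_smul_eq_iff, h3]
          have h8 : ((n : N) : G) • a = a := n.2
          rw [mul_smul, mul_smul, h7, h8, h3]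
        refine ⟨⟨_, h6⟩, ?_⟩
        change (h * ((n : N) : G) * h⁻¹) • y = h • z
        rw [← h4, mul_smul, mul_smul, inv_smul_smul, hn']⟩ : orbit (MulAction.stabilizer N a) y))
    intro z z' hzz
    apply Subtype.ext
    exact MulAction.injective h (congrArg Subtype.val hzz)
  haveI : Fintype (orbitRel.Quotient (MulAction.stabilizer N a) α) := Fintype.ofFinite _
  let ω₀ : orbitRel.Quotient (MulAction.stabilizer N a) α := Quotient.mk'' a
  have hω₀ : Nat.card ω₀.orbit = 1 := by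
    have h3 : ω₀.orbit = {a} := by
      ext x
      rw [MulAction.orbitRel.Quotient.mem_orbit, Set.mem_singleton_iff, Quotient.eq'']
      constructor
      · rintro ⟨g, hg⟩
        rw [← hg]; exact g.2
      · rintro rfl; exact ⟨1, one_smul _ _⟩
    rw [h3]; simp
  have hone : ∀ x : α, x ≠ a → Nat.card (orbit (MulAction.stabilizer N a) x) = 1 := by
    intro x hx
    have hdvd1 : Nat.card (orbit (MulAction.stabilizer N a) x) ∣ Nat.card α := by
      rw [← cH, Nat.card_coe_set_eq, ← MulAction.index_stabilizer]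
      exact Subgroup.index_dvd_card _
    have hsum := sum_orbits (MulAction.stabilizer N a) α
    rw [← Finset.add_sum_erase _ _ (Finset.mem_univ ω₀), hω₀] at hsum
    have hdvd2 : Nat.card (orbit (MulAction.stabilizer N a) x) ∣ ∑ ω ∈ Finset.univ.erase ω₀, Nat.card ω.orbit := by
      apply Finset.dvd_sum
      intro ω hω
      induction ω using Quotient.inductionOn' with | _ y => ?_
      have hy : y ≠ a := by
        rintro rfl
        exact Finset.ne_of_mem_erase hω rfl
      have : Nat.card (orbitRel.Quotient.orbit (Quotient.mk'' y : orbitRel.Quotient (MulAction.stabilizer N a) α)) =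
          Nat.card (orbit (MulAction.stabilizer N a) x) := le_antisymm (hle y x hy hx) (hle x y hx hy)
      rw [this]
    rw [hsum] at hdvd1
    exact Nat.dvd_one.1 ((Nat.dvd_add_left hdvd2).1 hdvd1)
  apply hna
  rw [eq_bot_iff]
  intro n hn
  rw [Subgroup.mem_bot]
  apply Subtype.ext
  apply ext_act (α := α)
  intro x
  change ((n : N) : G) • x = (1 : G) • x
  rw [one_smul]
  by_cases hx : x = a
  · rw [hx]; exact hn
  · have h3 := (Nat.card_eq_one_iff_unique.1 (hone x hx)).1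
    exact congrArg Subtype.val (h3.elim (⟨((n : N) : G) • x, ⟨⟨n, hn⟩, rfl⟩⟩ : orbit (MulAction.stabilizer N a) x)
      ⟨x, mem_orbit_self x⟩)

end Cfsg.Agent.Lib.H3Burn
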