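import Cfsg.Agent.Lib.H3CompB

/-!
Maximal components (helper3).
-/

set_option autoImplicit false
set_option maxHeartbeats 400000
set_option linter.unusedVariables false
set_option linter.unusedSectionVars false

namespace Cfsg.Agent.Lib.H3CompC

open Subgroup Cfsg Cfsg.Agent.Lib.Basic Cfsg.Agent.Lib.Cores Cfsg.Agent.Lib.Components Cfsg.Agent.Lib.PComp
  Cfsg.Agent.Lib.H3Loc Cfsg.Agent.Lib.H3LocB Cfsg.Agent.Lib.H3LocC Cfsg.Agent.Lib.H3LocD Cfsg.Agent.Lib.H3LBal Cfsg.Agent.Lib.H3LBalB
  Cfsg.Agent.Lib.H3LocG Cfsg.Agent.Lib.H3Hyp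
  Cfsg.Agent.Lib.SchurZas Cfsg.Agent.Lib.H3Sig Cfsg.Agent.Lib.H3SigB Cfsg.Agent.Lib.CoprimeB Cfsg.Agent.Lib.H3SigC Cfsg.Agent.Lib.H3Misc
  Cfsg.Agent.Lib.H3CompA Cfsg.Agent.Lib.H3CompB
open scoped commutatorElement Pointwise

universe u
variable {G : Type u} [Group G] [Finite G]

/-- elements of `D ⊓ D^a` fixed by `a`: the count -/
theorem diag_mem {D : Subgroup G} {a : G} {c : G} (hca : a * c * a⁻¹ = c) (hc : c ∈ cj a D) : c ∈ D := by
  obtain ⟨d, hd, e⟩ := hc
  have e' : a * d * a⁻¹ = c := e
  have : d = c := by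
    have h1 : a * d * a⁻¹ = a * c * a⁻¹ := by rw [e', hca]
    have := mul_right_cancel h1
    exact mul_left_cancel this
  rwa [← this]

theorem s1305 (hO : oddCore G = ⊥) (hB : HasBProperty G) {a : G} (ha : orderOf a = 2) {K : Subgroup G}
    (hKa : K ≤ centralizer ({a} : Set G)) (hK : IsComponent (K.subgroupOf (centralizer ({a} : Set G))))
    (hmax : ∀ y : G, orderOf y = 2 → ∀ K' : Subgroup G, K' ≤ centralizer ({y} : Set G) → IsComponent (K'.subgroupOf (centralizer ({y} : Set G))) →
      Nat.card K' ≤ Nat.card K ∧ (Nat.card K' = Nat.card K → ∀ k : ℕ, PRankLE 2 k (centralizer ({a} : Set G) ⊓ centralizer (K : Set G) : Subgroup G) →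
        PRankLE 2 k (centralizer ({y} : Set G) ⊓ centralizer (K' : Set G) : Subgroup G)))
    (hrk : ¬ PRankLE 2 1 K) {B : Subgroup G} (hBle : B ≤ centralizer ({a} : Set G) ⊓ centralizer (K : Set G)) (hBel : IsElementaryAbelian 2 B)
    (hBmax : ∀ B' : Subgroup G, B' ≤ centralizer ({a} : Set G) ⊓ centralizer (K : Set G) → IsElementaryAbelian 2 B' → Nat.card B' ≤ Nat.card B)
    {b : G} (hb : b ∈ B) (hb1 : b ≠ 1) :
    K ≤ centralizer ({b} : Set G) ∧ IsComponent (K.subgroupOf (centralizer ({b} : Set G))) := by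
  haveI hf : Fact (Nat.Prime 2) := ⟨Nat.prime_two⟩
  have hKq := qs_of_compIn hK hKa
  have hKp := perfect_of_qs hKq
  have hKne := ne_bot_of_qs hKq
  have hbo : orderOf b = 2 := orderOf_eq_prime (hBel.2 b hb) hb1
  have hKb : K ≤ centralizer ({b} : Set G) := by
    intro x hx
    rw [mem_centralizer_singleton_iff]
    exact mem_centralizer_iff.mp (mem_inf.mp (hBle hb)).2 x hx
  refine ⟨hKb, ?_⟩
  have hab : a * b = b * a := (mem_centralizer_singleton_iff.mp (mem_inf.mp (hBle hb)).1).symm
  -- `a ∈ B`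
  have haC : a ∈ centralizer ({a} : Set G) ⊓ centralizer (K : Set G) := by
    refine mem_inf.mpr ⟨mem_centralizer_singleton_iff.mpr rfl, ?_⟩
    rw [mem_centralizer_iff]
    exact fun x hx => mem_centralizer_singleton_iff.mp (hKa hx)
  have haB : a ∈ B := by
    have h1 := ea_sup hBel (ea_zpowers (p := 2) ha) (by
      rintro x hx _ ⟨k, rfl⟩
      exact ((show Commute x a from mem_centralizer_singleton_iff.mp (mem_inf.mp (hBle hx)).1).zpow_right k))
    have h2 := hBmax _ (sup_le hBle (zpowers_le.mpr haC)) h1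
    have h3 : B = B ⊔ zpowers a := eq_of_le_of_card_ge le_sup_left h2
    rw [h3]
    exact (le_sup_right : zpowers a ≤ _) (mem_zpowers a)
  -- `K` has even order
  have heven : 2 ∣ Nat.card K := by
    by_contra hodd
    apply hrk
    intro A hA hA2
    have hea : IsElementaryAbelian 2 A := ⟨hA, hA2⟩
    obtain ⟨m, hm⟩ := (ea_pgroup hea).exists_card_eq
    have h1 : m = 0 := by
      by_contra h
      exact hodd ((dvd_pow_self 2 h).trans (hm ▸ Subgroup.card_subgroup_dvd_card A))
    rw [hm, h1]; norm_num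
  -- work in `X = C_G(b)`
  set X := centralizer ({b} : Set G) with hX
  have haX : a ∈ X := mem_centralizer_singleton_iff.mpr hab
  let t : X := ⟨a, haX⟩
  have ht : orderOf t = 2 := by rw [← orderOf_coe]; exact ha
  set L := K.subgroupOf X with hL
  have hLt : L ≤ centralizer ({t} : Set X) := by
    intro x hx
    rw [mem_centralizer_singleton_iff]
    exact Subtype.ext (mem_centralizer_singleton_iff.mp (hKa hx))
  have hLc : IsComponent (L.subgroupOf (centralizer ({t} : Set X))) := by
    let f : centralizer ({t} : Set X) →* centralizer ({a} : Set G) :=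
      MonoidHom.mk' (fun x => ⟨((x : X) : G), by
        rw [mem_centralizer_singleton_iff]
        exact congrArg Subtype.val (mem_centralizer_singleton_iff.mp x.2)⟩) (fun x y => rfl)
    have h1 := component_comap_injective f (by
      intro x y hxy
      have := congrArg (fun z : centralizer ({a} : Set G) => (z : G)) hxy
      exact Subtype.ext (Subtype.ext this)) (K := K.subgroupOf (centralizer ({a} : Set G))) (by
      intro x hx
      have hxK : (x : G) ∈ K := hx
      refine ⟨⟨⟨x, hKb hxK⟩, ?_⟩, rfl⟩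
      rw [mem_centralizer_singleton_iff]
      exact Subtype.ext (mem_centralizer_singleton_iff.mp (hKa hxK))) hK
    exact h1
  have hLcard : Nat.card L = Nat.card K := Nat.card_congr (subgroupOfEquivOfLe hKb).toEquiv
  -- `L ≤ layer X`
  have hcomm : ⁅pLayer 2 X, pPrimeCore 2 X⁆ = ⊥ := by
    have h1 := hB b hbo
    rw [hO, le_bot_iff] at h1
    exact (Subgroup.map_eq_bot_iff_of_injective _ X.subtype_injective).mp h1
  have hLE : L ≤ layer X := by
    have h1 : L.subgroupOf (centralizer ({t} : Set X)) ≤ pLayer 2 (centralizer ({t} : Set X)) := by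
      refine comp_le_pLayer hLc ?_
      rw [Nat.card_congr (subgroupOfEquivOfLe hLt).toEquiv, hLcard]
      exact heven
    have h2 : L ≤ (pLayer 2 (centralizer ((zpowers t : Subgroup X) : Set X))).map (centralizer ((zpowers t : Subgroup X) : Set X)).subtype := by
      have e := centralizer_zpowers t
      rw [e]
      intro x hx
      exact ⟨⟨x, hLt hx⟩, h1 hx, rfl⟩
    refine h2.trans ((s1301 (zpowers t) ?_).trans (pLayer_le_layer hcomm))
    refine IsPGroup.of_card (n := 1) ?_
    rw [Nat.card_zpowers, ht, pow_one]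
  obtain ⟨D, hD, ⟨hDt, hLD⟩ | ⟨hDt, π, hπ, hπr⟩⟩ := trichotomy ht hLt hLc hLE
  · -- `L ≤ D`
    have h1 := (hmax b hbo (D.map X.subtype) (map_subtype_le _) (by
      rw [subgroupOf, comap_map_eq_self_of_injective X.subtype_injective]; exact hD)).1
    rw [card_map_of_injective X.subtype_injective, ← hLcard] at h1
    have h2 : L = D := eq_of_le_of_card_ge hLD h1
    rw [h2]
    exact hD
  · exfalso
    have htD := cj_component hD t
    have hDD : ∀ x ∈ D, ∀ y ∈ cj t D, x * y = y * x := fun x hx y hy => comm_comps hD htD (Ne.symm hDt) hx hy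
    have hDperf := component_commutator hD
    -- `π` is injective and `|D| = |K|`
    have hm := hmax b hbo (D.map X.subtype) (map_subtype_le _) (by
      rw [subgroupOf, comap_map_eq_self_of_injective X.subtype_injective]; exact hD)
    rw [card_map_of_injective X.subtype_injective, ← hLcard] at hm
    have hcard1 : Nat.card L ≤ Nat.card D := by
      rw [← hπr]
      exact Nat.card_le_card_of_surjective π.rangeRestrict π.rangeRestrict_surjective
    have hcard2 : Nat.card D = Nat.card L := le_antisymm hm.1 hcard1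
    have hinj : Function.Injective π := by
      have h1 : Function.Bijective π.rangeRestrict := by
        refine (Nat.bijective_iff_surjective_and_card _).mpr ⟨π.rangeRestrict_surjective, ?_⟩
        rw [hπr]; exact hcard2
      intro x y hxy
      exact h1.1 (Subtype.ext hxy)
    have hrank := hm.2 hcard2
    -- the elementary abelian group `B` in `X`
    obtain ⟨m, hmB⟩ := (ea_pgroup hBel).exists_card_eq
    have hPR : PRankLE 2 m (centralizer ({a} : Set G) ⊓ centralizer (K : Set G) : Subgroup G) := by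
      intro A hA hA2
      have hea : IsElementaryAbelian 2 (A.map (centralizer ({a} : Set G) ⊓ centralizer (K : Set G)).subtype) := by
        refine ⟨?_, ?_⟩
        · rw [Nilp.isMulCommutative_iff_forall] at hA ⊢
          rintro _ ⟨x, hx, rfl⟩ _ ⟨y, hy, rfl⟩
          rw [← map_mul, hA x hx y hy, map_mul]
        · rintro _ ⟨x, hx, rfl⟩
          rw [← map_pow, hA2 x hx, map_one]
      have := hBmax _ (map_subtype_le _) hea
      rwa [card_map_of_injective (centralizer ({a} : Set G) ⊓ centralizer (K : Set G)).subtype_injective, hmB] at this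
    have hPR2 := hrank m hPR
    -- everything inside `X`
    have hBX : B ≤ X := by
      intro x hx
      rw [hX, mem_centralizer_singleton_iff]
      exact ea_comm hBel hx hb
    set B' := B.subgroupOf X with hB'
    have hB'e : IsElementaryAbelian 2 B' := by
      refine ⟨?_, ?_⟩
      · rw [Nilp.isMulCommutative_iff_forall]
        intro x hx y hy
        exact Subtype.ext (ea_comm hBel (mem_subgroupOf.mp hx) (mem_subgroupOf.mp hy))
      · intro x hx
        exact Subtype.ext (hBel.2 x (mem_subgroupOf.mp hx))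
    have htB' : t ∈ B' := haB
    have hB'c : Nat.card B' = 2 ^ m := by rw [Nat.card_congr (subgroupOfEquivOfLe hBX).toEquiv, hmB]
    have hB'L : ∀ c ∈ B', ∀ l ∈ L, l * c = c * l := by
      intro c hc l hl
      exact Subtype.ext (mem_centralizer_iff.mp (mem_inf.mp (hBle (mem_subgroupOf.mp hc))).2 l (mem_subgroupOf.mp hl))
    have hB't : ∀ c ∈ B', c * t = t * c := fun c hc => ea_comm hB'e hc htB'
    set B₀ := B' ⊓ normalizer (D : Set X) with hB₀
    have hB₀e : IsElementaryAbelian 2 B₀ := by
      refine ⟨?_, fun x hx => hB'e.2 x (mem_inf.mp hx).1⟩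
      rw [Nilp.isMulCommutative_iff_forall]
      exact fun x hx y hy => ea_comm hB'e (mem_inf.mp hx).1 (mem_inf.mp hy).1
    -- `B₀` centralizes `D`
    have hB₀D : ∀ c ∈ B₀, c ∈ centralizer (D : Set X) := by
      intro c hc
      obtain ⟨hc1, hc2⟩ := mem_inf.mp hc
      have hcD : ∀ y ∈ D, c * y * c⁻¹ ∈ D := fun y hy => (mem_normalizer_iff.mp hc2 y).mp hy
      apply cent_of_central hDperf
      intro y hy
      have h1 : (y * (t * y * t⁻¹)) * c = c * (y * (t * y * t⁻¹)) := by
        apply hB'L c hc1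
        rw [← hπr]
        exact ⟨⟨y, hy⟩, hπ _⟩
      have h2 : (c * y * c⁻¹) * (t * (c * y * c⁻¹) * t⁻¹) = y * (t * y * t⁻¹) := by
        have e1 : t * (c * y * c⁻¹) * t⁻¹ = c * (t * y * t⁻¹) * c⁻¹ := by
          have e2 : c⁻¹ * t⁻¹ = t⁻¹ * c⁻¹ := by rw [← mul_inv_rev, ← mul_inv_rev, hB't c hc1]
          calc t * (c * y * c⁻¹) * t⁻¹ = (t * c) * y * (c⁻¹ * t⁻¹) := by group
            _ = (c * t) * y * (t⁻¹ * c⁻¹) := by rw [hB't c hc1, e2]
            _ = c * (t * y * t⁻¹) * c⁻¹ := by group
        rw [e1]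
        calc (c * y * c⁻¹) * (c * (t * y * t⁻¹) * c⁻¹) = (c * (y * (t * y * t⁻¹))) * c⁻¹ := by group
          _ = y * (t * y * t⁻¹) := by rw [← h1, mul_inv_cancel_right]
      have h3 : y⁻¹ * (c * y * c⁻¹) ∈ cj t D := by
        have e3 : y⁻¹ * (c * y * c⁻¹) = (t * y * t⁻¹) * (t * (c * y * c⁻¹) * t⁻¹)⁻¹ := by
          rw [eq_mul_inv_iff_mul_eq, mul_assoc, h2]; group
        rw [e3]
        exact mul_mem (mem_cj hy) (inv_mem (mem_cj (hcD y hy)))
      have h4 : y⁻¹ * (c * y * c⁻¹) ∈ D := mul_mem (inv_mem hy) (hcD y hy)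
      have h5 : y⁻¹ * (c * y * c⁻¹) ∈ centralizer (D : Set X) := by
        rw [mem_centralizer_iff]
        intro x hx
        exact hDD x hx _ h3
      have e4 : c * y * c⁻¹ * y⁻¹ = y * (y⁻¹ * (c * y * c⁻¹)) * y⁻¹ := by group
      have e5 : c * y * c⁻¹ * y⁻¹ = y⁻¹ * (c * y * c⁻¹) := by
        rw [e4, mem_centralizer_iff.mp h5 y hy, mul_inv_cancel_right]
      rw [e5]
      exact mem_inf.mpr ⟨h4, h5⟩
    -- every element of `B'` maps `D` to `D` or `D^t`
    have hcase : ∀ c ∈ B', cj c D = D ∨ cj c D = cj t D := by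
      intro c hc
      by_contra hcon
      push Not at hcon
      have hcD := cj_component hD c
      have htcD := cj_component hcD t
      have hLc' : ∀ l ∈ L, ∀ l' ∈ L, l * l' = l' * l := by
        intro l hl l' hl'
        -- `l' = c l₁ c⁻¹` lies in `(cj c D)(cj (t c) D)`
        rw [← hπr] at hl
        obtain ⟨d, rfl⟩ := hl
        have hl2 : c⁻¹ * l' * c ∈ L := by
          have := hB'L c hc l' hl'
          have e : c⁻¹ * l' * c = l' := by rw [mul_assoc, this]; group
          rw [e]; exact hl'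
        rw [← hπr] at hl2
        obtain ⟨d', e'⟩ := hl2
        have e2 : l' = (c * (d' : X) * c⁻¹) * (t * (c * (d' : X) * c⁻¹) * t⁻¹) := by
          have e3 : l' = c * (π d') * c⁻¹ := by rw [e']; group
          rw [e3, hπ]
          have e4 : c * t = t * c := hB't c hc
          have e5 : t⁻¹ * c⁻¹ = c⁻¹ * t⁻¹ := by rw [← mul_inv_rev, ← mul_inv_rev, e4]
          calc c * ((d' : X) * (t * (d' : X) * t⁻¹)) * c⁻¹ = (c * (d' : X) * c⁻¹) * ((c * t) * (d' : X) * (t⁻¹ * c⁻¹)) := by group
            _ = (c * (d' : X) * c⁻¹) * ((t * c) * (d' : X) * (c⁻¹ * t⁻¹)) := by rw [e4, e5]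
            _ = (c * (d' : X) * c⁻¹) * (t * (c * (d' : X) * c⁻¹) * t⁻¹) := by group
        have n1 : D ≠ cj c D := fun h => hcon.1 h.symm
        have n2 : cj t D ≠ cj c D := fun h => hcon.2 h.symm
        have n3 : D ≠ cj t (cj c D) := by
          intro h
          apply hcon.2
          have h1 := congrArg (cj t) h
          have htt : t * t = 1 := by rw [← sq]; exact orderOf_dvd_iff_pow_eq_one.mp ht.dvd
          rw [← cj_mul, htt, cj_one] at h1
          exact h1.symm
        have n4 : cj t D ≠ cj t (cj c D) := by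
          intro h
          apply hcon.1
          have h1 := congrArg (cj t⁻¹) h
          rw [← cj_mul, ← cj_mul, inv_mul_cancel, cj_one, cj_one] at h1
          exact h1.symm
        set u := c * (d' : X) * c⁻¹ with hu
        have hu1 : u ∈ cj c D := mem_cj d'.2
        have hu2 : t * u * t⁻¹ ∈ cj t (cj c D) := mem_cj hu1
        have hd2 : t * (d : X) * t⁻¹ ∈ cj t D := mem_cj d.2
        have c1 : Commute (d : X) u := comm_comps hD hcD n1 d.2 hu1
        have c2 : Commute (d : X) (t * u * t⁻¹) := comm_comps hD htcD n3 d.2 hu2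
        have c3 : Commute (t * (d : X) * t⁻¹) u := comm_comps htD hcD n2 hd2 hu1
        have c4 : Commute (t * (d : X) * t⁻¹) (t * u * t⁻¹) := comm_comps htD htcD n4 hd2 hu2
        rw [hπ, e2]
        exact ((c1.mul_right c2).mul_left (c3.mul_right c4)).eq
      have h1 : ⁅K, K⁆ = ⊥ := by
        rw [eq_bot_iff, commutator_le]
        intro x hx y hy
        rw [mem_bot, commutatorElement_eq_one_iff_mul_comm]
        exact congrArg Subtype.val (hLc' ⟨x, hKb hx⟩ hx ⟨y, hKb hy⟩ hy)
      exact hKne (hKp.symm.trans h1)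
    -- `|B'| ≤ 2 |B₀|`
    have hBB₀ : Nat.card B' ≤ 2 * Nat.card B₀ := by
      have h1 : B' ≤ B₀ ⊔ zpowers t := by
        intro c hc
        rcases hcase c hc with h | h
        · exact (le_sup_left : B₀ ≤ _) (mem_inf.mpr ⟨hc, mem_norm_iff.mpr h⟩)
        · have h2 : t⁻¹ * c ∈ B₀ := by
            refine mem_inf.mpr ⟨mul_mem (inv_mem htB') hc, mem_norm_iff.mpr ?_⟩
            rw [cj_mul, h, ← cj_mul, inv_mul_cancel, cj_one]
          have h3 : c = t * (t⁻¹ * c) := by group
          rw [h3]
          exact mul_mem ((le_sup_right : zpowers t ≤ _) (mem_zpowers t)) ((le_sup_left : B₀ ≤ _) h2)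
      have hn : zpowers t ≤ normalizer (B₀ : Set X) := by
        rw [zpowers_le]
        refine CFunA.mem_normalizer_of_le ?_
        rintro _ ⟨y, hy, rfl⟩
        change t * y * t⁻¹ ∈ B₀
        rw [← hB't y (mem_inf.mp hy).1, mul_inv_cancel_right]
        exact hy
      have h4 := card_sup_mul_card_inf hn
      have h5 : Nat.card (B₀ ⊔ zpowers t : Subgroup X) ≤ Nat.card B₀ * 2 := by
        rw [Nat.card_zpowers, ht] at h4
        rw [← h4]
        exact Nat.le_mul_of_pos_right _ Nat.card_pos
      calc Nat.card B' ≤ Nat.card (B₀ ⊔ zpowers t : Subgroup X) := card_le_of_le h1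
        _ ≤ Nat.card B₀ * 2 := h5
        _ = 2 * Nat.card B₀ := mul_comm _ _
    -- a four-subgroup of `cj t D`
    obtain ⟨F, hF, hFc⟩ := rank_sub (p := 2) hrk
    -- transport to `D`
    set F₁ : Subgroup X := (F.map K.subtype).subgroupOf X with hF₁
    have hFK : F.map K.subtype ≤ K := map_subtype_le _
    have hF₁L : F₁ ≤ L := fun x hx => hFK hx
    have hF₁c : Nat.card F₁ = Nat.card F := by
      rw [Nat.card_congr (subgroupOfEquivOfLe (hFK.trans hKb)).toEquiv, card_map_of_injective K.subtype_injective]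
    have hF₁e : IsElementaryAbelian 2 F₁ := by
      have h0 : ∀ x ∈ F₁, ∃ y : K, y ∈ F ∧ (y : G) = x := fun x hx => hx
      refine ⟨?_, ?_⟩
      · rw [Nilp.isMulCommutative_iff_forall]
        intro x hx y hy
        obtain ⟨x', hx', e1⟩ := h0 x hx
        obtain ⟨y', hy', e2⟩ := h0 y hy
        apply Subtype.ext
        change (x : G) * y = y * x
        rw [← e1, ← e2]
        exact congrArg Subtype.val (ea_comm hF hx' hy')
      · intro x hx
        obtain ⟨x', hx', e1⟩ := h0 x hx
        apply Subtype.ext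
        change (x : G) ^ 2 = 1
        rw [← e1]
        exact congrArg Subtype.val (hF.2 x' hx')
    set F₂ := ((F₁.comap π).map D.subtype).map (MulAut.conj t).toMonoidHom with hF₂
    have hmem2 : ∀ x ∈ F₂, ∃ d : D, π d ∈ F₁ ∧ x = t * (d : X) * t⁻¹ := by
      rintro _ ⟨_, ⟨d, hd, rfl⟩, rfl⟩
      exact ⟨d, hd, rfl⟩
    have hF₂c : Nat.card F₂ = Nat.card F := by
      rw [hF₂, card_conj, card_map_of_injective D.subtype_injective, ← hF₁c, ← card_map_of_injective hinj, map_comap_eq_self]
      rw [hπr]; exact hF₁L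
    have hF₂e : IsElementaryAbelian 2 F₂ := by
      refine ⟨?_, ?_⟩
      · rw [Nilp.isMulCommutative_iff_forall]
        intro x hx y hy
        obtain ⟨d, hd, rfl⟩ := hmem2 x hx
        obtain ⟨e, he, rfl⟩ := hmem2 y hy
        have h1 : d * e = e * d := hinj (by rw [map_mul, map_mul]; exact ea_comm hF₁e hd he)
        have h2 : (d : X) * e = e * d := congrArg Subtype.val h1
        calc (t * (d : X) * t⁻¹) * (t * (e : X) * t⁻¹) = t * ((d : X) * e) * t⁻¹ := by group
          _ = t * ((e : X) * d) * t⁻¹ := by rw [h2]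
          _ = (t * (e : X) * t⁻¹) * (t * (d : X) * t⁻¹) := by group
      · intro x hx
        obtain ⟨d, hd, rfl⟩ := hmem2 x hx
        have h1 : d ^ 2 = 1 := hinj (by rw [map_pow, map_one]; exact hF₁e.2 _ hd)
        have h2 : (d : X) ^ 2 = 1 := congrArg Subtype.val h1
        calc (t * (d : X) * t⁻¹) ^ 2 = t * (d : X) ^ 2 * t⁻¹ := by rw [sq, sq]; group
          _ = 1 := by rw [h2]; group
    have hF₂D : ∀ x ∈ F₂, x ∈ cj t D := by
      intro x hx
      obtain ⟨d, hd, rfl⟩ := hmem2 x hx
      exact mem_cj d.2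
    have hcom2 : ∀ c ∈ B₀, ∀ x ∈ F₂, c * x = x * c := by
      intro c hc x hx
      obtain ⟨d, hd, rfl⟩ := hmem2 x hx
      have h1 : (d : X) * c = c * d := mem_centralizer_iff.mp (hB₀D c hc) d d.2
      have h2 := hB't c (mem_inf.mp hc).1
      have h3 : c * t⁻¹ = t⁻¹ * c := by
        rw [eq_inv_mul_iff_mul_eq, ← mul_assoc, ← h2]; group
      calc c * (t * (d : X) * t⁻¹) = (c * t) * d * t⁻¹ := by group
        _ = t * (c * d) * t⁻¹ := by rw [h2]; group
        _ = t * (d * c) * t⁻¹ := by rw [h1]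
        _ = (t * d) * (c * t⁻¹) := by group
        _ = (t * (d : X) * t⁻¹) * c := by rw [h3]; group
    have hint : B₀ ⊓ F₂ = ⊥ := by
      rw [eq_bot_iff]
      intro c hc
      obtain ⟨hc1, hc2⟩ := mem_inf.mp hc
      have h1 : t * c * t⁻¹ = c := by
        rw [← hB't c (mem_inf.mp hc1).1, mul_inv_cancel_right]
      have h2 : c ∈ D := diag_mem h1 (hF₂D c hc2)
      have h3 : π ⟨c, h2⟩ = 1 := by
        rw [hπ]
        change c * (t * c * t⁻¹) = 1
        rw [h1, ← sq]
        exact hB₀e.2 c hc1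
      have h4 : (⟨c, h2⟩ : D) = 1 := hinj (by rw [h3, map_one])
      exact congrArg Subtype.val h4
    have hn2 : F₂ ≤ normalizer (B₀ : Set X) := by
      intro x hx
      refine CFunA.mem_normalizer_of_le ?_
      rintro _ ⟨y, hy, rfl⟩
      change x * y * x⁻¹ ∈ B₀
      rw [← hcom2 y hy x hx, mul_inv_cancel_right]
      exact hy
    have hcardS : Nat.card (B₀ ⊔ F₂ : Subgroup X) = Nat.card B₀ * Nat.card F₂ := card_sup_of_inf_eq_bot hn2 hint
    have hSe := ea_sup hB₀e hF₂e hcom2
    -- it lies in `C(b) ⊓ C(D)`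
    have hSle : (B₀ ⊔ F₂).map X.subtype ≤ centralizer ({b} : Set G) ⊓ centralizer ((D.map X.subtype : Subgroup G) : Set G) := by
      refine le_inf (map_subtype_le _) ?_
      rw [Subgroup.map_sup, sup_le_iff]
      constructor
      · rintro _ ⟨c, hc, rfl⟩
        rw [mem_centralizer_iff]
        rintro _ ⟨d, hd, rfl⟩
        exact congrArg Subtype.val (mem_centralizer_iff.mp (hB₀D c hc) d hd)
      · rintro _ ⟨c, hc, rfl⟩
        rw [mem_centralizer_iff]
        rintro _ ⟨d, hd, rfl⟩
        exact congrArg Subtype.val (hDD d hd c (hF₂D c hc))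
    have hfin := hPR2 (((B₀ ⊔ F₂).map X.subtype).subgroupOf (centralizer ({b} : Set G) ⊓ centralizer ((D.map X.subtype : Subgroup G) : Set G))) ?_ ?_
    · rw [Nat.card_congr (subgroupOfEquivOfLe hSle).toEquiv, card_map_of_injective X.subtype_injective, hcardS, hF₂c, ← hB'c] at hfin
      have h1 : Nat.card B₀ * 4 ≤ Nat.card B₀ * Nat.card F := Nat.mul_le_mul_left _ (by simpa using hFc)
      have h2 : 0 < Nat.card B₀ := Nat.card_pos
      omega
    · rw [Nilp.isMulCommutative_iff_forall]
      intro x hx y hy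
      obtain ⟨x', hx', e1⟩ := mem_subgroupOf.mp hx
      obtain ⟨y', hy', e2⟩ := mem_subgroupOf.mp hy
      apply Subtype.ext
      change (x : G) * y = y * x
      rw [← e1, ← e2]
      exact congrArg Subtype.val (ea_comm hSe hx' hy')
    · intro x hx
      obtain ⟨x', hx', e1⟩ := mem_subgroupOf.mp hx
      apply Subtype.ext
      change (x : G) ^ 2 = 1
      rw [← e1]
      exact congrArg Subtype.val (hSe.2 x' hx')

end Cfsg.Agent.Lib.H3CompC
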