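import Mathlib

set_option autoImplicit false

namespace Cfsg.Agent.Lib.H3Homog

open Finset

variable {α : Type*} [Fintype α] [DecidableEq α]

/-- `k`-homogeneity in terms of finsets. -/
def Hom (G : Subgroup (Equiv.Perm α)) (k : ℕ) : Prop :=
  ∀ s t : Finset α, s.card = k → t.card = k → ∃ g ∈ G, s.map g.toEmbedding = t

theorem map_one' (s : Finset α) : s.map (1 : Equiv.Perm α).toEmbedding = s := by
  ext a
  rw [Finset.mem_map]
  constructor
  · rintro ⟨b, hb, rfl⟩; exact hb
  · intro h; exact ⟨a, h, rfl⟩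

theorem map_mul' (g h : Equiv.Perm α) (s : Finset α) :
    s.map (g * h).toEmbedding = (s.map h.toEmbedding).map g.toEmbedding := by
  rw [Finset.map_map]; rfl

theorem map_inv (g : Equiv.Perm α) (s : Finset α) :
    (s.map g.toEmbedding).map (g⁻¹ : Equiv.Perm α).toEmbedding = s := by
  rw [← map_mul', inv_mul_cancel, map_one']

theorem hom_iff (G : Subgroup (Equiv.Perm α)) (k : ℕ) :
    Hom G k ↔ MulAction.IsPretransitive G (Set.powersetCard α k) := by
  constructor
  · intro h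
    refine ⟨fun x y => ?_⟩
    obtain ⟨g, hg, hgs⟩ := h x y x.2 y.2
    refine ⟨⟨g, hg⟩, Subtype.ext ?_⟩
    rw [← hgs]
    change (x : Finset α).image (fun a => (⟨g, hg⟩ : G) • a) = _
    ext a
    rw [Finset.mem_map, Finset.mem_image]
    rfl
  · intro h s t hs ht
    obtain ⟨g, hg⟩ := h.exists_smul_eq (⟨s, hs⟩ : Set.powersetCard α k) ⟨t, ht⟩
    refine ⟨g, g.2, ?_⟩
    have h1 := congrArg Subtype.val hg
    change s.image (fun a => g • a) = t at h1
    rw [← h1]
    ext a
    rw [Finset.mem_map, Finset.mem_image]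
    rfl

theorem lucas_pow (p : ℕ) (hp : p.Prime) (k' : ℕ) (hk' : 0 < k') (a : ℕ) :
    Nat.choose (p ^ a * k' + p ^ a - 1) (p ^ a) ≡ k' [MOD p] := by
  haveI : Fact p.Prime := ⟨hp⟩
  induction a with
  | zero => simp; rfl
  | succ a ih =>
    have h1 := Choose.choose_modEq_choose_mod_mul_choose_div_nat (n := p ^ (a + 1) * k' + p ^ (a + 1) - 1) (k := p ^ (a + 1)) (p := p)
    have hp0 := hp.pos
    have hpa : 0 < p ^ a := Nat.pow_pos hp0
    have e1 : p ^ (a + 1) * k' + p ^ (a + 1) - 1 = p * (p ^ a * k' + p ^ a - 1) + (p - 1) := by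
      have : 0 < p ^ a * k' + p ^ a := by positivity
      obtain ⟨m, hm⟩ : ∃ m, p ^ a * k' + p ^ a = m + 1 := ⟨_, (Nat.succ_pred_eq_of_pos this).symm⟩
      have e2 : p ^ (a + 1) * k' + p ^ (a + 1) = p * (m + 1) := by rw [← hm]; ring
      rw [e2, hm, Nat.mul_succ, Nat.add_sub_cancel]
      omega
    have e2 : (p ^ (a + 1) * k' + p ^ (a + 1) - 1) / p = p ^ a * k' + p ^ a - 1 := by
      rw [e1, Nat.mul_add_div hp0, Nat.div_eq_of_lt (by omega), add_zero]
    have e3 : (p ^ (a + 1)) / p = p ^ a := by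
      rw [pow_succ, Nat.mul_div_cancel _ hp0]
    have e4 : (p ^ (a + 1)) % p = 0 := by rw [pow_succ, Nat.mul_mod_left]
    rw [e2, e3, e4, Nat.choose_zero_right, one_mul] at h1
    exact h1.trans ih

theorem not_dvd_choose {p : ℕ} (hp : p.Prime) {k' a : ℕ} (hk' : ¬ p ∣ k') (ha : 0 < p ^ a * k') :
    ¬ p ∣ Nat.choose (p ^ a * k' + p ^ a - 1) (p ^ a * k' - 1) := by
  have hk0 : 0 < k' := Nat.pos_of_mul_pos_left ha
  have h1 := lucas_pow p hp k' hk0 a
  have hpa : 0 < p ^ a := Nat.pow_pos hp.pos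
  have e : Nat.choose (p ^ a * k' + p ^ a - 1) (p ^ a * k' - 1) =
      Nat.choose (p ^ a * k' + p ^ a - 1) (p ^ a) := by
    rw [← Nat.choose_symm (n := p ^ a * k' + p ^ a - 1) (k := p ^ a)
      (by omega)]
    congr 1
    omega
  rw [e]
  intro h
  apply hk'
  exact (h1.dvd_iff (dvd_refl p)).1 h

/-- Double counting. -/
theorem count_T (T : Finset (Finset α)) (k c : ℕ) (hk : 1 ≤ k)
    (hT : ∀ s ∈ T, s.card = k - 1)
    (hc : ∀ D : Finset α, D.card = k → (T.filter (· ⊆ D)).card = c) (Γ : Finset α) (hΓ : k ≤ Γ.card) :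
    (T.filter (· ⊆ Γ)).card * k = c * Nat.choose Γ.card (k - 1) := by
  have h1 : ∑ D ∈ Γ.powersetCard k, (T.filter (· ⊆ D)).card = c * Nat.choose Γ.card k := by
    rw [Finset.sum_congr rfl (fun D hD => hc D (Finset.mem_powersetCard.1 hD).2)]
    rw [Finset.sum_const, Finset.card_powersetCard, smul_eq_mul, mul_comm]
  have h2 : ∑ D ∈ Γ.powersetCard k, (T.filter (· ⊆ D)).card =
      ∑ s ∈ T.filter (· ⊆ Γ), ((Γ.powersetCard k).filter (s ⊆ ·)).card := by
    have h3 := Finset.sum_card_bipartiteAbove_eq_sum_card_bipartiteBelow (s := Γ.powersetCard k)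
      (t := T.filter (· ⊆ Γ)) (fun D s => s ⊆ D)
    refine Eq.trans ?_ h3
    refine Finset.sum_congr rfl fun D hD => ?_
    congr 1
    ext s
    simp only [Finset.mem_filter, Finset.mem_bipartiteAbove]
    constructor
    · rintro ⟨h4, h5⟩
      exact ⟨⟨h4, h5.trans (Finset.mem_powersetCard.1 hD).1⟩, h5⟩
    · rintro ⟨⟨h4, _⟩, h5⟩
      exact ⟨h4, h5⟩
  have h3 : ∀ s ∈ T.filter (· ⊆ Γ), ((Γ.powersetCard k).filter (s ⊆ ·)).card = Γ.card - (k - 1) := by
    intro s hs
    rw [Finset.mem_filter] at hs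
    have hs1 := hT s hs.1
    have : ((Γ.powersetCard k).filter (s ⊆ ·)) = (Γ \ s).image (fun a => insert a s) := by
      ext D
      simp only [Finset.mem_filter, Finset.mem_powersetCard, Finset.mem_image, Finset.mem_sdiff]
      constructor
      · rintro ⟨⟨h4, h5⟩, h6⟩
        have h7 : (D \ s).card = 1 := by
          rw [Finset.card_sdiff_of_subset h6, h5, hs1]; omega
        obtain ⟨a, ha⟩ := Finset.card_eq_one.1 h7
        have ha' : a ∈ D \ s := by rw [ha]; exact Finset.mem_singleton_self a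
        rw [Finset.mem_sdiff] at ha'
        refine ⟨a, ⟨h4 ha'.1, ha'.2⟩, ?_⟩
        rw [Finset.insert_eq, ← ha, Finset.sdiff_union_of_subset h6]
      · rintro ⟨a, ⟨h4, h5⟩, rfl⟩
        refine ⟨⟨Finset.insert_subset h4 hs.2, ?_⟩, Finset.subset_insert _ _⟩
        rw [Finset.card_insert_of_notMem h5, hs1]; omega
    rw [this, Finset.card_image_of_injOn, Finset.card_sdiff_of_subset hs.2, hs1]
    intro a ha b hb hab
    simp only at hab
    have ha1 := (Finset.mem_sdiff.1 ha).2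
    have : a ∈ insert b s := by rw [← hab]; exact Finset.mem_insert_self _ _
    exact (Finset.mem_insert.1 this).resolve_right ha1
  rw [h2, Finset.sum_congr rfl h3, Finset.sum_const, smul_eq_mul] at h1
  have h4 : Nat.choose Γ.card k * k = Nat.choose Γ.card (k - 1) * (Γ.card - (k - 1)) := by
    have := Nat.choose_succ_right_eq Γ.card (k - 1)
    rwa [Nat.sub_add_cancel hk] at this
  have h5 : 0 < Γ.card - (k - 1) := by omega
  apply Nat.eq_of_mul_eq_mul_right h5
  calc _ = (T.filter (· ⊆ Γ)).card * (Γ.card - (k - 1)) * k := by ring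
    _ = c * Nat.choose Γ.card k * k := by rw [h1]
    _ = c * (Nat.choose Γ.card k * k) := by ring
    _ = _ := by rw [h4]; ring

theorem pred_hom (G : Subgroup (Equiv.Perm α)) {k : ℕ} (hk : 2 ≤ k) (hG : Hom G k)
    (hq : ∀ q : ℕ, IsPrimePow q → q ∣ k → k + q - 1 ≤ Fintype.card α) : Hom G (k - 1) := by
  classical
  intro x y hx hy
  let T : Finset (Finset α) := Finset.univ.filter fun s => ∃ g ∈ G, x.map g.toEmbedding = s
  have hTmem : ∀ s, s ∈ T ↔ ∃ g ∈ G, x.map g.toEmbedding = s := fun s => by simp [T]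
  have hT : ∀ s ∈ T, s.card = k - 1 := by
    intro s hs
    obtain ⟨g, hg, rfl⟩ := (hTmem s).1 hs
    rw [Finset.card_map, hx]
  have hkn : k ≤ Fintype.card α := by
    obtain ⟨p, hp, hpk⟩ := Nat.exists_prime_and_dvd (n := k) (by omega)
    have := hq p hp.isPrimePow hpk
    have := hp.one_lt
    omega
  obtain ⟨D0, hD0, hD0c⟩ := Finset.exists_superset_card_eq (s := x) (n := k) (by omega) hkn
  let c := (T.filter (· ⊆ D0)).card
  have hTinv : ∀ g ∈ G, ∀ s ∈ T, s.map g.toEmbedding ∈ T := by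
    intro g hg s hs
    obtain ⟨h, hh, rfl⟩ := (hTmem s).1 hs
    refine (hTmem _).2 ⟨g * h, G.mul_mem hg hh, ?_⟩
    rw [Finset.map_map]
    rfl
  have hmapinv : ∀ (g : Equiv.Perm α) (s : Finset α), (s.map g.toEmbedding).map (g⁻¹ : Equiv.Perm α).toEmbedding = s := map_inv
  have hle : ∀ g ∈ G, ∀ D : Finset α, (T.filter (· ⊆ D)).card ≤ (T.filter (· ⊆ D.map g.toEmbedding)).card := by
    intro g hg D
    apply Finset.card_le_card_of_injOn (fun s => s.map g.toEmbedding)
    · intro s hs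
      have hs' := Finset.mem_filter.1 (Finset.mem_coe.1 hs)
      exact Finset.mem_coe.2 (Finset.mem_filter.2 ⟨hTinv g hg s hs'.1, Finset.map_subset_map.2 hs'.2⟩)
    · intro s _ t _ hst
      exact Finset.map_injective _ hst
  have hc : ∀ D : Finset α, D.card = k → (T.filter (· ⊆ D)).card = c := by
    intro D hD
    obtain ⟨g, hg, hgD⟩ := hG D0 D hD0c hD
    have h1 := hle g hg D0
    have h2 := hle g⁻¹ (G.inv_mem hg) D
    rw [← hgD, hmapinv] at h2
    rw [hgD] at h1 h2
    exact le_antisymm h2 h1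
  have hcpos : 0 < c := by
    apply Finset.card_pos.2
    exact ⟨x, Finset.mem_filter.2 ⟨(hTmem x).2 ⟨1, G.one_mem, map_one' x⟩, hD0⟩⟩
  have hkc : k ∣ c := by
    rw [Nat.dvd_iff_prime_pow_dvd_dvd]
    intro p j hp hpj
    haveI : Fact p.Prime := ⟨hp⟩
    obtain ⟨a, k', hk', hkk⟩ := Nat.exists_eq_pow_mul_and_not_dvd (n := k) (by omega) p hp.ne_one
    rcases Nat.eq_zero_or_pos a with ha | ha
    · have hj : j = 0 := by
        by_contra hj
        rw [ha, pow_zero, one_mul] at hkk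
        exact hk' (hkk ▸ (dvd_pow_self p hj).trans hpj)
      rw [hj, pow_zero]
      exact one_dvd _
    have hpp : IsPrimePow (p ^ a) := hp.isPrimePow.pow (by omega)
    have hm := hq (p ^ a) hpp (by rw [hkk]; exact dvd_mul_right _ _)
    obtain ⟨Γ, hΓ⟩ := Finset.exists_subset_card_eq (s := (Finset.univ : Finset α)) (n := k + p ^ a - 1)
      (by rw [Finset.card_univ]; exact hm)
    have hpa : 0 < p ^ a := Nat.pow_pos hp.pos
    have h1 := count_T T k c (by omega) hT hc Γ (by rw [hΓ.2]; omega)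
    have h2 : p ^ a ∣ c * Nat.choose Γ.card (k - 1) := by
      rw [← h1, hkk]
      exact Dvd.dvd.mul_left (dvd_mul_right _ _) _
    have h3 : ¬ p ∣ Nat.choose Γ.card (k - 1) := by
      rw [hΓ.2, hkk]
      exact not_dvd_choose hp hk' (by rw [← hkk]; omega)
    have h4 : p ^ a ∣ c :=
      (Nat.Coprime.dvd_of_dvd_mul_right (Nat.Coprime.pow_left a ((Nat.Prime.coprime_iff_not_dvd hp).2 h3)) h2)
    have h5 : j ≤ a := by
      by_contra h5
      push Not at h5
      have : p ^ (a + 1) ∣ p ^ a * k' := by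
        rw [← hkk]
        exact (pow_dvd_pow p h5).trans hpj
      rw [pow_succ] at this
      exact hk' (Nat.dvd_of_mul_dvd_mul_left hpa this)
    exact (pow_dvd_pow p h5).trans h4
  have hkc' : k ≤ c := Nat.le_of_dvd hcpos hkc
  -- all `(k-1)`-subsets of a `k`-set are in `T`
  obtain ⟨D, hD, hDc⟩ := Finset.exists_superset_card_eq (s := y) (n := k) (by omega) hkn
  have h1 : T.filter (· ⊆ D) ⊆ D.powersetCard (k - 1) := by
    intro s hs
    rw [Finset.mem_filter] at hs
    exact Finset.mem_powersetCard.2 ⟨hs.2, hT s hs.1⟩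
  have h2 : (D.powersetCard (k - 1)).card = k := by
    rw [Finset.card_powersetCard, hDc]
    have := Nat.choose_symm (n := k) (k := 1) (by omega)
    rw [this, Nat.choose_one_right]
  have h3 : T.filter (· ⊆ D) = D.powersetCard (k - 1) :=
    Finset.eq_of_subset_of_card_le h1 (by rw [h2, hc D hDc]; exact hkc')
  have h4 : y ∈ T.filter (· ⊆ D) := by
    rw [h3]
    exact Finset.mem_powersetCard.2 ⟨hD, hy⟩
  exact (hTmem y).1 (Finset.mem_filter.1 h4).1

end Cfsg.Agent.Lib.H3Homog
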