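import Mathlib
import Cfsg.Prelude.Def_Perm
import Cfsg.Agent.Lib.Basic
import Cfsg.Agent.Lib.ClassSizes

/-!
Sharply 2-transitive groups (helper3).
-/

set_option autoImplicit false
set_option maxHeartbeats 400000
set_option linter.unusedVariables false
set_option linter.unusedSectionVars false
set_option linter.unusedFintypeInType false

namespace Cfsg.Agent.Lib.H3Sharp

open Subgroup MulAction

universe u
variable {α : Type u} [Fintype α] [DecidableEq α] {G : Subgroup (Equiv.Perm α)}

/-- sharp 2-transitivity, pointwise -/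
structure Sharp (G : Subgroup (Equiv.Perm α)) : Prop where
  trans : ∀ a b c d : α, a ≠ b → c ≠ d → ∃ g : G, g • a = c ∧ g • b = d
  sharp : ∀ (g : G) (a b : α), a ≠ b → g • a = a → g • b = b → g = 1
  card : 2 ≤ Fintype.card α

theorem Sharp.of [hG : IsMultiplyPretransitive G α 2] (hs : ∀ x : Fin 2 ↪ α, stabilizer G x = ⊥) (h2 : 2 ≤ Fintype.card α) : Sharp G := by
  have mk : ∀ a b : α, a ≠ b → ∃ x : Fin 2 ↪ α, x 0 = a ∧ x 1 = b := by
    intro a b hab
    refine ⟨⟨![a, b], ?_⟩, rfl, rfl⟩
    intro i j hij
    fin_cases i <;> fin_cases j <;> simp_all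
  refine ⟨?_, ?_, h2⟩
  · intro a b c d hab hcd
    obtain ⟨x, hx0, hx1⟩ := mk a b hab
    obtain ⟨y, hy0, hy1⟩ := mk c d hcd
    obtain ⟨g, hg⟩ := MulAction.exists_smul_eq G x y
    refine ⟨g, ?_, ?_⟩
    · rw [← hx0, ← hy0, ← hg]; rfl
    · rw [← hx1, ← hy1, ← hg]; rfl
  · intro g a b hab ha hb
    obtain ⟨x, hx0, hx1⟩ := mk a b hab
    have h1 : g ∈ stabilizer G x := by
      rw [mem_stabilizer_iff]
      ext i
      fin_cases i
      · change g • (x 0) = x 0
        rw [hx0, ha]
      · change g • (x 1) = x 1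
        rw [hx1, hb]
    rw [hs x, mem_bot] at h1
    exact h1

theorem Sharp.eq (h : Sharp G) {g k : G} {a b : α} (hab : a ≠ b) (h1 : g • a = k • a) (h2 : g • b = k • b) : g = k := by
  have h3 := h.sharp (k⁻¹ * g) a b hab (by rw [mul_smul, h1, inv_smul_smul]) (by rw [mul_smul, h2, inv_smul_smul])
  rw [inv_mul_eq_one] at h3
  exact h3.symm

/-- fixed point free -/
def FPF (g : G) : Prop := ∀ a : α, g • a ≠ a

theorem card_E (h : Sharp G) {a b : α} (hab : a ≠ b) : Nat.card {g : G // g • a = b} = Fintype.card α - 1 := by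
  classical
  have hf : ∀ c : {c : α // c ≠ b}, ∃ g : G, g • a = b ∧ g • b = c := fun c => h.trans a b b c hab (Ne.symm c.2)
  choose f hf1 hf2 using hf
  have hbij : Function.Bijective (fun c : {c : α // c ≠ b} => (⟨f c, hf1 c⟩ : {g : G // g • a = b})) := by
    constructor
    · intro c d hcd
      have h1 : f c = f d := congrArg Subtype.val hcd
      apply Subtype.ext
      rw [← hf2 c, ← hf2 d, h1]
    · rintro ⟨g, hg⟩
      refine ⟨⟨g • b, ?_⟩, ?_⟩
      · intro hgb
        exact hab (MulAction.injective g (hg.trans hgb.symm))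
      · apply Subtype.ext
        exact h.eq hab ((hf1 _).trans hg.symm) (hf2 _)
  rw [← Nat.card_congr (Equiv.ofBijective _ hbij), Nat.card_eq_fintype_card, Fintype.card_subtype_compl, Fintype.card_subtype_eq]

theorem card_two_compl {a b : α} (hab : a ≠ b) : Nat.card {c : α // c ≠ a ∧ c ≠ b} = Fintype.card α - 2 := by
  classical
  rw [Nat.card_eq_fintype_card, Fintype.card_subtype]
  have : (Finset.univ.filter fun c : α => c ≠ a ∧ c ≠ b) = Finset.univ \ {a, b} := by
    ext c; simp
  rw [this, Finset.card_sdiff_of_subset (Finset.subset_univ _), Finset.card_univ, Finset.card_pair hab]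

theorem exists_fpf (h : Sharp G) {a b : α} (hab : a ≠ b) : ∃ g : G, g • a = b ∧ FPF g := by
  classical
  by_contra hcon
  push Not at hcon
  have h1 : ∀ g : {g : G // g • a = b}, ∃ c : α, (g : G) • c = c := by
    intro g
    have := hcon g.1 g.2
    unfold FPF at this
    push Not at this
    exact this
  choose c hc using h1
  have hca : ∀ g : {g : G // g • a = b}, c g ≠ a := by
    intro g hg
    have := hc g
    rw [hg, g.2] at this
    exact hab this.symm
  have hcb : ∀ g : {g : G // g • a = b}, c g ≠ b := by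
    intro g hg
    have h2 := hc g
    rw [hg] at h2
    exact hab (MulAction.injective (g : G) (g.2.trans h2.symm))
  have hinj : Function.Injective (fun g : {g : G // g • a = b} => (⟨c g, hca g, hcb g⟩ : {c : α // c ≠ a ∧ c ≠ b})) := by
    intro g k hgk
    have h2 : c g = c k := congrArg Subtype.val hgk
    apply Subtype.ext
    refine h.eq (hca g).symm (g.2.trans k.2.symm) ?_
    rw [hc g, h2, hc k]
  have h3 := Nat.card_le_card_of_injective _ hinj
  rw [card_E h hab, card_two_compl hab] at h3
  have := h.card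
  omega

theorem unique_fpf (h : Sharp G) {a b : α} (hab : a ≠ b) {g k : G} (hg : g • a = b) (hk : k • a = b) (hgf : FPF g) (hkf : FPF k) : g = k := by
  classical
  by_contra hne
  have hf : ∀ c : {c : α // c ≠ a ∧ c ≠ b}, ∃ g : G, g • a = b ∧ g • (c : α) = c := fun c => h.trans a c b c (Ne.symm c.2.1) (Ne.symm c.2.2)
  choose f hf1 hf2 using hf
  have hinj : Function.Injective (fun c : {c : α // c ≠ a ∧ c ≠ b} => (⟨f c, hf1 c⟩ : {g : G // g • a = b})) := by
    intro c d hcd
    have h1 : f c = f d := congrArg Subtype.val hcd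
    by_contra hcd'
    have h2 : (c : α) ≠ d := fun e => hcd' (Subtype.ext e)
    have h3 := h.sharp (f c) c d h2 (hf2 c) (by rw [h1]; exact hf2 d)
    have h4 := hf1 c
    rw [h3, one_smul] at h4
    exact hab h4
  haveI : Finite G := inferInstance
  haveI : Fintype {g : G // g • a = b} := Fintype.ofFinite _
  have h1 : (Finset.univ.image (fun c : {c : α // c ≠ a ∧ c ≠ b} => (⟨f c, hf1 c⟩ : {g : G // g • a = b}))) ⊆ Finset.univ \ {⟨g, hg⟩, ⟨k, hk⟩} := by
    intro x hx
    rw [Finset.mem_image] at hx
    obtain ⟨c, -, rfl⟩ := hx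
    simp only [Finset.mem_sdiff, Finset.mem_univ, true_and, Finset.mem_insert, Finset.mem_singleton, not_or]
    constructor
    · intro e
      have : f c = g := congrArg Subtype.val e
      exact hgf c (this ▸ hf2 c)
    · intro e
      have : f c = k := congrArg Subtype.val e
      exact hkf c (this ▸ hf2 c)
  have h2 := Finset.card_le_card h1
  rw [Finset.card_image_of_injective _ hinj, Finset.card_univ, Finset.card_sdiff_of_subset (Finset.subset_univ _), Finset.card_univ,
    Finset.card_pair (by intro e; exact hne (congrArg Subtype.val e)), ← Nat.card_eq_fintype_card, ← Nat.card_eq_fintype_card, card_E h hab, card_two_compl hab] at h2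
  have h3 : 3 ≤ Fintype.card α ∨ Fintype.card α = 2 := by have := h.card; omega
  rcases h3 with h3 | h3
  · omega
  · -- degree two
    have h4 := card_E h hab
    rw [h3] at h4
    have h5 : (⟨g, hg⟩ : {g : G // g • a = b}) = ⟨k, hk⟩ := by
      have := (Nat.card_eq_one_iff_unique.mp (show Nat.card {g : G // g • a = b} = 1 from h4)).1
      exact Subsingleton.elim _ _
    exact hne (congrArg Subtype.val h5)

theorem fpf_conj {g k : G} (hg : FPF g) : FPF (k * g * k⁻¹) := by
  intro a ha
  apply hg (k⁻¹ • a)
  rw [mul_smul, mul_smul] at ha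
  rw [← eq_inv_smul_iff] at ha
  exact ha

theorem fpf_ne_one {a : α} {g : G} (hg : FPF g) : g ≠ 1 := by
  rintro rfl
  exact hg a (one_smul _ _)

/-- the structure theorem -/
theorem main (h : Sharp G) : ∃ N : Subgroup G, N.Normal ∧ (∀ x ∈ N, ∀ y ∈ N, x * y = y * x) ∧ (∀ g : G, g ∈ N ↔ g = 1 ∨ FPF g) ∧
    (∀ a b : α, ∃ g ∈ N, g • a = b) ∧ ∃ p : ℕ, p.Prime ∧ ∀ x ∈ N, x ^ p = 1 := by
  classical
  obtain ⟨a₀, b₀, hab₀⟩ := Fintype.exists_pair_of_one_lt_card (α := α) (by have := h.card; omega)
  have conj : ∀ x y : G, FPF x → FPF y → ∃ k : G, k • a₀ = a₀ ∧ k * x * k⁻¹ = y := by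
    intro x y hx hy
    obtain ⟨k, hk1, hk2⟩ := h.trans a₀ (x • a₀) a₀ (y • a₀) (hx a₀).symm (hy a₀).symm
    refine ⟨k, hk1, ?_⟩
    refine unique_fpf h (hy a₀).symm ?_ rfl (fpf_conj hx) hy
    have h1 : k⁻¹ • a₀ = a₀ := by rw [inv_smul_eq_iff, hk1]
    rw [mul_smul, mul_smul, h1, hk2]
  obtain ⟨x, hx, hxf⟩ := exists_fpf h hab₀
  -- elements commuting with a fixed point free element are fixed point free or trivial
  have semi : ∀ x : G, FPF x → ∀ c : G, c * x = x * c → c = 1 ∨ FPF c := by
    intro x hxf c hc
    by_cases hcf : FPF c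
    · exact Or.inr hcf
    · left
      unfold FPF at hcf
      push Not at hcf
      obtain ⟨a, ha⟩ := hcf
      refine h.sharp c a (x • a) (hxf a).symm ha ?_
      rw [← mul_smul, hc, mul_smul, ha]
  -- centralizers of fixed point free elements have order n
  haveI : Finite G := inferInstance
  have hcardG : ∀ x : G, FPF x → ∀ b : α, ∃ c : G, c * x = x * c ∧ c • a₀ = b := by
    -- the centralizer has order at least n; count
    intro x hxf
    set C := centralizer ({x} : Set G) with hC
    have hmemC : ∀ c, c ∈ C ↔ c * x = x * c := fun c => mem_centralizer_singleton_iff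
    -- the class of x
    have hcl : Nat.card {y : G // FPF y} = Fintype.card α - 1 := by
      have hb : Function.Bijective (fun y : {y : G // FPF y} => (⟨(y : G) • a₀, y.2 a₀⟩ : {c : α // c ≠ a₀})) := by
        constructor
        · intro y z hyz
          have h1 : (y : G) • a₀ = (z : G) • a₀ := congrArg Subtype.val hyz
          exact Subtype.ext (unique_fpf h (y.2 a₀).symm rfl h1.symm y.2 z.2)
        · rintro ⟨c, hc⟩
          obtain ⟨y, hy, hyf⟩ := exists_fpf h (Ne.symm hc)
          exact ⟨⟨y, hyf⟩, Subtype.ext hy⟩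
      rw [Nat.card_congr (Equiv.ofBijective _ hb), Nat.card_eq_fintype_card, Fintype.card_subtype_compl, Fintype.card_subtype_eq]
    have horb : Nat.card (ConjClasses.carrier (ConjClasses.mk x)) = Nat.card {y : G // FPF y} := by
      apply Nat.card_congr
      refine Equiv.subtypeEquivRight fun y => ?_
      rw [ConjClasses.mem_carrier_iff_mk_eq, ConjClasses.mk_eq_mk_iff_isConj]
      constructor
      · intro hy
        obtain ⟨k, hk⟩ := isConj_iff.mp hy.symm
        rw [← hk]
        exact fpf_conj hxf
      · intro hy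
        obtain ⟨k, -, hk⟩ := conj x y hxf hy
        exact (isConj_iff.mpr ⟨k, hk⟩).symm
    -- the order of G
    have hGc : Nat.card G = Fintype.card α * (Fintype.card α - 1) := by
      have hb : Function.Bijective (fun g : G => (⟨(g • a₀, g • b₀), fun e => hab₀ (MulAction.injective g e)⟩ : {q : α × α // q.1 ≠ q.2})) := by
        constructor
        · intro g k hgk
          have h1 := congrArg Subtype.val hgk
          exact h.eq hab₀ (congrArg Prod.fst h1) (congrArg Prod.snd h1)
        · rintro ⟨⟨c, d⟩, hcd⟩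
          obtain ⟨g, hg1, hg2⟩ := h.trans a₀ b₀ c d hab₀ hcd
          refine ⟨g, Subtype.ext ?_⟩
          change (g • a₀, g • b₀) = (c, d)
          rw [hg1, hg2]
      rw [Nat.card_congr (Equiv.ofBijective _ hb), Nat.card_eq_fintype_card]
      have := Fintype.card_subtype_compl (fun q : α × α => q.1 = q.2)
      rw [this, Fintype.card_prod]
      have h2 : Fintype.card {q : α × α // q.1 = q.2} = Fintype.card α := by
        refine Fintype.card_congr ⟨fun q => q.1.1, fun a => ⟨(a, a), rfl⟩, fun q => ?_, fun a => rfl⟩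
        apply Subtype.ext
        exact Prod.ext rfl q.2
      rw [h2]
      have h3 : 1 ≤ Fintype.card α := by have := h.card; omega
      obtain ⟨m, hm⟩ := Nat.exists_eq_add_of_le h3
      rw [hm]
      have : 1 + m - 1 = m := by omega
      rw [this]
      have e : (1 + m) * (1 + m) = (1 + m) * m + (1 + m) := by ring
      rw [e, Nat.add_sub_cancel]
    have hcs := C.card_mul_index
    rw [hC, ClassSizes.index_centralizer_eq_card_carrier, horb, hcl, hGc, ← hC] at hcs
    have hpos : 0 < Fintype.card α - 1 := by have := h.card; omega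
    have hCc : Nat.card C = Fintype.card α := by
      exact Nat.eq_of_mul_eq_mul_right hpos hcs
    have hinj : Function.Injective (fun c : C => (c : G) • a₀) := by
      intro c d hcd
      have h1 : (c : G) • a₀ = (d : G) • a₀ := hcd
      have h2 : (d : G)⁻¹ * c ∈ C := mul_mem (inv_mem d.2) c.2
      rcases semi x hxf _ ((hmemC _).mp h2) with h3 | h3
      · exact Subtype.ext (inv_mul_eq_one.mp h3).symm
      · exfalso
        apply h3 a₀
        rw [mul_smul, h1, inv_smul_smul]
    have hbij := hinj.bijective_of_nat_card_le (by rw [hCc, Nat.card_eq_fintype_card])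
    intro b
    obtain ⟨c, hc⟩ := hbij.2 b
    exact ⟨c, (hmemC c).mp c.2, hc⟩
  -- the characterization
  have char : ∀ x : G, FPF x → ∀ g : G, g * x = x * g ↔ g = 1 ∨ FPF g := by
    intro x hxf g
    constructor
    · exact semi x hxf g
    · rintro (rfl | hg)
      · group
      · obtain ⟨c, hc, hca⟩ := hcardG x hxf (g • a₀)
        have hcf : FPF c := by
          rcases semi x hxf c hc with h1 | h1
          · exfalso
            rw [h1, one_smul] at hca
            exact hg a₀ hca.symm
          · exact h1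
        have h2 := unique_fpf h (hg a₀).symm rfl hca hg hcf
        rw [h2]; exact hc
  have hmem : ∀ g : G, g ∈ centralizer ({x} : Set G) ↔ g = 1 ∨ FPF g := fun g => mem_centralizer_singleton_iff.trans (char x hxf g)
  refine ⟨centralizer ({x} : Set G), ⟨fun g hg k => ?_⟩, ?_, hmem, ?_, ?_⟩
  · rw [hmem] at hg ⊢
    rcases hg with rfl | hg
    · left; group
    · right; exact fpf_conj hg
  · intro y hy z hz
    rcases (hmem y).mp hy with rfl | hy'
    · group
    · exact (((char y hy' z).mpr ((hmem z).mp hz))).symm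
  · intro a b
    by_cases hab : a = b
    · exact ⟨1, one_mem _, by rw [one_smul, hab]⟩
    · obtain ⟨g, hg, hgf⟩ := exists_fpf h hab
      exact ⟨g, (hmem g).mpr (Or.inr hgf), hg⟩
  · set N := centralizer ({x} : Set G) with hN
    have hxN : x ∈ N := (hmem x).mpr (Or.inr hxf)
    have hne : Nat.card N ≠ 1 := by
      rw [Ne, card_eq_one]
      intro hb
      rw [hb, mem_bot] at hxN
      exact fpf_ne_one (a := a₀) hxf hxN
    obtain ⟨p, hp, hpd⟩ := Nat.exists_prime_and_dvd hne
    haveI : Fact p.Prime := ⟨hp⟩
    obtain ⟨y, hy⟩ := exists_prime_orderOf_dvd_card' p hpd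
    have hy' : orderOf (y : G) = p := by rw [orderOf_coe]; exact hy
    have hyf : FPF (y : G) := by
      rcases (hmem y).mp y.2 with h1 | h1
      · exfalso
        rw [h1, orderOf_one] at hy'
        exact hp.one_lt.ne hy'
      · exact h1
    refine ⟨p, hp, fun z hz => ?_⟩
    rcases (hmem z).mp hz with rfl | hz'
    · exact one_pow p
    · obtain ⟨k, -, hk⟩ := conj y z hyf hz'
      have h1 : (y : G) ^ p = 1 := by rw [← hy']; exact pow_orderOf_eq_one _
      rw [← hk, conj_pow, h1]; group

theorem s0680 (h : Sharp G) : ∃ p j : ℕ, p.Prime ∧ 1 ≤ j ∧ Fintype.card α = p ^ j ∧ ∀ (hp : Fact p.Prime) (P : Sylow p G),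
    (P : Subgroup G).Normal ∧ IsMulCommutative (P : Subgroup G) ∧ (∀ x ∈ (P : Subgroup G), x ^ p = 1) ∧ MulAction.IsPretransitive (P : Subgroup G) α ∧
      (∀ a : α, MulAction.stabilizer (P : Subgroup G) a = ⊥) ∧ ∀ g : G, g ∈ (P : Subgroup G) ↔ g = 1 ∨ ∀ a : α, g • a ≠ a := by
  classical
  obtain ⟨N, hNn, hNc, hNm, hNt, p, hp, hNp⟩ := main h
  haveI hfp : Fact p.Prime := ⟨hp⟩
  haveI : Finite G := inferInstance
  obtain ⟨a₀, b₀, hab₀⟩ := Fintype.exists_pair_of_one_lt_card (α := α) (by have := h.card; omega)
  have hstab : ∀ g ∈ N, ∀ a : α, g • a = a → g = 1 := by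
    intro g hg a ha
    rcases (hNm g).mp hg with h1 | h1
    · exact h1
    · exact absurd ha (h1 a)
  have hcard : Nat.card N = Fintype.card α := by
    rw [← Nat.card_eq_fintype_card]
    apply Nat.card_congr
    refine Equiv.ofBijective (fun g : N => (g : G) • a₀) ⟨?_, ?_⟩
    · intro g k hgk
      have h1 : (g : G) • a₀ = (k : G) • a₀ := hgk
      have h2 := hstab ((k : G)⁻¹ * g) (mul_mem (inv_mem k.2) g.2) a₀ (by rw [mul_smul, h1, inv_smul_smul])
      exact Subtype.ext (inv_mul_eq_one.mp h2).symm
    · intro b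
      obtain ⟨g, hg, e⟩ := hNt a₀ b
      exact ⟨⟨g, hg⟩, e⟩
  have hNpg : IsPGroup p N := fun g => ⟨1, Subtype.ext (by rw [pow_one]; exact hNp g g.2)⟩
  obtain ⟨j, hj⟩ := hNpg.exists_card_eq
  rw [hcard] at hj
  refine ⟨p, j, hp, ?_, hj, ?_⟩
  · rcases Nat.eq_zero_or_pos j with h0 | h0
    · rw [h0, pow_zero] at hj
      have := h.card
      omega
    · exact h0
  · intro hp' P
    have hfix : (P : Subgroup G) = N := by
      -- `N` is a Sylow subgroup: its index is `n - 1`
      have hle : N ≤ (P : Subgroup G) := by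
        obtain ⟨Q, hQ⟩ := hNpg.exists_le_sylow
        obtain ⟨g, hg⟩ := MulAction.exists_smul_eq G Q P
        intro x hx
        have h1 : g⁻¹ * x * g ∈ N := by
          have := hNn.conj_mem x hx g⁻¹
          rwa [inv_inv] at this
        rw [← hg, Sylow.coe_subgroup_smul]
        refine ⟨g⁻¹ * x * g, hQ h1, ?_⟩
        change g * (g⁻¹ * x * g) * g⁻¹ = x
        group
      symm
      -- an element of `P` centralizes a nontrivial element of `N`
      apply le_antisymm hle
      intro x hx
      by_contra hxN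
      have hx1 : x ≠ 1 := fun e => hxN (e ▸ one_mem _)
      have hxf : ¬ FPF x := fun e => hxN ((hNm x).mpr (Or.inr e))
      unfold FPF at hxf
      push Not at hxf
      obtain ⟨a, ha⟩ := hxf
      -- the p-group `zpowers x` acts on `α` with a unique fixed point: contradiction mod p
      have hpg : IsPGroup p (zpowers x) := P.2.to_le (zpowers_le.mpr hx)
      have h1 := hpg.card_modEq_card_fixedPoints α
      have h2 : fixedPoints (zpowers x) α = {a} := by
        ext b
        rw [Set.mem_singleton_iff, mem_fixedPoints]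
        constructor
        · intro hb
          by_contra hab
          exact hx1 (h.sharp x b a hab (hb ⟨x, mem_zpowers x⟩) ha)
        · rintro rfl ⟨_, ⟨i, rfl⟩⟩
          change x ^ i • b = b
          have h3 : x ∈ stabilizer G b := ha
          exact mem_stabilizer_iff.mp (zpow_mem h3 i)
      have h3 : Nat.card (fixedPoints (zpowers x) α) = 1 := by
        rw [h2]; simp
      rw [h3, Nat.card_eq_fintype_card, hj] at h1
      have h4 : j ≠ 0 := by
        rintro rfl
        rw [pow_zero] at hj
        have := h.card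
        omega
      have h5 : p ∣ p ^ j := dvd_pow_self p h4
      have h6 : p ^ j ≡ 0 [MOD p] := (Nat.modEq_zero_iff_dvd).mpr h5
      have h7 : 1 ≡ 0 [MOD p] := h1.symm.trans h6
      exact hp.one_lt.ne' (Nat.dvd_one.mp ((Nat.modEq_zero_iff_dvd).mp h7))
    rw [hfix]
    refine ⟨hNn, ?_, hNp, ⟨fun a b => ?_⟩, fun a => ?_, hNm⟩
    · exact ⟨⟨fun x y => Subtype.ext (hNc x x.2 y y.2)⟩⟩
    · obtain ⟨g, hg, e⟩ := hNt a b
      exact ⟨⟨g, hg⟩, e⟩
    · rw [eq_bot_iff]
      intro g hg
      exact Subtype.ext (hstab g g.2 a hg)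

/-- the near-field -/
theorem s0683 (h : Sharp G) : ∃ _ : Cfsg.NearField α, ∀ σ : Equiv.Perm α, σ ∈ G ↔ ∃ a b : α, a ≠ 0 ∧ ∀ x : α, σ x = x * a + b := by
  classical
  obtain ⟨N, hNn, hNc, hNm, hNt, -⟩ := main h
  obtain ⟨o, e, hoe⟩ := Fintype.exists_pair_of_one_lt_card (α := α) (by have := h.card; omega)
  have hstab : ∀ g ∈ N, ∀ a : α, g • a = a → g = 1 := by
    intro g hg a ha
    rcases (hNm g).mp hg with h1 | h1
    · exact h1
    · exact absurd ha (h1 a)
  have hNeq : ∀ g ∈ N, ∀ k ∈ N, ∀ a : α, g • a = k • a → g = k := by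
    intro g hg k hk a h1
    have h2 := hstab (k⁻¹ * g) (mul_mem (inv_mem hk) hg) a (by rw [mul_smul, h1, inv_smul_smul])
    exact (inv_mul_eq_one.mp h2).symm
  choose t htN hto using fun b : α => hNt o b
  have hh : ∀ a : α, ∃ k : G, a ≠ o → k • o = o ∧ k • e = a := by
    intro a
    by_cases ha : a = o
    · exact ⟨1, fun h => absurd ha h⟩
    · obtain ⟨k, hk⟩ := h.trans o e o a hoe (Ne.symm ha)
      exact ⟨k, fun _ => hk⟩
  choose k hk using hh
  have hko : ∀ a, a ≠ o → k a • o = o := fun a ha => (hk a ha).1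
  have hke : ∀ a, a ≠ o → k a • e = a := fun a ha => (hk a ha).2
  let eqv : α ≃ Additive N :=
    { toFun := fun a => Additive.ofMul ⟨t a, htN a⟩
      invFun := fun g => ((Additive.toMul g : N) : G) • o
      left_inv := fun a => hto a
      right_inv := fun g => by
        apply Additive.toMul.injective
        apply Subtype.ext
        exact hNeq _ (htN _) _ (Additive.toMul g).2 o (hto _) }
  letI ag : AddGroup α := eqv.addGroup
  have hadd : ∀ a b : α, a + b = t b • a := by
    intro a b
    change ((⟨t a, htN a⟩ * ⟨t b, htN b⟩ : N) : G) • o = t b • a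
    change (t a * t b) • o = t b • a
    rw [hNc _ (htN a) _ (htN b), mul_smul, hto]
  have hzero : (0 : α) = o := one_smul G o
  -- multiplication
  let mul : α → α → α := fun x a => if a = o then o else k a • x
  have hmul0 : ∀ x, mul x o = o := fun x => if_pos rfl
  have hmul : ∀ x a, a ≠ o → mul x a = k a • x := fun x a ha => if_neg ha
  have hkk : ∀ a b, a ≠ o → b ≠ o → k b • a ≠ o := by
    intro a b ha hb hab
    apply ha
    have h1 : k b • a = k b • o := by rw [hab, hko b hb]
    exact MulAction.injective (k b) h1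
  have hcomp : ∀ a b, a ≠ o → b ≠ o → k (k b • a) = k b * k a := by
    intro a b ha hb
    refine h.eq hoe ?_ ?_
    · rw [hko _ (hkk a b ha hb), mul_smul, hko a ha, hko b hb]
    · rw [hke _ (hkk a b ha hb), mul_smul, hke a ha]
  have hk1 : k e = 1 := h.eq hoe (by rw [hko e hoe.symm, one_smul]) (by rw [hke e hoe.symm, one_smul])
  -- conjugation of translations
  have hconj : ∀ (g : G) (y : α), g • o = o → g * t y * g⁻¹ = t (g • y) := by
    intro g y hg
    refine hNeq _ (hNn.conj_mem _ (htN y) g) _ (htN _) o ?_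
    have h1 : g⁻¹ • o = o := by rw [inv_smul_eq_iff, hg]
    rw [mul_smul, mul_smul, h1, hto, hto]
  let nf : Cfsg.NearField α :=
    { ag with
      mul := mul
      one := e
      mul_assoc := by
        intro x a b
        change mul (mul x a) b = mul x (mul a b)
        by_cases hb : b = o
        · subst hb; rw [hmul0, hmul0, hmul0]
        · by_cases ha : a = o
          · subst ha
            rw [hmul0, hmul _ _ hb, hko b hb, hmul0]
          · rw [hmul _ b hb, hmul _ a ha, hmul a b hb, hmul _ _ (hkk a b ha hb), hcomp a b ha hb, mul_smul]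
      one_mul := by
        intro a
        change mul e a = a
        by_cases ha : a = o
        · subst ha; exact hmul0 _
        · rw [hmul _ _ ha, hke a ha]
      mul_one := by
        intro a
        change mul a e = a
        rw [hmul _ _ hoe.symm, hk1, one_smul]
      right_distrib := by
        intro x y a
        change mul (x + y) a = mul x a + mul y a
        by_cases ha : a = o
        · subst ha
          rw [hmul0, hmul0, hmul0, ← hzero, add_zero]
        · rw [hmul _ _ ha, hmul _ _ ha, hmul _ _ ha, hadd, hadd, ← hconj (k a) y (hko a ha), mul_smul, mul_smul, inv_smul_smul]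
      mul_zero := by
        intro a
        change mul a 0 = 0
        rw [hzero, hmul0]
      zero_ne_one := by
        change (0 : α) ≠ e
        rw [hzero]; exact hoe
      exists_inv := by
        intro a ha
        have ha' : a ≠ o := fun h1 => ha (h1.trans hzero.symm)
        refine ⟨(k a)⁻¹ • e, ?_, ?_⟩
        · change mul a ((k a)⁻¹ • e) = e
          have h1 : (k a)⁻¹ • e ≠ o := by
            intro h1
            rw [inv_smul_eq_iff, hko a ha'] at h1
            exact hoe h1.symm
          rw [hmul _ _ h1]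
          have h2 : k ((k a)⁻¹ • e) = (k a)⁻¹ := by
            refine h.eq hoe ?_ ?_
            · rw [hko _ h1]
              symm
              rw [inv_smul_eq_iff, hko a ha']
            · rw [hke _ h1]
          rw [h2, inv_smul_eq_iff, hke a ha']
        · change mul ((k a)⁻¹ • e) a = e
          rw [hmul _ _ ha', smul_inv_smul] }
  refine ⟨nf, fun σ => ?_⟩
  have hz : (@OfNat.ofNat α 0 (@Zero.toOfNat0 α nf.toAddGroup.toSubNegMonoid.toAddMonoid.toZero)) = o := hzero
  constructor
  · intro hσ
    set g : G := ⟨σ, hσ⟩ with hg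
    -- b = σ o
    set b := g • o with hb
    set r := (t b)⁻¹ * g with hr
    have hro : r • o = o := by rw [hr, mul_smul, inv_smul_eq_iff, hto]
    have hre : r • e ≠ o := by
      intro h1
      rw [← hro] at h1
      exact hoe (MulAction.injective r h1).symm
    refine ⟨r • e, b, ?_, ?_⟩
    · intro h1
      exact hre (h1.trans hz)
    · intro x
      change σ x = mul x (r • e) + b
      rw [hadd, hmul _ _ hre]
      have h2 : k (r • e) = r := h.eq hoe (by rw [hko _ hre, hro]) (hke _ hre)
      rw [h2, hr, mul_smul, smul_inv_smul]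
      rfl
  · rintro ⟨a, b, ha, hσ⟩
    have ha' : a ≠ o := fun h1 => ha (h1.trans hz.symm)
    have h1 : σ = ((t b * k a : G) : Equiv.Perm α) := by
      ext x
      rw [hσ x]
      change mul x a + b = (t b * k a) • x
      rw [hadd, hmul _ _ ha', mul_smul]
    rw [h1]
    exact (t b * k a).2

end Cfsg.Agent.Lib.H3Sharp
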