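import Mathlib
import Cfsg.Agent.Lib.Basic
import Cfsg.Agent.Lib.PermTwo
import Cfsg.Agent.Lib.H3Sharp

/-!
Multiple transitivity and normal subgroups (helper3).
-/

set_option autoImplicit false
set_option maxHeartbeats 400000
set_option linter.unusedVariables false
set_option linter.unusedSectionVars false
set_option linter.unusedFintypeInType false

namespace Cfsg.Agent.Lib.H3Trans

open Subgroup MulAction

universe u v
variable {G : Type v} [Group G] {α : Type u} [MulAction G α]

/-- the elements of `N` fixing `s` pointwise -/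
def Fx (N : Subgroup G) (s : Set α) : Subgroup G where
  carrier := {g | g ∈ N ∧ ∀ c ∈ s, g • c = c}
  mul_mem' := by
    rintro a b ⟨ha, ha'⟩ ⟨hb, hb'⟩
    exact ⟨mul_mem ha hb, fun c hc => by rw [mul_smul, hb' c hc, ha' c hc]⟩
  one_mem' := ⟨one_mem _, fun c _ => one_smul _ _⟩
  inv_mem' := by
    rintro a ⟨ha, ha'⟩
    exact ⟨inv_mem ha, fun c hc => by rw [inv_smul_eq_iff, ha' c hc]⟩

theorem mem_Fx {N : Subgroup G} {s : Set α} {g : G} : g ∈ Fx N s ↔ g ∈ N ∧ ∀ c ∈ s, g • c = c := Iff.rfl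

theorem Fx_smul_notMem {N : Subgroup G} {s : Set α} {g : G} (hg : g ∈ Fx N s) {a : α} (ha : a ∉ s) : g • a ∉ s := by
  intro h
  have h1 := hg.2 _ h
  have h2 : g • a = a := MulAction.injective g h1
  exact ha (h2 ▸ h)

def TrOff (N : Subgroup G) (s : Set α) : Prop := ∀ a b : α, a ∉ s → b ∉ s → ∃ h ∈ Fx N s, h • a = b

def PrOff (N : Subgroup G) (s : Set α) : Prop := ∀ B : Set α, Disjoint B s → (∀ g ∈ Fx N s, ∀ x ∈ B, g • x ∈ B → ∀ y ∈ B, g • y ∈ B) → B.Subsingleton ∨ sᶜ ⊆ B

/-- doubly transitive off `s` implies primitive off `s` -/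
theorem PrOff_of_TrOff {N : Subgroup G} {s : Set α} (h : ∀ a : α, a ∉ s → TrOff N (insert a s)) : PrOff N s := by
  intro B hBs hB
  by_contra hcon
  push Not at hcon
  obtain ⟨h1, h2⟩ := hcon
  obtain ⟨x, hx, y, hy, hxy⟩ := h1
  obtain ⟨z, hz, hzB⟩ := Set.not_subset.mp h2
  have hxs : x ∉ s := fun h' => Set.disjoint_left.mp hBs hx h'
  have hys : y ∉ s := fun h' => Set.disjoint_left.mp hBs hy h'
  obtain ⟨g, hg, hgy⟩ := h x hxs y z (by
    rintro (h' | h')
    · exact hxy h'.symm
    · exact hys h') (by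
    rintro (h' | h')
    · exact hzB (h' ▸ hx)
    · exact hz h')
  have hgx : g • x = x := hg.2 x (Or.inl rfl)
  have hg' : g ∈ Fx N s := ⟨hg.1, fun c hc => hg.2 c (Or.inr hc)⟩
  have := hB g hg' x hx (by rw [hgx]; exact hx) y hy
  rw [hgy] at this
  exact hzB this

/-- normal subgroups of primitive groups -/
theorem normal_PrOff {N : Subgroup G} [hN : N.Normal] {s : Set α} (htr : TrOff (⊤ : Subgroup G) s) (hpr : PrOff (⊤ : Subgroup G) s) : TrOff N s ∨ ∀ g ∈ Fx N s, ∀ a : α, g • a = a := by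
  have hconj : ∀ g ∈ Fx (⊤ : Subgroup G) s, ∀ n ∈ Fx N s, g * n * g⁻¹ ∈ Fx N s := by
    intro g hg n hn
    refine ⟨hN.conj_mem n hn.1 g, fun c hc => ?_⟩
    rw [mul_smul, mul_smul, (inv_mem hg).2 c hc, hn.2 c hc, hg.2 c hc]
  by_cases hall : ∀ g ∈ Fx N s, ∀ a : α, g • a = a
  · exact Or.inr hall
  left
  push Not at hall
  obtain ⟨n, hn, b, hb⟩ := hall
  have hbs : b ∉ s := fun h => hb (hn.2 b h)
  have hbl := hpr {x | ∃ m ∈ Fx N s, m • b = x} (by
    rw [Set.disjoint_left]
    rintro x ⟨m, hm, rfl⟩ hx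
    exact Fx_smul_notMem hm hbs hx) (by
    rintro g hg x ⟨m, hm, rfl⟩ ⟨m', hm', h'⟩ y ⟨k, hk, rfl⟩
    refine ⟨(g * k * m⁻¹ * g⁻¹) * m', mul_mem ?_ hm', ?_⟩
    · have := hconj g hg (k * m⁻¹) (mul_mem hk (inv_mem hm))
      rwa [← mul_assoc] at this
    · rw [mul_smul, h']
      simp only [mul_smul]
      rw [inv_smul_smul, inv_smul_smul])
  rcases hbl with h | h
  · exact absurd (h ⟨n, hn, rfl⟩ ⟨1, one_mem _, one_smul _ _⟩) hb
  · intro x y hx hy
    obtain ⟨m, hm, hmx⟩ := h hx
    obtain ⟨m', hm', hmy⟩ := h hy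
    exact ⟨m' * m⁻¹, mul_mem hm' (inv_mem hm), by rw [mul_smul, ← hmx, inv_smul_smul, hmy]⟩

/-- relative regularity of a subgroup `E` -/
structure RegOff (E : Subgroup G) (s : Set α) : Prop where
  fix : ∀ e ∈ E, ∀ c ∈ s, e • c = c
  tr : ∀ a b : α, a ∉ s → b ∉ s → ∃ e ∈ E, e • a = b
  semi : ∀ e ∈ E, ∀ a : α, a ∉ s → e • a = a → e = 1

theorem RegOff.eq {E : Subgroup G} {s : Set α} (h : RegOff E s) {e f : G} (he : e ∈ E) (hf : f ∈ E) {a : α} (ha : a ∉ s) (hef : e • a = f • a) : e = f := by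
  have h1 := h.semi (f⁻¹ * e) (mul_mem (inv_mem hf) he) a ha (by rw [mul_smul, hef, inv_smul_smul])
  rw [inv_mul_eq_one] at h1
  exact h1.symm

theorem RegOff.notMem {E : Subgroup G} {s : Set α} (h : RegOff E s) {e : G} (he : e ∈ E) {a : α} (ha : a ∉ s) : e • a ∉ s := by
  intro h'
  have h1 := h.fix e he _ h'
  have h2 : e • a = a := MulAction.injective e h1
  exact ha (h2 ▸ h')

/-- 2-primitive with a regular normal subgroup -/
theorem two_prim {E : Subgroup G} {s : Set α} (h : RegOff E s) (hn : ∀ g ∈ Fx (⊤ : Subgroup G) s, ∀ e ∈ E, g * e * g⁻¹ ∈ E)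
    (h2 : ∀ a : α, a ∉ s → PrOff (⊤ : Subgroup G) (insert a s)) : (∀ a : α, a ∉ s → ∃ b c : α, b ≠ c ∧ b ≠ a ∧ c ≠ a ∧ b ∉ s ∧ c ∉ s ∧ (insert a s)ᶜ ⊆ {b, c}) ∨ ∀ e ∈ E, e * e = 1 := by
  by_cases hall : ∀ e ∈ E, e * e = 1
  · exact Or.inr hall
  left
  push Not at hall
  obtain ⟨e, he, hee⟩ := hall
  intro a ha
  have hbc : e • a ≠ e⁻¹ • a := by
    intro h'
    have h3 := h.eq he (inv_mem he) ha h'
    apply hee
    nth_rewrite 1 [h3]
    exact inv_mul_cancel e
  have hb : e • a ≠ a := by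
    intro h'
    have := h.semi e he a ha h'
    apply hee
    rw [this, one_mul]
  have hc : e⁻¹ • a ≠ a := by
    intro h'
    rw [inv_smul_eq_iff] at h'
    exact hb h'.symm
  refine ⟨e • a, e⁻¹ • a, hbc, hb, hc, h.notMem he ha, h.notMem (inv_mem he) ha, ?_⟩
  have hbl := h2 a ha {e • a, e⁻¹ • a} (by
    rw [Set.disjoint_left]
    rintro x (rfl | rfl) (h' | h')
    · exact hb h'
    · exact h.notMem he ha h'
    · exact hc h'
    · exact h.notMem (inv_mem he) ha h') (by
    intro g hg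
    have hga : g • a = a := hg.2 a (Or.inl rfl)
    have hga' : g⁻¹ • a = a := by rw [inv_smul_eq_iff, hga]
    have hgs : g ∈ Fx (⊤ : Subgroup G) s := ⟨hg.1, fun c hc => hg.2 c (Or.inr hc)⟩
    have hf := hn g hgs e he
    have h5 : g • e • a = (g * e * g⁻¹) • a := by
      rw [mul_smul, mul_smul, hga']
    have h6 : g • e⁻¹ • a = (g * e * g⁻¹)⁻¹ • a := by
      rw [mul_inv_rev, mul_inv_rev, inv_inv, mul_smul, mul_smul, hga']
    have key : ∀ f : G, f ∈ E → (f • a = e • a ∨ f • a = e⁻¹ • a) → (f⁻¹ • a = e • a ∨ f⁻¹ • a = e⁻¹ • a) := by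
      intro f hf' h7
      rcases h7 with h7 | h7
      · have := h.eq hf' he ha h7
        right
        rw [this]
      · have := h.eq hf' (inv_mem he) ha h7
        left
        rw [this, inv_inv]
    rintro x (rfl | rfl) h7 y (rfl | rfl)
    · exact h7
    · rw [h6]
      rw [h5] at h7
      exact key _ hf h7
    · rw [h5]
      rw [h6] at h7
      have := key _ (inv_mem hf) h7
      rwa [inv_inv] at this
    · exact h7)
  rcases hbl with h' | h'
  · exact absurd (h' (Or.inl rfl) (Or.inr rfl)) hbc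
  · exact h'

/-- 3-primitive with a regular normal subgroup -/
theorem three_prim {E : Subgroup G} {s : Set α} (h : RegOff E s) (hn : ∀ g ∈ Fx (⊤ : Subgroup G) s, ∀ e ∈ E, g * e * g⁻¹ ∈ E)
    (hee : ∀ e ∈ E, e * e = 1)
    (h3 : ∀ a b : α, a ∉ s → b ∉ s → a ≠ b → PrOff (⊤ : Subgroup G) (insert b (insert a s))) {a b c : α} (ha : a ∉ s) (hb : b ∉ s) (hc : c ∉ s) (hab : a ≠ b) (hac : a ≠ c) (hbc : b ≠ c) :
    ∃ d : α, d ≠ a ∧ d ≠ b ∧ d ≠ c ∧ d ∉ s ∧ (insert b (insert a s))ᶜ ⊆ {c, d} := by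
  obtain ⟨e, he, hea⟩ := h.tr a b ha hb
  have heb : e • b = a := by
    rw [← hea, ← mul_smul, hee e he, one_smul]
  have he1 : e ≠ 1 := by
    intro h'
    rw [h', one_smul] at hea
    exact hab hea
  have hce : e • c ≠ c := fun h' => he1 (h.semi e he c hc h')
  have hcs : e • c ∉ s := h.notMem he hc
  have hca : e • c ≠ a := by
    intro h'
    rw [← heb] at h'
    exact hbc (MulAction.injective e h').symm
  have hcb : e • c ≠ b := by
    intro h'
    rw [← hea] at h'
    exact hac (MulAction.injective e h').symm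
  refine ⟨e • c, hca, hcb, hce, hcs, ?_⟩
  have hbl := h3 a b ha hb hab {c, e • c} (by
    rw [Set.disjoint_left]
    rintro x (rfl | rfl) (h' | h' | h')
    · exact hbc h'.symm
    · exact hac h'.symm
    · exact hc h'
    · exact hcb h'
    · exact hca h'
    · exact hcs h') (by
    intro g hg
    have hgb : g • b = b := hg.2 b (Or.inl rfl)
    have hga : g • a = a := hg.2 a (Or.inr (Or.inl rfl))
    have hgs : g ∈ Fx (⊤ : Subgroup G) s := ⟨hg.1, fun c hc => hg.2 c (Or.inr (Or.inr hc))⟩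
    have hga' : g⁻¹ • a = a := by rw [inv_smul_eq_iff, hga]
    have hge : g * e * g⁻¹ = e := by
      apply h.eq (hn g hgs e he) he ha
      rw [mul_smul, mul_smul, hga', hea, hgb]
    have hge' : ∀ x : α, g • e • x = e • g • x := by
      intro x
      have : g * e = e * g := by
        rw [mul_inv_eq_iff_eq_mul] at hge
        exact hge
      rw [← mul_smul, this, mul_smul]
    have hee' : ∀ x : α, e • e • x = x := by
      intro x
      rw [← mul_smul, hee e he, one_smul]
    rintro x (rfl | rfl) h7 y (rfl | rfl)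
    · exact h7
    · rw [hge']
      rcases h7 with h7 | h7
      · right
        rw [h7]
        rfl
      · left
        rw [h7, hee']
    · rw [hge'] at h7
      rcases h7 with h7 | h7
      · right
        have h8 : e • e • _ = e • _ := congrArg (fun z => e • z) h7
        rw [hee'] at h8
        exact h8
      · left
        exact MulAction.injective e h7
    · exact h7)
  rcases hbl with h' | h'
  · exact absurd (h' (Or.inl rfl) (Or.inr rfl)) (Ne.symm hce)
  · exact h'

/-- multiple transitivity, for arbitrary index types -/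
theorem exists_smul_emb {k : ℕ} (hG : IsMultiplyPretransitive G α k) [Finite α] (hk : k ≤ Nat.card α) {ι : Type*} [Finite ι] (hι : Nat.card ι ≤ k) (x y : ι ↪ α) : ∃ g : G, ∀ i, g • x i = y i := by
  classical
  have h1 : IsMultiplyPretransitive G α (Nat.card ι) := by
    haveI := hG
    haveI := Fintype.ofFinite α
    exact isMultiplyPretransitive_of_le hι hk
  obtain ⟨e⟩ : Nonempty (Fin (Nat.card ι) ≃ ι) := ⟨(Finite.equivFin ι).symm⟩
  obtain ⟨g, hg⟩ := h1.exists_smul_eq (e.toEmbedding.trans x) (e.toEmbedding.trans y)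
  refine ⟨g, fun i => ?_⟩
  have := DFunLike.congr_fun hg (e.symm i)
  simpa using this

theorem TrOff_of_multi {k : ℕ} (hG : IsMultiplyPretransitive G α k) [Finite α] (hk : k ≤ Nat.card α) {s : Set α} (hs : s.ncard < k) : TrOff (⊤ : Subgroup G) s := by
  classical
  intro a b ha hb
  have hx : ∀ a : α, a ∉ s → ∃ x : Option s ↪ α, (∀ c : s, x (some c) = c) ∧ x none = a := by
    intro a ha
    refine ⟨Function.Embedding.optionElim (Function.Embedding.subtype _) a (by simpa using ha), fun c => rfl, rfl⟩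
  obtain ⟨x, hx1, hx2⟩ := hx a ha
  obtain ⟨y, hy1, hy2⟩ := hx b hb
  obtain ⟨g, hg⟩ := exists_smul_emb hG hk (ι := Option s) (by
    rw [Finite.card_option, Nat.card_coe_set_eq]
    exact hs) x y
  refine ⟨g, ⟨mem_top _, fun c hc => ?_⟩, ?_⟩
  · have := hg (some ⟨c, hc⟩)
    rwa [hx1, hy1] at this
  · have := hg none
    rwa [hx2, hy2] at this

theorem PrOff_of_multi {k : ℕ} (hG : IsMultiplyPretransitive G α k) [Finite α] (hk : k ≤ Nat.card α) {s : Set α} (hs : s.ncard + 1 < k) : PrOff (⊤ : Subgroup G) s :=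
  PrOff_of_TrOff fun a ha => TrOff_of_multi hG hk (by rw [Set.ncard_insert_of_notMem ha (Set.toFinite s)]; exact hs)

theorem PrOff_of_prim {s : Set α} (h : IsPreprimitive (fixingSubgroup G s) (SubMulAction.ofFixingSubgroup G s)) : PrOff (⊤ : Subgroup G) s := by
  intro B hBs hB
  have hbl : IsBlock (fixingSubgroup G s) (Subtype.val ⁻¹' B : Set (SubMulAction.ofFixingSubgroup G s)) := by
    rw [isBlock_iff_smul_eq_of_nonempty]
    intro g hne
    have hg' : (g : G) ∈ Fx (⊤ : Subgroup G) s := ⟨mem_top _, fun c hc => (mem_fixingSubgroup_iff G).mp g.2 c hc⟩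
    obtain ⟨x, ⟨x', hx', hxx⟩, hx⟩ := hne
    have hxx' : (g : G) • (x' : α) = (x : α) := congrArg Subtype.val hxx
    have h1 : ∀ y ∈ B, (g : G) • y ∈ B := hB g hg' x' hx' (by rw [hxx']; exact hx)
    have h2 : ∀ y ∈ B, (g : G)⁻¹ • y ∈ B := hB (g : G)⁻¹ (inv_mem hg') x hx (by rw [← hxx', inv_smul_smul]; exact hx')
    ext y
    constructor
    · rintro ⟨z, hz, rfl⟩
      exact h1 _ hz
    · intro hy
      refine ⟨g⁻¹ • y, h2 _ hy, ?_⟩
      simp
  rcases h.isTrivialBlock_of_isBlock hbl with h1 | h1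
  · left
    intro x hx y hy
    have hxs : x ∉ s := fun h' => Set.disjoint_left.mp hBs hx h'
    have hys : y ∉ s := fun h' => Set.disjoint_left.mp hBs hy h'
    have := @h1 ⟨x, hxs⟩ hx ⟨y, hys⟩ hy
    exact congrArg Subtype.val this
  · right
    intro x hx
    have : (⟨x, hx⟩ : SubMulAction.ofFixingSubgroup G s) ∈ (Subtype.val ⁻¹' B : Set (SubMulAction.ofFixingSubgroup G s)) := by
      rw [h1]; trivial
    exact this

/-- sharply 2-transitive off `s` gives a characteristic regular subgroup -/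
theorem sharp_off [Finite α] {N : Subgroup G} {s : Set α} (hfaith : ∀ g ∈ N, (∀ a : α, g • a = a) → g = 1)
    {a₀ b₀ : α} (ha₀ : a₀ ∉ s) (hb₀ : b₀ ∉ s) (hab₀ : a₀ ≠ b₀)
    (h2 : ∀ a b c d : α, a ∉ s → b ∉ s → c ∉ s → d ∉ s → a ≠ b → c ≠ d → ∃ g ∈ Fx N s, g • a = c ∧ g • b = d)
    (hsh : ∀ g ∈ Fx N s, ∀ a b : α, a ∉ s → b ∉ s → a ≠ b → g • a = a → g • b = b → ∀ c : α, g • c = c) :
    ∃ E : Subgroup G, RegOff E s ∧ ∀ g : G, g ∈ E ↔ g ∈ Fx N s ∧ (g = 1 ∨ ∀ a ∉ s, g • a ≠ a) := by
  classical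
  haveI := Fintype.ofFinite α
  let β := {x : α // x ∉ s}
  let φ : Fx N s →* Equiv.Perm β :=
    { toFun := fun g => 
        { toFun := fun x => ⟨(g : G) • (x : α), Fx_smul_notMem g.2 x.2⟩
          invFun := fun x => ⟨(g : G)⁻¹ • (x : α), Fx_smul_notMem (inv_mem g.2) x.2⟩
          left_inv := fun x => Subtype.ext (inv_smul_smul _ _)
          right_inv := fun x => Subtype.ext (smul_inv_smul _ _) }
      map_one' := by
        ext x
        exact one_smul _ _
      map_mul' := by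
        intro g h
        ext x
        exact mul_smul _ _ _ }
  have hφ : ∀ (g : Fx N s) (x : β), ((φ g x : β) : α) = (g : G) • (x : α) := fun g x => rfl
  have hS : H3Sharp.Sharp φ.range := by
    refine ⟨?_, ?_, ?_⟩
    · rintro ⟨a, ha⟩ ⟨b, hb⟩ ⟨c, hc⟩ ⟨d, hd⟩ hab hcd
      obtain ⟨g, hg, h3, h4⟩ := h2 a b c d ha hb hc hd (fun h => hab (Subtype.ext h)) (fun h => hcd (Subtype.ext h))
      exact ⟨⟨φ ⟨g, hg⟩, ⟨g, hg⟩, rfl⟩, Subtype.ext h3, Subtype.ext h4⟩
    · rintro ⟨_, ⟨g, rfl⟩⟩ ⟨a, ha⟩ ⟨b, hb⟩ hab h3 h4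
      have h5 : (g : G) • a = a := congrArg Subtype.val h3
      have h6 : (g : G) • b = b := congrArg Subtype.val h4
      have h7 := hsh g g.2 a b ha hb (fun h => hab (Subtype.ext h)) h5 h6
      apply Subtype.ext
      ext x
      exact h7 x
    · rw [← Nat.card_eq_fintype_card]
      haveI : Nontrivial β := ⟨⟨⟨a₀, ha₀⟩, ⟨b₀, hb₀⟩, fun h => hab₀ (congrArg Subtype.val h)⟩⟩
      exact Finite.one_lt_card
  obtain ⟨M, hM1, hM2, hM3, hM4, hM5⟩ := H3Sharp.main hS
  refine ⟨(M.comap φ.rangeRestrict).map (Fx N s).subtype, ?_, ?_⟩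
  · have hmem : ∀ g : G, g ∈ (M.comap φ.rangeRestrict).map (Fx N s).subtype → ∃ hg : g ∈ Fx N s, φ.rangeRestrict ⟨g, hg⟩ ∈ M := by
      rintro g ⟨k, hk, rfl⟩
      exact ⟨k.2, hk⟩
    refine ⟨?_, ?_, ?_⟩
    · intro e he
      obtain ⟨hg, h3⟩ := hmem e he
      exact hg.2
    · intro a b ha hb
      obtain ⟨m, hm, hmab⟩ := hM4 ⟨a, ha⟩ ⟨b, hb⟩
      obtain ⟨_, ⟨g, rfl⟩⟩ := m
      exact ⟨g, ⟨g, hm, rfl⟩, congrArg Subtype.val hmab⟩
    · intro e he a ha hea
      obtain ⟨hg, h3⟩ := hmem e he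
      rcases (hM3 _).mp h3 with h4 | h4
      · apply hfaith e hg.1
        intro c
        by_cases hc : c ∈ s
        · exact hg.2 c hc
        · have := congrArg (fun t : φ.range => ((t : Equiv.Perm β) ⟨c, hc⟩ : β)) h4
          exact congrArg Subtype.val this
      · exact absurd (Subtype.ext hea) (h4 ⟨a, ha⟩)
  · intro g
    constructor
    · rintro ⟨k, hk, rfl⟩
      refine ⟨k.2, ?_⟩
      rcases (hM3 _).mp hk with h4 | h4
      · left
        apply hfaith _ k.2.1
        intro c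
        by_cases hc : c ∈ s
        · exact k.2.2 c hc
        · have := congrArg (fun t : φ.range => ((t : Equiv.Perm β) ⟨c, hc⟩ : β)) h4
          exact congrArg Subtype.val this
      · right
        intro a ha hka
        exact h4 ⟨a, ha⟩ (Subtype.ext hka)
    · rintro ⟨hg, h3⟩
      refine ⟨⟨g, hg⟩, ?_, rfl⟩
      apply (hM3 _).mpr
      rcases h3 with h3 | h3
      · left
        subst h3
        exact map_one φ.rangeRestrict
      · right
        rintro ⟨a, ha⟩ h4
        exact h3 a ha (congrArg Subtype.val h4)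

theorem PrOff_of_multiPrim {k : ℕ} (hG : IsMultiplyPreprimitive G α k) [Finite α] (hk : k ≤ Nat.card α) {s : Set α} (hs : s.ncard < k) : PrOff (⊤ : Subgroup G) s := by
  rcases Nat.lt_or_ge (s.ncard + 1) k with h | h
  · exact PrOff_of_multi hG.isMultiplyPretransitive hk h
  · apply PrOff_of_prim
    apply hG.isPreprimitive_ofFixingSubgroup
    rw [← Set.Finite.cast_ncard_eq (Set.toFinite s)]
    have : s.ncard + 1 = k := by omega
    rw [← this]
    push_cast
    rfl

theorem deg_or_inv [Finite α] {E : Subgroup G} {s : Set α} (h : RegOff E s) (hn : ∀ g ∈ Fx (⊤ : Subgroup G) s, ∀ e ∈ E, g * e * g⁻¹ ∈ E)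
    (h2 : ∀ a : α, a ∉ s → PrOff (⊤ : Subgroup G) (insert a s)) (hne : sᶜ.Nonempty) : Nat.card α = s.ncard + 3 ∨ ∀ e ∈ E, e * e = 1 := by
  rcases two_prim h hn h2 with h1 | h1
  · left
    obtain ⟨a, ha⟩ := hne
    obtain ⟨b, c, hbc, hba, hca, hb, hc, hsub⟩ := h1 a ha
    have h3 : sᶜ = {a, b, c} := by
      ext x
      constructor
      · intro hx
        by_cases hxa : x = a
        · left; exact hxa
        · right
          apply hsub
          rintro (h' | h')
          · exact hxa h'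
          · exact hx h'
      · rintro (rfl | rfl | rfl)
        · exact ha
        · exact hb
        · exact hc
    have h4 : sᶜ.ncard = 3 := by
      rw [h3, Set.ncard_eq_three]
      exact ⟨a, b, c, hba.symm, hca.symm, hbc, rfl⟩
    have h5 := Set.ncard_add_ncard_compl s
    omega
  · exact Or.inr h1

theorem deg34 [Finite α] {E : Subgroup G} {s : Set α} (h : RegOff E s) (hn : ∀ g ∈ Fx (⊤ : Subgroup G) s, ∀ e ∈ E, g * e * g⁻¹ ∈ E)
    (h2 : ∀ a : α, a ∉ s → PrOff (⊤ : Subgroup G) (insert a s))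
    (h3 : ∀ a b : α, a ∉ s → b ∉ s → a ≠ b → PrOff (⊤ : Subgroup G) (insert b (insert a s))) (hc3 : s.ncard + 3 ≤ Nat.card α) :
    Nat.card α = s.ncard + 3 ∨ Nat.card α = s.ncard + 4 := by
  have h5 := Set.ncard_add_ncard_compl s
  have h6 : 2 < sᶜ.ncard := by omega
  obtain ⟨a, b, c, ha, hb, hc, hab, hac, hbc⟩ := (Set.two_lt_ncard_iff (Set.toFinite _)).mp h6
  rcases deg_or_inv h hn h2 ⟨a, ha⟩ with h1 | hee
  · exact Or.inl h1
  right
  obtain ⟨d, hda, hdb, hdc, hd, hsub⟩ := three_prim h hn hee h3 ha hb hc hab hac hbc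
  have h3 : sᶜ = insert a {b, c, d} := by
    ext x
    constructor
    · intro hx
      by_cases hxa : x = a
      · left; exact hxa
      · right
        by_cases hxb : x = b
        · left; exact hxb
        · right
          apply hsub
          rintro (h' | h' | h')
          · exact hxb h'
          · exact hxa h'
          · exact hx h'
    · rintro (rfl | rfl | rfl | rfl)
      · exact ha
      · exact hb
      · exact hc
      · exact hd
  have h4 : ({b, c, d} : Set α).ncard = 3 := by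
    rw [Set.ncard_eq_three]
    exact ⟨b, c, d, hbc, hdb.symm, hdc.symm, rfl⟩
  have h7 : sᶜ.ncard = 4 := by
    rw [h3, Set.ncard_insert_of_notMem _ (Set.toFinite _), h4]
    rintro (h' | h' | h')
    · exact hab h'
    · exact hac h'
    · exact hda h'.symm
  omega

theorem sharp_case [Finite α] {N : Subgroup G} [hN : N.Normal] {s : Set α} (hfaith : ∀ g ∈ N, (∀ a : α, g • a = a) → g = 1)
    {a b : α} (ha : a ∉ s) (hb : b ∉ s) (hab : a ≠ b) (htr : TrOff N s) (htr2 : ∀ x : α, x ∉ s → TrOff N (insert x s))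
    (htriv : ∀ g ∈ Fx N (insert b (insert a s)), ∀ c : α, g • c = c) :
    ∃ E : Subgroup G, RegOff E s ∧ ∀ g ∈ Fx (⊤ : Subgroup G) s, ∀ e ∈ E, g * e * g⁻¹ ∈ E := by
  have h2 : ∀ a b c d : α, a ∉ s → b ∉ s → c ∉ s → d ∉ s → a ≠ b → c ≠ d → ∃ g ∈ Fx N s, g • a = c ∧ g • b = d := by
    intro a b c d ha hb hc hd hab hcd
    obtain ⟨g, hg, hgc⟩ := htr a c ha hc
    have hgb : g • b ∉ insert c s := by
      rintro (h' | h')
      · rw [← hgc] at h'
        exact hab (MulAction.injective g h').symm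
      · exact Fx_smul_notMem hg hb h'
    obtain ⟨k, hk, hkd⟩ := htr2 c hc (g • b) d hgb (by
      rintro (h' | h')
      · exact hcd h'.symm
      · exact hd h')
    refine ⟨k * g, mul_mem ⟨hk.1, fun x hx => hk.2 x (Or.inr hx)⟩ hg, ?_, ?_⟩
    · rw [mul_smul, hgc]
      exact hk.2 c (Or.inl rfl)
    · rw [mul_smul, hkd]
  obtain ⟨E, hE1, hE2⟩ := sharp_off hfaith ha hb hab h2 (by
    intro g hg c d hc hd hcd hgc hgd x
    obtain ⟨k, hk, hkc, hkd⟩ := h2 c d a b hc hd ha hb hcd hab
    have h3 : k * g * k⁻¹ ∈ Fx N (insert b (insert a s)) := by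
      refine ⟨mul_mem (mul_mem hk.1 hg.1) (inv_mem hk.1), ?_⟩
      rintro y (rfl | rfl | hy)
      · rw [mul_smul, mul_smul, ← hkd, inv_smul_smul, hgd]
      · rw [mul_smul, mul_smul, ← hkc, inv_smul_smul, hgc]
      · exact (mul_mem (mul_mem hk hg) (inv_mem hk)).2 y hy
    have h4 := htriv _ h3 (k • x)
    rw [mul_smul, mul_smul, inv_smul_smul] at h4
    exact MulAction.injective k h4)
  refine ⟨E, hE1, ?_⟩
  intro g hg e he
  rw [hE2] at he ⊢
  refine ⟨⟨hN.conj_mem e he.1.1 g, fun c hc => ?_⟩, ?_⟩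
  · rw [mul_smul, mul_smul, (inv_mem hg).2 c hc, he.1.2 c hc, hg.2 c hc]
  · rcases he.2 with h' | h'
    · left
      rw [h', mul_one, mul_inv_cancel]
    · right
      intro a ha h3
      rw [mul_smul, mul_smul] at h3
      apply h' (g⁻¹ • a) (Fx_smul_notMem (inv_mem hg) ha)
      rw [eq_inv_smul_iff]
      exact h3

theorem card_of_reg [Finite α] {E : Subgroup G} (h : RegOff E (∅ : Set α)) (a : α) : Nat.card E = Nat.card α := by
  apply Nat.card_congr
  refine Equiv.ofBijective (fun e : E => (e : G) • a) ⟨?_, ?_⟩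
  · intro e f hef
    exact Subtype.ext (h.eq e.2 f.2 (Set.notMem_empty a) hef)
  · intro b
    obtain ⟨e, he, heb⟩ := h.tr a b (Set.notMem_empty a) (Set.notMem_empty b)
    exact ⟨⟨e, he⟩, heb⟩

theorem reg_of {N : Subgroup G} (htrans : IsPretransitive N α) (hreg : ∀ x : α, stabilizer N x = ⊥) : RegOff N (∅ : Set α) := by
  refine ⟨fun e he c hc => absurd hc (Set.notMem_empty c), fun a b _ _ => ?_, fun e he a _ hea => ?_⟩
  · obtain ⟨n, hn⟩ := htrans.exists_smul_eq a b
    exact ⟨n, n.2, hn⟩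
  · have : (⟨e, he⟩ : N) ∈ stabilizer N a := hea
    rw [hreg a, mem_bot] at this
    exact congrArg Subtype.val this

theorem s0695 {X : Type u} [Fintype X] [MulAction G X] (hX : 2 ≤ Fintype.card X) (h2 : MulAction.IsMultiplyPreprimitive G X 2) (N : Subgroup G) [hN : N.Normal] (htrans : MulAction.IsPretransitive N X) (hreg : ∀ x : X, MulAction.stabilizer N x = ⊥) : Fintype.card X = 3 ∨ (IsMulCommutative N ∧ (∀ n ∈ N, n ^ 2 = 1) ∧ ∃ m : ℕ, Fintype.card X = 2 ^ m) := by
  have hR := reg_of htrans hreg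
  rw [← Nat.card_eq_fintype_card] at hX ⊢
  haveI : Nonempty X := (Finite.card_pos_iff.mp (by omega))
  obtain ⟨a⟩ : Nonempty X := inferInstance
  rcases deg_or_inv hR (fun g _ e he => hN.conj_mem e he g) (fun a _ => PrOff_of_multiPrim h2 hX (by simp)) ⟨a, Set.notMem_empty a⟩ with h | h
  · left
    simpa using h
  · right
    refine ⟨?_, ?_, ?_⟩
    · refine ⟨⟨fun x y => Subtype.ext ?_⟩⟩
      have h1 := h _ x.2
      have h3 := h _ y.2
      have h4 := h _ (x * y).2
      change (x : G) * (y : G) = (y : G) * (x : G)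
      have h5 : ((x : G) * (y : G)) * ((x : G) * (y : G)) = 1 := h4
      have hx : (x : G)⁻¹ = x := inv_eq_of_mul_eq_one_right h1
      have hy : (y : G)⁻¹ = y := inv_eq_of_mul_eq_one_right h3
      have hxy := eq_inv_of_mul_eq_one_left h5
      rw [mul_inv_rev, hx, hy] at hxy
      exact hxy
    · intro n hn
      rw [pow_two]
      exact h n hn
    · rw [← card_of_reg hR a]
      haveI : Finite N := Nat.finite_of_card_ne_zero (by rw [card_of_reg hR a]; omega)
      haveI : Fact (Nat.Prime 2) := ⟨Nat.prime_two⟩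
      apply IsPGroup.iff_card.mp
      intro x
      exact ⟨1, Subtype.ext (by simpa [pow_two] using h _ x.2)⟩

theorem s0696 {X : Type u} [Fintype X] [MulAction G X] (hX : 3 ≤ Fintype.card X) (h3 : MulAction.IsMultiplyPreprimitive G X 3) (N : Subgroup G) [hN : N.Normal] (htrans : MulAction.IsPretransitive N X) (hreg : ∀ x : X, MulAction.stabilizer N x = ⊥) : Fintype.card X = 3 ∨ Fintype.card X = 4 := by
  have hR := reg_of htrans hreg
  rw [← Nat.card_eq_fintype_card] at hX ⊢
  have := deg34 hR (fun g _ e he => hN.conj_mem e he g) (fun a _ => PrOff_of_multiPrim h3 hX (by simp)) (fun a b _ _ hab => PrOff_of_multiPrim h3 hX (by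
    rw [Set.ncard_insert_of_notMem (by simpa using hab.symm) (Set.toFinite _)]
    simp)) (by simpa using hX)
  simpa using this

/-- a normal subgroup which is not `m`-transitive, in a highly transitive group: a trivial pointwise stabiliser appears. -/
theorem first_fail [Finite α] {N : Subgroup G} [hN : N.Normal] {m : ℕ} (htr : ∀ s : Set α, s.ncard < m → TrOff (⊤ : Subgroup G) s)
    (hpr : ∀ s : Set α, s.ncard < m → PrOff (⊤ : Subgroup G) s) (s : Set α) (hs : s.ncard < m) (hnot : ¬ TrOff N s) :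
    ∃ t : Set α, t.ncard < m ∧ (∀ g ∈ Fx N t, ∀ a : α, g • a = a) ∧ ∀ r : Set α, r.ncard < t.ncard → TrOff N r := by
  classical
  have hex : ∃ j : ℕ, ∃ t : Set α, t.ncard = j ∧ t.ncard < m ∧ ¬ TrOff N t := ⟨_, s, rfl, hs, hnot⟩
  obtain ⟨t, ht1, ht2, ht3⟩ := Nat.find_spec hex
  refine ⟨t, ht2, ?_, ?_⟩
  · rcases normal_PrOff (N := N) (htr t ht2) (hpr t ht2) with h | h
    · exact absurd h ht3
    · exact h
  · intro r hr
    by_contra hcon
    have := Nat.find_min' hex ⟨r, rfl, by omega, hcon⟩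
    omega

theorem multi_of_TrOff [Fintype α] [DecidableEq α] {N : Subgroup G} {k : ℕ} (hk : k < Fintype.card α) (h : ∀ s : Set α, s.ncard < k → TrOff N s) : IsMultiplyPretransitive N α k := by
  apply PermTwo.kTrans_of_fixing hk
  intro s hs a b ha hb
  obtain ⟨g, hg, hgab⟩ := h (s : Set α) (by rw [Set.ncard_coe_finset]; omega) a b (by simpa using ha) (by simpa using hb)
  exact ⟨⟨g, hg.1⟩, fun x hx => hg.2 x (by simpa using hx), hgab⟩

theorem perm_faith {G : Subgroup (Equiv.Perm α)} {g : G} (h : ∀ a : α, g • a = a) : g = 1 := by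
  apply Subtype.ext
  ext a
  exact h a

theorem s0697 [Fintype α] [DecidableEq α] (G : Subgroup (Equiv.Perm α)) {k : ℕ} (hk : 1 ≤ k) (hkn : k ≤ Fintype.card α) (hG : MulAction.IsMultiplyPreprimitive G α k) (htop : G ≠ ⊤) (H : Subgroup G) [hHn : H.Normal] (hH : H ≠ ⊥) (hnr : ∃ a : α, MulAction.stabilizer H a ≠ ⊥) : MulAction.IsMultiplyPretransitive H α k := by
  classical
  have hkn' : k ≤ Nat.card α := by rwa [Nat.card_eq_fintype_card]
  have hGt : IsMultiplyPretransitive G α k := hG.isMultiplyPretransitive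
  have hbig : ¬ (Nat.card α ≤ k + 1) := by
    intro h
    haveI := hGt
    have h1 : IsMultiplyPretransitive G α (Nat.card α - 1) := isMultiplyPretransitive_of_le (n := k) (by omega) (by rwa [Nat.card_eq_fintype_card])
    exact htop (Equiv.Perm.eq_top_of_isMultiplyPretransitive h1)
  have htr : ∀ s : Set α, s.ncard < k → TrOff (⊤ : Subgroup G) s := fun s hs => TrOff_of_multi hGt hkn' hs
  have hpr : ∀ s : Set α, s.ncard < k → PrOff (⊤ : Subgroup G) s := fun s hs => PrOff_of_multiPrim hG hkn' hs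
  apply multi_of_TrOff (by rw [← Nat.card_eq_fintype_card]; omega)
  intro s hs
  by_contra hnot
  obtain ⟨t, ht1, ht2, ht3⟩ := first_fail (N := H) htr hpr s hs hnot
  have htriv : ∀ g ∈ Fx H t, g = 1 := fun g hg => perm_faith (ht2 g hg)
  have ht0 : t.ncard ≠ 0 := by
    intro h0
    rw [Set.ncard_eq_zero (Set.toFinite t)] at h0
    apply hH
    rw [eq_bot_iff]
    intro g hg
    rw [mem_bot]
    apply htriv g ⟨hg, fun c hc => ?_⟩
    rw [h0] at hc
    exact absurd hc (Set.notMem_empty c)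
  have ht1' : t.ncard ≠ 1 := by
    intro h1
    obtain ⟨b, hb⟩ := Set.ncard_eq_one.mp h1
    obtain ⟨a, ha⟩ := hnr
    apply ha
    rw [eq_bot_iff]
    intro h hh
    have h0 : TrOff H (∅ : Set α) := ht3 ∅ (by rw [h1]; simp)
    obtain ⟨n, hn, hnab⟩ := h0 a b (Set.notMem_empty a) (Set.notMem_empty b)
    rw [mem_bot]
    have hha : (h : G) • a = a := hh
    have h2 : n * (h : G) * n⁻¹ ∈ Fx H t := by
      refine ⟨mul_mem (mul_mem hn.1 h.2) (inv_mem hn.1), fun c hc => ?_⟩
      rw [hb] at hc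
      rw [Set.mem_singleton_iff.mp hc, mul_smul, mul_smul, ← hnab, inv_smul_smul, hha]
    have h3 := htriv _ h2
    rw [mul_inv_eq_one, mul_eq_left] at h3
    exact Subtype.ext h3
  have h2t : 1 < t.ncard := by omega
  obtain ⟨a, b, ha, hb, hab⟩ := (Set.one_lt_ncard_iff (Set.toFinite t)).mp h2t
  have hr : insert b (insert a (t \ {a, b})) = t := by
    ext x
    simp only [Set.mem_insert_iff, Set.mem_diff, Set.mem_singleton_iff]
    constructor
    · rintro (rfl | rfl | h)
      · exact hb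
      · exact ha
      · exact h.1
    · intro h
      by_cases h1 : x = b
      · exact Or.inl h1
      by_cases h2 : x = a
      · exact Or.inr (Or.inl h2)
      · exact Or.inr (Or.inr ⟨h, by tauto⟩)
  have hrc : (t \ {a, b}).ncard + 2 = t.ncard := by
    rw [← Set.ncard_pair hab]
    exact Set.ncard_diff_add_ncard_of_subset (by
      rintro x (rfl | rfl)
      · exact ha
      · exact hb) (Set.toFinite _)
  have har : a ∉ t \ {a, b} := fun h => h.2 (Or.inl rfl)
  have hbr : b ∉ t \ {a, b} := fun h => h.2 (Or.inr rfl)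
  obtain ⟨E, hE1, hE2⟩ := sharp_case (N := H) (s := t \ {a, b}) (fun g _ h => perm_faith h) har hbr hab (ht3 _ (by omega)) (fun x hx => ht3 _ (by
    rw [Set.ncard_insert_of_notMem hx (Set.toFinite _)]; omega)) (by rw [hr]; exact ht2)
  have := deg34 hE1 hE2 (fun x hx => hpr _ (by
    rw [Set.ncard_insert_of_notMem hx (Set.toFinite _)]; omega)) (fun x y hx hy hxy => hpr _ (by
    rw [Set.ncard_insert_of_notMem (by
      rintro (h | h)
      · exact hxy h.symm
      · exact hy h) (Set.toFinite _), Set.ncard_insert_of_notMem hx (Set.toFinite _)]; omega)) (by omega)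
  omega

theorem s0698 [Fintype α] [DecidableEq α] (G : Subgroup (Equiv.Perm α)) {k : ℕ} (hk : 1 < k) (hdeg : k < Fintype.card α) (hG : MulAction.IsMultiplyPretransitive G α k) (N : Subgroup G) [hNn : N.Normal] (hN : N ≠ ⊥) : MulAction.IsMultiplyPretransitive N α (k - 1) ∨ (k = 3 ∧ IsMulCommutative N ∧ ∀ n ∈ N, n ^ 2 = 1) := by
  classical
  have hkn' : k < Nat.card α := by rwa [Nat.card_eq_fintype_card]
  have htr : ∀ s : Set α, s.ncard < k → TrOff (⊤ : Subgroup G) s := fun s hs => TrOff_of_multi hG hkn'.le hs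
  have hpr : ∀ s : Set α, s.ncard < k - 1 → PrOff (⊤ : Subgroup G) s := fun s hs => PrOff_of_multi hG hkn'.le (by omega)
  by_cases hall : ∀ s : Set α, s.ncard < k - 1 → TrOff N s
  · left
    exact multi_of_TrOff (by rw [← Nat.card_eq_fintype_card]; omega) hall
  right
  push Not at hall
  obtain ⟨s, hs, hnot⟩ := hall
  obtain ⟨t, ht1, ht2, ht3⟩ := first_fail (N := N) (m := k - 1) (fun s hs => htr s (by omega)) hpr s hs hnot
  have htriv : ∀ g ∈ Fx N t, g = 1 := fun g hg => perm_faith (ht2 g hg)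
  have ht0 : t.ncard ≠ 0 := by
    intro h0
    rw [Set.ncard_eq_zero (Set.toFinite t)] at h0
    apply hN
    rw [eq_bot_iff]
    intro g hg
    rw [mem_bot]
    apply htriv g ⟨hg, fun c hc => ?_⟩
    rw [h0] at hc
    exact absurd hc (Set.notMem_empty c)
  by_cases h1 : t.ncard = 1
  · obtain ⟨b, hb⟩ := Set.ncard_eq_one.mp h1
    have h0 : TrOff N (∅ : Set α) := ht3 ∅ (by rw [h1]; simp)
    have hreg : RegOff N (∅ : Set α) := by
      refine ⟨fun e he c hc => absurd hc (Set.notMem_empty c), fun a b ha hb => ?_, fun h hh a _ hha => ?_⟩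
      · obtain ⟨n, hn, hnab⟩ := h0 a b ha hb
        exact ⟨n, hn.1, hnab⟩
      · obtain ⟨n, hn, hnab⟩ := h0 a b (Set.notMem_empty a) (Set.notMem_empty b)
        have h2 : n * h * n⁻¹ ∈ Fx N t := by
          refine ⟨mul_mem (mul_mem hn.1 hh) (inv_mem hn.1), fun c hc => ?_⟩
          rw [hb] at hc
          rw [Set.mem_singleton_iff.mp hc, mul_smul, mul_smul, ← hnab, inv_smul_smul, hha]
        have h3 := htriv _ h2
        rwa [mul_inv_eq_one, mul_eq_left] at h3
    have hnrm : ∀ g ∈ Fx (⊤ : Subgroup G) (∅ : Set α), ∀ e ∈ N, g * e * g⁻¹ ∈ N := fun g _ e he => hNn.conj_mem e he g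
    have hee : ∀ e ∈ N, e * e = 1 := by
      rcases deg_or_inv hreg hnrm (fun a _ => PrOff_of_multi hG hkn'.le (by
        simp only [insert_empty_eq, Set.ncard_singleton]; omega)) ⟨b, Set.notMem_empty b⟩ with h | h
      · rw [Set.ncard_empty] at h
        omega
      · exact h
    have hk3 : k = 3 := by
      by_contra hk3
      have := deg34 hreg hnrm (fun a _ => PrOff_of_multi hG hkn'.le (by
        simp only [insert_empty_eq, Set.ncard_singleton]; omega)) (fun a b _ _ hab => PrOff_of_multi hG hkn'.le (by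
        rw [Set.ncard_insert_of_notMem (by simpa using hab.symm) (Set.toFinite _)]
        simp only [insert_empty_eq, Set.ncard_singleton]; omega)) (by rw [Set.ncard_empty]; omega)
      rw [Set.ncard_empty] at this
      omega
    refine ⟨hk3, ⟨⟨fun x y => Subtype.ext ?_⟩⟩, fun n hn => by rw [pow_two]; exact hee n hn⟩
    have h1 := hee _ x.2
    have h3 := hee _ y.2
    have h4 := hee _ (x * y).2
    change (x : G) * (y : G) = (y : G) * (x : G)
    have h5 : ((x : G) * (y : G)) * ((x : G) * (y : G)) = 1 := h4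
    have hx : (x : G)⁻¹ = x := inv_eq_of_mul_eq_one_right h1
    have hy : (y : G)⁻¹ = y := inv_eq_of_mul_eq_one_right h3
    have hxy := eq_inv_of_mul_eq_one_left h5
    rw [mul_inv_rev, hx, hy] at hxy
    exact hxy
  · exfalso
    have h2t : 1 < t.ncard := by omega
    obtain ⟨a, b, ha, hb, hab⟩ := (Set.one_lt_ncard_iff (Set.toFinite t)).mp h2t
    have hr : insert b (insert a (t \ {a, b})) = t := by
      ext x
      simp only [Set.mem_insert_iff, Set.mem_diff, Set.mem_singleton_iff]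
      constructor
      · rintro (rfl | rfl | h)
        · exact hb
        · exact ha
        · exact h.1
      · intro h
        by_cases h1 : x = b
        · exact Or.inl h1
        by_cases h2 : x = a
        · exact Or.inr (Or.inl h2)
        · exact Or.inr (Or.inr ⟨h, by tauto⟩)
    have hrc : (t \ {a, b}).ncard + 2 = t.ncard := by
      rw [← Set.ncard_pair hab]
      exact Set.ncard_diff_add_ncard_of_subset (by
        rintro x (rfl | rfl)
        · exact ha
        · exact hb) (Set.toFinite _)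
    have har : a ∉ t \ {a, b} := fun h => h.2 (Or.inl rfl)
    have hbr : b ∉ t \ {a, b} := fun h => h.2 (Or.inr rfl)
    obtain ⟨E, hE1, hE2⟩ := sharp_case (N := N) (s := t \ {a, b}) (fun g _ h => perm_faith h) har hbr hab (ht3 _ (by omega)) (fun x hx => ht3 _ (by
      rw [Set.ncard_insert_of_notMem hx (Set.toFinite _)]; omega)) (by rw [hr]; exact ht2)
    have := deg34 hE1 hE2 (fun x hx => PrOff_of_multi hG hkn'.le (by
      rw [Set.ncard_insert_of_notMem hx (Set.toFinite _)]; omega)) (fun x y hx hy hxy => PrOff_of_multi hG hkn'.le (by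
      rw [Set.ncard_insert_of_notMem (by
        rintro (h | h)
        · exact hxy h.symm
        · exact hy h) (Set.toFinite _), Set.ncard_insert_of_notMem hx (Set.toFinite _)]; omega)) (by omega)
    omega

end Cfsg.Agent.Lib.H3Trans
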