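import Mathlib
import Cfsg.Agent.Lib.H3Homog
import Cfsg.Agent.Lib.H3Trans

set_option autoImplicit false

namespace Cfsg.Agent.Lib.H3LW

open Finset Equiv Cfsg.Agent.Lib.H3Homog

variable {α : Type*} [Fintype α] [DecidableEq α]

theorem inv_ap (g : Perm α) (a : α) : g⁻¹ (g a) = a := by
  rw [← Perm.mul_apply, inv_mul_cancel]; rfl

theorem ap_inv (g : Perm α) (a : α) : g (g⁻¹ a) = a := by
  rw [← Perm.mul_apply, mul_inv_cancel]; rfl

/-- `k`-transitivity: `G` agrees with every permutation on at most `k` points. -/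
def KT (G : Subgroup (Perm α)) (k : ℕ) : Prop :=
  ∀ s : Finset α, s.card ≤ k → ∀ τ : Perm α, ∃ g ∈ G, ∀ a ∈ s, g a = τ a

/-- transpositions are induced on `D`. -/
def T2 (G : Subgroup (Perm α)) (D : Finset α) : Prop :=
  ∀ a ∈ D, ∀ b ∈ D, a ≠ b → ∃ g ∈ G, ∀ x ∈ D, g x = swap a b x

def fx (g : Perm α) : Finset α := Finset.univ.filter fun a => g a = a

theorem mem_fx {g : Perm α} {a : α} : a ∈ fx g ↔ g a = a := by simp [fx]

def FxS (G : Subgroup (Perm α)) (s : Finset α) : Subgroup (Perm α) where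
  carrier := {g | g ∈ G ∧ ∀ a ∈ s, g a = a}
  mul_mem' := by
    rintro g h ⟨hg, hg1⟩ ⟨hh, hh1⟩
    refine ⟨G.mul_mem hg hh, fun a ha => ?_⟩
    rw [Perm.mul_apply, hh1 a ha, hg1 a ha]
  one_mem' := ⟨G.one_mem, fun _ _ => rfl⟩
  inv_mem' := by
    rintro g ⟨hg, hg1⟩
    refine ⟨G.inv_mem hg, fun a ha => ?_⟩
    rw [Perm.inv_eq_iff_eq, hg1 a ha]

theorem mem_FxS {G : Subgroup (Perm α)} {s : Finset α} {g : Perm α} :
    g ∈ FxS G s ↔ g ∈ G ∧ ∀ a ∈ s, g a = a := Iff.rfl

theorem exists_perm_map {s t : Finset α} (h : s.card = t.card) : ∃ τ : Perm α, s.map τ.toEmbedding = t := by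
  let e : s ≃ t := Finset.equivOfCardEq h
  refine ⟨e.extendSubtype, ?_⟩
  apply Finset.eq_of_subset_of_card_le
  · intro b hb
    obtain ⟨a, ha, rfl⟩ := Finset.mem_map.1 hb
    exact e.extendSubtype_mem a ha
  · rw [Finset.card_map, h]

theorem KT.mono {G : Subgroup (Perm α)} {k l : ℕ} (h : KT G k) (hl : l ≤ k) : KT G l :=
  fun s hs τ => h s (hs.trans hl) τ

theorem KT.hom {G : Subgroup (Perm α)} {k : ℕ} (h : KT G k) {s t : Finset α} (hs : s.card ≤ k) (hst : s.card = t.card) :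
    ∃ g ∈ G, s.map g.toEmbedding = t := by
  obtain ⟨τ, hτ⟩ := exists_perm_map hst
  obtain ⟨g, hg, hgτ⟩ := h s hs τ
  refine ⟨g, hg, ?_⟩
  rw [← hτ]
  ext b
  simp only [Finset.mem_map, Equiv.coe_toEmbedding]
  constructor
  · rintro ⟨a, ha, rfl⟩; exact ⟨a, ha, (hgτ a ha).symm⟩
  · rintro ⟨a, ha, rfl⟩; exact ⟨a, ha, hgτ a ha⟩

theorem KT_of_multi {G : Subgroup (Perm α)} {k : ℕ} (h : MulAction.IsMultiplyPretransitive G α k)
    (hk : k ≤ Fintype.card α) : KT G k := by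
  intro s hs τ
  obtain ⟨g, hg⟩ := H3Trans.exists_smul_emb (G := G) h (by rw [Nat.card_eq_fintype_card]; exact hk) (ι := s)
    (by rw [Nat.card_eq_fintype_card, Fintype.card_coe]; exact hs)
    (Function.Embedding.subtype _) ((Function.Embedding.subtype _).trans τ.toEmbedding)
  exact ⟨g, g.2, fun a ha => hg ⟨a, ha⟩⟩

theorem multi_of_KT {G : Subgroup (Perm α)} {k : ℕ} (h : KT G k) : MulAction.IsMultiplyPretransitive G α k := by
  refine ⟨fun x y => ?_⟩
  have h0 := Equiv.Perm.isMultiplyPretransitive α k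
  obtain ⟨τ, hτ⟩ := h0.exists_smul_eq x y
  obtain ⟨g, hg, hgτ⟩ := h (Finset.univ.map x) (by rw [Finset.card_map, Finset.card_univ, Fintype.card_fin]) τ
  refine ⟨⟨g, hg⟩, ?_⟩
  ext i
  have h1 := hgτ (x i) (Finset.mem_map_of_mem _ (Finset.mem_univ i))
  have h2 : τ (x i) = y i := by rw [← hτ]; rfl
  change g (x i) = y i
  rw [h1, h2]

/-- parity of the number of fixed points of an involution on a finset -/
theorem par {β : Type*} [DecidableEq β] (Y : Finset β) (f : β → β) (h1 : ∀ y ∈ Y, f y ∈ Y)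
    (h2 : ∀ y ∈ Y, f (f y) = y) : (Y.filter (fun y => f y = y)).card % 2 = Y.card % 2 := by
  have h3 : ((Y.filter (fun y => ¬ f y = y)).card : ZMod 2) = 0 := by
    have := Finset.sum_involution (s := Y.filter (fun y => ¬ f y = y)) (f := fun _ => (1 : ZMod 2)) (fun y _ => f y)
      (fun a ha => by decide) (fun a ha _ => (Finset.mem_filter.1 ha).2)
      (fun a ha => by
        have := Finset.mem_filter.1 ha
        refine Finset.mem_filter.2 ⟨h1 a this.1, fun h => ?_⟩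
        rw [h2 a this.1] at h
        exact this.2 h.symm)
      (fun a ha => h2 a (Finset.mem_filter.1 ha).1)
    simpa using this
  have h4 : (Y.filter (fun y => ¬ f y = y)).card % 2 = 0 := by
    have := (ZMod.natCast_eq_zero_iff _ 2).1 h3
    omega
  have h5 := Finset.card_filter_add_card_filter_not (s := Y) (fun y => f y = y)
  omega

theorem fx_par {g : Perm α} (hg : g * g = 1) : (fx g).card % 2 = Fintype.card α % 2 := by
  have := par (Finset.univ : Finset α) (fun a => g a) (fun _ _ => Finset.mem_univ _)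
    (fun a _ => by rw [← Perm.mul_apply, hg]; rfl)
  rw [Finset.card_univ] at this
  exact this

theorem mul_self_app {g : Perm α} (hg : g * g = 1) (a : α) : g (g a) = a := by
  rw [← Perm.mul_apply, hg]; rfl

theorem inv_of_mul_self {g : Perm α} (hg : g * g = 1) : g⁻¹ = g := inv_eq_of_mul_eq_one_left hg

theorem inv_comm (H : Subgroup (Perm α)) (hev : Even (Nat.card H)) (i : Perm α) (hi : i * i = 1)
    (hn : ∀ h ∈ H, i * h * i⁻¹ ∈ H) : ∃ j ∈ H, j ≠ 1 ∧ j * j = 1 ∧ i * j = j * i := by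
  classical
  let Y : Finset (Perm α) := Finset.univ.filter fun g => g ∈ H
  have hY : ∀ g, g ∈ Y ↔ g ∈ H := fun g => by simp [Y]
  have hYc : Y.card = Nat.card H := by
    rw [Nat.card_eq_fintype_card, Fintype.card_subtype]
  have h1 := par Y (fun g => g⁻¹) (fun g hg => (hY _).2 (H.inv_mem ((hY _).1 hg))) (fun g _ => inv_inv g)
  let X := Y.filter (fun g => g⁻¹ = g)
  have hii : i⁻¹ = i := inv_of_mul_self hi
  have h2 := par X (fun g => i * g * i⁻¹) (fun g hg => by
      have hg' := Finset.mem_filter.1 hg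
      refine Finset.mem_filter.2 ⟨(hY _).2 (hn g ((hY _).1 hg'.1)), ?_⟩
      simp only [mul_inv_rev, inv_inv]
      rw [hg'.2, mul_assoc])
    (fun g _ => by
      simp only [hii]
      calc i * (i * g * i) * i = (i * i) * g * (i * i) := by group
        _ = g := by rw [hi]; group)
  let Z := X.filter (fun g => i * g * i⁻¹ = g)
  have h1Z : (1 : Perm α) ∈ Z := by
    refine Finset.mem_filter.2 ⟨Finset.mem_filter.2 ⟨(hY _).2 H.one_mem, inv_one⟩, by group⟩
  have hZc : 1 < Z.card := by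
    have h3 : 0 < Z.card := Finset.card_pos.2 ⟨1, h1Z⟩
    have h4 : Z.card % 2 = 0 := by
      change Z.card % 2 = X.card % 2 at h2
      change X.card % 2 = Y.card % 2 at h1
      rw [h2, h1, hYc]
      exact Nat.even_iff.1 hev
    omega
  obtain ⟨j, hj, hj1⟩ := Finset.exists_mem_ne hZc 1
  have hj2 := Finset.mem_filter.1 hj
  have hj3 := Finset.mem_filter.1 hj2.1
  refine ⟨j, (hY _).1 hj3.1, hj1, ?_, ?_⟩
  · calc j * j = j⁻¹ * j := by rw [hj3.2]
      _ = 1 := inv_mul_cancel j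
  · exact mul_inv_eq_iff_eq_mul.1 hj2.2

theorem L1 {G : Subgroup (Perm α)} {s : Finset α} (hO : Odd (Nat.card (FxS G s))) {τ : Perm α}
    (hex : ∃ g ∈ G, ∀ a ∈ s, g a = τ a) (hτ2 : ∀ a ∈ s, τ (τ a) = a) (hτs : ∀ a ∈ s, τ a ∈ s)
    {t : Perm α} (ht : t ∈ G) (ht2 : t * t = 1) (hts : ∀ a ∈ s, t a ∈ s) (hc : ∀ a ∈ s, t (τ a) = τ (t a)) :
    ∃ y ∈ G, y * y = 1 ∧ t * y = y * t ∧ ∀ a ∈ s, y a = τ a := by
  classical
  obtain ⟨g0, hg0, hg0τ⟩ := hex
  let Y : Finset (Perm α) := Finset.univ.filter fun g => g ∈ G ∧ ∀ a ∈ s, g a = τ a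
  have hY : ∀ g, g ∈ Y ↔ g ∈ G ∧ ∀ a ∈ s, g a = τ a := fun g => by simp [Y]
  have hYc : Y.card = Nat.card (FxS G s) := by
    rw [Nat.card_eq_fintype_card, Fintype.card_subtype]
    apply Finset.card_bij' (fun g _ => g0⁻¹ * g) (fun g _ => g0 * g)
    · intro g hg
      have hg' := (hY g).1 hg
      refine Finset.mem_filter.2 ⟨Finset.mem_univ _, mem_FxS.2 ⟨G.mul_mem (G.inv_mem hg0) hg'.1, fun a ha => ?_⟩⟩
      rw [Perm.mul_apply, hg'.2 a ha, ← hg0τ a ha, inv_ap]
    · intro g hg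
      have hg' := mem_FxS.1 (Finset.mem_filter.1 hg).2
      refine (hY _).2 ⟨G.mul_mem hg0 hg'.1, fun a ha => ?_⟩
      rw [Perm.mul_apply, hg'.2 a ha, hg0τ a ha]
    · intro g _; group
    · intro g _; group
  have h1 := par Y (fun g => g⁻¹) (fun g hg => by
      have hg' := (hY g).1 hg
      refine (hY _).2 ⟨G.inv_mem hg'.1, fun a ha => ?_⟩
      rw [Perm.inv_eq_iff_eq, hg'.2 _ (hτs a ha), hτ2 a ha]) (fun g _ => inv_inv g)
  let X := Y.filter (fun g => g⁻¹ = g)
  have hii : t⁻¹ = t := inv_of_mul_self ht2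
  have h2 := par X (fun g => t * g * t⁻¹) (fun g hg => by
      have hg' := Finset.mem_filter.1 hg
      have hg'' := (hY g).1 hg'.1
      refine Finset.mem_filter.2 ⟨(hY _).2 ⟨G.mul_mem (G.mul_mem ht hg''.1) (G.inv_mem ht), fun a ha => ?_⟩, ?_⟩
      · rw [hii, Perm.mul_apply, Perm.mul_apply, hg''.2 _ (hts a ha), hc _ (hts a ha), mul_self_app ht2]
      · simp only [mul_inv_rev, inv_inv]
        rw [hg'.2, mul_assoc])
    (fun g _ => by
      simp only [hii]
      calc t * (t * g * t) * t = (t * t) * g * (t * t) := by group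
        _ = g := by rw [ht2]; group)
  let Z := X.filter (fun g => t * g * t⁻¹ = g)
  have hZc : 0 < Z.card := by
    have h4 : Z.card % 2 = 1 := by
      change Z.card % 2 = X.card % 2 at h2
      change X.card % 2 = Y.card % 2 at h1
      rw [h2, h1, hYc]
      exact Nat.odd_iff.1 hO
    omega
  obtain ⟨j, hj⟩ := Finset.card_pos.1 hZc
  have hj2 := Finset.mem_filter.1 hj
  have hj3 := Finset.mem_filter.1 hj2.1
  have hj4 := (hY j).1 hj3.1
  refine ⟨j, hj4.1, ?_, mul_inv_eq_iff_eq_mul.1 hj2.2, hj4.2⟩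
  calc j * j = j⁻¹ * j := by rw [hj3.2]
      _ = 1 := inv_mul_cancel j

end Cfsg.Agent.Lib.H3LW
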