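import Mathlib
import Cfsg.Agent.Lib.H3LW

set_option autoImplicit false

/-! sharply 4-transitive groups (helper3) -/

namespace Cfsg.Agent.Lib.H3Four

open MulAction

variable {G : Type*} [Group G] {Ω : Type*} [MulAction G Ω]

/-- four distinct points as an embedding -/
def emb {a b c d : Ω} (h : a ≠ b ∧ a ≠ c ∧ a ≠ d ∧ b ≠ c ∧ b ≠ d ∧ c ≠ d) : Fin 4 ↪ Ω where
  toFun := ![a, b, c, d]
  inj' := by
    obtain ⟨h1, h2, h3, h4, h5, h6⟩ := h
    intro i j hij
    fin_cases i <;> fin_cases j <;> first | rfl | (exfalso; revert hij; simp_all [Ne.symm])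
    all_goals first | exact h1 hij | exact h1 hij.symm | exact h2 hij | exact h2 hij.symm | exact h3 hij | exact h3 hij.symm | exact h4 hij | exact h4 hij.symm | exact h5 hij | exact h5 hij.symm | exact h6 hij | exact h6 hij.symm

theorem tr (h4 : IsMultiplyPretransitive G Ω 4) {a b c d a' b' c' d' : Ω}
    (h : a ≠ b ∧ a ≠ c ∧ a ≠ d ∧ b ≠ c ∧ b ≠ d ∧ c ≠ d) (h' : a' ≠ b' ∧ a' ≠ c' ∧ a' ≠ d' ∧ b' ≠ c' ∧ b' ≠ d' ∧ c' ≠ d') :
    ∃ g : G, g • a = a' ∧ g • b = b' ∧ g • c = c' ∧ g • d = d' := by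
  obtain ⟨g, hg⟩ := h4.exists_smul_eq (emb h) (emb h')
  refine ⟨g, ?_, ?_, ?_, ?_⟩
  · exact congrArg (fun w : Fin 4 ↪ Ω => w 0) hg
  · exact congrArg (fun w : Fin 4 ↪ Ω => w 1) hg
  · exact congrArg (fun w : Fin 4 ↪ Ω => w 2) hg
  · exact congrArg (fun w : Fin 4 ↪ Ω => w 3) hg

theorem sh (hsharp : ∀ x : Fin 4 ↪ Ω, stabilizer G x = ⊥) {a b c d : Ω}
    (h : a ≠ b ∧ a ≠ c ∧ a ≠ d ∧ b ≠ c ∧ b ≠ d ∧ c ≠ d) {g g' : G} (ha : g • a = g' • a) (hb : g • b = g' • b)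
    (hc : g • c = g' • c) (hd : g • d = g' • d) : g = g' := by
  have h1 : g'⁻¹ * g ∈ stabilizer G (emb h) := by
    rw [mem_stabilizer_iff]
    ext i
    fin_cases i
    · change (g'⁻¹ * g) • a = a
      rw [mul_smul, ha, inv_smul_smul]
    · change (g'⁻¹ * g) • b = b
      rw [mul_smul, hb, inv_smul_smul]
    · change (g'⁻¹ * g) • c = c
      rw [mul_smul, hc, inv_smul_smul]
    · change (g'⁻¹ * g) • d = d
      rw [mul_smul, hd, inv_smul_smul]
  rw [hsharp, Subgroup.mem_bot] at h1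
  exact (inv_mul_eq_one.1 h1).symm

theorem sh1 (hsharp : ∀ x : Fin 4 ↪ Ω, stabilizer G x = ⊥) {a b c d : Ω}
    (h : a ≠ b ∧ a ≠ c ∧ a ≠ d ∧ b ≠ c ∧ b ≠ d ∧ c ≠ d) {g : G} (ha : g • a = a) (hb : g • b = b)
    (hc : g • c = c) (hd : g • d = d) : g = 1 :=
  sh hsharp h (by rw [ha, one_smul]) (by rw [hb, one_smul]) (by rw [hc, one_smul]) (by rw [hd, one_smul])

theorem s0708 (h4 : IsMultiplyPretransitive G Ω 4) (hsharp : ∀ x : Fin 4 ↪ Ω, stabilizer G x = ⊥)
    (hne : Nonempty (Fin 4 ↪ Ω)) : Finite Ω ∧ Nat.card Ω ≤ 11 ∧ (Even (Nat.card Ω) → Nat.card Ω ≤ 6) := by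
  classical
  obtain ⟨e0⟩ := hne
  obtain ⟨p, hp⟩ : ∃ p, e0 0 = p := ⟨_, rfl⟩
  obtain ⟨q, hq⟩ : ∃ p, e0 1 = p := ⟨_, rfl⟩
  obtain ⟨r, hr⟩ : ∃ p, e0 2 = p := ⟨_, rfl⟩
  obtain ⟨s, hs⟩ : ∃ p, e0 3 = p := ⟨_, rfl⟩
  have hd : p ≠ q ∧ p ≠ r ∧ p ≠ s ∧ q ≠ r ∧ q ≠ s ∧ r ≠ s := by
    subst hp hq hr hs
    refine ⟨?_, ?_, ?_, ?_, ?_, ?_⟩ <;> exact e0.injective.ne (by decide)
  obtain ⟨hpq, hpr, hps, hqr, hqs, hrs⟩ := hd
  -- the involution `v`
  obtain ⟨v, hvp, hvq, hvr, hvs⟩ := tr h4 (a := p) (b := q) (c := r) (d := s) (a' := p) (b' := q) (c' := s) (d' := r)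
    ⟨hpq, hpr, hps, hqr, hqs, hrs⟩ ⟨hpq, hps, hpr, hqs, hqr, hrs.symm⟩
  have hvv : ∀ x : Ω, v • v • x = x := by
    have : v * v = 1 := by
      apply sh1 hsharp (a := p) (b := q) (c := r) (d := s) ⟨hpq, hpr, hps, hqr, hqs, hrs⟩
      · rw [mul_smul, hvp, hvp]
      · rw [mul_smul, hvq, hvq]
      · rw [mul_smul, hvr, hvs]
      · rw [mul_smul, hvs, hvr]
    intro x
    rw [← mul_smul, this, one_smul]
  have hv1 : v ≠ 1 := by
    rintro rfl
    rw [one_smul] at hvr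
    exact hrs hvr
  -- fixed points
  let F : Set Ω := {x | v • x = x}
  have hpF : p ∈ F := hvp
  have hqF : q ∈ F := hvq
  have hrF : r ∉ F := fun h => hrs ((h : v • r = r).symm.trans hvr)
  have hsF : s ∉ F := fun h => hrs (hvs.symm.trans (h : v • s = s))
  -- `F` has at most three elements
  have hF3 : ∃ w, ∀ x ∈ F, x = p ∨ x = q ∨ x = w := by
    by_cases h : ∃ w ∈ F, w ≠ p ∧ w ≠ q
    · obtain ⟨w, hw, hwp, hwq⟩ := h
      refine ⟨w, fun x hx => ?_⟩
      by_contra hcon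
      push Not at hcon
      exact hv1 (sh1 hsharp (a := p) (b := q) (c := w) (d := x) ⟨hpq, hwp.symm, hcon.1.symm, hwq.symm, hcon.2.1.symm, hcon.2.2.symm⟩
        hvp hvq hw hx)
    · push Not at h
      refine ⟨p, fun x hx => ?_⟩
      by_cases hxp : x = p
      · exact Or.inl hxp
      · exact Or.inr (Or.inl (h x hx hxp))
  -- the elements `t x`
  have hX : ∀ x, x ∉ F → x ≠ r → x ≠ s → r ≠ s ∧ r ≠ x ∧ r ≠ v • x ∧ s ≠ x ∧ s ≠ v • x ∧ x ≠ v • x := by
    intro x hx hxr hxs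
    refine ⟨hrs, hxr.symm, fun h => hxs ?_, hxs.symm, fun h => hxr ?_, fun h => hx h.symm⟩
    · rw [← hvv x, ← h, hvr]
    · rw [← hvv x, ← h, hvs]
  have ht : ∀ x, x ∉ F → x ≠ r → x ≠ s → ∃ t : G, t • r = r ∧ t • s = s ∧ t • x = v • x ∧ t • v • x = x := by
    intro x hx hxr hxs
    obtain ⟨e1, e2, e3, e4, e5, e6⟩ := hX x hx hxr hxs
    exact tr h4 ⟨e1, e2, e3, e4, e5, e6⟩ ⟨e1, e3, e2, e5, e4, e6.symm⟩
  choose! t htr hts htx htvx using ht
  have htv : ∀ x, x ∉ F → x ≠ r → x ≠ s → t x * v = v * t x := by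
    intro x hx hxr hxs
    apply sh hsharp (hX x hx hxr hxs)
    · rw [mul_smul, mul_smul, hvr, hts x hx hxr hxs, htr x hx hxr hxs, hvr]
    · rw [mul_smul, mul_smul, hvs, hts x hx hxr hxs, htr x hx hxr hxs, hvs]
    · rw [mul_smul, mul_smul, htx x hx hxr hxs, htvx x hx hxr hxs, hvv]
    · rw [mul_smul, mul_smul, hvv, htvx x hx hxr hxs, htx x hx hxr hxs]
  have htF : ∀ x, x ∉ F → x ≠ r → x ≠ s → ∀ y ∈ F, t x • y ∈ F := by
    intro x hx hxr hxs y hy
    change v • t x • y = t x • y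
    rw [← mul_smul, ← htv x hx hxr hxs, mul_smul, (hy : v • y = y)]
  have htt : ∀ x, x ∉ F → x ≠ r → x ≠ s → ∀ y : Ω, t x • t x • y = y := by
    intro x hx hxr hxs y
    have : t x * t x = 1 := by
      apply sh1 hsharp (hX x hx hxr hxs)
      · rw [mul_smul, htr x hx hxr hxs, htr x hx hxr hxs]
      · rw [mul_smul, hts x hx hxr hxs, hts x hx hxr hxs]
      · rw [mul_smul, htx x hx hxr hxs, htvx x hx hxr hxs]
      · rw [mul_smul, htvx x hx hxr hxs, htx x hx hxr hxs]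
    rw [← mul_smul, this, one_smul]
  have htne : ∀ x, x ∉ F → x ≠ r → x ≠ s → ¬ (t x • p = p ∧ t x • q = q) := by
    rintro x hx hxr hxs ⟨h1, h2⟩
    have : t x = 1 := sh1 hsharp (a := p) (b := q) (c := r) (d := s) ⟨hpq, hpr, hps, hqr, hqs, hrs⟩ h1 h2
      (htr x hx hxr hxs) (hts x hx hxr hxs)
    have h3 := htx x hx hxr hxs
    rw [this, one_smul] at h3
    exact hx h3.symm
  -- two points with the same `t` on `p, q`
  have huniq : ∀ x y, x ∉ F → x ≠ r → x ≠ s → y ∉ F → y ≠ r → y ≠ s → t x • p = t y • p → t x • q = t y • q →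
      y = x ∨ y = v • x := by
    intro x y hx hxr hxs hy hyr hys h1 h2
    have hxy : t x = t y := sh hsharp (a := p) (b := q) (c := r) (d := s) ⟨hpq, hpr, hps, hqr, hqs, hrs⟩ h1 h2
      (by rw [htr x hx hxr hxs, htr y hy hyr hys]) (by rw [hts x hx hxr hxs, hts y hy hyr hys])
    by_contra hcon
    push Not at hcon
    obtain ⟨-, -, -, -, -, e6⟩ := hX x hx hxr hxs
    obtain ⟨-, -, -, -, -, e6'⟩ := hX y hy hyr hys
    have h3 : t x = v := by
      apply sh hsharp (a := x) (b := v • x) (c := y) (d := v • y)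
        ⟨e6, hcon.1.symm, fun h => hcon.2 (by rw [h, hvv]), hcon.2.symm, fun h => hcon.1 (smul_left_cancel v h).symm, e6'⟩
      · exact htx x hx hxr hxs
      · rw [htvx x hx hxr hxs, hvv]
      · rw [hxy]; exact htx y hy hyr hys
      · rw [hxy, htvx y hy hyr hys, hvv]
    have h4 := htr x hx hxr hxs
    rw [h3, hvr] at h4
    exact hrs h4.symm
  obtain ⟨w, hw⟩ := hF3
  -- case split: does a third fixed point exist?
  by_cases hcase : w ∈ F ∧ w ≠ p ∧ w ≠ q
  · obtain ⟨hwF, hwp, hwq⟩ := hcase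
    -- `t x` restricted to `F` is one of three involutions
    have h3 : ∀ x, x ∉ F → x ≠ r → x ≠ s → (t x • p = p ∧ t x • q = w) ∨ (t x • p = q ∧ t x • q = p) ∨ (t x • p = w ∧ t x • q = q) := by
      intro x hx hxr hxs
      have a1 := hw _ (htF x hx hxr hxs p hpF)
      have a2 := hw _ (htF x hx hxr hxs q hqF)
      have a3 := htne x hx hxr hxs
      have a4 := htt x hx hxr hxs p
      have a5 := htt x hx hxr hxs q
      have a6 : t x • p ≠ t x • q := fun h => hpq (smul_left_cancel _ h)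
      rcases a1 with a1 | a1 | a1 <;> rcases a2 with a2 | a2 | a2
      · exact absurd (a1.trans a2.symm) a6
      · exact absurd ⟨a1, a2⟩ a3
      · exact Or.inl ⟨a1, a2⟩
      · exact Or.inr (Or.inl ⟨a1, a2⟩)
      · exact absurd (a1.trans a2.symm) a6
      · exfalso; rw [a1, a2] at a4; exact hwp a4
      · exfalso; rw [a2, a1] at a5; exact hwq a5
      · exact Or.inr (Or.inr ⟨a1, a2⟩)
      · exact absurd (a1.trans a2.symm) a6
    -- representatives
    have hrep : ∀ (P : Ω → Prop), (∀ x, P x → x ∉ F ∧ x ≠ r ∧ x ≠ s) →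
        (∀ x y, P x → P y → t x • p = t y • p ∧ t x • q = t y • q) → ∃ z, ∀ x, P x → x = z ∨ x = v • z := by
      intro P hP1 hP2
      by_cases h : ∃ z, P z
      · obtain ⟨z, hz⟩ := h
        refine ⟨z, fun x hx => ?_⟩
        obtain ⟨b1, b2, b3⟩ := hP1 z hz
        obtain ⟨c1, c2, c3⟩ := hP1 x hx
        obtain ⟨d1, d2⟩ := hP2 z x hz hx
        exact huniq z x b1 b2 b3 c1 c2 c3 d1 d2
      · push Not at h
        exact ⟨p, fun x hx => absurd hx (h x)⟩
    obtain ⟨z1, hz1⟩ := hrep (fun x => x ∉ F ∧ x ≠ r ∧ x ≠ s ∧ t x • p = p ∧ t x • q = w) (fun x hx => ⟨hx.1, hx.2.1, hx.2.2.1⟩)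
      (fun x y hx hy => ⟨hx.2.2.2.1.trans hy.2.2.2.1.symm, hx.2.2.2.2.trans hy.2.2.2.2.symm⟩)
    obtain ⟨z2, hz2⟩ := hrep (fun x => x ∉ F ∧ x ≠ r ∧ x ≠ s ∧ t x • p = q ∧ t x • q = p) (fun x hx => ⟨hx.1, hx.2.1, hx.2.2.1⟩)
      (fun x y hx hy => ⟨hx.2.2.2.1.trans hy.2.2.2.1.symm, hx.2.2.2.2.trans hy.2.2.2.2.symm⟩)
    obtain ⟨z3, hz3⟩ := hrep (fun x => x ∉ F ∧ x ≠ r ∧ x ≠ s ∧ t x • p = w ∧ t x • q = q) (fun x hx => ⟨hx.1, hx.2.1, hx.2.2.1⟩)
      (fun x y hx hy => ⟨hx.2.2.2.1.trans hy.2.2.2.1.symm, hx.2.2.2.2.trans hy.2.2.2.2.symm⟩)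
    let S : Finset Ω := [p, q, w, r, s, z1, v • z1, z2, v • z2, z3, v • z3].toFinset
    have hS : ∀ x, x ∈ S := by
      intro x
      simp only [S, List.mem_toFinset, List.mem_cons, List.not_mem_nil, or_false]
      by_cases hx : x ∈ F
      · rcases hw x hx with h | h | h <;> tauto
      by_cases hxr : x = r
      · tauto
      by_cases hxs : x = s
      · tauto
      rcases h3 x hx hxr hxs with h | h | h
      · rcases hz1 x ⟨hx, hxr, hxs, h⟩ with h | h <;> tauto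
      · rcases hz2 x ⟨hx, hxr, hxs, h⟩ with h | h <;> tauto
      · rcases hz3 x ⟨hx, hxr, hxs, h⟩ with h | h <;> tauto
    have hfin : Finite Ω := Set.finite_univ_iff.1 (S.finite_toSet.subset (fun x _ => hS x))
    haveI := Fintype.ofFinite Ω
    have hcard : Nat.card Ω ≤ 11 := by
      rw [Nat.card_eq_fintype_card, ← Finset.card_univ]
      calc (Finset.univ : Finset Ω).card ≤ S.card := Finset.card_le_card (fun x _ => hS x)
        _ ≤ 11 := List.toFinset_card_le _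
    refine ⟨hfin, hcard, fun hev => ?_⟩
    exfalso
    have h5 := Cfsg.Agent.Lib.H3LW.par (Finset.univ : Finset Ω) (fun y => v • y) (fun _ _ => Finset.mem_univ _) (fun y _ => hvv y)
    have h6 : (Finset.univ.filter (fun y : Ω => v • y = y)) = {p, q, w} := by
      ext y
      simp only [Finset.mem_filter, Finset.mem_univ, true_and, Finset.mem_insert, Finset.mem_singleton]
      constructor
      · intro h; exact hw y h
      · rintro (rfl | rfl | rfl)
        · exact hvp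
        · exact hvq
        · exact hwF
    have h7 : ({p, q, w} : Finset Ω).card = 3 := Finset.card_eq_three.2 ⟨p, q, w, hpq, hwp.symm, hwq.symm, rfl⟩
    rw [h6, h7, Finset.card_univ, ← Nat.card_eq_fintype_card] at h5
    have := Nat.even_iff.1 hev
    omega
  · -- only two fixed points
    have hF2 : ∀ x ∈ F, x = p ∨ x = q := by
      intro x hx
      rcases hw x hx with h | h | h
      · exact Or.inl h
      · exact Or.inr h
      · by_contra hcon
        push Not at hcon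
        exact hcase ⟨h ▸ hx, h ▸ hcon.1, h ▸ hcon.2⟩
    have h3 : ∀ x, x ∉ F → x ≠ r → x ≠ s → t x • p = q ∧ t x • q = p := by
      intro x hx hxr hxs
      have a1 := hF2 _ (htF x hx hxr hxs p hpF)
      have a2 := hF2 _ (htF x hx hxr hxs q hqF)
      have a3 := htne x hx hxr hxs
      have a6 : t x • p ≠ t x • q := fun h => hpq (smul_left_cancel _ h)
      rcases a1 with a1 | a1 <;> rcases a2 with a2 | a2
      · exact absurd (a1.trans a2.symm) a6
      · exact absurd ⟨a1, a2⟩ a3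
      · exact ⟨a1, a2⟩
      · exact absurd (a1.trans a2.symm) a6
    obtain ⟨z, hz⟩ : ∃ z, ∀ x, x ∉ F → x ≠ r → x ≠ s → x = z ∨ x = v • z := by
      by_cases h : ∃ z, z ∉ F ∧ z ≠ r ∧ z ≠ s
      · obtain ⟨z, b1, b2, b3⟩ := h
        refine ⟨z, fun x c1 c2 c3 => ?_⟩
        obtain ⟨d1, d2⟩ := h3 z b1 b2 b3
        obtain ⟨d3, d4⟩ := h3 x c1 c2 c3
        exact huniq z x b1 b2 b3 c1 c2 c3 (d1.trans d3.symm) (d2.trans d4.symm)
      · push Not at h
        exact ⟨p, fun x c1 c2 c3 => absurd (h x c1 c2) c3⟩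
    let S : Finset Ω := [p, q, r, s, z, v • z].toFinset
    have hS : ∀ x, x ∈ S := by
      intro x
      simp only [S, List.mem_toFinset, List.mem_cons, List.not_mem_nil, or_false]
      by_cases hx : x ∈ F
      · rcases hF2 x hx with h | h <;> tauto
      by_cases hxr : x = r
      · tauto
      by_cases hxs : x = s
      · tauto
      rcases hz x hx hxr hxs with h | h <;> tauto
    have hfin : Finite Ω := Set.finite_univ_iff.1 (S.finite_toSet.subset (fun x _ => hS x))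
    haveI := Fintype.ofFinite Ω
    have hcard : Nat.card Ω ≤ 6 := by
      rw [Nat.card_eq_fintype_card, ← Finset.card_univ]
      calc (Finset.univ : Finset Ω).card ≤ S.card := Finset.card_le_card (fun x _ => hS x)
        _ ≤ 6 := List.toFinset_card_le _
    exact ⟨hfin, by omega, fun _ => hcard⟩

end Cfsg.Agent.Lib.H3Four
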