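import Mathlib
import Cfsg.Prelude.Def_Solvable
import Cfsg.Agent.Lib.FrobC
import Cfsg.Agent.Lib.FrobGrp
import Cfsg.Agent.Lib.PGrpF
import Cfsg.Agent.H3.FrobEven
import Cfsg.Agent.S0042

set_option autoImplicit false
set_option linter.style.longLine false

namespace Cfsg.Agent.Lib.H3FrobQ

open Subgroup Cfsg Cfsg.Agent.Lib.FrobGrp

universe u

/-- quaternion elements in `QuaternionGroup (2 ^ (s+1))` -/
theorem quat_elts (s : ℕ) : ∃ i j : QuaternionGroup (2 ^ (s + 1)), j * i = i⁻¹ * j ∧ j * j = i * i ∧ i * i ≠ 1 := by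
  have ht : ((2 ^ s : ℕ) : ZMod (2 * 2 ^ (s + 1))) + ((2 ^ s : ℕ) : ZMod (2 * 2 ^ (s + 1))) =
      ((2 ^ (s + 1) : ℕ) : ZMod (2 * 2 ^ (s + 1))) := by
    rw [← Nat.cast_add]
    congr 1
    rw [pow_succ]; ring
  refine ⟨QuaternionGroup.a ((2 ^ s : ℕ) : ZMod (2 * 2 ^ (s + 1))), QuaternionGroup.xa 0, ?_, ?_, ?_⟩
  · have h1 : (QuaternionGroup.a ((2 ^ s : ℕ) : ZMod (2 * 2 ^ (s + 1))) : QuaternionGroup (2 ^ (s + 1)))⁻¹ =
        QuaternionGroup.a (-((2 ^ s : ℕ) : ZMod (2 * 2 ^ (s + 1)))) := by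
      rw [inv_eq_iff_mul_eq_one, QuaternionGroup.a_mul_a, add_neg_cancel, QuaternionGroup.one_def]
    rw [h1, QuaternionGroup.xa_mul_a, QuaternionGroup.a_mul_xa]
    congr 1
    ring
  · rw [QuaternionGroup.xa_mul_xa, QuaternionGroup.a_mul_a, ht, add_zero, sub_zero]
  · rw [QuaternionGroup.a_mul_a, ht, QuaternionGroup.one_def]
    intro h
    have h1 : ((2 ^ (s + 1) : ℕ) : ZMod (2 * 2 ^ (s + 1))) = 0 := by injection h
    rw [ZMod.natCast_eq_zero_iff] at h1
    have h2 := Nat.le_of_dvd (by positivity) h1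
    have h3 : 0 < 2 ^ (s + 1) := by positivity
    omega

theorem main {L : Type u} [Group L] [Finite L] (H : Subgroup L) (hF : IsFrobeniusComplement H)
    (hZ : ∃ (p : ℕ) (_ : Fact p.Prime) (P : Sylow p H), ¬ IsCyclic P) :
    Odd (Nat.card (frobeniusKernel H)) ∧ IsSquare (Nat.card (frobeniusKernel H)) := by
  obtain ⟨N, hN, hNn, -⟩ := Cfsg.Agent.S0042.result H hF
  obtain ⟨p, hp, P, hPc⟩ := hZ
  let P' : Subgroup L := (P : Subgroup H).map H.subtype
  have hP' : IsPGroup p P' := P.isPGroup'.map _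
  have hP'H : P' ≤ H := map_subtype_le _
  have hNb : N ≠ ⊥ := kernel_ne_bot hF hN.symm
  have hcop : (Nat.card P').Coprime (Nat.card N) :=
    Nat.Coprime.coprime_dvd_left (card_dvd_of_le hP'H) (kernel_coprime hF hN.symm).symm
  have hfpf : ∀ h ∈ P', h ≠ 1 → N ⊓ centralizer ({h} : Set L) = ⊥ := by
    intro h hh h1
    rw [eq_bot_iff]
    rintro k ⟨hk, hkc⟩
    rw [mem_bot]
    exact kernel_not_commute hF hN.symm (hP'H hh) h1 hk (mem_centralizer_singleton_iff.1 hkc)
  have hnorm : P' ≤ normalizer (N : Set L) := by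
    rw [normalizer_eq_top_iff.mpr hNn]; exact le_top
  have huniq : ∀ x y : P', orderOf x = p → orderOf y = p → x ∈ zpowers y := by
    intro x y hx hy
    have hx' : orderOf (x : L) = p := by rw [Subgroup.orderOf_coe, hx]
    have hy' : orderOf (y : L) = p := by rw [Subgroup.orderOf_coe, hy]
    have h1 := Cfsg.Agent.Lib.FrobC.unique_of_fpf hnorm hNb hcop hfpf hP' x.2 y.2 hx' hy'
    obtain ⟨k, hk⟩ := mem_zpowers_iff.1 h1
    exact mem_zpowers_iff.2 ⟨k, Subtype.ext (by push_cast; exact hk)⟩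
  have e0 : (P : Subgroup H) ≃* P' := (P : Subgroup H).equivMapOfInjective H.subtype H.subtype_injective
  have hP'c : ¬ IsCyclic P' := by
    intro hc
    apply hPc
    exact isCyclic_of_surjective e0.symm e0.symm.surjective
  rcases Cfsg.Agent.Lib.PGrpF.unique_imp hP' huniq with h1 | ⟨hp2, n, ⟨e⟩⟩
  · exact absurd h1 hP'c
  · rcases n with _ | s
    · exfalso
      apply hP'c
      rw [pow_zero] at e
      haveI := QuaternionGroup.quaternionGroup_one_isCyclic
      exact isCyclic_of_surjective e.symm e.symm.surjective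
    · obtain ⟨i, j, h1, h2, h3⟩ := quat_elts s
      have g1 : (e.symm j) * (e.symm i) * (e.symm j)⁻¹ = (e.symm i)⁻¹ := by
        rw [mul_inv_eq_iff_eq_mul, ← map_mul, ← map_inv, ← map_mul, h1]
      have g2 : (e.symm j) * (e.symm j) = (e.symm i) * (e.symm i) := by
        rw [← map_mul, ← map_mul, h2]
      have g3 : (e.symm i) * (e.symm i) ≠ 1 := by
        rw [← map_mul]
        intro h
        exact h3 (e.symm.injective (h.trans (map_one e.symm).symm))
      have h4 := Cfsg.Agent.H3.FrobEven.card_kernel_of_quaternion hF (i := ((e.symm i : P') : L)) (j := ((e.symm j : P') : L))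
        (hP'H (e.symm i).2) (hP'H (e.symm j).2)
        (congrArg (fun z : P' => (z : L)) g1) (congrArg (fun z : P' => (z : L)) g2)
        (fun h => g3 (Subtype.ext h))
      exact ⟨h4.1, h4.2.1⟩

end Cfsg.Agent.Lib.H3FrobQ
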