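import Mathlib

set_option autoImplicit false
set_option linter.style.longLine false
set_option maxRecDepth 100000

namespace Cfsg.Agent.Lib.H3GL25

open Matrix

/-- tuples -/
abbrev Tp := ZMod 5 × ZMod 5 × ZMod 5 × ZMod 5

def mu (x y : Tp) : Tp :=
  (x.1 * y.1 + x.2.1 * y.2.2.1, x.1 * y.2.1 + x.2.1 * y.2.2.2,
    x.2.2.1 * y.1 + x.2.2.2 * y.2.2.1, x.2.2.1 * y.2.1 + x.2.2.2 * y.2.2.2)

def tA : Tp := (2, 0, 0, -2)
def tB : Tp := (0, -1, 1, 0)
def tC : Tp := (1, 2, 1, -2)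

def step (l : List Tp) : List Tp := (l ++ l.map (mu tA) ++ l.map (mu tB) ++ l.map (mu tC)).dedup

def L : List Tp := step (step (step (step (step [(1, 0, 0, 1)]))))

def ac (x : Tp) (v : ZMod 5 × ZMod 5) : ZMod 5 × ZMod 5 :=
  (x.1 * v.1 + x.2.1 * v.2, x.2.2.1 * v.1 + x.2.2.2 * v.2)

theorem cardL : L.toFinset.card = 24 := by decide +kernel
theorem clos : ∀ t ∈ [tA, tB, tC], ∀ x ∈ L, mu t x ∈ L := by decide +kernel
theorem clos' : ∀ t ∈ [tA, tB, tC], ∀ x : Tp, mu t x ∈ L → x ∈ L := by decide +kernel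
theorem ex : ∀ v w : ZMod 5 × ZMod 5, v ≠ 0 → w ≠ 0 → ∃ x ∈ L, ac x v = w := by decide +kernel
theorem un : ∀ x ∈ L, ∀ y ∈ L, ∀ v : ZMod 5 × ZMod 5, v ≠ 0 → ac x v = ac y v → x = y := by decide +kernel

abbrev GL2 := Matrix.GeneralLinearGroup (Fin 2) (ZMod 5)

def tup (g : GL2) : Tp := ((g : Matrix (Fin 2) (Fin 2) (ZMod 5)) 0 0, (g : Matrix (Fin 2) (Fin 2) (ZMod 5)) 0 1,
  (g : Matrix (Fin 2) (Fin 2) (ZMod 5)) 1 0, (g : Matrix (Fin 2) (Fin 2) (ZMod 5)) 1 1)

theorem tup_mul (g h : GL2) : tup (g * h) = mu (tup g) (tup h) := by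
  simp only [tup, mu, Units.val_mul, Matrix.mul_apply, Fin.sum_univ_two]

theorem tup_one : tup 1 = (1, 0, 0, 1) := by
  simp [tup]

theorem tup_inj {g h : GL2} (e : tup g = tup h) : g = h := by
  apply Units.ext
  simp only [tup, Prod.mk.injEq] at e
  ext i j
  fin_cases i <;> fin_cases j
  · exact e.1
  · exact e.2.1
  · exact e.2.2.1
  · exact e.2.2.2

theorem main (A B C : GL2) (hA : (A : Matrix (Fin 2) (Fin 2) (ZMod 5)) = !![2, 0; 0, -2])
    (hB : (B : Matrix (Fin 2) (Fin 2) (ZMod 5)) = !![0, -1; 1, 0])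
    (hC : (C : Matrix (Fin 2) (Fin 2) (ZMod 5)) = !![1, 2; 1, -2]) :
    Nat.card (Subgroup.closure ({A, B, C} : Set GL2)) = 24 ∧ ∀ v w : Fin 2 → ZMod 5, v ≠ 0 → w ≠ 0 →
      ∃! h : Subgroup.closure ({A, B, C} : Set GL2),
        Matrix.mulVec ((h : GL2) : Matrix (Fin 2) (Fin 2) (ZMod 5)) v = w := by
  have eA : tup A = tA := by simp [tup, hA, tA]
  have eB : tup B = tB := by simp [tup, hB, tB]
  have eC : tup C = tC := by simp [tup, hC, tC]
  have hgen : ∀ x ∈ ({A, B, C} : Set GL2), tup x ∈ [tA, tB, tC] := by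
    rintro x (rfl | rfl | rfl)
    · rw [eA]; simp
    · rw [eB]; simp
    · rw [eC]; simp
  have hfwd : ∀ g ∈ Subgroup.closure ({A, B, C} : Set GL2), tup g ∈ L := by
    intro g hg
    induction hg using Subgroup.closure_induction_left with
    | one => rw [tup_one]; decide +kernel
    | mul_left x hx y hy ih =>
      rw [tup_mul]
      exact clos _ (hgen x hx) _ ih
    | inv_mul_cancel x hx y hy ih =>
      apply clos' _ (hgen x hx)
      rw [← tup_mul, mul_inv_cancel_left]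
      exact ih
  have hstep : ∀ l : List Tp, (∀ x ∈ l, ∃ g ∈ Subgroup.closure ({A, B, C} : Set GL2), tup g = x) →
      ∀ x ∈ step l, ∃ g ∈ Subgroup.closure ({A, B, C} : Set GL2), tup g = x := by
    intro l hl x hx
    rw [step, List.mem_dedup, List.mem_append, List.mem_append, List.mem_append] at hx
    have hA' : A ∈ Subgroup.closure ({A, B, C} : Set GL2) := Subgroup.subset_closure (by simp)
    have hB' : B ∈ Subgroup.closure ({A, B, C} : Set GL2) := Subgroup.subset_closure (by simp)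
    have hC' : C ∈ Subgroup.closure ({A, B, C} : Set GL2) := Subgroup.subset_closure (by simp)
    rcases hx with ((hx | hx) | hx) | hx
    · exact hl x hx
    · obtain ⟨y, hy, rfl⟩ := List.mem_map.1 hx
      obtain ⟨g, hg, rfl⟩ := hl y hy
      exact ⟨A * g, mul_mem hA' hg, by rw [tup_mul, eA]⟩
    · obtain ⟨y, hy, rfl⟩ := List.mem_map.1 hx
      obtain ⟨g, hg, rfl⟩ := hl y hy
      exact ⟨B * g, mul_mem hB' hg, by rw [tup_mul, eB]⟩
    · obtain ⟨y, hy, rfl⟩ := List.mem_map.1 hx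
      obtain ⟨g, hg, rfl⟩ := hl y hy
      exact ⟨C * g, mul_mem hC' hg, by rw [tup_mul, eC]⟩
  have hbwd : ∀ x ∈ L, ∃ g ∈ Subgroup.closure ({A, B, C} : Set GL2), tup g = x := by
    apply hstep; apply hstep; apply hstep; apply hstep; apply hstep
    intro x hx
    rw [List.mem_singleton] at hx
    exact ⟨1, one_mem _, by rw [hx, tup_one]⟩
  constructor
  · let f : Subgroup.closure ({A, B, C} : Set GL2) → {x // x ∈ L.toFinset} :=
      fun h => ⟨tup h, List.mem_toFinset.2 (hfwd h h.2)⟩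
    have hf : Function.Bijective f := by
      constructor
      · intro a b hab
        exact Subtype.ext (tup_inj (congrArg Subtype.val hab))
      · rintro ⟨x, hx⟩
        obtain ⟨g, hg, rfl⟩ := hbwd x (List.mem_toFinset.1 hx)
        exact ⟨⟨g, hg⟩, rfl⟩
    rw [Nat.card_congr (Equiv.ofBijective f hf), Nat.card_eq_fintype_card, Fintype.card_coe]
    exact cardL
  · intro v w hv hw
    have hne : ∀ v : Fin 2 → ZMod 5, v ≠ 0 → (v 0, v 1) ≠ ((0, 0) : ZMod 5 × ZMod 5) := by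
      intro v hv h
      apply hv
      rw [Prod.mk.injEq] at h
      ext i
      fin_cases i
      · exact h.1
      · exact h.2
    have hac : ∀ (g : GL2) (u : Fin 2 → ZMod 5),
        ac (tup g) (u 0, u 1) = (Matrix.mulVec (g : Matrix (Fin 2) (Fin 2) (ZMod 5)) u 0,
          Matrix.mulVec (g : Matrix (Fin 2) (Fin 2) (ZMod 5)) u 1) := by
      intro g u
      simp only [ac, tup, Matrix.mulVec, dotProduct, Fin.sum_univ_two]
    obtain ⟨x, hx, hxv⟩ := ex (v 0, v 1) (w 0, w 1) (hne v hv) (hne w hw)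
    obtain ⟨g, hg, rfl⟩ := hbwd x hx
    have hgv : Matrix.mulVec (g : Matrix (Fin 2) (Fin 2) (ZMod 5)) v = w := by
      rw [hac, Prod.mk.injEq] at hxv
      ext i
      fin_cases i
      · exact hxv.1
      · exact hxv.2
    refine ⟨⟨g, hg⟩, hgv, ?_⟩
    rintro ⟨g', hg'⟩ h'
    change Matrix.mulVec (g' : Matrix (Fin 2) (Fin 2) (ZMod 5)) v = w at h'
    apply Subtype.ext
    apply tup_inj
    apply un _ (hfwd g' hg') _ (hfwd g hg) (v 0, v 1) (hne v hv)
    rw [hac, hac, hgv, h']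

end Cfsg.Agent.Lib.H3GL25
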