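import Mathlib
import Cfsg.Agent.Lib.Gaschutz

set_option autoImplicit false

namespace Cfsg.Agent.Lib.H3Gasch

open Subgroup

universe u

variable {G : Type u} [Group G]

/-- the elements of `A` killed by `n` -/
def tors (A : Subgroup G) (hcomm : ∀ x ∈ A, ∀ y ∈ A, x * y = y * x) (n : ℕ) : Subgroup G where
  carrier := {x | x ∈ A ∧ x ^ n = 1}
  one_mem' := ⟨A.one_mem, one_pow n⟩
  mul_mem' := by
    rintro x y ⟨hx, hx'⟩ ⟨hy, hy'⟩
    refine ⟨A.mul_mem hx hy, ?_⟩
    rw [(show Commute x y from hcomm x hx y hy).mul_pow, hx', hy', one_mul]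
  inv_mem' := by
    rintro x ⟨hx, hx'⟩
    exact ⟨A.inv_mem hx, by rw [inv_pow, hx', inv_one]⟩

theorem mem_tors {A : Subgroup G} {hcomm : ∀ x ∈ A, ∀ y ∈ A, x * y = y * x} {n : ℕ} {x : G} :
    x ∈ tors A hcomm n ↔ x ∈ A ∧ x ^ n = 1 := Iff.rfl

theorem tors_normal (A : Subgroup G) [hA : A.Normal] (hcomm : ∀ x ∈ A, ∀ y ∈ A, x * y = y * x) (n : ℕ) :
    (tors A hcomm n).Normal := by
  constructor
  rintro x ⟨hx, hx'⟩ g
  refine ⟨hA.conj_mem x hx g, ?_⟩
  rw [conj_pow, hx', mul_one, mul_inv_cancel]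

theorem step [Finite G] (A : Subgroup G) [hA : A.Normal] (hcomm : ∀ x ∈ A, ∀ y ∈ A, x * y = y * x)
    {p : ℕ} (hp : p.Prime) {U K : Subgroup G} (hpU : ¬ p ∣ U.index)
    (hKA : K ⊓ A = ⊥) (hK : K ⊔ A = U) :
    ∃ L : Subgroup G, (∃ k, L.index = p ^ k) ∧ L.index ∣ Nat.card A ∧
      ∀ x ∈ L, x ∈ A → ¬ p ∣ orderOf x := by
  haveI : Fact p.Prime := ⟨hp⟩
  obtain ⟨a, m, hm, ham⟩ := Nat.exists_eq_pow_mul_and_not_dvd (n := Nat.card A) Nat.card_pos.ne' p hp.ne_one
  haveI hN : (tors A hcomm m).Normal := tors_normal A hcomm m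
  set N := tors A hcomm m with hNdef
  set f := QuotientGroup.mk' N with hf
  have hfs : Function.Surjective f := QuotientGroup.mk'_surjective N
  have hNA : N ≤ A := fun x hx => hx.1
  have hf1 : ∀ x : G, f x = 1 ↔ x ∈ N := fun x => QuotientGroup.eq_one_iff x
  have hpow : ∀ x ∈ A, x ^ Nat.card A = 1 := by
    intro x hx
    have := pow_card_eq_one' (x := (⟨x, hx⟩ : A))
    exact congrArg Subtype.val this
  haveI hAn : (A.map f).Normal := hA.map f hfs
  have hPG : IsPGroup p (A.map f) := by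
    rintro ⟨y, x, hx, rfl⟩
    refine ⟨a, Subtype.ext ?_⟩
    change (f x) ^ (p ^ a) = 1
    rw [← map_pow, hf1]
    refine ⟨A.pow_mem hx _, ?_⟩
    rw [← pow_mul, ← ham]
    exact hpow x hx
  obtain ⟨k, hk⟩ := hPG.exists_card_eq
  have hAU : A ≤ U := hK ▸ le_sup_right
  have hKU : K ≤ U := hK ▸ le_sup_left
  have hcop : (Nat.card (A.map f)).Coprime (U.map f).index := by
    rw [hk]
    apply Nat.Coprime.pow_left
    rw [hp.coprime_iff_not_dvd]
    intro hd
    exact hpU (hd.trans (Subgroup.index_map_dvd U hfs))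
  obtain ⟨H, hH⟩ := Cfsg.Agent.Lib.Gaschutz.exists_complement (K := A.map f) (U := U.map f) (A := K.map f)
    (Subgroup.map_mono hKU) (Subgroup.map_mono hAU)
    (by
      rw [eq_bot_iff]
      rintro _ ⟨⟨x, hx, rfl⟩, ⟨y, hy, hxy⟩⟩
      have h1 : f (y⁻¹ * x) = 1 := by rw [map_mul, map_inv, hxy, inv_mul_cancel]
      have h2 : y⁻¹ * x ∈ A := hNA ((hf1 _).1 h1)
      have h3 : y ∈ A := by
        have h4 := A.mul_mem hx (A.inv_mem h2)
        have h5 : x * (y⁻¹ * x)⁻¹ = y := by group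
        rwa [h5] at h4
      have h6 : y ∈ K ⊓ A := ⟨hy, h3⟩
      rw [hKA, Subgroup.mem_bot] at h6
      rw [← hxy, h6, map_one]
      exact Subgroup.one_mem _)
    (by rw [← Subgroup.map_sup, sup_comm, hK])
    (by
      rintro _ ⟨x, hx, rfl⟩ _ ⟨y, hy, rfl⟩
      rw [← map_mul, ← map_mul, hcomm x hx y hy])
    hcop
  have hidx : H.index = Nat.card (A.map f) := by
    have h1 := hH.card_mul
    have h2 := H.card_mul_index
    rw [← h1, mul_comm] at h2
    exact Nat.eq_of_mul_eq_mul_right Nat.card_pos h2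
  refine ⟨H.comap f, ⟨k, ?_⟩, ?_, ?_⟩
  · rw [Subgroup.index_comap_of_surjective _ hfs, hidx, hk]
  · rw [Subgroup.index_comap_of_surjective _ hfs, hidx]
    exact Subgroup.card_map_dvd A f
  · intro x hx hxA hd
    have h1 : f x ∈ A.map f ⊓ H := ⟨⟨x, hxA, rfl⟩, hx⟩
    rw [disjoint_iff.1 hH.disjoint, Subgroup.mem_bot, hf1] at h1
    exact hm (hd.trans (orderOf_dvd_of_pow_eq_one h1.2))

theorem inter [Finite G] (A : Subgroup G)
    (hyp : ∀ p : ℕ, p.Prime → ∃ L : Subgroup G, (∃ k, L.index = p ^ k) ∧ L.index ∣ Nat.card A ∧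
      ∀ x ∈ L, x ∈ A → ¬ p ∣ orderOf x) (s : Finset ℕ) (hs : ∀ p ∈ s, p.Prime) :
    ∃ L : Subgroup G, L.index ∣ Nat.card A ∧ (∀ q : ℕ, q.Prime → q ∣ L.index → q ∈ s) ∧
      ∀ x ∈ L, x ∈ A → ∀ p ∈ s, ¬ p ∣ orderOf x := by
  classical
  induction s using Finset.induction_on with
  | empty =>
    refine ⟨⊤, ?_, ?_, ?_⟩
    · rw [index_top]; exact one_dvd _
    · intro q hq hd
      rw [index_top] at hd
      exact absurd (Nat.le_of_dvd one_pos hd) hq.one_lt.not_ge
    · intro x _ _ p hp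
      exact absurd hp (Finset.notMem_empty p)
  | insert p s hps ih =>
    obtain ⟨L, h1, h2, h3⟩ := ih (fun q hq => hs q (Finset.mem_insert_of_mem hq))
    have hpp := hs p (Finset.mem_insert_self p s)
    obtain ⟨M, ⟨k, hk⟩, h5, h6⟩ := hyp p hpp
    have hcop : L.index.Coprime M.index := by
      rw [hk]
      apply Nat.Coprime.pow_right
      rw [Nat.coprime_comm, hpp.coprime_iff_not_dvd]
      intro hd
      exact hps (h2 p hpp hd)
    have hidx : (L ⊓ M).index = L.index * M.index := by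
      apply le_antisymm Subgroup.index_inf_le
      exact Nat.le_of_dvd (Nat.pos_of_ne_zero Subgroup.index_ne_zero_of_finite)
        (hcop.mul_dvd_of_dvd_of_dvd (Subgroup.index_dvd_of_le inf_le_left)
          (Subgroup.index_dvd_of_le inf_le_right))
    refine ⟨L ⊓ M, ?_, ?_, ?_⟩
    · rw [hidx]
      exact hcop.mul_dvd_of_dvd_of_dvd h1 h5
    · intro q hq hd
      rw [hidx] at hd
      rcases (Nat.Prime.dvd_mul hq).1 hd with hd | hd
      · exact Finset.mem_insert_of_mem (h2 q hq hd)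
      · rw [hk] at hd
        rw [(Nat.prime_dvd_prime_iff_eq hq hpp).1 (hq.dvd_of_dvd_pow hd)]
        exact Finset.mem_insert_self p s
    · intro x hx hxA q hq
      rcases Finset.mem_insert.1 hq with rfl | hq
      · exact h6 x hx.2 hxA
      · exact h3 x hx.1 hxA q hq

theorem exists_compl [Finite G] (A : Subgroup G) [hA : A.Normal] (hcomm : ∀ x ∈ A, ∀ y ∈ A, x * y = y * x)
    (hyp : ∀ p : ℕ, p.Prime → ∃ U K : Subgroup G, ¬ p ∣ U.index ∧ K ⊓ A = ⊥ ∧ K ⊔ A = U) :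
    ∃ L : Subgroup G, IsComplement' L A := by
  have hyp' : ∀ p : ℕ, p.Prime → ∃ L : Subgroup G, (∃ k, L.index = p ^ k) ∧ L.index ∣ Nat.card A ∧
      ∀ x ∈ L, x ∈ A → ¬ p ∣ orderOf x := by
    intro p hp
    obtain ⟨U, K, h1, h2, h3⟩ := hyp p hp
    exact step A hcomm hp h1 h2 h3
  obtain ⟨L, h1, h2, h3⟩ := inter A hyp' (Nat.card A).primeFactors (fun p hp => Nat.prime_of_mem_primeFactors hp)
  have hdis : Disjoint L A := by
    rw [disjoint_iff, eq_bot_iff]
    rintro x ⟨hxL, hxA⟩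
    rw [Subgroup.mem_bot, ← orderOf_eq_one_iff]
    by_contra hne
    obtain ⟨q, hq, hqd⟩ := Nat.exists_prime_and_dvd hne
    have h4 : orderOf x ∣ Nat.card A := by
      have := orderOf_dvd_natCard (⟨x, hxA⟩ : A)
      rwa [Subgroup.orderOf_mk] at this
    exact h3 x hxL hxA q (Nat.mem_primeFactors.2 ⟨hq, hqd.trans h4, Nat.card_pos.ne'⟩) hqd
  refine ⟨L, Subgroup.isComplement'_of_card_mul_and_disjoint ?_ hdis⟩
  have h5 := L.card_mul_index
  apply le_antisymm
  · have hinj : Function.Injective (fun x : L × A => (x.1 : G) * x.2) :=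
      Subgroup.mul_injective_of_disjoint hdis
    have := Nat.card_le_card_of_injective _ hinj
    rwa [Nat.card_prod] at this
  · rw [← h5]
    exact Nat.mul_le_mul_left _ (Nat.le_of_dvd Nat.card_pos h1)

theorem main [Finite G] (A : Subgroup G) [A.Normal] (hA : IsMulCommutative A) :
    (∃ K : Subgroup G, K.IsComplement' A) ↔
      ∀ p : ℕ, p.Prime → p ∣ A.index → ∃ (S : Sylow p (G ⧸ A)) (K : Subgroup G), K ⊓ A = ⊥ ∧
        K ⊔ A = (S : Subgroup (G ⧸ A)).comap (QuotientGroup.mk' A) := by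
  have hcomm : ∀ x ∈ A, ∀ y ∈ A, x * y = y * x := by
    intro x hx y hy
    have := hA.is_comm.comm (⟨x, hx⟩ : A) ⟨y, hy⟩
    exact congrArg Subtype.val this
  constructor
  · rintro ⟨K, hK⟩ p hp _
    haveI : Fact p.Prime := ⟨hp⟩
    let S : Sylow p (G ⧸ A) := default
    have hAS : A ≤ (S : Subgroup (G ⧸ A)).comap (QuotientGroup.mk' A) := by
      intro x hx
      rw [Subgroup.mem_comap, (show QuotientGroup.mk' A x = 1 from (QuotientGroup.eq_one_iff x).2 hx)]
      exact Subgroup.one_mem _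
    refine ⟨S, K ⊓ (S : Subgroup (G ⧸ A)).comap (QuotientGroup.mk' A), ?_, ?_⟩
    · rw [eq_bot_iff, ← disjoint_iff.1 hK.disjoint]
      exact fun x hx => ⟨hx.1.1, hx.2⟩
    · apply le_antisymm
      · exact sup_le inf_le_right hAS
      · intro x hx
        have hx' : x ∈ K ⊔ A := by rw [hK.sup_eq_top]; trivial
        rw [Subgroup.mem_sup_of_normal_right] at hx'
        obtain ⟨y, hy, z, hz, rfl⟩ := hx'
        refine Subgroup.mul_mem_sup ⟨hy, ?_⟩ hz
        have := Subgroup.mul_mem _ hx (Subgroup.inv_mem _ (hAS hz))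
        rwa [mul_inv_cancel_right] at this
  · intro h
    apply exists_compl A hcomm
    intro p hp
    haveI : Fact p.Prime := ⟨hp⟩
    by_cases hd : p ∣ A.index
    · obtain ⟨S, K, h1, h2⟩ := h p hp hd
      refine ⟨_, K, ?_, h1, h2⟩
      rw [Subgroup.index_comap_of_surjective _ (QuotientGroup.mk'_surjective A)]
      exact S.not_dvd_index
    · exact ⟨A, ⊥, hd, bot_inf_eq _, bot_sup_eq _⟩

end Cfsg.Agent.Lib.H3Gasch
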