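import Mathlib
import Cfsg.Agent.Lib.Basic
import Cfsg.Agent.Lib.H3Trans
import Cfsg.Agent.Lib.H3SigC

/-!
Wagner: normal subgroups of 3-transitive groups of odd degree (helper3).
-/

set_option autoImplicit false
set_option maxHeartbeats 400000
set_option linter.unusedVariables false
set_option linter.unusedSectionVars false
set_option linter.unusedFintypeInType false

namespace Cfsg.Agent.Lib.H3Wagner

open Subgroup MulAction Cfsg.Agent.Lib.H3Trans Cfsg.Agent.Lib.H3SigC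

universe u v
variable {G : Type v} [Group G] {α : Type u} [MulAction G α]

theorem sylow_conj {q : ℕ} [hq : Fact q.Prime] {G : Type v} [Group G] [Finite G] {P Q K : Subgroup G} (hP : IsSyl q P K) (hQ : IsSyl q Q K) :
    ∃ c ∈ K, P.map (MulAut.conj c).toMonoidHom = Q := by
  obtain ⟨c, hc, hc2⟩ := syl_conj (A := (⊥ : Subgroup G)) (K := K) (q := q) bot_le (by rw [card_bot]; exact Nat.coprime_one_left _) (by infer_instance) hP hQ bot_le bot_le
  exact ⟨c, hc.1, hc2⟩

/-- a 2-group acting on an odd set has a fixed point -/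
theorem exists_fix {G : Type v} [Group G] [MulAction G α] [Finite α] (hodd : Odd (Nat.card α)) {Q : Subgroup G} (hQ : IsPGroup 2 Q) : ∃ c : α, ∀ g ∈ Q, g • c = c := by
  haveI : Fact (Nat.Prime 2) := ⟨Nat.prime_two⟩
  obtain ⟨c, hc⟩ := hQ.nonempty_fixed_point_of_prime_not_dvd_card α (by
    intro h
    exact (Nat.not_even_iff_odd.mpr hodd) (even_iff_two_dvd.mpr h))
  exact ⟨c, fun g hg => hc ⟨g, hg⟩⟩

/-- elements swapping two points -/
def Sw (N : Subgroup G) (a b : α) : Subgroup G where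
  carrier := {g | g ∈ N ∧ ((g • a = a ∧ g • b = b) ∨ (g • a = b ∧ g • b = a))}
  mul_mem' := by
    rintro x y ⟨hx, hx'⟩ ⟨hy, hy'⟩
    refine ⟨mul_mem hx hy, ?_⟩
    rcases hx' with ⟨h1, h2⟩ | ⟨h1, h2⟩ <;> rcases hy' with ⟨h3, h4⟩ | ⟨h3, h4⟩
    · exact Or.inl ⟨by rw [mul_smul, h3, h1], by rw [mul_smul, h4, h2]⟩
    · exact Or.inr ⟨by rw [mul_smul, h3, h2], by rw [mul_smul, h4, h1]⟩
    · exact Or.inr ⟨by rw [mul_smul, h3, h1], by rw [mul_smul, h4, h2]⟩
    · exact Or.inl ⟨by rw [mul_smul, h3, h2], by rw [mul_smul, h4, h1]⟩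
  one_mem' := ⟨one_mem _, Or.inl ⟨one_smul _ _, one_smul _ _⟩⟩
  inv_mem' := by
    rintro x ⟨hx, hx'⟩
    refine ⟨inv_mem hx, ?_⟩
    rcases hx' with ⟨h1, h2⟩ | ⟨h1, h2⟩
    · exact Or.inl ⟨by rw [inv_smul_eq_iff, h1], by rw [inv_smul_eq_iff, h2]⟩
    · exact Or.inr ⟨by rw [inv_smul_eq_iff, h2], by rw [inv_smul_eq_iff, h1]⟩

theorem card_Sw {G : Type v} [Group G] [MulAction G α] {N : Subgroup G} {a b : α} (hab : a ≠ b) {t : G} (ht : t ∈ Sw N a b) (hta : t • a = b) (htb : t • b = a) : Nat.card (Sw N a b) = 2 * Nat.card (Fx N ({a, b} : Set α)) := by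
  have hle : Fx N ({a, b} : Set α) ≤ Sw N a b := fun g hg => ⟨hg.1, Or.inl ⟨hg.2 a (Or.inl rfl), hg.2 b (Or.inr rfl)⟩⟩
  have h1 := Subgroup.card_mul_index ((Fx N ({a, b} : Set α)).subgroupOf (Sw N a b))
  have h2 : ((Fx N ({a, b} : Set α)).subgroupOf (Sw N a b)).index = 2 := by
    rw [index_eq_two_iff]
    refine ⟨⟨t, ht⟩, ?_⟩
    rintro ⟨x, hx⟩
    simp only [mem_subgroupOf, Subgroup.coe_mul]
    rcases hx.2 with ⟨h3, h4⟩ | ⟨h3, h4⟩
    · right
      refine ⟨⟨hx.1, ?_⟩, ?_⟩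
      · rintro c (rfl | rfl)
        · exact h3
        · exact h4
      · intro h5
        have := h5.2 a (Or.inl rfl)
        rw [mul_smul, hta, h4] at this
        exact hab this.symm
    · left
      refine ⟨⟨mul_mem hx.1 ht.1, ?_⟩, ?_⟩
      · rintro c (rfl | rfl)
        · rw [mul_smul, hta, h4]
        · rw [mul_smul, htb, h3]
      · intro h5
        have := h5.2 a (Or.inl rfl)
        rw [h3] at this
        exact hab this.symm
  rw [h2] at h1
  rw [← h1, mul_comm]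
  congr 1
  exact Nat.card_congr (Subgroup.subgroupOfEquivOfLe hle).toEquiv

theorem exists_two_elt {G : Type v} [Group G] [Finite G] (t : G) : ∃ m : ℕ, Odd m ∧ ∃ k : ℕ, orderOf (t ^ m) = 2 ^ k := by
  have h0 : orderOf t ≠ 0 := (orderOf_pos t).ne'
  refine ⟨ordCompl[2] (orderOf t), ?_, (orderOf t).factorization 2, ?_⟩
  · rw [← Nat.not_even_iff_odd, even_iff_two_dvd]
    exact Nat.not_dvd_ordCompl Nat.prime_two h0
  · rw [orderOf_pow_of_dvd (Nat.ordCompl_pos 2 h0).ne' (Nat.ordCompl_dvd _ 2)]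
    have h1 := Nat.ordProj_mul_ordCompl_eq_self (orderOf t) 2
    exact Nat.div_eq_of_eq_mul_left (Nat.ordCompl_pos 2 h0) h1.symm

theorem pow_swap {t : G} {a b : α} (ha : t • a = b) (hb : t • b = a) {m : ℕ} (hm : Odd m) : t ^ m • a = b ∧ t ^ m • b = a := by
  obtain ⟨k, rfl⟩ := hm
  have h1 : ∀ k : ℕ, t ^ (2 * k) • a = a ∧ t ^ (2 * k) • b = b := by
    intro k
    induction k with
    | zero => simp
    | succ k ih =>
      have : t ^ (2 * (k + 1)) = t ^ (2 * k) * t * t := by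
        rw [mul_add, pow_add, mul_assoc]
        simp [pow_two]
      rw [this]
      simp only [mul_smul]
      rw [ha, hb, ha]
      exact ih
  rw [pow_succ']
  simp only [mul_smul]
  rw [(h1 k).1, (h1 k).2]
  exact ⟨ha, hb⟩

theorem s0699 [Fintype α] [DecidableEq α] (G : Subgroup (Equiv.Perm α)) (hodd : Odd (Fintype.card α)) (h5 : 5 ≤ Fintype.card α) (hG : MulAction.IsMultiplyPretransitive G α 3) (N : Subgroup G) [hNn : N.Normal] (hN : N ≠ ⊥) : MulAction.IsMultiplyPretransitive N α 3 := by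
  classical
  haveI : Fact (Nat.Prime 2) := ⟨Nat.prime_two⟩
  have hodd' : Odd (Nat.card α) := by rwa [Nat.card_eq_fintype_card]
  have h5' : 5 ≤ Nat.card α := by rwa [Nat.card_eq_fintype_card]
  have htr : ∀ s : Set α, s.ncard < 3 → TrOff (⊤ : Subgroup G) s := fun s hs => TrOff_of_multi hG (by omega) hs
  have hpr : ∀ s : Set α, s.ncard < 2 → PrOff (⊤ : Subgroup G) s := fun s hs => PrOff_of_multi hG (by omega) (by omega)
  -- N transitive
  have hNtr : TrOff N (∅ : Set α) := by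
    rcases normal_PrOff (N := N) (htr ∅ (by simp)) (hpr ∅ (by simp)) with h | h
    · exact h
    · exfalso
      apply hN
      rw [eq_bot_iff]
      intro g hg
      rw [mem_bot]
      exact perm_faith (h g ⟨hg, fun c hc => absurd hc (Set.notMem_empty c)⟩)
  have hN2 : ∀ s : Set α, s.ncard < 2 → TrOff N s := by
    rcases s0698 G (by norm_num : 1 < 3) (by omega : 3 < Fintype.card α) hG N hN with h | ⟨_, hab, hsq⟩
    · intro s hs a b ha hb
      have h2 := TrOff_of_multi h (k := 2) (by omega) hs a b ha hb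
      obtain ⟨g, hg, hgab⟩ := h2
      exact ⟨g, ⟨g.2, fun c hc => hg.2 c hc⟩, hgab⟩
    · exfalso
      have hN2 : IsPGroup 2 N := fun x => ⟨1, Subtype.ext (by simpa using hsq _ x.2)⟩
      obtain ⟨c, hc⟩ := exists_fix hodd' hN2
      have : ∀ x : α, x = c := by
        intro x
        obtain ⟨g, hg, hgx⟩ := hNtr c x (Set.notMem_empty _) (Set.notMem_empty _)
        rw [← hgx, hc g hg.1]
      have h1 : Nat.card α ≤ 1 := by
        rw [Finite.card_le_one_iff_subsingleton]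
        exact ⟨fun x y => by rw [this x, this y]⟩
      omega
  -- two-point moves in N
  have hmove : ∀ a b c d : α, a ≠ b → c ≠ d → ∃ n ∈ N, n • a = c ∧ n • b = d := by
    intro a b c d hab hcd
    obtain ⟨g, hg, hgc⟩ := hNtr a c (Set.notMem_empty _) (Set.notMem_empty _)
    obtain ⟨k, hk, hkd⟩ := hN2 {c} (by simp) (g • b) d (by
      intro h
      rw [Set.mem_singleton_iff, ← hgc] at h
      exact hab (MulAction.injective g h).symm) (by simpa using hcd.symm)
    exact ⟨k * g, mul_mem hk.1 hg.1, by rw [mul_smul, hgc]; exact hk.2 c rfl, by rw [mul_smul, hkd]⟩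
  -- three-point moves in G
  have hmove3 : ∀ a b c d : α, c ≠ a → c ≠ b → d ≠ a → d ≠ b → a ≠ b → ∃ g : G, g • a = a ∧ g • b = b ∧ g • c = d := by
    intro a b c d hca hcb hda hdb hab
    obtain ⟨g, hg, hgc⟩ := htr {a, b} (by rw [Set.ncard_pair hab]; norm_num) c d (by
      rintro (h | h)
      · exact hca h
      · exact hcb h) (by
      rintro (h | h)
      · exact hda h
      · exact hdb h)
    exact ⟨g, hg.2 a (Or.inl rfl), hg.2 b (Or.inr rfl), hgc⟩
  -- swaps with a fixed point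
  have hswap : ∀ a b c : α, a ≠ b → c ≠ a → c ≠ b → ∃ n ∈ N, n • a = b ∧ n • b = a ∧ n • c = c := by
    intro a b c hab hca hcb
    obtain ⟨t₀, ht₀, ha₀, hb₀⟩ := hmove a b b a hab hab.symm
    obtain ⟨m, hm, k, hk⟩ := exists_two_elt t₀
    obtain ⟨ha, hb⟩ := pow_swap ha₀ hb₀ hm
    have ht : t₀ ^ m ∈ N := pow_mem ht₀ m
    have hz : IsPGroup 2 (Subgroup.zpowers (t₀ ^ m)) := IsPGroup.of_card (n := k) (by rw [Nat.card_zpowers, hk])
    obtain ⟨d, hd⟩ := exists_fix hodd' hz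
    have hd1 := hd (t₀ ^ m) (mem_zpowers _)
    have hda : d ≠ a := by
      rintro rfl
      rw [ha] at hd1
      exact hab hd1.symm
    have hdb : d ≠ b := by
      rintro rfl
      rw [hb] at hd1
      exact hab hd1
    obtain ⟨g, hga, hgb, hgc⟩ := hmove3 a b d c hda hdb hca hcb hab
    refine ⟨g * t₀ ^ m * g⁻¹, hNn.conj_mem _ ht g, ?_, ?_, ?_⟩
    · rw [mul_smul, mul_smul, (by rw [inv_smul_eq_iff, hga] : g⁻¹ • a = a), ha, hgb]
    · rw [mul_smul, mul_smul, (by rw [inv_smul_eq_iff, hgb] : g⁻¹ • b = b), hb, hga]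
    · rw [mul_smul, mul_smul, ← hgc, inv_smul_smul, hd1]
  -- cardinalities
  have hcardF : ∀ a b c d : α, a ≠ b → c ≠ d → Nat.card (Fx N ({a, b} : Set α)) = Nat.card (Fx N ({c, d} : Set α)) := by
    intro a b c d hab hcd
    obtain ⟨g, hg, hga, hgb⟩ := hmove a b c d hab hcd
    rw [← card_conj g (Fx N ({a, b} : Set α))]
    congr 2
    ext x
    constructor
    · rintro ⟨y, hy, rfl⟩
      change g * y * g⁻¹ ∈ _
      refine ⟨mul_mem (mul_mem hg hy.1) (inv_mem hg), ?_⟩
      rintro z (rfl | rfl)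
      · rw [mul_smul, mul_smul, ← hga, inv_smul_smul, hy.2 a (Or.inl rfl)]
      · rw [mul_smul, mul_smul, ← hgb, inv_smul_smul, hy.2 b (Or.inr rfl)]
    · intro hx
      refine ⟨g⁻¹ * x * g, ⟨mul_mem (mul_mem (inv_mem hg) hx.1) hg, ?_⟩, ?_⟩
      · rintro z (rfl | rfl)
        · rw [mul_smul, mul_smul, hga, hx.2 c (Or.inl rfl), ← hga, inv_smul_smul]
        · rw [mul_smul, mul_smul, hgb, hx.2 d (Or.inr rfl), ← hgb, inv_smul_smul]
      · change g * (g⁻¹ * x * g) * g⁻¹ = x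
        group
  have hkey : ∀ a b c d : α, a ≠ b → c ≠ a → c ≠ b → d ≠ a → d ≠ b → ∃ m ∈ Sw N a b, m • c = d := by
    intro a b c d hab hca hcb hda hdb
    obtain ⟨t, ht, hta, htb⟩ := hmove a b b a hab hab.symm
    have htS : t ∈ Sw N a b := ⟨ht, Or.inr ⟨hta, htb⟩⟩
    have hcS := card_Sw hab htS hta htb
    -- Sylow
    let S : Sylow 2 (Sw N a b) := default
    have hQ := isSyl_of_sylow (q := 2) S
    set Q := (S : Subgroup (Sw N a b)).map (Sw N a b).subtype with hQdef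
    have huniq : ∀ x y : α, (∀ g ∈ Q, g • x = x) → (∀ g ∈ Q, g • y = y) → x = y := by
      intro x y hx hy
      by_contra hxy
      have hle : Q ≤ Fx N ({x, y} : Set α) := by
        intro g hg
        refine ⟨(hQ.1 hg).1, ?_⟩
        rintro z (rfl | rfl)
        · exact hx g hg
        · exact hy g hg
      have h1 := Subgroup.card_dvd_of_le hle
      rw [← hcardF a b x y hab hxy, hQ.2, hcS] at h1
      have hpos : Nat.card (Fx N ({a, b} : Set α)) ≠ 0 := Nat.card_pos.ne'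
      rw [Nat.factorization_mul (by norm_num) hpos, Finsupp.add_apply, Nat.Prime.factorization_self Nat.prime_two] at h1
      have h2 := (Nat.Prime.pow_dvd_iff_le_factorization Nat.prime_two hpos).mp h1
      omega
    have hfixcd : ∀ x : α, x ≠ a → x ≠ b → ∃ m ∈ Sw N a b, ∀ c₀ : α, (∀ g ∈ Q, g • c₀ = c₀) → m • c₀ = x := by
      intro x hxa hxb
      obtain ⟨c₀, hc₀⟩ := exists_fix hodd' hQ.pgroup
      obtain ⟨s, hs, hs3⟩ : ∃ s ∈ Q, s • a ≠ a := by
        by_contra hcon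
        push Not at hcon
        have hcon2 : ∀ g ∈ Q, g • b = b := by
          intro g hg
          rcases (hQ.1 hg).2 with h | h
          · exact h.2
          · exact absurd ((hcon g hg).symm.trans h.1) hab
        exact hab (huniq a b hcon hcon2)
      have hs4 : s • a = b ∧ s • b = a := by
        rcases (hQ.1 hs).2 with h | h
        · exact absurd h.1 hs3
        · exact h
      have hca' : c₀ ≠ a := by
        rintro rfl
        exact hs3 (hc₀ s hs)
      have hcb' : c₀ ≠ b := by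
        rintro rfl
        have := hc₀ s hs
        rw [hs4.2] at this
        exact hab this
      obtain ⟨g, hga, hgb, hgc⟩ := hmove3 a b c₀ x hca' hcb' hxa hxb hab
      have hgS : Q.map (MulAut.conj g).toMonoidHom ≤ Sw N a b := by
        rintro _ ⟨y, hy, rfl⟩
        change g * y * g⁻¹ ∈ _
        have hy' := hQ.1 hy
        refine ⟨hNn.conj_mem _ hy'.1 g, ?_⟩
        have ha' : g⁻¹ • a = a := by rw [inv_smul_eq_iff, hga]
        have hb' : g⁻¹ • b = b := by rw [inv_smul_eq_iff, hgb]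
        rcases hy'.2 with ⟨h1, h2⟩ | ⟨h1, h2⟩
        · left
          exact ⟨by rw [mul_smul, mul_smul, ha', h1, hga], by rw [mul_smul, mul_smul, hb', h2, hgb]⟩
        · right
          exact ⟨by rw [mul_smul, mul_smul, ha', h1, hgb], by rw [mul_smul, mul_smul, hb', h2, hga]⟩
      have hQ' : IsSyl 2 (Q.map (MulAut.conj g).toMonoidHom) (Sw N a b) := ⟨hgS, by rw [card_conj, hQ.2]⟩
      obtain ⟨m, hm, hmQ⟩ := sylow_conj hQ hQ'
      refine ⟨m, hm, ?_⟩
      intro c₁ hc₁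
      have h1 : c₁ = c₀ := huniq c₁ c₀ hc₁ hc₀
      rw [h1]
      have h2 : ∀ q ∈ Q, q • (m⁻¹ • x) = m⁻¹ • x := by
        intro q hq
        have h3 : m * q * m⁻¹ ∈ Q.map (MulAut.conj g).toMonoidHom := by
          rw [← hmQ]
          exact ⟨q, hq, rfl⟩
        obtain ⟨y, hy, hyq⟩ := h3
        have h4 : g * y * g⁻¹ = m * q * m⁻¹ := hyq
        have h5 : (m * q * m⁻¹) • x = x := by
          rw [← h4, mul_smul, mul_smul, ← hgc, inv_smul_smul, hc₀ y hy]
        rw [mul_smul, mul_smul] at h5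
        rw [eq_inv_smul_iff]
        exact h5
      have h3 := huniq _ _ h2 hc₀
      rw [← h3, smul_inv_smul]
    obtain ⟨c₀, hc₀⟩ := exists_fix hodd' hQ.pgroup
    obtain ⟨m₁, hm₁, h1⟩ := hfixcd c hca hcb
    obtain ⟨m₂, hm₂, h2⟩ := hfixcd d hda hdb
    refine ⟨m₂ * m₁⁻¹, mul_mem hm₂ (inv_mem hm₁), ?_⟩
    rw [mul_smul, ← h1 c₀ hc₀, inv_smul_smul, h2 c₀ hc₀]
  apply multi_of_TrOff (by omega)
  intro s hs
  by_cases hs2 : s.ncard < 2
  · exact hN2 s hs2
  have hs2' : s.ncard = 2 := by omega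
  obtain ⟨a, b, hab, rfl⟩ := Set.ncard_eq_two.mp hs2'
  intro c d hc hd
  have hca : c ≠ a := fun h => hc (Or.inl h)
  have hcb : c ≠ b := fun h => hc (Or.inr h)
  have hda : d ≠ a := fun h => hd (Or.inl h)
  have hdb : d ≠ b := fun h => hd (Or.inr h)
  obtain ⟨m, hm, hmc⟩ := hkey a b c d hab hca hcb hda hdb
  rcases hm.2 with ⟨h1, h2⟩ | ⟨h1, h2⟩
  · refine ⟨m, ⟨hm.1, ?_⟩, hmc⟩
    rintro z (rfl | rfl)
    · exact h1
    · exact h2
  · obtain ⟨t, ht, hta, htb, htc⟩ := hswap a b c hab hca hcb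
    refine ⟨m * t, ⟨mul_mem hm.1 ht, ?_⟩, by rw [mul_smul, htc, hmc]⟩
    rintro z (rfl | rfl)
    · rw [mul_smul, hta, h2]
    · rw [mul_smul, htb, h1]

end Cfsg.Agent.Lib.H3Wagner
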