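import Mathlib
import Cfsg.Agent.Lib.Basic
import Cfsg.Agent.Lib.H3Trans
import Cfsg.Agent.Lib.H3SigC
import Cfsg.Agent.Lib.H3Wagner

/-!
Jordan's theorems (helper3).
-/

set_option autoImplicit false
set_option maxHeartbeats 400000
set_option linter.unusedVariables false
set_option linter.unusedSectionVars false
set_option linter.unusedFintypeInType false

namespace Cfsg.Agent.Lib.H3Jordan

open Subgroup MulAction Equiv Cfsg.Agent.Lib.H3Trans Cfsg.Agent.Lib.H3SigC Cfsg.Agent.Lib.H3Wagner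

universe u v
variable {G : Type v} [Group G] {α : Type u} [MulAction G α]

theorem TrOff_transfer [Finite α] {k : ℕ} (hG : IsMultiplyPretransitive G α k) (hk : k ≤ Nat.card α) {t t' : Set α} (htt : t.ncard = t'.ncard) (htk : t.ncard ≤ k)
    (h : TrOff (⊤ : Subgroup G) t) : TrOff (⊤ : Subgroup G) t' := by
  classical
  obtain ⟨e⟩ : Nonempty (t ≃ t') := by
    rw [← Nat.card_coe_set_eq, ← Nat.card_coe_set_eq] at htt
    haveI : Finite t := Subtype.finite
    haveI : Finite t' := Subtype.finite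
    exact Finite.card_eq.mp htt
  obtain ⟨g, hg⟩ := exists_smul_emb hG hk (ι := t) (by rw [Nat.card_coe_set_eq]; exact htk) (Function.Embedding.subtype _) (e.toEmbedding.trans (Function.Embedding.subtype _))
  have hg1 : ∀ x : t, g • (x : α) = (e x : α) := fun x => hg x
  have hgt : ∀ x : α, x ∉ t' → g⁻¹ • x ∉ t := by
    intro x hx h'
    apply hx
    have := hg1 ⟨_, h'⟩
    simp only [smul_inv_smul] at this
    rw [this]
    exact (e _).2
  intro a b ha hb
  obtain ⟨k, hk, hkab⟩ := h (g⁻¹ • a) (g⁻¹ • b) (hgt a ha) (hgt b hb)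
  refine ⟨g * k * g⁻¹, ⟨mem_top _, fun c hc => ?_⟩, ?_⟩
  · have h1 := hg1 (e.symm ⟨c, hc⟩)
    rw [Equiv.apply_symm_apply] at h1
    change g • ((e.symm ⟨c, hc⟩ : t) : α) = c at h1
    rw [mul_smul, mul_smul, ← h1, inv_smul_smul, hk.2 _ (e.symm ⟨c, hc⟩).2]
  · rw [mul_smul, mul_smul, hkab, smul_inv_smul]

theorem s0712 [Fintype α] [DecidableEq α] (G : Subgroup (Equiv.Perm α)) (hG : MulAction.IsPreprimitive G α) (s : Set α) {m : ℕ} (hsm : s.ncard = m) (hm : m + 2 ≤ Fintype.card α) (h2 : MulAction.IsMultiplyPretransitive (fixingSubgroup G s) (SubMulAction.ofFixingSubgroup G s) 2) : MulAction.IsMultiplyPretransitive G α (m + 2) := by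
  classical
  have hm' : m + 2 ≤ Nat.card α := by rwa [Nat.card_eq_fintype_card]
  have hcompl := Set.ncard_add_ncard_compl s
  have hcs : Nat.card (SubMulAction.ofFixingSubgroup G s) = sᶜ.ncard := by
    rw [← Nat.card_coe_set_eq]
    rfl
  have hne : sᶜ.Nonempty := by
    rw [← Set.ncard_pos]
    omega
  obtain ⟨a, ha⟩ := hne
  -- transitivity off `insert a s`
  have htr1 : TrOff (⊤ : Subgroup G) (insert a s) := by
    intro b c hb hc
    have hba : b ≠ a := fun h => hb (Or.inl h)
    have hca : c ≠ a := fun h => hc (Or.inl h)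
    have hbs : b ∉ s := fun h => hb (Or.inr h)
    have hcs : c ∉ s := fun h => hc (Or.inr h)
    have h2' : ∀ a b c d : SubMulAction.ofFixingSubgroup G s, a ≠ b → c ≠ d → ∃ g : fixingSubgroup G s, g • a = c ∧ g • b = d := fun a b c d h1 h3 => is_two_pretransitive_iff.mp h2 h1 h3
    obtain ⟨g, hg1, hg2⟩ := h2' ⟨a, ha⟩ ⟨b, hbs⟩ ⟨a, ha⟩ ⟨c, hcs⟩ (fun h => hba (congrArg Subtype.val h).symm) (fun h => hca (congrArg Subtype.val h).symm)
    refine ⟨g, ⟨mem_top _, ?_⟩, congrArg Subtype.val hg2⟩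
    rintro x (rfl | hx)
    · exact congrArg Subtype.val hg1
    · exact (mem_fixingSubgroup_iff G).mp g.2 x hx
  have hmt : IsMultiplyPretransitive G α (m + 1) := by
    rcases m with _ | m
    · rw [zero_add, is_one_pretransitive_iff]
      exact hG.toIsPretransitive
    · have hprim : IsPreprimitive (fixingSubgroup G s) (SubMulAction.ofFixingSubgroup G s) := isPreprimitive_of_is_two_pretransitive h2
      have := hG.isMultiplyPreprimitive hsm (by omega) hprim
      exact this.isMultiplyPretransitive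
  rcases Nat.lt_or_ge (m + 2) (Fintype.card α) with hlt | hge
  · apply PermTwo.kTrans_of_fixing hlt
    intro t ht b c hb hc
    have h3 : TrOff (⊤ : Subgroup G) (t : Set α) := by
      apply TrOff_transfer hmt (by omega) (t := insert a s) _ _ htr1
      · rw [Set.ncard_insert_of_notMem ha (Set.toFinite _), Set.ncard_coe_finset, hsm]
        omega
      · rw [Set.ncard_insert_of_notMem ha (Set.toFinite _), hsm]
    obtain ⟨g, hg, hgbc⟩ := h3 b c (by simpa using hb) (by simpa using hc)
    exact ⟨g, fun x hx => hg.2 x (by simpa using hx), hgbc⟩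
  · have h3 : Nat.card α - 1 = m + 1 := by
      rw [Nat.card_eq_fintype_card]
      omega
    have h4 : G = ⊤ := Equiv.Perm.eq_top_of_isMultiplyPretransitive (by rw [h3]; exact hmt)
    have h5 : IsMultiplyPretransitive (Equiv.Perm α) α (m + 2) := Equiv.Perm.isMultiplyPretransitive α (m + 2)
    refine ⟨fun x y => ?_⟩
    obtain ⟨g, hg⟩ := h5.exists_smul_eq x y
    exact ⟨⟨g, h4 ▸ mem_top g⟩, hg⟩

theorem inv_mem_of_maps [Finite α] {s : Set α} {w : G} (h : ∀ x ∈ s, w • x ∈ s) : ∀ x ∈ s, w⁻¹ • x ∈ s := by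
  have h1 : (fun y => w • y) '' s ⊆ s := by
    rintro _ ⟨y, hy, rfl⟩
    exact h y hy
  have h2 := Set.eq_of_subset_of_ncard_le h1 (by rw [Set.ncard_image_of_injective s (MulAction.injective w)]) (Set.toFinite s)
  intro x hx
  rw [← h2] at hx
  obtain ⟨y, hy, rfl⟩ := hx
  simp only [inv_smul_smul]
  exact hy

theorem s0713 [Fintype α] [DecidableEq α] (G : Subgroup (Equiv.Perm α)) (hG : MulAction.IsPreprimitive G α) {p : ℕ} (hp : p.Prime) (hn : 5 ≤ Fintype.card α) (hpn : p + 3 ≤ Fintype.card α) {g : Equiv.Perm α} (hgc : g.IsCycle) (hgp : g.support.card = p) (hg : g ∈ G) : alternatingGroup α ≤ G := by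
  classical
  haveI : Fact p.Prime := ⟨hp⟩
  by_cases hp3 : p = 3
  · exact Equiv.Perm.alternatingGroup_le_of_isPreprimitive_of_isThreeCycle_mem hG (card_support_eq_three_iff.mp (hgp.trans hp3)) hg
  have hn' : Nat.card α = Fintype.card α := Nat.card_eq_fintype_card
  set s : Set α := (g.support : Set α)ᶜ with hs
  have hsc : s.ncard + p = Nat.card α := by
    rw [← hgp, ← Set.ncard_coe_finset g.support, add_comm]
    exact Set.ncard_add_ncard_compl _
  obtain ⟨m, hm⟩ : ∃ m, s.ncard = m + 1 := ⟨s.ncard - 1, by omega⟩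
  have hp2 := hp.two_le
  have htransc := Equiv.Perm.isPretransitive_of_isCycle_mem hgc hg
  have hprim : IsPreprimitive (fixingSubgroup G s) (SubMulAction.ofFixingSubgroup G s) := by
    haveI := htransc
    apply IsPreprimitive.of_prime_card
    have h1 : Nat.card (SubMulAction.ofFixingSubgroup G s) = p := by
      have h2 : Nat.card (SubMulAction.ofFixingSubgroup G s) = sᶜ.ncard := by
        rw [← Nat.card_coe_set_eq]
        rfl
      rw [h2, hs, compl_compl, Set.ncard_coe_finset, hgp]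
    rw [h1]
    exact hp
  have hmp := hG.isMultiplyPreprimitive hm (by omega) hprim
  have hmt : IsMultiplyPretransitive G α (m + 2) := hmp.isMultiplyPretransitive
  -- membership in s
  have hmem : ∀ x : α, x ∈ s ↔ g x = x := by
    intro x
    rw [hs, Set.mem_compl_iff, Finset.mem_coe, Equiv.Perm.notMem_support]
  set K : Subgroup G := Fx (⊤ : Subgroup G) s with hK
  set g' : G := ⟨g, hg⟩ with hg'
  have hgK : g' ∈ K := ⟨mem_top _, fun c hc => (hmem c).mp hc⟩
  have hgo : orderOf g' = p := by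
    rw [hg', Subgroup.orderOf_mk, hgc.orderOf, hgp]
  -- K acts on the support
  have hKcard : Nat.card K ∣ p.factorial := by
    let φ : K →* Equiv.Perm {x : α // x ∉ s} :=
      { toFun := fun k =>
          { toFun := fun x => ⟨(k : G) • (x : α), Fx_smul_notMem k.2 x.2⟩
            invFun := fun x => ⟨(k : G)⁻¹ • (x : α), Fx_smul_notMem (inv_mem k.2) x.2⟩
            left_inv := fun x => Subtype.ext (inv_smul_smul _ _)
            right_inv := fun x => Subtype.ext (smul_inv_smul _ _) }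
        map_one' := by
          ext x
          exact one_smul _ _
        map_mul' := by
          intro g h
          ext x
          exact mul_smul _ _ _ }
    have hφ : Function.Injective φ := by
      rw [injective_iff_map_eq_one]
      intro k hk
      apply Subtype.ext
      apply perm_faith
      intro a
      by_cases ha : a ∈ s
      · exact k.2.2 a ha
      · exact congrArg (fun f : Equiv.Perm {x : α // x ∉ s} => ((f ⟨a, ha⟩ : {x : α // x ∉ s}) : α)) hk
    have h1 := Subgroup.card_dvd_of_injective φ hφ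
    rw [Nat.card_perm] at h1
    have h2 : Nat.card {x : α // x ∉ s} = p := by
      have h3 : Nat.card {x : α // x ∉ s} = sᶜ.ncard := by
        rw [← Nat.card_coe_set_eq]
        rfl
      rw [h3, hs, compl_compl, Set.ncard_coe_finset, hgp]
    rwa [h2] at h1
  have hfact : (Nat.card K).factorization p = 1 := by
    have hK0 : Nat.card K ≠ 0 := Nat.card_pos.ne'
    have h1 : p ∣ Nat.card K := by
      rw [← hgo]
      exact Subgroup.orderOf_dvd_natCard K hgK
    have h2 : 1 ≤ (Nat.card K).factorization p := (hp.dvd_iff_one_le_factorization hK0).mp h1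
    have h3 : (Nat.card K).factorization p ≤ 1 := by
      by_contra hcon
      have h4 : p ^ 2 ∣ Nat.card K := (hp.pow_dvd_iff_le_factorization hK0).mpr (by omega)
      have h5 := h4.trans hKcard
      obtain ⟨q, rfl⟩ : ∃ q, p = q + 1 := ⟨p - 1, by omega⟩
      rw [Nat.factorial_succ, pow_two] at h5
      have h6 := Nat.dvd_of_mul_dvd_mul_left hp.pos h5
      rw [hp.dvd_factorial] at h6
      omega
    omega
  have hP : IsSyl p (Subgroup.zpowers g') K := ⟨by rwa [zpowers_le], by rw [Nat.card_zpowers, hgo, hfact, pow_one]⟩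
  -- lifting permutations of s
  have hlift : ∀ σ : Equiv.Perm α, (∀ x ∈ s, σ x ∈ s) → ∃ u : G, (∀ x ∈ s, (u : Equiv.Perm α) x = σ x) ∧ ∃ i : ℤ, u * g' * u⁻¹ = g' ^ i := by
    intro σ hσ
    obtain ⟨v, hv⟩ := exists_smul_emb hmt (by omega) (ι := s) (by rw [Nat.card_coe_set_eq]; omega) (Function.Embedding.subtype _) ((Function.Embedding.subtype _).trans σ.toEmbedding)
    have hv1 : ∀ x ∈ s, v • x = σ x := fun x hx => hv ⟨x, hx⟩
    have hv1' : ∀ x ∈ s, v • x ∈ s := fun x hx => by rw [hv1 x hx]; exact hσ x hx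
    have hv2 : ∀ x ∈ s, v⁻¹ • x ∈ s := inv_mem_of_maps hv1'
    have hQ : IsSyl p ((Subgroup.zpowers g').map (MulAut.conj v).toMonoidHom) K := by
      refine ⟨?_, by rw [card_conj, hP.2]⟩
      rintro _ ⟨y, hy, rfl⟩
      change v * y * v⁻¹ ∈ K
      have hyK := hP.1 hy
      refine ⟨mem_top _, fun c hc => ?_⟩
      rw [mul_smul, mul_smul, hyK.2 _ (hv2 c hc), smul_inv_smul]
    obtain ⟨c, hc, hcQ⟩ := sylow_conj hQ hP
    refine ⟨c * v, ?_, ?_⟩
    · intro x hx
      change (c * v) • x = σ x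
      rw [mul_smul, hc.2 _ (hv1' x hx), hv1 x hx]
    · have h1 : c * (v * g' * v⁻¹) * c⁻¹ ∈ Subgroup.zpowers g' := by
        rw [← hcQ]
        exact ⟨_, ⟨g', mem_zpowers _, rfl⟩, rfl⟩
      obtain ⟨i, hi⟩ := mem_zpowers_iff.mp h1
      refine ⟨i, ?_⟩
      rw [hi]
      group
  obtain ⟨x, y, z, hx, hy, hz, hxy, hxz, hyz⟩ := (Set.two_lt_ncard_iff (Set.toFinite s)).mp (by omega : 2 < s.ncard)
  have hsw : ∀ a b : α, a ∈ s → b ∈ s → ∀ w ∈ s, swap a b w ∈ s := by
    intro a b ha hb w hw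
    rcases swap_apply_eq_iff.mp (rfl : swap a b w = swap a b w) with h
    by_cases h1 : w = a
    · rw [h1, swap_apply_left]; exact hb
    by_cases h2 : w = b
    · rw [h2, swap_apply_right]; exact ha
    rw [swap_apply_of_ne_of_ne h1 h2]
    exact hw
  obtain ⟨u, hu, i, hui⟩ := hlift (swap x y) (hsw x y hx hy)
  obtain ⟨v, hv, j, hvj⟩ := hlift (swap x z) (hsw x z hx hz)
  -- the commutator centralises g
  have hzp : ∀ (w : G) (k : ℤ), w * g' ^ k * w⁻¹ = (w * g' * w⁻¹) ^ k := by
    intro w k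
    exact map_zpow (MulAut.conj w) g' k
  set c : G := u * v * u⁻¹ * v⁻¹ with hc
  have hcg : c * g' = g' * c := by
    have h1 : (u * v) * g' * (u * v)⁻¹ = g' ^ (i * j) := by
      calc (u * v) * g' * (u * v)⁻¹ = u * (v * g' * v⁻¹) * u⁻¹ := by group
        _ = u * g' ^ j * u⁻¹ := by rw [hvj]
        _ = g' ^ (i * j) := by rw [hzp, hui, ← zpow_mul]
    have h2 : (v * u) * g' * (v * u)⁻¹ = g' ^ (i * j) := by
      calc (v * u) * g' * (v * u)⁻¹ = v * (u * g' * u⁻¹) * v⁻¹ := by group
        _ = v * g' ^ i * v⁻¹ := by rw [hui]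
        _ = g' ^ (i * j) := by rw [hzp, hvj, ← zpow_mul, mul_comm]
    have h3 : (u * v) * g' * (u * v)⁻¹ = (v * u) * g' * (v * u)⁻¹ := h1.trans h2.symm
    -- c (vu) g (vu)^-1 = (uv) g (vu)^-1 ...
    have h4 : c * ((v * u) * g' * (v * u)⁻¹) * c⁻¹ = (u * v) * g' * (u * v)⁻¹ := by
      rw [hc]
      group
    rw [h1, h2] at h4
    -- c commutes with g^(ij), a generator
    have h5 : c * g' ^ (i * j) = g' ^ (i * j) * c := by
      rw [← mul_inv_eq_iff_eq_mul]
      exact h4
    have hne : g' ^ (i * j) ≠ 1 := by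
      intro h6
      rw [h6] at h1
      rw [mul_inv_eq_one, mul_eq_left] at h1
      rw [h1, orderOf_one] at hgo
      omega
    have hgen : g' ∈ Subgroup.zpowers (g' ^ (i * j)) := by
      have hcardz : Nat.card (Subgroup.zpowers g') = p := by rw [Nat.card_zpowers, hgo]
      have h7 : (⟨g' ^ (i * j), zpow_mem (mem_zpowers _) _⟩ : Subgroup.zpowers g') ≠ 1 := fun h => hne (congrArg Subtype.val h)
      have h8 := mem_zpowers_of_prime_card hcardz h7 (g' := ⟨g', mem_zpowers _⟩)
      obtain ⟨k, hk⟩ := mem_zpowers_iff.mp h8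
      exact mem_zpowers_iff.mpr ⟨k, congrArg Subtype.val hk⟩
    obtain ⟨k, hk⟩ := mem_zpowers_iff.mp hgen
    have h9 : Commute c (g' ^ (i * j)) := h5
    have h10 := h9.zpow_right k
    rw [hk] at h10
    exact h10
  -- action of c on s and on the support
  set τ : Equiv.Perm α := swap x y * swap x z with hτ
  have hτ3 : (τ * τ).IsThreeCycle := by
    have h1 : τ.IsThreeCycle := Equiv.Perm.isThreeCycle_swap_mul_swap_same hxy hxz hyz
    exact h1.isThreeCycle_sq
  have hinvs : ∀ w : G, (∀ b ∈ s, (w : Equiv.Perm α) b ∈ s) → ∀ b ∈ s, ((w⁻¹ : G) : Equiv.Perm α) b ∈ s := by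
    intro w hw
    exact inv_mem_of_maps (w := w) hw
  have hus : ∀ b ∈ s, (u : Equiv.Perm α) b ∈ s := fun b hb => by rw [hu b hb]; exact hsw x y hx hy b hb
  have hvs : ∀ b ∈ s, (v : Equiv.Perm α) b ∈ s := fun b hb => by rw [hv b hb]; exact hsw x z hx hz b hb
  have hui' : ∀ b ∈ s, ((u⁻¹ : G) : Equiv.Perm α) b = swap x y b := by
    intro b hb
    have h1 := hu _ (hinvs u hus b hb)
    have h2 : (u : Equiv.Perm α) (((u⁻¹ : G) : Equiv.Perm α) b) = b := by
      change u • u⁻¹ • b = b
      exact smul_inv_smul _ _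
    rw [h2] at h1
    have h3 := congrArg (swap x y) h1
    rw [swap_apply_self] at h3
    exact h3.symm
  have hvi' : ∀ b ∈ s, ((v⁻¹ : G) : Equiv.Perm α) b = swap x z b := by
    intro b hb
    have h1 := hv _ (hinvs v hvs b hb)
    have h2 : (v : Equiv.Perm α) (((v⁻¹ : G) : Equiv.Perm α) b) = b := by
      change v • v⁻¹ • b = b
      exact smul_inv_smul _ _
    rw [h2] at h1
    have h3 := congrArg (swap x z) h1
    rw [swap_apply_self] at h3
    exact h3.symm
  have hcs : ∀ b ∈ s, (c : Equiv.Perm α) b = (τ * τ) b := by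
    intro b hb
    have h1 : (c : Equiv.Perm α) b = (u : Equiv.Perm α) ((v : Equiv.Perm α) (((u⁻¹ : G) : Equiv.Perm α) (((v⁻¹ : G) : Equiv.Perm α) b))) := rfl
    have hb1 := hsw x z hx hz b hb
    have hb2 := hsw x y hx hy _ hb1
    have hb3 := hsw x z hx hz _ hb2
    rw [h1, hvi' b hb, hui' _ hb1, hv _ hb2, hu _ hb3]
    rfl
  have hττs : ∀ b ∈ s, (τ * τ) b ∈ s := by
    intro b hb
    exact hsw _ _ hx hy _ (hsw _ _ hx hz _ (hsw _ _ hx hy _ (hsw _ _ hx hz _ hb)))
  have hτfix : ∀ b ∉ s, (τ * τ) b = b := by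
    intro b hb
    have h1 : τ b = b := by
      have hbx : b ≠ x := fun h => hb (h ▸ hx)
      have hby : b ≠ y := fun h => hb (h ▸ hy)
      have hbz : b ≠ z := fun h => hb (h ▸ hz)
      rw [hτ, Equiv.Perm.mul_apply, swap_apply_of_ne_of_ne hbx hbz, swap_apply_of_ne_of_ne hbx hby]
    rw [Equiv.Perm.mul_apply, h1, h1]
  have hpow_s : ∀ (k : ℕ) (b : α), b ∈ s → ((c : Equiv.Perm α) ^ k) b = ((τ * τ) ^ k) b ∧ ((τ * τ) ^ k) b ∈ s := by
    intro k
    induction k with
    | zero => intro b hb; exact ⟨rfl, hb⟩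
    | succ k ih =>
      intro b hb
      rw [pow_succ', pow_succ', Equiv.Perm.mul_apply, Equiv.Perm.mul_apply]
      obtain ⟨h1, h2⟩ := ih b hb
      rw [h1]
      exact ⟨hcs _ h2, hττs _ h2⟩
  have hpow_ns : ∀ b ∉ s, ((c : Equiv.Perm α) ^ p) b = b := by
    intro b hb
    have hcomm : Commute (c : Equiv.Perm α) g := congrArg Subtype.val hcg
    have hb' : g b ≠ b := fun h => hb ((hmem b).mpr h)
    have hcb : g ((c : Equiv.Perm α) b) ≠ (c : Equiv.Perm α) b := by
      intro h
      rw [← Equiv.Perm.mul_apply, ← hcomm.eq, Equiv.Perm.mul_apply] at h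
      exact hb' ((c : Equiv.Perm α).injective h)
    obtain ⟨k, hk⟩ := hgc.exists_zpow_eq hb' hcb
    -- c acts as g^k on the support
    have hall : ∀ d : α, g d ≠ d → (c : Equiv.Perm α) d = (g ^ k) d := by
      intro d hd
      obtain ⟨l, hl⟩ := hgc.exists_zpow_eq hb' hd
      rw [← hl, ← Equiv.Perm.mul_apply, (hcomm.zpow_right l).eq, Equiv.Perm.mul_apply, ← hk, ← Equiv.Perm.mul_apply, ← Equiv.Perm.mul_apply, ← zpow_add, ← zpow_add, add_comm]
    have hpow : ∀ q : ℕ, ((c : Equiv.Perm α) ^ q) b = ((g ^ k) ^ q) b := by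
      intro q
      induction q with
      | zero => rfl
      | succ q ih =>
        rw [pow_succ', pow_succ', Equiv.Perm.mul_apply, Equiv.Perm.mul_apply, ih]
        apply hall
        intro h
        rw [← zpow_natCast, ← zpow_mul, ← Equiv.Perm.mul_apply, ← zpow_one_add, add_comm, zpow_add_one, Equiv.Perm.mul_apply] at h
        exact hb' ((g ^ _ : Equiv.Perm α).injective h)
    rw [hpow]
    have h1 : g ^ p = 1 := by
      rw [← hgp, ← hgc.orderOf]
      exact pow_orderOf_eq_one g
    rw [← zpow_natCast, ← zpow_mul, mul_comm, zpow_mul, zpow_natCast, h1, one_zpow]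
    rfl
  have hcp : ((c : Equiv.Perm α) ^ p) = (τ * τ) ^ p := by
    ext b
    by_cases hb : b ∈ s
    · exact (hpow_s p b hb).1
    · rw [hpow_ns b hb]
      have : ∀ k : ℕ, ((τ * τ) ^ k) b = b := by
        intro k
        induction k with
        | zero => rfl
        | succ k ih => rw [pow_succ', Equiv.Perm.mul_apply, ih, hτfix b hb]
      exact (this p).symm
  have h3cyc : ((τ * τ) ^ p).IsThreeCycle := by
    have h3 : (τ * τ) ^ 3 = 1 := by
      rw [← hτ3.orderOf]
      exact pow_orderOf_eq_one _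
    have hmod : (τ * τ) ^ p = (τ * τ) ^ (p % 3) := by
      conv_lhs => rw [← Nat.div_add_mod p 3, pow_add, pow_mul, h3, one_pow, one_mul]
    have hp3' : p % 3 ≠ 0 := by
      intro h
      have h4 : 3 ∣ p := Nat.dvd_of_mod_eq_zero h
      rcases (Nat.dvd_prime hp).mp h4 with h5 | h5
      · omega
      · exact hp3 h5.symm
    have hlt := Nat.mod_lt p (by norm_num : 0 < 3)
    rw [hmod]
    have h12 : p % 3 = 1 ∨ p % 3 = 2 := by omega
    rcases h12 with h | h
    · rw [h, pow_one]; exact hτ3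
    · rw [h, pow_two]; exact hτ3.isThreeCycle_sq
  apply Equiv.Perm.alternatingGroup_le_of_isPreprimitive_of_isThreeCycle_mem hG h3cyc
  rw [← hcp]
  exact pow_mem c.2 p

end Cfsg.Agent.Lib.H3Jordan
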