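import Mathlib
import Cfsg.Agent.Lib.H3LW

set_option autoImplicit false

namespace Cfsg.Agent.Lib.H3LW

open Finset Equiv Cfsg.Agent.Lib.H3Homog

variable {α : Type*} [Fintype α] [DecidableEq α]

theorem conj_fx {g i : Perm α} : fx (g * i * g⁻¹) = (fx i).map g.toEmbedding := by
  ext b
  simp only [mem_fx, Finset.mem_map, Equiv.coe_toEmbedding]
  constructor
  · intro h
    refine ⟨g⁻¹ b, ?_, ap_inv g b⟩
    rw [Perm.mul_apply, Perm.mul_apply] at h
    rw [Perm.eq_inv_iff_eq]
    exact h
  · rintro ⟨a, ha, rfl⟩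
    rw [Perm.mul_apply, Perm.mul_apply, inv_ap, ha]

theorem case2 {G : Subgroup (Perm α)} {k : ℕ} (hk : 4 ≤ k) (hkt : KT G k) (hM : ∀ g ∈ G, g ≠ 1 → (fx g).card ≤ k)
    (hex : ∃ i ∈ G, i * i = 1 ∧ (fx i).card = k) (D : Finset α) (hD : D.card = k + 1) : T2 G D := by
  classical
  obtain ⟨i0, hi0, hi02, hi0k⟩ := hex
  -- every `k`-set is the fixed point set of an involution
  have hall : ∀ Γ : Finset α, Γ.card = k → ∃ i ∈ G, i * i = 1 ∧ fx i = Γ := by
    intro Γ hΓ
    obtain ⟨g, hg, hgΓ⟩ := hkt.hom (s := fx i0) (t := Γ) hi0k.le (by rw [hi0k, hΓ])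
    refine ⟨g * i0 * g⁻¹, G.mul_mem (G.mul_mem hg hi0) (G.inv_mem hg), ?_, by rw [conj_fx, hgΓ]⟩
    calc g * i0 * g⁻¹ * (g * i0 * g⁻¹) = g * (i0 * i0) * g⁻¹ := by group
      _ = 1 := by rw [hi02]; group
  intro a ha b hb hab
  -- a third point of `D`
  obtain ⟨x, hx⟩ : ((D.erase a).erase b).Nonempty := by
    apply Finset.card_pos.1
    have h1 := Finset.card_erase_of_mem ha
    have h2 := Finset.pred_card_le_card_erase (s := D.erase a) (a := b)
    omega
  have hxb : x ≠ b := (Finset.mem_erase.1 hx).1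
  have hxa : x ≠ a := (Finset.mem_erase.1 (Finset.mem_erase.1 hx).2).1
  have hxD : x ∈ D := (Finset.mem_erase.1 (Finset.mem_erase.1 hx).2).2
  have hΓ : (D.erase x).card = k := by rw [Finset.card_erase_of_mem hxD, hD]; rfl
  obtain ⟨i, hi, hi2, hif⟩ := hall _ hΓ
  have hxi : i x ≠ x := by
    intro h
    have : x ∈ fx i := mem_fx.2 h
    rw [hif] at this
    exact (Finset.mem_erase.1 this).1 rfl
  have hyi : i (i x) ≠ i x := fun h => hxi (i.injective h)
  have hxD' : x ∉ fx i := fun h => hxi (mem_fx.1 h)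
  have hyD' : i x ∉ fx i := fun h => hyi (mem_fx.1 h)
  have haf : a ∈ fx i := by rw [hif]; exact Finset.mem_erase.2 ⟨hxa.symm, ha⟩
  have hbf : b ∈ fx i := by rw [hif]; exact Finset.mem_erase.2 ⟨hxb.symm, hb⟩
  -- the second `k`-set
  let R : Finset α := (((fx i).erase a).erase b)
  have hRc : R.card = k - 2 := by
    change (((fx i).erase a).erase b).card = k - 2
    rw [Finset.card_erase_of_mem (Finset.mem_erase.2 ⟨hab.symm, hbf⟩), Finset.card_erase_of_mem haf, hif, hΓ]; omega
  have hRf : ∀ c ∈ R, i c = c := fun c hc => mem_fx.1 (Finset.mem_erase.1 (Finset.mem_erase.1 hc).2).2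
  have hxR : x ∉ R := fun h => hxi (hRf x h)
  have hyR : i x ∉ R := fun h => hyi (hRf _ h)
  let Γ1 : Finset α := insert x (insert (i x) R)
  have hΓ1 : Γ1.card = k := by
    change (insert x (insert (i x) R)).card = k
    rw [Finset.card_insert_of_notMem, Finset.card_insert_of_notMem hyR, hRc]
    · omega
    · rw [Finset.mem_insert, not_or]; exact ⟨hxi.symm, hxR⟩
  have hiΓ1 : ∀ c ∈ Γ1, i c ∈ Γ1 := by
    intro c hc
    rcases Finset.mem_insert.1 hc with rfl | hc
    · exact Finset.mem_insert_of_mem (Finset.mem_insert_self _ _)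
    · rcases Finset.mem_insert.1 hc with rfl | hc
      · rw [mul_self_app hi2]; exact Finset.mem_insert_self _ _
      · rw [hRf c hc]; exact Finset.mem_insert_of_mem (Finset.mem_insert_of_mem hc)
  have hii : i⁻¹ = i := inv_of_mul_self hi2
  have hne : ∀ j : Perm α, fx j = Γ1 → j ≠ 1 := by
    rintro j hj rfl
    have : a ∈ fx (1 : Perm α) := mem_fx.2 rfl
    rw [hj] at this
    rcases Finset.mem_insert.1 this with rfl | this
    · exact hxa rfl
    · rcases Finset.mem_insert.1 this with h | h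
      · exact hyD' (h ▸ haf)
      · exact (Finset.mem_erase.1 (Finset.mem_erase.1 h).2).1 rfl
  have hev : Even (Nat.card (FxS G Γ1)) := by
    obtain ⟨j, hj, hj2, hjf⟩ := hall _ hΓ1
    have h1 : orderOf j = 2 := orderOf_eq_prime (by rw [sq]; exact hj2) (hne j hjf)
    have h2 := Subgroup.orderOf_dvd_natCard (FxS G Γ1) (x := j) (mem_FxS.2 ⟨hj, fun c hc => mem_fx.1 (hjf ▸ hc)⟩)
    rw [h1] at h2
    exact even_iff_two_dvd.2 h2
  obtain ⟨j, hj, hj1, hj2, hij⟩ := inv_comm (FxS G Γ1) hev i hi2 (fun h hh => by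
    refine mem_FxS.2 ⟨G.mul_mem (G.mul_mem hi hh.1) (G.inv_mem hi), fun c hc => ?_⟩
    rw [hii, Perm.mul_apply, Perm.mul_apply, hh.2 _ (hiΓ1 c hc), mul_self_app hi2])
  -- `j` preserves the fixed points of `i`
  have hjf : ∀ c, i c = c → i (j c) = j c := by
    intro c hc
    rw [← Perm.mul_apply, hij, Perm.mul_apply, hc]
  have hjx : j x = x := hj.2 x (Finset.mem_insert_self _ _)
  have hjR : ∀ c ∈ R, j c = c := fun c hc => hj.2 c (Finset.mem_insert_of_mem (Finset.mem_insert_of_mem hc))
  have hR' : ∀ c, i c = c → c = a ∨ c = b ∨ c ∈ R := by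
    intro c hc
    by_cases h1 : c = a
    · exact Or.inl h1
    by_cases h2 : c = b
    · exact Or.inr (Or.inl h2)
    · exact Or.inr (Or.inr (Finset.mem_erase.2 ⟨h2, Finset.mem_erase.2 ⟨h1, mem_fx.2 hc⟩⟩))
  have haR : a ∉ R := fun h => (Finset.mem_erase.1 (Finset.mem_erase.1 h).2).1 rfl
  have hbR : b ∉ R := fun h => (Finset.mem_erase.1 h).1 rfl
  have hja : j a = a ∨ j a = b := by
    rcases hR' _ (hjf a (mem_fx.1 haf)) with h | h | h
    · exact Or.inl h
    · exact Or.inr h
    · exfalso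
      have := hjR _ h
      rw [mul_self_app hj2] at this
      exact haR (this ▸ h)
  have hjb : j b = a ∨ j b = b := by
    rcases hR' _ (hjf b (mem_fx.1 hbf)) with h | h | h
    · exact Or.inl h
    · exact Or.inr h
    · exfalso
      have := hjR _ h
      rw [mul_self_app hj2] at this
      exact hbR (this ▸ h)
  have hja' : j a = b := by
    rcases hja with h | h
    · exfalso
      have hjb' : j b = b := by
        rcases hjb with h' | h'
        · exact absurd (j.injective (h.trans h'.symm)) hab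
        · exact h'
      have h3 := hM j hj.1 hj1
      have h4 : insert a (insert b Γ1) ⊆ fx j := by
        intro c hc
        rcases Finset.mem_insert.1 hc with rfl | hc
        · exact mem_fx.2 h
        · rcases Finset.mem_insert.1 hc with rfl | hc
          · exact mem_fx.2 hjb'
          · exact mem_fx.2 (hj.2 c hc)
      have h5 : (insert b Γ1).card = k + 1 := by
        rw [Finset.card_insert_of_notMem, hΓ1]
        intro h
        rcases Finset.mem_insert.1 h with rfl | h
        · exact hxb rfl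
        · rcases Finset.mem_insert.1 h with h | h
          · exact hyD' (h ▸ hbf)
          · exact hbR h
      have h6 := Finset.card_le_card h4
      have h7 := Finset.card_le_card (Finset.subset_insert a (insert b Γ1))
      omega
    · exact h
  have hjb' : j b = a := by rw [← hja', mul_self_app hj2]
  refine ⟨j, hj.1, fun c hc => ?_⟩
  by_cases hca : c = a
  · rw [hca, swap_apply_left, hja']
  by_cases hcb : c = b
  · rw [hcb, swap_apply_right, hjb']
  rw [swap_apply_of_ne_of_ne hca hcb]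
  by_cases hcx : c = x
  · rw [hcx, hjx]
  · apply hjR
    refine Finset.mem_erase.2 ⟨hcb, Finset.mem_erase.2 ⟨hca, ?_⟩⟩
    rw [hif]
    exact Finset.mem_erase.2 ⟨hcx, hc⟩

end Cfsg.Agent.Lib.H3LW
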