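import Mathlib
import Cfsg.Agent.Lib.H3LWB

set_option autoImplicit false

namespace Cfsg.Agent.Lib.H3LW

open Finset Equiv Cfsg.Agent.Lib.H3Homog

variable {α : Type*} [Fintype α] [DecidableEq α]

theorem oddO {G : Subgroup (Perm α)} {k : ℕ} (hinv : ∀ i ∈ G, i * i = 1 → i ≠ 1 → (fx i).card < k) {s : Finset α}
    (hs : k ≤ s.card) : Odd (Nat.card (FxS G s)) := by
  rw [← Nat.not_even_iff_odd]
  intro hev
  haveI : Fact (Nat.Prime 2) := ⟨Nat.prime_two⟩
  obtain ⟨g, hg⟩ := exists_prime_orderOf_dvd_card' (G := FxS G s) 2 (even_iff_two_dvd.1 hev)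
  have h1 : (g : Perm α) * (g : Perm α) = 1 := by
    have h2 : g ^ 2 = 1 := by rw [← hg]; exact pow_orderOf_eq_one g
    rw [sq] at h2
    have := congrArg Subtype.val h2
    simpa using this
  have h2 : (g : Perm α) ≠ 1 := by
    intro h
    have : g = 1 := Subtype.ext h
    rw [this, orderOf_one] at hg
    exact absurd hg (by decide)
  have h3 := hinv _ g.2.1 h1 h2
  have h4 : s ⊆ fx (g : Perm α) := fun a ha => mem_fx.2 (g.2.2 a ha)
  have h5 := Finset.card_le_card h4
  omega

/-- existence of an involution lifting a transposition -/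
theorem lift_swap {G : Subgroup (Perm α)} {k : ℕ} (hkt : KT G k) {s : Finset α} (hs : s.card ≤ k)
    (hO : Odd (Nat.card (FxS G s))) {a b : α} (ha : a ∈ s) (hb : b ∈ s)
    {t : Perm α} (ht : t ∈ G) (ht2 : t * t = 1) (hts : ∀ x ∈ s, t x ∈ s)
    (hc : ∀ x ∈ s, t (swap a b x) = swap a b (t x)) :
    ∃ y ∈ G, y * y = 1 ∧ t * y = y * t ∧ ∀ x ∈ s, y x = swap a b x := by
  apply L1 hO (hkt s hs (swap a b)) (fun x _ => swap_swap_app a b x) _ ht ht2 hts hc
  intro x hx
  rw [swap_apply_def]
  split_ifs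
  · exact hb
  · exact ha
  · exact hx
where
  swap_swap_app (a b x : α) : swap a b (swap a b x) = x := by
    rw [← Perm.mul_apply, swap_mul_self]; rfl

theorem case1_step {G : Subgroup (Perm α)} {k : ℕ} (hk : 4 ≤ k) (hkt : KT G k)
    (hinv : ∀ i ∈ G, i * i = 1 → i ≠ 1 → (fx i).card < k) {D : Finset α} (hD : D.card = k + 1)
    {a b c d : α} (ha : a ∈ D) (hb : b ∈ D) (hc : c ∈ D) (hd : d ∈ D) (hab : a ≠ b) (hac : a ≠ c) (had : a ≠ d)
    (hbc : b ≠ c) (hbd : b ≠ d) (hcd : c ≠ d) {t : Perm α} (ht : t ∈ G) (ht2 : t * t = 1)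
    (htD : ∀ x ∈ D, t x = swap a b x) : ∃ y ∈ G, y * y = 1 ∧ ∀ x ∈ D, y x = swap c d x := by
  classical
  obtain ⟨e, he⟩ : (D \ {a, b, c, d}).Nonempty := by
    apply Finset.card_pos.1
    have h1 := Finset.le_card_sdiff ({a, b, c, d} : Finset α) D
    have h2 : ({a, b, c, d} : Finset α).card ≤ 4 := Finset.card_le_four
    omega
  rw [Finset.mem_sdiff] at he
  simp only [Finset.mem_insert, Finset.mem_singleton, not_or] at he
  obtain ⟨heD, hea, heb, hec, hed⟩ := he
  have hΓ : (D.erase e).card = k := by rw [Finset.card_erase_of_mem heD, hD]; rfl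
  have hO := oddO hinv (s := D.erase e) hΓ.ge
  have hmem : ∀ x, x ∈ D.erase e ↔ x ≠ e ∧ x ∈ D := fun x => Finset.mem_erase
  have htx : ∀ x ∈ D, t x ∈ D := by
    intro x hx
    rw [htD x hx, swap_apply_def]
    split_ifs
    · exact hb
    · exact ha
    · exact hx
  have hte : t e = e := by rw [htD e heD, swap_apply_of_ne_of_ne hea heb]
  have hta : t a = b := by rw [htD a ha, swap_apply_left]
  have htb : t b = a := by rw [htD b hb, swap_apply_right]
  have htc : t c = c := by rw [htD c hc, swap_apply_of_ne_of_ne hac.symm hbc.symm]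
  have htd : t d = d := by rw [htD d hd, swap_apply_of_ne_of_ne had.symm hbd.symm]
  obtain ⟨y, hy, hy2, hty, hyΓ⟩ := lift_swap hkt hΓ.le hO (a := c) (b := d)
    ((hmem c).2 ⟨Ne.symm hec, hc⟩) ((hmem d).2 ⟨Ne.symm hed, hd⟩) ht ht2 (fun x hx => by
      rw [hmem] at hx ⊢
      refine ⟨fun h => hx.1 ?_, htx x hx.2⟩
      rw [← hte] at h
      exact t.injective h) (fun x hx => by
      by_cases h1 : x = c
      · rw [h1, swap_apply_left, htc, swap_apply_left, htd]
      by_cases h2 : x = d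
      · rw [h2, swap_apply_right, htd, swap_apply_right, htc]
      rw [swap_apply_of_ne_of_ne h1 h2, swap_apply_of_ne_of_ne]
      · intro h; rw [← htc] at h; exact h1 (t.injective h)
      · intro h; rw [← htd] at h; exact h2 (t.injective h))
  refine ⟨y, hy, hy2, fun x hx => ?_⟩
  by_cases hxe : x = e
  swap
  · exact hyΓ x ((hmem x).2 ⟨hxe, hx⟩)
  rw [hxe, swap_apply_of_ne_of_ne hec hed]
  -- `y e` is a fixed point of `t`
  have h1 : t (y e) = y e := by rw [← Perm.mul_apply, hty, Perm.mul_apply, hte]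
  have h2 : (D.erase a).erase b ⊆ fx t := by
    intro x hx
    have hx1 := Finset.mem_erase.1 hx
    have hx2 := Finset.mem_erase.1 hx1.2
    rw [mem_fx, htD x hx2.2, swap_apply_of_ne_of_ne hx2.1 hx1.1]
  have h3 : t ≠ 1 := by
    rintro rfl
    exact hab hta
  have h4 := hinv t ht ht2 h3
  have h5 : ((D.erase a).erase b).card = k - 1 := by
    rw [Finset.card_erase_of_mem (Finset.mem_erase.2 ⟨hab.symm, hb⟩), Finset.card_erase_of_mem ha, hD]; rfl
  have h6 : (D.erase a).erase b = fx t := Finset.eq_of_subset_of_card_le h2 (by omega)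
  have h7 : y e ∈ D := by
    have : y e ∈ fx t := mem_fx.2 h1
    rw [← h6] at this
    exact (Finset.mem_erase.1 (Finset.mem_erase.1 this).2).2
  by_contra h8
  have h9 := hyΓ (y e) ((hmem _).2 ⟨h8, h7⟩)
  rw [mul_self_app hy2] at h9
  have h10 : y e = e := by
    have h11 : swap c d e = swap c d (swap c d (y e)) := congrArg _ h9
    rw [lift_swap.swap_swap_app, swap_apply_of_ne_of_ne hec hed] at h11
    exact h11.symm
  exact h8 h10

theorem case1 {G : Subgroup (Perm α)} {k : ℕ} (hk : 4 ≤ k) (hkt : KT G k) (hkn : k < Fintype.card α)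
    (hpar : Fintype.card α % 2 = (k + 1) % 2)
    (hinv : ∀ i ∈ G, i * i = 1 → i ≠ 1 → (fx i).card < k) : ∃ D : Finset α, D.card = k + 1 ∧ T2 G D := by
  classical
  obtain ⟨Γ, -, hΓ⟩ := Finset.exists_subset_card_eq (s := (Finset.univ : Finset α)) (n := k)
    (by rw [Finset.card_univ]; exact hkn.le)
  obtain ⟨a, ha, b, hb, hab⟩ := Finset.one_lt_card.1 (show 1 < Γ.card by omega)
  obtain ⟨t, ht, ht2, -, htΓ⟩ := lift_swap hkt hΓ.le (oddO hinv hΓ.ge) ha hb G.one_mem (one_mul 1)
    (fun x hx => hx) (fun x _ => rfl)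
  have ht1 : t ≠ 1 := by
    rintro rfl
    have := htΓ a ha
    rw [swap_apply_left] at this
    exact hab this
  have hta : t a = b := by rw [htΓ a ha, swap_apply_left]
  have htb : t b = a := by rw [htΓ b hb, swap_apply_right]
  have h2 : (Γ.erase a).erase b ⊆ fx t := by
    intro x hx
    have hx1 := Finset.mem_erase.1 hx
    have hx2 := Finset.mem_erase.1 hx1.2
    rw [mem_fx, htΓ x hx2.2, swap_apply_of_ne_of_ne hx2.1 hx1.1]
  have h5 : ((Γ.erase a).erase b).card = k - 2 := by
    rw [Finset.card_erase_of_mem (Finset.mem_erase.2 ⟨hab.symm, hb⟩), Finset.card_erase_of_mem ha, hΓ]; rfl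
  have h6 := Finset.card_le_card h2
  have h7 := hinv t ht ht2 ht1
  have h8 := fx_par ht2
  have h9 : (fx t).card = k - 1 := by omega
  have ha' : a ∉ fx t := fun h => hab ((mem_fx.1 h).symm.trans hta)
  have hb' : b ∉ fx t := fun h => hab (htb.symm.trans (mem_fx.1 h))
  let D : Finset α := insert a (insert b (fx t))
  have hD : D.card = k + 1 := by
    change (insert a (insert b (fx t))).card = k + 1
    rw [Finset.card_insert_of_notMem, Finset.card_insert_of_notMem hb', h9]
    · omega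
    · rw [Finset.mem_insert, not_or]; exact ⟨hab, ha'⟩
  have haD : a ∈ D := Finset.mem_insert_self _ _
  have hbD : b ∈ D := Finset.mem_insert_of_mem (Finset.mem_insert_self _ _)
  have htD : ∀ x ∈ D, t x = swap a b x := by
    intro x hx
    rcases Finset.mem_insert.1 hx with h1 | h1
    · rw [h1, hta, swap_apply_left]
    · rcases Finset.mem_insert.1 h1 with h2 | h2
      · rw [h2, htb, swap_apply_right]
      · rw [mem_fx.1 h2, swap_apply_of_ne_of_ne]
        · intro h3; exact ha' (h3 ▸ h2)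
        · intro h3; exact hb' (h3 ▸ h2)
  refine ⟨D, hD, fun p hp q hq hpq => ?_⟩
  by_cases hdis : a ≠ p ∧ a ≠ q ∧ b ≠ p ∧ b ≠ q
  · obtain ⟨y, hy, -, hyD⟩ := case1_step hk hkt hinv hD haD hbD hp hq hab hdis.1 hdis.2.1 hdis.2.2.1 hdis.2.2.2 hpq ht ht2 htD
    exact ⟨y, hy, hyD⟩
  · have hc3 : ({a, b, p, q} : Finset α).card ≤ 3 := by
      by_cases h1 : a = p
      · have : ({a, b, p, q} : Finset α) = {a, b, q} := by ext x; simp only [Finset.mem_insert, Finset.mem_singleton]; grind
        rw [this]; exact Finset.card_le_three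
      by_cases h2 : a = q
      · have : ({a, b, p, q} : Finset α) = {a, b, p} := by ext x; simp only [Finset.mem_insert, Finset.mem_singleton]; grind
        rw [this]; exact Finset.card_le_three
      by_cases h3 : b = p
      · have : ({a, b, p, q} : Finset α) = {a, b, q} := by ext x; simp only [Finset.mem_insert, Finset.mem_singleton]; grind
        rw [this]; exact Finset.card_le_three
      by_cases h4 : b = q
      · have : ({a, b, p, q} : Finset α) = {a, b, p} := by ext x; simp only [Finset.mem_insert, Finset.mem_singleton]; grind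
        rw [this]; exact Finset.card_le_three
      exact absurd ⟨h1, h2, h3, h4⟩ hdis
    have h1 := Finset.le_card_sdiff ({a, b, p, q} : Finset α) D
    obtain ⟨c, hc, d, hd, hcd⟩ := Finset.one_lt_card.1 (show 1 < (D \ {a, b, p, q}).card by omega)
    rw [Finset.mem_sdiff] at hc hd
    simp only [Finset.mem_insert, Finset.mem_singleton, not_or] at hc hd
    obtain ⟨y, hy, hy2, hyD⟩ := case1_step hk hkt hinv hD haD hbD hc.1 hd.1 hab (Ne.symm hc.2.1) (Ne.symm hd.2.1)
      (Ne.symm hc.2.2.1) (Ne.symm hd.2.2.1) hcd ht ht2 htD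
    obtain ⟨z, hz, hz2, hzD⟩ := case1_step hk hkt hinv hD hc.1 hd.1 hp hq hcd hc.2.2.2.1 hc.2.2.2.2
      hd.2.2.2.1 hd.2.2.2.2 hpq hy hy2 hyD
    exact ⟨z, hz, hzD⟩

end Cfsg.Agent.Lib.H3LW
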