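import Mathlib
import Cfsg.Agent.Lib.H3LWC

set_option autoImplicit false

namespace Cfsg.Agent.Lib.H3LW

open Finset Equiv Cfsg.Agent.Lib.H3Homog

variable {α : Type*} [Fintype α] [DecidableEq α]

structure Cfg (B : Finset α) (a b c d : α) : Prop where
  ab : a ≠ b
  ac : a ≠ c
  ad : a ≠ d
  bc : b ≠ c
  bd : b ≠ d
  cd : c ≠ d
  aB : a ∉ B
  bB : b ∉ B
  cB : c ∉ B
  dB : d ∉ B

/-- the underlying set -/
def St (B : Finset α) (a b c d : α) : Finset α := insert a (insert b (insert c (insert d B)))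

theorem mem_St {B : Finset α} {a b c d x : α} : x ∈ St B a b c d ↔ x = a ∨ x = b ∨ x = c ∨ x = d ∨ x ∈ B := by
  simp [St]

theorem Cfg.card {B : Finset α} {a b c d : α} (h : Cfg B a b c d) : (St B a b c d).card = B.card + 4 := by
  unfold St
  rw [Finset.card_insert_of_notMem, Finset.card_insert_of_notMem, Finset.card_insert_of_notMem,
    Finset.card_insert_of_notMem h.dB]
  · rw [Finset.mem_insert, not_or]; exact ⟨h.cd, h.cB⟩
  · rw [Finset.mem_insert, Finset.mem_insert, not_or, not_or]; exact ⟨h.bc, h.bd, h.bB⟩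
  · rw [Finset.mem_insert, Finset.mem_insert, Finset.mem_insert, not_or, not_or, not_or]; exact ⟨h.ab, h.ac, h.ad, h.aB⟩

theorem exists_cfg (s : Finset α) (hs : 4 ≤ s.card) : ∃ (B : Finset α) (a b c d : α), Cfg B a b c d ∧ s = St B a b c d ∧
    B.card + 4 = s.card := by
  obtain ⟨a, ha⟩ := Finset.card_pos.1 (show 0 < s.card by omega)
  have h1 := Finset.card_erase_of_mem ha
  obtain ⟨b, hb⟩ := Finset.card_pos.1 (show 0 < (s.erase a).card by omega)
  have h2 := Finset.card_erase_of_mem hb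
  obtain ⟨c, hc⟩ := Finset.card_pos.1 (show 0 < ((s.erase a).erase b).card by omega)
  have h3 := Finset.card_erase_of_mem hc
  obtain ⟨d, hd⟩ := Finset.card_pos.1 (show 0 < (((s.erase a).erase b).erase c).card by omega)
  have h4 := Finset.card_erase_of_mem hd
  refine ⟨(((s.erase a).erase b).erase c).erase d, a, b, c, d, ?_, ?_, by omega⟩
  · simp only [Finset.mem_erase, not_and, ne_eq] at *
    constructor <;> grind
  · unfold St
    rw [Finset.insert_erase hd, Finset.insert_erase hc, Finset.insert_erase hb, Finset.insert_erase ha]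

theorem dt_app {a b c d x : α} (hac : a ≠ c) (had : a ≠ d) (hbc : b ≠ c) (hbd : b ≠ d) :
    (swap a b * swap c d) x = if x = a then b else if x = b then a else if x = c then d else if x = d then c else x := by
  rw [Perm.mul_apply]
  split_ifs with h1 h2 h3 h4
  · rw [h1, swap_apply_of_ne_of_ne hac had, swap_apply_left]
  · rw [h2, swap_apply_of_ne_of_ne hbc hbd, swap_apply_right]
  · rw [h3, swap_apply_left, swap_apply_of_ne_of_ne had.symm hbd.symm]
  · rw [h4, swap_apply_right, swap_apply_of_ne_of_ne hac.symm hbc.symm]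
  · rw [swap_apply_of_ne_of_ne h3 h4, swap_apply_of_ne_of_ne h1 h2]

/-- the pattern `(a b)(c d)` fixing `B`. -/
structure DT (y : Perm α) (B : Finset α) (a b c d : α) : Prop where
  pa : y a = b
  pb : y b = a
  pc : y c = d
  pd : y d = c
  pB : ∀ x ∈ B, y x = x

theorem DT.of_agree {y : Perm α} {B : Finset α} {a b c d : α} (h : Cfg B a b c d)
    (hy : ∀ x ∈ St B a b c d, y x = (swap a b * swap c d) x) : DT y B a b c d := by
  constructor
  · rw [hy a (mem_St.2 (Or.inl rfl)), dt_app h.ac h.ad h.bc h.bd, if_pos rfl]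
  · rw [hy b (mem_St.2 (Or.inr (Or.inl rfl))), dt_app h.ac h.ad h.bc h.bd, if_neg h.ab.symm, if_pos rfl]
  · rw [hy c (mem_St.2 (by tauto)), dt_app h.ac h.ad h.bc h.bd, if_neg h.ac.symm, if_neg h.bc.symm, if_pos rfl]
  · rw [hy d (mem_St.2 (by tauto)), dt_app h.ac h.ad h.bc h.bd, if_neg h.ad.symm, if_neg h.bd.symm, if_neg h.cd.symm, if_pos rfl]
  · intro x hx
    rw [hy x (mem_St.2 (by tauto)), dt_app h.ac h.ad h.bc h.bd, if_neg, if_neg, if_neg, if_neg]
    · rintro rfl; exact h.dB hx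
    · rintro rfl; exact h.cB hx
    · rintro rfl; exact h.bB hx
    · rintro rfl; exact h.aB hx

theorem lift_dt {G : Subgroup (Perm α)} {k : ℕ} (hkt : KT G k) {B : Finset α} {a b c d : α} (h : Cfg B a b c d)
    (hs : B.card + 4 ≤ k) (hO : Odd (Nat.card (FxS G (St B a b c d))))
    {t : Perm α} (ht : t ∈ G) (ht2 : t * t = 1) (hts : ∀ x ∈ St B a b c d, t x ∈ St B a b c d)
    (hc : ∀ x ∈ St B a b c d, t ((swap a b * swap c d) x) = (swap a b * swap c d) (t x)) :
    ∃ y ∈ G, y * y = 1 ∧ t * y = y * t ∧ DT y B a b c d := by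
  obtain ⟨y, hy, hy2, hty, hyy⟩ := L1 hO (hkt (St B a b c d) (by rw [h.card]; exact hs) (swap a b * swap c d))
    (fun x hx => by
      rw [dt_app h.ac h.ad h.bc h.bd (x := x), dt_app h.ac h.ad h.bc h.bd]
      have := h.ab; have := h.ac; have := h.ad; have := h.bc; have := h.bd; have := h.cd
      grind)
    (fun x hx => by
      rw [dt_app h.ac h.ad h.bc h.bd (x := x)]
      rw [mem_St] at hx ⊢
      split_ifs <;> tauto) ht ht2 hts hc
  exact ⟨y, hy, hy2, hty, DT.of_agree h hyy⟩

theorem lift_dt0 {G : Subgroup (Perm α)} {k : ℕ} (hkt : KT G k) {B : Finset α} {a b c d : α} (h : Cfg B a b c d)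
    (hs : B.card + 4 ≤ k) (hO : Odd (Nat.card (FxS G (St B a b c d)))) :
    ∃ y ∈ G, y * y = 1 ∧ DT y B a b c d := by
  obtain ⟨y, hy, hy2, -, hyy⟩ := lift_dt hkt h hs hO G.one_mem (one_mul 1) (fun x hx => hx) (fun x _ => rfl)
  exact ⟨y, hy, hy2, hyy⟩

theorem Cfg.perm {B : Finset α} {a b c d : α} (h : Cfg B a b c d) : Cfg B a c b d :=
  ⟨h.ac, h.ab, h.ad, h.bc.symm, h.cd, h.bd, h.aB, h.cB, h.bB, h.dB⟩

theorem St_perm {B : Finset α} {a b c d : α} : St B a c b d = St B a b c d := by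
  ext x; rw [mem_St, mem_St]; tauto

theorem lift_dt1 {G : Subgroup (Perm α)} {k : ℕ} (hkt : KT G k) {B : Finset α} {a b c d : α} (h : Cfg B a b c d)
    (hs : B.card + 4 ≤ k) (hO : Odd (Nat.card (FxS G (St B a b c d))))
    {t : Perm α} (ht : t ∈ G) (ht2 : t * t = 1) (htd : DT t B a b c d) :
    ∃ y ∈ G, y * y = 1 ∧ t * y = y * t ∧ DT y B a c b d := by
  rw [← St_perm] at hO
  apply lift_dt hkt h.perm hs hO ht ht2
  · intro x hx
    rw [mem_St] at hx ⊢
    rcases hx with rfl | rfl | rfl | rfl | hx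
    · rw [htd.pa]; tauto
    · rw [htd.pc]; tauto
    · rw [htd.pb]; tauto
    · rw [htd.pd]; tauto
    · rw [htd.pB x hx]; tauto
  · intro x hx
    rw [mem_St] at hx
    have hp := h.perm
    rw [dt_app hp.ac hp.ad hp.bc hp.bd (x := x), dt_app hp.ac hp.ad hp.bc hp.bd]
    have := h.ab; have := h.ac; have := h.ad; have := h.bc; have := h.bd; have := h.cd
    have := h.aB; have := h.bB; have := h.cB; have := h.dB
    have := htd.pa; have := htd.pb; have := htd.pc; have := htd.pd
    rcases hx with rfl | rfl | rfl | rfl | hx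
    · grind
    · grind
    · grind
    · grind
    · have := htd.pB x hx
      grind

/-- involutions agreeing on `s` are conjugate under the pointwise stabilizer if that has odd order -/
theorem conj_of_agree {K : Subgroup (Perm α)} (hO : Odd (Nat.card K)) {y y' : Perm α} (hy : y * y = 1) (hy' : y' * y' = 1)
    (hK : y * y' ∈ K) : ∃ z ∈ K, z * y' * z⁻¹ = y := by
  classical
  set m := y * y' with hm
  have h1 : Odd (orderOf m) := by
    have := Subgroup.orderOf_dvd_natCard K hK
    exact Odd.of_dvd_nat hO this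
  obtain ⟨r, hr⟩ := h1
  have h2 : m ^ (r + 1) * m ^ (r + 1) = m := by
    rw [← pow_add, show r + 1 + (r + 1) = orderOf m + 1 by omega, pow_succ, pow_orderOf_eq_one, one_mul]
  refine ⟨m ^ (r + 1), K.pow_mem hK _, ?_⟩
  have hyi := inv_of_mul_self hy
  have hyi' := inv_of_mul_self hy'
  have hminv : m⁻¹ = y' * y := by rw [hm, mul_inv_rev, hyi, hyi']
  have h3 : y' * m * y'⁻¹ = m⁻¹ := by
    rw [hminv, hm, hyi']
    calc y' * (y * y') * y' = y' * y * (y' * y') := by group
      _ = y' * y := by rw [hy', mul_one]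
  have h4 : y' * m ^ (r + 1) * y'⁻¹ = (m ^ (r + 1))⁻¹ := by
    rw [← conj_pow, h3, inv_pow]
  set z := m ^ (r + 1) with hz
  have h5 : y' * z = z⁻¹ * y' := by
    rw [← h4]; group
  have h6 : z * y' * z = y' := by
    calc z * y' * z = z * (y' * z) := by group
      _ = z * (z⁻¹ * y') := by rw [h5]
      _ = y' := by group
  calc z * y' * z⁻¹ = (z * y' * z) * (z * z)⁻¹ := by group
    _ = y' * m⁻¹ := by rw [h6, h2]
    _ = y' * (y' * y) := by rw [hminv]
    _ = y := by rw [← mul_assoc, hy', one_mul]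

end Cfsg.Agent.Lib.H3LW
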