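import Mathlib
import Cfsg.Agent.Lib.H3LWD

set_option autoImplicit false

namespace Cfsg.Agent.Lib.H3LW

open Finset Equiv Cfsg.Agent.Lib.H3Homog

variable {α : Type*} [Fintype α] [DecidableEq α]

def A3 (G : Subgroup (Perm α)) (D : Finset α) : Prop :=
  ∀ p ∈ D, ∀ q ∈ D, ∀ r ∈ D, p ≠ q → p ≠ r → q ≠ r → ∃ g ∈ G, ∀ x ∈ D, g x = (swap p q * swap q r) x

/-- hypotheses in case 3 -/
structure C3 (G : Subgroup (Perm α)) (k : ℕ) : Prop where
  hk : 4 ≤ k
  kt : KT G k
  kn : k < Fintype.card α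
  par : Fintype.card α % 2 = k % 2
  inv : ∀ i ∈ G, i * i = 1 → i ≠ 1 → (fx i).card < k

theorem C3.le {G : Subgroup (Perm α)} {k : ℕ} (H : C3 G k) {i : Perm α} (hi : i ∈ G) (hi2 : i * i = 1) (hi1 : i ≠ 1) :
    (fx i).card + 2 ≤ k := by
  have h1 := H.inv i hi hi2 hi1
  have h2 := fx_par hi2
  have h3 := H.par
  omega

theorem C3.odd {G : Subgroup (Perm α)} {k : ℕ} (H : C3 G k) {s : Finset α} (hs : k ≤ s.card) : Odd (Nat.card (FxS G s)) :=
  oddO H.inv hs

/-- an involution inducing a transposition -/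
theorem C3.tr {G : Subgroup (Perm α)} {k : ℕ} (H : C3 G k) {B : Finset α} {a b c d : α} (h : Cfg B a b c d)
    (hB : B.card + 4 = k) : ∃ t ∈ G, t * t = 1 ∧ t a = b ∧ t b = a ∧ fx t = insert c (insert d B) := by
  have hSt : (St B a b c d).card = k := by rw [h.card, hB]
  obtain ⟨t, ht, ht2, -, hts⟩ := lift_swap H.kt hSt.le (H.odd hSt.ge) (a := a) (b := b)
    (mem_St.2 (Or.inl rfl)) (mem_St.2 (Or.inr (Or.inl rfl))) G.one_mem (one_mul 1) (fun x hx => hx) (fun x _ => rfl)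
  have hta : t a = b := by rw [hts a (mem_St.2 (Or.inl rfl)), swap_apply_left]
  have htb : t b = a := by rw [hts b (mem_St.2 (by tauto)), swap_apply_right]
  refine ⟨t, ht, ht2, hta, htb, ?_⟩
  have ht1 : t ≠ 1 := by rintro rfl; exact h.ab hta
  symm
  apply Finset.eq_of_subset_of_card_le
  · intro x hx
    have hxS : x ∈ St B a b c d := by
      rw [mem_St]; simp only [Finset.mem_insert] at hx; tauto
    rw [mem_fx, hts x hxS, swap_apply_of_ne_of_ne]
    · rintro rfl
      simp only [Finset.mem_insert] at hx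
      rcases hx with h1 | h1 | h1
      · exact h.ac h1
      · exact h.ad h1
      · exact h.aB h1
    · rintro rfl
      simp only [Finset.mem_insert] at hx
      rcases hx with h1 | h1 | h1
      · exact h.bc h1
      · exact h.bd h1
      · exact h.bB h1
  · have h1 := H.le ht ht2 ht1
    rw [Finset.card_insert_of_notMem, Finset.card_insert_of_notMem h.dB]
    · omega
    · rw [Finset.mem_insert, not_or]; exact ⟨h.cd, h.cB⟩

theorem C3.dt_fix {G : Subgroup (Perm α)} {k : ℕ} (H : C3 G k) {B : Finset α} {a b c d : α} (h : Cfg B a b c d)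
    (hB : B.card + 4 = k) {y : Perm α} (hy : y ∈ G) (hy2 : y * y = 1) (hyd : DT y B a b c d) :
    ∃ x, y x = x ∧ x ∉ B := by
  classical
  obtain ⟨t, ht, ht2, hta, htb, htf⟩ := H.tr h hB
  have hSt : (St B a b c d).card = k := by rw [h.card, hB]
  have hfc : (insert c (insert d B)).card = k - 2 := by
    rw [Finset.card_insert_of_notMem, Finset.card_insert_of_notMem h.dB]
    · omega
    · rw [Finset.mem_insert, not_or]; exact ⟨h.cd, h.cB⟩
  have hmem : ∀ x, t x = x ↔ x = c ∨ x = d ∨ x ∈ B := by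
    intro x
    rw [← mem_fx, htf]; simp
  obtain ⟨e, he⟩ : (Finset.univ \ St B a b c d).Nonempty := by
    apply Finset.card_pos.1
    have h1 := Finset.le_card_sdiff (St B a b c d) (Finset.univ : Finset α)
    rw [Finset.card_univ] at h1
    have := H.kn
    omega
  have he' : e ∉ St B a b c d := (Finset.mem_sdiff.1 he).2
  rw [mem_St, not_or, not_or, not_or, not_or] at he'
  obtain ⟨hea, heb, hec, hed, heB⟩ := he'
  obtain ⟨f, hf⟩ : ∃ f, t e = f := ⟨_, rfl⟩
  have htf' : t f = e := by rw [← hf, mul_self_app ht2]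
  have hfe : f ≠ e := by
    rintro rfl
    rcases (hmem f).1 hf with h1 | h1 | h1
    · exact hec h1
    · exact hed h1
    · exact heB h1
  have hfa : f ≠ a := by rintro rfl; exact heb (htf'.symm.trans hta)
  have hfb : f ≠ b := by rintro rfl; exact hea (htf'.symm.trans htb)
  have hff : ¬ t f = f := fun h1 => hfe (h1.symm.trans htf')
  rw [hmem, not_or, not_or] at hff
  obtain ⟨hfc', hfd, hfB⟩ := hff
  -- transport
  obtain ⟨g, hg, hgσ⟩ := H.kt (St B a b e f) (by
    have hc : Cfg B a b e f := ⟨h.ab, Ne.symm hea, hfa.symm, Ne.symm heb, hfb.symm, hfe.symm, h.aB, h.bB, heB, hfB⟩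
    rw [hc.card, hB]) (swap e c * swap f d)
  have hσ : ∀ x, (swap e c * swap f d) x = if x = e then c else if x = c then e else if x = f then d else if x = d then f else x := by
    intro x
    exact dt_app hfe.symm hed (Ne.symm hfc') h.cd
  have hac := h.ac; have had := h.ad; have hbc := h.bc; have hbd := h.bd
  have hga : g a = a := by rw [hgσ a (mem_St.2 (by tauto)), hσ]; grind
  have hgb : g b = b := by rw [hgσ b (mem_St.2 (by tauto)), hσ]; grind
  have hge : g e = c := by rw [hgσ e (mem_St.2 (by tauto)), hσ]; grind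
  have hgf : g f = d := by rw [hgσ f (mem_St.2 (by tauto)), hσ]; grind
  have hgB : ∀ x ∈ B, g x = x := by
    intro x hx
    rw [hgσ x (mem_St.2 (by tauto)), hσ]
    have := h.cB; have := h.dB
    grind
  have hgi : ∀ x z, g x = z → g⁻¹ z = x := by rintro x z rfl; exact inv_ap g x
  let y' : Perm α := g * t * g⁻¹
  have hy'2 : y' * y' = 1 := by
    calc g * t * g⁻¹ * (g * t * g⁻¹) = g * (t * t) * g⁻¹ := by group
      _ = 1 := by rw [ht2]; group
  have hy'd : DT y' B a b c d := by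
    constructor
    · change g (t (g⁻¹ a)) = b
      rw [hgi a a hga, hta, hgb]
    · change g (t (g⁻¹ b)) = a
      rw [hgi b b hgb, htb, hga]
    · change g (t (g⁻¹ c)) = d
      rw [hgi e c hge, hf, hgf]
    · change g (t (g⁻¹ d)) = c
      rw [hgi f d hgf, htf', hge]
    · intro x hx
      change g (t (g⁻¹ x)) = x
      rw [hgi x x (hgB x hx), (hmem x).2 (by tauto), hgB x hx]
  have hy'G : y' ∈ G := G.mul_mem (G.mul_mem hg ht) (G.inv_mem hg)
  obtain ⟨z, hz, hzy⟩ := conj_of_agree (H.odd hSt.ge) hy2 hy'2 (mem_FxS.2 ⟨G.mul_mem hy hy'G, fun x hx => by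
    rw [Perm.mul_apply]
    rw [mem_St] at hx
    rcases hx with rfl | rfl | rfl | rfl | hx
    · rw [hy'd.pa, hyd.pb]
    · rw [hy'd.pb, hyd.pa]
    · rw [hy'd.pc, hyd.pd]
    · rw [hy'd.pd, hyd.pc]
    · rw [hy'd.pB x hx, hyd.pB x hx]⟩)
  refine ⟨z (g c), ?_, fun hcB => ?_⟩
  · rw [← hzy]
    change z (y' (z⁻¹ (z (g c)))) = _
    rw [inv_ap]
    change z (g (t (g⁻¹ (g c)))) = _
    rw [inv_ap, (hmem c).2 (Or.inl rfl)]
  · have h1 : z (z (g c)) = z (g c) := hz.2 _ (mem_St.2 (by tauto))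
    have h2 := z.injective h1
    rw [h2] at hcB
    have h3 : g (g c) = g c := hgB _ hcB
    have h4 := g.injective h3
    rw [h4] at hcB
    exact h.cB hcB

theorem cent_fix {K : Subgroup (Perm α)} (hO : Odd (Nat.card K)) {g : Perm α} (hg : g ∈ K) {x : α} (hx : g (g x) = x) :
    g x = x := by
  obtain ⟨r, hr⟩ : Odd (orderOf g) := Odd.of_dvd_nat hO (Subgroup.orderOf_dvd_natCard K hg)
  have h1 : ∀ n : ℕ, (g ^ (2 * n)) x = x := by
    intro n
    induction n with
    | zero => simp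
    | succ n ih =>
      rw [Nat.mul_succ, pow_add, Perm.mul_apply, sq, Perm.mul_apply, hx, ih]
  have h2 : g ^ (2 * (r + 1)) = g := by
    rw [show 2 * (r + 1) = orderOf g + 1 by omega, pow_succ, pow_orderOf_eq_one, one_mul]
  have h3 := h1 (r + 1)
  rwa [h2] at h3

theorem C3.cent_triv {G : Subgroup (Perm α)} {k : ℕ} (H : C3 G k) (hM : ∀ g ∈ G, g ≠ 1 → (fx g).card ≤ k)
    {B : Finset α} {a b c d : α} (h : Cfg B a b c d)
    (hB : B.card + 4 = k) {v : Perm α} (hv : v ∈ G) (hv2 : v * v = 1) (hvd : DT v B a b c d)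
    {g : Perm α} (hg : g ∈ FxS G (St B a b c d)) (hgv : g * v = v * g) : g = 1 := by
  classical
  obtain ⟨x, hx, hxB⟩ := H.dt_fix h hB hv hv2 hvd
  have hSt : (St B a b c d).card = k := by rw [h.card, hB]
  have hv1 : v ≠ 1 := by rintro rfl; exact h.ab hvd.pa
  have h1 := H.le hv hv2 hv1
  have hBf : B ⊆ fx v := fun z hz => mem_fx.2 (hvd.pB z hz)
  have hF : (fx v \ B).card ≤ 2 := by
    rw [Finset.card_sdiff_of_subset hBf]; omega
  have hgF : ∀ z, z ∈ fx v \ B → g z ∈ fx v \ B := by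
    intro z hz
    rw [Finset.mem_sdiff, mem_fx] at hz ⊢
    refine ⟨by rw [← Perm.mul_apply, ← hgv, Perm.mul_apply, hz.1], fun hzB => hz.2 ?_⟩
    have h2 : g (g z) = g z := hg.2 _ (mem_St.2 (by tauto))
    rw [g.injective h2] at hzB
    exact hzB
  have hx0 : x ∈ fx v \ B := Finset.mem_sdiff.2 ⟨mem_fx.2 hx, hxB⟩
  have hgx : g x = x := by
    by_contra hne
    have h2 : g (g x) = x := by
      by_contra h3
      have h4 : ({x, g x, g (g x)} : Finset α) ⊆ fx v \ B := by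
        intro z hz
        simp only [Finset.mem_insert, Finset.mem_singleton] at hz
        rcases hz with rfl | rfl | rfl
        · exact hx0
        · exact hgF _ hx0
        · exact hgF _ (hgF _ hx0)
      have h5 : ({x, g x, g (g x)} : Finset α).card = 3 := by
        rw [Finset.card_eq_three]
        exact ⟨x, g x, g (g x), Ne.symm hne, Ne.symm h3, fun h => hne (g.injective h).symm, rfl⟩
      have := Finset.card_le_card h4
      omega
    exact hne (cent_fix (H.odd hSt.ge) hg h2)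
  by_contra hg1
  have h2 := hM g hg.1 hg1
  have hxS : x ∉ St B a b c d := by
    rw [mem_St]
    rintro (rfl | rfl | rfl | rfl | hx')
    · exact h.ab (hx.symm.trans hvd.pa)
    · exact h.ab (hvd.pb.symm.trans hx)
    · exact h.cd (hx.symm.trans hvd.pc)
    · exact h.cd (hvd.pd.symm.trans hx)
    · exact hxB hx'
  have h3 : insert x (St B a b c d) ⊆ fx g := by
    intro z hz
    rcases Finset.mem_insert.1 hz with rfl | hz
    · exact mem_fx.2 hgx
    · exact mem_fx.2 (hg.2 z hz)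
  have h4 := Finset.card_le_card h3
  rw [Finset.card_insert_of_notMem hxS, hSt] at h4
  omega

/-- a fixed-point-free involution inverts -/
theorem inverts {K : Subgroup (Perm α)} {v : Perm α} (hv2 : v * v = 1) (hn : ∀ h ∈ K, v * h * v⁻¹ ∈ K)
    (hc : ∀ g ∈ K, g * v = v * g → g = 1) {h : Perm α} (hh : h ∈ K) : v * h * v⁻¹ = h⁻¹ := by
  classical
  let f : K → K := fun g => g⁻¹ * ⟨v * g * v⁻¹, hn g g.2⟩
  have hinj : Function.Injective f := by
    intro g g' hgg
    have h1 : (g : Perm α)⁻¹ * (v * g * v⁻¹) = (g' : Perm α)⁻¹ * (v * g' * v⁻¹) := congrArg Subtype.val hgg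
    have h2 : ((g' : Perm α) * (g : Perm α)⁻¹) * v = v * ((g' : Perm α) * (g : Perm α)⁻¹) := by
      calc ((g' : Perm α) * (g : Perm α)⁻¹) * v = g' * ((g : Perm α)⁻¹ * (v * g * v⁻¹)) * v * (g : Perm α)⁻¹ := by group
        _ = g' * ((g' : Perm α)⁻¹ * (v * g' * v⁻¹)) * v * (g : Perm α)⁻¹ := by rw [h1]
        _ = _ := by group
    have h3 := hc _ (K.mul_mem g'.2 (K.inv_mem g.2)) h2
    exact Subtype.ext (mul_inv_eq_one.1 h3).symm
  obtain ⟨g, hg⟩ := Finite.surjective_of_injective hinj ⟨h, hh⟩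
  have h1 : (g : Perm α)⁻¹ * (v * g * v⁻¹) = h := congrArg Subtype.val hg
  have hvi := inv_of_mul_self hv2
  rw [← h1, hvi]
  calc v * ((g : Perm α)⁻¹ * (v * g * v)) * v = v * (g : Perm α)⁻¹ * v * g * (v * v) := by group
    _ = ((g : Perm α)⁻¹ * (v * g * v⁻¹))⁻¹ := by rw [hv2]; rw [hvi]; rw [mul_inv_rev, mul_inv_rev, mul_inv_rev, inv_inv, hvi]; group
    _ = _ := by rw [hvi]

theorem C3.K_triv {G : Subgroup (Perm α)} {k : ℕ} (H : C3 G k) (hM : ∀ g ∈ G, g ≠ 1 → (fx g).card ≤ k)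
    {s : Finset α} (hs : s.card = k) {g : Perm α} (hg : g ∈ G) (hgs : ∀ x ∈ s, g x = x) : g = 1 := by
  classical
  obtain ⟨B, a, b, c, d, h, rfl, hB⟩ := exists_cfg s (by rw [hs]; exact H.hk)
  rw [hs] at hB
  have hO := H.odd hs.ge
  obtain ⟨v1, hv1, hv12, hd1⟩ := lift_dt0 H.kt h hB.le hO
  obtain ⟨v2, hv2, hv22, hcomm, hd2⟩ := lift_dt1 H.kt h hB.le hO hv1 hv12 hd1
  have hK : ∀ {v : Perm α}, v ∈ G → v * v = 1 → (∀ x ∈ St B a b c d, v x ∈ St B a b c d) →
      ∀ h ∈ FxS G (St B a b c d), v * h * v⁻¹ ∈ FxS G (St B a b c d) := by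
    intro v hv hv2 hvs u hu
    refine mem_FxS.2 ⟨G.mul_mem (G.mul_mem hv hu.1) (G.inv_mem hv), fun x hx => ?_⟩
    rw [inv_of_mul_self hv2, Perm.mul_apply, Perm.mul_apply, hu.2 _ (hvs x hx), mul_self_app hv2]
  have hpres : ∀ {v : Perm α} {a b c d : α}, DT v B a b c d → ∀ x ∈ St B a b c d, v x ∈ St B a b c d := by
    intro v a b c d hd x hx
    rw [mem_St] at hx ⊢
    rcases hx with rfl | rfl | rfl | rfl | hx
    · rw [hd.pa]; tauto
    · rw [hd.pb]; tauto
    · rw [hd.pc]; tauto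
    · rw [hd.pd]; tauto
    · rw [hd.pB x hx]; tauto
  have hgK : g ∈ FxS G (St B a b c d) := mem_FxS.2 ⟨hg, hgs⟩
  have e1 := inverts hv12 (hK hv1 hv12 (hpres hd1)) (fun u hu huv => H.cent_triv hM h hB hv1 hv12 hd1 hu huv) hgK
  have e2 := inverts hv22 (hK hv2 hv22 (by rw [← St_perm]; exact hpres hd2))
    (fun u hu huv => H.cent_triv hM h.perm hB hv2 hv22 hd2 (by rw [St_perm]; exact hu) huv) hgK
  -- v3
  let v3 : Perm α := v1 * v2
  have h32 : v3 * v3 = 1 := by
    calc v1 * v2 * (v1 * v2) = (v1 * v2) * (v2 * v1) := by rw [hcomm]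
      _ = v1 * (v2 * v2) * v1 := by group
      _ = 1 := by rw [hv22, mul_one, hv12]
  have hd3 : DT v3 B a d b c := by
    constructor
    · change v1 (v2 a) = d; rw [hd2.pa, hd1.pc]
    · change v1 (v2 d) = a; rw [hd2.pd, hd1.pb]
    · change v1 (v2 b) = c; rw [hd2.pc, hd1.pd]
    · change v1 (v2 c) = b; rw [hd2.pb, hd1.pa]
    · intro x hx
      change v1 (v2 x) = x
      rw [hd2.pB x hx, hd1.pB x hx]
  have h3 : Cfg B a d b c := ⟨h.ad, h.ab, h.ac, h.bd.symm, h.cd.symm, h.bc, h.aB, h.dB, h.bB, h.cB⟩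
  have hSt3 : St B a d b c = St B a b c d := by ext x; rw [mem_St, mem_St]; tauto
  apply H.cent_triv hM h3 hB (G.mul_mem hv1 hv2) h32 hd3 (by rw [hSt3]; exact hgK)
  have e3 : v1 * (v2 * g * v2⁻¹) * v1⁻¹ = g := by
    rw [e2]
    have : v1 * g⁻¹ * v1⁻¹ = (v1 * g * v1⁻¹)⁻¹ := by group
    rw [this, e1, inv_inv]
  calc g * (v1 * v2) = v1 * (v2 * g * v2⁻¹) * v1⁻¹ * (v1 * v2) := by rw [e3]
    _ = v1 * v2 * g := by group

end Cfsg.Agent.Lib.H3LW
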