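import Mathlib
import Cfsg.Agent.Lib.H3LWE

set_option autoImplicit false

namespace Cfsg.Agent.Lib.H3LW

open Finset Equiv Cfsg.Agent.Lib.H3Homog

variable {α : Type*} [Fintype α] [DecidableEq α]

theorem C3.sharp {G : Subgroup (Perm α)} {k : ℕ} (H : C3 G k) (hM : ∀ g ∈ G, g ≠ 1 → (fx g).card ≤ k)
    {s : Finset α} (hs : s.card = k) {g h : Perm α} (hg : g ∈ G) (hh : h ∈ G) (hgh : ∀ x ∈ s, g x = h x) : g = h := by
  have h1 : h⁻¹ * g = 1 := by
    apply H.K_triv hM hs (G.mul_mem (G.inv_mem hh) hg)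
    intro x hx
    rw [Perm.mul_apply, hgh x hx, inv_ap]
  exact (inv_mul_eq_one.1 h1).symm

theorem C3.deg {G : Subgroup (Perm α)} {k : ℕ} (H : C3 G k) (hM : ∀ g ∈ G, g ≠ 1 → (fx g).card ≤ k) :
    Fintype.card α = k + 2 := by
  classical
  by_contra hn
  have hk := H.hk
  have hkn := H.kn
  have hpar := H.par
  obtain ⟨Γ, -, hΓ⟩ := Finset.exists_subset_card_eq (s := (Finset.univ : Finset α)) (n := k)
    (by rw [Finset.card_univ]; exact hkn.le)
  obtain ⟨B, a, b, c, d, h, rfl, hB⟩ := exists_cfg Γ (by rw [hΓ]; exact hk)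
  rw [hΓ] at hB
  obtain ⟨v, hv, hv2, hvd⟩ := lift_dt0 H.kt h hB.le (H.odd hΓ.ge)
  obtain ⟨x, hx, hxB⟩ := H.dt_fix h hB hv hv2 hvd
  have hv1 : v ≠ 1 := by rintro rfl; exact h.ab hvd.pa
  have hvc := H.le hv hv2 hv1
  -- another 2-cycle
  obtain ⟨e, he⟩ : (Finset.univ \ (fx v ∪ {a, b, c, d})).Nonempty := by
    apply Finset.card_pos.1
    have h1 := Finset.le_card_sdiff (fx v ∪ {a, b, c, d}) (Finset.univ : Finset α)
    rw [Finset.card_univ] at h1
    have h2 := Finset.card_union_le (fx v) {a, b, c, d}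
    have h3 : ({a, b, c, d} : Finset α).card ≤ 4 := Finset.card_le_four
    omega
  have he' := (Finset.mem_sdiff.1 he).2
  simp only [Finset.mem_union, Finset.mem_insert, Finset.mem_singleton, not_or, mem_fx] at he'
  obtain ⟨hev, hea, heb, hec, hed⟩ := he'
  obtain ⟨f, hf⟩ : ∃ f, v e = f := ⟨_, rfl⟩
  have hvf : v f = e := by rw [← hf, mul_self_app hv2]
  have hef : e ≠ f := by rintro rfl; exact hev hf
  have hfa : f ≠ a := by rintro rfl; exact heb (hvf.symm.trans hvd.pa)
  have hfb : f ≠ b := by rintro rfl; exact hea (hvf.symm.trans hvd.pb)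
  have hfc : f ≠ c := by rintro rfl; exact hed (hvf.symm.trans hvd.pc)
  have hfd : f ≠ d := by rintro rfl; exact hec (hvf.symm.trans hvd.pd)
  have heB : e ∉ B := fun h1 => hev (hvd.pB e h1)
  have hfB : f ∉ B := fun h1 => hef (hvf.symm.trans (hvd.pB f h1))
  have c1 : Cfg B c d a b := ⟨h.cd, h.ac.symm, h.bc.symm, h.ad.symm, h.bd.symm, h.ab, h.cB, h.dB, h.aB, h.bB⟩
  have c2 : Cfg B e f a b := ⟨hef, hea, heb, hfa, hfb, h.ab, heB, hfB, h.aB, h.bB⟩
  obtain ⟨t, ht, ht2, htc, htd, htf⟩ := H.tr c1 hB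
  obtain ⟨u, hu, hu2, hue, huf, huF⟩ := H.tr c2 hB
  have htm : ∀ z, t z = z ↔ z = a ∨ z = b ∨ z ∈ B := by intro z; rw [← mem_fx, htf]; simp
  have hum : ∀ z, u z = z ↔ z = a ∨ z = b ∨ z ∈ B := by intro z; rw [← mem_fx, huF]; simp
  have hta := (htm a).2 (Or.inl rfl)
  have htb := (htm b).2 (by tauto)
  have hua := (hum a).2 (Or.inl rfl)
  have hub := (hum b).2 (by tauto)
  have hxa : x ≠ a := by rintro rfl; exact h.ab (hx.symm.trans hvd.pa)
  have hxb : x ≠ b := by rintro rfl; exact h.ab (hvd.pb.symm.trans hx)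
  have htv : t * v = v * t := by
    apply H.sharp hM (s := St B c d a b) (by rw [c1.card, hB]) (G.mul_mem ht hv) (G.mul_mem hv ht)
    intro z hz
    rw [Perm.mul_apply, Perm.mul_apply]
    rw [mem_St] at hz
    rcases hz with rfl | rfl | rfl | rfl | hz
    · rw [hvd.pc, htd, htc, hvd.pd]
    · rw [hvd.pd, htc, htd, hvd.pc]
    · rw [hvd.pa, htb, hta, hvd.pa]
    · rw [hvd.pb, hta, htb, hvd.pb]
    · rw [hvd.pB z hz, (htm z).2 (by tauto), hvd.pB z hz]
  have huv : u * v = v * u := by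
    apply H.sharp hM (s := St B e f a b) (by rw [c2.card, hB]) (G.mul_mem hu hv) (G.mul_mem hv hu)
    intro z hz
    rw [Perm.mul_apply, Perm.mul_apply]
    rw [mem_St] at hz
    rcases hz with rfl | rfl | rfl | rfl | hz
    · rw [hf, huf, hue, hvf]
    · rw [hvf, hue, huf, hf]
    · rw [hvd.pa, hub, hua, hvd.pa]
    · rw [hvd.pb, hua, hub, hvd.pb]
    · rw [hvd.pB z hz, (hum z).2 (by tauto), hvd.pB z hz]
  have htx : t x ≠ x := by rw [Ne, htm]; tauto
  have hux : u x ≠ x := by rw [Ne, hum]; tauto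
  have htxv : v (t x) = t x := by rw [← Perm.mul_apply, ← htv, Perm.mul_apply, hx]
  have huxv : v (u x) = u x := by rw [← Perm.mul_apply, ← huv, Perm.mul_apply, hx]
  have htxB : t x ∉ B := fun h1 => htx (t.injective ((htm (t x)).2 (by tauto)))
  have huxB : u x ∉ B := fun h1 => hux (u.injective ((hum (u x)).2 (by tauto)))
  have hBf : B ⊆ fx v := fun z hz => mem_fx.2 (hvd.pB z hz)
  have heq : t x = u x := by
    by_contra hne
    have h1 : ({x, t x, u x} : Finset α) ⊆ fx v \ B := by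
      intro z hz
      simp only [Finset.mem_insert, Finset.mem_singleton] at hz
      rw [Finset.mem_sdiff, mem_fx]
      rcases hz with rfl | rfl | rfl
      · exact ⟨hx, hxB⟩
      · exact ⟨htxv, htxB⟩
      · exact ⟨huxv, huxB⟩
    have h2 : ({x, t x, u x} : Finset α).card = 3 := by
      rw [Finset.card_eq_three]
      exact ⟨x, t x, u x, Ne.symm htx, Ne.symm hux, hne, rfl⟩
    have h3 := Finset.card_le_card h1
    rw [Finset.card_sdiff_of_subset hBf] at h3
    omega
  obtain ⟨y, hy⟩ : ∃ y, t x = y := ⟨_, rfl⟩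
  have hya : y ≠ a := by rintro rfl; rw [hy] at htxv; exact h.ab (htxv.symm.trans hvd.pa)
  have hyb : y ≠ b := by rintro rfl; rw [hy] at htxv; exact h.ab (hvd.pb.symm.trans htxv)
  rw [hy] at htx htxB
  have c3 : Cfg B a b x y := ⟨h.ab, hxa.symm, hya.symm, hxb.symm, hyb.symm, htx.symm, h.aB, h.bB, hxB, htxB⟩
  have htu : t = u := by
    apply H.sharp hM (s := St B a b x y) (by rw [c3.card, hB]) ht hu
    intro z hz
    rw [mem_St] at hz
    rcases hz with rfl | rfl | rfl | rfl | hz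
    · rw [hta, hua]
    · rw [htb, hub]
    · exact heq
    · have h1 : t z = x := by rw [← hy, mul_self_app ht2]
      have h2 : u z = x := by rw [← hy, heq, mul_self_app hu2]
      rw [h1, h2]
    · rw [(htm z).2 (by tauto), (hum z).2 (by tauto)]
  have c4 : Cfg B c d e f := ⟨h.cd, Ne.symm hec, hfc.symm, Ne.symm hed, hfd.symm, hef, h.cB, h.dB, heB, hfB⟩
  have htv' : t = v := by
    apply H.sharp hM (s := St B c d e f) (by rw [c4.card, hB]) ht hv
    intro z hz
    rw [mem_St] at hz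
    rcases hz with rfl | rfl | rfl | rfl | hz
    · rw [htc, hvd.pc]
    · rw [htd, hvd.pd]
    · rw [htu, hue, hf]
    · rw [htu, huf, hvf]
    · rw [(htm z).2 (by tauto), hvd.pB z hz]
  exact h.ab (hta.symm.trans (by rw [htv']; exact hvd.pa))

theorem cyc_app {p q r : α} (hpq : p ≠ q) (hpr : p ≠ r) (hqr : q ≠ r) (x : α) :
    (swap p q * swap q r) x = if x = p then q else if x = q then r else if x = r then p else x := by
  rw [Perm.mul_apply]
  split_ifs with h1 h2 h3
  · rw [h1, swap_apply_of_ne_of_ne hpq hpr, swap_apply_left]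
  · rw [h2, swap_apply_left, swap_apply_of_ne_of_ne hpr.symm hqr.symm]
  · rw [h3, swap_apply_right, swap_apply_right]
  · rw [swap_apply_of_ne_of_ne h2 h3, swap_apply_of_ne_of_ne h1 h2]

theorem C3.a3 {G : Subgroup (Perm α)} {k : ℕ} (H : C3 G k) (hM : ∀ g ∈ G, g ≠ 1 → (fx g).card ≤ k)
    {D : Finset α} (hD : D.card = k + 1) : A3 G D := by
  classical
  intro p hp q hq r hr hpq hpr hqr
  have hk := H.hk
  obtain ⟨s, hs⟩ : (D \ {p, q, r}).Nonempty := by
    apply Finset.card_pos.1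
    have h1 := Finset.le_card_sdiff ({p, q, r} : Finset α) D
    have h2 : ({p, q, r} : Finset α).card ≤ 3 := Finset.card_le_three
    omega
  rw [Finset.mem_sdiff] at hs
  simp only [Finset.mem_insert, Finset.mem_singleton, not_or] at hs
  obtain ⟨hsD, hsp, hsq, hsr⟩ := hs
  have hE : (D.erase s).card = k := by rw [Finset.card_erase_of_mem hsD, hD]; rfl
  obtain ⟨g, hg, hgτ⟩ := H.kt (D.erase s) hE.le (swap p q * swap q r)
  have hτ := cyc_app hpq hpr hqr
  have hpE : p ∈ D.erase s := Finset.mem_erase.2 ⟨Ne.symm hsp, hp⟩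
  have hqE : q ∈ D.erase s := Finset.mem_erase.2 ⟨Ne.symm hsq, hq⟩
  have hrE : r ∈ D.erase s := Finset.mem_erase.2 ⟨Ne.symm hsr, hr⟩
  have hgE : ∀ x ∈ D.erase s, g x ∈ D.erase s := by
    intro x hx
    rw [hgτ x hx, hτ]
    split_ifs
    · exact hqE
    · exact hrE
    · exact hpE
    · exact hx
  have hg3 : g * g * g = 1 := by
    apply H.K_triv hM hE (G.mul_mem (G.mul_mem hg hg) hg)
    intro x hx
    rw [Perm.mul_apply, Perm.mul_apply, hgτ _ (hgE _ (hgE _ hx)), hgτ _ (hgE _ hx), hgτ _ hx, hτ x, hτ, hτ]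
    grind
  -- image of `D.erase s` is itself
  have hsurj : ∀ z ∈ D.erase s, ∃ x ∈ D.erase s, g x = z := by
    have h1 : (D.erase s).map g.toEmbedding = D.erase s := by
      apply Finset.eq_of_subset_of_card_le
      · intro z hz
        obtain ⟨x, hx, rfl⟩ := Finset.mem_map.1 hz
        exact hgE x hx
      · rw [Finset.card_map]
    intro z hz
    rw [← h1] at hz
    obtain ⟨x, hx, hxz⟩ := Finset.mem_map.1 hz
    exact ⟨x, hx, hxz⟩
  have hout : ∀ z, z ∉ D.erase s → g z ∉ D.erase s := by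
    intro z hz h1
    obtain ⟨x, hx, hxz⟩ := hsurj _ h1
    exact hz (g.injective hxz ▸ hx)
  have hgs : g s = s := by
    by_contra hne
    have hsE : s ∉ D.erase s := Finset.notMem_erase s D
    have h1 := hout s hsE
    have h2 := hout _ h1
    have h3 : g (g s) = s := by
      by_contra h4
      have h5 : ({s, g s, g (g s)} : Finset α) ⊆ (D.erase s)ᶜ := by
        intro z hz
        simp only [Finset.mem_insert, Finset.mem_singleton] at hz
        rw [Finset.mem_compl]
        rcases hz with rfl | rfl | rfl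
        · exact hsE
        · exact h1
        · exact h2
      have h6 : ({s, g s, g (g s)} : Finset α).card = 3 := by
        rw [Finset.card_eq_three]
        exact ⟨s, g s, g (g s), Ne.symm hne, Ne.symm h4, fun h => hne (g.injective h).symm, rfl⟩
      have h7 := Finset.card_le_card h5
      rw [Finset.card_compl, hE, H.deg hM] at h7
      omega
    have h4 : g (g (g s)) = s := by
      have := congrArg (fun w : Perm α => w s) hg3
      exact this
    rw [h3] at h4
    exact hne h4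
  refine ⟨g, hg, fun x hx => ?_⟩
  by_cases hxs : x = s
  · rw [hxs, hgs, hτ]
    grind
  · exact hgτ x (Finset.mem_erase.2 ⟨hxs, hx⟩)

theorem T2.a3 {G : Subgroup (Perm α)} {D : Finset α} (h : T2 G D) : A3 G D := by
  intro p hp q hq r hr hpq hpr hqr
  obtain ⟨g1, hg1, h1⟩ := h p hp q hq hpq
  obtain ⟨g2, hg2, h2⟩ := h q hq r hr hqr
  refine ⟨g1 * g2, G.mul_mem hg1 hg2, fun x hx => ?_⟩
  have h3 : swap q r x ∈ D := by
    rw [swap_apply_def]; split_ifs
    · exact hr
    · exact hq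
    · exact hx
  rw [Perm.mul_apply, h2 x hx, h1 _ h3, Perm.mul_apply]

theorem base {G : Subgroup (Perm α)} {k : ℕ} (hk : 4 ≤ k) (hkt : KT G k) (hkn : k < Fintype.card α)
    (hM : ∀ g ∈ G, g ≠ 1 → (fx g).card ≤ k) : ∃ D : Finset α, D.card = k + 1 ∧ A3 G D := by
  obtain ⟨D, -, hD⟩ := Finset.exists_subset_card_eq (s := (Finset.univ : Finset α)) (n := k + 1)
    (by rw [Finset.card_univ]; exact hkn)
  by_cases hex : ∃ i ∈ G, i * i = 1 ∧ i ≠ 1 ∧ (fx i).card = k
  · obtain ⟨i, hi, hi2, -, hik⟩ := hex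
    exact ⟨D, hD, (case2 hk hkt hM ⟨i, hi, hi2, hik⟩ D hD).a3⟩
  · have hinv : ∀ i ∈ G, i * i = 1 → i ≠ 1 → (fx i).card < k := by
      intro i hi hi2 hi1
      have h1 := hM i hi hi1
      rcases h1.lt_or_eq with h2 | h2
      · exact h2
      · exact absurd ⟨i, hi, hi2, hi1, h2⟩ hex
    by_cases hpar : Fintype.card α % 2 = (k + 1) % 2
    · obtain ⟨D, hD, h⟩ := case1 hk hkt hkn hpar hinv
      exact ⟨D, hD, h.a3⟩
    · exact ⟨D, hD, (C3.mk hk hkt hkn (by omega) hinv).a3 hM hD⟩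

end Cfsg.Agent.Lib.H3LW
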