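import Mathlib
import Cfsg.Agent.Lib.H3LWF
import Cfsg.Agent.Lib.H3SigC
import Cfsg.Agent.Lib.H3Wagner
import Cfsg.Agent.Lib.PNilp
import Cfsg.Agent.S0743

set_option autoImplicit false

namespace Cfsg.Agent.Lib.H3LW

open Finset Equiv Cfsg.Agent.Lib.H3Homog Cfsg.Agent.Lib.H3SigC

universe u
variable {α : Type u} [Fintype α] [DecidableEq α]

open Classical in
noncomputable def FP (P : Subgroup (Perm α)) : Finset α := Finset.univ.filter fun a => ∀ g ∈ P, g a = a

theorem mem_FP {P : Subgroup (Perm α)} {a : α} : a ∈ FP P ↔ ∀ g ∈ P, g a = a := by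
  classical
  simp [FP]

theorem norm_FP {P : Subgroup (Perm α)} {g : Perm α} (hg : g ∈ Subgroup.normalizer (P : Set (Perm α))) (x : α) :
    g x ∈ FP P ↔ x ∈ FP P := by
  rw [Subgroup.mem_normalizer_iff] at hg
  rw [mem_FP, mem_FP]
  constructor
  · intro h p hp
    have h1 := h (g * p * g⁻¹) ((hg p).1 hp)
    rw [Perm.mul_apply, Perm.mul_apply, inv_ap] at h1
    exact g.injective h1
  · intro h p hp
    have h1 : g⁻¹ * p * g ∈ P := by
      rw [hg]
      have : g * (g⁻¹ * p * g) * g⁻¹ = p := by group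
      rw [this]; exact hp
    have h2 := h _ h1
    rw [Perm.mul_apply, Perm.mul_apply] at h2
    rw [Perm.inv_eq_iff_eq] at h2
    exact h2

noncomputable def phi (G P : Subgroup (Perm α)) : ↥(G ⊓ Subgroup.normalizer (P : Set (Perm α))) →* Perm (FP P) where
  toFun g := (g : Perm α).subtypePerm (fun x => norm_FP g.2.2 x)
  map_one' := by ext x; rfl
  map_mul' g h := by ext x; rfl

theorem phi_apply {G P : Subgroup (Perm α)} (g : ↥(G ⊓ Subgroup.normalizer (P : Set (Perm α)))) (x : FP P) :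
    ((phi G P g) x : α) = (g : Perm α) x := rfl

theorem card_FxS_le {G : Subgroup (Perm α)} {s : Finset α} {g : Perm α} (hg : g ∈ G) :
    Nat.card (FxS G s) ≤ Nat.card (FxS G (s.map g.toEmbedding)) := by
  apply Nat.card_le_card_of_injective (fun h : FxS G s => (⟨g * h * g⁻¹, G.mul_mem (G.mul_mem hg h.2.1) (G.inv_mem hg), by
    intro x hx
    obtain ⟨y, hy, rfl⟩ := Finset.mem_map.1 hx
    change g ((h : Perm α) (g⁻¹ (g y))) = g y
    rw [inv_ap, h.2.2 y hy]⟩ : FxS G (s.map g.toEmbedding)))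
  intro h h' hh
  have h1 : g * (h : Perm α) * g⁻¹ = g * h' * g⁻¹ := congrArg Subtype.val hh
  exact Subtype.ext (mul_left_cancel (mul_right_cancel h1))

theorem card_FxS {G : Subgroup (Perm α)} {k : ℕ} (hkt : KT G k) {s t : Finset α} (hs : s.card ≤ k) (hst : s.card = t.card) :
    Nat.card (FxS G s) = Nat.card (FxS G t) := by
  obtain ⟨g, hg, hgs⟩ := hkt.hom hs hst
  obtain ⟨g', hg', hgs'⟩ := hkt.hom (s := t) (t := s) (by omega) hst.symm
  apply le_antisymm
  · have := card_FxS_le (G := G) (s := s) hg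
    rwa [hgs] at this
  · have := card_FxS_le (G := G) (s := t) hg'
    rwa [hgs'] at this

theorem le_FxS {G P : Subgroup (Perm α)} (hPG : P ≤ G) {s : Finset α} (hs : s ⊆ FP P) : P ≤ FxS G s :=
  fun g hg => mem_FxS.2 ⟨hPG hg, fun x hx => mem_FP.1 (hs hx) g hg⟩

theorem reduceA {G : Subgroup (Perm α)} {k : ℕ} (hkt : KT G k) {p : ℕ} [hp : Fact p.Prime] {P : Subgroup (Perm α)}
    (hPG : P ≤ G) (hF : k ≤ (FP P).card)
    (hA : ∀ s : Finset α, s ⊆ FP P → s.card = k → IsSyl p P (FxS G s)) : KT (phi G P).range k := by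
  classical
  intro s hs τ
  obtain ⟨s1, hs1, hs1c⟩ := Finset.exists_superset_card_eq (s := s) (n := k) hs (by rw [Fintype.card_coe]; exact hF)
  let st : Finset α := s1.map (Function.Embedding.subtype _)
  have hst : st.card = k := by rw [Finset.card_map, hs1c]
  have hstF : st ⊆ FP P := by
    intro x hx
    obtain ⟨y, hy, rfl⟩ := Finset.mem_map.1 hx
    exact y.2
  obtain ⟨g, hg, hgτ⟩ := hkt st hst.le (Perm.ofSubtype τ)
  have hgx : ∀ x ∈ s1, g (x : α) = τ x := by
    intro x hx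
    rw [hgτ x (Finset.mem_map_of_mem _ hx)]
    exact Perm.ofSubtype_apply_coe τ x
  let s' : Finset α := st.map g.toEmbedding
  have hs'c : s'.card = k := by rw [Finset.card_map, hst]
  have hs'F : s' ⊆ FP P := by
    intro x hx
    obtain ⟨y, hy, rfl⟩ := Finset.mem_map.1 hx
    obtain ⟨z, hz, rfl⟩ := Finset.mem_map.1 hy
    change g (z : α) ∈ FP P
    rw [hgx z hz]
    exact (τ z).2
  have h1 := hA s' hs'F hs'c
  have h0 := hA st hstF hst
  have h2 : IsSyl p (P.map (MulAut.conj g).toMonoidHom) (FxS G s') := by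
    constructor
    · rintro _ ⟨q, hq, rfl⟩
      refine mem_FxS.2 ⟨G.mul_mem (G.mul_mem hg (hPG hq)) (G.inv_mem hg), ?_⟩
      intro x hx
      obtain ⟨y, hy, rfl⟩ := Finset.mem_map.1 hx
      change g (q (g⁻¹ (g y))) = g y
      rw [inv_ap, mem_FP.1 (hstF hy) q hq]
    · rw [card_conj, h1.2]
  obtain ⟨c, hc, hcP⟩ := H3Wagner.sylow_conj h2 h1
  have hcg : c * g ∈ Subgroup.normalizer (P : Set (Perm α)) := by
    have h3 : P.map (MulAut.conj (c * g)).toMonoidHom = P := by
      have e : P.map (MulAut.conj (c * g)).toMonoidHom = (P.map (MulAut.conj g).toMonoidHom).map (MulAut.conj c).toMonoidHom := by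
        rw [Subgroup.map_map, map_mul]; rfl
      rw [e, hcP]
    rw [Subgroup.mem_normalizer_iff]
    intro h
    have h4 : ∀ u, u ∈ P → (c * g) * u * (c * g)⁻¹ ∈ P := by
      intro u hu
      have : (MulAut.conj (c * g)).toMonoidHom u ∈ P.map (MulAut.conj (c * g)).toMonoidHom := ⟨u, hu, rfl⟩
      rw [h3] at this
      exact this
    refine ⟨h4 h, fun h5 => ?_⟩
    rw [← h3] at h5
    obtain ⟨u, hu, hu2⟩ := h5
    have h6 : (c * g) * u * (c * g)⁻¹ = (c * g) * h * (c * g)⁻¹ := hu2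
    have h7 : u = h := mul_left_cancel (mul_right_cancel h6)
    rw [← h7]; exact hu
  refine ⟨phi G P ⟨c * g, G.mul_mem hc.1 hg, hcg⟩, ⟨_, rfl⟩, fun x hx => ?_⟩
  apply Subtype.ext
  rw [phi_apply]
  change c (g x) = τ x
  rw [hc.2 (g x) (Finset.mem_map_of_mem _ (Finset.mem_map_of_mem _ (hs1 hx))), hgx x (hs1 hx)]

theorem reduceB {G : Subgroup (Perm α)} {k : ℕ} (hk : 1 ≤ k) {p : ℕ} [hp : Fact p.Prime] {P : Subgroup (Perm α)}
    (hPG : P ≤ G) (hPp : IsPGroup p P) (hF : k + 1 ≤ (FP P).card)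
    (hmax : ∀ Q : Subgroup (Perm α), Q ≤ G → IsPGroup p Q → k + 1 ≤ (FP Q).card → Nat.card Q ≤ Nat.card P)
    (hB : ∀ s : Finset α, s ⊆ FP P → s.card = k → ¬ IsSyl p P (FxS G s)) : KT (phi G P).range k := by
  classical
  apply KT_of_multi (h := Cfsg.Agent.S0743.result (phi G P).range hp.out hk (by rw [Fintype.card_coe]; omega) _)
    (by rw [Fintype.card_coe]; omega)
  intro s hs
  let st : Finset α := s.map (Function.Embedding.subtype _)
  have hst : st.card = k := by rw [Finset.card_map, hs]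
  have hstF : st ⊆ FP P := by
    intro x hx
    obtain ⟨y, hy, rfl⟩ := Finset.mem_map.1 hx
    exact y.2
  have hnot := hB st hstF hst
  have hPle := le_FxS hPG hstF
  -- a Sylow subgroup of `FxS G st` containing `P`
  obtain ⟨S, hS⟩ := (IsPGroup.exists_le_sylow (G := FxS G st) (P := P.subgroupOf (FxS G st))
    (hPp.comap_of_injective _ (Subgroup.subtype_injective _)))
  let Q : Subgroup (Perm α) := (S : Subgroup (FxS G st)).map (FxS G st).subtype
  have hQ : IsSyl p Q (FxS G st) := isSyl_of_sylow S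
  have hPQ : P ≤ Q := by
    intro x hx
    exact ⟨⟨x, hPle hx⟩, hS hx, rfl⟩
  have hPQ' : P < Q := lt_of_le_of_ne hPQ (by rintro h; exact hnot (h ▸ hQ))
  have hQnil : Group.IsNilpotent Q := IsPGroup.isNilpotent hQ.pgroup
  have hlt := Cfsg.Agent.Lib.PNilp.lt_inf_normalizer hQnil hPQ'
  set R : Subgroup (Perm α) := Q ⊓ Subgroup.normalizer (P : Set (Perm α)) with hR
  have hRG : R ≤ G := fun x hx => (hQ.1 hx.1).1
  have hRp : IsPGroup p R := hQ.pgroup.to_le inf_le_left
  have hRcard : Nat.card P < Nat.card R := by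
    have h1 : (P : Set (Perm α)) ⊂ (R : Set (Perm α)) := hlt
    have := Set.ncard_lt_ncard h1 (Set.toFinite _)
    exact this
  have hRF : (FP R).card ≤ k := by
    by_contra h
    have := hmax R hRG hRp (by omega)
    omega
  have hstR : st ⊆ FP R := by
    intro x hx
    rw [mem_FP]
    intro g hg
    exact (hQ.1 hg.1).2 x hx
  have hFR : st = FP R := Finset.eq_of_subset_of_card_le hstR (by rw [hst]; exact hRF)
  have hRN : R ≤ G ⊓ Subgroup.normalizer (P : Set (Perm α)) := le_inf hRG inf_le_right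
  refine ⟨(R.subgroupOf (G ⊓ Subgroup.normalizer (P : Set (Perm α)))).map (phi G P).rangeRestrict, ?_, ?_⟩
  · exact (hRp.comap_of_injective _ (Subgroup.subtype_injective _)).map _
  · ext x
    rw [MulAction.mem_fixedPoints, Finset.mem_coe]
    constructor
    · intro h
      have h1 : (x : α) ∈ FP R := by
        rw [mem_FP]
        intro g hg
        have h2 := h ⟨(phi G P).rangeRestrict ⟨g, hRN hg⟩, ⟨⟨g, hRN hg⟩, hg, rfl⟩⟩
        exact congrArg Subtype.val h2
      rw [← hFR] at h1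
      obtain ⟨y, hy, hyx⟩ := Finset.mem_map.1 h1
      have : y = x := Subtype.ext hyx
      rw [← this]; exact hy
    · rintro hx ⟨_, ⟨g, hg, rfl⟩⟩
      have h1 : (x : α) ∈ FP R := by rw [← hFR]; exact Finset.mem_map_of_mem _ hx
      apply Subtype.ext
      exact mem_FP.1 h1 g hg

theorem reduce {G : Subgroup (Perm α)} {k : ℕ} (hk : 1 ≤ k) (hkt : KT G k) {p : ℕ} [hp : Fact p.Prime] {P : Subgroup (Perm α)}
    (hPG : P ≤ G) (hPp : IsPGroup p P) (hF : k + 1 ≤ (FP P).card)
    (hmax : ∀ Q : Subgroup (Perm α), Q ≤ G → IsPGroup p Q → k + 1 ≤ (FP Q).card → Nat.card Q ≤ Nat.card P) :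
    KT (phi G P).range k := by
  by_cases hA : ∀ s : Finset α, s ⊆ FP P → s.card = k → IsSyl p P (FxS G s)
  · exact reduceA hkt hPG (by omega) hA
  · push Not at hA
    obtain ⟨s0, hs0, hs0c, hs0n⟩ := hA
    apply reduceB hk hPG hPp hF hmax
    intro s hs hsc hS
    apply hs0n
    refine ⟨le_FxS hPG hs0, ?_⟩
    rw [hS.2, card_FxS hkt (s := s) (t := s0) (by omega) (by omega)]

theorem main (n : ℕ) : ∀ (α : Type u) [Fintype α] [DecidableEq α], Fintype.card α = n →
    ∀ (G : Subgroup (Perm α)) (k : ℕ), 4 ≤ k → k < n → KT G k → ∃ D : Finset α, D.card = k + 1 ∧ A3 G D := by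
  induction n using Nat.strong_induction_on with
  | _ n ih =>
  intro α _ _ hn G k hk hkn hkt
  classical
  by_cases hM : ∀ g ∈ G, g ≠ 1 → (fx g).card ≤ k
  · exact base hk hkt (by rw [hn]; exact hkn) hM
  push Not at hM
  obtain ⟨g0, hg0, hg01, hg0f⟩ := hM
  obtain ⟨p, hp, hpd⟩ := Nat.exists_prime_and_dvd (n := orderOf g0) (by rw [Ne, orderOf_eq_one_iff]; exact hg01)
  haveI : Fact p.Prime := ⟨hp⟩
  let g1 : Perm α := g0 ^ (orderOf g0 / p)
  have hg1o : orderOf g1 = p := orderOf_pow_orderOf_div (orderOf_pos g0).ne' hpd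
  let S : Set (Subgroup (Perm α)) := {P | P ≤ G ∧ IsPGroup p P ∧ k + 1 ≤ (FP P).card}
  have hP1 : Subgroup.zpowers g1 ∈ S := by
    refine ⟨(Subgroup.zpowers_le).2 (G.pow_mem hg0 _), ?_, ?_⟩
    · exact IsPGroup.of_card (n := 1) (by rw [Nat.card_zpowers, hg1o, pow_one])
    · have h1 : fx g0 ⊆ FP (Subgroup.zpowers g1) := by
        intro x hx
        rw [mem_FP]
        intro g hg
        obtain ⟨m, rfl⟩ := Subgroup.mem_zpowers_iff.1 hg
        have h2 : ∀ j : ℤ, (g0 ^ j) x = x := fun j => Perm.zpow_apply_eq_self_of_apply_eq_self (mem_fx.1 hx) j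
        change ((g0 ^ (orderOf g0 / p)) ^ m) x = x
        rw [← zpow_natCast, ← zpow_mul]
        exact h2 _
      have h2 := Finset.card_le_card h1
      omega
  obtain ⟨P, hPS, hPmax⟩ := Finset.exists_max_image (Set.toFinite S).toFinset (fun P => Nat.card P)
    ⟨_, (Set.Finite.mem_toFinset _).2 hP1⟩
  rw [Set.Finite.mem_toFinset] at hPS
  obtain ⟨hPG, hPp, hPF⟩ := hPS
  have hmax : ∀ Q : Subgroup (Perm α), Q ≤ G → IsPGroup p Q → k + 1 ≤ (FP Q).card → Nat.card Q ≤ Nat.card P :=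
    fun Q h1 h2 h3 => hPmax Q ((Set.Finite.mem_toFinset _).2 ⟨h1, h2, h3⟩)
  have hPcard : 1 < Nat.card P := by
    have h1 := hPmax _ ((Set.Finite.mem_toFinset _).2 hP1)
    change Nat.card (Subgroup.zpowers g1) ≤ Nat.card P at h1
    rw [Nat.card_zpowers, hg1o] at h1
    exact lt_of_lt_of_le hp.one_lt h1
  have hlt : (FP P).card < n := by
    rw [← hn, ← Finset.card_univ]
    apply Finset.card_lt_card
    rw [Finset.ssubset_univ_iff]
    intro h
    have h1 : P = ⊥ := by
      rw [Subgroup.eq_bot_iff_forall]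
      intro g hg
      ext x
      have : x ∈ FP P := by rw [h]; exact Finset.mem_univ _
      exact mem_FP.1 this g hg
    rw [h1, Subgroup.card_bot] at hPcard
    exact absurd hPcard (lt_irrefl _)
  obtain ⟨D, hD, hDA⟩ := ih (FP P).card hlt (FP P) (Fintype.card_coe _) (phi G P).range k hk (by omega)
    (reduce (by omega) hkt hPG hPp hPF hmax)
  refine ⟨D.map (Function.Embedding.subtype _), by rw [Finset.card_map, hD], ?_⟩
  intro p hp q hq r hr hpq hpr hqr
  obtain ⟨p', hp', rfl⟩ := Finset.mem_map.1 hp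
  obtain ⟨q', hq', rfl⟩ := Finset.mem_map.1 hq
  obtain ⟨r', hr', rfl⟩ := Finset.mem_map.1 hr
  have hpq' : p' ≠ q' := fun h => hpq (by rw [h])
  have hpr' : p' ≠ r' := fun h => hpr (by rw [h])
  have hqr' : q' ≠ r' := fun h => hqr (by rw [h])
  obtain ⟨_, ⟨g, rfl⟩, hg⟩ := hDA p' hp' q' hq' r' hr' hpq' hpr' hqr'
  refine ⟨g, g.2.1, fun x hx => ?_⟩
  obtain ⟨x', hx', rfl⟩ := Finset.mem_map.1 hx
  have h1 := congrArg Subtype.val (hg x' hx')
  rw [phi_apply, cyc_app hpq' hpr' hqr'] at h1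
  rw [cyc_app hpq hpr hqr]
  change (g : Perm α) (x' : α) = _
  rw [h1]
  simp only [Function.Embedding.subtype_apply, Subtype.coe_inj]
  split_ifs <;> rfl

theorem alt_of_A3 {G : Subgroup (Perm α)} {D : Finset α} (h : A3 G D) (σ : Perm D) (hσ : σ ∈ alternatingGroup D) :
    ∃ g ∈ G, ∀ x : D, g (x : α) = σ x := by
  let L : Subgroup (Perm D) :=
    { carrier := {σ | ∃ g ∈ G, ∀ x : D, g (x : α) = σ x}
      mul_mem' := by
        rintro σ τ ⟨g, hg, h1⟩ ⟨h, hh, h2⟩
        exact ⟨g * h, G.mul_mem hg hh, fun x => by rw [Perm.mul_apply, h2, h1]; rfl⟩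
      one_mem' := ⟨1, G.one_mem, fun _ => rfl⟩
      inv_mem' := by
        rintro σ ⟨g, hg, h1⟩
        refine ⟨g⁻¹, G.inv_mem hg, fun x => ?_⟩
        rw [Perm.inv_eq_iff_eq, h1, ap_inv] }
  have hL : alternatingGroup D ≤ L := by
    rw [← Equiv.Perm.closure_three_cycles_eq_alternating, Subgroup.closure_le]
    intro τ hτ
    obtain ⟨a, ha⟩ : ∃ a, τ a ≠ a := by
      by_contra hne
      push Not at hne
      exact hτ.ne_one (Equiv.ext hne)
    have ha' : a ∈ τ.support := Perm.mem_support.2 ha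
    have h1 := (hτ.nodup_iff_mem_support (a := a)).2 ha'
    have h2 := (hτ.eq_swap_mul_swap_iff_mem_support (a := a)).2 ha'
    simp only [List.nodup_cons, List.mem_cons, List.not_mem_nil, or_false, not_or, not_false_eq_true, List.nodup_nil, and_true] at h1
    obtain ⟨⟨h3, h4⟩, h5⟩ := h1
    have h3' : (a : α) ≠ τ a := fun h => h3 (Subtype.ext h)
    have h4' : (a : α) ≠ τ (τ a) := fun h => h4 (Subtype.ext h)
    have h5' : (τ a : α) ≠ τ (τ a) := fun h => h5 (Subtype.ext h)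
    obtain ⟨g, hg, hg2⟩ := h a a.2 (τ a) (τ a).2 (τ (τ a)) (τ (τ a)).2 h3' h4' h5'
    refine ⟨g, hg, fun x => ?_⟩
    rw [hg2 x x.2, cyc_app h3' h4' h5']
    have h6 : (τ x : D) = (swap a (τ a) * swap (τ a) (τ (τ a))) x := congrArg (fun w : Perm D => w x) h2
    rw [h6, cyc_app h3 h4 h5]
    simp only [Subtype.coe_inj]
    split_ifs <;> rfl
  exact hL hσ

end Cfsg.Agent.Lib.H3LW
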