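import Mathlib
import Cfsg.Agent.Lib.H3LWG
import Cfsg.Agent.Lib.CoprimeB

set_option autoImplicit false

namespace Cfsg.Agent.Lib.H3LW

open Finset Equiv Cfsg.Agent.Lib.H3Homog

universe u
variable {α : Type u} [Fintype α] [DecidableEq α]

theorem mem_iff_of_mapsTo {g : Perm α} {D : Finset α} (h : ∀ x ∈ D, g x ∈ D) (x : α) : g x ∈ D ↔ x ∈ D := by
  constructor
  · intro hx
    have h1 : D.map g.toEmbedding = D := by
      apply Finset.eq_of_subset_of_card_le
      · intro z hz
        obtain ⟨y, hy, rfl⟩ := Finset.mem_map.1 hz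
        exact h y hy
      · rw [Finset.card_map]
    rw [← h1] at hx
    obtain ⟨y, hy, hxy⟩ := Finset.mem_map.1 hx
    exact g.injective hxy ▸ hy
  · exact h x

/-- restriction of a permutation to an invariant set, extended by the identity -/
theorem exists_restr {g : Perm α} {D : Finset α} (h : ∀ x ∈ D, g x ∈ D) :
    ∃ τ : Perm α, (∀ x ∈ D, τ x = g x) ∧ (∀ x, x ∉ D → τ x = x) := by
  refine ⟨Perm.ofSubtype (g.subtypePerm (p := fun x => x ∈ D) (mem_iff_of_mapsTo h)), fun x hx => ?_, fun x hx => ?_⟩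
  · exact Perm.ofSubtype_apply_coe _ (⟨x, hx⟩ : {x // x ∈ D})
  · exact Perm.ofSubtype_apply_of_not_mem _ hx

/-- even permutations supported on `D` are induced -/
def EvI (G : Subgroup (Perm α)) (D : Finset α) : Prop :=
  ∀ τ : Perm α, (∀ x, x ∉ D → τ x = x) → Perm.sign τ = 1 → ∃ g ∈ G, ∀ x ∈ D, g x = τ x

/-- only even permutations are induced on `D` -/
def OnlyEv (G : Subgroup (Perm α)) (D : Finset α) : Prop :=
  ∀ g ∈ G, ∀ τ : Perm α, (∀ x, x ∉ D → τ x = x) → (∀ x ∈ D, g x = τ x) → Perm.sign τ = 1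

theorem supp_mem {τ : Perm α} {D : Finset α} (h : ∀ x, x ∉ D → τ x = x) {x : α} (hx : x ∈ D) : τ x ∈ D := by
  by_contra h1
  have h2 := h _ h1
  have := τ.injective h2
  rw [this] at h1
  exact h1 hx

theorem EvI_of_A3 {G : Subgroup (Perm α)} {D : Finset α} (h : A3 G D) : EvI G D := by
  intro τ hτ hs
  have h1 : ∀ x, τ x ∈ D ↔ x ∈ D := mem_iff_of_mapsTo (fun x hx => supp_mem hτ hx)
  obtain ⟨g, hg, hgx⟩ := alt_of_A3 h (τ.subtypePerm h1) (by
    rw [Equiv.Perm.mem_alternatingGroup]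
    have h3 := Equiv.Perm.sign_subtypePerm τ h1 (fun x hx => by
      by_contra h2
      exact hx (hτ x h2))
    rw [hs] at h3
    convert h3)
  exact ⟨g, hg, fun x hx => hgx ⟨x, hx⟩⟩

theorem EvI.conj {G : Subgroup (Perm α)} {D : Finset α} (h : EvI G D) {g : Perm α} (hg : g ∈ G) :
    EvI G (D.map g.toEmbedding) := by
  intro τ hτ hs
  obtain ⟨u, hu, hux⟩ := h (g⁻¹ * τ * g) (fun x hx => by
    rw [Perm.mul_apply, Perm.mul_apply, hτ (g x) (fun h1 => hx (by
      obtain ⟨y, hy, hyx⟩ := Finset.mem_map.1 h1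
      exact g.injective hyx ▸ hy)), inv_ap]) (by
    rw [Perm.sign_mul, Perm.sign_mul, Perm.sign_inv, hs, mul_one, Int.units_mul_self])
  refine ⟨g * u * g⁻¹, G.mul_mem (G.mul_mem hg hu) (G.inv_mem hg), fun x hx => ?_⟩
  obtain ⟨y, hy, rfl⟩ := Finset.mem_map.1 hx
  change g (u (g⁻¹ (g y))) = τ (g y)
  rw [inv_ap, hux y hy, Perm.mul_apply, Perm.mul_apply, ap_inv]

theorem OnlyEv.conj {G : Subgroup (Perm α)} {D : Finset α} {g : Perm α} (hg : g ∈ G)
    (h : OnlyEv G (D.map g.toEmbedding)) : OnlyEv G D := by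
  intro u hu τ hτ hux
  have h1 := h (g * u * g⁻¹) (G.mul_mem (G.mul_mem hg hu) (G.inv_mem hg)) (g * τ * g⁻¹) (fun x hx => by
    rw [Perm.mul_apply, Perm.mul_apply, hτ (g⁻¹ x) (fun h1 => hx (by
      refine Finset.mem_map.2 ⟨g⁻¹ x, h1, ap_inv g x⟩)), ap_inv]) (fun x hx => by
    obtain ⟨y, hy, rfl⟩ := Finset.mem_map.1 hx
    change g (u (g⁻¹ (g y))) = g (τ (g⁻¹ (g y)))
    rw [inv_ap, hux y hy])
  rw [Perm.sign_mul, Perm.sign_mul, Perm.sign_inv, mul_comm, ← mul_assoc] at h1
  rw [Int.units_mul_self, one_mul] at h1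
  exact h1

theorem KT_of_hom {G : Subgroup (Perm α)} {k : ℕ} (hkn : k ≤ Fintype.card α) (hh : Hom G k)
    (hE : ∀ D : Finset α, D.card = k → EvI G D) {D0 : Finset α} (hD0 : D0.card = k) (hO : ¬ OnlyEv G D0) : KT G k := by
  -- all permutations supported on `D` are induced
  have hall : ∀ D : Finset α, D.card = k → ∀ τ : Perm α, (∀ x, x ∉ D → τ x = x) → ∃ g ∈ G, ∀ x ∈ D, g x = τ x := by
    intro D hD τ hτ
    obtain ⟨g, hg, hgD⟩ := hh D D0 hD hD0
    have hO' : ¬ OnlyEv G D := by
      intro h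
      apply hO
      obtain ⟨g', hg', hgD'⟩ := hh D0 D hD0 hD
      exact OnlyEv.conj hg' (by rw [hgD']; exact h)
    unfold OnlyEv at hO'
    push Not at hO'
    obtain ⟨u, hu, ρ, hρ, huρ, hs⟩ := hO'
    have hs' : Perm.sign ρ = -1 := (Int.units_eq_one_or _).resolve_left hs
    rcases Int.units_eq_one_or (Perm.sign τ) with h1 | h1
    · exact hE D hD τ hτ h1
    · obtain ⟨w, hw, hwx⟩ := hE D hD (τ * ρ⁻¹) (fun x hx => by
        have : ρ⁻¹ x = x := by rw [Perm.inv_eq_iff_eq, hρ x hx]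
        rw [Perm.mul_apply, this, hτ x hx]) (by rw [Perm.sign_mul, Perm.sign_inv, h1, hs']; rfl)
      refine ⟨w * u, G.mul_mem hw hu, fun x hx => ?_⟩
      rw [Perm.mul_apply, huρ x hx, hwx _ (supp_mem hρ hx), Perm.mul_apply, inv_ap]
  intro s hs τ
  obtain ⟨s1, hs1, hs1c⟩ := Finset.exists_superset_card_eq (s := s) (n := k) hs hkn
  obtain ⟨g, hg, hgs⟩ := hh s1 (s1.map τ.toEmbedding) hs1c (by rw [Finset.card_map, hs1c])
  obtain ⟨ρ, hρ1, hρ2⟩ := exists_restr (g := τ * g⁻¹) (D := s1.map τ.toEmbedding) (by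
    intro x hx
    rw [← hgs] at hx
    obtain ⟨y, hy, rfl⟩ := Finset.mem_map.1 hx
    change τ (g⁻¹ (g y)) ∈ _
    rw [inv_ap]
    exact Finset.mem_map_of_mem _ hy)
  obtain ⟨w, hw, hwx⟩ := hall (s1.map τ.toEmbedding) (by rw [Finset.card_map, hs1c]) ρ hρ2
  refine ⟨w * g, G.mul_mem hw hg, fun x hx => ?_⟩
  have h1 : g x ∈ s1.map τ.toEmbedding := by rw [← hgs]; exact Finset.mem_map_of_mem _ (hs1 hx)
  rw [Perm.mul_apply, hwx _ h1, hρ1 _ h1, Perm.mul_apply, inv_ap]

/-- `(k-1)`-transitive, `k`-homogeneous, alternating on `k`-sets -/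
structure LE (G : Subgroup (Perm α)) (k : ℕ) : Prop where
  kt : KT G (k - 1)
  hom : Hom G k
  ev : ∀ D : Finset α, D.card = k → EvI G D
  only : ∀ D : Finset α, D.card = k → OnlyEv G D

theorem LE.of {G : Subgroup (Perm α)} {k : ℕ} (hk : 5 ≤ k) (hkn : k ≤ Fintype.card α) (hkt : KT G (k - 1)) (hh : Hom G k)
    (hn : ¬ KT G k) : LE G k := by
  obtain ⟨D0, hD0, hA⟩ := main (Fintype.card α) α rfl G (k - 1) (by omega) (by omega) hkt
  have hD0' : D0.card = k := by omega
  have hev : ∀ D : Finset α, D.card = k → EvI G D := by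
    intro D hD
    obtain ⟨g, hg, hgD⟩ := hh D0 D hD0' hD
    rw [← hgD]
    exact (EvI_of_A3 hA).conj hg
  refine ⟨hkt, hh, hev, fun D hD => ?_⟩
  by_contra h
  exact hn (KT_of_hom hkn hh hev hD h)

theorem LE.inv {G : Subgroup (Perm α)} {k : ℕ} (H : LE G k) (hk : 2 ≤ k) {i : Perm α} (hi : i ∈ G) (hi2 : i * i = 1)
    (hi1 : i ≠ 1) : (fx i).card < k - 2 := by
  by_contra h
  push Not at h
  obtain ⟨Γ, hΓ, hΓc⟩ := Finset.exists_subset_card_eq h
  obtain ⟨x, hx⟩ : ∃ x, i x ≠ x := by
    by_contra hne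
    push Not at hne
    exact hi1 (Equiv.ext hne)
  have hΓf : ∀ y ∈ Γ, i y = y := fun y hy => mem_fx.1 (hΓ hy)
  have hxΓ : x ∉ Γ := fun h1 => hx (hΓf x h1)
  have hiΓ : i x ∉ Γ := fun h1 => hx (i.injective (hΓf _ h1))
  have hD : (insert x (insert (i x) Γ)).card = k := by
    rw [Finset.card_insert_of_notMem, Finset.card_insert_of_notMem hiΓ, hΓc]
    · omega
    · rw [Finset.mem_insert, not_or]; exact ⟨hx.symm, hxΓ⟩
  have h1 := H.only _ hD i hi (swap x (i x)) (fun y hy => by
    simp only [Finset.mem_insert, not_or] at hy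
    exact swap_apply_of_ne_of_ne hy.1 hy.2.1) (fun y hy => by
    rcases Finset.mem_insert.1 hy with h2 | h2
    · rw [h2, swap_apply_left]
    · rcases Finset.mem_insert.1 h2 with h3 | h3
      · rw [h3, swap_apply_right, mul_self_app hi2]
      · rw [hΓf y h3, swap_apply_of_ne_of_ne]
        · intro h4; exact hxΓ (h4 ▸ h3)
        · intro h4; exact hiΓ (h4 ▸ h3))
  rw [Perm.sign_swap hx.symm] at h1
  exact absurd h1 (by decide)

theorem LE.six {G : Subgroup (Perm α)} {k : ℕ} (H : LE G k) (hk : 6 ≤ k) (hkn : k ≤ Fintype.card α) :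
    Fintype.card α ≤ k + 1 := by
  classical
  have hinv : ∀ i ∈ G, i * i = 1 → i ≠ 1 → (fx i).card < k - 2 := fun i hi h2 h1 => H.inv (by omega) hi h2 h1
  obtain ⟨s, -, hs⟩ := Finset.exists_subset_card_eq (s := (Finset.univ : Finset α)) (n := k - 1)
    (by rw [Finset.card_univ]; omega)
  obtain ⟨a, ha, b, hb, hab⟩ := Finset.one_lt_card.1 (show 1 < s.card by omega)
  obtain ⟨t, ht, ht2, -, hts⟩ := lift_swap H.kt hs.le (oddO hinv (by omega)) ha hb G.one_mem (one_mul 1)
    (fun x hx => hx) (fun x _ => rfl)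
  have hta : t a = b := by rw [hts a ha, swap_apply_left]
  have htb : t b = a := by rw [hts b hb, swap_apply_right]
  have ht1 : t ≠ 1 := by rintro rfl; exact hab hta
  have h1 := hinv t ht ht2 ht1
  have h2 := fx_par ht2
  have h3 : (s.erase a).erase b ⊆ fx t := by
    intro x hx
    have hx1 := Finset.mem_erase.1 hx
    have hx2 := Finset.mem_erase.1 hx1.2
    rw [mem_fx, hts x hx2.2, swap_apply_of_ne_of_ne hx2.1 hx1.1]
  have h4 : ((s.erase a).erase b).card = k - 3 := by
    rw [Finset.card_erase_of_mem (Finset.mem_erase.2 ⟨hab.symm, hb⟩), Finset.card_erase_of_mem ha, hs]; omega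
  have h5 := Finset.card_le_card h3
  have h6 : (fx t).card = k - 3 := by omega
  by_contra hn
  have hn' : k + 3 ≤ Fintype.card α := by omega
  have hmv : ∀ S : Finset α, S.card < Fintype.card α → ∃ c, c ∉ S := by
    intro S hS
    by_contra h
    push Not at h
    rw [Finset.eq_univ_iff_forall.2 h, Finset.card_univ] at hS
    exact lt_irrefl _ hS
  obtain ⟨c, hc⟩ := hmv (insert a (insert b (fx t))) (by
    have := Finset.card_insert_le a (insert b (fx t))
    have := Finset.card_insert_le b (fx t)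
    omega)
  simp only [Finset.mem_insert, not_or, mem_fx] at hc
  obtain ⟨hca, hcb, hct⟩ := hc
  obtain ⟨d, hd⟩ : ∃ d, t c = d := ⟨_, rfl⟩
  have htd : t d = c := by rw [← hd, mul_self_app ht2]
  have hcd : c ≠ d := by rintro rfl; exact hct hd
  have hda : d ≠ a := by rintro rfl; exact hcb (htd.symm.trans hta)
  have hdb : d ≠ b := by rintro rfl; exact hca (htd.symm.trans htb)
  obtain ⟨e, he⟩ := hmv (insert c (insert d (insert a (insert b (fx t))))) (by
    have := Finset.card_insert_le a (insert b (fx t))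
    have := Finset.card_insert_le b (fx t)
    have := Finset.card_insert_le c (insert d (insert a (insert b (fx t))))
    have := Finset.card_insert_le d (insert a (insert b (fx t)))
    omega)
  simp only [Finset.mem_insert, not_or, mem_fx] at he
  obtain ⟨hec, hed, hea, heb, het⟩ := he
  obtain ⟨f, hf⟩ : ∃ f, t e = f := ⟨_, rfl⟩
  have htf : t f = e := by rw [← hf, mul_self_app ht2]
  have hef : e ≠ f := by rintro rfl; exact het hf
  have hfa : f ≠ a := by rintro rfl; exact heb (htf.symm.trans hta)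
  have hfb : f ≠ b := by rintro rfl; exact hea (htf.symm.trans htb)
  have hfc : f ≠ c := by rintro rfl; exact hed (htf.symm.trans hd)
  have hfd : f ≠ d := by rintro rfl; exact hec (htf.symm.trans htd)
  obtain ⟨F, hF, hFc⟩ := Finset.exists_subset_card_eq (s := fx t) (n := k - 6) (by omega)
  have hFt : ∀ x ∈ F, t x = x := fun x hx => mem_fx.1 (hF hx)
  have haF : a ∉ F := fun h => hab ((hFt a h).symm.trans hta)
  have hbF : b ∉ F := fun h => hab (htb.symm.trans (hFt b h))
  have hcF : c ∉ F := fun h => hcd ((hFt c h).symm.trans hd)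
  have hdF : d ∉ F := fun h => hcd (htd.symm.trans (hFt d h))
  have heF : e ∉ F := fun h => hef ((hFt e h).symm.trans hf)
  have hfF : f ∉ F := fun h => hef (htf.symm.trans (hFt f h))
  have hcfg : Cfg F c d e f := ⟨hcd, Ne.symm hec, hfc.symm, Ne.symm hed, hfd.symm, hef, hcF, hdF, heF, hfF⟩
  have hD : (insert a (insert b (St F c d e f))).card = k := by
    rw [Finset.card_insert_of_notMem, Finset.card_insert_of_notMem, hcfg.card, hFc]
    · omega
    · rw [mem_St]; rintro (h | h | h | h | h)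
      · exact hcb h.symm
      · exact hdb h.symm
      · exact heb h.symm
      · exact hfb h.symm
      · exact hbF h
    · rw [Finset.mem_insert, mem_St]; rintro (h | h | h | h | h | h)
      · exact hab h
      · exact hca h.symm
      · exact hda h.symm
      · exact hea h.symm
      · exact hfa h.symm
      · exact haF h
  have hτ : ∀ x, (swap c d * swap e f) x = if x = c then d else if x = d then c else if x = e then f else if x = f then e else x :=
    fun x => dt_app (Ne.symm hec) hfc.symm (Ne.symm hed) hfd.symm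
  have h7 := H.only _ hD t ht (swap a b * (swap c d * swap e f)) (fun x hx => by
    rw [Finset.mem_insert, Finset.mem_insert, mem_St] at hx
    rw [Perm.mul_apply, hτ, if_neg (by tauto), if_neg (by tauto), if_neg (by tauto), if_neg (by tauto),
      swap_apply_of_ne_of_ne (by tauto) (by tauto)]) (fun x hx => by
    rw [Finset.mem_insert, Finset.mem_insert, mem_St] at hx
    rw [Perm.mul_apply, hτ, swap_apply_def]
    rcases hx with rfl | rfl | rfl | rfl | rfl | rfl | hx
    · rw [hta]; grind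
    · rw [htb]; grind
    · rw [hd]; grind
    · rw [htd]; grind
    · rw [hf]; grind
    · rw [htf]; grind
    · rw [hFt x hx]; grind)
  rw [Perm.sign_mul, Perm.sign_mul, Perm.sign_swap hab, Perm.sign_swap hcd, Perm.sign_swap hef] at h7
  exact absurd h7 (by decide)

end Cfsg.Agent.Lib.H3LW
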