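import Mathlib
import Cfsg.Agent.Lib.H3LWH

set_option autoImplicit false

namespace Cfsg.Agent.Lib.H3LW

open Finset Equiv Cfsg.Agent.Lib.H3Homog

universe u
variable {α : Type u} [Fintype α] [DecidableEq α]

/-- the four-group -/
def four (v1 v2 : Perm α) (e1 : v1 * v1 = 1) (e2 : v2 * v2 = 1) (e12 : v1 * v2 = v2 * v1) : Subgroup (Perm α) where
  carrier := {x | x = 1 ∨ x = v1 ∨ x = v2 ∨ x = v1 * v2}
  one_mem' := Or.inl rfl
  mul_mem' := by
    have h1 : v1 * (v1 * v2) = v2 := by rw [← mul_assoc, e1, one_mul]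
    have h2 : (v1 * v2) * v1 = v2 := by rw [e12, mul_assoc, e1, mul_one]
    have h3 : v2 * (v1 * v2) = v1 := by rw [e12, ← mul_assoc, e2, one_mul]
    have h4 : (v1 * v2) * v2 = v1 := by rw [mul_assoc, e2, mul_one]
    have h5 : (v1 * v2) * (v1 * v2) = 1 := by rw [mul_assoc, h3, e1]
    rintro x y (rfl | rfl | rfl | rfl) (rfl | rfl | rfl | rfl)
    · left; rw [one_mul]
    · right; left; rw [one_mul]
    · right; right; left; rw [one_mul]
    · right; right; right; rw [one_mul]
    · right; left; rw [mul_one]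
    · left; exact e1
    · right; right; right; rfl
    · right; right; left; exact h1
    · right; right; left; rw [mul_one]
    · right; right; right; exact e12.symm
    · left; exact e2
    · right; left; exact h3
    · right; right; right; rw [mul_one]
    · right; right; left; exact h2
    · right; left; exact h4
    · left; exact h5
  inv_mem' := by
    have h3 : v2 * (v1 * v2) = v1 := by rw [e12, ← mul_assoc, e2, one_mul]
    have h5 : (v1 * v2) * (v1 * v2) = 1 := by rw [mul_assoc, h3, e1]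
    rintro x (rfl | rfl | rfl | rfl)
    · left; exact inv_one
    · right; left; exact inv_of_mul_self e1
    · right; right; left; exact inv_of_mul_self e2
    · right; right; right; exact inv_of_mul_self h5

theorem card_four {v1 v2 : Perm α} (e1 : v1 * v1 = 1) (e2 : v2 * v2 = 1) (e12 : v1 * v2 = v2 * v1) {a : α}
    (h1 : v1 a ≠ a) (h2 : v2 a ≠ a) (h3 : v1 a ≠ v2 a) (h4 : v1 (v2 a) ≠ a) : Nat.card (four v1 v2 e1 e2 e12) = 4 := by
  have hs : ((four v1 v2 e1 e2 e12 : Subgroup (Perm α)) : Set (Perm α)) =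
      (({1, v1, v2, v1 * v2} : Finset (Perm α)) : Set (Perm α)) := by
    ext x
    simp only [Finset.coe_insert, Finset.coe_singleton, Set.mem_insert_iff, Set.mem_singleton_iff]
    exact Iff.rfl
  change Set.ncard ((four v1 v2 e1 e2 e12 : Subgroup (Perm α)) : Set (Perm α)) = 4
  rw [hs, Set.ncard_coe_finset]
  have n1 : (1 : Perm α) ≠ v1 := by rintro rfl; exact h1 rfl
  have n2 : (1 : Perm α) ≠ v2 := by rintro rfl; exact h2 rfl
  have n3 : (1 : Perm α) ≠ v1 * v2 := by
    intro h; apply h4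
    have := congrArg (fun w : Perm α => w a) h
    exact this.symm
  have n4 : v1 ≠ v2 := by rintro rfl; exact h3 rfl
  have n5 : v1 ≠ v1 * v2 := by
    intro h
    exact n2 (mul_left_cancel ((mul_one v1).trans h))
  have n6 : v2 ≠ v1 * v2 := by
    intro h
    exact n1 (mul_right_cancel ((one_mul v2).trans h))
  rw [Finset.card_insert_of_notMem, Finset.card_insert_of_notMem, Finset.card_insert_of_notMem, Finset.card_singleton]
  · simp [n6]
  · simp [n4, n5]
  · simp [n1, n2, n3]

theorem LE.five {G : Subgroup (Perm α)} (H : LE G 5) : Fintype.card α ≤ 6 := by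
  classical
  by_contra hn
  push Not at hn
  have hinv : ∀ i ∈ G, i * i = 1 → i ≠ 1 → (fx i).card < 3 := fun i hi h2 h1 => H.inv (by omega) hi h2 h1
  have hkt : KT G 4 := H.kt
  obtain ⟨A', -, hA'⟩ := Finset.exists_subset_card_eq (s := (Finset.univ : Finset α)) (n := 4)
    (by rw [Finset.card_univ]; omega)
  obtain ⟨B, a, b, c, d, h, rfl, hB⟩ := exists_cfg A' (by omega)
  rw [hA'] at hB
  set A := St B a b c d with hA
  have hO : Odd (Nat.card (FxS G A)) := oddO hinv (by omega)
  obtain ⟨v1, hv1, hv12, hd1⟩ := lift_dt0 hkt h hB.le hO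
  obtain ⟨v2, hv2, hv22, hcomm, hd2⟩ := lift_dt1 hkt h hB.le hO hv1 hv12 hd1
  have haA : a ∈ A := mem_St.2 (by tauto)
  have hbA : b ∈ A := mem_St.2 (by tauto)
  obtain ⟨t, ht, ht2, -, htA⟩ := lift_swap hkt hA'.le hO haA hbA G.one_mem (one_mul 1) (fun x hx => hx) (fun x _ => rfl)
  have htAA : ∀ x ∈ A, t x ∈ A := by
    intro x hx
    rw [htA x hx, swap_apply_def]
    split_ifs
    · exact hbA
    · exact haA
    · exact hx
  have htnA : ∀ x, x ∉ A → t x ∉ A := fun x hx h1 => hx ((mem_iff_of_mapsTo htAA x).1 h1)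
  have hins : ∀ x, x ∉ A → (insert x A).card = 5 := fun x hx => by
    rw [Finset.card_insert_of_notMem hx, hA']
  -- claim 0
  have claim0 : ∀ g ∈ G, ∀ τ : Perm α, (∀ x, x ∉ A → τ x = x) → Perm.sign τ = 1 → (∀ x ∈ A, g x = τ x) →
      ∀ x, x ∉ A → ∃ u ∈ FxS G A, u x = g x := by
    intro g hg τ hτ hs hgτ x hx
    obtain ⟨g', hg', hg'x⟩ := H.ev (insert x A) (hins x hx) τ
      (fun z hz => hτ z (fun h1 => hz (Finset.mem_insert_of_mem h1))) hs
    have hgi : ∀ z w, g' z = w → g'⁻¹ w = z := by rintro z w rfl; exact inv_ap g' z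
    refine ⟨g * g'⁻¹, mem_FxS.2 ⟨G.mul_mem hg (G.inv_mem hg'), fun z hz => ?_⟩, ?_⟩
    · have hw : τ⁻¹ z ∈ A := (mem_iff_of_mapsTo (fun x hx => supp_mem hτ hx) (τ⁻¹ z)).1 (by rw [ap_inv]; exact hz)
      have h1 : g' (τ⁻¹ z) = z := by rw [hg'x _ (Finset.mem_insert_of_mem hw), ap_inv]
      rw [Perm.mul_apply, hgi _ _ h1, hgτ _ hw, ap_inv]
    · have h1 : g' x = x := by rw [hg'x _ (Finset.mem_insert_self _ _), hτ x hx]
      rw [Perm.mul_apply, hgi _ _ h1]
  -- double transpositions
  have claimDT : ∀ {v : Perm α} {a b c d : α}, Cfg B a b c d → St B a b c d = A → v ∈ G → DT v B a b c d →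
      ∀ x, x ∉ A → ∃ u ∈ FxS G A, u x = v x := by
    intro v a b c d h hSt hv hd
    apply claim0 v hv (swap a b * swap c d)
    · intro x hx
      rw [← hSt, mem_St] at hx
      rw [dt_app h.ac h.ad h.bc h.bd, if_neg (by tauto), if_neg (by tauto), if_neg (by tauto), if_neg (by tauto)]
    · rw [Perm.sign_mul, Perm.sign_swap h.ab, Perm.sign_swap h.cd]; rfl
    · intro x hx
      rw [← hSt, mem_St] at hx
      rw [dt_app h.ac h.ad h.bc h.bd]
      have := h.ab; have := h.ac; have := h.ad; have := h.bc; have := h.bd; have := h.cd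
      have := h.aB; have := h.bB; have := h.cB; have := h.dB
      rcases hx with rfl | rfl | rfl | rfl | hx
      · rw [hd.pa]; grind
      · rw [hd.pb]; grind
      · rw [hd.pc]; grind
      · rw [hd.pd]; grind
      · rw [hd.pB x hx]; grind
  -- claim 1
  have claim1 : ∀ x y, x ∉ A → y ∉ A → (∃ u ∈ FxS G A, u x = y) ∨ (∃ u ∈ FxS G A, u (t x) = y) := by
    intro x y hx hy
    obtain ⟨g, hg, hgD⟩ := H.hom (insert x A) (insert y A) (hins x hx) (hins y hy)
    have hgm : ∀ z ∈ insert x A, g z ∈ insert y A := fun z hz => by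
      rw [← hgD]; exact Finset.mem_map_of_mem _ hz
    obtain ⟨g1, hg1, hg1x, hg1A⟩ : ∃ g1 ∈ G, g1 x = y ∧ ∀ z ∈ A, g1 z ∈ A := by
      by_cases hz : g x = y
      · refine ⟨g, hg, hz, fun z hzA => ?_⟩
        rcases Finset.mem_insert.1 (hgm z (Finset.mem_insert_of_mem hzA)) with h1 | h1
        · exfalso
          rw [← hz] at h1
          exact hx (g.injective h1 ▸ hzA)
        · exact h1
      · have hzA : g x ∈ A := (Finset.mem_insert.1 (hgm x (Finset.mem_insert_self _ _))).resolve_left hz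
        obtain ⟨w, hw, hwz⟩ := Finset.exists_mem_ne (show 1 < A.card by omega) (g x)
        have hyw : y ≠ w := by rintro rfl; exact hy hw
        obtain ⟨g2, hg2, hg2x⟩ := H.ev (insert y A) (hins y hy) (swap (g x) y * swap y w) (fun z hz' => by
            rw [Finset.mem_insert, not_or] at hz'
            rw [cyc_app hz hwz.symm hyw, if_neg, if_neg hz'.1, if_neg]
            · rintro rfl; exact hz'.2 hw
            · rintro rfl; exact hz'.2 hzA)
          (by rw [Perm.sign_mul, Perm.sign_swap hz, Perm.sign_swap hyw]; rfl)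
        have hgx2 : (g2 * g) x = y := by
          rw [Perm.mul_apply, hg2x _ (Finset.mem_insert_of_mem hzA), cyc_app hz hwz.symm hyw, if_pos rfl]
        refine ⟨g2 * g, G.mul_mem hg2 hg, hgx2, fun u hu => ?_⟩
        have h1 : (g2 * g) u ∈ insert y A := by
          rw [Perm.mul_apply, hg2x _ (hgm u (Finset.mem_insert_of_mem hu)), cyc_app hz hwz.symm hyw]
          split_ifs
          · exact Finset.mem_insert_self _ _
          · exact Finset.mem_insert_of_mem hw
          · exact Finset.mem_insert_of_mem hzA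
          · exact hgm u (Finset.mem_insert_of_mem hu)
        rcases Finset.mem_insert.1 h1 with h2 | h2
        · exfalso
          rw [← hgx2] at h2
          exact hx ((g2 * g).injective h2 ▸ hu)
        · exact h2
    obtain ⟨ρ, hρ1, hρ2⟩ := exists_restr hg1A
    rcases Int.units_eq_one_or (Perm.sign ρ) with h1 | h1
    · left
      obtain ⟨u, hu, hux⟩ := claim0 g1 hg1 ρ hρ2 h1 (fun z hz => (hρ1 z hz).symm) x hx
      exact ⟨u, hu, hux.trans hg1x⟩
    · right
      obtain ⟨u, hu, hux⟩ := claim0 (t * g1) (G.mul_mem ht hg1) (swap a b * ρ) (fun z hz => by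
          rw [Perm.mul_apply, hρ2 z hz, swap_apply_of_ne_of_ne]
          · rintro rfl; exact hz haA
          · rintro rfl; exact hz hbA)
        (by rw [Perm.sign_mul, Perm.sign_swap h.ab, h1]; rfl)
        (fun z hz => by rw [Perm.mul_apply, Perm.mul_apply, htA _ (hg1A z hz), hρ1 z hz]) x hx
      rw [Perm.mul_apply, hg1x] at hux
      refine ⟨t * u * t⁻¹, mem_FxS.2 ⟨G.mul_mem (G.mul_mem ht hu.1) (G.inv_mem ht), fun z hz => ?_⟩, ?_⟩
      · rw [inv_of_mul_self ht2, Perm.mul_apply, Perm.mul_apply, hu.2 _ (htAA z hz), mul_self_app ht2]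
      · rw [Perm.mul_apply, Perm.mul_apply, inv_ap, hux, mul_self_app ht2]
  -- claim 2
  have claim2 : ∀ x, x ∉ A → ∀ u ∈ FxS G A, u x ≠ t x := by
    intro x hx u hu hux
    have hui : ∀ z w, u z = w → u⁻¹ w = z := by rintro z w rfl; exact inv_ap u z
    have h1 := H.only (insert x A) (hins x hx) (u⁻¹ * t) (G.mul_mem (G.inv_mem hu.1) ht) (swap a b) (fun z hz => by
        rw [Finset.mem_insert, not_or] at hz
        apply swap_apply_of_ne_of_ne
        · rintro rfl; exact hz.2 haA
        · rintro rfl; exact hz.2 hbA) (fun z hz => by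
        rcases Finset.mem_insert.1 hz with h1 | h1
        · rw [h1, Perm.mul_apply, ← hux, inv_ap, swap_apply_of_ne_of_ne]
          · rintro rfl; exact hx haA
          · rintro rfl; exact hx hbA
        · rw [Perm.mul_apply, hui (t z) (t z) (hu.2 _ (htAA z h1)), htA z h1])
    rw [Perm.sign_swap h.ab] at h1
    exact absurd h1 (by decide)
  -- orbits
  let K := FxS G A
  have hKA : ∀ u ∈ FxS G A, ∀ x, x ∉ A → u x ∉ A := by
    intro u hu x hx h1
    exact hx ((mem_iff_of_mapsTo (g := u) (D := A) (fun z hz => by rw [hu.2 z hz]; exact hz) x).1 h1)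
  let X : α → Finset α := fun x => Finset.univ.filter fun y => ∃ u ∈ FxS G A, u x = y
  have hX : ∀ x y, y ∈ X x ↔ ∃ u ∈ FxS G A, u x = y := fun x y => by simp [X]
  have hXodd : ∀ x, (X x).card % 2 = 1 := by
    intro x
    have h1 : (X x).card = Nat.card (MulAction.orbit (FxS G A) x) := by
      rw [← Set.ncard_coe_finset]
      change _ = Set.ncard _
      congr 1
      ext y
      rw [Finset.mem_coe, hX]
      constructor
      · rintro ⟨u, hu, rfl⟩; exact ⟨⟨u, hu⟩, rfl⟩
      · rintro ⟨u, rfl⟩; exact ⟨u, u.2, rfl⟩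
    have h2 := Cfsg.Agent.Lib.PermTwo.card_orbit_mul_card_stabilizer (K := FxS G A) x
    have h3 : (X x).card ∣ Nat.card (FxS G A) := by rw [h1]; exact Dvd.intro _ h2
    exact Nat.odd_iff.1 (Odd.of_dvd_nat hO h3)
  have hXA : ∀ x y, x ∉ A → y ∈ X x → y ∉ A := by
    intro x y hx hy
    obtain ⟨u, hu, rfl⟩ := (hX x y).1 hy
    exact hKA u hu x hx
  have hfixex : ∀ {v : Perm α}, v * v = 1 → (∀ x, x ∉ A → ∃ u ∈ FxS G A, u x = v x) → ∀ x, x ∉ A → ∃ y ∈ X x, v y = y := by
    intro v hv2 hv x hx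
    have h1 := par (X x) (fun y => v y) (fun y hy => by
      obtain ⟨u, hu, hux⟩ := (hX x y).1 hy
      obtain ⟨w, hw, hwy⟩ := hv y (hXA x y hx hy)
      exact (hX _ _).2 ⟨w * u, (FxS G A).mul_mem hw hu, by rw [Perm.mul_apply, hux, hwy]⟩) (fun y _ => mul_self_app hv2 y)
    rw [hXodd x] at h1
    obtain ⟨y, hy⟩ := Finset.card_pos.1 (show 0 < ((X x).filter (fun y => v y = y)).card by omega)
    exact ⟨y, (Finset.mem_filter.1 hy).1, (Finset.mem_filter.1 hy).2⟩
  have huniq : ∀ {v : Perm α}, v ∈ G → v ≠ 1 → v * v = 1 → (∀ x, x ∉ A → ∃ u ∈ FxS G A, u x = v x) → ∀ x, x ∉ A →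
      ∀ y ∈ X x, ∀ z ∈ X x, v y = y → v z = z → y = z := by
    intro v hv hv1 hv2 hvA x hx y hy z hz hvy hvz
    by_contra hyz
    obtain ⟨w, hw, hvw⟩ := hfixex hv2 hvA (t x) (htnA x hx)
    have hdis : ∀ y ∈ X x, y ≠ w := by
      rintro y hy rfl
      obtain ⟨u, hu, hux⟩ := (hX _ _).1 hy
      obtain ⟨u', hu', hux'⟩ := (hX _ _).1 hw
      apply claim2 x hx (u'⁻¹ * u) ((FxS G A).mul_mem ((FxS G A).inv_mem hu') hu)
      rw [Perm.mul_apply, hux, ← hux', inv_ap]
    have h1 : ({y, z, w} : Finset α) ⊆ fx v := by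
      intro q hq
      simp only [Finset.mem_insert, Finset.mem_singleton] at hq
      rcases hq with rfl | rfl | rfl
      · exact mem_fx.2 hvy
      · exact mem_fx.2 hvz
      · exact mem_fx.2 hvw
    have h2 : ({y, z, w} : Finset α).card = 3 := by
      rw [Finset.card_eq_three]
      exact ⟨y, z, w, hyz, hdis y hy, hdis z hz, rfl⟩
    have h3 := hinv v hv hv2 hv1
    have h4 := Finset.card_le_card h1
    omega
  -- the three involutions
  have hv1n : v1 ≠ 1 := by rintro rfl; exact h.ab hd1.pa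
  have hv2n : v2 ≠ 1 := by rintro rfl; exact h.ac hd2.pa
  have h32 : (v1 * v2) * (v1 * v2) = 1 := by
    calc v1 * v2 * (v1 * v2) = (v1 * v2) * (v2 * v1) := by rw [hcomm]
      _ = v1 * (v2 * v2) * v1 := by group
      _ = 1 := by rw [hv22, mul_one, hv12]
  have hd3 : DT (v1 * v2) B a d b c := by
    constructor
    · rw [Perm.mul_apply, hd2.pa, hd1.pc]
    · rw [Perm.mul_apply, hd2.pd, hd1.pb]
    · rw [Perm.mul_apply, hd2.pc, hd1.pd]
    · rw [Perm.mul_apply, hd2.pb, hd1.pa]
    · intro x hx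
      rw [Perm.mul_apply, hd2.pB x hx, hd1.pB x hx]
  have hc3 : Cfg B a d b c := ⟨h.ad, h.ab, h.ac, h.bd.symm, h.cd.symm, h.bc, h.aB, h.dB, h.bB, h.cB⟩
  have hv3n : v1 * v2 ≠ 1 := by
    intro h1
    have h2 := hd3.pa
    rw [h1] at h2
    exact h.ad h2
  have hSt3 : St B a d b c = A := by ext x; rw [hA, mem_St, mem_St]; tauto
  have hSt2 : St B a c b d = A := St_perm
  have p1 := claimDT h rfl hv1 hd1
  have p2 := claimDT h.perm hSt2 hv2 hd2
  have p3 := claimDT hc3 hSt3 (G.mul_mem hv1 hv2) hd3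
  -- `K` fixes everything outside `A`
  have hKfix : ∀ x, x ∉ A → ∀ u ∈ FxS G A, u x = x := by
    intro x hx
    obtain ⟨w, hw, hvw⟩ := hfixex hv12 p1 x hx
    have hXv2 : ∀ y ∈ X x, v2 y ∈ X x := by
      intro y hy
      obtain ⟨u, hu, hux⟩ := (hX x y).1 hy
      obtain ⟨q, hq, hqy⟩ := p2 y (hXA x y hx hy)
      exact (hX _ _).2 ⟨q * u, (FxS G A).mul_mem hq hu, by rw [Perm.mul_apply, hux, hqy]⟩
    have hv2w : v2 w = w := by
      apply huniq hv1 hv1n hv12 p1 x hx _ (hXv2 w hw) _ hw _ hvw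
      rw [← Perm.mul_apply, hcomm, Perm.mul_apply, hvw]
    have hv3w : (v1 * v2) w = w := by rw [Perm.mul_apply, hv2w, hvw]
    have hKX : ∀ u ∈ FxS G A, ∀ y ∈ X x, u y ∈ X x := by
      intro u hu y hy
      obtain ⟨q, hq, rfl⟩ := (hX x y).1 hy
      exact (hX _ _).2 ⟨u * q, (FxS G A).mul_mem hu hq, rfl⟩
    have hgen := Cfsg.Agent.Lib.CoprimeB.gen_of_elementary (E := four v1 v2 hv12 hv22 hcomm) (K := FxS G A) Nat.prime_two
      (card_four hv12 hv22 hcomm (a := a) (by rw [hd1.pa]; exact h.ab.symm) (by rw [hd2.pa]; exact h.ac.symm)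
        (by rw [hd1.pa, hd2.pa]; exact h.bc) (by rw [hd2.pa, hd1.pc]; exact h.ad.symm))
      (by
        rintro z (rfl | rfl | rfl | rfl)
        · exact one_pow 2
        · rw [sq]; exact hv12
        · rw [sq]; exact hv22
        · rw [sq]; exact h32)
      (by
        have hnorm : ∀ {v : Perm α}, v ∈ G → v * v = 1 → (∀ x ∈ A, v x ∈ A) → ∀ u, u ∈ FxS G A → v * u * v⁻¹ ∈ FxS G A := by
          intro v hv hv2 hvA u hu
          refine mem_FxS.2 ⟨G.mul_mem (G.mul_mem hv hu.1) (G.inv_mem hv), fun z hz => ?_⟩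
          rw [inv_of_mul_self hv2, Perm.mul_apply, Perm.mul_apply, hu.2 _ (hvA z hz), mul_self_app hv2]
        have hpres : ∀ {v : Perm α} {a b c d : α}, DT v B a b c d → ∀ x ∈ St B a b c d, v x ∈ St B a b c d := by
          intro v a b c d hd x hx
          rw [mem_St] at hx ⊢
          rcases hx with rfl | rfl | rfl | rfl | hx
          · rw [hd.pa]; tauto
          · rw [hd.pb]; tauto
          · rw [hd.pc]; tauto
          · rw [hd.pd]; tauto
          · rw [hd.pB x hx]; tauto
        have hq : ∀ {v : Perm α}, v ∈ G → v * v = 1 → (∀ x ∈ A, v x ∈ A) → v ∈ Subgroup.normalizer (FxS G A : Set (Perm α)) := by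
          intro v hv hv2 hvA
          rw [Subgroup.mem_normalizer_iff]
          intro u
          refine ⟨hnorm hv hv2 hvA u, fun hu => ?_⟩
          have h1 := hnorm hv hv2 hvA _ hu
          rw [inv_of_mul_self hv2] at h1
          have h2 : v * (v * u * v) * v = u := by
            calc v * (v * u * v) * v = (v * v) * u * (v * v) := by group
              _ = u := by rw [hv2]; group
          rwa [h2] at h1
        rintro z (rfl | rfl | rfl | rfl)
        · exact Subgroup.one_mem _
        · exact hq hv1 hv12 (hpres hd1)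
        · exact hq hv2 hv22 (by rw [← hSt2]; exact hpres hd2)
        · exact hq (G.mul_mem hv1 hv2) h32 (by rw [← hSt3]; exact hpres hd3))
      (Nat.Coprime.symm ((Nat.Prime.coprime_iff_not_dvd Nat.prime_two).2 (fun h1 => by
        have := Nat.odd_iff.1 hO
        omega)))
    have hfixw : ∀ u ∈ FxS G A, u w = w := by
      intro u hu
      rw [← hgen] at hu
      have hle : Cfsg.Agent.Lib.CoprimeB.genCent (four v1 v2 hv12 hv22 hcomm) (FxS G A) ≤ MulAction.stabilizer (Perm α) w := by
        rw [Cfsg.Agent.Lib.CoprimeB.genCent, Subgroup.closure_le]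
        rintro g ⟨hg, e, he, he1, heg⟩
        rw [SetLike.mem_coe, MulAction.mem_stabilizer_iff]
        change g w = w
        have hcom : e w = w → e (g w) = g w := by
          intro hew
          rw [← Perm.mul_apply, heg, Perm.mul_apply, hew]
        rcases he with rfl | rfl | rfl | rfl
        · exact absurd rfl he1
        · exact huniq hv1 hv1n hv12 p1 x hx _ (hKX g hg w hw) _ hw (hcom hvw) hvw
        · exact huniq hv2 hv2n hv22 p2 x hx _ (hKX g hg w hw) _ hw (hcom hv2w) hv2w
        · exact huniq (G.mul_mem hv1 hv2) hv3n h32 p3 x hx _ (hKX g hg w hw) _ hw (hcom hv3w) hv3w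
      exact hle hu
    have hwx : w = x := by
      obtain ⟨u, hu, hux⟩ := (hX x w).1 hw
      have h1 := hfixw _ ((FxS G A).inv_mem hu)
      rw [← hux, inv_ap] at h1
      rw [← hux]; exact h1.symm
    rw [hwx] at hfixw
    exact hfixw
  -- conclusion
  obtain ⟨x, hx⟩ : ∃ x, x ∉ A := by
    by_contra hne
    push Not at hne
    have := Finset.eq_univ_iff_forall.2 hne
    rw [this, Finset.card_univ] at hA'
    omega
  have hcov : (Finset.univ : Finset α) ⊆ insert x (insert (t x) A) := by
    intro y _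
    by_cases hy : y ∈ A
    · exact Finset.mem_insert_of_mem (Finset.mem_insert_of_mem hy)
    · rcases claim1 x y hx hy with ⟨u, hu, hux⟩ | ⟨u, hu, hux⟩
      · rw [hKfix x hx u hu] at hux
        rw [← hux]; exact Finset.mem_insert_self _ _
      · rw [hKfix (t x) (htnA x hx) u hu] at hux
        rw [← hux]; exact Finset.mem_insert_of_mem (Finset.mem_insert_self _ _)
  have h1 := Finset.card_le_card hcov
  rw [Finset.card_univ] at h1
  have h2 := Finset.card_insert_le x (insert (t x) A)
  have h3 := Finset.card_insert_le (t x) A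
  omega

end Cfsg.Agent.Lib.H3LW
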