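import Mathlib
import Cfsg.Agent.Lib.H3LWI
import Cfsg.Agent.S0744
import Cfsg.Agent.S0735

set_option autoImplicit false

namespace Cfsg.Agent.Lib.H3LW

open Finset Equiv Cfsg.Agent.Lib.H3Homog

universe u
variable {α : Type u} [Fintype α] [DecidableEq α]

def SetS (G : Subgroup (Perm α)) (s : Finset α) : Subgroup (Perm α) where
  carrier := {g | g ∈ G ∧ ∀ x ∈ s, g x ∈ s}
  mul_mem' := by
    rintro g h ⟨hg, hg1⟩ ⟨hh, hh1⟩
    exact ⟨G.mul_mem hg hh, fun a ha => hg1 _ (hh1 a ha)⟩
  one_mem' := ⟨G.one_mem, fun _ h => h⟩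
  inv_mem' := by
    rintro g ⟨hg, hg1⟩
    refine ⟨G.inv_mem hg, fun a ha => ?_⟩
    rw [← mem_iff_of_mapsTo hg1, ap_inv]
    exact ha

theorem mem_SetS {G : Subgroup (Perm α)} {s : Finset α} {g : Perm α} :
    g ∈ SetS G s ↔ g ∈ G ∧ ∀ x ∈ s, g x ∈ s := Iff.rfl

theorem map_eq_iff {g : Perm α} {s : Finset α} : s.map g.toEmbedding = s ↔ ∀ x ∈ s, g x ∈ s := by
  constructor
  · intro h x hx
    rw [← h]
    exact Finset.mem_map_of_mem _ hx
  · intro h
    apply Finset.eq_of_subset_of_card_le
    · intro y hy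
      obtain ⟨x, hx, rfl⟩ := Finset.mem_map.1 hy
      exact h x hx
    · rw [Finset.card_map]

theorem card_SetS {G : Subgroup (Perm α)} {j : ℕ} (hh : Hom G j) {s : Finset α} (hs : s.card = j) :
    Nat.card G = (Fintype.card α).choose j * Nat.card (SetS G s) := by
  haveI := (hom_iff G j).1 hh
  let x : Set.powersetCard α j := ⟨s, hs⟩
  have h1 := MulAction.index_stabilizer_of_transitive G x
  have h2 := Subgroup.index_mul_card (MulAction.stabilizer G x)
  rw [h1, Set.powersetCard.card, Nat.card_eq_fintype_card (α := α)] at h2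
  have hmem : ∀ g : G, g ∈ MulAction.stabilizer G x ↔ ∀ y ∈ s, (g : Perm α) y ∈ s := by
    intro g
    rw [MulAction.mem_stabilizer_iff, ← map_eq_iff]
    have h3 : ((g • x : Set.powersetCard α j) : Finset α) = s.map (g : Perm α).toEmbedding := by
      change s.image (fun a => g • a) = _
      ext a
      rw [Finset.mem_map, Finset.mem_image]
      rfl
    constructor
    · intro h
      rw [← h3, h]
    · intro h
      apply Subtype.ext
      rw [h3, h]
  have h3 : Nat.card (MulAction.stabilizer G x) = Nat.card (SetS G s) := by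
    apply Nat.card_congr
    exact
      { toFun := fun g => ⟨(g : G), g.1.2, (hmem g.1).1 g.2⟩
        invFun := fun g => ⟨⟨g, g.2.1⟩, (hmem _).2 g.2.2⟩
        left_inv := fun g => rfl
        right_inv := fun g => rfl }
  rw [← h2, h3]

theorem card_FxS_eq {G : Subgroup (Perm α)} {j : ℕ} (hkt : KT G j) {s : Finset α} (hs : s.card = j) :
    Nat.card G = (Fintype.card α).descFactorial j * Nat.card (FxS G s) := by
  haveI := multi_of_KT hkt
  let x : Fin j ↪ α := (s.equivFinOfCardEq hs).symm.toEmbedding.trans (Function.Embedding.subtype _)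
  have hx : ∀ i, x i ∈ s := fun i => ((s.equivFinOfCardEq hs).symm i).2
  have hx2 : ∀ y ∈ s, ∃ i, x i = y := by
    intro y hy
    refine ⟨s.equivFinOfCardEq hs ⟨y, hy⟩, ?_⟩
    change (((s.equivFinOfCardEq hs).symm (s.equivFinOfCardEq hs ⟨y, hy⟩) : s) : α) = y
    rw [Equiv.symm_apply_apply]
  have hpre : MulAction.IsMultiplyPretransitive G α j := multi_of_KT hkt
  have h1 : (MulAction.stabilizer G x).index = Nat.card (Fin j ↪ α) :=
    @MulAction.index_stabilizer_of_transitive G (Fin j ↪ α) _ _ x hpre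
  have h2 := Subgroup.index_mul_card (MulAction.stabilizer G x)
  rw [h1, Nat.card_eq_fintype_card (α := Fin j ↪ α), Fintype.card_embedding_eq, Fintype.card_fin] at h2
  have hmem : ∀ g : G, g ∈ MulAction.stabilizer G x ↔ ∀ y ∈ s, (g : Perm α) y = y := by
    intro g
    rw [MulAction.mem_stabilizer_iff]
    constructor
    · intro h y hy
      obtain ⟨i, rfl⟩ := hx2 y hy
      exact congrArg (fun w : Fin j ↪ α => w i) h
    · intro h
      ext i
      exact h _ (hx i)
  have h3 : Nat.card (MulAction.stabilizer G x) = Nat.card (FxS G s) := by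
    apply Nat.card_congr
    exact
      { toFun := fun g => ⟨(g : G), g.1.2, (hmem g.1).1 g.2⟩
        invFun := fun g => ⟨⟨g, g.2.1⟩, (hmem _).2 g.2.2⟩
        left_inv := fun g => rfl
        right_inv := fun g => rfl }
  rw [← h2, h3]

/-- restriction to an invariant set -/
def psi (G : Subgroup (Perm α)) (s : Finset α) : SetS G s →* Perm s where
  toFun g := (g : Perm α).subtypePerm (p := fun x => x ∈ s) (mem_iff_of_mapsTo g.2.2)
  map_one' := by ext x; rfl
  map_mul' g h := by ext x; rfl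

theorem psi_apply {G : Subgroup (Perm α)} {s : Finset α} (g : SetS G s) (x : s) : ((psi G s g) x : α) = (g : Perm α) x := rfl

theorem psi_inj {G : Subgroup (Perm α)} {s : Finset α} (h : ∀ g ∈ G, (∀ x ∈ s, g x = x) → g = 1) :
    Function.Injective (psi G s) := by
  rw [injective_iff_map_eq_one]
  intro g hg
  apply Subtype.ext
  apply h g g.2.1
  intro x hx
  have := psi_apply g ⟨x, hx⟩
  rw [hg] at this
  exact this.symm

theorem card_SetS_dvd {G : Subgroup (Perm α)} {s : Finset α} (h : ∀ g ∈ G, (∀ x ∈ s, g x = x) → g = 1) :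
    Nat.card (SetS G s) ∣ s.card.factorial := by
  have := Subgroup.card_dvd_of_injective _ (psi_inj h)
  rwa [Nat.card_eq_fintype_card (α := Perm s), Fintype.card_perm, Fintype.card_coe] at this

theorem KT_of_card {G : Subgroup (Perm α)} {j : ℕ} (hj : 2 ≤ j) (hjn : j ≤ Fintype.card α) (hh : Hom G j) {s : Finset α}
    (hs : s.card = j) (h : ∀ g ∈ G, (∀ x ∈ s, g x = x) → g = 1) (hc : Nat.card (SetS G s) = j.factorial) : KT G j := by
  have hb : Function.Surjective (psi G s) := by
    have := (Nat.bijective_iff_injective_and_card (psi G s)).2 ⟨psi_inj h, by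
      rw [hc, Nat.card_eq_fintype_card (α := Perm s), Fintype.card_perm, Fintype.card_coe, hs]⟩
    exact this.2
  have hall : ∀ τ : Perm α, (∀ x, x ∉ s → τ x = x) → ∃ g ∈ G, ∀ x ∈ s, g x = τ x := by
    intro τ hτ
    obtain ⟨g, hg⟩ := hb (τ.subtypePerm (p := fun x => x ∈ s) (mem_iff_of_mapsTo (fun x hx => supp_mem hτ hx)))
    refine ⟨g, g.2.1, fun x hx => ?_⟩
    have := psi_apply g ⟨x, hx⟩
    rw [hg] at this
    exact this.symm
  have hE : EvI G s := fun τ hτ _ => hall τ hτ
  obtain ⟨a, ha, b, hb', hab⟩ := Finset.one_lt_card.1 (show 1 < s.card by omega)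
  refine KT_of_hom hjn hh (fun D hD => ?_) hs ?_
  · obtain ⟨g, hg, hgD⟩ := hh s D hs hD
    rw [← hgD]
    exact hE.conj hg
  · intro hO
    have hsw : ∀ x, x ∉ s → swap a b x = x := by
      intro x hx
      apply swap_apply_of_ne_of_ne
      · rintro rfl; exact hx ha
      · rintro rfl; exact hx hb'
    obtain ⟨g, hg, hgx⟩ := hall (swap a b) hsw
    have := hO g hg (swap a b) hsw hgx
    rw [Perm.sign_swap hab] at this
    exact absurd this (by decide)

theorem hom_card_FxS {G : Subgroup (Perm α)} {j : ℕ} (hh : Hom G j) {s t : Finset α} (hs : s.card = j) (ht : t.card = j) :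
    Nat.card (FxS G s) = Nat.card (FxS G t) := by
  obtain ⟨g, hg, hgs⟩ := hh s t hs ht
  obtain ⟨g', hg', hgs'⟩ := hh t s ht hs
  apply le_antisymm
  · have := card_FxS_le (G := G) (s := s) hg
    rwa [hgs] at this
  · have := card_FxS_le (G := G) (s := t) hg'
    rwa [hgs'] at this

/-- pointwise stabilizers of `(k-1)`-sets are trivial -/
theorem fix_triv {G : Subgroup (Perm α)} {k : ℕ} (hk : 2 ≤ k) (hkn : k ≤ Fintype.card α) (hh1 : Hom G (k - 1)) (hh : Hom G k)
    (hn : ¬ KT G (k - 1)) {s : Finset α} (hs : s.card = k - 1) : ∀ g ∈ G, (∀ x ∈ s, g x = x) → g = 1 := by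
  classical
  by_contra hcon
  push Not at hcon
  obtain ⟨g, hg, hgs, hg1⟩ := hcon
  apply hn
  obtain ⟨s', -, hs'⟩ := Finset.exists_subset_card_eq (s := (Finset.univ : Finset α)) (n := k)
    (by rw [Finset.card_univ]; exact hkn)
  have hfs : ∀ s : Finset α, Nat.card (fixingSubgroup G (s : Set α)) = Nat.card (FxS G s) := by
    intro s
    apply Nat.card_congr
    exact
      { toFun := fun g => ⟨(g : G), g.1.2, fun x hx => (mem_fixingSubgroup_iff G).1 g.2 x hx⟩
        invFun := fun g => ⟨⟨g, g.2.1⟩, (mem_fixingSubgroup_iff G).2 (fun x hx => g.2.2 x hx)⟩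
        left_inv := fun g => rfl
        right_inv := fun g => rfl }
  apply KT_of_multi (h := Cfsg.Agent.S0744.result G (k := k) (by omega) hkn (Nat.card (FxS G s)) (Nat.card (FxS G s')) _
    (fun t ht => by rw [hfs, hom_card_FxS hh1 ht hs]) (fun t ht => by rw [hfs, hom_card_FxS hh ht hs'])) (by omega)
  rw [Finite.one_lt_card_iff_nontrivial]
  exact ⟨⟨1, (FxS G s).one_mem⟩, ⟨g, hg, hgs⟩, fun h => hg1 (congrArg Subtype.val h).symm⟩

end Cfsg.Agent.Lib.H3LW
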