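import Mathlib
import Cfsg.Agent.Lib.H3LWJ

set_option autoImplicit false

namespace Cfsg.Agent.Lib.H3LW

open Finset Equiv Cfsg.Agent.Lib.H3Homog

universe u
variable {α : Type u} [Fintype α] [DecidableEq α]

theorem inv_exists {K : Subgroup (Perm α)} (h : 2 ∣ Nat.card K) : ∃ i ∈ K, i * i = 1 ∧ i ≠ 1 := by
  haveI : Fact (Nat.Prime 2) := ⟨Nat.prime_two⟩
  obtain ⟨g, hg⟩ := exists_prime_orderOf_dvd_card' (G := K) 2 h
  have h1 : (g : Perm α) * (g : Perm α) = 1 := by
    have h2 : g ^ 2 = 1 := by rw [← hg]; exact pow_orderOf_eq_one g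
    rw [sq] at h2
    have := congrArg Subtype.val h2
    simpa using this
  have h2 : (g : Perm α) ≠ 1 := by
    intro h
    have : g = 1 := Subtype.ext h
    rw [this, orderOf_one] at hg
    exact absurd hg (by decide)
  exact ⟨g, g.2, h1, h2⟩

theorem ord_exists {K : Subgroup (Perm α)} {p : ℕ} (hp : p.Prime) (h : p ∣ Nat.card K) : ∃ i ∈ K, orderOf i = p := by
  haveI : Fact p.Prime := ⟨hp⟩
  obtain ⟨g, hg⟩ := exists_prime_orderOf_dvd_card' (G := K) p h
  exact ⟨g, g.2, by rw [Subgroup.orderOf_coe]; exact hg⟩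

theorem ord_dvd {K : Subgroup (Perm α)} {g : Perm α} (hg : g ∈ K) : orderOf g ∣ Nat.card K :=
  Subgroup.orderOf_dvd_natCard K hg

theorem ord2 {i : Perm α} (h : i * i = 1) (h1 : i ≠ 1) : orderOf i = 2 :=
  orderOf_eq_prime (by rw [sq]; exact h) h1

theorem exists_moved {i : Perm α} (h1 : i ≠ 1) : ∃ x, i x ≠ x := by
  by_contra hne
  push Not at hne
  exact h1 (Equiv.ext hne)

theorem three_cyc {g : Perm α} (h : orderOf g = 3) {x : α} (hx : g x ≠ x) :
    g (g (g x)) = x ∧ g (g x) ≠ x ∧ g (g x) ≠ g x := by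
  have h3 : g (g (g x)) = x := by
    have : g ^ 3 = 1 := by rw [← h]; exact pow_orderOf_eq_one g
    have := congrArg (fun w : Perm α => w x) this
    exact this
  refine ⟨h3, fun h4 => ?_, fun h4 => hx (g.injective h4)⟩
  rw [h4] at h3
  exact hx h3

section
variable {G : Subgroup (Perm α)} {k : ℕ}

theorem eqA (hk : 2 ≤ k) (hkn : k ≤ Fintype.card α) (hkt : KT G (k - 2)) (hh1 : Hom G (k - 1)) {r s : Finset α}
    (hr : r.card = k - 2) (hs : s.card = k - 1) :
    (k - 1).factorial * Nat.card (FxS G r) = (Fintype.card α - (k - 2)) * Nat.card (SetS G s) := by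
  have h1 := card_FxS_eq hkt hr
  have h2 := card_SetS hh1 hs
  have h3 := Nat.descFactorial_eq_factorial_mul_choose (Fintype.card α) (k - 1)
  have h4 : (Fintype.card α).descFactorial (k - 1) = (Fintype.card α - (k - 2)) * (Fintype.card α).descFactorial (k - 2) := by
    have := Nat.descFactorial_succ (Fintype.card α) (k - 2)
    rwa [show k - 2 + 1 = k - 1 by omega] at this
  have h5 : 0 < (Fintype.card α).descFactorial (k - 2) := Nat.descFactorial_pos.2 (by omega)
  apply Nat.eq_of_mul_eq_mul_left h5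
  calc (Fintype.card α).descFactorial (k - 2) * ((k - 1).factorial * Nat.card (FxS G r))
      = (k - 1).factorial * ((Fintype.card α).descFactorial (k - 2) * Nat.card (FxS G r)) := by ring
    _ = (k - 1).factorial * Nat.card G := by rw [← h1]
    _ = ((k - 1).factorial * (Fintype.card α).choose (k - 1)) * Nat.card (SetS G s) := by rw [h2]; ring
    _ = _ := by rw [← h3, h4]; ring

theorem eqB (hk : 1 ≤ k) (hkn : k ≤ Fintype.card α) (hh1 : Hom G (k - 1)) (hh : Hom G k) {r s : Finset α}
    (hr : r.card = k - 1) (hs : s.card = k) :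
    k * Nat.card (SetS G r) = (Fintype.card α - (k - 1)) * Nat.card (SetS G s) := by
  have h1 := card_SetS hh1 hr
  have h2 := card_SetS hh hs
  have h3 := Nat.choose_succ_right_eq (Fintype.card α) (k - 1)
  rw [show k - 1 + 1 = k by omega] at h3
  have h5 : 0 < (Fintype.card α).choose (k - 1) := Nat.choose_pos (by omega)
  apply Nat.eq_of_mul_eq_mul_left h5
  calc (Fintype.card α).choose (k - 1) * (k * Nat.card (SetS G r))
      = k * ((Fintype.card α).choose (k - 1) * Nat.card (SetS G r)) := by ring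
    _ = k * ((Fintype.card α).choose k * Nat.card (SetS G s)) := by rw [← h1, h2]
    _ = ((Fintype.card α).choose k * k) * Nat.card (SetS G s) := by ring
    _ = _ := by rw [h3]; ring

theorem eq_alt (hk : 2 ≤ Fintype.card α) (hkt : KT G (Fintype.card α - 2)) (hn : ¬ KT G (Fintype.card α - 1)) :
    G = alternatingGroup α := by
  have h1 : alternatingGroup α ≤ G := by
    apply IsMultiplyPretransitive.alternatingGroup_le
    rw [Nat.card_eq_fintype_card]
    exact multi_of_KT hkt
  have h2 : G ≠ ⊤ := by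
    rintro rfl
    exact hn (fun s _ τ => ⟨τ, Subgroup.mem_top _, fun _ _ => rfl⟩)
  haveI : Nontrivial α := Fintype.one_lt_card_iff_nontrivial.1 (by omega)
  have h3 : (alternatingGroup α).index = 2 := alternatingGroup.index_eq_two
  have h4 := Subgroup.relIndex_mul_index h1
  rw [h3] at h4
  have h5 : G.index ≠ 1 := by rwa [Ne, Subgroup.index_eq_one]
  have h6 : G.index ∣ 2 := Dvd.intro_left _ h4
  have h7 : G.index = 2 := by
    rcases (Nat.dvd_prime Nat.prime_two).1 h6 with h | h
    · exact absurd h h5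
    · exact h
  exact Equiv.Perm.eq_alternatingGroup_of_index_eq_two h7

end

/-- exclusion when elements of order three cannot stabilise a small set -/
theorem excl3 {G : Subgroup (Perm α)} {g : Perm α} (hg : g ∈ G) (h3 : orderOf g = 3) {R : Finset α} (hR : ∀ x ∈ R, g x = x)
    {h : ℕ} (hc : ∀ s : Finset α, s.card = R.card + 3 → Nat.card (SetS G s) = h) : 3 ∣ h := by
  have hg1 : g ≠ 1 := by rintro rfl; rw [orderOf_one] at h3; exact absurd h3 (by decide)
  obtain ⟨x, hx⟩ := exists_moved hg1
  obtain ⟨e3, e1, e2⟩ := three_cyc h3 hx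
  have n1 : x ∉ R := fun h => hx (hR x h)
  have n2 : g x ∉ R := fun h => hx (g.injective (hR _ h))
  have n3 : g (g x) ∉ R := fun h => hx (g.injective (g.injective (hR _ h)))
  have hcard : (insert x (insert (g x) (insert (g (g x)) R))).card = R.card + 3 := by
    rw [Finset.card_insert_of_notMem, Finset.card_insert_of_notMem, Finset.card_insert_of_notMem n3]
    · rw [Finset.mem_insert, not_or]; exact ⟨e2.symm, n2⟩
    · rw [Finset.mem_insert, Finset.mem_insert, not_or, not_or]; exact ⟨hx.symm, e1.symm, n1⟩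
  rw [← hc _ hcard, ← h3]
  apply ord_dvd
  refine mem_SetS.2 ⟨hg, fun y hy => ?_⟩
  simp only [Finset.mem_insert] at hy ⊢
  rcases hy with rfl | rfl | rfl | hy
  · tauto
  · tauto
  · rw [e3]; tauto
  · rw [hR y hy]; tauto

theorem excl2 {G : Subgroup (Perm α)} {i : Perm α} (hi : i ∈ G) (hi2 : i * i = 1) (hi1 : i ≠ 1) {R : Finset α}
    (hR : ∀ x ∈ R, i x = x) {h : ℕ} (hc : ∀ s : Finset α, s.card = R.card + 2 → Nat.card (SetS G s) = h) : 2 ∣ h := by
  obtain ⟨x, hx⟩ := exists_moved hi1
  have n1 : x ∉ R := fun h => hx (hR x h)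
  have n2 : i x ∉ R := fun h => hx (i.injective (hR _ h))
  have hcard : (insert x (insert (i x) R)).card = R.card + 2 := by
    rw [Finset.card_insert_of_notMem, Finset.card_insert_of_notMem n2]
    rw [Finset.mem_insert, not_or]; exact ⟨hx.symm, n1⟩
  rw [← hc _ hcard, ← ord2 hi2 hi1]
  apply ord_dvd
  refine mem_SetS.2 ⟨hi, fun y hy => ?_⟩
  simp only [Finset.mem_insert] at hy ⊢
  rcases hy with rfl | rfl | hy
  · tauto
  · rw [mul_self_app hi2]; tauto
  · rw [hR y hy]; tauto

/-- exclusion for `h = 12` -/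
theorem excl12 {G : Subgroup (Perm α)} {i : Perm α} (hi : i ∈ G) (hi2 : i * i = 1) (hi1 : i ≠ 1) {R : Finset α}
    (hR : ∀ x ∈ R, i x = x) (hR2 : R.card = 2) (hfix : ∀ s : Finset α, s.card = 4 → ∀ g ∈ G, (∀ x ∈ s, g x = x) → g = 1)
    (hc : ∀ s : Finset α, s.card = 4 → Nat.card (SetS G s) = 12) : False := by
  obtain ⟨x, hx⟩ := exists_moved hi1
  have n1 : x ∉ R := fun h => hx (hR x h)
  have n2 : i x ∉ R := fun h => hx (i.injective (hR _ h))
  set D : Finset α := insert x (insert (i x) R) with hD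
  have hcard : D.card = 4 := by
    rw [hD, Finset.card_insert_of_notMem, Finset.card_insert_of_notMem n2, hR2]
    rw [Finset.mem_insert, not_or]; exact ⟨hx.symm, n1⟩
  have hiD : i ∈ SetS G D := by
    refine mem_SetS.2 ⟨hi, fun y hy => ?_⟩
    simp only [hD, Finset.mem_insert] at hy ⊢
    rcases hy with rfl | rfl | hy
    · tauto
    · rw [mul_self_app hi2]; tauto
    · rw [hR y hy]; tauto
  have hinj := psi_inj (hfix D hcard)
  have h1 : Nat.card (psi G D).range = 12 := by
    rw [← hc D hcard]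
    exact (Nat.card_congr (MonoidHom.ofInjective hinj).toEquiv).symm
  have h2 : (psi G D).range.index = 2 := by
    have h3 := Subgroup.index_mul_card (psi G D).range
    rw [h1, Nat.card_eq_fintype_card (α := Perm D), Fintype.card_perm, Fintype.card_coe, hcard] at h3
    have : (4 : ℕ).factorial = 24 := rfl
    omega
  have h3 := Equiv.Perm.eq_alternatingGroup_of_index_eq_two h2
  have h4 : psi G D ⟨i, hiD⟩ ∈ alternatingGroup D := by rw [← h3]; exact ⟨_, rfl⟩
  have hxD : x ∈ D := Finset.mem_insert_self _ _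
  have hixD : i x ∈ D := Finset.mem_insert_of_mem (Finset.mem_insert_self _ _)
  have h5 : psi G D ⟨i, hiD⟩ = swap (⟨x, hxD⟩ : D) ⟨i x, hixD⟩ := by
    ext ⟨y, hy⟩
    rw [psi_apply, swap_apply_def]
    simp only [hD, Finset.mem_insert] at hy
    split_ifs with h6 h7
    · have h8 : y = x := congrArg Subtype.val h6
      change i y = i x
      rw [h8]
    · have h8 : y = i x := congrArg Subtype.val h7
      change i y = x
      rw [h8]
      exact mul_self_app hi2 x
    · rcases hy with rfl | rfl | hy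
      · exact absurd rfl h6
      · exact absurd rfl h7
      · exact hR y hy
  rw [h5, Equiv.Perm.mem_alternatingGroup, Perm.sign_swap (fun h => hx (congrArg Subtype.val h).symm)] at h4
  exact absurd h4 (by decide)

/-- exclusion for `h = 6` -/
theorem excl6 {G : Subgroup (Perm α)} {i : Perm α} (hi : i ∈ G) (hi2 : i * i = 1) (hi1 : i ≠ 1)
    (hn : (fx i).card + 3 ≤ Fintype.card α)
    (hfix : ∀ s : Finset α, s.card = 4 → ∀ g ∈ G, (∀ x ∈ s, g x = x) → g = 1)
    (hc : ∀ s : Finset α, s.card = 4 → Nat.card (SetS G s) = 6) : False := by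
  classical
  obtain ⟨x, hx⟩ := exists_moved hi1
  obtain ⟨y, hy⟩ : ∃ y, y ∉ insert x (insert (i x) (fx i)) := by
    by_contra h
    push Not at h
    have h1 := Finset.eq_univ_iff_forall.2 h
    have h2 := Finset.card_insert_le x (insert (i x) (fx i))
    have h3 := Finset.card_insert_le (i x) (fx i)
    rw [h1, Finset.card_univ] at h2
    omega
  simp only [Finset.mem_insert, not_or, mem_fx] at hy
  obtain ⟨hyx, hyix, hiy⟩ := hy
  have hixx := mul_self_app hi2 x
  have hiyy := mul_self_app hi2 y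
  have h1 : i y ≠ x := fun h => hyix (by rw [← h, hiyy])
  have h2 : i y ≠ i x := fun h => hyx (i.injective h)
  set D : Finset α := {x, i x, y, i y} with hD
  have hcard : D.card = 4 := by
    rw [hD, Finset.card_insert_of_notMem, Finset.card_insert_of_notMem, Finset.card_insert_of_notMem, Finset.card_singleton]
    · simp only [Finset.mem_singleton]; exact fun h => hiy h.symm
    · simp only [Finset.mem_insert, Finset.mem_singleton, not_or]; exact ⟨fun h => hyix h.symm, fun h => h2 h.symm⟩
    · simp only [Finset.mem_insert, Finset.mem_singleton, not_or]; exact ⟨hx.symm, fun h => hyx h.symm, fun h => h1 h.symm⟩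
  have hmem : ∀ z, z ∈ D ↔ z = x ∨ z = i x ∨ z = y ∨ z = i y := fun z => by simp [hD]
  have hiD : i ∈ SetS G D := by
    refine mem_SetS.2 ⟨hi, fun z hz => ?_⟩
    rw [hmem] at hz ⊢
    rcases hz with rfl | rfl | rfl | rfl
    · tauto
    · rw [hixx]; tauto
    · tauto
    · rw [hiyy]; tauto
  have hnof : ∀ z ∈ D, i z ≠ z := by
    intro z hz
    rw [hmem] at hz
    rcases hz with rfl | rfl | rfl | rfl
    · exact hx
    · rw [hixx]; exact hx.symm
    · exact hiy
    · rw [hiyy]; exact fun h => hiy h.symm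
  -- an element of order three
  haveI : Fact (Nat.Prime 3) := ⟨Nat.prime_three⟩
  obtain ⟨g, hg⟩ := exists_prime_orderOf_dvd_card' (G := SetS G D) 3 (by rw [hc D hcard]; decide)
  have hg' : orderOf (g : Perm α) = 3 := by rw [Subgroup.orderOf_coe]; exact hg
  have hgD := g.2.2
  obtain ⟨z, hz, hgz⟩ : ∃ z ∈ D, (g : Perm α) z ≠ z := by
    by_contra h
    push Not at h
    have h3 := hfix D hcard g g.2.1 h
    rw [h3, orderOf_one] at hg'
    exact absurd hg' (by decide)
  obtain ⟨e3, e1, e2⟩ := three_cyc hg' hgz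
  set g0 : Perm α := (g : Perm α) with hg0
  have hsub : ({z, g0 z, g0 (g0 z)} : Finset α) ⊆ D := by
    intro w hw
    simp only [Finset.mem_insert, Finset.mem_singleton] at hw
    rcases hw with rfl | rfl | rfl
    · exact hz
    · exact hgD _ hz
    · exact hgD _ (hgD _ hz)
  have hc3 : ({z, g0 z, g0 (g0 z)} : Finset α).card = 3 := by
    rw [Finset.card_eq_three]
    exact ⟨z, g0 z, g0 (g0 z), hgz.symm, e1.symm, e2.symm, rfl⟩
  obtain ⟨s, hs⟩ : ∃ s, D \ {z, g0 z, g0 (g0 z)} = {s} := by
    apply Finset.card_eq_one.1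
    rw [Finset.card_sdiff_of_subset hsub, hc3, hcard]
  have hsD : s ∈ D ∧ s ∉ ({z, g0 z, g0 (g0 z)} : Finset α) := by
    rw [← Finset.mem_sdiff, hs]; exact Finset.mem_singleton_self s
  have huniq : ∀ w ∈ D, g0 w = w → w = s := by
    intro w hw hgw
    have : w ∈ D \ {z, g0 z, g0 (g0 z)} := by
      rw [Finset.mem_sdiff]
      refine ⟨hw, fun h => ?_⟩
      simp only [Finset.mem_insert, Finset.mem_singleton] at h
      rcases h with rfl | rfl | rfl
      · exact hgz hgw
      · exact e2 hgw
      · rw [e3] at hgw; exact e1 hgw.symm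
    rw [hs] at this
    exact Finset.mem_singleton.1 this
  have hgs : g0 s = s := by
    have h3 := hgD s hsD.1
    have h4 : g0 s ∈ D \ {z, g0 z, g0 (g0 z)} := by
      rw [Finset.mem_sdiff]
      refine ⟨h3, fun h => ?_⟩
      have h5 := hsD.2
      simp only [Finset.mem_insert, Finset.mem_singleton, not_or] at h h5
      rcases h with h | h | h
      · rw [← e3] at h; exact h5.2.2 (g0.injective h)
      · exact h5.1 (g0.injective h)
      · exact h5.2.1 (g0.injective h)
    rw [hs] at h4
    exact Finset.mem_singleton.1 h4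
  -- normality
  have hN : (Subgroup.zpowers g).Normal := by
    apply Subgroup.normal_of_index_eq_two
    have h3 := Subgroup.index_mul_card (Subgroup.zpowers g)
    rw [Nat.card_zpowers, hg, hc D hcard] at h3
    omega
  have h3 := hN.conj_mem g (Subgroup.mem_zpowers g) (⟨i, hiD⟩⁻¹)
  obtain ⟨m, hm⟩ := Subgroup.mem_zpowers_iff.1 h3
  have hm' : g0 ^ m = i⁻¹ * g0 * (i⁻¹)⁻¹ := by
    have := congrArg Subtype.val hm
    simpa using this
  have h4 : (g0 ^ m) s = s := Perm.zpow_apply_eq_self_of_apply_eq_self hgs m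
  rw [hm', inv_inv, Perm.mul_apply, Perm.mul_apply, Perm.inv_eq_iff_eq] at h4
  exact hnof s hsD.1 (huniq _ (hiD.2 s hsD.1) h4)

end Cfsg.Agent.Lib.H3LW
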