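import Mathlib
import Cfsg.Agent.Lib.H3LWK

set_option autoImplicit false

namespace Cfsg.Agent.Lib.H3LW

open Finset Equiv Cfsg.Agent.Lib.H3Homog

universe u
variable {α : Type u} [Fintype α] [DecidableEq α]

/-- exclusion for `n = 24` -/
theorem excl24 {G : Subgroup (Perm α)} (hfix : ∀ s : Finset α, s.card = 4 → ∀ g ∈ G, (∀ x ∈ s, g x = x) → g = 1)
    {R : Finset α} {c : α} (hcR : c ∉ R) (hM : Nat.card (FxS G R) = 154) (hM3 : Nat.card (FxS G (insert c R)) = 7) : False := by
  classical
  haveI : Fact (Nat.Prime 11) := ⟨by norm_num⟩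
  haveI : Fact (Nat.Prime 7) := ⟨by norm_num⟩
  -- the normal Sylow 11-subgroup
  let W : Sylow 11 (FxS G R) := default
  have hWc : Nat.card W = 11 := by
    have := W.card_eq_multiplicity
    rw [hM] at this
    rw [this]
    have h154 : (154 : ℕ) = 2 * 7 * 11 := by norm_num
    have : (154 : ℕ).factorization 11 = 1 := by
      rw [h154, Nat.factorization_mul (by norm_num) (by norm_num), Finsupp.add_apply,
        Nat.factorization_eq_zero_of_not_dvd (by norm_num), Nat.Prime.factorization_self (by norm_num)]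
    rw [this, pow_one]
  have hWi : (W : Subgroup (FxS G R)).index = 14 := by
    have h3 := Subgroup.index_mul_card (W : Subgroup (FxS G R))
    rw [hM] at h3
    have : Nat.card (W : Subgroup (FxS G R)) = 11 := hWc
    rw [this] at h3
    omega
  have hS1 : Nat.card (Sylow 11 (FxS G R)) = 1 := by
    have h1 := card_sylow_modEq_one 11 (FxS G R)
    have h2 := Sylow.card_dvd_index W
    rw [hWi] at h2
    have h3 : Nat.card (Sylow 11 (FxS G R)) ≤ 14 := Nat.le_of_dvd (by norm_num) h2
    unfold Nat.ModEq at h1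
    generalize Nat.card (Sylow 11 (FxS G R)) = m at *
    interval_cases m <;> first | rfl | (exfalso; revert h1 h2; decide)
  haveI : Subsingleton (Sylow 11 (FxS G R)) := (Nat.card_eq_one_iff_unique.1 hS1).1
  have hWn : (W : Subgroup (FxS G R)).Normal := Sylow.normal_of_subsingleton W
  -- element of order seven
  obtain ⟨u, hu, huo⟩ := ord_exists (K := FxS G (insert c R)) (p := 7) (by norm_num) (by rw [hM3])
  have huc : u c = c := hu.2 c (Finset.mem_insert_self _ _)
  have huR : u ∈ FxS G R := mem_FxS.2 ⟨hu.1, fun x hx => hu.2 x (Finset.mem_insert_of_mem hx)⟩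
  let W' : Subgroup (Perm α) := (W : Subgroup (FxS G R)).map (FxS G R).subtype
  have hW'c : Nat.card W' = 11 := by
    rw [← hWc]
    exact (Nat.card_congr ((W : Subgroup (FxS G R)).equivMapOfInjective _ (Subgroup.subtype_injective _)).toEquiv).symm
  have hW'M : W' ≤ FxS G R := Subgroup.map_subtype_le _
  have hW'n : ∀ w ∈ W', u * w * u⁻¹ ∈ W' := by
    rintro _ ⟨w, hw, rfl⟩
    exact ⟨⟨u, huR⟩ * w * ⟨u, huR⟩⁻¹, hWn.conj_mem w hw _, rfl⟩
  have hst : MulAction.stabilizer W' c = ⊥ := by
    rw [Subgroup.eq_bot_iff_forall]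
    rintro ⟨w, hw⟩ hwc
    rw [MulAction.mem_stabilizer_iff] at hwc
    have hwc' : w c = c := hwc
    have h1 : w ∈ FxS G (insert c R) := by
      refine mem_FxS.2 ⟨(hW'M hw).1, fun x hx => ?_⟩
      rcases Finset.mem_insert.1 hx with rfl | hx
      · exact hwc'
      · exact (hW'M hw).2 x hx
    have h2 : orderOf w ∣ 7 := by rw [← hM3]; exact ord_dvd h1
    have h3 : orderOf w ∣ 11 := by rw [← hW'c]; exact ord_dvd hw
    have h4 : orderOf w ∣ 1 := by
      have := Nat.dvd_gcd h2 h3
      simpa using this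
    have h5 : w = 1 := orderOf_eq_one_iff.1 (Nat.dvd_one.1 h4)
    exact Subtype.ext h5
  have hO : Nat.card (MulAction.orbit W' c) = 11 := by
    have h1 := Cfsg.Agent.Lib.PermTwo.card_orbit_mul_card_stabilizer (K := W') c
    rw [hst, Subgroup.card_bot, mul_one, hW'c] at h1
    exact h1
  have hP : IsPGroup 7 (Subgroup.zpowers u) := IsPGroup.of_card (n := 1) (by rw [Nat.card_zpowers, huo, pow_one])
  have hinvO : ∀ x, x ∈ MulAction.orbit W' c → u x ∈ MulAction.orbit W' c := by
    rintro _ ⟨⟨w, hw⟩, rfl⟩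
    refine ⟨⟨u * w * u⁻¹, hW'n w hw⟩, ?_⟩
    change u (w (u⁻¹ c)) = u (w c)
    have : u⁻¹ c = c := by rw [Perm.inv_eq_iff_eq, huc]
    rw [this]
  have hinvO' : ∀ (n : ℕ) (x : α), x ∈ MulAction.orbit W' c → (u ^ n) x ∈ MulAction.orbit W' c := by
    intro n
    induction n with
    | zero => intro x hx; exact hx
    | succ n ih => intro x hx; rw [pow_succ', Perm.mul_apply]; exact hinvO _ (ih x hx)
  have hmod := Cfsg.Agent.Lib.PermTwo.card_modEq_of_invariant (K := Subgroup.zpowers u) hP (MulAction.orbit W' c) (by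
    rintro ⟨g, hg⟩ x hx
    obtain ⟨n, rfl⟩ := (Submonoid.mem_powers_iff _ _).1 (mem_powers_iff_mem_zpowers.2 hg)
    exact hinvO' n x hx)
  rw [hO] at hmod
  have h4 : 4 ≤ Nat.card (MulAction.orbit W' c ∩ MulAction.fixedPoints (Subgroup.zpowers u) α : Set α) := by
    unfold Nat.ModEq at hmod
    omega
  let F : Finset α := fx u
  have hF : (MulAction.orbit W' c ∩ MulAction.fixedPoints (Subgroup.zpowers u) α : Set α) ⊆ (F : Set α) := by
    rintro x ⟨_, hx⟩
    rw [Finset.mem_coe]
    exact mem_fx.2 (hx ⟨u, Subgroup.mem_zpowers u⟩)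
  have h5 : 4 ≤ F.card := by
    refine h4.trans ?_
    rw [← Set.ncard_coe_finset]
    exact Set.ncard_le_ncard hF (Set.toFinite _)
  obtain ⟨s, hs, hsc⟩ := Finset.exists_subset_card_eq h5
  have h6 := hfix s hsc u hu.1 (fun x hx => mem_fx.1 (hs hx))
  rw [h6, orderOf_one] at huo
  exact absurd huo (by decide)

/-- the permutation `r` in the case `n = 9` -/
theorem exists_r {G : Subgroup (Perm α)} (hodd : Fintype.card α % 2 = 1)
    (hfix : ∀ s : Finset α, s.card = 4 → ∀ g ∈ G, (∀ x ∈ s, g x = x) → g = 1)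
    (hc : ∀ s : Finset α, s.card = 4 → Nat.card (SetS G s) = 8) {a b c : α} (hab : a ≠ b)
    (hac : a ≠ c) (hbc : b ≠ c)
    {s : Perm α} (hs : s ∈ G) (hs2 : s * s = 1) (hsf : fx s = {a, b, c}) {d : α} (hd : s d ≠ d) :
    ∃ r ∈ G, r a = b ∧ r b = a ∧ r c = c ∧ r d = d ∧ r (s d) = s d := by
  classical
  have hsm : ∀ z, s z = z ↔ z = a ∨ z = b ∨ z = c := by intro z; rw [← mem_fx, hsf]; simp
  have hsa := (hsm a).2 (by tauto)
  have hsb := (hsm b).2 (by tauto)
  have hda : d ≠ a := by rintro rfl; exact hd hsa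
  have hdb : d ≠ b := by rintro rfl; exact hd hsb
  obtain ⟨e, he⟩ : ∃ e, s d = e := ⟨_, rfl⟩
  rw [he] at hd ⊢
  have hse : s e = d := by rw [← he, mul_self_app hs2]
  have hea : e ≠ a := by rintro rfl; exact hda (hse.symm.trans hsa)
  have heb : e ≠ b := by rintro rfl; exact hdb (hse.symm.trans hsb)
  set D : Finset α := {a, b, d, e} with hD
  have hcard : D.card = 4 := by
    rw [hD, Finset.card_insert_of_notMem, Finset.card_insert_of_notMem, Finset.card_insert_of_notMem, Finset.card_singleton]
    · simp only [Finset.mem_singleton]; exact hd.symm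
    · simp only [Finset.mem_insert, Finset.mem_singleton, not_or]; exact ⟨hdb.symm, heb.symm⟩
    · simp only [Finset.mem_insert, Finset.mem_singleton, not_or]; exact ⟨hab, hda.symm, hea.symm⟩
  have hmem : ∀ z, z ∈ D ↔ z = a ∨ z = b ∨ z = d ∨ z = e := fun z => by simp [hD]
  have hsD : s ∈ SetS G D := by
    refine mem_SetS.2 ⟨hs, fun z hz => ?_⟩
    rw [hmem] at hz ⊢
    rcases hz with rfl | rfl | rfl | rfl
    · rw [hsa]; tauto
    · rw [hsb]; tauto
    · rw [he]; tauto
    · rw [hse]; tauto
  have hs1 : s ≠ 1 := by rintro rfl; exact hd he.symm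
  -- the stabilizer of a point in `SetS G D` has order two
  let H := SetS G D
  have hstab : ∀ x ∈ D, Nat.card (MulAction.stabilizer (SetS G D) x) ∣ 2 := by
    intro x hx
    -- it embeds in the symmetric group of the other three points
    have h1 : Nat.card (MulAction.stabilizer (SetS G D) x) ∣ 8 := by
      rw [← hc D hcard]; exact Subgroup.card_subgroup_dvd_card _
    have h2 : Nat.card (MulAction.stabilizer (SetS G D) x) ∣ 6 := by
      have hE : (D.erase x).card = 3 := by rw [Finset.card_erase_of_mem hx, hcard]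
      let f : MulAction.stabilizer (SetS G D) x →* Perm (D.erase x) :=
        { toFun := fun g => ((g : SetS G D) : Perm α).subtypePerm (p := fun y => y ∈ D.erase x) (fun y => by
            have hgx : ((g : SetS G D) : Perm α) x = x := g.2
            rw [Finset.mem_erase, Finset.mem_erase, mem_iff_of_mapsTo (g : SetS G D).2.2]
            constructor
            · rintro ⟨h3, h4⟩
              exact ⟨fun h5 => h3 (by rw [h5, hgx]), h4⟩
            · rintro ⟨h3, h4⟩
              refine ⟨fun h5 => h3 ?_, h4⟩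
              exact ((g : SetS G D) : Perm α).injective (h5.trans hgx.symm))
          map_one' := by ext y; rfl
          map_mul' := fun g h => by ext y; rfl }
      have hf : Function.Injective f := by
        rw [injective_iff_map_eq_one]
        intro g hg
        apply Subtype.ext
        apply Subtype.ext
        apply hfix D hcard _ (g : SetS G D).2.1
        intro y hy
        by_cases hyx : y = x
        · rw [hyx]; exact g.2
        · have h3 : ((f g) ⟨y, Finset.mem_erase.2 ⟨hyx, hy⟩⟩ : α) = ((g : SetS G D) : Perm α) y := rfl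
          rw [hg] at h3
          exact h3.symm
      have := Subgroup.card_dvd_of_injective f hf
      rwa [Nat.card_eq_fintype_card (α := Perm (D.erase x)), Fintype.card_perm, Fintype.card_coe, hE] at this
    have := Nat.dvd_gcd h1 h2
    simpa using this
  have haD : a ∈ D := (hmem a).2 (by tauto)
  have hbD : b ∈ D := (hmem b).2 (by tauto)
  -- transitivity on `D`
  have horb : ∀ x ∈ D, ∀ y ∈ D, ∃ g ∈ SetS G D, g x = y := by
    intro x hx y hy
    have h1 := Cfsg.Agent.Lib.PermTwo.card_orbit_mul_card_stabilizer (K := SetS G D) x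
    rw [hc D hcard] at h1
    have h2 := Nat.le_of_dvd (by norm_num) (hstab x hx)
    have h3 : 4 ≤ Nat.card (MulAction.orbit (SetS G D) x) := by
      by_contra h
      push Not at h
      have : Nat.card (MulAction.orbit (SetS G D) x) * Nat.card (MulAction.stabilizer (SetS G D) x) ≤ 3 * 2 :=
        Nat.mul_le_mul (by omega) h2
      omega
    have h4 : MulAction.orbit (SetS G D) x ⊆ (D : Set α) := by
      rintro _ ⟨g, rfl⟩
      exact g.2.2 x hx
    have h5 : MulAction.orbit (SetS G D) x = (D : Set α) := by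
      apply Set.eq_of_subset_of_ncard_le h4
      rw [Set.ncard_coe_finset, hcard]
      exact h3
    have h6 : y ∈ MulAction.orbit (SetS G D) x := by rw [h5]; exact hy
    obtain ⟨g, hg⟩ := h6
    exact ⟨g, g.2, hg⟩
  obtain ⟨y, hy, hya⟩ := horb a haD b hbD
  -- `y` commutes with `s`
  have hcent : ∀ g ∈ SetS G D, ∀ x, x = a ∨ x = b → g x = x → g ≠ 1 → g = s := by
    intro g hg x hx hgx hg1
    have hxD : x ∈ D := by rcases hx with rfl | rfl; exacts [haD, hbD]
    have hsx : s x = x := by rcases hx with rfl | rfl; exacts [hsa, hsb]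
    by_contra hgs
    have h1 : (3 : ℕ) ≤ Nat.card (MulAction.stabilizer (SetS G D) x) := by
      have h2 : Function.Injective (fun i : Fin 3 => (![⟨1, (MulAction.stabilizer (SetS G D) x).one_mem⟩,
          ⟨⟨g, hg⟩, hgx⟩, ⟨⟨s, hsD⟩, hsx⟩] i : MulAction.stabilizer (SetS G D) x)) := by
        intro i j hij
        have hg1' : (1 : Perm α) ≠ g := hg1.symm
        have hs1' : (1 : Perm α) ≠ s := hs1.symm
        fin_cases i <;> fin_cases j <;> first | rfl | skip
        all_goals exfalso
        · exact hg1' (congrArg (fun w : MulAction.stabilizer (SetS G D) x => ((w : SetS G D) : Perm α)) hij)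
        · exact hs1' (congrArg (fun w : MulAction.stabilizer (SetS G D) x => ((w : SetS G D) : Perm α)) hij)
        · exact hg1 (congrArg (fun w : MulAction.stabilizer (SetS G D) x => ((w : SetS G D) : Perm α)) hij)
        · exact hgs (congrArg (fun w : MulAction.stabilizer (SetS G D) x => ((w : SetS G D) : Perm α)) hij)
        · exact hs1 (congrArg (fun w : MulAction.stabilizer (SetS G D) x => ((w : SetS G D) : Perm α)) hij)
        · exact hgs (congrArg (fun w : MulAction.stabilizer (SetS G D) x => ((w : SetS G D) : Perm α)) hij).symm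
      have := Nat.card_le_card_of_injective _ h2
      simpa using this
    have h2 := Nat.le_of_dvd (by norm_num) (hstab x hxD)
    omega
  have hys : y * s * y⁻¹ = s := by
    apply hcent _ ((SetS G D).mul_mem ((SetS G D).mul_mem hy hsD) ((SetS G D).inv_mem hy)) b (Or.inr rfl)
    · rw [Perm.mul_apply, Perm.mul_apply, ← hya, inv_ap, hsa]
    · intro h
      apply hs1
      have : s = y⁻¹ * (y * s * y⁻¹) * y := by group
      rw [this, h]; group
  have hys' : y * s = s * y := mul_inv_eq_iff_eq_mul.1 hys
  have hyb : y b = a := by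
    have h1 : s (y b) = y b := by rw [← Perm.mul_apply, ← hys', Perm.mul_apply, hsb]
    have h2 : y b ∈ D := hy.2 b hbD
    rw [hmem] at h2
    rcases h2 with h2 | h2 | h2 | h2
    · exact h2
    · exact absurd (y.injective (h2.trans hya.symm)) hab.symm
    · rw [h2, he] at h1; exact absurd h1 hd
    · rw [h2, hse] at h1; exact absurd h1 hd.symm
  -- the element `r`
  obtain ⟨r, hr, hra, hrb, hrd, hre⟩ : ∃ r ∈ G, r a = b ∧ r b = a ∧ r d = d ∧ r e = e := by
    have h1 : y d = d ∨ y d = e := by
      have h2 : y d ∈ D := hy.2 d ((hmem d).2 (by tauto))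
      rw [hmem] at h2
      rcases h2 with h2 | h2 | h2 | h2
      · exact absurd (y.injective (h2.trans hyb.symm)) hdb
      · exact absurd (y.injective (h2.trans hya.symm)) hda
      · exact Or.inl h2
      · exact Or.inr h2
    rcases h1 with h1 | h1
    · refine ⟨y, hy.1, hya, hyb, h1, ?_⟩
      rw [← he, ← Perm.mul_apply, hys', Perm.mul_apply, h1]
    · have h2 : y e = d := by
        rw [← he, ← Perm.mul_apply, hys', Perm.mul_apply, h1, hse]
      refine ⟨y * s, G.mul_mem hy.1 hs, ?_, ?_, ?_, ?_⟩
      · rw [Perm.mul_apply, hsa, hya]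
      · rw [Perm.mul_apply, hsb, hyb]
      · rw [Perm.mul_apply, he, h2]
      · rw [Perm.mul_apply, hse, h1]
  refine ⟨r, hr, hra, hrb, ?_, hrd, hre⟩
  have hr2 : r * r = 1 := by
    apply hfix D hcard _ (G.mul_mem hr hr)
    intro z hz
    rw [hmem] at hz
    rw [Perm.mul_apply]
    rcases hz with rfl | rfl | rfl | rfl
    · rw [hra, hrb]
    · rw [hrb, hra]
    · rw [hrd, hrd]
    · rw [hre, hre]
  have hrs : r * s = s * r := by
    have h1 : (s * r)⁻¹ * (r * s) = 1 := by
      apply hfix D hcard _ (G.mul_mem (G.inv_mem (G.mul_mem hs hr)) (G.mul_mem hr hs))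
      intro z hz
      rw [Perm.mul_apply, Perm.inv_eq_iff_eq, Perm.mul_apply, Perm.mul_apply]
      rw [hmem] at hz
      rcases hz with rfl | rfl | rfl | rfl
      · rw [hsa, hra, hsb]
      · rw [hsb, hrb, hsa]
      · rw [he, hre, hrd, he]
      · rw [hse, hrd, hre, hse]
    exact (inv_mul_eq_one.1 h1).symm
  -- fixed points of `r`
  have hpar := fx_par hr2
  rw [hodd] at hpar
  have hde : ({d, e} : Finset α) ⊆ fx r := by
    intro z hz
    simp only [Finset.mem_insert, Finset.mem_singleton] at hz
    rcases hz with rfl | rfl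
    · exact mem_fx.2 hrd
    · exact mem_fx.2 hre
  have hdec : ({d, e} : Finset α).card = 2 := Finset.card_pair hd.symm
  have h2 := Finset.card_le_card hde
  have h3 : (fx r).card < 4 := by
    by_contra h
    push Not at h
    obtain ⟨q, hq, hqc⟩ := Finset.exists_subset_card_eq h
    have := hfix q hqc r hr (fun x hx => mem_fx.1 (hq hx))
    rw [this] at hra
    exact hab hra
  have h4 : (fx r \ {d, e}).card = 1 := by
    rw [Finset.card_sdiff_of_subset hde]; omega
  obtain ⟨w, hw⟩ := Finset.card_eq_one.1 h4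
  have hw' : w ∈ fx r \ {d, e} := by rw [hw]; exact Finset.mem_singleton_self w
  rw [Finset.mem_sdiff, mem_fx] at hw'
  simp only [Finset.mem_insert, Finset.mem_singleton, not_or] at hw'
  obtain ⟨hrw, hwd, hwe⟩ := hw'
  have hsw : s w = w := by
    have h5 : s w ∈ fx r \ {d, e} := by
      rw [Finset.mem_sdiff, mem_fx]
      refine ⟨by rw [← Perm.mul_apply, hrs, Perm.mul_apply, hrw], ?_⟩
      simp only [Finset.mem_insert, Finset.mem_singleton, not_or]
      exact ⟨fun h => hwe (by rw [← he, ← h, mul_self_app hs2]), fun h => hwd (by rw [← hse, ← h, mul_self_app hs2])⟩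
    rw [hw] at h5
    exact Finset.mem_singleton.1 h5
  rcases (hsm w).1 hsw with rfl | rfl | rfl
  · exact absurd (hrw.symm.trans hra) hab
  · exact absurd (hrw.symm.trans hrb) hab.symm
  · exact hrw

end Cfsg.Agent.Lib.H3LW
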