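import Mathlib
import Cfsg.Agent.Lib.H3LWL

set_option autoImplicit false

namespace Cfsg.Agent.Lib.H3LW

open Finset Equiv Cfsg.Agent.Lib.H3Homog

universe u
variable {α : Type u} [Fintype α] [DecidableEq α]

theorem hom_card_SetS {G : Subgroup (Perm α)} {j : ℕ} (hj : j ≤ Fintype.card α) (hh : Hom G j) {s t : Finset α}
    (hs : s.card = j) (ht : t.card = j) : Nat.card (SetS G s) = Nat.card (SetS G t) := by
  have h1 := card_SetS hh hs
  rw [card_SetS hh ht] at h1
  exact (Nat.eq_of_mul_eq_mul_left (Nat.choose_pos hj) h1).symm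

theorem exists_set {j : ℕ} (hj : j ≤ Fintype.card α) : ∃ s : Finset α, s.card = j := by
  obtain ⟨s, -, hs⟩ := Finset.exists_subset_card_eq (s := (Finset.univ : Finset α)) (n := j)
    (by rw [Finset.card_univ]; exact hj)
  exact ⟨s, hs⟩

theorem excl9 {G : Subgroup (Perm α)} (hn : Fintype.card α = 9)
    (hfix : ∀ s : Finset α, s.card = 4 → ∀ g ∈ G, (∀ x ∈ s, g x = x) → g = 1)
    (hc : ∀ s : Finset α, s.card = 4 → Nat.card (SetS G s) = 8)
    (ht : ∀ s : Finset α, s.card = 3 → Nat.card (FxS G s) = 2) : False := by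
  classical
  obtain ⟨T, hT⟩ := exists_set (α := α) (j := 3) (by omega)
  obtain ⟨s, hs, hs2, hs1⟩ := inv_exists (K := FxS G T) (by rw [ht T hT])
  have hsf : fx s = T := by
    symm
    apply Finset.eq_of_subset_of_card_le
    · intro x hx; exact mem_fx.2 (hs.2 x hx)
    · rw [hT]
      by_contra h
      push Not at h
      obtain ⟨q, hq, hqc⟩ := Finset.exists_subset_card_eq (show 4 ≤ (fx s).card by omega)
      exact hs1 (hfix q hqc s hs.1 (fun x hx => mem_fx.1 (hq hx)))
  obtain ⟨a, b, c, hab, hac, hbc, hTe⟩ := Finset.card_eq_three.1 hT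
  rw [hTe] at hsf
  have hsm : ∀ z, s z = z ↔ z = a ∨ z = b ∨ z = c := by intro z; rw [← mem_fx, hsf]; simp
  have hmv : ∀ S : Finset α, S.card < 9 → ∃ c, c ∉ S := by
    intro S hS
    by_contra h
    push Not at h
    rw [Finset.eq_univ_iff_forall.2 h, Finset.card_univ] at hS
    omega
  have hT3 : ({a, b, c} : Finset α).card ≤ 3 := Finset.card_le_three
  obtain ⟨d1, h1⟩ := hmv {a, b, c} (by omega)
  obtain ⟨d2, h2⟩ := hmv (insert d1 (insert (s d1) {a, b, c})) (by
    have := Finset.card_insert_le d1 (insert (s d1) {a, b, c})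
    have := Finset.card_insert_le (s d1) {a, b, c}
    omega)
  obtain ⟨d3, h3⟩ := hmv (insert d2 (insert (s d2) (insert d1 (insert (s d1) {a, b, c})))) (by
    have := Finset.card_insert_le d1 (insert (s d1) {a, b, c})
    have := Finset.card_insert_le (s d1) {a, b, c}
    have := Finset.card_insert_le d2 (insert (s d2) (insert d1 (insert (s d1) {a, b, c})))
    have := Finset.card_insert_le (s d2) (insert d1 (insert (s d1) {a, b, c}))
    omega)
  simp only [Finset.mem_insert, Finset.mem_singleton, not_or] at h1 h2 h3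
  have m1 : s d1 ≠ d1 := by rw [Ne, hsm]; tauto
  have m2 : s d2 ≠ d2 := by rw [Ne, hsm]; tauto
  have m3 : s d3 ≠ d3 := by rw [Ne, hsm]; tauto
  have hex := fun (d : α) (hd : s d ≠ d) => exists_r (G := G) (by rw [hn]) hfix hc hab hac hbc hs.1 hs2 hsf hd
  obtain ⟨r1, hr1, r1a, r1b, r1c, r1d, r1e⟩ := hex d1 m1
  obtain ⟨r2, hr2, r2a, r2b, r2c, r2d, r2e⟩ := hex d2 m2
  obtain ⟨r3, hr3, r3a, r3b, r3c, r3d, r3e⟩ := hex d3 m3
  have hss := mul_self_app hs2
  have hne : ∀ {r : Perm α} {d d' : α}, r ∈ G → r a = b → r d = d → r (s d) = s d → r d' = d' → r (s d') = s d' →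
      s d ≠ d → s d' ≠ d' → d' ≠ d → d' ≠ s d → False := by
    intro r d d' hr hra h1 h2 h3 h4 hm hm' n1 n2
    have hcard : ({d, s d, d', s d'} : Finset α).card = 4 := by
      rw [Finset.card_insert_of_notMem, Finset.card_insert_of_notMem, Finset.card_insert_of_notMem, Finset.card_singleton]
      · simp only [Finset.mem_singleton]; exact hm'.symm
      · simp only [Finset.mem_insert, Finset.mem_singleton, not_or]
        exact ⟨n2.symm, fun h => n1 (s.injective h).symm⟩
      · simp only [Finset.mem_insert, Finset.mem_singleton, not_or]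
        exact ⟨hm.symm, n1.symm, fun h => n2 (by rw [h, hss])⟩
    have := hfix _ hcard r hr (fun x hx => by
      simp only [Finset.mem_insert, Finset.mem_singleton] at hx
      rcases hx with rfl | rfl | rfl | rfl <;> assumption)
    rw [this] at hra
    exact hab hra
  have n12 : r1 ≠ r2 := by
    rintro rfl
    exact hne hr1 r1a r1d r1e r2d r2e m1 m2 h2.1 h2.2.1
  have n13 : r1 ≠ r3 := by
    rintro rfl
    exact hne hr1 r1a r1d r1e r3d r3e m1 m3 h3.2.2.1 h3.2.2.2.1
  have n23 : r2 ≠ r3 := by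
    rintro rfl
    exact hne hr2 r2a r2d r2e r3d r3e m2 m3 h3.1 h3.2.1
  have hmemT : ∀ {r r' : Perm α}, r ∈ G → r' ∈ G → r a = b → r b = a → r c = c → r' a = b → r' b = a → r' c = c →
      r⁻¹ * r' ∈ FxS G T := by
    intro r r' hr hr' e1 e2 e3 e4 e5 e6
    refine mem_FxS.2 ⟨G.mul_mem (G.inv_mem hr) hr', fun x hx => ?_⟩
    rw [hTe] at hx
    simp only [Finset.mem_insert, Finset.mem_singleton] at hx
    rw [Perm.mul_apply, Perm.inv_eq_iff_eq]
    rcases hx with rfl | rfl | rfl
    · rw [e1, e4]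
    · rw [e2, e5]
    · rw [e3, e6]
  have k2 := hmemT hr1 hr2 r1a r1b r1c r2a r2b r2c
  have k3 := hmemT hr1 hr3 r1a r1b r1c r3a r3b r3c
  have hinj : Function.Injective (fun i : Fin 3 => (![⟨1, (FxS G T).one_mem⟩, ⟨r1⁻¹ * r2, k2⟩, ⟨r1⁻¹ * r3, k3⟩] i : FxS G T)) := by
    have q1 : (1 : Perm α) ≠ r1⁻¹ * r2 := fun h => n12 (inv_mul_eq_one.1 h.symm)
    have q2 : (1 : Perm α) ≠ r1⁻¹ * r3 := fun h => n13 (inv_mul_eq_one.1 h.symm)
    have q3 : r1⁻¹ * r2 ≠ r1⁻¹ * r3 := fun h => n23 (mul_left_cancel h)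
    intro i j hij
    fin_cases i <;> fin_cases j <;> first | rfl | skip
    all_goals exfalso
    · exact q1 (congrArg (fun w : FxS G T => (w : Perm α)) hij)
    · exact q2 (congrArg (fun w : FxS G T => (w : Perm α)) hij)
    · exact q1 (congrArg (fun w : FxS G T => (w : Perm α)) hij).symm
    · exact q3 (congrArg (fun w : FxS G T => (w : Perm α)) hij)
    · exact q2 (congrArg (fun w : FxS G T => (w : Perm α)) hij).symm
    · exact q3 (congrArg (fun w : FxS G T => (w : Perm α)) hij).symm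
  have := Nat.card_le_card_of_injective _ hinj
  rw [ht T hT] at this
  simp at this

theorem nt3 {n h : ℕ} (hn : 3 ≤ n) (h1 : h ∣ 2) (h2 : h ≠ 2) (h3 : (n - 2) ∣ 3 * h) : h = 1 ∧ (n = 3 ∨ n = 5) := by
  have h4 : h ≤ 2 := Nat.le_of_dvd (by norm_num) h1
  have h5 : h = 1 := by interval_cases h <;> simp_all
  subst h5
  refine ⟨rfl, ?_⟩
  have h6 : n - 2 ≤ 3 := Nat.le_of_dvd (by norm_num) (by simpa using h3)
  have h7 : n ≤ 5 := by omega
  interval_cases n <;> simp_all

theorem nt4 {n h : ℕ} (hn : 5 ≤ n) (h1 : h ∣ 6) (h2 : h ≠ 6) (h3 : (n - 3) ∣ 4 * h) (h4 : 6 ∣ (n - 2) * h) :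
    (n = 5 ∧ h = 2) ∨ (n = 11 ∧ h = 2) ∨ (n = 6 ∧ h = 3) := by
  have h5 : h ≤ 6 := Nat.le_of_dvd (by norm_num) h1
  have h0 : 0 < h := Nat.pos_of_dvd_of_pos h1 (by norm_num)
  have h6 : n - 3 ≤ 4 * h := Nat.le_of_dvd (by omega) h3
  have h7 : h = 1 ∨ h = 2 ∨ h = 3 := by
    interval_cases h <;> simp_all
  have h8 : n ≤ 15 := by omega
  rcases h7 with rfl | rfl | rfl <;> interval_cases n <;> simp_all

set_option maxRecDepth 10000 in
theorem nt5' : ∀ n ∈ Finset.range 65, ∀ h ∈ Finset.range 13, 6 ≤ n → h ∣ 24 → (n - 4) ∣ 5 * h → 24 ∣ (n - 3) * h →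
    (n, h) ∈ [(6, 8), (9, 4), (9, 12), (7, 12), (19, 12), (9, 8), (12, 8), (24, 8), (7, 6), (19, 6), (19, 3)] := by
  decide

theorem nt5 {n h : ℕ} (hn : 6 ≤ n) (h1 : h ∣ 24) (h2 : h ≠ 24) (h3 : (n - 4) ∣ 5 * h) (h4 : 24 ∣ (n - 3) * h) :
    (n, h) ∈ [(6, 8), (9, 4), (9, 12), (7, 12), (19, 12), (9, 8), (12, 8), (24, 8), (7, 6), (19, 6), (19, 3)] := by
  have h5 : h ≤ 24 := Nat.le_of_dvd (by norm_num) h1
  have h0 : 0 < h := Nat.pos_of_dvd_of_pos h1 (by norm_num)
  have h6 : h ≤ 12 := by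
    obtain ⟨m, hm⟩ := h1
    have : m ≠ 0 := by rintro rfl; omega
    have : m ≠ 1 := by rintro rfl; omega
    have : 2 ≤ m := by omega
    nlinarith
  have h7 : n - 4 ≤ 5 * h := Nat.le_of_dvd (by omega) h3
  exact nt5' n (Finset.mem_range.2 (by omega)) h (Finset.mem_range.2 (by omega)) hn h1 h3 h4

theorem s0745 (G : Subgroup (Perm α)) {k : ℕ} (hk : 3 ≤ k) (hkn : k ≤ Fintype.card α) (hkt : KT G (k - 2))
    (hnt : ¬ KT G (k - 1)) (hh1 : Hom G (k - 1)) (hh : Hom G k) :
    (k = Fintype.card α ∧ G = alternatingGroup α) ∨ (Fintype.card α = 5 ∧ k = 4 ∧ Nat.card G = 20) ∨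
      (Fintype.card α = 6 ∧ k = 5 ∧ Nat.card G = 120) ∨
      (Fintype.card α = 9 ∧ k = 5 ∧ (Nat.card G = 504 ∨ Nat.card G = 1512)) := by
  classical
  by_cases hkn' : k = Fintype.card α
  · left
    refine ⟨hkn', ?_⟩
    rw [hkn'] at hkt hnt
    exact eq_alt (by omega) hkt hnt
  have hlt : k < Fintype.card α := lt_of_le_of_ne hkn hkn'
  by_cases hk6 : 6 ≤ k
  · exfalso
    have hLE : LE G (k - 1) := LE.of (by omega) (by omega) (by rw [show k - 1 - 1 = k - 2 by omega]; exact hkt) hh1 hnt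
    by_cases hk7 : k = 6
    · subst hk7
      have := LE.five hLE
      omega
    · have := hLE.six (by omega) (by omega)
      omega
  obtain ⟨r, hr⟩ := exists_set (α := α) (j := k - 2) (by omega)
  obtain ⟨s, hs⟩ := exists_set (α := α) (j := k - 1) (by omega)
  obtain ⟨s', hs'⟩ := exists_set (α := α) (j := k) (by omega)
  have hfix : ∀ s : Finset α, s.card = k - 1 → ∀ g ∈ G, (∀ x ∈ s, g x = x) → g = 1 :=
    fun s hs => fix_triv (by omega) hkn hh1 hh hnt hs
  have eA := eqA (by omega) hkn hkt hh1 hr hs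
  have eB := eqB (by omega) hkn hh1 hh hs hs'
  have hG := card_SetS hh1 hs
  have hdvd := card_SetS_dvd (hfix s hs)
  have hne : Nat.card (SetS G s) ≠ (k - 1).factorial := fun h => hnt (KT_of_card (by omega) (by omega) hh1 hs (hfix s hs) h)
  have hconst : ∀ t : Finset α, t.card = k - 1 → Nat.card (SetS G t) = Nat.card (SetS G s) :=
    fun t ht => hom_card_SetS (by omega) hh1 ht hs
  have hFconst : ∀ t : Finset α, t.card = k - 2 → Nat.card (FxS G t) = Nat.card (FxS G r) :=
    fun t ht => card_FxS hkt (by omega) (by omega)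
  rw [hs] at hdvd
  have hk5 : k ≤ 5 := by omega
  interval_cases k
  · -- k = 3
    exfalso
    simp only [Nat.reduceSub] at *
    have hf : (2 : ℕ).factorial = 2 := rfl
    rw [hf] at hdvd hne
    obtain ⟨h1, h2⟩ := nt3 hkn hdvd hne (Dvd.intro _ eB.symm)
    rcases h2 with h2 | h2
    · exact hkn' h2.symm
    · have h3 : Nat.card G = 10 := by rw [hG, h1, h2]; rfl
      have h4 := (Cfsg.Agent.S0735.result G ((hom_iff G 2).1 hh1) (by omega)).1 (by rw [h3]; decide)
      exact hnt (KT_of_multi h4 (by omega))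
  · -- k = 4
    simp only [Nat.reduceSub] at *
    have hf : (3 : ℕ).factorial = 6 := rfl
    rw [hf] at hdvd hne eA
    rcases nt4 hlt hdvd hne (Dvd.intro _ eB.symm) (Dvd.intro _ eA) with ⟨h1, h2⟩ | ⟨h1, h2⟩ | ⟨h1, h2⟩
    · right; left
      refine ⟨h1, trivial, ?_⟩
      rw [hG, h1, h2]; rfl
    · exfalso
      have h3 : Nat.card G = 330 := by rw [hG, h1, h2]; rfl
      obtain ⟨g, hg, hg3⟩ := ord_exists (K := G) Nat.prime_three (by rw [h3]; decide)
      have := excl3 hg hg3 (R := ∅) (fun x hx => absurd hx (Finset.notMem_empty x)) (h := 2)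
        (fun t ht => by rw [hconst t (by simpa using ht), h2])
      exact absurd this (by decide)
    · exfalso
      rw [h1, h2] at eA
      have h3 : Nat.card (FxS G r) = 2 := by omega
      obtain ⟨i, hi, hi2, hi1⟩ := inv_exists (K := FxS G r) (by rw [h3])
      obtain ⟨R, hR, hRc⟩ := Finset.exists_subset_card_eq (s := r) (n := 1) (by omega)
      have := excl2 hi.1 hi2 hi1 (R := R) (fun x hx => hi.2 x (hR hx)) (h := 3)
        (fun t ht => by rw [hconst t (by omega), h2])
      exact absurd this (by decide)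
  · -- k = 5
    simp only [Nat.reduceSub] at *
    have hf : (4 : ℕ).factorial = 24 := rfl
    rw [hf] at hdvd hne eA
    have hcases := nt5 hlt hdvd hne (Dvd.intro _ eB.symm) (Dvd.intro _ eA)
    simp only [List.mem_cons, Prod.mk.injEq, List.not_mem_nil, or_false] at hcases
    have hfx : ∀ i ∈ G, i ≠ 1 → (fx i).card < 4 := by
      intro i hi hi1
      by_contra h
      push Not at h
      obtain ⟨q, hq, hqc⟩ := Finset.exists_subset_card_eq h
      exact hi1 (hfix q hqc i hi (fun x hx => mem_fx.1 (hq hx)))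
    rcases hcases with ⟨h1, h2⟩ | ⟨h1, h2⟩ | ⟨h1, h2⟩ | ⟨h1, h2⟩ | ⟨h1, h2⟩ | ⟨h1, h2⟩ | ⟨h1, h2⟩ | ⟨h1, h2⟩ | ⟨h1, h2⟩ |
      ⟨h1, h2⟩ | ⟨h1, h2⟩
    · right; right; left
      refine ⟨h1, trivial, ?_⟩
      rw [hG, h1, h2]; rfl
    · right; right; right
      refine ⟨h1, trivial, Or.inl ?_⟩
      rw [hG, h1, h2]; rfl
    · right; right; right
      refine ⟨h1, trivial, Or.inr ?_⟩
      rw [hG, h1, h2]; rfl
    · exfalso
      rw [h1, h2] at eA
      have h3 : Nat.card (FxS G r) = 2 := by omega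
      obtain ⟨i, hi, hi2, hi1⟩ := inv_exists (K := FxS G r) (by rw [h3])
      obtain ⟨R, hR, hRc⟩ := Finset.exists_subset_card_eq (s := r) (n := 2) (by omega)
      exact excl12 hi.1 hi2 hi1 (R := R) (fun x hx => hi.2 x (hR hx)) hRc hfix (fun t ht => by rw [hconst t ht, h2])
    · exfalso
      rw [h1, h2] at eA
      have h3 : Nat.card (FxS G r) = 8 := by omega
      obtain ⟨i, hi, hi2, hi1⟩ := inv_exists (K := FxS G r) (by rw [h3]; decide)
      obtain ⟨R, hR, hRc⟩ := Finset.exists_subset_card_eq (s := r) (n := 2) (by omega)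
      exact excl12 hi.1 hi2 hi1 (R := R) (fun x hx => hi.2 x (hR hx)) hRc hfix (fun t ht => by rw [hconst t ht, h2])
    · exfalso
      rw [h1, h2] at eA
      have h3 : Nat.card (FxS G r) = 2 := by omega
      exact excl9 h1 hfix (fun t ht => by rw [hconst t ht, h2]) (fun t ht => by rw [hFconst t ht, h3])
    · exfalso
      rw [h1, h2] at eA
      have h3 : Nat.card (FxS G r) = 3 := by omega
      obtain ⟨g, hg, hg3⟩ := ord_exists (K := FxS G r) Nat.prime_three (by rw [h3])
      obtain ⟨R, hR, hRc⟩ := Finset.exists_subset_card_eq (s := r) (n := 1) (by omega)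
      have := excl3 hg.1 hg3 (R := R) (fun x hx => hg.2 x (hR hx)) (h := 8)
        (fun t ht => by rw [hconst t (by omega), h2])
      exact absurd this (by decide)
    · exfalso
      rw [h1, h2] at eA
      have h3 : Nat.card (FxS G r) = 7 := by omega
      obtain ⟨c, hc⟩ := Finset.card_pos.1 (show 0 < r.card by omega)
      have hRc : (r.erase c).card = 2 := by rw [Finset.card_erase_of_mem hc]; omega
      have h4 := card_FxS_eq (hkt.mono (show 2 ≤ 3 by norm_num)) hRc
      have h5 : Nat.card G = 85008 := by rw [hG, h1, h2]; rfl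
      have h6 : (24 : ℕ).descFactorial 2 = 552 := rfl
      rw [h5, h1, h6] at h4
      exact excl24 hfix (R := r.erase c) (c := c) (Finset.notMem_erase c r) (by omega) (by rw [Finset.insert_erase hc, h3])
    · exfalso
      have h3 : Nat.card G = 210 := by rw [hG, h1, h2]; rfl
      obtain ⟨i, hi, hi2, hi1⟩ := inv_exists (K := G) (by rw [h3]; decide)
      have := hfx i hi hi1
      exact excl6 hi hi2 hi1 (by omega) hfix (fun t ht => by rw [hconst t ht, h2])
    · exfalso
      have h3 : Nat.card G = 23256 := by rw [hG, h1, h2]; rfl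
      obtain ⟨i, hi, hi2, hi1⟩ := inv_exists (K := G) (by rw [h3]; decide)
      have := hfx i hi hi1
      exact excl6 hi hi2 hi1 (by omega) hfix (fun t ht => by rw [hconst t ht, h2])
    · exfalso
      rw [h1, h2] at eA
      have h3 : Nat.card (FxS G r) = 2 := by omega
      obtain ⟨i, hi, hi2, hi1⟩ := inv_exists (K := FxS G r) (by rw [h3])
      obtain ⟨R, hR, hRc⟩ := Finset.exists_subset_card_eq (s := r) (n := 2) (by omega)
      have := excl2 hi.1 hi2 hi1 (R := R) (fun x hx => hi.2 x (hR hx)) (h := 3)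
        (fun t ht => by rw [hconst t (by omega), h2])
      exact absurd this (by decide)

theorem s0746 (G : Subgroup (Perm α)) : ∀ {k : ℕ}, 2 ≤ k → 2 * k ≤ Fintype.card α → Hom G k → KT G (k - 1) := by
  intro k hk
  induction k, hk using Nat.le_induction with
  | base =>
    intro hn hh
    have h1 := pred_hom G (le_refl 2) hh (fun q hq hqd => by
      have := Nat.le_of_dvd (by norm_num) hqd; omega)
    intro s hs τ
    obtain ⟨g, hg, hgs⟩ : ∃ g ∈ G, s.map g.toEmbedding = s.map τ.toEmbedding := by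
      rcases Nat.lt_or_ge s.card 1 with h2 | h2
      · have : s = ∅ := Finset.card_eq_zero.1 (by omega)
        subst this
        exact ⟨1, G.one_mem, rfl⟩
      · exact h1 s (s.map τ.toEmbedding) (by omega) (by rw [Finset.card_map]; omega)
    refine ⟨g, hg, fun x hx => ?_⟩
    have h3 : g x ∈ s.map τ.toEmbedding := by rw [← hgs]; exact Finset.mem_map_of_mem _ hx
    obtain ⟨y, hy, hyx⟩ := Finset.mem_map.1 h3
    have h4 : y = x := Finset.card_le_one.1 (by simpa using hs) y hy x hx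
    rw [← hyx, h4]; rfl
  | succ k hk ih =>
    intro hn hh
    have hh1 : Hom G k := pred_hom G (by omega) hh (fun q hq hqd => by
      have := Nat.le_of_dvd (by omega) hqd; omega)
    have hkt := ih (by omega) hh1
    by_contra hcon
    have := s0745 G (k := k + 1) (by omega) (by omega) hkt hcon hh1 hh
    omega

theorem s0748 (G : Subgroup (Perm α)) {k : ℕ} (hk : 5 ≤ k) (hn : 2 * k ≤ Fintype.card α) (hh : Hom G k) : KT G k := by
  by_contra hcon
  have h1 := s0746 G (by omega) hn hh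
  have hLE : LE G k := LE.of hk (by omega) h1 hh hcon
  by_cases hk5 : k = 5
  · subst hk5
    have := hLE.five
    omega
  · have := hLE.six (by omega) (by omega)
    omega

end Cfsg.Agent.Lib.H3LW
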