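import Cfsg.Agent.Lib.CharPermB
import Cfsg.Agent.Lib.CharInt
import Cfsg.Prelude.Def_Perm
import Mathlib

set_option autoImplicit false

/-! multiplicity-free representations and the commutant (helper3) -/

namespace Cfsg.Agent.Lib.H3MF

open Cfsg Representation Module Cfsg.Agent.Lib.CharBasic

universe u
variable {G : Type*} [Group G] [Fintype G]

/-- equivariance -/
def Eqv {V W : Type*} [AddCommGroup V] [Module ℂ V] [AddCommGroup W] [Module ℂ W] (ρ : Representation ℂ G V)
    (σ : Representation ℂ G W) (f : V →ₗ[ℂ] W) : Prop := ∀ g v, f (ρ g v) = σ g (f v)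

theorem eq_zero_of_inner {V W : Type*} [AddCommGroup V] [Module ℂ V] [FiniteDimensional ℂ V] [AddCommGroup W] [Module ℂ W]
    [FiniteDimensional ℂ W] (ρ : Representation ℂ G V) (σ : Representation ℂ G W)
    (h : classInner σ.character ρ.character = 0) {f : V →ₗ[ℂ] W} (hf : Eqv ρ σ f) : f = 0 := by
  rw [classInner_char_eq_finrank] at h
  have h1 : finrank ℂ (IntertwiningMap ρ σ) = 0 := by exact_mod_cast h
  have h2 : Subsingleton (IntertwiningMap ρ σ) := Module.finrank_zero_iff.1 h1
  have h3 := Subsingleton.elim (f.intertwiningMap_of_isIntertwiningMap ρ σ hf) 0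
  ext v
  exact congrArg (fun w : IntertwiningMap ρ σ => w v) h3

theorem exists_of_inner {V W : Type*} [AddCommGroup V] [Module ℂ V] [FiniteDimensional ℂ V] [AddCommGroup W] [Module ℂ W]
    [FiniteDimensional ℂ W] (ρ : Representation ℂ G V) (σ : Representation ℂ G W)
    (h : classInner σ.character ρ.character ≠ 0) : ∃ f : V →ₗ[ℂ] W, Eqv ρ σ f ∧ f ≠ 0 := by
  rw [classInner_char_eq_finrank] at h
  have h1 : finrank ℂ (IntertwiningMap ρ σ) ≠ 0 := by exact_mod_cast h
  have h2 : Nontrivial (IntertwiningMap ρ σ) := Module.nontrivial_of_finrank_pos (Nat.pos_of_ne_zero h1)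
  obtain ⟨f, hf⟩ := exists_ne (0 : IntertwiningMap ρ σ)
  refine ⟨f.toLinearMap, fun g v => ?_, fun h3 => hf ?_⟩
  · exact LinearMap.congr_fun (f.isIntertwining' g) v
  · exact IntertwiningMap.toLinearMap_injective ρ σ h3

theorem inner_char {V : Type*} [AddCommGroup V] [Module ℂ V] [FiniteDimensional ℂ V] (ρ : Representation ℂ G V)
    (W W' : Subrepresentation ρ) (h : IsCompl W.toSubmodule W'.toSubmodule) (χ : G → ℂ) :
    classInner ρ.character χ = classInner W.toRepresentation.character χ + classInner W'.toRepresentation.character χ := by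
  rw [← classInner_add_left]
  congr 1
  funext g
  exact char_eq_add_of_isCompl ρ W W' h g

theorem inv_app {V : Type*} [AddCommGroup V] [Module ℂ V] (ρ : Representation ℂ G V) (g : G) (v : V) : ρ g⁻¹ (ρ g v) = v := by
  rw [← Module.End.mul_apply, ← map_mul, inv_mul_cancel, map_one]; rfl

theorem app_inv {V : Type*} [AddCommGroup V] [Module ℂ V] (ρ : Representation ℂ G V) (g : G) (v : V) : ρ g (ρ g⁻¹ v) = v := by
  rw [← Module.End.mul_apply, ← map_mul, mul_inv_cancel, map_one]; rfl

/-- multiplicity-freeness -/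
def MF (χ : G → ℂ) : Prop := ∀ ψ : G → ℂ, IsIrrCharacter G ψ → classInner χ ψ = 0 ∨ classInner χ ψ = 1

theorem inner_zero_of_mf {a b : G → ℂ} (ha : IsCharacter G a) (hb : IsCharacter G b) (h : MF (a + b)) : classInner a b = 0 := by
  rw [char_eq_sum_inner hb, classInner_sum_right]
  apply Finset.sum_eq_zero
  intro ψ _
  rw [classInner_smul_right]
  obtain ⟨n, hn⟩ := exists_nat_inner ha ψ.2
  obtain ⟨m, hm⟩ := exists_nat_inner hb ψ.2
  have h1 := h ψ.1 ψ.2
  rw [classInner_add_left, hn, hm] at h1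
  have h2 : n + m = 0 ∨ n + m = 1 := by
    rcases h1 with h1 | h1
    · left; exact_mod_cast h1
    · right; exact_mod_cast h1
  rw [hn, hm]
  rcases Nat.eq_zero_or_pos n with h3 | h3
  · rw [h3]; simp
  · have : m = 0 := by omega
    rw [this]; simp

theorem mf_left {a b : G → ℂ} (ha : IsCharacter G a) (hb : IsCharacter G b) (h : MF (a + b)) : MF a := by
  intro ψ hψ
  obtain ⟨n, hn⟩ := exists_nat_inner ha hψ
  obtain ⟨m, hm⟩ := exists_nat_inner hb hψ
  have h1 := h ψ hψ
  rw [classInner_add_left, hn, hm] at h1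
  have h2 : n + m = 0 ∨ n + m = 1 := by
    rcases h1 with h1 | h1
    · left; exact_mod_cast h1
    · right; exact_mod_cast h1
  rw [hn]
  have h3 : n = 0 ∨ n = 1 := by omega
  rcases h3 with h3 | h3
  · left; rw [h3]; simp
  · right; rw [h3]; simp

/-- projection onto a subrepresentation -/
theorem proj_eqv {V : Type*} [AddCommGroup V] [Module ℂ V] (ρ : Representation ℂ G V)
    (W W' : Subrepresentation ρ) (h : IsCompl W.toSubmodule W'.toSubmodule) :
    Eqv ρ W.toRepresentation (Submodule.projectionOnto W.toSubmodule W'.toSubmodule h) := by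
  intro g v
  obtain ⟨w, w', rfl⟩ : ∃ (w : W.toSubmodule) (w' : W'.toSubmodule), v = w + w' := by
    have := h.sup_eq_top
    have hv : v ∈ W.toSubmodule ⊔ W'.toSubmodule := by rw [this]; trivial
    obtain ⟨w, hw, w', hw', rfl⟩ := Submodule.mem_sup.1 hv
    exact ⟨⟨w, hw⟩, ⟨w', hw'⟩, rfl⟩
  have e1 : ρ g (w : V) = ((W.toRepresentation g w : W.toSubmodule) : V) := rfl
  have e2 : ρ g (w' : V) = ((W'.toRepresentation g w' : W'.toSubmodule) : V) := rfl
  rw [map_add, map_add, map_add, e1, e2, Submodule.linearProjOfIsCompl_apply_left, Submodule.linearProjOfIsCompl_apply_right,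
    Submodule.linearProjOfIsCompl_apply_left, Submodule.linearProjOfIsCompl_apply_right, add_zero, add_zero]

theorem comm_of_mf (n : ℕ) : ∀ {V : Type u} [AddCommGroup V] [Module ℂ V] [FiniteDimensional ℂ V],
    finrank ℂ V = n → ∀ (ρ : Representation ℂ G V), MF ρ.character → ∀ S T : V →ₗ[ℂ] V, Eqv ρ ρ S → Eqv ρ ρ T →
    S ∘ₗ T = T ∘ₗ S := by
  induction n using Nat.strong_induction_on with
  | _ n ih =>
  intro V _ _ _ hn ρ hmf S T hS hT
  by_cases hV : Nontrivial V
  · by_cases hirr : ρ.IsIrreducible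
    · haveI := hirr
      obtain ⟨c, hc⟩ : ∃ c : ℂ, S = c • (LinearMap.id : V →ₗ[ℂ] V) := ⟨_, Cfsg.Agent.Lib.CharInt.schur ρ S (by
        intro g; ext v; exact hS g v)⟩
      rw [hc]
      ext v
      simp
    · rw [isIrreducible_iff] at hirr
      push Not at hirr
      obtain ⟨W, hW, hb, ht⟩ := hirr hV
      let W₁ : Subrepresentation ρ := ⟨W, fun g v hv => hW g v hv⟩
      obtain ⟨W₂, hW₂⟩ := exists_isCompl_invariant ρ W₁
      have hsum := Submodule.finrank_add_eq_of_isCompl hW₂
      have h1 : 0 < finrank ℂ W₁.toSubmodule := by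
        rw [finrank_pos_iff]
        exact (Submodule.nontrivial_iff_ne_bot).mpr hb
      have h2 : finrank ℂ W₁.toSubmodule < n := by
        rw [← hn]
        exact Submodule.finrank_lt ht
      have h3 : finrank ℂ W₂.toSubmodule < n := by omega
      have hch : ρ.character = W₁.toRepresentation.character + W₂.toRepresentation.character := by
        funext g; exact char_eq_add_of_isCompl ρ W₁ W₂ hW₂ g
      have c1 := isCharacter_of_rep W₁.toRepresentation
      have c2 := isCharacter_of_rep W₂.toRepresentation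
      rw [hch] at hmf
      have hmf' : MF (W₂.toRepresentation.character + W₁.toRepresentation.character) := by rw [add_comm]; exact hmf
      -- equivariant maps preserve the two pieces
      have key : ∀ (A B : Subrepresentation ρ), IsCompl A.toSubmodule B.toSubmodule →
          classInner B.toRepresentation.character A.toRepresentation.character = 0 →
          ∀ R : V →ₗ[ℂ] V, Eqv ρ ρ R → ∀ v ∈ A.toSubmodule, R v ∈ A.toSubmodule := by
        intro A B hAB h0 R hR v hv
        let f : A.toSubmodule →ₗ[ℂ] B.toSubmodule :=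
          (Submodule.projectionOnto B.toSubmodule A.toSubmodule hAB.symm) ∘ₗ R ∘ₗ A.toSubmodule.subtype
        have hf : f = 0 := eq_zero_of_inner A.toRepresentation B.toRepresentation h0 (by
          intro g w
          change (Submodule.projectionOnto B.toSubmodule A.toSubmodule hAB.symm) (R (ρ g w)) = _
          rw [hR, proj_eqv ρ B A hAB.symm]
          rfl)
        have h4 := LinearMap.congr_fun hf ⟨v, hv⟩
        have h5 : (Submodule.projectionOnto B.toSubmodule A.toSubmodule hAB.symm) (R v) = 0 := h4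
        exact (Submodule.linearProjOfIsCompl_apply_eq_zero_iff hAB.symm).1 h5
      have k1 := key W₁ W₂ hW₂ (inner_zero_of_mf c2 c1 hmf')
      have k2 := key W₂ W₁ hW₂.symm (inner_zero_of_mf c1 c2 hmf)
      have i1 := ih _ h2 rfl W₁.toRepresentation (mf_left c1 c2 hmf) (S.restrict (k1 S hS)) (T.restrict (k1 T hT))
        (fun g v => Subtype.ext (hS g v)) (fun g v => Subtype.ext (hT g v))
      have i2 := ih _ h3 rfl W₂.toRepresentation (mf_left c2 c1 hmf') (S.restrict (k2 S hS)) (T.restrict (k2 T hT))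
        (fun g v => Subtype.ext (hS g v)) (fun g v => Subtype.ext (hT g v))
      ext v
      have hv : v ∈ W₁.toSubmodule ⊔ W₂.toSubmodule := by rw [hW₂.sup_eq_top]; trivial
      obtain ⟨w, hw, w', hw', rfl⟩ := Submodule.mem_sup.1 hv
      have j1 := congrArg Subtype.val (LinearMap.congr_fun i1 ⟨w, hw⟩)
      have j2 := congrArg Subtype.val (LinearMap.congr_fun i2 ⟨w', hw'⟩)
      change S (T w) = T (S w) at j1
      change S (T w') = T (S w') at j2
      change S (T (w + w')) = T (S (w + w'))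
      rw [map_add, map_add, map_add, map_add, j1, j2]
  · rw [not_nontrivial_iff_subsingleton] at hV
    ext v
    exact Subsingleton.elim _ _

theorem mf_of_comm {V : Type u} [AddCommGroup V] [Module ℂ V] [FiniteDimensional ℂ V] (ρ : Representation ℂ G V)
    (hcomm : ∀ S T : V →ₗ[ℂ] V, Eqv ρ ρ S → Eqv ρ ρ T → S ∘ₗ T = T ∘ₗ S) : MF ρ.character := by
  intro χ hχ
  obtain ⟨n, hn⟩ := exists_nat_inner (isCharacter_of_rep ρ) hχ
  by_contra hcon
  rw [hn] at hcon
  push Not at hcon
  have hn0 : n ≠ 0 := fun h => hcon.1 (by rw [h]; simp)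
  have hn1 : n ≠ 1 := fun h => hcon.2 (by rw [h]; simp)
  obtain ⟨m, σ, hσ, hσχ⟩ := id hχ
  haveI := hσ
  -- an embedding
  obtain ⟨f, hf, hf0⟩ := exists_of_inner σ ρ (by
    rw [hσχ, hn]; exact_mod_cast hn0)
  have hker : LinearMap.ker f = ⊥ := by
    have h1 := (isIrreducible_iff σ).1 hσ
    have h2 := h1.2 (LinearMap.ker f) (fun g v hv => by
      rw [LinearMap.mem_ker] at hv ⊢
      rw [hf, hv, map_zero])
    rcases h2 with h2 | h2
    · exact h2
    · exact absurd (LinearMap.ker_eq_top.1 h2) hf0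
  let W : Subrepresentation ρ := ⟨LinearMap.range f, by
    rintro g _ ⟨v, rfl⟩
    exact ⟨σ g v, hf g v⟩⟩
  obtain ⟨W', hW'⟩ := exists_isCompl_invariant ρ W
  let e : (Fin m → ℂ) ≃ₗ[ℂ] W.toSubmodule := LinearEquiv.ofInjective f (LinearMap.ker_eq_bot.1 hker)
  have he : Eqv σ W.toRepresentation e.toLinearMap := fun g v => Subtype.ext (hf g v)
  have hWchar : W.toRepresentation.character = χ := by
    rw [← hσχ]
    funext g
    have h1 : e.conj (σ g) = W.toRepresentation g := by
      ext w
      rw [LinearEquiv.conj_apply_apply]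
      have h2 := he g (e.symm w)
      change ((e (σ g (e.symm w)) : W.toSubmodule) : V) = _
      have h3 : e (σ g (e.symm w)) = W.toRepresentation g (e (e.symm w)) := h2
      rw [h3, LinearEquiv.apply_symm_apply]
    rw [character, ← h1, LinearMap.trace_conj']
    rfl
  have hW'0 : classInner W'.toRepresentation.character σ.character ≠ 0 := by
    have h1 := inner_char ρ W W' hW' χ
    rw [hWchar, irr_inner_self hχ, hn] at h1
    rw [hσχ]
    intro h2
    rw [h2, add_zero] at h1
    exact hn1 (by exact_mod_cast h1)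
  obtain ⟨h, hh, hh0⟩ := exists_of_inner σ W'.toRepresentation hW'0
  let pW := Submodule.projectionOnto W.toSubmodule W'.toSubmodule hW'
  have hpW := proj_eqv ρ W W' hW'
  have hesymm : ∀ g w, e.symm (W.toRepresentation g w) = σ g (e.symm w) := by
    intro g w
    rw [LinearEquiv.symm_apply_eq]
    have h3 : e (σ g (e.symm w)) = W.toRepresentation g (e (e.symm w)) := he g (e.symm w)
    rw [h3, LinearEquiv.apply_symm_apply]
  let S : V →ₗ[ℂ] V := W.toSubmodule.subtype ∘ₗ pW
  let T : V →ₗ[ℂ] V := W'.toSubmodule.subtype ∘ₗ h ∘ₗ e.symm.toLinearMap ∘ₗ pW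
  have hS : Eqv ρ ρ S := by
    intro g v
    change ((pW (ρ g v) : W.toSubmodule) : V) = ρ g (pW v)
    rw [hpW g v]; rfl
  have hT : Eqv ρ ρ T := by
    intro g v
    change ((h (e.symm (pW (ρ g v))) : W'.toSubmodule) : V) = ρ g (h (e.symm (pW v)))
    rw [hpW g v, hesymm, hh]; rfl
  have h1 := hcomm S T hS hT
  obtain ⟨u, hu⟩ : ∃ u, h u ≠ 0 := by
    by_contra hne
    push Not at hne
    exact hh0 (LinearMap.ext hne)
  have h2 := LinearMap.congr_fun h1 (f u)
  have h3 : pW (f u) = e u := Submodule.linearProjOfIsCompl_apply_left hW' (e u)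
  have h4 : S (T (f u)) = 0 := by
    change ((pW (h (e.symm (pW (f u))) : V) : W.toSubmodule) : V) = 0
    rw [Submodule.linearProjOfIsCompl_apply_right hW']
    rfl
  have h5 : T (S (f u)) = h u := by
    change ((h (e.symm (pW ((pW (f u) : W.toSubmodule) : V))) : W'.toSubmodule) : V) = h u
    rw [h3]
    have h6 : pW ((e u : W.toSubmodule) : V) = e u := Submodule.linearProjOfIsCompl_apply_left hW' (e u)
    rw [h6, LinearEquiv.symm_apply_apply]
  change S (T (f u)) = T (S (f u)) at h2
  rw [h4, h5] at h2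
  exact hu (Subtype.ext h2.symm)

/-- the character of the permutation representation on functions -/
theorem char_permRep {Ω : Type*} [Fintype Ω] [MulAction G Ω] :
    (Cfsg.permRep ℂ G Ω).character = fun g => (Nat.card (MulAction.fixedBy Ω g) : ℂ) := by
  classical
  funext g
  rw [Representation.character, LinearMap.trace_eq_matrix_trace ℂ (Pi.basisFun ℂ Ω), Matrix.trace]
  simp only [Matrix.diag_apply, LinearMap.toMatrix_apply, Pi.basisFun_apply, Pi.basisFun_repr]
  have h1 : ∀ x : Ω, (Cfsg.permRep ℂ G Ω g (Pi.single x 1)) x = if g • x = x then 1 else 0 := by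
    intro x
    change (Pi.single x (1 : ℂ) : Ω → ℂ) (g⁻¹ • x) = _
    rw [Pi.single_apply]
    congr 1
    rw [eq_iff_iff, inv_smul_eq_iff]
    exact eq_comm
  simp only [h1]
  rw [Finset.sum_boole, Nat.card_eq_fintype_card]
  congr 1
  rw [← Fintype.card_subtype]
  apply Fintype.card_congr
  exact Equiv.subtypeEquivRight fun x => by simp [MulAction.mem_fixedBy]

theorem mem_invariants_iff {Ω : Type*} [Fintype Ω] [MulAction G Ω] (S : (Ω → ℂ) →ₗ[ℂ] (Ω → ℂ)) :
    S ∈ ((Cfsg.permRep ℂ G Ω).linHom (Cfsg.permRep ℂ G Ω)).invariants ↔ Eqv (Cfsg.permRep ℂ G Ω) (Cfsg.permRep ℂ G Ω) S := by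
  rw [Representation.mem_invariants]
  constructor
  · intro h g v
    have h1 := LinearMap.congr_fun (h g) (Cfsg.permRep ℂ G Ω g v)
    rw [Representation.linHom_apply] at h1
    change (Cfsg.permRep ℂ G Ω g) (S ((Cfsg.permRep ℂ G Ω g⁻¹) ((Cfsg.permRep ℂ G Ω g) v))) = _ at h1
    rw [← h1, inv_app]
  · intro h g
    rw [Representation.linHom_apply]
    ext1 v
    change (Cfsg.permRep ℂ G Ω g) (S ((Cfsg.permRep ℂ G Ω g⁻¹) v)) = S v
    rw [← h, app_inv]

theorem s0718 {Ω : Type u} [Fintype Ω] [MulAction G Ω] : (∀ χ : G → ℂ, Cfsg.IsIrrCharacter G χ → Cfsg.classInner (fun g : G => (Nat.card (MulAction.fixedBy Ω g) : ℂ)) χ = 0 ∨ Cfsg.classInner (fun g : G => (Nat.card (MulAction.fixedBy Ω g) : ℂ)) χ = 1) ↔ ∀ S T : (Ω → ℂ) →ₗ[ℂ] (Ω → ℂ), S ∈ ((Cfsg.permRep ℂ G Ω).linHom (Cfsg.permRep ℂ G Ω)).invariants → T ∈ ((Cfsg.permRep ℂ G Ω).linHom (Cfsg.permRep ℂ G Ω)).invariants → S ∘ₗ T = T ∘ₗ S := by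
  constructor
  · intro h S T hS hT
    exact comm_of_mf _ rfl (Cfsg.permRep ℂ G Ω) (by rw [char_permRep]; exact h) S T ((mem_invariants_iff S).1 hS) ((mem_invariants_iff T).1 hT)
  · intro h
    have := mf_of_comm (Cfsg.permRep ℂ G Ω) (fun S T hS hT => h S T ((mem_invariants_iff S).2 hS) ((mem_invariants_iff T).2 hT))
    rw [char_permRep] at this
    exact this

end Cfsg.Agent.Lib.H3MF
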