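import Cfsg.Agent.Lib.H3MF

set_option autoImplicit false

namespace Cfsg.Agent.Lib.H3MF

open Cfsg Representation Module Cfsg.Agent.Lib.CharBasic
open scoped ComplexConjugate

universe u
variable {G : Type*} [Group G] [Fintype G]

/-- the map to the dual given by an invariant bilinear form -/
theorem dual_eqv {V : Type*} [AddCommGroup V] [Module ℂ V] (ρ : Representation ℂ G V) (B : V →ₗ[ℂ] V →ₗ[ℂ] ℂ)
    (hB : ∀ g u v, B (ρ g u) (ρ g v) = B u v) (A A' : Subrepresentation ρ) :
    Eqv A.toRepresentation A'.toRepresentation.dual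
      ((LinearMap.lcomp ℂ ℂ A'.toSubmodule.subtype) ∘ₗ B ∘ₗ A.toSubmodule.subtype) := by
  intro g v
  ext w
  rw [Representation.dual_apply, Module.Dual.transpose_apply]
  change B (ρ g v) w = B v (ρ g⁻¹ w)
  have h := hB g⁻¹ (ρ g v) w
  rw [inv_app] at h
  exact h.symm

theorem inner_conj_left (a b : G → ℂ) (ha : ∀ g, conj (a g) = a g) : True := trivial

theorem char_dual_eq {V : Type*} [AddCommGroup V] [Module ℂ V] [FiniteDimensional ℂ V] (ρ : Representation ℂ G V) :
    ρ.dual.character = fun g => conj (ρ.character g) := by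
  funext g
  rw [Representation.char_dual, char_inv (isCharacter_of_rep ρ)]

theorem form_zero {V : Type*} [AddCommGroup V] [Module ℂ V] [FiniteDimensional ℂ V] (ρ : Representation ℂ G V)
    (B : V →ₗ[ℂ] V →ₗ[ℂ] ℂ) (hB : ∀ g u v, B (ρ g u) (ρ g v) = B u v) (A A' : Subrepresentation ρ)
    (h : classInner (fun g => conj (A'.toRepresentation.character g)) A.toRepresentation.character = 0)
    {u v : V} (hu : u ∈ A.toSubmodule) (hv : v ∈ A'.toSubmodule) : B u v = 0 := by
  have h1 := eq_zero_of_inner A.toRepresentation A'.toRepresentation.dual (by rw [char_dual_eq]; exact h)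
    (dual_eqv ρ B hB A A')
  have h2 := LinearMap.congr_fun h1 ⟨u, hu⟩
  have h3 := LinearMap.congr_fun h2 ⟨v, hv⟩
  exact h3

/-- all constituents real-valued -/
def RC (χ : G → ℂ) : Prop := ∀ ψ : G → ℂ, IsIrrCharacter G ψ → classInner χ ψ ≠ 0 → ∀ g, conj (ψ g) = ψ g

theorem conj_of_RC {a : G → ℂ} (ha : IsCharacter G a) (h : RC a) (g : G) : conj (a g) = a g := by
  have h1 := char_eq_sum_inner ha
  have h2 : a g = ∑ ψ : IrrCharacter G, classInner a ψ.1 * ψ.1 g := by
    conv_lhs => rw [h1]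
    rw [Finset.sum_apply]
    rfl
  rw [h2, map_sum]
  apply Finset.sum_congr rfl
  intro ψ _
  rw [map_mul]
  obtain ⟨n, hn⟩ := exists_nat_inner ha ψ.2
  rw [hn, Complex.conj_natCast]
  by_cases h0 : n = 0
  · rw [h0]; simp
  · rw [h ψ.1 ψ.2 (by rw [hn]; exact_mod_cast h0) g]

theorem rc_left {a b : G → ℂ} (ha : IsCharacter G a) (hb : IsCharacter G b) (h : RC (a + b)) : RC a := by
  intro ψ hψ h0
  obtain ⟨n, hn⟩ := exists_nat_inner ha hψ
  obtain ⟨m, hm⟩ := exists_nat_inner hb hψ
  apply h ψ hψ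
  rw [classInner_add_left, hn, hm]
  rw [hn] at h0
  have : n ≠ 0 := by exact_mod_cast h0
  have h2 : n + m ≠ 0 := by omega
  exact_mod_cast h2

theorem sym_of_real (n : ℕ) : ∀ {V : Type u} [AddCommGroup V] [Module ℂ V] [FiniteDimensional ℂ V],
    finrank ℂ V = n → ∀ (ρ : Representation ℂ G V), MF ρ.character → RC ρ.character →
    ∀ (B : V →ₗ[ℂ] V →ₗ[ℂ] ℂ), (∀ g u v, B (ρ g u) (ρ g v) = B u v) → ∀ S : V →ₗ[ℂ] V, Eqv ρ ρ S →
    ∀ u v, B (S u) v = B u (S v) := by
  induction n using Nat.strong_induction_on with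
  | _ n ih =>
  intro V _ _ _ hn ρ hmf hrc B hB S hS
  by_cases hV : Nontrivial V
  · by_cases hirr : ρ.IsIrreducible
    · haveI := hirr
      obtain ⟨c, hc⟩ : ∃ c : ℂ, S = c • (LinearMap.id : V →ₗ[ℂ] V) := ⟨_, Cfsg.Agent.Lib.CharInt.schur ρ S (by
        intro g; ext v; exact hS g v)⟩
      intro u v
      rw [hc]
      simp
    · rw [isIrreducible_iff] at hirr
      push Not at hirr
      obtain ⟨W, hW, hb, ht⟩ := hirr hV
      let W₁ : Subrepresentation ρ := ⟨W, fun g v hv => hW g v hv⟩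
      obtain ⟨W₂, hW₂⟩ := exists_isCompl_invariant ρ W₁
      have hsum := Submodule.finrank_add_eq_of_isCompl hW₂
      have h1 : 0 < finrank ℂ W₁.toSubmodule := by
        rw [finrank_pos_iff]
        exact (Submodule.nontrivial_iff_ne_bot).mpr hb
      have h2 : finrank ℂ W₁.toSubmodule < n := by
        rw [← hn]
        exact Submodule.finrank_lt ht
      have h3 : finrank ℂ W₂.toSubmodule < n := by omega
      have hch : ρ.character = W₁.toRepresentation.character + W₂.toRepresentation.character := by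
        funext g; exact char_eq_add_of_isCompl ρ W₁ W₂ hW₂ g
      have c1 := isCharacter_of_rep W₁.toRepresentation
      have c2 := isCharacter_of_rep W₂.toRepresentation
      rw [hch] at hmf hrc
      have hmf' : MF (W₂.toRepresentation.character + W₁.toRepresentation.character) := by rw [add_comm]; exact hmf
      have hrc' : RC (W₂.toRepresentation.character + W₁.toRepresentation.character) := by rw [add_comm]; exact hrc
      have z1 := inner_zero_of_mf c2 c1 hmf'
      have z2 := inner_zero_of_mf c1 c2 hmf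
      have r1 := rc_left c1 c2 hrc
      have r2 := rc_left c2 c1 hrc'
      have key : ∀ (A B : Subrepresentation ρ), IsCompl A.toSubmodule B.toSubmodule →
          classInner B.toRepresentation.character A.toRepresentation.character = 0 →
          ∀ R : V →ₗ[ℂ] V, Eqv ρ ρ R → ∀ v ∈ A.toSubmodule, R v ∈ A.toSubmodule := by
        intro A B hAB h0 R hR v hv
        let f : A.toSubmodule →ₗ[ℂ] B.toSubmodule :=
          (Submodule.projectionOnto B.toSubmodule A.toSubmodule hAB.symm) ∘ₗ R ∘ₗ A.toSubmodule.subtype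
        have hf : f = 0 := eq_zero_of_inner A.toRepresentation B.toRepresentation h0 (by
          intro g w
          change (Submodule.projectionOnto B.toSubmodule A.toSubmodule hAB.symm) (R (ρ g w)) = _
          rw [hR, proj_eqv ρ B A hAB.symm]
          rfl)
        have h4 := LinearMap.congr_fun hf ⟨v, hv⟩
        have h5 : (Submodule.projectionOnto B.toSubmodule A.toSubmodule hAB.symm) (R v) = 0 := h4
        exact (Submodule.linearProjOfIsCompl_apply_eq_zero_iff hAB.symm).1 h5
      have k1 := key W₁ W₂ hW₂ z1 S hS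
      have k2 := key W₂ W₁ hW₂.symm z2 S hS
      have i1 := ih _ h2 rfl W₁.toRepresentation (mf_left c1 c2 hmf) r1
        ((LinearMap.lcomp ℂ ℂ W₁.toSubmodule.subtype) ∘ₗ B ∘ₗ W₁.toSubmodule.subtype)
        (fun g u v => hB g u v) (S.restrict k1) (fun g v => Subtype.ext (hS g v))
      have i2 := ih _ h3 rfl W₂.toRepresentation (mf_left c2 c1 hmf') r2
        ((LinearMap.lcomp ℂ ℂ W₂.toSubmodule.subtype) ∘ₗ B ∘ₗ W₂.toSubmodule.subtype)
        (fun g u v => hB g u v) (S.restrict k2) (fun g v => Subtype.ext (hS g v))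
      have e1 : (fun g => conj (W₁.toRepresentation.character g)) = W₁.toRepresentation.character :=
        funext fun g => conj_of_RC c1 r1 g
      have e2 : (fun g => conj (W₂.toRepresentation.character g)) = W₂.toRepresentation.character :=
        funext fun g => conj_of_RC c2 r2 g
      have o12 : ∀ u ∈ W₁.toSubmodule, ∀ v ∈ W₂.toSubmodule, B u v = 0 := fun u hu v hv =>
        form_zero ρ B hB W₁ W₂ (by rw [e2]; exact z1) hu hv
      have o21 : ∀ u ∈ W₂.toSubmodule, ∀ v ∈ W₁.toSubmodule, B u v = 0 := fun u hu v hv =>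
        form_zero ρ B hB W₂ W₁ (by rw [e1]; exact z2) hu hv
      intro u v
      have hu : u ∈ W₁.toSubmodule ⊔ W₂.toSubmodule := by rw [hW₂.sup_eq_top]; trivial
      have hv : v ∈ W₁.toSubmodule ⊔ W₂.toSubmodule := by rw [hW₂.sup_eq_top]; trivial
      obtain ⟨u1, hu1, u2, hu2, rfl⟩ := Submodule.mem_sup.1 hu
      obtain ⟨v1, hv1, v2, hv2, rfl⟩ := Submodule.mem_sup.1 hv
      have j1 : B (S u1) v1 = B u1 (S v1) := i1 ⟨u1, hu1⟩ ⟨v1, hv1⟩
      have j2 : B (S u2) v2 = B u2 (S v2) := i2 ⟨u2, hu2⟩ ⟨v2, hv2⟩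
      simp only [map_add, LinearMap.add_apply]
      rw [j1, j2, o12 _ (k1 u1 hu1) _ hv2, o21 _ (k2 u2 hu2) _ hv1, o12 _ hu1 _ (k2 v2 hv2), o21 _ hu2 _ (k1 v1 hv1)]
  · rw [not_nontrivial_iff_subsingleton] at hV
    intro u v
    have h1 : u = 0 := Subsingleton.elim _ _
    have h2 : v = 0 := Subsingleton.elim _ _
    rw [h1, h2]; simp

/-- a constituent embeds -/
theorem exists_sub {V : Type*} [AddCommGroup V] [Module ℂ V] [FiniteDimensional ℂ V] (ρ : Representation ℂ G V)
    {χ : G → ℂ} (hχ : IsIrrCharacter G χ) (h : classInner ρ.character χ ≠ 0) :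
    ∃ W : Subrepresentation ρ, W.toRepresentation.character = χ := by
  obtain ⟨m, σ, hσ, hσχ⟩ := id hχ
  haveI := hσ
  obtain ⟨f, hf, hf0⟩ := exists_of_inner σ ρ (by rw [hσχ]; exact h)
  have hker : LinearMap.ker f = ⊥ := by
    have h1 := (isIrreducible_iff σ).1 hσ
    have h2 := h1.2 (LinearMap.ker f) (fun g v hv => by
      rw [LinearMap.mem_ker] at hv ⊢
      rw [hf, hv, map_zero])
    rcases h2 with h2 | h2
    · exact h2
    · exact absurd (LinearMap.ker_eq_top.1 h2) hf0
  let W : Subrepresentation ρ := ⟨LinearMap.range f, by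
    rintro g _ ⟨v, rfl⟩
    exact ⟨σ g v, hf g v⟩⟩
  let e : (Fin m → ℂ) ≃ₗ[ℂ] W.toSubmodule := LinearEquiv.ofInjective f (LinearMap.ker_eq_bot.1 hker)
  have he : Eqv σ W.toRepresentation e.toLinearMap := fun g v => Subtype.ext (hf g v)
  refine ⟨W, ?_⟩
  rw [← hσχ]
  funext g
  have h1 : e.conj (σ g) = W.toRepresentation g := by
    ext w
    rw [LinearEquiv.conj_apply_apply]
    have h2 := he g (e.symm w)
    change ((e (σ g (e.symm w)) : W.toSubmodule) : V) = _
    have h3 : e (σ g (e.symm w)) = W.toRepresentation g (e (e.symm w)) := h2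
    rw [h3, LinearEquiv.apply_symm_apply]
  rw [character, ← h1, LinearMap.trace_conj']
  rfl

/-- the dot product -/
noncomputable def dot (Ω : Type*) [Fintype Ω] : (Ω → ℂ) →ₗ[ℂ] (Ω → ℂ) →ₗ[ℂ] ℂ :=
  LinearMap.mk₂ ℂ (fun u v => ∑ x, u x * v x)
    (fun u u' v => by simp only [Pi.add_apply, add_mul, Finset.sum_add_distrib])
    (fun c u v => by simp only [Pi.smul_apply, smul_eq_mul, Finset.mul_sum, mul_assoc])
    (fun u v v' => by simp only [Pi.add_apply, mul_add, Finset.sum_add_distrib])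
    (fun c u v => by
      simp only [Pi.smul_apply, smul_eq_mul, Finset.mul_sum]
      exact Finset.sum_congr rfl fun x _ => by ring)

theorem dot_apply {Ω : Type*} [Fintype Ω] (u v : Ω → ℂ) : dot Ω u v = ∑ x, u x * v x := rfl

theorem dot_inv {Ω : Type*} [Fintype Ω] [MulAction G Ω] (g : G) (u v : Ω → ℂ) :
    dot Ω (Cfsg.permRep ℂ G Ω g u) (Cfsg.permRep ℂ G Ω g v) = dot Ω u v := by
  rw [dot_apply, dot_apply]
  change ∑ x, u (g⁻¹ • x) * v (g⁻¹ • x) = _
  exact Fintype.sum_equiv (MulAction.toPerm g⁻¹) _ _ (fun x => rfl)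

/-- operator of an invariant matrix -/
noncomputable def op {Ω : Type*} [Fintype Ω] (M : Ω → Ω → ℂ) : (Ω → ℂ) →ₗ[ℂ] (Ω → ℂ) where
  toFun f x := ∑ y, M x y * f y
  map_add' f f' := by ext x; simp only [Pi.add_apply, mul_add, Finset.sum_add_distrib]
  map_smul' c f := by
    ext x
    simp only [Pi.smul_apply, smul_eq_mul, Finset.mul_sum, RingHom.id_apply]
    exact Finset.sum_congr rfl fun y _ => by ring

theorem op_apply {Ω : Type*} [Fintype Ω] (M : Ω → Ω → ℂ) (f : Ω → ℂ) (x : Ω) : op M f x = ∑ y, M x y * f y := rfl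

theorem op_eqv {Ω : Type*} [Fintype Ω] [MulAction G Ω] {M : Ω → Ω → ℂ} (hM : ∀ (g : G) x y, M (g • x) (g • y) = M x y) :
    Eqv (Cfsg.permRep ℂ G Ω) (Cfsg.permRep ℂ G Ω) (op M) := by
  intro g f
  ext x
  rw [op_apply]
  change ∑ y, M x y * f (g⁻¹ • y) = ∑ y, M (g⁻¹ • x) y * f y
  refine Fintype.sum_equiv (MulAction.toPerm g⁻¹) _ _ (fun y => ?_)
  rw [MulAction.toPerm_apply, hM]

theorem op_single {Ω : Type*} [Fintype Ω] [DecidableEq Ω] (M : Ω → Ω → ℂ) (a b : Ω) :
    dot Ω (op M (Pi.single a 1)) (Pi.single b 1) = M b a := by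
  rw [dot_apply, Finset.sum_eq_single b]
  · rw [Pi.single_eq_same, mul_one, op_apply, Finset.sum_eq_single a]
    · rw [Pi.single_eq_same, mul_one]
    · intro y _ hy; rw [Pi.single_eq_of_ne hy, mul_zero]
    · intro h; exact absurd (Finset.mem_univ _) h
  · intro y _ hy; rw [Pi.single_eq_of_ne hy, mul_zero]
  · intro h; exact absurd (Finset.mem_univ _) h

theorem dot_single_left {Ω : Type*} [Fintype Ω] [DecidableEq Ω] (u : Ω → ℂ) (a : Ω) : dot Ω (Pi.single a 1) u = u a := by
  rw [dot_apply, Finset.sum_eq_single a]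
  · rw [Pi.single_eq_same, one_mul]
  · intro y _ hy; rw [Pi.single_eq_of_ne hy, zero_mul]
  · intro h; exact absurd (Finset.mem_univ _) h

theorem dot_single_right {Ω : Type*} [Fintype Ω] [DecidableEq Ω] (u : Ω → ℂ) (a : Ω) : dot Ω u (Pi.single a 1) = u a := by
  rw [dot_apply, Finset.sum_eq_single a]
  · rw [Pi.single_eq_same, mul_one]
  · intro y _ hy; rw [Pi.single_eq_of_ne hy, mul_zero]
  · intro h; exact absurd (Finset.mem_univ _) h

/-- equivariant endomorphisms are symmetric for a generously transitive action -/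
theorem sym_of_gt {Ω : Type*} [Fintype Ω] [MulAction G Ω] (h : ∀ a b : Ω, ∃ g : G, g • a = b ∧ g • b = a)
    {S : (Ω → ℂ) →ₗ[ℂ] (Ω → ℂ)} (hS : Eqv (Cfsg.permRep ℂ G Ω) (Cfsg.permRep ℂ G Ω) S) (u v : Ω → ℂ) :
    dot Ω (S u) v = dot Ω u (S v) := by
  classical
  have hb : ∀ a b : Ω, S (Pi.single a 1) b = S (Pi.single b 1) a := by
    intro a b
    obtain ⟨g, h1, h2⟩ := h a b
    have e1 : Cfsg.permRep ℂ G Ω g (Pi.single a 1) = Pi.single b 1 := by
      ext x
      change (Pi.single a (1 : ℂ) : Ω → ℂ) (g⁻¹ • x) = _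
      rw [Pi.single_apply, Pi.single_apply]
      congr 1
      rw [eq_iff_iff, inv_smul_eq_iff, h1]
    have e2 := congrFun (hS g (Pi.single a 1)) a
    rw [e1] at e2
    rw [e2]
    change _ = S (Pi.single a 1) (g⁻¹ • a)
    have h3 : g⁻¹ • a = b := by rw [inv_smul_eq_iff, h2]
    rw [h3]
  have h1 : ∀ w : Ω → ℂ, w = ∑ a, w a • (Pi.single a (1 : ℂ) : Ω → ℂ) := by
    intro w
    ext x
    rw [Finset.sum_apply, Finset.sum_eq_single x]
    · simp
    · intro y _ hy; rw [Pi.smul_apply, Pi.single_eq_of_ne hy.symm, smul_zero]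
    · intro h; exact absurd (Finset.mem_univ _) h
  rw [h1 u, h1 v]
  simp only [map_sum, map_smul, LinearMap.sum_apply, LinearMap.smul_apply, smul_eq_mul]
  apply Finset.sum_congr rfl; intro a _
  congr 1
  apply Finset.sum_congr rfl; intro b _
  rw [dot_single_right, dot_single_left, hb]

theorem s0717 {Ω : Type u} [Fintype Ω] [MulAction G Ω] : (∀ a b : Ω, ∃ g : G, g • a = b ∧ g • b = a) ↔ ∀ χ : G → ℂ, Cfsg.IsIrrCharacter G χ → Cfsg.classInner (fun g : G => (Nat.card (MulAction.fixedBy Ω g) : ℂ)) χ ≠ 0 → Cfsg.classInner (fun g : G => (Nat.card (MulAction.fixedBy Ω g) : ℂ)) χ = 1 ∧ ∀ g : G, (starRingEnd ℂ) (χ g) = χ g := by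
  classical
  constructor
  · intro h
    have hcomm : ∀ S T : (Ω → ℂ) →ₗ[ℂ] (Ω → ℂ), Eqv (Cfsg.permRep ℂ G Ω) (Cfsg.permRep ℂ G Ω) S →
        Eqv (Cfsg.permRep ℂ G Ω) (Cfsg.permRep ℂ G Ω) T → S ∘ₗ T = T ∘ₗ S := by
      intro S T hS hT
      have hST : Eqv (Cfsg.permRep ℂ G Ω) (Cfsg.permRep ℂ G Ω) (S ∘ₗ T) := fun g v => by
        rw [LinearMap.comp_apply, hT, hS]; rfl
      apply LinearMap.ext
      intro u
      funext x
      rw [← dot_single_right ((S ∘ₗ T) u) x, ← dot_single_right ((T ∘ₗ S) u) x, sym_of_gt h hST]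
      change dot Ω u (S (T (Pi.single x 1))) = dot Ω (T (S u)) (Pi.single x 1)
      rw [sym_of_gt h hT, sym_of_gt h hS]
    have hmf := mf_of_comm (Cfsg.permRep ℂ G Ω) hcomm
    intro χ hχ h0
    rw [← char_permRep] at h0 ⊢
    refine ⟨(hmf χ hχ).resolve_left h0, ?_⟩
    obtain ⟨W, hW⟩ := exists_sub (Cfsg.permRep ℂ G Ω) hχ h0
    obtain ⟨W', hW'⟩ := exists_isCompl_invariant (Cfsg.permRep ℂ G Ω) W
    let pW := Submodule.projectionOnto W.toSubmodule W'.toSubmodule hW'
    have hpW := proj_eqv (Cfsg.permRep ℂ G Ω) W W' hW'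
    let S : (Ω → ℂ) →ₗ[ℂ] (Ω → ℂ) := W.toSubmodule.subtype ∘ₗ pW
    have hS : Eqv (Cfsg.permRep ℂ G Ω) (Cfsg.permRep ℂ G Ω) S := by
      intro g v
      change ((pW (Cfsg.permRep ℂ G Ω g v) : W.toSubmodule) : Ω → ℂ) = Cfsg.permRep ℂ G Ω g (pW v)
      rw [hpW g v]; rfl
    have horth : ∀ w ∈ W.toSubmodule, ∀ w' ∈ W'.toSubmodule, dot Ω w w' = 0 := by
      intro w hw w' hw'
      have h1 : S w = w := congrArg Subtype.val (Submodule.linearProjOfIsCompl_apply_left hW' ⟨w, hw⟩)
      have h2 : S w' = 0 := congrArg Subtype.val (Submodule.linearProjOfIsCompl_apply_right hW' ⟨w', hw'⟩)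
      rw [← h1, sym_of_gt h hS, h2, map_zero]
    -- `W` is nonzero
    have hWn : ∃ w ∈ W.toSubmodule, w ≠ 0 := by
      by_contra hne
      push Not at hne
      have h1 : W.toRepresentation.character 1 = 0 := by
        have : Subsingleton W.toSubmodule := ⟨fun a b => Subtype.ext ((hne a a.2).trans (hne b b.2).symm)⟩
        rw [Representation.character]
        have h2 : W.toRepresentation 1 = 0 := LinearMap.ext fun x => Subsingleton.elim _ _
        rw [h2, map_zero]
      rw [hW] at h1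
      exact isIrr_one_ne_zero hχ h1
    obtain ⟨w, hw, hw0⟩ := hWn
    obtain ⟨x, hx⟩ : ∃ x, w x ≠ 0 := by
      by_contra hne
      push Not at hne
      exact hw0 (funext hne)
    by_contra hreal
    have hconj : IsIrrCharacter G (fun g => conj (χ g)) := by
      have h1 : IsCharacter G (fun g => conj (χ g)) := by
        have := isCharacter_of_rep W.toRepresentation.dual
        rw [char_dual_eq, hW] at this
        exact this
      apply isIrr_of_inner_self_one h1
      have h2 := irr_inner_self hχ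
      have h3 : classInner (fun g => conj (χ g)) (fun g => conj (χ g)) = conj (classInner χ χ) := by
        rw [classInner_def, classInner_def, map_mul, map_inv₀, Complex.conj_natCast, map_sum]
        congr 1
        apply Finset.sum_congr rfl
        intro g _
        rw [map_mul]
      rw [h3, h2, map_one]
    have h0' : classInner (fun g => conj (χ g)) χ = 0 := by
      by_contra h1
      have h2 := irr_eq_of_inner_ne_zero hconj hχ h1
      exact hreal (fun g => congrFun h2 g)
    have hz : ∀ u ∈ W.toSubmodule, ∀ v ∈ W.toSubmodule, dot Ω u v = 0 := fun u hu v hv =>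
      form_zero (Cfsg.permRep ℂ G Ω) (dot Ω) dot_inv W W (by rw [hW]; exact h0') hu hv
    have h1 := dot_single_right w x
    have hv : (Pi.single x (1 : ℂ) : Ω → ℂ) ∈ W.toSubmodule ⊔ W'.toSubmodule := by rw [hW'.sup_eq_top]; trivial
    obtain ⟨v1, hv1, v2, hv2, hv12⟩ := Submodule.mem_sup.1 hv
    rw [← hv12, map_add, hz w hw v1 hv1, horth w hw v2 hv2, add_zero] at h1
    exact hx h1.symm
  · intro h a b
    let M : Ω → Ω → ℂ := fun x y => if ∃ g : G, g • a = x ∧ g • b = y then 1 else 0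
    have hM : ∀ (g : G) x y, M (g • x) (g • y) = M x y := by
      intro g x y
      have : (∃ g' : G, g' • a = g • x ∧ g' • b = g • y) ↔ (∃ g' : G, g' • a = x ∧ g' • b = y) := by
        constructor
        · rintro ⟨g', h1, h2⟩
          exact ⟨g⁻¹ * g', by rw [mul_smul, h1, inv_smul_smul], by rw [mul_smul, h2, inv_smul_smul]⟩
        · rintro ⟨g', h1, h2⟩
          exact ⟨g * g', by rw [mul_smul, h1], by rw [mul_smul, h2]⟩
      simp only [M, this]
    have h1 := sym_of_real _ rfl (Cfsg.permRep ℂ G Ω) (by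
        rw [char_permRep]
        intro ψ hψ
        by_cases h0 : Cfsg.classInner (fun g : G => (Nat.card (MulAction.fixedBy Ω g) : ℂ)) ψ = 0
        · exact Or.inl h0
        · exact Or.inr (h ψ hψ h0).1) (by
        rw [char_permRep]
        exact fun ψ hψ h0 => (h ψ hψ h0).2) (dot Ω) dot_inv (op M) (op_eqv hM) (Pi.single a 1) (Pi.single b 1)
    rw [op_single, dot_single_left] at h1
    have h2 : op M (Pi.single b 1) a = M a b := by
      rw [← dot_single_right (op M (Pi.single b 1)) a, op_single]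
    rw [h2] at h1
    have h3 : M a b = 1 := if_pos ⟨1, one_smul _ _, one_smul _ _⟩
    rw [h3] at h1
    by_contra hne
    have h4 : M b a = 0 := if_neg hne
    rw [h4] at h1
    exact zero_ne_one h1

end Cfsg.Agent.Lib.H3MF
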