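import Cfsg.Agent.Lib.H3MFB

set_option autoImplicit false

/-! traces of equivariant operators and subdegrees (helper3) -/

namespace Cfsg.Agent.Lib.H3MF

open Cfsg Representation Module Cfsg.Agent.Lib.CharBasic
open scoped ComplexConjugate

universe u
variable {G : Type*} [Group G] [Fintype G]

section lin

variable {V : Type*} [AddCommGroup V] [Module ℂ V]

/-- compression of an operator to a complemented subspace -/
noncomputable def cmp (A B : Submodule ℂ V) (h : IsCompl A B) (T : V →ₗ[ℂ] V) : A →ₗ[ℂ] A :=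
  (Submodule.projectionOnto A B h) ∘ₗ T ∘ₗ A.subtype

theorem trace_cmp [FiniteDimensional ℂ V] (A B : Submodule ℂ V) (h : IsCompl A B) (T : V →ₗ[ℂ] V) :
    LinearMap.trace ℂ V T = LinearMap.trace ℂ A (cmp A B h T) + LinearMap.trace ℂ B (cmp B A h.symm T) := by
  have h1 : T = (T ∘ₗ A.subtype) ∘ₗ (Submodule.projectionOnto A B h) +
      (T ∘ₗ B.subtype) ∘ₗ (Submodule.projectionOnto B A h.symm) := by
    ext v
    have hv : v ∈ A ⊔ B := by rw [h.sup_eq_top]; trivial
    obtain ⟨a, ha, b, hb, rfl⟩ := Submodule.mem_sup.1 hv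
    have e1 : Submodule.projectionOnto A B h a = ⟨a, ha⟩ := Submodule.linearProjOfIsCompl_apply_left h ⟨a, ha⟩
    have e2 : Submodule.projectionOnto A B h b = 0 := Submodule.linearProjOfIsCompl_apply_right h ⟨b, hb⟩
    have e3 : Submodule.projectionOnto B A h.symm b = ⟨b, hb⟩ := Submodule.linearProjOfIsCompl_apply_left h.symm ⟨b, hb⟩
    have e4 : Submodule.projectionOnto B A h.symm a = 0 := Submodule.linearProjOfIsCompl_apply_right h.symm ⟨a, ha⟩
    simp only [LinearMap.add_apply, LinearMap.comp_apply, map_add, e1, e2, e3, e4, Submodule.subtype_apply, map_zero,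
      add_zero, zero_add]
  conv_lhs => rw [h1]
  rw [map_add, LinearMap.trace_comp_comm', LinearMap.trace_comp_comm' (Submodule.projectionOnto B A h.symm)]
  rfl

theorem cmp_comm (A B : Submodule ℂ V) (h : IsCompl A B) (T : V →ₗ[ℂ] V) (hT : ∀ v ∈ B, T v ∈ B) (v : V) :
    Submodule.projectionOnto A B h (T v) = cmp A B h T (Submodule.projectionOnto A B h v) := by
  have hv : v ∈ A ⊔ B := by rw [h.sup_eq_top]; trivial
  obtain ⟨a, ha, b, hb, rfl⟩ := Submodule.mem_sup.1 hv
  have e1 : Submodule.projectionOnto A B h a = ⟨a, ha⟩ := Submodule.linearProjOfIsCompl_apply_left h ⟨a, ha⟩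
  have e2 : Submodule.projectionOnto A B h b = 0 := Submodule.linearProjOfIsCompl_apply_right h ⟨b, hb⟩
  have e5 : Submodule.projectionOnto A B h (T b) = 0 := Submodule.linearProjOfIsCompl_apply_right h ⟨T b, hT b hb⟩
  rw [map_add, map_add, map_add, e1, e2, e5, add_zero, add_zero]
  rfl

theorem cmp_mul (A B : Submodule ℂ V) (h : IsCompl A B) (T : V →ₗ[ℂ] V) (hT : ∀ v ∈ B, T v ∈ B) :
    cmp A B h (T ∘ₗ T) = cmp A B h T ∘ₗ cmp A B h T := by
  ext a : 1
  exact cmp_comm A B h T hT (T a)

theorem cmp_aeval (A B : Submodule ℂ V) (h : IsCompl A B) (T : V →ₗ[ℂ] V) (hT : ∀ v ∈ B, T v ∈ B) (P : Polynomial ℤ) (v : V) :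
    Submodule.projectionOnto A B h (Polynomial.aeval (T : Module.End ℂ V) P v) =
      Polynomial.aeval (cmp A B h T : Module.End ℂ A) P (Submodule.projectionOnto A B h v) := by
  induction P using Polynomial.induction_on generalizing v with
  | C a =>
    rw [Polynomial.aeval_C, Polynomial.aeval_C]
    simp [Algebra.algebraMap_eq_smul_one]
  | add p q hp hq =>
    rw [map_add, map_add, LinearMap.add_apply, LinearMap.add_apply, map_add, hp, hq]
  | monomial n a ih =>
    rw [pow_succ, ← mul_assoc, map_mul (Polynomial.aeval _) (Polynomial.C a * Polynomial.X ^ n), Polynomial.aeval_X,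
      map_mul (Polynomial.aeval _) (Polynomial.C a * Polynomial.X ^ n), Polynomial.aeval_X]
    rw [Module.End.mul_apply, Module.End.mul_apply, ih, cmp_comm A B h T hT]

theorem cmp_integral (A B : Submodule ℂ V) (h : IsCompl A B) (T : V →ₗ[ℂ] V) (hT : ∀ v ∈ B, T v ∈ B)
    (hi : IsIntegral ℤ (T : Module.End ℂ V)) : IsIntegral ℤ (cmp A B h T : Module.End ℂ A) := by
  obtain ⟨P, hP, h0⟩ := hi
  refine ⟨P, hP, ?_⟩
  rw [← Polynomial.aeval_def] at h0 ⊢
  ext a : 1
  have h1 := cmp_aeval A B h T hT P a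
  rw [h0] at h1
  have e1 : Submodule.projectionOnto A B h a = a := Submodule.linearProjOfIsCompl_apply_left h a
  rw [e1] at h1
  rw [← h1, LinearMap.zero_apply, map_zero, LinearMap.zero_apply]

theorem eigen_integral {T : V →ₗ[ℂ] V} {c : ℂ} {v : V} (hv : v ≠ 0) (h : T v = c • v)
    (hi : IsIntegral ℤ (T : Module.End ℂ V)) : IsIntegral ℤ c := by
  obtain ⟨P, hP, h0⟩ := hi
  refine ⟨P, hP, ?_⟩
  rw [← Polynomial.aeval_def] at h0 ⊢
  have h1 : ∀ Q : Polynomial ℤ, Polynomial.aeval (T : Module.End ℂ V) Q v = (Polynomial.aeval c Q) • v := by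
    intro Q
    induction Q using Polynomial.induction_on with
    | C a => 
      rw [Polynomial.aeval_C, Polynomial.aeval_C]
      simp only [Algebra.algebraMap_eq_smul_one, LinearMap.smul_apply, Module.End.one_apply, smul_assoc, one_smul]
    | add p q hp hq => rw [map_add, map_add, LinearMap.add_apply, hp, hq, add_smul]
    | monomial n a ih =>
      have e : (Polynomial.C a * Polynomial.X ^ (n + 1) : Polynomial ℤ) = Polynomial.X * (Polynomial.C a * Polynomial.X ^ n) := by ring
      rw [e, map_mul (Polynomial.aeval _) Polynomial.X, Polynomial.aeval_X, map_mul (Polynomial.aeval _) Polynomial.X,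
        Polynomial.aeval_X, Module.End.mul_apply, ih, map_smul, h, smul_smul, mul_comm]
  have h2 := h1 P
  rw [h0, LinearMap.zero_apply] at h2
  rcases smul_eq_zero.1 h2.symm with h3 | h3
  · exact h3
  · exact absurd h3 hv

end lin

/-- an operator from an integral matrix is integral -/
theorem op_integral {Ω : Type*} [Fintype Ω] (N : Ω → Ω → ℤ) :
    IsIntegral ℤ (op (fun x y => (N x y : ℂ)) : Module.End ℂ (Ω → ℂ)) := by
  classical
  have h1 : IsIntegral ℤ (Matrix.of N : Matrix Ω Ω ℤ) := IsIntegral.of_finite ℤ _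
  let φ : Matrix Ω Ω ℤ →+* Module.End ℂ (Ω → ℂ) :=
    (Matrix.toLinAlgEquiv' (R := ℂ) (n := Ω)).toAlgHom.toRingHom.comp (Int.castRingHom ℂ).mapMatrix
  have h2 : φ (Matrix.of N) = op (fun x y => (N x y : ℂ)) := by
    ext1 v
    rfl
  rw [← h2]
  exact map_isIntegral_int φ h1

/-- the dimension is divisible by a common divisor of the constituent degrees -/
theorem dim_dvd {V : Type*} [AddCommGroup V] [Module ℂ V] [FiniteDimensional ℂ V] (ρ : Representation ℂ G V) (f : ℕ)
    (hf : ∀ χ : G → ℂ, IsIrrCharacter G χ → classInner ρ.character χ ≠ 0 → ∃ m : ℕ, χ 1 = (f : ℂ) * m) :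
    ∃ m : ℕ, (finrank ℂ V : ℂ) = (f : ℂ) * m := by
  have h1 := congrFun (char_eq_sum_inner (isCharacter_of_rep ρ)) 1
  rw [Representation.char_one, Finset.sum_apply] at h1
  have h2 : ∀ ψ : IrrCharacter G, ∃ m : ℕ, (classInner ρ.character ψ.1 • ψ.1) 1 = (f : ℂ) * m := by
    intro ψ
    obtain ⟨n, hn⟩ := exists_nat_inner (isCharacter_of_rep ρ) ψ.2
    by_cases h0 : classInner ρ.character ψ.1 = 0
    · exact ⟨0, by rw [h0]; simp⟩
    · obtain ⟨m, hm⟩ := hf ψ.1 ψ.2 h0
      refine ⟨n * m, ?_⟩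
      rw [Pi.smul_apply, hm, hn, smul_eq_mul]
      push_cast; ring
  choose m hm using h2
  refine ⟨∑ ψ, m ψ, ?_⟩
  rw [h1]
  push_cast
  rw [Finset.mul_sum]
  exact Finset.sum_congr rfl fun ψ _ => hm ψ

theorem trace_dvd (n : ℕ) : ∀ {V : Type u} [AddCommGroup V] [Module ℂ V] [FiniteDimensional ℂ V],
    finrank ℂ V = n → ∀ (ρ : Representation ℂ G V) (f : ℕ),
    (∀ χ : G → ℂ, IsIrrCharacter G χ → classInner ρ.character χ ≠ 0 → ∃ m : ℕ, χ 1 = (f : ℂ) * m) →
    ∀ T : V →ₗ[ℂ] V, Eqv ρ ρ T → IsIntegral ℤ (T : Module.End ℂ V) →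
    ∃ α : ℂ, IsIntegral ℤ α ∧ LinearMap.trace ℂ V T = (f : ℂ) * α := by
  induction n using Nat.strong_induction_on with
  | _ n ih =>
  intro V _ _ _ hn ρ f hf T hT hi
  by_cases hV : Nontrivial V
  · obtain ⟨c, hc⟩ := Module.End.exists_eigenvalue (K := ℂ) (T : Module.End ℂ V)
    obtain ⟨v, hv⟩ := hc.exists_hasEigenvector
    have hci : IsIntegral ℤ c := eigen_integral hv.2 hv.apply_eq_smul hi
    let E : Subrepresentation ρ := ⟨Module.End.eigenspace T c, by
      intro g w hw
      rw [Module.End.mem_eigenspace_iff] at hw ⊢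
      rw [hT, hw, map_smul]⟩
    obtain ⟨E', hE'⟩ := exists_isCompl_invariant ρ E
    have hsum := Submodule.finrank_add_eq_of_isCompl hE'
    have h1 : 0 < finrank ℂ E.toSubmodule := by
      rw [finrank_pos_iff]
      exact ⟨⟨⟨v, hv.1⟩, 0, fun h => hv.2 (congrArg Subtype.val h)⟩⟩
    have hTE : ∀ w ∈ E.toSubmodule, T w ∈ E.toSubmodule := by
      intro w hw
      have := (Module.End.mem_eigenspace_iff.1 hw)
      rw [this]
      exact E.toSubmodule.smul_mem _ hw
    have hfE : ∀ χ : G → ℂ, IsIrrCharacter G χ → classInner E.toRepresentation.character χ ≠ 0 → ∃ m : ℕ, χ 1 = (f : ℂ) * m := by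
      intro χ hχ h0
      apply hf χ hχ
      rw [inner_char ρ E E' hE']
      obtain ⟨a, ha⟩ := exists_nat_inner (isCharacter_of_rep E.toRepresentation) hχ
      obtain ⟨b, hb⟩ := exists_nat_inner (isCharacter_of_rep E'.toRepresentation) hχ
      rw [ha] at h0 ⊢
      rw [hb]
      have : a ≠ 0 := by exact_mod_cast h0
      have h2 : a + b ≠ 0 := by omega
      exact_mod_cast h2
    have hfE' : ∀ χ : G → ℂ, IsIrrCharacter G χ → classInner E'.toRepresentation.character χ ≠ 0 → ∃ m : ℕ, χ 1 = (f : ℂ) * m := by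
      intro χ hχ h0
      apply hf χ hχ
      rw [inner_char ρ E E' hE']
      obtain ⟨a, ha⟩ := exists_nat_inner (isCharacter_of_rep E.toRepresentation) hχ
      obtain ⟨b, hb⟩ := exists_nat_inner (isCharacter_of_rep E'.toRepresentation) hχ
      rw [hb] at h0 ⊢
      rw [ha]
      have : b ≠ 0 := by exact_mod_cast h0
      have h2 : a + b ≠ 0 := by omega
      exact_mod_cast h2
    obtain ⟨m, hm⟩ := dim_dvd E.toRepresentation f hfE
    obtain ⟨α, hα, hα2⟩ := ih (finrank ℂ E'.toSubmodule) (by omega) rfl E'.toRepresentation f hfE'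
      (cmp E'.toSubmodule E.toSubmodule hE'.symm T) (by
        intro g w
        change Submodule.projectionOnto E'.toSubmodule E.toSubmodule hE'.symm (T (ρ g w)) = _
        rw [hT, proj_eqv ρ E' E hE'.symm]
        rfl) (cmp_integral _ _ hE'.symm T hTE hi)
    refine ⟨m * c + α, (isIntegral_natCast _ |>.mul hci).add hα, ?_⟩
    rw [trace_cmp E.toSubmodule E'.toSubmodule hE' T, hα2]
    have h3 : cmp E.toSubmodule E'.toSubmodule hE' T = c • LinearMap.id := by
      ext w : 1
      change Submodule.projectionOnto E.toSubmodule E'.toSubmodule hE' (T w) = c • w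
      have h4 : T w = c • (w : V) := Module.End.mem_eigenspace_iff.1 w.2
      rw [h4, map_smul]
      congr 1
      exact Submodule.linearProjOfIsCompl_apply_left hE' w
    rw [h3, map_smul, LinearMap.trace_id, hm, smul_eq_mul]
    ring
  · rw [not_nontrivial_iff_subsingleton] at hV
    refine ⟨0, isIntegral_zero, ?_⟩
    have : T = 0 := LinearMap.ext fun x => Subsingleton.elim _ _
    rw [this, map_zero, mul_zero]

end Cfsg.Agent.Lib.H3MF
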