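import Cfsg.Agent.Lib.H3MFC

set_option autoImplicit false

/-! subdegrees and constituents of the permutation character (helper3) -/

namespace Cfsg.Agent.Lib.H3MF

open Cfsg Representation Module Cfsg.Agent.Lib.CharBasic Cfsg.Agent.Lib.CharPermB
open scoped ComplexConjugate

universe u
variable {G : Type*} [Group G] [Fintype G]

section orb

open scoped Classical in
/-- orbital matrix -/
noncomputable def orb (G : Type*) [Group G] {Ω : Type*} [MulAction G Ω] (a b x y : Ω) : ℤ :=
  if ∃ g : G, g • a = x ∧ g • b = y then 1 else 0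

theorem orb_inv {Ω : Type*} [MulAction G Ω] (a b : Ω) (g : G) (x y : Ω) : orb G a b (g • x) (g • y) = orb G a b x y := by
  have : (∃ g' : G, g' • a = g • x ∧ g' • b = g • y) ↔ (∃ g' : G, g' • a = x ∧ g' • b = y) := by
    constructor
    · rintro ⟨g', h1, h2⟩
      exact ⟨g⁻¹ * g', by rw [mul_smul, h1, inv_smul_smul], by rw [mul_smul, h2, inv_smul_smul]⟩
    · rintro ⟨g', h1, h2⟩
      exact ⟨g * g', by rw [mul_smul, h1], by rw [mul_smul, h2]⟩
  unfold orb
  congr 1
  exact propext this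

theorem orb_row {Ω : Type*} [Fintype Ω] [MulAction G Ω] (a b : Ω) :
    ∑ y, orb G a b a y = Nat.card (MulAction.orbit (MulAction.stabilizer G a) b) := by
  classical
  have h1 : ∀ y, orb G a b a y = if y ∈ MulAction.orbit (MulAction.stabilizer G a) b then 1 else 0 := by
    intro y
    unfold orb
    congr 1
    rw [eq_iff_iff, MulAction.mem_orbit_iff]
    constructor
    · rintro ⟨g, h1, h2⟩; exact ⟨⟨g, h1⟩, h2⟩
    · rintro ⟨g, h1⟩; exact ⟨g.1, g.2, h1⟩
  simp only [h1]
  rw [Finset.sum_boole, Nat.card_eq_fintype_card, ← Fintype.card_subtype]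

theorem orb_row' {Ω : Type*} [Fintype Ω] [MulAction G Ω] [MulAction.IsPretransitive G Ω] (a b x : Ω) :
    ∑ y, orb G a b x y = Nat.card (MulAction.orbit (MulAction.stabilizer G a) b) := by
  obtain ⟨g, rfl⟩ := MulAction.exists_smul_eq G a x
  rw [← orb_row]
  refine (Fintype.sum_equiv (MulAction.toPerm g) _ _ (fun y => ?_)).symm
  rw [MulAction.toPerm_apply, orb_inv]

/-- orbital operator -/
noncomputable def orbop (G : Type*) [Group G] {Ω : Type*} [Fintype Ω] [MulAction G Ω] (a b : Ω) : (Ω → ℂ) →ₗ[ℂ] (Ω → ℂ) :=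
  op (fun x y => (orb G a b x y : ℂ))

theorem orbop_eqv {Ω : Type*} [Fintype Ω] [MulAction G Ω] (a b : Ω) :
    Eqv (Cfsg.permRep ℂ G Ω) (Cfsg.permRep ℂ G Ω) (orbop G a b) :=
  op_eqv fun g x y => by rw [orb_inv]

theorem orbop_one {Ω : Type*} [Fintype Ω] [MulAction G Ω] [MulAction.IsPretransitive G Ω] (a b : Ω) :
    orbop G a b (fun _ => 1) = (Nat.card (MulAction.orbit (MulAction.stabilizer G a) b) : ℂ) • (fun _ => 1) := by
  ext x
  rw [orbop, op_apply]
  simp only [mul_one, Pi.smul_apply, smul_eq_mul]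
  have := orb_row' (G := G) a b x
  exact_mod_cast this

theorem trace_op {Ω : Type*} [Fintype Ω] (M : Ω → Ω → ℂ) : LinearMap.trace ℂ (Ω → ℂ) (op M) = ∑ x, M x x := by
  classical
  rw [LinearMap.trace_eq_matrix_trace ℂ (Pi.basisFun ℂ Ω), Matrix.trace]
  apply Finset.sum_congr rfl
  intro x _
  rw [Matrix.diag_apply, LinearMap.toMatrix_apply, Pi.basisFun_apply, Pi.basisFun_repr, ← dot_single_right (op M (Pi.single x 1)) x, op_single]

theorem op_comp {Ω : Type*} [Fintype Ω] (M N : Ω → Ω → ℂ) : op M ∘ₗ op N = op (fun x y => ∑ z, M x z * N z y) := by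
  ext1 v
  ext x
  rw [LinearMap.comp_apply, op_apply, op_apply]
  simp only [op_apply, Finset.mul_sum, Finset.sum_mul]
  rw [Finset.sum_comm]
  exact Finset.sum_congr rfl fun y _ => Finset.sum_congr rfl fun z _ => by ring

theorem trace_orbop {Ω : Type*} [Fintype Ω] [MulAction G Ω] {a b : Ω} (hab : b ≠ a) :
    LinearMap.trace ℂ (Ω → ℂ) (orbop G a b) = 0 := by
  rw [orbop, trace_op]
  apply Finset.sum_eq_zero
  intro x _
  have : ¬ ∃ g : G, g • a = x ∧ g • b = x := by
    rintro ⟨g, h1, h2⟩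
    exact hab (MulAction.injective g (h2.trans h1.symm))
  simp [orb, this]

end orb

/-- splitting off the constants -/
theorem perm_split {Ω : Type*} [Fintype Ω] [Nonempty Ω] [MulAction G Ω] :
    ∃ C' : Subrepresentation (Cfsg.permRep ℂ G Ω),
      (∀ g, (Nat.card (MulAction.fixedBy Ω g) : ℂ) = 1 + C'.toRepresentation.character g) ∧
      ∀ (T : (Ω → ℂ) →ₗ[ℂ] (Ω → ℂ)) (k : ℂ), Eqv (Cfsg.permRep ℂ G Ω) (Cfsg.permRep ℂ G Ω) T →
        IsIntegral ℤ (T : Module.End ℂ (Ω → ℂ)) → T (fun _ => 1) = k • (fun _ => 1) →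
        ∃ T' : C'.toSubmodule →ₗ[ℂ] C'.toSubmodule, Eqv C'.toRepresentation C'.toRepresentation T' ∧
          IsIntegral ℤ (T' : Module.End ℂ C'.toSubmodule) ∧
          LinearMap.trace ℂ _ T = k + LinearMap.trace ℂ _ T' ∧
          LinearMap.trace ℂ _ (T ∘ₗ T) = k ^ 2 + LinearMap.trace ℂ _ (T' ∘ₗ T') := by
  let C : Subrepresentation (Cfsg.permRep ℂ G Ω) := ⟨Submodule.span ℂ {fun _ => 1}, by
    intro g v hv
    rw [Submodule.mem_span_singleton] at hv ⊢
    obtain ⟨c, rfl⟩ := hv
    refine ⟨c, ?_⟩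
    ext x
    rfl⟩
  have hC : ∀ v ∈ C.toSubmodule, ∃ c : ℂ, v = c • (fun _ => 1) := by
    intro v hv
    obtain ⟨c, hc⟩ := Submodule.mem_span_singleton.1 hv
    exact ⟨c, hc.symm⟩
  have h1 : (fun _ => 1 : Ω → ℂ) ≠ 0 := by
    intro h
    obtain ⟨x⟩ := ‹Nonempty Ω›
    exact one_ne_zero (congrFun h x)
  have hfr : finrank ℂ C.toSubmodule = 1 := finrank_span_singleton h1
  have hCg : ∀ g, C.toRepresentation g = LinearMap.id := by
    intro g
    ext v : 1
    obtain ⟨c, hc⟩ := hC v v.2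
    apply Subtype.ext
    change Cfsg.permRep ℂ G Ω g v = v
    rw [hc]
    rfl
  obtain ⟨C', hC'⟩ := exists_isCompl_invariant (Cfsg.permRep ℂ G Ω) C
  refine ⟨C', ?_, ?_⟩
  · intro g
    have h2 := char_eq_add_of_isCompl (Cfsg.permRep ℂ G Ω) C C' hC' g
    have h3 := congrFun (char_permRep (G := G) (Ω := Ω)) g
    rw [h3] at h2
    rw [h2]
    congr 1
    rw [Representation.character, hCg, LinearMap.trace_id, hfr, Nat.cast_one]
  · intro T k hT hi hk
    have hTC : ∀ v ∈ C.toSubmodule, T v = k • v := by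
      intro v hv
      obtain ⟨c, rfl⟩ := hC v hv
      rw [map_smul, hk, smul_comm]
    have hTC' : ∀ v ∈ C.toSubmodule, T v ∈ C.toSubmodule := fun v hv => by
      rw [hTC v hv]; exact C.toSubmodule.smul_mem _ hv
    refine ⟨cmp C'.toSubmodule C.toSubmodule hC'.symm T, ?_, cmp_integral _ _ hC'.symm T hTC' hi, ?_, ?_⟩
    · intro g w
      change Submodule.projectionOnto C'.toSubmodule C.toSubmodule hC'.symm (T (Cfsg.permRep ℂ G Ω g w)) = _
      rw [hT, proj_eqv _ C' C hC'.symm]
      rfl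
    · rw [trace_cmp C.toSubmodule C'.toSubmodule hC' T]
      congr 1
      have h3 : cmp C.toSubmodule C'.toSubmodule hC' T = k • LinearMap.id := by
        ext w : 1
        change Submodule.projectionOnto C.toSubmodule C'.toSubmodule hC' (T w) = k • w
        rw [hTC w w.2, map_smul]
        congr 1
        exact Submodule.linearProjOfIsCompl_apply_left hC' w
      rw [h3, map_smul, LinearMap.trace_id, hfr, smul_eq_mul, Nat.cast_one, mul_one]
    · rw [trace_cmp C.toSubmodule C'.toSubmodule hC' (T ∘ₗ T), cmp_mul _ _ hC'.symm T hTC']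
      congr 1
      have h3 : cmp C.toSubmodule C'.toSubmodule hC' (T ∘ₗ T) = (k ^ 2) • LinearMap.id := by
        ext w : 1
        change Submodule.projectionOnto C.toSubmodule C'.toSubmodule hC' (T (T w)) = (k ^ 2) • w
        rw [hTC w w.2, map_smul, hTC w w.2, map_smul, map_smul, smul_smul, pow_two]
        congr 1
        exact Submodule.linearProjOfIsCompl_apply_left hC' w
      rw [h3, map_smul, LinearMap.trace_id, hfr, smul_eq_mul, Nat.cast_one, mul_one]

theorem inner_one {Ω : Type*} [Fintype Ω] [Nonempty Ω] [MulAction G Ω] [MulAction.IsPretransitive G Ω] :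
    classInner (fun g : G => (Nat.card (MulAction.fixedBy Ω g) : ℂ)) (fun _ => 1) = 1 := by
  have h := inner_permChar_one (G := G) Ω
  rw [card_orbits_of_transitive] at h
  rw [Nat.cast_one] at h
  exact h

theorem s0715 {Ω : Type*} [Fintype Ω] [MulAction G Ω] [MulAction.IsPretransitive G Ω] (f : ℕ) (hf : ∀ χ : G → ℂ, Cfsg.IsIrrCharacter G χ → χ ≠ (fun _ => 1) → Cfsg.classInner (fun g : G => (Nat.card (MulAction.fixedBy Ω g) : ℂ)) χ ≠ 0 → ∃ m : ℕ, χ 1 = (f : ℂ) * m) (a b : Ω) (hab : b ≠ a) : f ∣ Nat.card (MulAction.orbit (MulAction.stabilizer G a) b) := by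
  haveI : Nonempty Ω := ⟨a⟩
  obtain ⟨C', hC1, hC2⟩ := perm_split (G := G) (Ω := Ω)
  obtain ⟨T', hT1, hT2, hT3, -⟩ := hC2 (orbop G a b) _ (orbop_eqv a b) (op_integral _) (orbop_one a b)
  rw [trace_orbop hab] at hT3
  have hπ : (fun g : G => (Nat.card (MulAction.fixedBy Ω g) : ℂ)) = (fun _ => 1) + C'.toRepresentation.character := by
    funext g; exact hC1 g
  have hin1 : classInner C'.toRepresentation.character (fun _ => 1) = 0 := by
    have h1 := inner_one (G := G) (Ω := Ω)
    rw [hπ, classInner_add_left, irr_inner_self isIrr_trivial] at h1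
    linear_combination h1
  obtain ⟨α, hα, hα2⟩ := trace_dvd _ rfl C'.toRepresentation f (by
    intro χ hχ h0
    obtain ⟨n, hn⟩ := exists_nat_inner (isCharacter_of_rep C'.toRepresentation) hχ
    have hne : χ ≠ fun _ => 1 := by
      rintro rfl; exact h0 hin1
    apply hf χ hχ hne
    rw [hπ, classInner_add_left, irr_inner_ne isIrr_trivial hχ hne.symm, zero_add]
    exact h0) T' hT1 hT2
  rw [hα2] at hT3
  set k := Nat.card (MulAction.orbit (MulAction.stabilizer G a) b) with hk
  by_cases hf0 : f = 0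
  · rw [hf0] at hT3
    rw [hf0, zero_dvd_iff]
    have : (k : ℂ) = 0 := by
      rw [Nat.cast_zero, zero_mul, add_zero] at hT3
      exact hT3.symm
    exact_mod_cast this
  · apply CharInt.nat_dvd_of_isIntegral hf0
    have hf0' : (f : ℂ) ≠ 0 := by exact_mod_cast hf0
    have : (k : ℂ) / f = -α := by
      rw [div_eq_iff hf0']
      linear_combination -hT3
    rw [this]
    exact hα.neg

theorem rank_eq {Ω : Type*} [Fintype Ω] [MulAction G Ω] [MulAction.IsPretransitive G Ω] (a : Ω) :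
    Nat.card (MulAction.orbitRel.Quotient (MulAction.stabilizer G a) Ω) = Nat.card (MulAction.orbitRel.Quotient G (Ω × Ω)) := by
  have hq1 : ∀ x y : Ω, (Quotient.mk'' x : MulAction.orbitRel.Quotient (MulAction.stabilizer G a) Ω) = Quotient.mk'' y ↔
      ∃ g : MulAction.stabilizer G a, g • y = x := fun x y => Quotient.eq''
  have hq2 : ∀ x y : Ω × Ω, (Quotient.mk'' x : MulAction.orbitRel.Quotient G (Ω × Ω)) = Quotient.mk'' y ↔
      ∃ g : G, g • y = x := fun x y => Quotient.eq''
  let F : MulAction.orbitRel.Quotient (MulAction.stabilizer G a) Ω → MulAction.orbitRel.Quotient G (Ω × Ω) :=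
    Quotient.lift (fun x : Ω => (Quotient.mk'' (a, x) : MulAction.orbitRel.Quotient G (Ω × Ω))) (by
      rintro x y ⟨g, hg⟩
      change (Quotient.mk'' (a, x) : MulAction.orbitRel.Quotient G (Ω × Ω)) = Quotient.mk'' (a, y)
      rw [hq2]
      refine ⟨g.1, ?_⟩
      rw [Prod.smul_mk, g.2]
      exact congrArg _ hg)
  have hF : ∀ x : Ω, F (Quotient.mk'' x) = Quotient.mk'' (a, x) := fun x => rfl
  apply Nat.card_congr
  apply Equiv.ofBijective F
  constructor
  · intro x y
    induction x using Quotient.inductionOn' with | _ x => ?_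
    induction y using Quotient.inductionOn' with | _ y => ?_
    rw [hF, hF, hq2, hq1]
    rintro ⟨g, hg⟩
    rw [Prod.smul_mk, Prod.mk.injEq] at hg
    exact ⟨⟨g, hg.1⟩, hg.2⟩
  · intro z
    induction z using Quotient.inductionOn' with | _ z => ?_
    obtain ⟨x, y⟩ := z
    obtain ⟨g, hg⟩ := MulAction.exists_smul_eq G a x
    refine ⟨Quotient.mk'' (g⁻¹ • y), ?_⟩
    rw [hF]
    symm
    rw [hq2]
    exact ⟨g, by rw [Prod.smul_mk, hg, smul_inv_smul]⟩

theorem inner_self_rank {Ω : Type*} [Fintype Ω] [MulAction G Ω] [MulAction.IsPretransitive G Ω] (a : Ω) :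
    classInner (fun g : G => (Nat.card (MulAction.fixedBy Ω g) : ℂ)) (fun g : G => (Nat.card (MulAction.fixedBy Ω g) : ℂ)) =
      Nat.card (MulAction.orbitRel.Quotient (MulAction.stabilizer G a) Ω) := by
  rw [rank_eq]
  exact inner_permChar_permChar Ω Ω

end Cfsg.Agent.Lib.H3MF
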