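import Cfsg.Agent.Lib.H3MFD

set_option autoImplicit false

/-! rank at most five (helper3) -/

namespace Cfsg.Agent.Lib.H3MF

open Cfsg Representation Module Cfsg.Agent.Lib.CharBasic Cfsg.Agent.Lib.CharPermB
open scoped ComplexConjugate

universe u
variable {G : Type*} [Group G] [Fintype G]

/-- orbit sums -/
theorem sum_orbits (H : Type*) [Group H] (Ω : Type*) [Finite Ω] [MulAction H Ω] [Fintype (MulAction.orbitRel.Quotient H Ω)] :
    Nat.card Ω = ∑ ω : MulAction.orbitRel.Quotient H Ω, Nat.card ω.orbit := by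
  rw [Nat.card_congr (MulAction.selfEquivSigmaOrbits' H Ω), Nat.card_sigma]

variable {Ω : Type*} [Fintype Ω] [MulAction G Ω] [MulAction.IsPretransitive G Ω]

theorem exists_m (a : Ω) : ∃ m : IrrCharacter G → ℕ,
    (∀ ψ : IrrCharacter G, classInner (fun g : G => (Nat.card (MulAction.fixedBy Ω g) : ℂ)) ψ.1 = m ψ) ∧
    Nat.card (MulAction.orbitRel.Quotient (MulAction.stabilizer G a) Ω) = ∑ ψ, m ψ * m ψ ∧
    (Nat.card Ω : ℂ) = ∑ ψ : IrrCharacter G, (m ψ : ℂ) * ψ.1 1 := by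
  have hc : IsCharacter G (fun g : G => (Nat.card (MulAction.fixedBy Ω g) : ℂ)) := permChar_isChar Ω
  obtain ⟨m, hm⟩ := exists_mult hc
  refine ⟨m, fun ψ => ?_, ?_, ?_⟩
  · rw [hm]; exact inner_sum_irr (fun χ => (m χ : ℂ)) ψ
  · have h1 := inner_self_rank (G := G) a
    rw [hm, inner_sum_sum] at h1
    have h2 : (∑ ψ : IrrCharacter G, (m ψ : ℂ) * conj (m ψ : ℂ)) = ((∑ ψ : IrrCharacter G, m ψ * m ψ : ℕ) : ℂ) := by
      push_cast; simp
    rw [h2] at h1
    exact_mod_cast h1.symm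
  · have h1 := congrFun hm 1
    rw [Finset.sum_apply] at h1
    have h2 : Nat.card (MulAction.fixedBy Ω (1 : G)) = Nat.card Ω := by
      apply Nat.card_congr
      exact ⟨fun x => x.1, fun x => ⟨x, one_smul _ _⟩, fun x => rfl, fun x => rfl⟩
    rw [← h2]
    exact h1

theorem s0716a (a : Ω) (f : ℕ) (hf : ∀ χ : G → ℂ, Cfsg.IsIrrCharacter G χ → χ ≠ (fun _ => 1) →
      Cfsg.classInner (fun g : G => (Nat.card (MulAction.fixedBy Ω g) : ℂ)) χ ≠ 0 → χ 1 = f) :
    (∀ χ : G → ℂ, Cfsg.IsIrrCharacter G χ → Cfsg.classInner (fun g : G => (Nat.card (MulAction.fixedBy Ω g) : ℂ)) χ = 0 ∨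
      Cfsg.classInner (fun g : G => (Nat.card (MulAction.fixedBy Ω g) : ℂ)) χ = 1) ∧
    ∀ b : Ω, b ≠ a → Nat.card (MulAction.orbit (MulAction.stabilizer G a) b) = f := by
  classical
  haveI : Nonempty Ω := ⟨a⟩
  obtain ⟨m, hm, hr, hn⟩ := exists_m (G := G) a
  let o : IrrCharacter G := ⟨fun _ => 1, isIrr_trivial⟩
  have hmo : m o = 1 := by
    have h1 := hm o
    have h2 : classInner (fun g : G => (Nat.card (MulAction.fixedBy Ω g) : ℂ)) o.1 = 1 := inner_one
    rw [h2] at h1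
    exact_mod_cast h1.symm
  have hterm : ∀ ψ ∈ Finset.univ.erase o, (m ψ : ℂ) * ψ.1 1 = (f : ℂ) * m ψ := by
    intro ψ hψ
    by_cases h0 : m ψ = 0
    · rw [h0]; simp
    · have h1 : ψ.1 ≠ fun _ => 1 := fun h => Finset.ne_of_mem_erase hψ (Subtype.ext h)
      rw [hf ψ.1 ψ.2 h1 (by rw [hm]; exact_mod_cast h0)]
      ring
  have hn2 : Nat.card Ω = 1 + f * ∑ ψ ∈ Finset.univ.erase o, m ψ := by
    rw [← Finset.add_sum_erase _ _ (Finset.mem_univ o), hmo, Finset.sum_congr rfl hterm, ← Finset.mul_sum] at hn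
    have h2 : o.1 1 = 1 := rfl
    rw [h2] at hn
    have h3 : ((Nat.card Ω : ℕ) : ℂ) = ((1 + f * ∑ ψ ∈ Finset.univ.erase o, m ψ : ℕ) : ℂ) := by
      rw [hn]; push_cast; ring
    exact_mod_cast h3
  have hr2 : Nat.card (MulAction.orbitRel.Quotient (MulAction.stabilizer G a) Ω) = 1 + ∑ ψ ∈ Finset.univ.erase o, m ψ * m ψ := by
    rw [hr, ← Finset.add_sum_erase _ _ (Finset.mem_univ o), hmo]
  by_cases hex : ∃ ψ : IrrCharacter G, ψ ≠ o ∧ m ψ ≠ 0
  · obtain ⟨ψ₀, h1, h2⟩ := hex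
    have hf0 : 0 < f := by
      have h3 : ψ₀.1 1 = f := hf ψ₀.1 ψ₀.2 (fun h => h1 (Subtype.ext h)) (by rw [hm]; exact_mod_cast h2)
      have h4 := isIrr_one_ne_zero ψ₀.2
      rw [h3] at h4
      exact Nat.pos_of_ne_zero (by exact_mod_cast h4)
    haveI : Fintype (MulAction.orbitRel.Quotient (MulAction.stabilizer G a) Ω) := Fintype.ofFinite _
    let ω₀ : MulAction.orbitRel.Quotient (MulAction.stabilizer G a) Ω := Quotient.mk'' a
    have hω₀ : Nat.card ω₀.orbit = 1 := by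
      have h3 : ω₀.orbit = {a} := by
        ext x
        rw [MulAction.orbitRel.Quotient.mem_orbit, Set.mem_singleton_iff, Quotient.eq'']
        constructor
        · rintro ⟨g, hg⟩
          rw [← hg]; exact g.2
        · rintro rfl; exact ⟨1, one_smul _ _⟩
      rw [h3]; simp
    have hge : ∀ b : Ω, b ≠ a → f ≤ Nat.card (MulAction.orbit (MulAction.stabilizer G a) b) := by
      intro b hb
      apply Nat.le_of_dvd
      · haveI : Nonempty (MulAction.orbit (MulAction.stabilizer G a) b) := ⟨⟨b, MulAction.mem_orbit_self b⟩⟩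
        exact Nat.card_pos
      · exact s0715 f (fun χ hχ h3 h4 => ⟨1, by rw [hf χ hχ h3 h4]; simp⟩) a b hb
    have hge' : ∀ ω ∈ Finset.univ.erase ω₀, f ≤ Nat.card ω.orbit := by
      intro ω hω
      induction ω using Quotient.inductionOn' with | _ b => ?_
      apply hge
      rintro rfl
      exact Finset.ne_of_mem_erase hω rfl
    have hsum := sum_orbits (MulAction.stabilizer G a) Ω
    rw [← Finset.add_sum_erase _ _ (Finset.mem_univ ω₀), hω₀, hn2] at hsum
    have hcard : (Finset.univ.erase ω₀).card = ∑ ψ ∈ Finset.univ.erase o, m ψ * m ψ := by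
      rw [Finset.card_erase_of_mem (Finset.mem_univ _), Finset.card_univ, ← Nat.card_eq_fintype_card, hr2]
      omega
    have h3 : (Finset.univ.erase ω₀).card * f ≤ ∑ ω ∈ Finset.univ.erase ω₀, Nat.card ω.orbit := by
      rw [← smul_eq_mul]
      exact Finset.card_nsmul_le_sum _ _ _ hge'
    have h4 : ∀ ψ ∈ Finset.univ.erase o, m ψ ≤ m ψ * m ψ := fun ψ _ => Nat.le_mul_self _
    have h5 : ∑ ψ ∈ Finset.univ.erase o, m ψ ≤ ∑ ψ ∈ Finset.univ.erase o, m ψ * m ψ := Finset.sum_le_sum h4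
    have h6 : ∑ ψ ∈ Finset.univ.erase o, m ψ * m ψ ≤ ∑ ψ ∈ Finset.univ.erase o, m ψ := by
      rw [hcard] at h3
      have h7 : (∑ ψ ∈ Finset.univ.erase o, m ψ * m ψ) * f ≤ f * ∑ ψ ∈ Finset.univ.erase o, m ψ := by omega
      rw [mul_comm] at h7
      exact Nat.le_of_mul_le_mul_left h7 hf0
    have h7 := le_antisymm h5 h6
    have h8 := (Finset.sum_eq_sum_iff_of_le h4).1 h7
    refine ⟨?_, ?_⟩
    · intro χ hχ
      by_cases hχo : (⟨χ, hχ⟩ : IrrCharacter G) = o
      · right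
        have h9 := hm ⟨χ, hχ⟩
        rw [hχo, hmo] at h9
        have h10 : o.1 = χ := by rw [← hχo]
        rw [h10] at h9
        rw [h9]; simp
      · have h9 := h8 ⟨χ, hχ⟩ (Finset.mem_erase.2 ⟨hχo, Finset.mem_univ _⟩)
        have h10 := hm ⟨χ, hχ⟩
        change classInner (fun g : G => (Nat.card (MulAction.fixedBy Ω g) : ℂ)) χ = _ at h10
        have h11 : m ⟨χ, hχ⟩ = 0 ∨ m ⟨χ, hχ⟩ = 1 := by
          rcases Nat.eq_zero_or_pos (m ⟨χ, hχ⟩) with h | h
          · exact Or.inl h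
          · right
            have h12 : m ⟨χ, hχ⟩ * 1 = m ⟨χ, hχ⟩ * m ⟨χ, hχ⟩ := by rw [mul_one]; exact h9
            exact (Nat.eq_of_mul_eq_mul_left h h12).symm
        rw [h10]
        rcases h11 with h | h
        · left; rw [h]; simp
        · right; rw [h]; simp
    · intro b hb
      have h9 : ∑ ω ∈ Finset.univ.erase ω₀, f = ∑ ω ∈ Finset.univ.erase ω₀, Nat.card ω.orbit := by
        rw [Finset.sum_const, hcard, smul_eq_mul, ← h7, mul_comm]
        omega
      have h10 := (Finset.sum_eq_sum_iff_of_le hge').1 h9 (Quotient.mk'' b) (by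
        rw [Finset.mem_erase]
        refine ⟨?_, Finset.mem_univ _⟩
        intro h
        have h11 : b ∈ ω₀.orbit := MulAction.orbitRel.Quotient.mem_orbit.2 h
        obtain ⟨g, hg⟩ := (Quotient.eq''.1 h : MulAction.orbitRel (MulAction.stabilizer G a) Ω b a)
        exact hb (hg.symm.trans g.2))
      exact h10.symm
  · push Not at hex
    have h1 : ∑ ψ ∈ Finset.univ.erase o, m ψ = 0 := Finset.sum_eq_zero fun ψ hψ => hex ψ (Finset.ne_of_mem_erase hψ)
    rw [h1, mul_zero, add_zero] at hn2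
    refine ⟨?_, ?_⟩
    · intro χ hχ
      by_cases hχo : (⟨χ, hχ⟩ : IrrCharacter G) = o
      · right
        have h9 := hm ⟨χ, hχ⟩
        rw [hχo, hmo] at h9
        have h10 : o.1 = χ := by rw [← hχo]
        rw [h10] at h9
        rw [h9]; simp
      · left
        have h9 := hm ⟨χ, hχ⟩
        rw [hex _ hχo] at h9
        change classInner (fun g : G => (Nat.card (MulAction.fixedBy Ω g) : ℂ)) χ = _ at h9
        rw [h9]; simp
    · intro b hb
      have h2 := (Nat.card_eq_one_iff_unique.1 hn2).1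
      exact absurd (Subsingleton.elim b a) hb

theorem s0716 (a : Ω) : ((f : ℕ) → (∀ χ : G → ℂ, Cfsg.IsIrrCharacter G χ → χ ≠ (fun _ => 1) → Cfsg.classInner (fun g : G => (Nat.card (MulAction.fixedBy Ω g) : ℂ)) χ ≠ 0 → χ 1 = f) → (∀ χ : G → ℂ, Cfsg.IsIrrCharacter G χ → Cfsg.classInner (fun g : G => (Nat.card (MulAction.fixedBy Ω g) : ℂ)) χ = 0 ∨ Cfsg.classInner (fun g : G => (Nat.card (MulAction.fixedBy Ω g) : ℂ)) χ = 1) ∧ ∀ b : Ω, b ≠ a → Nat.card (MulAction.orbit (MulAction.stabilizer G a) b) = f) ∧ (Nat.card (MulAction.orbitRel.Quotient (MulAction.stabilizer G a) Ω) ≤ 5 → ∀ χ : G → ℂ, Cfsg.IsIrrCharacter G χ → Cfsg.classInner (fun g : G => (Nat.card (MulAction.fixedBy Ω g) : ℂ)) χ = 0 ∨ Cfsg.classInner (fun g : G => (Nat.card (MulAction.fixedBy Ω g) : ℂ)) χ = 1) := by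
  classical
  refine ⟨fun f hf => s0716a a f hf, ?_⟩
  intro h5 χ hχ
  haveI : Nonempty Ω := ⟨a⟩
  obtain ⟨m, hm, hr, hn⟩ := exists_m (G := G) a
  let o : IrrCharacter G := ⟨fun _ => 1, isIrr_trivial⟩
  have hmo : m o = 1 := by
    have h1 := hm o
    have h2 : classInner (fun g : G => (Nat.card (MulAction.fixedBy Ω g) : ℂ)) o.1 = 1 := inner_one
    rw [h2] at h1
    exact_mod_cast h1.symm
  by_contra hcon
  have hmχ := hm ⟨χ, hχ⟩
  change classInner (fun g : G => (Nat.card (MulAction.fixedBy Ω g) : ℂ)) χ = _ at hmχ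
  rw [hmχ] at hcon
  have h2 : 2 ≤ m ⟨χ, hχ⟩ := by
    by_contra hlt
    apply hcon
    have : m ⟨χ, hχ⟩ = 0 ∨ m ⟨χ, hχ⟩ = 1 := by omega
    rcases this with h | h
    · left; rw [h]; simp
    · right; rw [h]; simp
  have hne : (⟨χ, hχ⟩ : IrrCharacter G) ≠ o := by
    intro h; rw [h, hmo] at h2; omega
  have e1 := Finset.add_sum_erase Finset.univ (fun x => m x * m x) (Finset.mem_univ o)
  have e2 := Finset.add_sum_erase (Finset.univ.erase o) (fun x => m x * m x)
    (Finset.mem_erase.2 ⟨hne, Finset.mem_univ _⟩)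
  rw [hr] at h5
  simp only [hmo] at e1 e2
  have h4 : 4 ≤ m ⟨χ, hχ⟩ * m ⟨χ, hχ⟩ := Nat.mul_le_mul h2 h2
  have h6 : ∑ x ∈ (Finset.univ.erase o).erase ⟨χ, hχ⟩, m x * m x = 0 := by omega
  rw [Finset.sum_eq_zero_iff] at h6
  obtain ⟨d, hd0, hd⟩ := isIrr_one_eq hχ
  have h7 := (s0716a a d (by
    intro ψ hψ hψ1 hψ0
    by_cases hψχ : ψ = χ
    · rw [hψχ, hd]
    · exfalso
      have h8 := h6 ⟨ψ, hψ⟩ (Finset.mem_erase.2 ⟨fun h => hψχ (congrArg Subtype.val h),
        Finset.mem_erase.2 ⟨fun h => hψ1 (congrArg Subtype.val h), Finset.mem_univ _⟩⟩)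
      have h9 : m ⟨ψ, hψ⟩ = 0 := by simpa using h8
      have h10 := hm ⟨ψ, hψ⟩
      rw [h9] at h10
      apply hψ0
      rw [← Nat.cast_zero]
      exact h10)).1 χ hχ
  rw [hmχ] at h7
  exact hcon h7

end Cfsg.Agent.Lib.H3MF
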