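import Cfsg.Agent.Lib.H3MFE

set_option autoImplicit false

/-! Wielandt's rank three parameters (helper3) -/

namespace Cfsg.Agent.Lib.H3MF

open Cfsg Representation Module Cfsg.Agent.Lib.CharBasic Cfsg.Agent.Lib.CharPermB
open scoped ComplexConjugate

universe u
variable {G : Type*} [Group G] [Fintype G]

theorem scalar_of_inner_one {V : Type*} [AddCommGroup V] [Module ℂ V] [FiniteDimensional ℂ V] [Nontrivial V]
    (ρ : Representation ℂ G V) (h : classInner ρ.character ρ.character = 1) {T : V →ₗ[ℂ] V} (hT : Eqv ρ ρ T) :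
    ∃ c : ℂ, T = c • (LinearMap.id : V →ₗ[ℂ] V) := by
  rw [classInner_char_eq_finrank] at h
  have h1 : finrank ℂ (IntertwiningMap ρ ρ) = 1 := by exact_mod_cast h
  let I : IntertwiningMap ρ ρ := (LinearMap.id : V →ₗ[ℂ] V).intertwiningMap_of_isIntertwiningMap ρ ρ (fun g v => rfl)
  have hI : I ≠ 0 := by
    intro h2
    obtain ⟨v, hv⟩ := exists_ne (0 : V)
    exact hv (congrArg (fun w : IntertwiningMap ρ ρ => w v) h2)
  obtain ⟨c, hc⟩ := (finrank_eq_one_iff_of_nonzero' I hI).1 h1 (T.intertwiningMap_of_isIntertwiningMap ρ ρ hT)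
  refine ⟨c, ?_⟩
  ext v
  exact congrArg (fun w : IntertwiningMap ρ ρ => w v) hc.symm

theorem two_irr {V : Type*} [AddCommGroup V] [Module ℂ V] [FiniteDimensional ℂ V]
    (ρ : Representation ℂ G V) {χ₁ χ₂ : G → ℂ} (h₁ : IsIrrCharacter G χ₁) (h₂ : IsIrrCharacter G χ₂) (hne : χ₁ ≠ χ₂)
    (hρ : ρ.character = χ₁ + χ₂) {T : V →ₗ[ℂ] V} (hT : Eqv ρ ρ T) (hi : IsIntegral ℤ (T : Module.End ℂ V)) :
    ∃ θ₁ θ₂ : ℂ, IsIntegral ℤ θ₁ ∧ IsIntegral ℤ θ₂ ∧ LinearMap.trace ℂ V T = χ₁ 1 * θ₁ + χ₂ 1 * θ₂ ∧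
      LinearMap.trace ℂ V (T ∘ₗ T) = χ₁ 1 * θ₁ ^ 2 + χ₂ 1 * θ₂ ^ 2 := by
  obtain ⟨W, hW⟩ := exists_sub ρ h₁ (by
    rw [hρ, classInner_add_left, irr_inner_self h₁, irr_inner_ne h₂ h₁ hne.symm]
    simp)
  obtain ⟨W', hW'⟩ := exists_isCompl_invariant ρ W
  have hc2 : W'.toRepresentation.character = χ₂ := by
    funext g
    have h3 := char_eq_add_of_isCompl ρ W W' hW' g
    rw [hρ, hW] at h3
    change χ₁ g + χ₂ g = _ at h3
    linear_combination -h3
  have key : ∀ (A B : Subrepresentation ρ) (hAB : IsCompl A.toSubmodule B.toSubmodule),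
      classInner B.toRepresentation.character A.toRepresentation.character = 0 →
      ∀ v ∈ A.toSubmodule, T v ∈ A.toSubmodule := by
    intro A B hAB h0 v hv
    let f : A.toSubmodule →ₗ[ℂ] B.toSubmodule :=
      (Submodule.projectionOnto B.toSubmodule A.toSubmodule hAB.symm) ∘ₗ T ∘ₗ A.toSubmodule.subtype
    have hf : f = 0 := eq_zero_of_inner A.toRepresentation B.toRepresentation h0 (by
      intro g w
      change (Submodule.projectionOnto B.toSubmodule A.toSubmodule hAB.symm) (T (ρ g w)) = _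
      rw [hT, proj_eqv ρ B A hAB.symm]
      rfl)
    have h4 := LinearMap.congr_fun hf ⟨v, hv⟩
    have h5 : (Submodule.projectionOnto B.toSubmodule A.toSubmodule hAB.symm) (T v) = 0 := h4
    exact (Submodule.linearProjOfIsCompl_apply_eq_zero_iff hAB.symm).1 h5
  have k1 := key W W' hW' (by rw [hc2, hW]; exact irr_inner_ne h₂ h₁ hne.symm)
  have k2 := key W' W hW'.symm (by rw [hc2, hW]; exact irr_inner_ne h₁ h₂ hne)
  have piece : ∀ (A B : Subrepresentation ρ) (hAB : IsCompl A.toSubmodule B.toSubmodule) (χ : G → ℂ),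
      IsIrrCharacter G χ → A.toRepresentation.character = χ → (∀ v ∈ B.toSubmodule, T v ∈ B.toSubmodule) →
      ∃ θ : ℂ, IsIntegral ℤ θ ∧ LinearMap.trace ℂ _ (cmp A.toSubmodule B.toSubmodule hAB T) = χ 1 * θ ∧
        LinearMap.trace ℂ _ (cmp A.toSubmodule B.toSubmodule hAB (T ∘ₗ T)) = χ 1 * θ ^ 2 := by
    intro A B hAB χ hχ hA hB
    have hdim : (finrank ℂ A.toSubmodule : ℂ) = χ 1 := by rw [← hA, Representation.char_one]
    haveI : Nontrivial A.toSubmodule := by
      apply Module.nontrivial_of_finrank_pos (R := ℂ)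
      apply Nat.pos_of_ne_zero
      intro h
      rw [h, Nat.cast_zero] at hdim
      exact isIrr_one_ne_zero hχ hdim.symm
    obtain ⟨c, hc⟩ := scalar_of_inner_one A.toRepresentation (by rw [hA]; exact irr_inner_self hχ)
      (T := cmp A.toSubmodule B.toSubmodule hAB T) (by
        intro g w
        change Submodule.projectionOnto A.toSubmodule B.toSubmodule hAB (T (ρ g w)) = _
        rw [hT, proj_eqv ρ A B hAB]
        rfl)
    obtain ⟨w, hw⟩ := exists_ne (0 : A.toSubmodule)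
    refine ⟨c, eigen_integral hw (by rw [hc]; rfl) (cmp_integral _ _ hAB T hB hi), ?_, ?_⟩
    · rw [hc, map_smul, LinearMap.trace_id, hdim, smul_eq_mul, mul_comm]
    · rw [cmp_mul _ _ hAB T hB, hc]
      have : (c • (LinearMap.id : A.toSubmodule →ₗ[ℂ] A.toSubmodule)) ∘ₗ (c • LinearMap.id) = (c ^ 2) • LinearMap.id := by
        ext v
        simp [pow_two, mul_smul]
      rw [this, map_smul, LinearMap.trace_id, hdim, smul_eq_mul, mul_comm]
  obtain ⟨θ₁, i1, a1, b1⟩ := piece W W' hW' χ₁ h₁ hW k2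
  obtain ⟨θ₂, i2, a2, b2⟩ := piece W' W hW'.symm χ₂ h₂ hc2 k1
  refine ⟨θ₁, θ₂, i1, i2, ?_, ?_⟩
  · rw [trace_cmp _ _ hW' T, a1, a2]
  · rw [trace_cmp _ _ hW' (T ∘ₗ T), b1, b2]

/-- an algebraic integer root of `A x² + B x + C` is an integer when `A ∤ B` -/
theorem int_of_quadratic {θ : ℂ} (hi : IsIntegral ℤ θ) {A B C : ℤ} (hA : A ≠ 0) (hAB : ¬ A ∣ B)
    (h : (A : ℂ) * θ ^ 2 + B * θ + C = 0) : ∃ t : ℤ, θ = t := by
  classical
  let Q : Polynomial ℤ := Polynomial.C A * Polynomial.X ^ 2 + Polynomial.C B * Polynomial.X + Polynomial.C C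
  have hQ0 : Polynomial.aeval θ Q = 0 := by
    simp only [Q, map_add, map_mul, map_pow, Polynomial.aeval_X, Polynomial.aeval_C]
    simpa using h
  have hQd : Q.natDegree = 2 := Polynomial.natDegree_quadratic hA
  obtain ⟨R, hR⟩ := minpoly.isIntegrallyClosed_dvd hi hQ0
  set P := minpoly ℤ θ with hP
  have hPm : P.Monic := minpoly.monic hi
  have hQne : Q ≠ 0 := by
    intro h0; rw [h0, Polynomial.natDegree_zero] at hQd; omega
  have hRne : R ≠ 0 := by
    rintro rfl; rw [mul_zero] at hR; exact hQne hR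
  have hdeg : P.natDegree + R.natDegree = 2 := by
    rw [← hQd, hR, Polynomial.natDegree_mul hPm.ne_zero hRne]
  have hPpos : 0 < P.natDegree := minpoly.natDegree_pos hi
  have hcase : P.natDegree = 1 ∨ P.natDegree = 2 := by omega
  rcases hcase with h1 | h1
  · have h2 := hPm.eq_X_add_C h1
    have h3 : Polynomial.aeval θ P = 0 := minpoly.aeval ℤ θ
    rw [h2, map_add, Polynomial.aeval_X, Polynomial.aeval_C] at h3
    refine ⟨-(P.coeff 0), ?_⟩
    push_cast
    simp only [algebraMap_int_eq, eq_intCast] at h3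
    linear_combination h3
  · exfalso
    have hR0 : R.natDegree = 0 := by omega
    obtain ⟨r, hr⟩ := Polynomial.natDegree_eq_zero.1 hR0
    rw [← hr] at hR
    have e2 := congrArg (fun q => Polynomial.coeff q 2) hR
    have e1 := congrArg (fun q => Polynomial.coeff q 1) hR
    have c2 : P.coeff 2 = 1 := by
      have := hPm.coeff_natDegree
      rwa [h1] at this
    simp only [Q, Polynomial.coeff_add, Polynomial.coeff_C_mul, Polynomial.coeff_X_pow, Polynomial.coeff_X,
      Polynomial.coeff_C, Polynomial.coeff_mul_C] at e1 e2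
    norm_num at e1 e2
    rw [c2, one_mul] at e2
    apply hAB
    rw [e1, e2]
    exact Dvd.intro_left _ rfl

end Cfsg.Agent.Lib.H3MF
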