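import Cfsg.Agent.Lib.H3MFF

set_option autoImplicit false

/-! Wielandt's rank three parameters, part two (helper3) -/

namespace Cfsg.Agent.Lib.H3MF

open Cfsg Representation Module Cfsg.Agent.Lib.CharBasic Cfsg.Agent.Lib.CharPermB
open scoped ComplexConjugate

universe u
variable {G : Type*} [Group G] [Fintype G]

theorem nt_int {m k c : ℤ} (hm : 2 ≤ m) (hk0 : 0 < k) (hk1 : k < 2 * m - 1) (hk2 : k ≠ 1) (hk3 : k ≠ 2 * m - 2)
    (h : (2 * k - (2 * (m - 1) * c + 1)) ^ 2 = 1 + 2 * (m - 1) * (c * (2 - c))) : (2 * k - (2 * m - 1)) ^ 2 = 2 * m - 1 := by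
  have hc : 0 ≤ c * (2 - c) := by
    by_contra hneg
    push Not at hneg
    have h1 : c * (2 - c) ≤ -1 := by omega
    have h2 : 0 ≤ (2 * k - (2 * (m - 1) * c + 1)) ^ 2 := sq_nonneg _
    nlinarith
  have hc2 : c = 0 ∨ c = 1 ∨ c = 2 := by
    have h1 : 0 ≤ c := by nlinarith
    have h2 : c ≤ 2 := by nlinarith
    omega
  rcases hc2 with rfl | rfl | rfl
  · exfalso
    have h1 : (2 * k - 1) ^ 2 = 1 := by linear_combination h
    have h2 : k * (k - 1) = 0 := by linarith [h1, (by ring : (2 * k - 1) ^ 2 = 4 * (k * (k - 1)) + 1)]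
    rcases mul_eq_zero.1 h2 with h3 | h3 <;> omega
  · linear_combination h
  · exfalso
    have h2 : (k - (2 * m - 1)) * (k - (2 * m - 2)) = 0 := by
      have h3 : (2 * k - (4 * m - 3)) ^ 2 = 1 := by linear_combination h
      linarith [h3, (by ring : (2 * k - (4 * m - 3)) ^ 2 = 4 * ((k - (2 * m - 1)) * (k - (2 * m - 2))) + 1)]
    rcases mul_eq_zero.1 h2 with h3 | h3 <;> omega

theorem nt {m k : ℤ} (hm : 2 ≤ m) (hk0 : 0 < k) (hk1 : k < 2 * m - 1) (hk2 : k ≠ 1) (hk3 : k ≠ 2 * m - 2) {θ₁ θ₂ : ℂ}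
    (i1 : IsIntegral ℤ θ₁) (i2 : IsIntegral ℤ θ₂) (e1 : (k : ℂ) + (((m : ℂ) - 1) * θ₁ + m * θ₂) = 0)
    (e2 : (k : ℂ) ^ 2 + (((m : ℂ) - 1) * θ₁ ^ 2 + m * θ₂ ^ 2) = 2 * m * k) : (2 * k - (2 * m - 1)) ^ 2 = 2 * m - 1 := by
  have hA : (m - 1) * (2 * m - 1) ≠ 0 := by
    apply mul_ne_zero <;> omega
  obtain ⟨t, ht⟩ := int_of_quadratic i1 (A := (m - 1) * (2 * m - 1)) (B := 2 * k * (m - 1)) (C := k ^ 2 * (m + 1) - 2 * m ^ 2 * k)
    hA (by
      intro hdvd
      have h1 : (2 * m - 1) ∣ 2 * k := by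
        have h2 : (m - 1) * (2 * m - 1) ∣ (m - 1) * (2 * k) := by
          rw [mul_comm (m - 1) (2 * k)]; exact hdvd
        exact (mul_dvd_mul_iff_left (by omega)).1 h2
      have h2 : IsCoprime (2 * m - 1) 2 := ⟨-1, m, by ring⟩
      have h3 := h2.dvd_of_dvd_mul_left h1
      have h4 := Int.le_of_dvd hk0 h3
      omega) (by
      push_cast
      linear_combination (m : ℂ) * e2 - (m * θ₂ - k - (m - 1) * θ₁) * e1)
  have hmc : (m : ℂ) ≠ 0 := by
    have : m ≠ 0 := by omega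
    exact_mod_cast this
  obtain ⟨s, hs⟩ := CharInt.isInt_of_isIntegral_rat (q := -(k + (m - 1) * t) / m) (by
    have h1 : ((-(k + (m - 1) * t) / m : ℚ) : ℂ) = θ₂ := by
      push_cast
      rw [div_eq_iff hmc, ← ht]
      linear_combination -e1
    rw [h1]; exact i2)
  have hmq : (m : ℚ) ≠ 0 := by
    have : m ≠ 0 := by omega
    exact_mod_cast this
  have hs2 : k + (m - 1) * t + m * s = 0 := by
    rw [div_eq_iff hmq] at hs
    have h1 : (k : ℚ) + (m - 1) * t + m * s = 0 := by linear_combination -hs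
    exact_mod_cast h1
  have hθ2 : θ₂ = s := by
    have h1 : (k : ℂ) + (m - 1) * t + m * s = 0 := by exact_mod_cast hs2
    rw [ht] at e1
    have h2 : (m : ℂ) * (θ₂ - s) = 0 := by linear_combination e1 - h1
    rcases mul_eq_zero.1 h2 with h3 | h3
    · exact absurd h3 hmc
    · linear_combination h3
  have e3 : k ^ 2 + ((m - 1) * t ^ 2 + m * s ^ 2) = 2 * m * k := by
    rw [ht, hθ2] at e2
    exact_mod_cast e2
  have ht2 : t = k + m * (t + s) := by linear_combination -hs2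
  obtain ⟨c, hc⟩ : ∃ c : ℤ, c = -(t + s) := ⟨_, rfl⟩
  have ht3 : t = k - m * c := by rw [hc]; linear_combination ht2
  have hs3 : s = -c - k + m * c := by linear_combination -ht3 + hc
  apply nt_int (c := c) hm hk0 hk1 hk2 hk3
  have h4 : m * ((2 * k - (2 * (m - 1) * c + 1)) ^ 2 - (1 + 2 * (m - 1) * (c * (2 - c)))) = 0 := by
    rw [ht3, hs3] at e3
    linear_combination 2 * e3
  rcases mul_eq_zero.1 h4 with h5 | h5
  · omega
  · linear_combination h5

theorem nt_final {m k : ℤ} (hm : 2 ≤ m) (h : (2 * k - (2 * m - 1)) ^ 2 = 2 * m - 1) :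
    ∃ a : ℕ, 0 < a ∧ m = 2 * (a : ℤ) ^ 2 + 2 * a + 1 ∧ (k = a * (2 * a + 1) ∨ k = (a + 1) * (2 * a + 1)) := by
  obtain ⟨u, hu⟩ : ∃ u : ℕ, u = (2 * k - (2 * m - 1)).natAbs := ⟨_, rfl⟩
  have h1 : (u : ℤ) ^ 2 = 2 * m - 1 := by rw [hu, Int.natAbs_sq, h]
  obtain ⟨a, ha⟩ : ∃ a : ℕ, u = 2 * a + 1 := by
    rcases Nat.even_or_odd u with ⟨v, hv⟩ | ⟨v, hv⟩
    · exfalso
      rw [hv] at h1
      push_cast at h1
      have h2 : (2 : ℤ) * (2 * v ^ 2) = 2 * m - 1 := by linear_combination h1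
      omega
    · exact ⟨v, hv⟩
  rw [ha] at h1
  push_cast at h1
  have h2 : m = 2 * (a : ℤ) ^ 2 + 2 * a + 1 := by linarith [h1, (by ring : (2 * (a : ℤ) + 1) ^ 2 = 4 * (a : ℤ) ^ 2 + 4 * a + 1)]
  refine ⟨a, ?_, h2, ?_⟩
  · rcases Nat.eq_zero_or_pos a with h3 | h3
    · rw [h3] at h2; norm_num at h2; omega
    · exact h3
  · have h3 : (2 * k - (2 * m - 1)) = u ∨ (2 * k - (2 * m - 1)) = -u := by
      rw [hu]
      exact Int.natAbs_eq _
    rw [ha] at h3
    push_cast at h3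
    rcases h3 with h3 | h3
    · right
      linarith [h3, h2, (by ring : ((a : ℤ) + 1) * (2 * a + 1) = 2 * (a : ℤ) ^ 2 + 3 * a + 1)]
    · left
      linarith [h3, h2, (by ring : (a : ℤ) * (2 * a + 1) = 2 * (a : ℤ) ^ 2 + a)]

section rank3

variable {Ω : Type*} [Fintype Ω] [MulAction G Ω]

/-- a primitive group with a nontrivial subdegree one has all subdegrees one -/
theorem prim_one (hprim : MulAction.IsPreprimitive G Ω) {a b : Ω} (hab : b ≠ a)
    (h : Nat.card (MulAction.orbit (MulAction.stabilizer G a) b) = 1) (c : Ω) :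
    Nat.card (MulAction.orbit (MulAction.stabilizer G a) c) = 1 := by
  haveI := hprim
  haveI : Nontrivial Ω := ⟨⟨b, a, hab⟩⟩
  have hfix : ∀ x : Ω, Nat.card (MulAction.orbit (MulAction.stabilizer G a) x) = 1 ↔
      ∀ g ∈ MulAction.stabilizer G a, g • x = x := by
    intro x
    rw [Nat.card_eq_one_iff_unique]
    constructor
    · rintro ⟨h1, -⟩ g hg
      exact congrArg Subtype.val (@Subsingleton.elim _ h1 (⟨g • x, ⟨⟨g, hg⟩, rfl⟩⟩ : MulAction.orbit (MulAction.stabilizer G a) x)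
        ⟨x, MulAction.mem_orbit_self x⟩)
    · intro h1
      refine ⟨⟨?_⟩, ⟨x, MulAction.mem_orbit_self x⟩⟩
      rintro ⟨_, ⟨g, rfl⟩⟩ ⟨_, ⟨g', rfl⟩⟩
      apply Subtype.ext
      exact (h1 g.1 g.2).trans (h1 g'.1 g'.2).symm
  rw [hfix] at h ⊢
  have hcoat := MulAction.IsPreprimitive.isCoatom_stabilizer_of_isPreprimitive G a
  obtain ⟨g, hg⟩ := MulAction.exists_smul_eq G a b
  have hle : MulAction.stabilizer G a ≤ MulAction.stabilizer G b := fun x hx => h x hx
  have hcard : Nat.card (MulAction.stabilizer G b) = Nat.card (MulAction.stabilizer G a) := by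
    have h1 := MulAction.stabilizer_smul_eq_stabilizer_map_conj g a
    rw [hg] at h1
    rw [h1]
    exact (Nat.card_congr ((MulAction.stabilizer G a).equivMapOfInjective _ (MulAut.conj g).injective).toEquiv).symm
  have heq : MulAction.stabilizer G a = MulAction.stabilizer G b := by
    apply SetLike.coe_injective
    apply Set.eq_of_subset_of_ncard_le hle
    rw [← Nat.card_coe_set_eq, ← Nat.card_coe_set_eq]
    exact hcard.le
  have hmap := MulAction.stabilizer_smul_eq_stabilizer_map_conj g a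
  rw [hg, ← heq] at hmap
  have hnorm : g ∈ Subgroup.normalizer (MulAction.stabilizer G a : Set G) := by
    rw [Subgroup.mem_normalizer_iff]
    intro x
    constructor
    · intro hx
      rw [hmap]
      exact ⟨x, hx, rfl⟩
    · intro hx
      rw [hmap] at hx
      obtain ⟨y, hy, hxy⟩ := hx
      have : y = x := (MulAut.conj g).injective hxy
      rw [← this]; exact hy
  have htop : Subgroup.normalizer (MulAction.stabilizer G a : Set G) = ⊤ := by
    apply hcoat.2
    refine lt_of_le_of_ne Subgroup.le_normalizer ?_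
    intro h1
    rw [← h1] at hnorm
    exact hab (hg.symm.trans hnorm)
  intro x hx
  obtain ⟨y, rfl⟩ := MulAction.exists_smul_eq G a c
  have h1 : y⁻¹ * x * y ∈ MulAction.stabilizer G a := by
    have h2 : y⁻¹ ∈ Subgroup.normalizer (MulAction.stabilizer G a : Set G) := by rw [htop]; trivial
    have h3 := (Subgroup.mem_normalizer_iff.1 h2 x).1 hx
    rwa [inv_inv] at h3
  have h2 : (y⁻¹ * x * y) • a = a := h1
  rw [mul_smul, mul_smul, inv_smul_eq_iff] at h2
  exact h2

theorem orb_symm {a b : Ω} {g : G} (h1 : g • a = b) (h2 : g • b = a) (x y : Ω) : orb G a b x y = orb G a b y x := by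
  unfold orb
  congr 1
  apply propext
  constructor
  · rintro ⟨g', h3, h4⟩
    exact ⟨g' * g, by rw [mul_smul, h1, h4], by rw [mul_smul, h2, h3]⟩
  · rintro ⟨g', h3, h4⟩
    exact ⟨g' * g, by rw [mul_smul, h1, h4], by rw [mul_smul, h2, h3]⟩

theorem orb_flip (a b x y : Ω) : orb G a b x y = orb G b a y x := by
  unfold orb
  congr 1
  apply propext
  constructor
  · rintro ⟨g', h3, h4⟩; exact ⟨g', h4, h3⟩
  · rintro ⟨g', h3, h4⟩; exact ⟨g', h4, h3⟩

theorem orb_base (a b : Ω) (g : G) (x y : Ω) : orb G (g • a) (g • b) x y = orb G a b x y := by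
  unfold orb
  congr 1
  apply propext
  constructor
  · rintro ⟨g', h3, h4⟩; exact ⟨g' * g, by rw [mul_smul, h3], by rw [mul_smul, h4]⟩
  · rintro ⟨g', h3, h4⟩
    exact ⟨g' * g⁻¹, by rw [mul_smul, inv_smul_smul, h3], by rw [mul_smul, inv_smul_smul, h4]⟩

/-- paired subdegrees are equal -/
theorem paired_card [MulAction.IsPretransitive G Ω] {a b b' : Ω} {g : G} (h1 : g • a = b) (h2 : g • b' = a) :
    Nat.card (MulAction.orbit (MulAction.stabilizer G a) b') = Nat.card (MulAction.orbit (MulAction.stabilizer G a) b) := by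
  haveI : Nonempty Ω := ⟨a⟩
  have e1 : ∑ x : Ω, ∑ y : Ω, orb G a b x y = Fintype.card Ω * (Nat.card (MulAction.orbit (MulAction.stabilizer G a) b) : ℤ) := by
    simp only [orb_row', Finset.sum_const, Finset.card_univ, nsmul_eq_mul]
  have e2 : ∑ x : Ω, ∑ y : Ω, orb G a b' x y = Fintype.card Ω * (Nat.card (MulAction.orbit (MulAction.stabilizer G a) b') : ℤ) := by
    simp only [orb_row', Finset.sum_const, Finset.card_univ, nsmul_eq_mul]
  have e3 : ∑ x : Ω, ∑ y : Ω, orb G a b' x y = ∑ x : Ω, ∑ y : Ω, orb G a b x y := by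
    rw [Finset.sum_comm]
    apply Finset.sum_congr rfl; intro x _
    apply Finset.sum_congr rfl; intro y _
    rw [← orb_base a b' g, h1, h2, orb_flip]
  rw [e1, e2] at e3
  have h0 : (Fintype.card Ω : ℤ) ≠ 0 := by exact_mod_cast Fintype.card_ne_zero
  exact_mod_cast mul_left_cancel₀ h0 e3

theorem trace_sq [MulAction.IsPretransitive G Ω] {a b : Ω} {g : G} (h1 : g • a = b) (h2 : g • b = a) :
    LinearMap.trace ℂ (Ω → ℂ) (orbop G a b ∘ₗ orbop G a b) =
      Fintype.card Ω * (Nat.card (MulAction.orbit (MulAction.stabilizer G a) b) : ℂ) := by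
  rw [orbop, op_comp, trace_op]
  have e1 : ∀ x : Ω, ∑ z : Ω, (orb G a b x z : ℂ) * (orb G a b z x : ℂ) =
      (Nat.card (MulAction.orbit (MulAction.stabilizer G a) b) : ℂ) := by
    intro x
    have e2 : ∀ z, (orb G a b x z : ℂ) * (orb G a b z x : ℂ) = (orb G a b x z : ℂ) := by
      intro z
      rw [orb_symm h1 h2 z x]
      unfold orb
      split_ifs <;> simp
    simp only [e2]
    have := orb_row' (G := G) a b x
    exact_mod_cast this
  simp only [e1, Finset.sum_const, Finset.card_univ, nsmul_eq_mul]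

end rank3

end Cfsg.Agent.Lib.H3MF
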