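import Cfsg.Agent.Lib.H3MFG

set_option autoImplicit false

/-! Wielandt's rank three parameters, part three (helper3) -/

namespace Cfsg.Agent.Lib.H3MF

open Cfsg Representation Module Cfsg.Agent.Lib.CharBasic Cfsg.Agent.Lib.CharPermB
open scoped ComplexConjugate

universe u
variable {G : Type*} [Group G] [Fintype G]
variable {Ω : Type*} [Fintype Ω] [MulAction G Ω]

theorem rank_three {m : ℕ} (hm : Fintype.card Ω = 2 * m) {a b : Ω} (hab : b ≠ a)
    (hrank : Nat.card (MulAction.orbitRel.Quotient (MulAction.stabilizer G a) Ω) = 3) :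
    ∃ b' : Ω, b' ≠ a ∧ (∀ c : Ω, c ≠ a → c ∉ MulAction.orbit (MulAction.stabilizer G a) b →
      MulAction.orbit (MulAction.stabilizer G a) c = MulAction.orbit (MulAction.stabilizer G a) b') ∧
      1 + Nat.card (MulAction.orbit (MulAction.stabilizer G a) b) + Nat.card (MulAction.orbit (MulAction.stabilizer G a) b') = 2 * m := by
  classical
  haveI : Fintype (MulAction.orbitRel.Quotient (MulAction.stabilizer G a) Ω) := Fintype.ofFinite _
  have hq1 : ∀ x y : Ω, (Quotient.mk'' x : MulAction.orbitRel.Quotient (MulAction.stabilizer G a) Ω) = Quotient.mk'' y ↔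
      ∃ g : MulAction.stabilizer G a, g • y = x := fun x y => Quotient.eq''
  let ω₀ : MulAction.orbitRel.Quotient (MulAction.stabilizer G a) Ω := Quotient.mk'' a
  let ω₁ : MulAction.orbitRel.Quotient (MulAction.stabilizer G a) Ω := Quotient.mk'' b
  have hω₀ : Nat.card ω₀.orbit = 1 := by
    have h3 : ω₀.orbit = {a} := by
      ext x
      rw [MulAction.orbitRel.Quotient.mem_orbit, Set.mem_singleton_iff, hq1]
      constructor
      · rintro ⟨g, hg⟩
        rw [← hg]; exact g.2
      · rintro rfl; exact ⟨1, one_smul _ _⟩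
    rw [h3]; simp
  have hmk : ∀ c : Ω, c ≠ a → (Quotient.mk'' c : MulAction.orbitRel.Quotient (MulAction.stabilizer G a) Ω) ≠ ω₀ := by
    intro c hc h
    obtain ⟨g, hg⟩ := (hq1 _ _).1 h
    exact hc (hg.symm.trans g.2)
  have h1 : ω₁ ∈ Finset.univ.erase ω₀ := Finset.mem_erase.2 ⟨hmk b hab, Finset.mem_univ _⟩
  have hcard : ((Finset.univ.erase ω₀).erase ω₁).card = 1 := by
    rw [Finset.card_erase_of_mem h1, Finset.card_erase_of_mem (Finset.mem_univ _), Finset.card_univ,
      ← Nat.card_eq_fintype_card, hrank]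
  obtain ⟨ω₂, hω₂⟩ := Finset.card_eq_one.1 hcard
  obtain ⟨b', hb'⟩ : ∃ b' : Ω, (Quotient.mk'' b' : MulAction.orbitRel.Quotient (MulAction.stabilizer G a) Ω) = ω₂ := by
    induction ω₂ using Quotient.inductionOn' with | _ x => ?_
    exact ⟨x, rfl⟩
  have h2 : ω₂ ∈ (Finset.univ.erase ω₀).erase ω₁ := by rw [hω₂]; exact Finset.mem_singleton_self _
  have h3 : ω₂ ≠ ω₀ := Finset.ne_of_mem_erase (Finset.mem_of_mem_erase h2)
  refine ⟨b', ?_, ?_, ?_⟩
  · rintro rfl; exact h3 hb'.symm
  · intro c hc hcb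
    have h4 : (Quotient.mk'' c : MulAction.orbitRel.Quotient (MulAction.stabilizer G a) Ω) ∈ (Finset.univ.erase ω₀).erase ω₁ := by
      rw [Finset.mem_erase, Finset.mem_erase]
      refine ⟨?_, hmk c hc, Finset.mem_univ _⟩
      intro h
      obtain ⟨g, hg⟩ := (hq1 _ _).1 h
      exact hcb ⟨g, hg⟩
    rw [hω₂, Finset.mem_singleton, ← hb'] at h4
    obtain ⟨g, hg⟩ := (hq1 _ _).1 h4
    exact MulAction.orbit_eq_iff.2 ⟨g, hg⟩
  · have hsum := sum_orbits (MulAction.stabilizer G a) Ω
    rw [Nat.card_eq_fintype_card, hm] at hsum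
    have e1 := Finset.add_sum_erase Finset.univ (fun ω : MulAction.orbitRel.Quotient (MulAction.stabilizer G a) Ω => Nat.card ω.orbit)
      (Finset.mem_univ ω₀)
    have e2 := Finset.add_sum_erase (Finset.univ.erase ω₀)
      (fun ω : MulAction.orbitRel.Quotient (MulAction.stabilizer G a) Ω => Nat.card ω.orbit) h1
    rw [hω₂, Finset.sum_singleton, ← hb'] at e2
    simp only [hω₀] at e1
    have e3 : Nat.card ω₁.orbit = Nat.card (MulAction.orbit (MulAction.stabilizer G a) b) := rfl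
    have e4 : Nat.card (MulAction.orbitRel.Quotient.orbit
      (Quotient.mk'' b' : MulAction.orbitRel.Quotient (MulAction.stabilizer G a) Ω)) =
      Nat.card (MulAction.orbit (MulAction.stabilizer G a) b') := rfl
    rw [e3, e4] at e2
    omega

theorem s0719 (hprim : MulAction.IsPreprimitive G Ω) {m : ℕ} (hm : Fintype.card Ω = 2 * m) (a₀ : Ω) (hrank : Nat.card (MulAction.orbitRel.Quotient (MulAction.stabilizer G a₀) Ω) = 3) (χ₁ χ₂ : G → ℂ) (h₁ : Cfsg.IsIrrCharacter G χ₁) (h₂ : Cfsg.IsIrrCharacter G χ₂) (hπ : (fun g : G => (Nat.card (MulAction.fixedBy Ω g) : ℂ)) = fun g => 1 + χ₁ g + χ₂ g) (hd₁ : χ₁ 1 = (m : ℂ) - 1) (hd₂ : χ₂ 1 = m) : ∃ a : ℕ, 0 < a ∧ m = 2 * a ^ 2 + 2 * a + 1 ∧ ∀ b : Ω, b ≠ a₀ → Nat.card (MulAction.orbit (MulAction.stabilizer G a₀) b) = a * (2 * a + 1) ∨ Nat.card (MulAction.orbit (MulAction.stabilizer G a₀) b) = (a + 1) * (2 * a + 1) := by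
  classical
  haveI := hprim
  haveI : Nonempty Ω := ⟨a₀⟩
  have hm0 : 0 < m := by
    have := Fintype.card_pos (α := Ω)
    omega
  have hm1 : m ≠ 1 := by
    rintro rfl
    exact isIrr_one_ne_zero h₁ (by rw [hd₁]; simp)
  have hpos : ∀ b : Ω, 0 < Nat.card (MulAction.orbit (MulAction.stabilizer G a₀) b) := by
    intro b
    haveI : Nonempty (MulAction.orbit (MulAction.stabilizer G a₀) b) := ⟨⟨b, MulAction.mem_orbit_self b⟩⟩
    exact Nat.card_pos
  have key : ∀ b : Ω, b ≠ a₀ → ∃ a : ℕ, 0 < a ∧ (m : ℤ) = 2 * (a : ℤ) ^ 2 + 2 * a + 1 ∧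
      ((Nat.card (MulAction.orbit (MulAction.stabilizer G a₀) b) : ℤ) = a * (2 * a + 1) ∨
        (Nat.card (MulAction.orbit (MulAction.stabilizer G a₀) b) : ℤ) = (a + 1) * (2 * a + 1)) := by
    intro b hb
    obtain ⟨b', hb', hcov, hsum⟩ := rank_three hm hb hrank
    have hk1 : Nat.card (MulAction.orbit (MulAction.stabilizer G a₀) b) ≠ 1 := by
      intro h
      have h' := prim_one hprim hb h b'
      omega
    have hl1 : Nat.card (MulAction.orbit (MulAction.stabilizer G a₀) b') ≠ 1 := by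
      intro h
      have h' := prim_one hprim hb' h b
      omega
    -- self-paired
    obtain ⟨g, hg1, hg2⟩ : ∃ g : G, g • a₀ = b ∧ g • b = a₀ := by
      by_contra hno
      push Not at hno
      obtain ⟨g, hg⟩ := MulAction.exists_smul_eq G a₀ b
      have h3 : g • (g⁻¹ • a₀) = a₀ := smul_inv_smul _ _
      have h4 := paired_card (G := G) hg h3
      have h5 : g⁻¹ • a₀ ≠ a₀ := by
        intro h
        rw [inv_smul_eq_iff] at h
        exact hb (hg.symm.trans h.symm)
      have h6 : g⁻¹ • a₀ ∉ MulAction.orbit (MulAction.stabilizer G a₀) b := by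
        rintro ⟨h, hh⟩
        apply hno (g * h.1)
        · rw [mul_smul, h.2, hg]
        · rw [mul_smul]
          have h7 : (h : G) • b = g⁻¹ • a₀ := hh
          rw [h7, smul_inv_smul]
      rw [hcov _ h5 h6] at h4
      omega
    obtain ⟨C', hC1, hC2⟩ := perm_split (G := G) (Ω := Ω)
    obtain ⟨T', hT1, hT2, hT3, hT4⟩ := hC2 (orbop G a₀ b) _ (orbop_eqv a₀ b) (op_integral _) (orbop_one a₀ b)
    rw [trace_orbop hb] at hT3
    rw [trace_sq hg1 hg2] at hT4
    have hchar : C'.toRepresentation.character = χ₁ + χ₂ := by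
      funext g
      have h3 : (Nat.card (MulAction.fixedBy Ω g) : ℂ) = 1 + χ₁ g + χ₂ g := congrFun hπ g
      rw [hC1 g] at h3
      change _ = χ₁ g + χ₂ g
      linear_combination h3
    have hne : χ₁ ≠ χ₂ := by
      intro h
      rw [h, hd₂] at hd₁
      have : (1 : ℂ) = 0 := by linear_combination hd₁
      exact one_ne_zero this
    obtain ⟨θ₁, θ₂, i1, i2, t1, t2⟩ := two_irr C'.toRepresentation h₁ h₂ hne hchar hT1 hT2
    rw [t1] at hT3
    rw [t2] at hT4
    rw [hd₁, hd₂] at hT3 hT4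
    have hpb := hpos b
    have hpb' := hpos b'
    have hfin := nt (m := (m : ℤ)) (k := (Nat.card (MulAction.orbit (MulAction.stabilizer G a₀) b) : ℤ)) (by omega) (by omega)
      (by omega) (by omega) (by omega) i1 i2 (by
        push_cast
        exact hT3.symm) (by
        push_cast
        rw [← hT4, hm]
        push_cast
        ring)
    exact nt_final (by omega) hfin
  obtain ⟨b, hb⟩ : ∃ b : Ω, b ≠ a₀ := by
    haveI : Nontrivial Ω := by
      rw [← Fintype.one_lt_card_iff_nontrivial]; omega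
    exact exists_ne a₀
  obtain ⟨a, ha0, ha1, -⟩ := key b hb
  refine ⟨a, ha0, by exact_mod_cast ha1, fun c hc => ?_⟩
  obtain ⟨a', ha0', ha1', h⟩ := key c hc
  have hEq : a' = a := by
    have h3 : ((a' : ℤ) - a) * (a' + a + 1) = 0 := by
      linarith [ha1, ha1', (by ring : ((a' : ℤ) - a) * (a' + a + 1) = (a' : ℤ) ^ 2 + a' - (a ^ 2 + a))]
    rcases mul_eq_zero.1 h3 with h4 | h4
    · omega
    · omega
  rw [hEq] at h
  rcases h with h | h
  · left; exact_mod_cast h
  · right; exact_mod_cast h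

end Cfsg.Agent.Lib.H3MF
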