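import Mathlib
import Cfsg.Agent.Lib.Basic
import Cfsg.Agent.Lib.FrobGrp

/-!
Linear groups regular on the nonzero vectors (helper3).
-/

set_option autoImplicit false
set_option maxHeartbeats 400000
set_option linter.unusedVariables false
set_option linter.unusedSectionVars false
set_option linter.unusedFintypeInType false

namespace Cfsg.Agent.Lib.H3Near

open Subgroup

variable {p : ℕ} [hp : Fact p.Prime] {V : Type*} [AddCommGroup V] [Module (ZMod p) V] [Finite V]
  {H : Subgroup (V ≃ₗ[ZMod p] V)}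

/-- the linear map of an element of `H` -/
def en (h : H) : Module.End (ZMod p) V := ((h : V ≃ₗ[ZMod p] V) : V →ₗ[ZMod p] V)

theorem en_apply (h : H) (v : V) : en h v = (h : V ≃ₗ[ZMod p] V) v := rfl

theorem en_mul (h k : H) : en (h * k) = en h * en k := rfl

theorem en_one : en (1 : H) = 1 := rfl

theorem en_inv_mul (h : H) : en h⁻¹ * en h = 1 := by
  rw [← en_mul, inv_mul_cancel, en_one]

theorem en_mul_inv (h : H) : en h * en h⁻¹ = 1 := by
  rw [← en_mul, mul_inv_cancel, en_one]

theorem en_inj {h k : H} (hk : en h = en k) : h = k := by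
  apply Subtype.ext
  ext v
  exact LinearMap.congr_fun hk v

/-- the enveloping algebra of a subgroup -/
def env (A : Subgroup H) : Subalgebra (ZMod p) (Module.End (ZMod p) V) := Algebra.adjoin (ZMod p) (en '' (A : Set H))

theorem en_mem {A : Subgroup H} {a : H} (ha : a ∈ A) : en a ∈ env A := Algebra.subset_adjoin ⟨a, ha, rfl⟩

theorem env_comm {A : Subgroup H} (hA : IsMulCommutative A) {x y : Module.End (ZMod p) V} (hx : x ∈ env A) (hy : y ∈ env A) : x * y = y * x := by
  have h1 : ∀ a ∈ A, ∀ b ∈ A, en a * en b = en b * en a := by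
    intro a ha b hb
    have := hA.is_comm.comm ⟨a, ha⟩ ⟨b, hb⟩
    rw [← en_mul, ← en_mul]
    exact congrArg en (congrArg Subtype.val this)
  have h2 : env A ≤ Subalgebra.centralizer (ZMod p) (en '' (A : Set H)) := by
    apply Algebra.adjoin_le
    rintro _ ⟨a, ha, rfl⟩
    rw [SetLike.mem_coe, Subalgebra.mem_centralizer_iff]
    rintro _ ⟨b, hb, rfl⟩
    exact h1 b hb a ha
  have h3 : env A ≤ Subalgebra.centralizer (ZMod p) (env A : Set (Module.End (ZMod p) V)) := by
    apply Algebra.adjoin_le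
    rintro _ ⟨a, ha, rfl⟩
    rw [SetLike.mem_coe, Subalgebra.mem_centralizer_iff]
    intro z hz
    exact ((Subalgebra.mem_centralizer_iff _).mp (h2 hz) _ ⟨a, ha, rfl⟩).symm
  exact ((Subalgebra.mem_centralizer_iff _).mp (h3 hx) y hy).symm

theorem env_conj {A : Subgroup H} (hA : A.Normal) (h : H) {x : Module.End (ZMod p) V} (hx : x ∈ env A) : en h * x * en h⁻¹ ∈ env A := by
  induction hx using Algebra.adjoin_induction with
  | mem x hx =>
    obtain ⟨a, ha, rfl⟩ := hx
    rw [← en_mul, ← en_mul]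
    exact en_mem (hA.conj_mem a ha h)
  | algebraMap r =>
    have : en h * algebraMap (ZMod p) (Module.End (ZMod p) V) r * en h⁻¹ = algebraMap (ZMod p) (Module.End (ZMod p) V) r := by
      rw [← Algebra.commutes, mul_assoc, en_mul_inv, mul_one]
    rw [this]
    exact (env A).algebraMap_mem r
  | add x y hx hy ihx ihy =>
    rw [mul_add, add_mul]
    exact (env A).add_mem ihx ihy
  | mul x y hx hy ihx ihy =>
    have : en h * (x * y) * en h⁻¹ = (en h * x * en h⁻¹) * (en h * y * en h⁻¹) := by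
      have h1 := en_inv_mul h
      calc en h * (x * y) * en h⁻¹ = en h * x * 1 * y * en h⁻¹ := by noncomm_ring
        _ = en h * x * (en h⁻¹ * en h) * y * en h⁻¹ := by rw [h1]
        _ = _ := by noncomm_ring
    rw [this]
    exact (env A).mul_mem ihx ihy

/-- the cyclic submodule -/
def cyc (A : Subgroup H) (v : V) : Submodule (ZMod p) V where
  carrier := {w | ∃ x ∈ env A, x v = w}
  add_mem' := by
    rintro _ _ ⟨x, hx, rfl⟩ ⟨y, hy, rfl⟩
    exact ⟨x + y, (env A).add_mem hx hy, rfl⟩
  zero_mem' := ⟨0, (env A).zero_mem, rfl⟩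
  smul_mem' := by
    rintro c _ ⟨x, hx, rfl⟩
    exact ⟨c • x, (env A).smul_mem hx c, rfl⟩

theorem mem_cyc {A : Subgroup H} {v w : V} : w ∈ cyc A v ↔ ∃ x ∈ env A, x v = w := Iff.rfl

theorem self_mem_cyc (A : Subgroup H) (v : V) : v ∈ cyc A v := ⟨1, (env A).one_mem, rfl⟩

theorem cyc_le {A : Subgroup H} {v w : V} (h : w ∈ cyc A v) : cyc A w ≤ cyc A v := by
  obtain ⟨x, hx, rfl⟩ := h
  rintro _ ⟨y, hy, rfl⟩
  exact ⟨y * x, (env A).mul_mem hy hx, rfl⟩

/-- regularity on nonzero vectors -/
def Reg (H : Subgroup (V ≃ₗ[ZMod p] V)) : Prop := ∀ v w : V, v ≠ 0 → w ≠ 0 → ∃! h : H, (h : V ≃ₗ[ZMod p] V) v = w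

theorem card_cyc (hreg : Reg H) {A : Subgroup H} (hA : A.Normal) {v w : V} (hv : v ≠ 0) (hw : w ≠ 0) : Nat.card (cyc A v) = Nat.card (cyc A w) := by
  obtain ⟨h, hh, -⟩ := hreg v w hv hw
  have hmap : (cyc A v).map (en h) = cyc A w := by
    ext u
    constructor
    · rintro ⟨_, ⟨x, hx, rfl⟩, rfl⟩
      refine ⟨en h * x * en h⁻¹, env_conj hA h hx, ?_⟩
      rw [← hh]
      change en h (x (en h⁻¹ (en h v))) = en h (x v)
      have : en h⁻¹ (en h v) = v := LinearMap.congr_fun (en_inv_mul h) v
      rw [this]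
    · rintro ⟨x, hx, rfl⟩
      have h1 := env_conj hA h⁻¹ hx
      rw [inv_inv] at h1
      refine ⟨_, ⟨_, h1, rfl⟩, ?_⟩
      change en h (en h⁻¹ (x (en h v))) = x w
      have h2 : ∀ z, en h (en h⁻¹ z) = z := fun z => LinearMap.congr_fun (en_mul_inv h) z
      rw [h2]
      have h3 : en h v = w := hh
      rw [h3]
  rw [← hmap]
  exact Nat.card_congr ((Submodule.equivMapOfInjective (en h) (h : V ≃ₗ[ZMod p] V).injective (cyc A v)).toEquiv)

theorem cyc_eq (hreg : Reg H) {A : Subgroup H} (hA : A.Normal) {v u : V} (hv : v ≠ 0) (hu : u ≠ 0) (h : u ∈ cyc A v) : cyc A u = cyc A v := by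
  have h1 := card_cyc hreg hA hu hv
  apply SetLike.coe_injective
  apply Set.eq_of_subset_of_ncard_le (cyc_le h) _ (Set.toFinite _)
  exact h1.ge

/-- the annihilator in the enveloping algebra -/
def ann (A : Subgroup H) (v : V) : Submodule (ZMod p) (env A) where
  carrier := {x | (x : Module.End (ZMod p) V) v = 0}
  add_mem' := by
    intro x y hx hy
    change ((x : Module.End (ZMod p) V) + y) v = 0
    rw [LinearMap.add_apply, hx, hy, add_zero]
  zero_mem' := rfl
  smul_mem' := by
    intro c x hx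
    change (c • (x : Module.End (ZMod p) V)) v = 0
    rw [LinearMap.smul_apply, hx, smul_zero]

instance finEnd : Finite (Module.End (ZMod p) V) := DFunLike.finite _

theorem card_ann (A : Subgroup H) (v : V) : Nat.card (ann A v) * Nat.card (cyc A v) = Nat.card (env A) := by
  let f : env A →ₗ[ZMod p] V :=
    { toFun := fun x => (x : Module.End (ZMod p) V) v
      map_add' := fun x y => rfl
      map_smul' := fun c x => rfl }
  have h1 : LinearMap.ker f = ann A v := by
    ext x
    rfl
  have h2 : LinearMap.range f = cyc A v := by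
    ext w
    constructor
    · rintro ⟨x, rfl⟩
      exact ⟨x, x.2, rfl⟩
    · rintro ⟨x, hx, rfl⟩
      exact ⟨⟨x, hx⟩, rfl⟩
  have h3 := Submodule.card_eq_card_quotient_mul_card (LinearMap.ker f)
  rw [h3, ← h2, ← h1]
  congr 1
  exact Nat.card_congr (f.quotKerEquivRange.symm.toEquiv)

theorem ann_eq (hreg : Reg H) {A : Subgroup H} (hA : A.Normal) (hAc : IsMulCommutative A) {v w : V} (hv : v ≠ 0) (hw : w ≠ 0) : ann A v ≤ ann A w := by
  intro x hx
  have hx' : (x : Module.End (ZMod p) V) v = 0 := hx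
  by_cases hwv : w ∈ cyc A v
  · obtain ⟨y, hy, rfl⟩ := hwv
    change (x : Module.End (ZMod p) V) (y v) = 0
    have h1 : (x : Module.End (ZMod p) V) (y v) = y ((x : Module.End (ZMod p) V) v) := LinearMap.congr_fun (env_comm hAc x.2 hy) v
    rw [h1, hx', map_zero]
  · have hvw : v + w ≠ 0 := by
      intro h
      apply hwv
      rw [eq_neg_of_add_eq_zero_right h]
      exact (cyc A v).neg_mem (self_mem_cyc A v)
    have hle : ∀ y ∈ ann A (v + w), y ∈ ann A v ∧ y ∈ ann A w := by
      intro y hy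
      have h1 : (y : Module.End (ZMod p) V) v + (y : Module.End (ZMod p) V) w = 0 := by
        rw [← map_add]
        exact hy
      by_cases hy0 : (y : Module.End (ZMod p) V) w = 0
      · rw [hy0, add_zero] at h1
        exact ⟨h1, hy0⟩
      · exfalso
        apply hwv
        have h2 : (y : Module.End (ZMod p) V) w ∈ cyc A v := by
          have h4 : (y : Module.End (ZMod p) V) v ∈ cyc A v := ⟨y, y.2, rfl⟩
          have h3 : (y : Module.End (ZMod p) V) w = -((y : Module.End (ZMod p) V) v) := (eq_neg_of_add_eq_zero_right h1)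
          rw [h3]
          exact (cyc A v).neg_mem h4
        have h3 : (y : Module.End (ZMod p) V) w ∈ cyc A w := ⟨y, y.2, rfl⟩
        rw [← cyc_eq hreg hA hv hy0 h2, cyc_eq hreg hA hw hy0 h3]
        exact self_mem_cyc A w
    have hcard : Nat.card (ann A v) = Nat.card (ann A (v + w)) := by
      have h1 := card_ann A v
      have h2 := card_ann A (v + w)
      rw [card_cyc hreg hA hv hvw] at h1
      exact Nat.eq_of_mul_eq_mul_right Nat.card_pos (h1.trans h2.symm)
    have heq : ann A (v + w) = ann A v := by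
      apply SetLike.coe_injective
      apply Set.eq_of_subset_of_ncard_le (fun y hy => (hle y hy).1) _ (Set.toFinite _)
      exact hcard.le
    rw [← heq] at hx
    exact (hle x hx).2

theorem no_zero (hreg : Reg H) {A : Subgroup H} (hA : A.Normal) (hAc : IsMulCommutative A) {x : Module.End (ZMod p) V} (hx : x ∈ env A) {v : V} (hv : v ≠ 0) (hxv : x v = 0) : x = 0 := by
  ext w
  by_cases hw : w = 0
  · rw [hw, map_zero, map_zero]
  · have h1 : (⟨x, hx⟩ : env A) ∈ ann A v := hxv
    exact ann_eq hreg hA hAc hv hw h1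

theorem isField_env (hreg : Reg H) {A : Subgroup H} (hA : A.Normal) (hAc : IsMulCommutative A) (hV : Nontrivial V) : IsField (env A) := by
  obtain ⟨v, hv⟩ := exists_ne (0 : V)
  refine ⟨⟨0, 1, ?_⟩, ?_, ?_⟩
  · intro h
    have h1 : (0 : Module.End (ZMod p) V) = 1 := congrArg Subtype.val h
    exact hv (LinearMap.congr_fun h1 v).symm
  · intro x y
    exact Subtype.ext (env_comm hAc x.2 y.2)
  · intro x hx
    have hinj : Function.Injective (fun y : env A => x * y) := by
      intro y z hyz
      have h1 : (x : Module.End (ZMod p) V) * y = x * z := congrArg Subtype.val hyz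
      apply Subtype.ext
      ext w
      by_contra hne
      have h2 : (x : Module.End (ZMod p) V) ((y : Module.End (ZMod p) V) w - (z : Module.End (ZMod p) V) w) = 0 := by
        rw [map_sub, sub_eq_zero]
        exact LinearMap.congr_fun h1 w
      have h3 := no_zero hreg hA hAc x.2 (sub_ne_zero.mpr hne) h2
      exact hx (Subtype.ext h3)
    have hsurj := Finite.surjective_of_injective hinj
    exact hsurj 1

theorem env_pres {A : Subgroup H} {W : Submodule (ZMod p) V} (hW : ∀ a ∈ A, ∀ v ∈ W, en a v ∈ W) {x : Module.End (ZMod p) V} (hx : x ∈ env A) : ∀ v ∈ W, x v ∈ W := by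
  induction hx using Algebra.adjoin_induction with
  | mem x hx =>
    obtain ⟨a, ha, rfl⟩ := hx
    exact hW a ha
  | algebraMap r =>
    intro v hv
    exact W.smul_mem r hv
  | add x y hx hy ihx ihy =>
    intro v hv
    exact W.add_mem (ihx v hv) (ihy v hv)
  | mul x y hx hy ihx ihy =>
    intro v hv
    exact ihx _ (ihy v hv)

/-- the inclusion of `A` in the enveloping algebra -/
def inc (A : Subgroup H) : A →* env A where
  toFun a := ⟨en (a : H), en_mem a.2⟩
  map_one' := rfl
  map_mul' := fun a b => rfl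

theorem inc_inj (A : Subgroup H) : Function.Injective (inc A) := by
  intro a b hab
  exact Subtype.ext (en_inj (congrArg Subtype.val hab))

theorem finH : Finite H := by
  haveI : Finite (V ≃ₗ[ZMod p] V) := by
    apply Finite.of_injective (fun f : V ≃ₗ[ZMod p] V => (f : V → V))
    intro f g hfg
    ext v
    exact congrFun hfg v
  infer_instance

theorem card_env (hreg : Reg H) {A : Subgroup H} (hA : A.Normal) (hAc : IsMulCommutative A) {v : V} (hv : v ≠ 0) : Nat.card (env A) = Nat.card (cyc A v) := by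
  have h1 := card_ann A v
  have h2 : ann A v = ⊥ := by
    rw [eq_bot_iff]
    intro x hx
    exact Subtype.ext (no_zero hreg hA hAc x.2 hv hx)
  rw [h2] at h1
  rw [← h1]
  simp

theorem isCyclic_A (hreg : Reg H) {A : Subgroup H} (hA : A.Normal) (hAc : IsMulCommutative A) (hV : Nontrivial V) : IsCyclic A := by
  haveI : Finite H := finH
  have hF := isField_env hreg hA hAc hV
  letI := hF.toField
  exact isCyclic_of_subgroup_isDomain (inc A) (inc_inj A)

theorem card_A (hreg : Reg H) {A : Subgroup H} (hA : A.Normal) (hAc : IsMulCommutative A) (hV : Nontrivial V) : Nat.card A ∣ Nat.card (env A) - 1 := by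
  haveI : Finite H := finH
  have hF := isField_env hreg hA hAc hV
  letI := hF.toField
  rw [← Nat.card_units]
  apply Subgroup.card_dvd_of_injective (inc A).toHomUnits
  intro a b hab
  exact inc_inj A (congrArg Units.val hab)

theorem s0684 (H : Subgroup (V ≃ₗ[ZMod p] V)) (hreg : ∀ v w : V, v ≠ 0 → w ≠ 0 → ∃! h : H, (h : V ≃ₗ[ZMod p] V) v = w) (hI : ∀ A : Subgroup H, A.Normal → IsCyclic A → ∃ W : Submodule (ZMod p) V, W ≠ ⊥ ∧ W ≠ ⊤ ∧ ∀ a ∈ A, ∀ v ∈ W, ((a : H) : V ≃ₗ[ZMod p] V) v ∈ W) (A : Subgroup H) (hAn : A.Normal) (hAc : IsMulCommutative A) : IsCyclic A ∧ ∃ W : Submodule (ZMod p) V, W ≠ ⊥ ∧ W ≠ ⊤ ∧ (∀ a ∈ A, ∀ v ∈ W, ((a : H) : V ≃ₗ[ZMod p] V) v ∈ W) ∧ (∀ W' : Submodule (ZMod p) V, W' ≤ W → (∀ a ∈ A, ∀ v ∈ W', ((a : H) : V ≃ₗ[ZMod p] V) v ∈ W') → W' = ⊥ ∨ W' = W) ∧ Nat.card A ∣ p ^ Module.finrank (ZMod p) W - 1 := by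
  have hV : Nontrivial V := by
    obtain ⟨W, hW1, hW2, -⟩ := hI ⊥ inferInstance inferInstance
    by_contra hcon
    rw [not_nontrivial_iff_subsingleton] at hcon
    apply hW1
    rw [eq_bot_iff]
    intro x _
    rw [Submodule.mem_bot]
    exact Subsingleton.elim _ _
  have hcyc := isCyclic_A (hreg := hreg) hAn hAc hV
  refine ⟨hcyc, ?_⟩
  obtain ⟨W', hW1, hW2, hW3⟩ := hI A hAn hcyc
  obtain ⟨v, hvW, hv0⟩ := (Submodule.ne_bot_iff W').mp hW1
  have hle : cyc A v ≤ W' := by
    rintro _ ⟨x, hx, rfl⟩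
    exact env_pres (A := A) hW3 hx v hvW
  refine ⟨cyc A v, ?_, ?_, ?_, ?_, ?_⟩
  · intro h
    have := self_mem_cyc A v
    rw [h, Submodule.mem_bot] at this
    exact hv0 this
  · intro h
    rw [h] at hle
    exact hW2 (eq_top_iff.mpr hle)
  · rintro a ha _ ⟨x, hx, rfl⟩
    exact ⟨en a * x, (env A).mul_mem (en_mem ha) hx, rfl⟩
  · intro U hU hUi
    by_cases hUb : U = ⊥
    · exact Or.inl hUb
    right
    obtain ⟨u, huU, hu0⟩ := (Submodule.ne_bot_iff U).mp hUb
    apply le_antisymm hU
    rw [← cyc_eq (hreg := hreg) hAn hv0 hu0 (hU huU)]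
    rintro _ ⟨x, hx, rfl⟩
    exact env_pres (A := A) hUi hx u huU
  · have h1 := card_A (hreg := hreg) hAn hAc hV
    rw [card_env hreg hAn hAc hv0] at h1
    have h2 : Nat.card (cyc A v) = p ^ Module.finrank (ZMod p) (cyc A v) := by
      rw [Module.natCard_eq_pow_finrank (K := ZMod p) (V := cyc A v), Nat.card_zmod]
    rwa [h2] at h1

/-- conjugation on the enveloping algebra -/
def conjHom {A : Subgroup H} (hA : A.Normal) (h : H) : env A →ₐ[ZMod p] env A where
  toFun x := ⟨en h * x * en h⁻¹, env_conj hA h x.2⟩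
  map_one' := Subtype.ext (by
    change en h * 1 * en h⁻¹ = 1
    rw [mul_one, en_mul_inv])
  map_mul' := fun x y => Subtype.ext (by
    change en h * ((x : Module.End (ZMod p) V) * y) * en h⁻¹ = (en h * x * en h⁻¹) * (en h * y * en h⁻¹)
    have h1 := en_inv_mul h
    calc en h * ((x : Module.End (ZMod p) V) * y) * en h⁻¹ = en h * x * 1 * y * en h⁻¹ := by noncomm_ring
      _ = en h * x * (en h⁻¹ * en h) * y * en h⁻¹ := by rw [h1]
      _ = _ := by noncomm_ring)
  map_zero' := Subtype.ext (by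
    change en h * 0 * en h⁻¹ = 0
    rw [mul_zero, zero_mul])
  map_add' := fun x y => Subtype.ext (by
    change en h * ((x : Module.End (ZMod p) V) + y) * en h⁻¹ = (en h * x * en h⁻¹) + (en h * y * en h⁻¹)
    rw [mul_add, add_mul])
  commutes' := fun r => Subtype.ext (by
    change en h * algebraMap (ZMod p) (Module.End (ZMod p) V) r * en h⁻¹ = algebraMap (ZMod p) (Module.End (ZMod p) V) r
    rw [← Algebra.commutes, mul_assoc, en_mul_inv, mul_one])

theorem card_conjHom (hreg : Reg H) {A : Subgroup H} (hA : A.Normal) (hAc : IsMulCommutative A) (hV : Nontrivial V) : Nat.card (env A →ₐ[ZMod p] env A) ≤ Module.finrank (ZMod p) (env A) := by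
  have hF := isField_env hreg hA hAc hV
  letI := hF.toField
  exact card_algHom_le_finrank (ZMod p) (env A) (env A)

theorem index_le (hreg : Reg H) {A : Subgroup H} (hA : A.Normal) (hAc : IsMulCommutative A) (hV : Nontrivial V) (hC : centralizer (A : Set H) = A) : A.index ≤ Module.finrank (ZMod p) (env A) := by
  refine le_trans ?_ (card_conjHom hreg hA hAc hV)
  haveI : Finite (env A →ₐ[ZMod p] env A) := by
    apply Finite.of_injective (fun f : env A →ₐ[ZMod p] env A => (f : env A → env A))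
    intro f g hfg
    exact DFunLike.coe_injective hfg
  change Nat.card (H ⧸ A) ≤ _
  apply Nat.card_le_card_of_injective (fun q : H ⧸ A => conjHom hA (Quotient.out q))
  intro q r hqr
  simp only at hqr
  have h1 : ∀ a ∈ A, en (Quotient.out q) * en a * en (Quotient.out q)⁻¹ = en (Quotient.out r) * en a * en (Quotient.out r)⁻¹ := by
    intro a ha
    have := DFunLike.congr_fun hqr ⟨en a, en_mem ha⟩
    exact congrArg Subtype.val this
  have h2 : (Quotient.out q)⁻¹ * Quotient.out r ∈ A := by
    apply hC.le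
    rw [mem_centralizer_iff]
    intro a ha
    have h3 := h1 a ha
    rw [← en_mul, ← en_mul, ← en_mul, ← en_mul] at h3
    have h4 : Quotient.out q * a * (Quotient.out q)⁻¹ = Quotient.out r * a * (Quotient.out r)⁻¹ := en_inj h3
    have h5 : a * (Quotient.out q)⁻¹ * Quotient.out r = (Quotient.out q)⁻¹ * Quotient.out r * a := by
      calc a * (Quotient.out q)⁻¹ * Quotient.out r = (Quotient.out q)⁻¹ * (Quotient.out q * a * (Quotient.out q)⁻¹) * Quotient.out r := by group
        _ = (Quotient.out q)⁻¹ * (Quotient.out r * a * (Quotient.out r)⁻¹) * Quotient.out r := by rw [h4]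
        _ = _ := by group
    rw [← mul_assoc]
    exact h5
  have h3 := QuotientGroup.eq.mpr h2
  rw [QuotientGroup.out_eq', QuotientGroup.out_eq'] at h3
  exact h3

theorem card_H (hreg : Reg H) (hV : Nontrivial V) : Nat.card H + 1 = Nat.card V := by
  classical
  obtain ⟨v, hv⟩ := exists_ne (0 : V)
  have h1 : Nat.card H = Nat.card {w : V // w ≠ 0} := by
    apply Nat.card_congr
    refine Equiv.ofBijective (fun h : H => ⟨(h : V ≃ₗ[ZMod p] V) v, fun h0 => hv ((h : V ≃ₗ[ZMod p] V).map_eq_zero_iff.mp h0)⟩) ⟨?_, ?_⟩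
    · intro h k hhk
      have h2 : (h : V ≃ₗ[ZMod p] V) v = (k : V ≃ₗ[ZMod p] V) v := congrArg Subtype.val hhk
      exact (hreg v ((k : V ≃ₗ[ZMod p] V) v) hv (fun h0 => hv ((k : V ≃ₗ[ZMod p] V).map_eq_zero_iff.mp h0))).unique h2 rfl
    · rintro ⟨w, hw⟩
      obtain ⟨h, hh, -⟩ := hreg v w hv hw
      exact ⟨h, Subtype.ext hh⟩
  haveI := Fintype.ofFinite V
  rw [h1, Nat.card_eq_fintype_card, Fintype.card_subtype_compl, Fintype.card_subtype_eq, Nat.card_eq_fintype_card]
  have : 0 < Fintype.card V := Fintype.card_pos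
  omega

theorem s0685 (H : Subgroup (V ≃ₗ[ZMod p] V)) (hreg : ∀ v w : V, v ≠ 0 → w ≠ 0 → ∃! h : H, (h : V ≃ₗ[ZMod p] V) v = w) (hI : ∀ A : Subgroup H, A.Normal → IsCyclic A → ∃ W : Submodule (ZMod p) V, W ≠ ⊥ ∧ W ≠ ⊤ ∧ ∀ a ∈ A, ∀ v ∈ W, ((a : H) : V ≃ₗ[ZMod p] V) v ∈ W) (A : Subgroup H) (hAn : A.Normal) (hAc : IsMulCommutative A) (hAmax : ∀ B : Subgroup H, B.Normal → IsMulCommutative B → A ≤ B → B = A) : A < Subgroup.centralizer (A : Set H) ∧ ¬ IsMulCommutative (Subgroup.centralizer (A : Set H)) := by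
  have hV : Nontrivial V := by
    obtain ⟨W, hW1, hW2, -⟩ := hI ⊥ inferInstance inferInstance
    by_contra hcon
    rw [not_nontrivial_iff_subsingleton] at hcon
    apply hW1
    rw [eq_bot_iff]
    intro x _
    rw [Submodule.mem_bot]
    exact Subsingleton.elim _ _
  haveI : Finite H := finH
  have hAC : A ≤ centralizer (A : Set H) := by
    intro a ha
    rw [mem_centralizer_iff]
    intro b hb
    exact congrArg Subtype.val (hAc.is_comm.comm ⟨b, hb⟩ ⟨a, ha⟩)
  have key : ¬ IsMulCommutative (Subgroup.centralizer (A : Set H)) := by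
    intro hCc
    haveI := hAn
    have hC : centralizer (A : Set H) = A := hAmax _ inferInstance hCc hAC
    have hcyc := isCyclic_A (hreg := hreg) hAn hAc hV
    obtain ⟨W', hW1, hW2, hW3⟩ := hI A hAn hcyc
    obtain ⟨v, hvW, hv0⟩ := (Submodule.ne_bot_iff W').mp hW1
    have hle : cyc A v ≤ W' := by
      rintro _ ⟨x, hx, rfl⟩
      exact env_pres (A := A) hW3 hx v hvW
    obtain ⟨w, hw⟩ : ∃ w, w ∉ cyc A v := by
      by_contra hcon
      push Not at hcon
      exact hW2 (eq_top_iff.mpr fun x _ => hle (hcon x))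
    have hw0 : w ≠ 0 := fun h => hw (h ▸ (cyc A v).zero_mem)
    have hinj : Function.Injective (fun z : cyc A v × cyc A w => (z.1 : V) + z.2) := by
      rintro ⟨a, b⟩ ⟨c, d⟩ hab
      simp only at hab
      have h1 : (a : V) - c = d - b := by
        have : (a : V) - c = (a + b) - (c + b) := by abel
        rw [this, hab]
        abel
      by_cases h2 : (a : V) - c = 0
      · have h3 : (a : V) = c := sub_eq_zero.mp h2
        have h4 : (d : V) = b := sub_eq_zero.mp (h1.symm.trans h2)
        exact Prod.ext (Subtype.ext h3) (Subtype.ext h4.symm)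
      · exfalso
        have m1 : (a : V) - c ∈ cyc A v := (cyc A v).sub_mem a.2 c.2
        have m2 : (a : V) - c ∈ cyc A w := by
          rw [h1]
          exact (cyc A w).sub_mem d.2 b.2
        apply hw
        rw [← cyc_eq (hreg := hreg) hAn hv0 h2 m1, cyc_eq (hreg := hreg) hAn hw0 h2 m2]
        exact self_mem_cyc A w
    have hVc := Nat.card_le_card_of_injective _ hinj
    rw [Nat.card_prod, ← card_env (hreg := hreg) hAn hAc hv0, ← card_env (hreg := hreg) hAn hAc hw0, ← card_H (hreg := hreg) hV] at hVc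
    have hidx := index_le (hreg := hreg) hAn hAc hV hC
    have hcA := card_A (hreg := hreg) hAn hAc hV
    have hmul := A.card_mul_index
    set q := Nat.card (env A) with hq
    have hqm : q = p ^ Module.finrank (ZMod p) (env A) := by
      rw [hq, Module.natCard_eq_pow_finrank (K := ZMod p) (V := env A), Nat.card_zmod]
    have hmq : Module.finrank (ZMod p) (env A) < q := by
      rw [hqm]
      exact Nat.lt_pow_self hp.out.one_lt
    have hq1 : 1 < q := by
      haveI : Nontrivial (env A) := by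
        obtain ⟨x, y, hxy⟩ := (isField_env (hreg := hreg) hAn hAc hV).exists_pair_ne
        exact ⟨x, y, hxy⟩
      exact Finite.one_lt_card
    have hcA' : Nat.card A ≤ q - 1 := Nat.le_of_dvd (by omega) hcA
    -- q^2 ≤ |H| + 1 ≤ (q-1)(q-1) + 1
    have h5 : Nat.card H ≤ (q - 1) * (q - 1) := by
      rw [← hmul]
      exact Nat.mul_le_mul hcA' (by omega)
    obtain ⟨r, hr⟩ : ∃ r, q = r + 2 := ⟨q - 2, by omega⟩
    rw [hr] at h5 hVc
    have h6 : (r + 2 - 1) * (r + 2 - 1) = r * r + 2 * r + 1 := by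
      have : r + 2 - 1 = r + 1 := by omega
      rw [this]
      ring
    have h7 : (r + 2) * (r + 2) = r * r + 4 * r + 4 := by ring
    omega
  refine ⟨lt_of_le_of_ne hAC ?_, key⟩
  intro h
  apply key
  rw [← h]
  exact hAc

end Cfsg.Agent.Lib.H3Near
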