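import Mathlib
import Cfsg.Agent.Lib.Basic
import Cfsg.Agent.Lib.H3Near

/-!
Nonabelian normal subgroups of linear groups regular on the nonzero vectors (helper3).
-/

set_option autoImplicit false
set_option maxHeartbeats 400000
set_option linter.unusedVariables false
set_option linter.unusedSectionVars false
set_option linter.unusedFintypeInType false

namespace Cfsg.Agent.Lib.H3NearB

open Subgroup Cfsg.Agent.Lib.H3Near

variable {p : ℕ} [hp : Fact p.Prime] {V : Type*} [AddCommGroup V] [Module (ZMod p) V] [Finite V]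
  {H : Subgroup (V ≃ₗ[ZMod p] V)}

/-- if the cyclic module of `v` is proper then all annihilators agree -/
theorem ann_eq' (hreg : Reg H) {N : Subgroup H} (hN : N.Normal) {v w : V} (hv : v ≠ 0) (hw : w ∉ cyc N v) : ann N v ≤ ann N w ∧ ann N w ≤ ann N v := by
  have hw0 : w ≠ 0 := fun h => hw (h ▸ (cyc N v).zero_mem)
  have hvw : v + w ≠ 0 := by
    intro h
    apply hw
    rw [eq_neg_of_add_eq_zero_right h]
    exact (cyc N v).neg_mem (self_mem_cyc N v)
  have hle : ∀ y ∈ ann N (v + w), y ∈ ann N v ∧ y ∈ ann N w := by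
    intro y hy
    have h1 : (y : Module.End (ZMod p) V) v + (y : Module.End (ZMod p) V) w = 0 := by
      rw [← map_add]
      exact hy
    by_cases hy0 : (y : Module.End (ZMod p) V) w = 0
    · rw [hy0, add_zero] at h1
      exact ⟨h1, hy0⟩
    · exfalso
      apply hw
      have h2 : (y : Module.End (ZMod p) V) w ∈ cyc N v := by
        have h4 : (y : Module.End (ZMod p) V) v ∈ cyc N v := ⟨y, y.2, rfl⟩
        have h3 : (y : Module.End (ZMod p) V) w = -((y : Module.End (ZMod p) V) v) := (eq_neg_of_add_eq_zero_right h1)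
        rw [h3]
        exact (cyc N v).neg_mem h4
      have h3 : (y : Module.End (ZMod p) V) w ∈ cyc N w := ⟨y, y.2, rfl⟩
      rw [← cyc_eq hreg hN hv hy0 h2, cyc_eq hreg hN hw0 hy0 h3]
      exact self_mem_cyc N w
  have key : ∀ u : V, u ≠ 0 → (∀ y ∈ ann N (v + w), y ∈ ann N u) → ann N (v + w) = ann N u := by
    intro u hu hle'
    have h1 := card_ann N u
    have h2 := card_ann N (v + w)
    rw [card_cyc hreg hN hu hvw] at h1
    have hcard : Nat.card (ann N u) = Nat.card (ann N (v + w)) := Nat.eq_of_mul_eq_mul_right Nat.card_pos (h1.trans h2.symm)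
    apply SetLike.coe_injective
    apply Set.eq_of_subset_of_ncard_le hle' _ (Set.toFinite _)
    exact hcard.le
  have e1 := key v hv (fun y hy => (hle y hy).1)
  have e2 := key w hw0 (fun y hy => (hle y hy).2)
  exact ⟨(e1.symm.trans e2).le, (e2.symm.trans e1).le⟩

theorem irred (hreg : Reg H) {N : Subgroup H} (hN : N.Normal) (hNna : ¬ IsMulCommutative N) (hV : Nontrivial V) {v : V} (hv : v ≠ 0) : cyc N v = ⊤ := by
  by_contra hne
  obtain ⟨w, hw⟩ : ∃ w, w ∉ cyc N v := by
    by_contra hcon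
    push Not at hcon
    exact hne (eq_top_iff.mpr fun x _ => hcon x)
  have hw0 : w ≠ 0 := fun h => hw (h ▸ (cyc N v).zero_mem)
  -- all annihilators are contained in that of v
  have hall : ∀ u : V, u ≠ 0 → ann N u ≤ ann N w ∧ ann N w ≤ ann N u := by
    intro u hu
    by_cases huv : u ∈ cyc N v
    · have h1 : w ∉ cyc N u := by
        rw [cyc_eq hreg hN hv hu huv]
        exact hw
      exact ann_eq' hreg hN hu h1
    · have h1 := ann_eq' hreg hN hv huv
      have h2 := ann_eq' hreg hN hv hw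
      exact ⟨h1.2.trans h2.1, h2.2.trans h1.1⟩
  have hzero : ∀ (x : env N) (u : V), u ≠ 0 → (x : Module.End (ZMod p) V) u = 0 → x = 0 := by
    intro x u hu hxu
    apply Subtype.ext
    ext z
    by_cases hz : z = 0
    · rw [hz, map_zero, map_zero]
    · have h1 : x ∈ ann N u := hxu
      exact (hall z hz).2 ((hall u hu).1 h1)
  haveI : Nontrivial (env N) := by
    refine ⟨⟨0, 1, ?_⟩⟩
    intro h
    have h1 : (0 : Module.End (ZMod p) V) = 1 := congrArg Subtype.val h
    exact hv (LinearMap.congr_fun h1 v).symm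
  haveI : NoZeroDivisors (env N) := by
    refine ⟨fun {x y} hxy => ?_⟩
    by_cases hy : (y : Module.End (ZMod p) V) v = 0
    · exact Or.inr (hzero y v hv hy)
    · left
      apply hzero x _ hy
      have h1 : (x : Module.End (ZMod p) V) * y = 0 := congrArg Subtype.val hxy
      exact LinearMap.congr_fun h1 v
  haveI : IsDomain (env N) := NoZeroDivisors.to_isDomain _
  have hF := Finite.isDomain_to_isField (env N)
  apply hNna
  refine ⟨⟨fun a b => ?_⟩⟩
  apply inc_inj N
  rw [map_mul, map_mul]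
  exact hF.mul_comm _ _

theorem s0687 (H : Subgroup (V ≃ₗ[ZMod p] V)) (hreg : ∀ v w : V, v ≠ 0 → w ≠ 0 → ∃! h : H, (h : V ≃ₗ[ZMod p] V) v = w) (hI : ∀ A : Subgroup H, A.Normal → IsCyclic A → ∃ W : Submodule (ZMod p) V, W ≠ ⊥ ∧ W ≠ ⊤ ∧ ∀ a ∈ A, ∀ v ∈ W, ((a : H) : V ≃ₗ[ZMod p] V) v ∈ W) (A : Subgroup H) (hAn : A.Normal) (hAc : IsMulCommutative A) (hAmax : ∀ B : Subgroup H, B.Normal → IsMulCommutative B → A ≤ B → B = A) (N : Subgroup H) (hNn : N.Normal) (hNle : N ≤ Subgroup.centralizer (A : Set H)) (hNna : ¬ IsMulCommutative N) : (∀ W : Submodule (ZMod p) V, (∀ n ∈ N, ∀ v ∈ W, ((n : H) : V ≃ₗ[ZMod p] V) v ∈ W) → W = ⊥ ∨ W = ⊤) ∧ Subgroup.centralizer (N : Set H) = A := by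
  have hV : Nontrivial V := by
    obtain ⟨W, hW1, hW2, -⟩ := hI ⊥ inferInstance inferInstance
    by_contra hcon
    rw [not_nontrivial_iff_subsingleton] at hcon
    apply hW1
    rw [eq_bot_iff]
    intro x _
    rw [Submodule.mem_bot]
    exact Subsingleton.elim _ _
  have hirr : ∀ W : Submodule (ZMod p) V, (∀ n ∈ N, ∀ v ∈ W, en n v ∈ W) → W = ⊥ ∨ W = ⊤ := by
    intro W hW
    by_cases hWb : W = ⊥
    · exact Or.inl hWb
    right
    obtain ⟨v, hv, hv0⟩ := (Submodule.ne_bot_iff W).mp hWb
    rw [eq_top_iff, ← irred (hreg := hreg) hNn hNna hV hv0]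
    rintro _ ⟨x, hx, rfl⟩
    exact env_pres (A := N) hW hx v hv
  refine ⟨hirr, ?_⟩
  apply hAmax
  · haveI := hNn
    infer_instance
  · -- Schur
    let E : Subalgebra (ZMod p) (Module.End (ZMod p) V) := Subalgebra.centralizer (ZMod p) (en '' (N : Set H))
    have hE : ∀ x : Module.End (ZMod p) V, x ∈ E ↔ ∀ n ∈ N, en n * x = x * en n := by
      intro x
      rw [Subalgebra.mem_centralizer_iff]
      constructor
      · intro h n hn
        exact h _ ⟨n, hn, rfl⟩
      · rintro h _ ⟨n, hn, rfl⟩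
        exact h n hn
    obtain ⟨v, hv⟩ := exists_ne (0 : V)
    have hinj : ∀ x ∈ E, x ≠ 0 → ∀ u : V, x u = 0 → u = 0 := by
      intro x hx hx0 u hu
      rcases hirr (LinearMap.ker x) (by
        intro n hn w hw
        rw [LinearMap.mem_ker] at hw ⊢
        have h1 : x (en n w) = en n (x w) := (LinearMap.congr_fun ((hE x).mp hx n hn) w).symm
        rw [h1, hw, map_zero]) with h | h
      · have : u ∈ LinearMap.ker x := hu
        rwa [h, Submodule.mem_bot] at this
      · exfalso
        exact hx0 (LinearMap.ker_eq_top.mp h)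
    haveI : Nontrivial E := by
      refine ⟨⟨0, 1, ?_⟩⟩
      intro h
      have h1 : (0 : Module.End (ZMod p) V) = 1 := congrArg Subtype.val h
      exact hv (LinearMap.congr_fun h1 v).symm
    haveI : NoZeroDivisors E := by
      refine ⟨fun {x y} hxy => ?_⟩
      by_contra hcon
      rw [not_or] at hcon
      obtain ⟨hx, hy⟩ := hcon
      have hx' : (x : Module.End (ZMod p) V) ≠ 0 := fun h => hx (Subtype.ext h)
      have hy' : (y : Module.End (ZMod p) V) ≠ 0 := fun h => hy (Subtype.ext h)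
      have h1 : (x : Module.End (ZMod p) V) * y = 0 := congrArg Subtype.val hxy
      have h2 := LinearMap.congr_fun h1 v
      exact hv (hinj y y.2 hy' v (hinj x x.2 hx' _ h2))
    haveI : IsDomain E := NoZeroDivisors.to_isDomain _
    have hF := Finite.isDomain_to_isField E
    have hCE : ∀ c ∈ centralizer (N : Set H), en c ∈ E := by
      intro c hc
      rw [hE]
      intro n hn
      rw [← en_mul, ← en_mul, mem_centralizer_iff.mp hc n hn]
    refine ⟨⟨fun a b => ?_⟩⟩
    apply Subtype.ext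
    apply en_inj
    have h1 := hF.mul_comm ⟨en (a : H), hCE a a.2⟩ ⟨en (b : H), hCE b b.2⟩
    exact congrArg Subtype.val h1
  · intro a ha
    rw [mem_centralizer_iff]
    intro n hn
    exact (mem_centralizer_iff.mp (hNle hn) a ha).symm

end Cfsg.Agent.Lib.H3NearB
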