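import Mathlib
import Cfsg.Agent.Lib.Basic
import Cfsg.Agent.Lib.PermTwo
import Cfsg.Agent.Lib.H3Trans
import Cfsg.Agent.Lib.H3SigC
import Cfsg.Agent.Lib.H3Wagner

/-!
Elements of small support; generously transitive groups (helper3).
-/

set_option autoImplicit false
set_option maxHeartbeats 400000
set_option linter.unusedVariables false
set_option linter.unusedSectionVars false
set_option linter.unusedFintypeInType false

namespace Cfsg.Agent.Lib.H3PermA

open Subgroup MulAction Equiv Cfsg.Agent.Lib.H3Trans Cfsg.Agent.Lib.H3SigC Cfsg.Agent.Lib.H3Wagner Cfsg.Agent.Lib.PermTwo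

section Small
variable {α : Type*} [Fintype α] [DecidableEq α]

omit [Fintype α] [DecidableEq α] in
theorem inv_ap (f : Perm α) (x : α) : f⁻¹ (f x) = x := f.symm_apply_apply x

omit [Fintype α] [DecidableEq α] in
theorem ap_inv (f : Perm α) (x : α) : f (f⁻¹ x) = x := f.apply_symm_apply x

def exits (g : Perm α) (S : Finset α) : Finset α := S.filter (fun x => g x ∉ S)

theorem mem_exits {g : Perm α} {S : Finset α} {x : α} : x ∈ exits g S ↔ x ∈ S ∧ g x ∉ S := Finset.mem_filter

theorem exists_path (g : Perm α) (s : ℕ) (hs : s ≤ g.support.card) : ∃ S : Finset α, S ⊆ g.support ∧ S.card = s ∧ (exits g S).card ≤ 1 := by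
  induction s with
  | zero => exact ⟨∅, Finset.empty_subset _, rfl, by simp [exits]⟩
  | succ s ih =>
    obtain ⟨S, hS1, hS2, hS3⟩ := ih (by omega)
    have key : ∀ w : α, w ∈ g.support → w ∉ S → (∀ y ∈ exits g S, g y = w) → ∃ S : Finset α, S ⊆ g.support ∧ S.card = s + 1 ∧ (exits g S).card ≤ 1 := by
      intro w hw hwS hy
      refine ⟨insert w S, Finset.insert_subset hw hS1, by rw [Finset.card_insert_of_notMem hwS, hS2], ?_⟩
      have : exits g (insert w S) ⊆ {w} := by
        intro y hy'
        rw [mem_exits, Finset.mem_insert, Finset.mem_insert, not_or] at hy'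
        rw [Finset.mem_singleton]
        by_contra hne
        obtain ⟨h1, h2, h3⟩ := hy'
        have hyS : y ∈ S := h1.resolve_left hne
        exact h2 (hy y (mem_exits.mpr ⟨hyS, h3⟩))
      exact (Finset.card_le_card this).trans (by simp)
    rcases Finset.eq_empty_or_nonempty (exits g S) with he | ⟨x, hx⟩
    · obtain ⟨z, hz, hzS⟩ : ∃ z ∈ g.support, z ∉ S := by
        by_contra hcon
        push Not at hcon
        have := Finset.card_le_card (show g.support ⊆ S from hcon)
        omega
      exact key z hz hzS (by rw [he]; intro y hy; exact absurd hy (Finset.notMem_empty y))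
    · have hx' := mem_exits.mp hx
      refine key (g x) (Perm.apply_mem_support.mpr (hS1 hx'.1)) hx'.2 ?_
      intro y hy
      rw [Finset.card_le_one_iff.mp hS3 hy hx]

/-- `S` without exits is invariant, and so is its complement -/
theorem inv_of_exits {g : Perm α} {S : Finset α} (h : exits g S = ∅) (x : α) : g x ∈ S ↔ x ∈ S := by
  have h1 : ∀ x ∈ S, g x ∈ S := by
    intro x hx
    by_contra hcon
    have : x ∈ exits g S := mem_exits.mpr ⟨hx, hcon⟩
    rw [h] at this
    exact absurd this (Finset.notMem_empty x)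
  constructor
  · intro hx
    have h2 : S.map g.toEmbedding = S := by
      apply Finset.eq_of_subset_of_card_le
      · intro y hy
        rw [Finset.mem_map] at hy
        obtain ⟨z, hz, rfl⟩ := hy
        exact h1 z hz
      · rw [Finset.card_map]
    rw [← h2, Finset.mem_map] at hx
    obtain ⟨z, hz, hzx⟩ := hx
    rw [← g.injective hzx]
    exact hz
  · exact h1 x

theorem exists_good (g : Perm α) {k : ℕ} (hk : 3 ≤ k) (hd1 : k + 1 ≤ g.support.card) (hd2 : g.support.card + 3 ≤ 2 * k) :
    ∃ S : Finset α, S ⊆ g.support ∧ S.card = k - 1 ∧ ∃ x ∈ S, g x ∉ S ∧ g.support.card + (exits g S).card + 2 ≤ 2 * k := by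
  obtain ⟨S, hS1, hS2, hS3⟩ := exists_path g (k - 1) (by omega)
  rcases Finset.eq_empty_or_nonempty (exits g S) with he | ⟨x, hx⟩
  · have hinv := inv_of_exits he
    rcases Nat.lt_or_ge (g.support.card + 3) (2 * k) with hlt | hge
    · -- d ≤ 2k - 4
      obtain ⟨w, hw⟩ : ∃ w, w ∈ S := by
        rw [← Finset.Nonempty, ← Finset.card_pos]
        omega
      obtain ⟨z, hz, hzS⟩ : ∃ z ∈ g.support, z ∉ S := by
        by_contra hcon
        push Not at hcon
        have := Finset.card_le_card (show g.support ⊆ S from hcon)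
        omega
      have hzS' : z ∉ S.erase w := fun h => hzS (Finset.mem_of_mem_erase h)
      refine ⟨insert z (S.erase w), Finset.insert_subset hz ((Finset.erase_subset _ _).trans hS1), ?_, z, Finset.mem_insert_self _ _, ?_, ?_⟩
      · rw [Finset.card_insert_of_notMem hzS', Finset.card_erase_of_mem hw, hS2]
        omega
      · rw [Finset.mem_insert, not_or]
        refine ⟨Perm.mem_support.mp hz, fun h => ?_⟩
        exact hzS ((hinv z).mp (Finset.mem_of_mem_erase h))
      · have : exits g (insert z (S.erase w)) ⊆ {z, g.symm w} := by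
          intro y hy
          rw [mem_exits, Finset.mem_insert, Finset.mem_insert, not_or, Finset.mem_erase, Finset.mem_erase] at hy
          rw [Finset.mem_insert, Finset.mem_singleton]
          obtain ⟨h1, h2, h3⟩ := hy
          by_contra hne
          rw [not_or] at hne
          obtain ⟨h4, h5⟩ := h1.resolve_left hne.1
          apply h3
          refine ⟨?_, (hinv y).mpr h5⟩
          intro h6
          apply hne.2
          rw [← h6, Equiv.symm_apply_apply]
        have h2 := (Finset.card_le_card this).trans Finset.card_le_two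
        omega
    · -- d = 2k - 3
      obtain ⟨z, hz⟩ : ∃ w, w ∈ S := by
        rw [← Finset.Nonempty, ← Finset.card_pos]
        omega
      have hzT : z ∉ g.support \ S := fun h => (Finset.mem_sdiff.mp h).2 hz
      refine ⟨insert z (g.support \ S), Finset.insert_subset (hS1 hz) Finset.sdiff_subset, ?_, z, Finset.mem_insert_self _ _, ?_, ?_⟩
      · rw [Finset.card_insert_of_notMem hzT, Finset.card_sdiff_of_subset hS1, hS2]
        omega
      · rw [Finset.mem_insert, not_or]
        refine ⟨Perm.mem_support.mp (hS1 hz), fun h => ?_⟩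
        exact (Finset.mem_sdiff.mp h).2 ((hinv z).mpr hz)
      · have : exits g (insert z (g.support \ S)) ⊆ {z} := by
          intro y hy
          rw [mem_exits, Finset.mem_insert, Finset.mem_insert, not_or] at hy
          rw [Finset.mem_singleton]
          obtain ⟨h1, h2, h3⟩ := hy
          by_contra hne
          have h4 := Finset.mem_sdiff.mp (h1.resolve_left hne)
          exact h3 (Finset.mem_sdiff.mpr ⟨Perm.apply_mem_support.mpr h4.1, fun h5 => h4.2 ((hinv y).mp h5)⟩)
        have h2 := Finset.card_le_card this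
        rw [Finset.card_singleton] at h2
        omega
  · have hx' := mem_exits.mp hx
    exact ⟨S, hS1, hS2, x, hx'.1, hx'.2, by omega⟩

theorem small_supp (G : Subgroup (Perm α)) {k : ℕ} (hk : 3 ≤ k) (hkn : k + 2 ≤ Fintype.card α) (hG : IsMultiplyPretransitive G α k) :
    ∀ (d : ℕ) (g : Perm α), g ∈ G → g ≠ 1 → g.support.card = d → d + 3 ≤ 2 * k → ∃ h : Perm α, h ∈ G ∧ h ≠ 1 ∧ h.support.card ≤ 3 := by
  intro d
  induction d using Nat.strong_induction_on with
  | _ d ih =>
  intro g hg hg1 hgd hd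
  rcases Nat.lt_or_ge 3 d with hd3 | hd3
  swap
  · exact ⟨g, hg, hg1, by omega⟩
  -- moving points
  have hmove : ∀ (S : Finset α) (w y : α), w ∉ S → y ∉ S → S.card + 1 ≤ k → ∃ h : G, (∀ x ∈ S, (h : Perm α) x = x) ∧ (h : Perm α) w = y := by
    intro S w y hw hy hSk
    have h1 := TrOff_of_multi hG (by rw [Nat.card_eq_fintype_card]; omega) (s := (S : Set α)) (by rw [Set.ncard_coe_finset]; omega)
    obtain ⟨h, hh, hwy⟩ := h1 w y (by simpa using hw) (by simpa using hy)
    exact ⟨h, fun x hx => hh.2 x (by simpa using hx), hwy⟩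
  rcases Nat.lt_or_ge k d with hkd | hkd
  · -- d ≥ k+1
    obtain ⟨S, hS1, hS2, x, hx, hgx, hcard⟩ := exists_good g hk (by omega) (by omega)
    have hxΔ := hS1 hx
    obtain ⟨y, hy, hyS⟩ : ∃ y ∈ g.support, y ∉ insert (g x) S := by
      by_contra hcon
      push Not at hcon
      have h1 := Finset.card_le_card (show g.support ⊆ insert (g x) S from hcon)
      rw [Finset.card_insert_of_notMem hgx] at h1
      omega
    rw [Finset.mem_insert, not_or] at hyS
    obtain ⟨h, hh1, hh2⟩ := hmove S (g x) y hgx hyS.2 (by omega)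
    set u : Perm α := g⁻¹ * (h * g * (h : Perm α)⁻¹) with hu
    have hinv : ∀ z ∈ S, (h : Perm α)⁻¹ z = z := by
      intro z hz
      rw [Perm.inv_eq_iff_eq, hh1 z hz]
    have hus : ∀ z ∈ S, g z ∈ S → u z = z := by
      intro z hz hgz
      rw [hu, Perm.mul_apply, Perm.mul_apply, Perm.mul_apply, hinv z hz, hh1 _ hgz, inv_ap]
    have hux : u x ≠ x := by
      rw [hu, Perm.mul_apply, Perm.mul_apply, Perm.mul_apply, hinv x hx, hh2]
      intro h3
      rw [Perm.inv_eq_iff_eq] at h3
      exact hyS.1 h3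
    have hu1 : u ≠ 1 := by
      intro h3
      rw [h3] at hux
      exact hux rfl
    have huG : u ∈ G := mul_mem (inv_mem hg) (mul_mem (mul_mem h.2 hg) (inv_mem h.2))
    -- support
    have hsub : u.support ⊆ (g.support ∪ g.support.map (h : Perm α).toEmbedding) \ (S \ exits g S) := by
      intro z hz
      rw [Perm.mem_support] at hz
      rw [Finset.mem_sdiff]
      refine ⟨?_, ?_⟩
      · by_contra hcon
        rw [Finset.mem_union, not_or] at hcon
        apply hz
        have h3 : g z = z := Perm.notMem_support.mp hcon.1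
        have h4 : g ((h : Perm α)⁻¹ z) = (h : Perm α)⁻¹ z := by
          rw [← Perm.notMem_support]
          intro h5
          apply hcon.2
          rw [Finset.mem_map]
          exact ⟨_, h5, ap_inv _ _⟩
        rw [hu, Perm.mul_apply, Perm.mul_apply, Perm.mul_apply, h4, ap_inv, Perm.inv_eq_iff_eq, h3]
      · intro h3
        rw [Finset.mem_sdiff, mem_exits, not_and, not_not] at h3
        exact hz (hus z h3.1 (h3.2 h3.1))
    have hcardu : u.support.card < d := by
      have h3 := Finset.card_le_card hsub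
      have h4 : (S \ exits g S) ⊆ g.support ∪ g.support.map (h : Perm α).toEmbedding := fun z hz => Finset.mem_union_left _ (hS1 (Finset.mem_sdiff.mp hz).1)
      rw [Finset.card_sdiff_of_subset h4] at h3
      have h5 : (exits g S) ⊆ S := Finset.filter_subset _ _
      rw [Finset.card_sdiff_of_subset h5] at h3
      have h6 := Finset.card_union_add_card_inter g.support (g.support.map (h : Perm α).toEmbedding)
      rw [Finset.card_map] at h6
      have h7 : insert y S ⊆ g.support ∩ g.support.map (h : Perm α).toEmbedding := by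
        intro z hz
        rw [Finset.mem_insert] at hz
        rw [Finset.mem_inter, Finset.mem_map]
        rcases hz with rfl | hz
        · exact ⟨hy, g x, Perm.apply_mem_support.mpr hxΔ, hh2⟩
        · exact ⟨hS1 hz, z, hS1 hz, hh1 z hz⟩
      have h8 := Finset.card_le_card h7
      rw [Finset.card_insert_of_notMem hyS.2] at h8
      have h9 := Finset.card_le_card h5
      omega
    exact ih _ hcardu u huG hu1 rfl (by omega)
  · -- d ≤ k
    obtain ⟨w, hw⟩ : ∃ w, w ∈ g.support := by
      rw [← Finset.Nonempty, ← Finset.card_pos]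
      omega
    obtain ⟨y, hy⟩ : ∃ y, y ∉ g.support := by
      by_contra hcon
      push Not at hcon
      have h1 := Finset.card_le_card (show (Finset.univ : Finset α) ⊆ g.support from fun x _ => hcon x)
      rw [Finset.card_univ] at h1
      omega
    have hwS : w ∉ g.support.erase w := Finset.notMem_erase w _
    have hyS : y ∉ g.support.erase w := fun h => hy (Finset.mem_of_mem_erase h)
    obtain ⟨h, hh1, hh2⟩ := hmove (g.support.erase w) w y hwS hyS (by rw [Finset.card_erase_of_mem hw]; omega)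
    set u : Perm α := g⁻¹ * (h * g * (h : Perm α)⁻¹) with hu
    have hinv : ∀ z ∈ g.support.erase w, (h : Perm α)⁻¹ z = z := by
      intro z hz
      rw [Perm.inv_eq_iff_eq, hh1 z hz]
    have hwy : w ≠ y := fun h3 => hy (h3 ▸ hw)
    have hgw : g⁻¹ w ∈ g.support.erase w := by
      rw [Finset.mem_erase]
      refine ⟨?_, ?_⟩
      · intro h3
        rw [Perm.inv_eq_iff_eq] at h3
        exact Perm.mem_support.mp hw h3.symm
      · rw [← Perm.apply_mem_support, ap_inv]
        exact hw
    have hux : u (g⁻¹ w) ≠ g⁻¹ w := by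
      rw [hu, Perm.mul_apply, Perm.mul_apply, Perm.mul_apply, hinv _ hgw, ap_inv, hh2]
      intro h3
      exact hwy (g⁻¹.injective h3).symm
    have hu1 : u ≠ 1 := by
      intro h3
      rw [h3] at hux
      exact hux rfl
    have huG : u ∈ G := mul_mem (inv_mem hg) (mul_mem (mul_mem h.2 hg) (inv_mem h.2))
    refine ⟨u, huG, hu1, ?_⟩
    have hsub : u.support ⊆ {g⁻¹ w, w, y} := by
      intro z hz
      rw [Perm.mem_support] at hz
      rw [Finset.mem_insert, Finset.mem_insert, Finset.mem_singleton]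
      by_contra hcon
      rw [not_or, not_or] at hcon
      obtain ⟨h3, h4, h5⟩ := hcon
      apply hz
      by_cases hzΔ : z ∈ g.support
      · have hzS : z ∈ g.support.erase w := Finset.mem_erase.mpr ⟨h4, hzΔ⟩
        have hgz : g z ∈ g.support.erase w := by
          rw [Finset.mem_erase]
          refine ⟨?_, Perm.apply_mem_support.mpr hzΔ⟩
          intro h6
          apply h3
          rw [← h6, inv_ap]
        rw [hu, Perm.mul_apply, Perm.mul_apply, Perm.mul_apply, hinv z hzS, hh1 _ hgz, inv_ap]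
      · have h6 : g ((h : Perm α)⁻¹ z) = (h : Perm α)⁻¹ z := by
          rw [← Perm.notMem_support]
          intro h7
          by_cases h8 : (h : Perm α)⁻¹ z = w
          · apply h5
            rw [← hh2, ← h8, ap_inv]
          · have h9 := hh1 _ (Finset.mem_erase.mpr ⟨h8, h7⟩)
            rw [ap_inv] at h9
            rw [← h9] at h7
            exact hzΔ h7
        rw [hu, Perm.mul_apply, Perm.mul_apply, Perm.mul_apply, h6, ap_inv, Perm.inv_eq_iff_eq]
        exact (Perm.notMem_support.mp hzΔ).symm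
    exact (Finset.card_le_card hsub).trans Finset.card_le_three

theorem s0711 (G : Subgroup (Perm α)) {k : ℕ} (hk : 3 ≤ k) (hkn : k ≤ Fintype.card α) (hG : MulAction.IsMultiplyPretransitive G α k) (g : Perm α) (hg : g ∈ G) (hg1 : g ≠ 1) (hsupp : g.support.card < 2 * k - 2) : (∃ h : Perm α, h ∈ G ∧ h ≠ 1 ∧ h.support.card ≤ 3) ∧ alternatingGroup α ≤ G := by
  have hprim : IsPreprimitive G α := by
    haveI := hG
    haveI : IsMultiplyPretransitive G α 2 := isMultiplyPretransitive_of_le (n := k) (by omega) (by rwa [Nat.card_eq_fintype_card])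
    exact isPreprimitive_of_is_two_pretransitive this
  have hex : ∃ h : Perm α, h ∈ G ∧ h ≠ 1 ∧ h.support.card ≤ 3 := by
    rcases Nat.lt_or_ge (Fintype.card α) (k + 2) with h | h
    · have htop : G = ⊤ := by
        haveI := hG
        have h1 : IsMultiplyPretransitive G α (Nat.card α - 1) := isMultiplyPretransitive_of_le (n := k) (by rw [Nat.card_eq_fintype_card]; omega) (by rwa [Nat.card_eq_fintype_card])
        exact Equiv.Perm.eq_top_of_isMultiplyPretransitive h1
      obtain ⟨x, hx⟩ : ∃ x, x ∈ g.support := by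
        by_contra hcon
        push Not at hcon
        exact hg1 (Perm.support_eq_empty_iff.mp (Finset.eq_empty_of_forall_notMem hcon))
      have hne : x ≠ g x := (Perm.mem_support.mp hx).symm
      refine ⟨swap x (g x), by rw [htop]; exact mem_top _, ?_, ?_⟩
      · intro h1
        apply hne
        have := congrArg (fun f : Perm α => f x) h1
        simp only [swap_apply_left, Perm.one_apply] at this
        exact this.symm
      · rw [Perm.card_support_swap hne]
        omega
    · exact small_supp G hk h hG _ g hg hg1 rfl (by omega)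
  refine ⟨hex, ?_⟩
  obtain ⟨h, hh, hh1, hh3⟩ := hex
  have h0 : h.support.card ≠ 0 := by
    intro h4
    exact hh1 (Perm.support_eq_empty_iff.mp (Finset.card_eq_zero.mp h4))
  have h1 : h.support.card ≠ 1 := Perm.card_support_ne_one h
  have h23 : h.support.card = 2 ∨ h.support.card = 3 := by omega
  rcases h23 with h2 | h3
  · rw [Equiv.Perm.subgroup_eq_top_of_isPreprimitive_of_isSwap_mem hprim h (Perm.card_support_eq_two.mp h2) hh]
    exact le_top
  · exact Equiv.Perm.alternatingGroup_le_of_isPreprimitive_of_isThreeCycle_mem hprim (card_support_eq_three_iff.mp h3) hh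

end Small

end Cfsg.Agent.Lib.H3PermA

namespace Cfsg.Agent.Lib.H3PermA

open Subgroup MulAction Equiv Cfsg.Agent.Lib.H3Trans Cfsg.Agent.Lib.H3SigC Cfsg.Agent.Lib.H3Wagner Cfsg.Agent.Lib.PermTwo

section Gen
variable {α : Type*} [Fintype α] [DecidableEq α]

/-- extension of `hgen` to permutations of `α` preserving the set -/
theorem gen_ext {G : Subgroup (Perm α)} {k : ℕ} (hgen : ∀ s : Finset α, s.card = k + 1 → ∀ σ : Equiv.Perm ↥s, ∃ g ∈ G, ∀ x : ↥s, g (x : α) = σ x)
    {s : Finset α} (hs : s.card = k + 1) (σ : Perm α) (hσ : ∀ x, σ x ∈ s ↔ x ∈ s) : ∃ g : G, ∀ x ∈ s, g • x = σ x := by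
  obtain ⟨g, hg, hgx⟩ := hgen s hs (σ.subtypePerm hσ)
  refine ⟨⟨g, hg⟩, fun x hx => ?_⟩
  exact hgx ⟨x, hx⟩

theorem multi_of_gen {G : Subgroup (Perm α)} {k : ℕ} (hk : k < Fintype.card α) (hk0 : 1 ≤ k) (hgen : ∀ s : Finset α, s.card = k + 1 → ∀ σ : Equiv.Perm ↥s, ∃ g ∈ G, ∀ x : ↥s, g (x : α) = σ x) :
    IsMultiplyPretransitive G α k := by
  apply kTrans_of_fixing hk
  intro s hs a b ha hb
  by_cases hab : a = b
  · exact ⟨1, fun x _ => one_smul _ _, by rw [one_smul, hab]⟩
  have hcard : (insert a (insert b s)).card = k + 1 := by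
    rw [Finset.card_insert_of_notMem, Finset.card_insert_of_notMem hb, hs]
    rw [Finset.mem_insert, not_or]
    exact ⟨hab, ha⟩
  obtain ⟨g, hg⟩ := gen_ext hgen hcard (swap a b) (by
    intro x
    have key : ∀ x, x ∈ insert a (insert b s) → swap a b x ∈ insert a (insert b s) := by
      intro x hx
      by_cases h1 : x = a
      · rw [h1, swap_apply_left]
        simp
      by_cases h2 : x = b
      · rw [h2, swap_apply_right]
        simp
      rw [swap_apply_of_ne_of_ne h1 h2]
      exact hx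
    constructor
    · intro hx
      have := key _ hx
      rwa [swap_apply_self] at this
    · exact key x)
  refine ⟨g, fun x hx => ?_, ?_⟩
  · rw [hg x (by simp [hx]), swap_apply_of_ne_of_ne (by rintro rfl; exact ha hx) (by rintro rfl; exact hb hx)]
  · rw [hg a (by simp), swap_apply_left]

/-- pointwise stabilisers of sets of the same size have the same order -/
theorem card_Fx {G : Subgroup (Perm α)} {k : ℕ} (hk : k ≤ Fintype.card α) (hG : IsMultiplyPretransitive G α k) {Γ Γ' : Finset α} (h1 : Γ.card = k) (h2 : Γ'.card = k) :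
    Nat.card (Fx (⊤ : Subgroup G) (Γ : Set α)) = Nat.card (Fx (⊤ : Subgroup G) (Γ' : Set α)) := by
  obtain ⟨e⟩ : Nonempty (Γ ≃ Γ') := by
    rw [← Fintype.card_eq]
    simp [h1, h2]
  obtain ⟨g, hg⟩ := exists_smul_emb hG (by rw [Nat.card_eq_fintype_card]; exact hk) (ι := Γ) (by rw [Nat.card_eq_fintype_card]; simp [h1]) (Function.Embedding.subtype _) (e.toEmbedding.trans (Function.Embedding.subtype _))
  have hg1 : ∀ x : Γ, g • (x : α) = (e x : α) := fun x => hg x
  rw [← card_conj g (Fx (⊤ : Subgroup G) (Γ : Set α))]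
  congr 2
  ext x
  constructor
  · rintro ⟨y, hy, rfl⟩
    refine ⟨mem_top _, fun c hc => ?_⟩
    change (g * y * g⁻¹) • c = c
    have h3 := hg1 (e.symm ⟨c, hc⟩)
    rw [Equiv.apply_symm_apply] at h3
    change g • ((e.symm ⟨c, hc⟩ : Γ) : α) = c at h3
    rw [mul_smul, mul_smul, ← h3, inv_smul_smul, hy.2 _ (e.symm ⟨c, hc⟩).2]
  · intro hx
    refine ⟨g⁻¹ * x * g, ⟨mem_top _, fun c hc => ?_⟩, by change g * (g⁻¹ * x * g) * g⁻¹ = x; group⟩
    have h3 := hg1 ⟨c, hc⟩
    change g • c = _ at h3
    rw [mul_smul, mul_smul, h3, hx.2 _ (e ⟨c, hc⟩).2, ← h3, inv_smul_smul]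

theorem s0706 (G : Subgroup (Equiv.Perm α)) {k : ℕ} (hk : k < Fintype.card α) (hgen : ∀ s : Finset α, s.card = k + 1 → ∀ σ : Equiv.Perm ↥s, ∃ g ∈ G, ∀ x : ↥s, g (x : α) = σ x) {p : ℕ} (hp : p.Prime) (hpk : p ≤ k) (Γ : Finset α) (hΓ : Γ.card = k) (f : Fin p → α) (hf : ∀ i, f i ∉ Γ) (hdist : ∀ i j, i ≠ j → f j ∉ MulAction.orbit (fixingSubgroup G (Γ : Set α)) (f i)) : ∃ i, p ∣ Nat.card (MulAction.orbit (fixingSubgroup G (Γ : Set α)) (f i)) := by
  classical
  haveI : Fact p.Prime := ⟨hp⟩
  by_contra hcon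
  push Not at hcon
  have hp2 := hp.two_le
  have hmt := multi_of_gen hk (by omega) hgen
  set K : Subgroup G := Fx (⊤ : Subgroup G) (Γ : Set α) with hK
  have hKorb : ∀ x y : α, y ∈ orbit (fixingSubgroup G (Γ : Set α)) x ↔ ∃ g ∈ K, g • x = y := by
    intro x y
    constructor
    · rintro ⟨g, rfl⟩
      exact ⟨g, ⟨mem_top _, fun c hc => (mem_fixingSubgroup_iff G).mp g.2 c hc⟩, rfl⟩
    · rintro ⟨g, hg, rfl⟩
      exact ⟨⟨g, (mem_fixingSubgroup_iff G).mpr fun c hc => hg.2 c hc⟩, rfl⟩
  obtain ⟨T, hTΓ, hTc⟩ : ∃ T ⊆ Γ, T.card = p := Finset.exists_subset_card_eq (by omega)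
  obtain ⟨c, hcT, hcs⟩ := Finset.exists_cycleOn T
  have hcp : ∀ x, (c ^ p) x = x := by
    intro x
    by_cases hx : x ∈ T
    · have := hcT.pow_card_apply hx
      rwa [hTc] at this
    · have hx' : c x = x := by
        rw [← Perm.notMem_support]
        exact fun h => hx (hcs h)
      exact Perm.pow_apply_eq_self_of_apply_eq_self hx' p
  have hcfix : ∀ x, x ∉ T → c x = x := fun x hx => by
    rw [← Perm.notMem_support]
    exact fun h => hx (hcs h)
  have hcT' : ∀ (m : ℤ) x, x ∈ T → (c ^ m) x ∈ T := by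
    intro m x hx
    have h1 := hcT.range_zpow (a := x) hx
    have h2 : (c ^ m) x ∈ Set.range (fun n : ℤ => (c ^ n) x) := ⟨m, rfl⟩
    rw [h1] at h2
    exact h2
  have hcfixz : ∀ (m : ℤ) x, x ∉ T → (c ^ m) x = x := fun m x hx => Perm.zpow_apply_eq_self_of_apply_eq_self (hcfix x hx) m
  have hcz : ∀ (m : ℤ) x, x ∈ Γ → (c ^ m) x ∈ Γ := by
    intro m x hx
    by_cases hxT : x ∈ T
    · exact hTΓ (hcT' m x hxT)
    · rw [hcfixz m x hxT]
      exact hx
  -- elements of G acting as powers of c on Γ and fixing a given point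
  have hlift : ∀ (m : ℤ) (δ : α), δ ∉ Γ → ∃ g : G, (∀ x ∈ Γ, g • x = (c ^ m) x) ∧ g • δ = δ := by
    intro m δ hδ
    have hδT : δ ∉ T := fun h => hδ (hTΓ h)
    have hcard : (insert δ Γ).card = k + 1 := by rw [Finset.card_insert_of_notMem hδ, hΓ]
    have key : ∀ (m : ℤ) x, x ∈ insert δ Γ → (c ^ m) x ∈ insert δ Γ := by
      intro m x hx
      rw [Finset.mem_insert] at hx ⊢
      rcases hx with rfl | hx
      · exact Or.inl (hcfixz m _ hδT)
      · exact Or.inr (hcz m x hx)
    obtain ⟨g, hg⟩ := gen_ext hgen hcard (c ^ m) (by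
      intro x
      constructor
      · intro hx
        have := key (-m) _ hx
        rw [← Perm.mul_apply, ← zpow_add, neg_add_cancel, zpow_zero] at this
        exact this
      · exact key m x)
    refine ⟨g, fun x hx => hg x (Finset.mem_insert_of_mem hx), ?_⟩
    rw [hg δ (Finset.mem_insert_self _ _), hcfixz m δ hδT]
  let L : Subgroup G :=
    { carrier := {g | ∃ m : ℤ, ∀ x ∈ Γ, g • x = (c ^ m) x}
      mul_mem' := by
        rintro a b ⟨m, hm⟩ ⟨n, hn⟩
        refine ⟨m + n, fun x hx => ?_⟩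
        rw [mul_smul, hn x hx, hm _ (hcz n x hx), zpow_add, Perm.mul_apply]
      one_mem' := ⟨0, fun x _ => by rw [one_smul, zpow_zero]; rfl⟩
      inv_mem' := by
        rintro a ⟨m, hm⟩
        refine ⟨-m, fun x hx => ?_⟩
        rw [inv_smul_eq_iff, hm _ (hcz (-m) x hx), ← Perm.mul_apply, ← zpow_add, add_neg_cancel, zpow_zero]
        rfl }
  have hLmem : ∀ g : G, g ∈ L ↔ ∃ m : ℤ, ∀ x ∈ Γ, g • x = (c ^ m) x := fun g => Iff.rfl
  have hKL : K ≤ L := fun g hg => ⟨0, fun x hx => by rw [hg.2 x hx, zpow_zero]; rfl⟩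
  obtain ⟨t, ht⟩ : T.Nonempty := by
    rw [← Finset.card_pos, hTc]
    omega
  have horbL : orbit L t = (T : Set α) := by
    ext y
    constructor
    · rintro ⟨⟨g, m, hm⟩, rfl⟩
      change g • t ∈ (T : Set α)
      rw [hm t (hTΓ ht)]
      exact hcT' m t ht
    · intro hy
      obtain ⟨n, -, hn⟩ := hcT.exists_pow_eq ht hy
      obtain ⟨g, hg1, -⟩ := hlift n (f ⟨0, by omega⟩) (hf _)
      refine ⟨⟨g, n, hg1⟩, ?_⟩
      change g • t = y
      rw [hg1 t (hTΓ ht), zpow_natCast, hn]
  have hstab : Nat.card (stabilizer L t) = Nat.card K := by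
    apply Nat.card_congr
    refine ⟨fun g => ⟨((g : L) : G), ?_⟩, fun g => ⟨⟨g, hKL g.2⟩, ?_⟩, fun g => rfl, fun g => rfl⟩
    · obtain ⟨⟨g, m, hm⟩, hg⟩ := g
      refine ⟨mem_top _, fun x hx => ?_⟩
      have h1 : (c ^ m) t = t := by
        rw [← hm t (hTΓ ht)]
        exact hg
      rw [hcT.zpow_apply_eq ht] at h1
      change g • x = x
      rw [hm x hx]
      by_cases hxT : x ∈ T
      · exact (hcT.zpow_apply_eq hxT).mpr h1
      · exact hcfixz m x hxT
    · exact g.2.2 t (hTΓ ht)
  have hLcard : Nat.card L = p * Nat.card K := by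
    have h1 := card_orbit_mul_card_stabilizer (K := L) t
    rw [hstab, horbL, Nat.card_coe_set_eq, Set.ncard_coe_finset, hTc] at h1
    exact h1.symm
  -- L-orbits outside Γ
  have horb2 : ∀ (δ : α), δ ∉ Γ → ∀ g ∈ L, ∃ g' ∈ K, g' • δ = g • δ := by
    rintro δ hδ g ⟨m, hm⟩
    obtain ⟨g', hg1, hg2⟩ := hlift m δ hδ
    refine ⟨g * g'⁻¹, ⟨mem_top _, fun x hx => ?_⟩, ?_⟩
    · have h1 : g'⁻¹ • x = (c ^ (-m)) x := by
        rw [inv_smul_eq_iff, hg1 _ (hcz (-m) x hx), ← Perm.mul_apply, ← zpow_add, add_neg_cancel, zpow_zero]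
        rfl
      rw [mul_smul, h1, hm _ (hcz (-m) x hx), ← Perm.mul_apply, ← zpow_add, add_neg_cancel, zpow_zero]
      rfl
    · have h1 : g'⁻¹ • δ = δ := by rw [inv_smul_eq_iff, hg2]
      rw [mul_smul, h1]
  let S : Sylow p L := default
  have hQ := isSyl_of_sylow (q := p) S
  set Q := (S : Subgroup L).map L.subtype with hQdef
  have hfix : ∀ i, ∃ y : α, (∃ g ∈ K, g • f i = y) ∧ ∀ q ∈ Q, q • y = y := by
    intro i
    have h1 := card_modEq_of_invariant (K := Q) (α := α) hQ.pgroup (orbit (fixingSubgroup G (Γ : Set α)) (f i)) (by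
      rintro ⟨q, hq⟩ x hx
      rw [hKorb] at hx ⊢
      obtain ⟨g, hg, rfl⟩ := hx
      obtain ⟨g', hg', hgg⟩ := horb2 (f i) (hf i) (q * g) (mul_mem (hQ.1 hq) (hKL hg))
      exact ⟨g', hg', by rw [hgg, mul_smul]; rfl⟩)
    have h2 : (orbit (fixingSubgroup G (Γ : Set α)) (f i) ∩ fixedPoints Q α : Set α).Nonempty := by
      by_contra hne
      rw [Set.not_nonempty_iff_eq_empty] at hne
      rw [hne] at h1
      have h3 : Nat.card (∅ : Set α) = 0 := by simp
      rw [h3] at h1
      exact hcon i ((Nat.modEq_zero_iff_dvd).mp h1)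
    obtain ⟨y, hy1, hy2⟩ := h2
    exact ⟨y, (hKorb _ _).mp hy1, fun q hq => hy2 ⟨q, hq⟩⟩
  choose y hy1 hy2 using hfix
  have hyΓ : ∀ i, y i ∉ Γ := by
    intro i hi
    obtain ⟨g, hg, hgy⟩ := hy1 i
    have h1 := hg.2 _ hi
    rw [← hgy] at h1
    have h2 : g • f i = f i := MulAction.injective g h1
    rw [h2] at hgy
    exact hf i (hgy ▸ hi)
  have hyinj : Function.Injective y := by
    intro i j hij
    by_contra hne
    apply hdist i j hne
    rw [hKorb]
    obtain ⟨g, hg, hgy⟩ := hy1 i
    obtain ⟨g', hg', hgy'⟩ := hy1 j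
    exact ⟨g'⁻¹ * g, mul_mem (inv_mem hg') hg, by rw [mul_smul, hgy, hij, ← hgy', inv_smul_smul]⟩
  set Γ' : Finset α := (Finset.univ.image y) ∪ (Γ \ T) with hΓ'
  have hΓ'c : Γ'.card = k := by
    rw [hΓ', Finset.card_union_of_disjoint, Finset.card_image_of_injective _ hyinj, Finset.card_univ, Fintype.card_fin, Finset.card_sdiff_of_subset hTΓ, hΓ, hTc]
    · omega
    · rw [Finset.disjoint_left]
      intro x hx hx2
      rw [Finset.mem_image] at hx
      obtain ⟨i, _, rfl⟩ := hx
      exact hyΓ i (Finset.mem_sdiff.mp hx2).1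
  have hQle : Q ≤ Fx (⊤ : Subgroup G) (Γ' : Set α) := by
    intro q hq
    refine ⟨mem_top _, fun x hx => ?_⟩
    rw [Finset.mem_coe, hΓ', Finset.mem_union] at hx
    rcases hx with hx | hx
    · rw [Finset.mem_image] at hx
      obtain ⟨i, _, rfl⟩ := hx
      exact hy2 i q hq
    · obtain ⟨m, hm⟩ := (hLmem q).mp (hQ.1 hq)
      rw [Finset.mem_sdiff] at hx
      rw [hm x hx.1, hcfixz m x hx.2]
  have h1 := Subgroup.card_dvd_of_le hQle
  rw [← card_Fx hk.le hmt hΓ hΓ'c, hQ.2, hLcard] at h1
  have hpos : Nat.card K ≠ 0 := Nat.card_pos.ne'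
  rw [Nat.factorization_mul hp.ne_zero hpos, Finsupp.add_apply, Nat.Prime.factorization_self hp] at h1
  have h2 := (Nat.Prime.pow_dvd_iff_le_factorization hp hpos).mp h1
  omega

end Gen

end Cfsg.Agent.Lib.H3PermA
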