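import Mathlib
import Cfsg.Prelude.Def_Perm
import Cfsg.Agent.Lib.Basic
import Cfsg.Agent.Lib.PermTwo

/-!
Permutation modules in characteristic `p` (helper3).
-/

set_option autoImplicit false
set_option maxHeartbeats 400000
set_option linter.unusedVariables false
set_option linter.unusedSectionVars false
set_option linter.unusedFintypeInType false

namespace Cfsg.Agent.Lib.H3PermMod

open Subgroup MulAction Polynomial

section Lin
variable {K V : Type*} [Field K] [AddCommGroup V] [Module K V] [FiniteDimensional K V]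

theorem pow_succ_app (N : V →ₗ[K] V) (m : ℕ) (x : V) : (N ^ (m + 1)) x = N ((N ^ m) x) := by
  rw [pow_succ']
  rfl

theorem finrank_ker_pow_le (N : V →ₗ[K] V) (h1 : Module.finrank K (LinearMap.ker N) ≤ 1) (m : ℕ) : Module.finrank K (LinearMap.ker (N ^ m)) ≤ m := by
  induction m with
  | zero =>
    rw [pow_zero]
    have : LinearMap.ker (1 : V →ₗ[K] V) = ⊥ := LinearMap.ker_id
    rw [this, finrank_bot]
  | succ m ih =>
    -- restrict N^m to ker N^(m+1)
    let f : LinearMap.ker (N ^ (m + 1)) →ₗ[K] LinearMap.ker N :=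
      { toFun := fun x => ⟨(N ^ m) (x : V), by
          rw [LinearMap.mem_ker]
          have h0 : (N ^ (m + 1)) (x : V) = 0 := x.2
          rw [← pow_succ_app, h0]⟩
        map_add' := fun x y => Subtype.ext (by simp)
        map_smul' := fun c x => Subtype.ext (by simp) }
    have h2 := LinearMap.finrank_range_add_finrank_ker f
    have h3 : Module.finrank K (LinearMap.range f) ≤ 1 := (Submodule.finrank_le _).trans h1
    have h4 : Module.finrank K (LinearMap.ker f) ≤ Module.finrank K (LinearMap.ker (N ^ m)) := by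
      let g : LinearMap.ker f →ₗ[K] LinearMap.ker (N ^ m) :=
        { toFun := fun x => ⟨((x : LinearMap.ker (N ^ (m + 1))) : V), by
            rw [LinearMap.mem_ker]
            have := x.2
            rw [LinearMap.mem_ker] at this
            exact congrArg Subtype.val this⟩
          map_add' := fun x y => Subtype.ext (by simp)
          map_smul' := fun c x => Subtype.ext (by simp) }
      apply LinearMap.finrank_le_finrank_of_injective (f := g)
      intro x y hxy
      apply Subtype.ext
      apply Subtype.ext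
      have h5 := congrArg (fun z : LinearMap.ker (N ^ m) => (z : V)) hxy
      exact h5
    omega

theorem eq_ker_pow (N : V →ₗ[K] V) (hN : IsNilpotent N) (h1 : Module.finrank K (LinearMap.ker N) ≤ 1) (W : Submodule K V) (hW : ∀ v ∈ W, N v ∈ W) :
    W = LinearMap.ker (N ^ Module.finrank K W) := by
  have hle : W ≤ LinearMap.ker (N ^ Module.finrank K W) := by
    let R : W →ₗ[K] W := N.restrict hW
    have hRk : ∀ (k : ℕ) (w : W), (((R ^ k) w : W) : V) = (N ^ k) (w : V) := by
      intro k
      induction k with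
      | zero => intro w; rfl
      | succ k ih =>
        intro w
        rw [pow_succ, pow_succ]
        change (((R ^ k) (R w) : W) : V) = (N ^ k) (N (w : V))
        rw [ih]
        rfl
    have hRn : IsNilpotent R := by
      obtain ⟨k, hk⟩ := hN
      refine ⟨k, ?_⟩
      ext w
      rw [hRk, hk]
      rfl
    have h2 := (LinearMap.isNilpotent_iff_charpoly R).mp hRn
    have h3 := LinearMap.aeval_self_charpoly R
    rw [h2, map_pow, aeval_X] at h3
    intro w hw
    rw [LinearMap.mem_ker]
    have h4 := hRk (Module.finrank K W) ⟨w, hw⟩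
    rw [h3] at h4
    exact h4.symm
  exact Submodule.eq_of_le_of_finrank_le hle (finrank_ker_pow_le N h1 _)

end Lin

section ZM
variable {p : ℕ} [hp : Fact p.Prime] {K : Type*} [Field K] [CharP K p]

/-- the inclusion of the prime field -/
noncomputable abbrev io (K : Type*) [Field K] {p : ℕ} [hp : Fact p.Prime] [CharP K p] (j : ZMod p) : K := ZMod.castHom (dvd_refl p) K j

theorem io_inj : Function.Injective (io K : ZMod p → K) := (ZMod.castHom (dvd_refl p) K).injective

/-- evaluation of polynomials on the prime field -/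
noncomputable def ev (K : Type*) [Field K] (p : ℕ) [hp : Fact p.Prime] [CharP K p] : K[X] →ₗ[K] (ZMod p → K) where
  toFun P j := P.eval (io K j)
  map_add' := fun P Q => by ext j; simp
  map_smul' := fun c P => by ext j; simp

theorem ev_apply (P : K[X]) (j : ZMod p) : ev K p P j = P.eval (io K j) := rfl

theorem ev_inj {P : K[X]} (hP : P.degree < p) (h : ev K p P = 0) : P = 0 := by
  classical
  haveI : NeZero p := ⟨hp.out.ne_zero⟩
  by_contra hP0
  have h1 : P.natDegree < p := (natDegree_lt_iff_degree_lt hP0).mpr hP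
  apply hP0
  apply eq_zero_of_natDegree_lt_card_of_eval_eq_zero P (io_inj (K := K) (p := p))
  · intro j
    exact congrFun h j
  · rw [ZMod.card]
    exact h1

/-- functions given by polynomials of degree `< r` -/
noncomputable def Pol (K : Type*) [Field K] (p : ℕ) [hp : Fact p.Prime] [CharP K p] (r : ℕ) : Submodule K (ZMod p → K) := (degreeLT K r).map (ev K p)

theorem mem_Pol {r : ℕ} {f : ZMod p → K} : f ∈ Pol K p r ↔ ∃ P : K[X], P.degree < r ∧ ∀ j : ZMod p, f j = P.eval (io K j) := by
  constructor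
  · rintro ⟨P, hP, rfl⟩
    exact ⟨P, mem_degreeLT.mp hP, fun j => rfl⟩
  · rintro ⟨P, hP, h⟩
    exact ⟨P, mem_degreeLT.mpr hP, funext fun j => (h j).symm⟩

theorem finrank_degreeLT (r : ℕ) : Module.finrank K (degreeLT K r) = r := by
  rw [LinearEquiv.finrank_eq (degreeLTEquiv K r)]
  simp

theorem finrank_Pol {r : ℕ} (hr : r ≤ p) : Module.finrank K (Pol K p r) = r := by
  have h1 : Module.finrank K (Pol K p r) = Module.finrank K (degreeLT K r) := by
    symm
    apply LinearEquiv.finrank_eq
    refine LinearEquiv.ofBijective ((ev K p).submoduleMap (degreeLT K r)) ⟨?_, LinearMap.submoduleMap_surjective _ _⟩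
    rw [← LinearMap.ker_eq_bot, LinearMap.ker_eq_bot']
    intro P hP
    apply Subtype.ext
    apply ev_inj (p := p)
    · have := mem_degreeLT.mp P.2
      exact lt_of_lt_of_le this (by exact_mod_cast hr)
    · exact congrArg Subtype.val hP
  rw [h1, finrank_degreeLT]

/-- translation -/
def Tr (K : Type*) [Field K] (p : ℕ) : (ZMod p → K) →ₗ[K] (ZMod p → K) where
  toFun f j := f (j - 1)
  map_add' := fun _ _ => rfl
  map_smul' := fun _ _ => rfl

theorem Tr_pow (k : ℕ) (f : ZMod p → K) (j : ZMod p) : (Tr K p ^ k) f j = f (j - k) := by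
  induction k generalizing j with
  | zero => simp
  | succ k ih =>
    rw [pow_succ']
    change (Tr K p ^ k) f (j - 1) = _
    rw [ih]
    congr 1
    push_cast
    ring

theorem nilp : IsNilpotent (Tr K p - 1 : (ZMod p → K) →ₗ[K] (ZMod p → K)) := by
  refine ⟨p, ?_⟩
  haveI : CharP ((ZMod p → K) →ₗ[K] (ZMod p → K)) p := by
    haveI : NeZero p := ⟨hp.out.ne_zero⟩
    exact charP_of_injective_algebraMap' K p
  rw [sub_pow_char_of_commute p (Commute.one_right _), one_pow]
  refine LinearMap.ext fun f => funext fun j => ?_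
  change (Tr K p ^ p) f j - f j = 0
  rw [Tr_pow]
  simp

theorem ker_le : Module.finrank K (LinearMap.ker (Tr K p - 1 : (ZMod p → K) →ₗ[K] (ZMod p → K))) ≤ 1 := by
  have h1 : LinearMap.ker (Tr K p - 1 : (ZMod p → K) →ₗ[K] (ZMod p → K)) ≤ Submodule.span K {fun _ => 1} := by
    intro f hf
    rw [LinearMap.mem_ker] at hf
    have h2 : ∀ j : ZMod p, f (j - 1) = f j := by
      intro j
      have := congrFun hf j
      simp only [LinearMap.sub_apply, Pi.sub_apply] at this
      exact sub_eq_zero.mp this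
    have h3 : ∀ k : ℕ, f (k : ZMod p) = f 0 := by
      intro k
      induction k with
      | zero => simp
      | succ k ih =>
        rw [← ih]
        have := h2 ((k + 1 : ℕ) : ZMod p)
        rw [← this]
        congr 1
        push_cast
        ring
    rw [Submodule.mem_span_singleton]
    refine ⟨f 0, ?_⟩
    ext j
    have h4 := h3 j.val
    haveI : NeZero p := ⟨hp.out.ne_zero⟩
    rw [ZMod.natCast_zmod_val] at h4
    simp [h4]
  refine (Submodule.finrank_mono h1).trans ?_
  exact finrank_span_le_card _ |>.trans (by simp)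

theorem main673 (W : Submodule K (ZMod p → K)) (hW : ∀ f ∈ W, (fun j => f (j - 1)) ∈ W) : W = Pol K p (Module.finrank K W) ∧ Module.finrank K W ≤ p := by
  haveI : NeZero p := ⟨hp.out.ne_zero⟩
  have hr : Module.finrank K W ≤ p := by
    refine (Submodule.finrank_le W).trans ?_
    rw [Module.finrank_fintype_fun_eq_card, ZMod.card]
  refine ⟨?_, hr⟩
  have h1 := eq_ker_pow (Tr K p - 1) nilp ker_le W (fun v hv => W.sub_mem (hW v hv) hv)
  have h2 := eq_ker_pow (Tr K p - 1) nilp ker_le (Pol K p (Module.finrank K W)) (by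
    intro v hv
    apply Submodule.sub_mem _ _ hv
    rw [mem_Pol] at hv ⊢
    obtain ⟨P, hP, hPv⟩ := hv
    refine ⟨P.taylor (-1), ?_, ?_⟩
    · rw [degree_taylor]
      exact hP
    · intro j
      change v (j - 1) = _
      rw [hPv, taylor_eval]
      congr 1
      simp only [io, map_sub, map_one]
      ring)
  rw [finrank_Pol hr] at h2
  rw [h1]
  conv_rhs => rw [← h1]
  exact h2.symm

theorem s0673 (W : Submodule K (ZMod p → K)) (hW : ∀ f ∈ W, (fun j => f (j - 1)) ∈ W) : ∃ r : ℕ, r ≤ p ∧ Module.finrank K W = r ∧ ∀ f : ZMod p → K, f ∈ W ↔ ∃ P : Polynomial K, P.degree < r ∧ ∀ j : ZMod p, f j = P.eval (ZMod.cast j : K) := by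
  obtain ⟨h1, h2⟩ := main673 W hW
  refine ⟨_, h2, rfl, ?_⟩
  intro f
  conv_lhs => rw [h1]
  exact mem_Pol

theorem Pol_unique {r : ℕ} (hr : r ≤ p) {P : K[X]} (hP : P.degree < p) (h : ev K p P ∈ Pol K p r) : P.degree < r := by
  rw [mem_Pol] at h
  obtain ⟨Q, hQ, hPQ⟩ := h
  have h1 : P - Q = 0 := by
    apply ev_inj (p := p)
    · exact lt_of_le_of_lt (degree_sub_le _ _) (max_lt hP (lt_of_lt_of_le hQ (by exact_mod_cast hr)))
    · ext j
      rw [map_sub, Pi.sub_apply, hPQ j, ev_apply, sub_self]
      rfl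
  rw [sub_eq_zero.mp h1]
  exact hQ

theorem affine_of_inv {r : ℕ} (h2 : 2 ≤ r) (h2r : 2 * r < p) (φ : ZMod p → ZMod p) (hφ : ∀ f ∈ Pol K p r, (fun j => f (φ j)) ∈ Pol K p r) :
    ∃ a b : ZMod p, ∀ j, φ j = a * j + b := by
  have hX : (fun j : ZMod p => io K j) ∈ Pol K p r := by
    rw [mem_Pol]
    refine ⟨X, ?_, fun j => by simp⟩
    rw [degree_X]
    exact_mod_cast h2
  have h1 := hφ _ hX
  rw [mem_Pol] at h1
  obtain ⟨P, hP, hPj⟩ := h1
  by_cases hP0 : P = 0
  · refine ⟨0, 0, fun j => ?_⟩
    have := hPj j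
    simp only [hP0, eval_zero] at this
    rw [← map_zero (ZMod.castHom (dvd_refl p) K)] at this
    rw [io_inj this]
    simp
  have hd : P.natDegree < r := (natDegree_lt_iff_degree_lt hP0).mpr hP
  have hd1 : P.natDegree ≤ 1 := by
    by_contra hcon
    push Not at hcon
    set d := P.natDegree with hddef
    have hd0 : 0 < d := by omega
    set k := (r + d - 1) / d with hk
    have hk1 : r ≤ k * d := by
      have h3 : r + d - 1 < (k + 1) * d := by
        rw [hk]
        have := Nat.lt_div_mul_add hd0 (a := r + d - 1)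
        rw [add_mul, one_mul]
        exact this
      have h4 : (k + 1) * d = k * d + d := by ring
      omega
    have hk2 : k * d ≤ r + d - 1 := Nat.div_mul_le_self _ _
    have hkr : k < r := by
      by_contra hcon2
      push Not at hcon2
      have h3 : r * d ≤ k * d := Nat.mul_le_mul_right d hcon2
      have h4 : r * d ≤ r + d - 1 := h3.trans hk2
      obtain ⟨r', rfl⟩ : ∃ r', r = r' + 2 := ⟨r - 2, by omega⟩
      obtain ⟨d', hd'⟩ : ∃ d', d = d' + 2 := ⟨d - 2, by omega⟩
      rw [hd'] at h4
      have h5 : (r' + 2) * (d' + 2) = r' * d' + 2 * r' + 2 * d' + 4 := by ring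
      omega
    have hXk : (fun j : ZMod p => io K j ^ k) ∈ Pol K p r := by
      rw [mem_Pol]
      refine ⟨X ^ k, ?_, fun j => by simp⟩
      rw [degree_X_pow]
      exact_mod_cast hkr
    have h3 := hφ _ hXk
    have h4 : (fun j => io K (φ j) ^ k) = ev K p (P ^ k) := by
      ext j
      rw [ev_apply, eval_pow, ← hPj j]
    have h5 : ev K p (P ^ k) ∈ Pol K p r := by
      rw [← h4]
      exact h3
    have hPk0 : P ^ k ≠ 0 := pow_ne_zero _ hP0
    have h6 := Pol_unique (by omega : r ≤ p) (P := P ^ k) (by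
      rw [← natDegree_lt_iff_degree_lt hPk0, natDegree_pow, ← hddef]
      omega) h5
    rw [← natDegree_lt_iff_degree_lt hPk0, natDegree_pow, ← hddef] at h6
    omega
  have hlin : ∀ j : ZMod p, io K (φ j) = P.coeff 1 * io K j + P.coeff 0 := by
    intro j
    rw [hPj j]
    conv_lhs => rw [eq_X_add_C_of_natDegree_le_one hd1]
    simp
  refine ⟨φ 1 - φ 0, φ 0, fun j => ?_⟩
  apply io_inj (K := K)
  have e0 := hlin 0
  have e1 := hlin 1
  rw [hlin j]
  simp only [io, map_add, map_mul, map_sub, map_zero, map_one, mul_zero, zero_add, mul_one] at e0 e1 ⊢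
  rw [e1, e0]
  ring

theorem sum_io_pow {m : ℕ} (hm : m < p - 1) : haveI : NeZero p := ⟨hp.out.ne_zero⟩; ∑ j : ZMod p, io K j ^ m = 0 := by
  haveI : NeZero p := ⟨hp.out.ne_zero⟩
  have h1 : ∑ j : ZMod p, j ^ m = 0 := by
    have := FiniteField.sum_pow_lt_card_sub_one (ZMod p) m (by rw [ZMod.card]; exact hm)
    exact this
  have h2 := congrArg (ZMod.castHom (dvd_refl p) K) h1
  rw [map_sum, map_zero] at h2
  simp only [map_pow] at h2
  exact h2

theorem sum_io_pow_last : haveI : NeZero p := ⟨hp.out.ne_zero⟩; ∑ j : ZMod p, io K j ^ (p - 1) ≠ 0 := by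
  classical
  haveI : NeZero p := ⟨hp.out.ne_zero⟩
  have hp1 : 1 < p := hp.out.one_lt
  have h1 : ∀ j : ZMod p, io K j ^ (p - 1) = if j = 0 then 0 else 1 := by
    intro j
    split_ifs with h
    · rw [h]
      simp only [io, map_zero]
      exact zero_pow (by omega)
    · rw [io, ← map_pow, ZMod.pow_card_sub_one_eq_one h, map_one]
  rw [Finset.sum_congr rfl (fun j _ => h1 j)]
  have h2 : ∑ j : ZMod p, (if j = 0 then (0 : K) else 1) = ∑ j : ZMod p, ((1 : K) - if j = 0 then 1 else 0) := by
    apply Finset.sum_congr rfl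
    intro j _
    split_ifs <;> simp
  rw [h2, Finset.sum_sub_distrib]
  simp

theorem sum_ev {P : K[X]} (hP : P.degree < (p - 1 : ℕ)) : haveI : NeZero p := ⟨hp.out.ne_zero⟩; ∑ j : ZMod p, P.eval (io K j) = 0 := by
  haveI : NeZero p := ⟨hp.out.ne_zero⟩
  by_cases hP0 : P = 0
  · simp [hP0]
  have hd : P.natDegree < p - 1 := (natDegree_lt_iff_degree_lt hP0).mpr hP
  simp only [eval_eq_sum_range]
  rw [Finset.sum_comm]
  apply Finset.sum_eq_zero
  intro i hi
  rw [Finset.mem_range] at hi
  have h0 := sum_io_pow (K := K) (p := p) (m := i) (by omega)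
  rw [← Finset.mul_sum]
  rw [h0, mul_zero]

/-- orthogonal complement -/
noncomputable def orth (W : Submodule K (ZMod p → K)) : Submodule K (ZMod p → K) where
  carrier := {h | ∀ f ∈ W, haveI : NeZero p := ⟨hp.out.ne_zero⟩; ∑ j : ZMod p, h j * f j = 0}
  add_mem' := by
    intro a b ha hb f hf
    have h1 := ha f hf
    have h2 := hb f hf
    simp only [Pi.add_apply, add_mul, Finset.sum_add_distrib] at h1 h2 ⊢
    rw [h1, h2, add_zero]
  zero_mem' := by
    intro f hf
    simp
  smul_mem' := by
    intro c a ha f hf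
    have h1 := ha f hf
    simp only [Pi.smul_apply, smul_eq_mul, mul_assoc, ← Finset.mul_sum] at h1 ⊢
    rw [h1, mul_zero]

theorem mem_orth {W : Submodule K (ZMod p → K)} {h : ZMod p → K} : h ∈ orth W ↔ ∀ f ∈ W, haveI : NeZero p := ⟨hp.out.ne_zero⟩; ∑ j : ZMod p, h j * f j = 0 := Iff.rfl

theorem orth_inv {W : Submodule K (ZMod p → K)} {φ : Equiv.Perm (ZMod p)} (hW : ∀ f ∈ W, (fun j => f (φ.symm j)) ∈ W) : ∀ f ∈ orth W, (fun j => f (φ j)) ∈ orth W := by
  haveI : NeZero p := ⟨hp.out.ne_zero⟩
  intro h hh f hf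
  have h1 := hh _ (hW f hf)
  rw [← h1]
  apply Fintype.sum_equiv φ
  intro j
  simp

theorem affine_of_subrep (Φ : Subgroup (Equiv.Perm (ZMod p))) (hT : Equiv.addRight (1 : ZMod p) ∈ Φ) (W : Submodule K (ZMod p → K))
    (hW : ∀ φ ∈ Φ, ∀ f ∈ W, (fun j => f (φ j)) ∈ W) (h2 : 2 ≤ Module.finrank K W) (h3 : Module.finrank K W + 2 ≤ p) :
    ∀ φ ∈ Φ, ∃ a b : ZMod p, ∀ j, φ j = a * j + b := by
  haveI : NeZero p := ⟨hp.out.ne_zero⟩
  have hTi : (Equiv.addRight (1 : ZMod p))⁻¹ ∈ Φ := inv_mem hT
  have hTj : ∀ j : ZMod p, (Equiv.addRight (1 : ZMod p))⁻¹ j = j - 1 := by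
    intro j
    rw [Equiv.Perm.inv_def, Equiv.symm_apply_eq]
    simp
  have hWt : ∀ f ∈ W, (fun j => f (j - 1)) ∈ W := by
    intro f hf
    have := hW _ hTi f hf
    simp only [hTj] at this
    exact this
  obtain ⟨h4, h5⟩ := main673 W hWt
  set r := Module.finrank K W with hr
  rcases Nat.lt_or_ge (2 * r) p with h6 | h6
  · intro φ hφ
    apply affine_of_inv (K := K) h2 h6 φ
    intro f hf
    rw [← h4] at hf ⊢
    exact hW φ hφ f hf
  · -- pass to the orthogonal complement
    have hpodd : 2 * r ≠ p := by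
      intro h
      have h7 : 2 ∣ p := ⟨r, h.symm⟩
      rcases (Nat.dvd_prime hp.out).mp h7 with h8 | h8
      · omega
      · omega
    have hoI : ∀ φ ∈ Φ, ∀ f ∈ orth W, (fun j => f (φ j)) ∈ orth W := by
      intro φ hφ
      apply orth_inv
      intro f hf
      exact hW φ⁻¹ (inv_mem hφ) f hf
    have hot : ∀ f ∈ orth W, (fun j => f (j - 1)) ∈ orth W := by
      intro f hf
      have := hoI _ hTi f hf
      simp only [hTj] at this
      exact this
    obtain ⟨h7, h8⟩ := main673 (orth W) hot
    set r' := Module.finrank K (orth W) with hr'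
    have hlin : (fun j : ZMod p => io K j) ∈ orth W := by
      intro f hf
      rw [h4, mem_Pol] at hf
      obtain ⟨P, hP, hPj⟩ := hf
      have h9 : ∀ j : ZMod p, io K j * f j = (X * P).eval (io K j) := by
        intro j
        rw [eval_mul, eval_X, hPj]
      rw [Finset.sum_congr rfl (fun j _ => h9 j)]
      apply sum_ev
      by_cases hP0 : P = 0
      · rw [hP0, mul_zero, degree_zero]
        exact WithBot.bot_lt_coe _
      have h10 : (X * P).natDegree < p - 1 := by
        have h11 : P.natDegree < r := (natDegree_lt_iff_degree_lt hP0).mpr hP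
        have h12 := natDegree_mul_le (p := (X : K[X])) (q := P)
        rw [natDegree_X] at h12
        omega
      exact (natDegree_lt_iff_degree_lt (mul_ne_zero X_ne_zero hP0)).mp h10
    have h2' : 2 ≤ r' := by
      rw [h7] at hlin
      have h9 : ev K p X ∈ Pol K p r' := by
        have : ev K p X = fun j : ZMod p => io K j := by
          ext j
          rw [ev_apply, eval_X]
        rw [this]
        exact hlin
      have h10 := Pol_unique h8 (P := X) (by
        rw [degree_X]
        exact_mod_cast hp.out.one_lt) h9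
      rw [degree_X] at h10
      exact_mod_cast h10
    have hsum : r + r' ≤ p := by
      by_contra hcon
      push Not at hcon
      have h9 : (fun j : ZMod p => io K j ^ (p - r)) ∈ orth W := by
        rw [h7, mem_Pol]
        refine ⟨X ^ (p - r), ?_, fun j => by simp⟩
        rw [degree_X_pow]
        exact_mod_cast (by omega : p - r < r')
      have h10 : (fun j : ZMod p => io K j ^ (r - 1)) ∈ W := by
        rw [h4, mem_Pol]
        refine ⟨X ^ (r - 1), ?_, fun j => by simp⟩
        rw [degree_X_pow]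
        exact_mod_cast (by omega : r - 1 < r)
      have h11 := h9 _ h10
      apply sum_io_pow_last (K := K) (p := p)
      rw [← h11]
      apply Finset.sum_congr rfl
      intro j _
      rw [← pow_add]
      congr 1
      omega
    intro φ hφ
    apply affine_of_inv (K := K) h2' (by omega) φ
    intro f hf
    rw [← h7] at hf ⊢
    exact hoI φ hφ f hf

theorem solvable_of_affine (Φ : Subgroup (Equiv.Perm (ZMod p))) (h : ∀ φ ∈ Φ, ∃ a b : ZMod p, ∀ j, φ j = a * j + b) : Group.IsSolvable Φ := by
  choose! a b hab using h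
  have ha : ∀ φ ∈ Φ, a φ = φ 1 - φ 0 := by
    intro φ hφ
    rw [hab φ hφ 1, hab φ hφ 0]
    ring
  let f₀ : Φ →* ZMod p :=
    { toFun := fun φ => (φ : Equiv.Perm (ZMod p)) 1 - (φ : Equiv.Perm (ZMod p)) 0
      map_one' := by simp
      map_mul' := by
        intro φ ψ
        change (φ : Equiv.Perm (ZMod p)) ((ψ : Equiv.Perm (ZMod p)) 1) - (φ : Equiv.Perm (ZMod p)) ((ψ : Equiv.Perm (ZMod p)) 0) = _
        rw [hab φ φ.2 ((ψ : Equiv.Perm (ZMod p)) 1), hab φ φ.2 ((ψ : Equiv.Perm (ZMod p)) 0), ← ha φ φ.2]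
        ring }
  let f : Φ →* (ZMod p)ˣ := f₀.toHomUnits
  have hker : ∀ x ∈ f.ker, ∀ y ∈ f.ker, x * y = y * x := by
    intro x hx y hy
    have hx1 : (x : Equiv.Perm (ZMod p)) 1 - (x : Equiv.Perm (ZMod p)) 0 = 1 := congrArg Units.val hx
    have hy1 : (y : Equiv.Perm (ZMod p)) 1 - (y : Equiv.Perm (ZMod p)) 0 = 1 := congrArg Units.val hy
    rw [← ha x x.2] at hx1
    rw [← ha y y.2] at hy1
    apply Subtype.ext
    ext j
    change (x : Equiv.Perm (ZMod p)) ((y : Equiv.Perm (ZMod p)) j) = (y : Equiv.Perm (ZMod p)) ((x : Equiv.Perm (ZMod p)) j)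
    rw [hab y y.2 j, hab x x.2 j, hab x x.2, hab y y.2, hx1, hy1]
    ring
  haveI hk : Group.IsSolvable f.ker := by
    haveI : IsMulCommutative f.ker := ⟨⟨fun x y => Subtype.ext (hker x x.2 y y.2)⟩⟩
    exact Group.isSolvable_of_comm (fun x y => Subtype.ext (hker x x.2 y y.2))
  haveI hr : Group.IsSolvable (ZMod p)ˣ := Group.isSolvable_of_comm (fun x y => mul_comm x y)
  exact Group.isSolvable_of_ker_le_range f.ker.subtype f (by rw [Subgroup.range_subtype])

end ZM

end Cfsg.Agent.Lib.H3PermMod
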