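import Mathlib
import Cfsg.Prelude.Def_Perm
import Cfsg.Agent.Lib.Basic
import Cfsg.Agent.Lib.PermTwo
import Cfsg.Agent.Lib.H3PermMod
import Cfsg.Agent.Lib.ClassSizes

/-!
Permutation modules and 2-transitivity (helper3).
-/

set_option autoImplicit false
set_option maxHeartbeats 400000
set_option linter.unusedVariables false
set_option linter.unusedSectionVars false
set_option linter.unusedFintypeInType false

namespace Cfsg.Agent.Lib.H3PermModB

open Subgroup MulAction Cfsg.Agent.Lib.PermTwo Cfsg.Agent.Lib.H3PermMod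

theorem const_le {G : Type*} [Group G] [Finite G] {K : Type*} [Field K] {p f : ℕ} [Fact p.Prime] [CharP K p] {Ω : Type*} [Fintype Ω] [MulAction G Ω] [MulAction.IsPretransitive G Ω] (hcard : Fintype.card Ω = p ^ f) (W : Subrepresentation (Cfsg.permRep K G Ω)) (hW : W.toSubmodule ≠ ⊥) : (Cfsg.permConstants K G Ω).toSubmodule ≤ W.toSubmodule := by
  obtain ⟨P⟩ := (inferInstance : Nonempty (Sylow p G))
  have hΩ : Nat.card Ω = p ^ f := by rw [Nat.card_eq_fintype_card, hcard]
  haveI := sylow_transitive hΩ P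
  have h1 := exists_fixed (P := (P : Subgroup G)) P.2 ((Cfsg.permRep K G Ω).comp (P : Subgroup G).subtype) W.toSubmodule
    (fun g v hv => W.apply_mem_toSubmodule g.1 hv) hW
  obtain ⟨v, hv, hv0, hfix⟩ := h1
  have hconst : ∀ x y : Ω, v x = v y := by
    intro x y
    obtain ⟨g, hg⟩ := MulAction.exists_smul_eq (P : Subgroup G) x y
    have h2 : v ((g : G)⁻¹ • y) = v y := congrFun (hfix g) y
    rw [← h2, ← hg]
    congr 1
    exact (inv_smul_smul (g : G) x).symm
  obtain ⟨x, hx⟩ : ∃ x, v x ≠ 0 := by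
    by_contra hcon
    push Not at hcon
    exact hv0 (funext hcon)
  change Submodule.span K {fun _ => 1} ≤ _
  rw [Submodule.span_singleton_le_iff_mem]
  have h3 : (fun _ => (1 : K)) = (v x)⁻¹ • v := by
    funext y
    rw [Pi.smul_apply, smul_eq_mul, hconst y x, inv_mul_cancel₀ hx]
  rw [h3]
  exact W.toSubmodule.smul_mem _ hv

section Gen
variable {G : Type*} [Group G] {K : Type*} [Field K] {Ω : Type*} [Fintype Ω] [MulAction G Ω]

theorem rho_apply (g : G) (f : Ω → K) (x : Ω) : Cfsg.permRep K G Ω g f x = f (g⁻¹ • x) := rfl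

theorem mem_const {v : Ω → K} : v ∈ (Cfsg.permConstants K G Ω).toSubmodule ↔ ∃ c : K, v = fun _ => c := by
  change v ∈ Submodule.span K {fun _ => 1} ↔ _
  rw [Submodule.mem_span_singleton]
  constructor
  · rintro ⟨c, rfl⟩
    exact ⟨c, by ext x; simp⟩
  · rintro ⟨c, rfl⟩
    exact ⟨c, by ext x; simp⟩

theorem mem_sumZero {v : Ω → K} : v ∈ (Cfsg.permSumZero K G Ω).toSubmodule ↔ ∑ x, v x = 0 := Iff.rfl

/-- the linear map of a matrix -/
def mat (M : Ω → Ω → K) : (Ω → K) →ₗ[K] (Ω → K) where
  toFun v x := ∑ y, M x y * v y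
  map_add' := by
    intro u v
    ext x
    simp [mul_add, Finset.sum_add_distrib]
  map_smul' := by
    intro c v
    ext x
    simp only [Pi.smul_apply, smul_eq_mul, RingHom.id_apply, Finset.mul_sum]
    apply Finset.sum_congr rfl
    intro y _
    ring

theorem mat_equiv {M : Ω → Ω → K} (hM : ∀ (g : G) x y, M (g • x) (g • y) = M x y) (g : G) (v : Ω → K) : mat M (Cfsg.permRep K G Ω g v) = Cfsg.permRep K G Ω g (mat M v) := by
  ext x
  rw [rho_apply]
  change ∑ y, M x y * v (g⁻¹ • y) = ∑ y, M (g⁻¹ • x) y * v y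
  symm
  apply Fintype.sum_equiv (MulAction.toPerm g)
  intro y
  rw [MulAction.toPerm_apply, inv_smul_smul]
  congr 1
  rw [← hM g, smul_inv_smul]

/-- images of subrepresentations -/
def mapSub {M : Ω → Ω → K} (hM : ∀ (g : G) x y, M (g • x) (g • y) = M x y) (W : Subrepresentation (Cfsg.permRep K G Ω)) : Subrepresentation (Cfsg.permRep K G Ω) where
  toSubmodule := W.toSubmodule.map (mat M)
  apply_mem_toSubmodule := by
    rintro g _ ⟨v, hv, rfl⟩
    rw [← mat_equiv hM]
    exact ⟨_, W.apply_mem_toSubmodule g hv, rfl⟩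

end Gen

theorem s0671 {G : Type*} [Group G] [Finite G] {K : Type*} [Field K] {p f : ℕ} [Fact p.Prime] [CharP K p] {Ω : Type*} [Fintype Ω] [MulAction G Ω] [MulAction.IsPretransitive G Ω] (hf : 1 ≤ f) (hcard : Fintype.card Ω = p ^ f) (h : ∀ W W' : Subrepresentation (Cfsg.permRep K G Ω), (Cfsg.permConstants K G Ω).toSubmodule ≤ W.toSubmodule → W.toSubmodule < W'.toSubmodule → W'.toSubmodule ≤ (Cfsg.permSumZero K G Ω).toSubmodule → ∃ g : G, ∃ v ∈ W'.toSubmodule, Cfsg.permRep K G Ω g v - v ∉ W.toSubmodule) : MulAction.IsMultiplyPretransitive G Ω 2 := by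
  classical
  rw [is_two_pretransitive_iff]
  intro a b c d hab hcd
  by_contra hcon
  push Not at hcon
  let A : Ω → Ω → ℕ := fun x y => if ∃ g : G, g • a = x ∧ g • b = y then 1 else 0
  have hA : ∀ (g : G) x y, A (g • x) (g • y) = A x y := by
    intro g x y
    simp only [A]
    congr 1
    apply propext
    constructor
    · rintro ⟨k, hk1, hk2⟩
      exact ⟨g⁻¹ * k, by rw [mul_smul, hk1, inv_smul_smul], by rw [mul_smul, hk2, inv_smul_smul]⟩
    · rintro ⟨k, hk1, hk2⟩
      exact ⟨g * k, by rw [mul_smul, hk1], by rw [mul_smul, hk2]⟩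
  have hAab : A a b = 1 := if_pos ⟨1, one_smul _ _, one_smul _ _⟩
  have hAdiag : ∀ x, A x x = 0 := by
    intro x
    apply if_neg
    rintro ⟨g, h1, h2⟩
    exact hab (MulAction.injective g (h1.trans h2.symm))
  have hAcd : A c d = 0 := by
    apply if_neg
    rintro ⟨g, h1, h2⟩
    exact hcon g h1 h2
  set k := ∑ y, A a y with hk
  have hrow : ∀ x, ∑ y, A x y = k := by
    intro x
    obtain ⟨g, rfl⟩ := MulAction.exists_smul_eq G a x
    rw [hk]
    symm
    apply Fintype.sum_equiv (MulAction.toPerm g)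
    intro y
    rw [MulAction.toPerm_apply, hA]
  have hcol0 : ∀ y, ∑ x, A x y = ∑ x, A x a := by
    intro y
    obtain ⟨g, rfl⟩ := MulAction.exists_smul_eq G a y
    symm
    apply Fintype.sum_equiv (MulAction.toPerm g)
    intro x
    rw [MulAction.toPerm_apply, hA]
  have hcol : ∀ y, ∑ x, A x y = k := by
    intro y
    rw [hcol0 y]
    have h1 : ∑ x, ∑ y, A x y = ∑ y, ∑ x, A x y := Finset.sum_comm
    rw [Finset.sum_congr rfl (fun x _ => hrow x), Finset.sum_congr rfl (fun y _ => hcol0 y)] at h1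
    simp only [Finset.sum_const, Finset.card_univ, smul_eq_mul] at h1
    have h2 : 0 < Fintype.card Ω := Fintype.card_pos_iff.mpr ⟨a⟩
    exact (Nat.eq_of_mul_eq_mul_left h2 h1).symm
  let B : Ω → Ω → K := fun x y => (A x y : K) - if x = y then (k : K) else 0
  have hB : ∀ (g : G) x y, B (g • x) (g • y) = B x y := by
    intro g x y
    simp only [B]
    rw [hA]
    congr 1
    by_cases hxy : x = y
    · rw [if_pos hxy, if_pos (by rw [hxy])]
    · rw [if_neg hxy, if_neg (fun h' => hxy (MulAction.injective g h'))]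
  have hBrow : ∀ x, ∑ y, B x y = 0 := by
    intro x
    simp only [B]
    rw [Finset.sum_sub_distrib, ← Nat.cast_sum, hrow]
    simp
  have hBcol : ∀ y, ∑ x, B x y = 0 := by
    intro y
    simp only [B]
    rw [Finset.sum_sub_distrib, ← Nat.cast_sum, hcol]
    simp
  have hBab : B a b = 1 := by
    simp only [B]
    rw [hAab, if_neg hab]
    simp
  let topR : Subrepresentation (Cfsg.permRep K G Ω) := ⟨⊤, fun _ _ _ => Submodule.mem_top⟩
  let W' := mapSub hB topR
  let W := mapSub hB (Cfsg.permSumZero K G Ω)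
  have hW'0 : W'.toSubmodule ≤ (Cfsg.permSumZero K G Ω).toSubmodule := by
    rintro _ ⟨v, hv, rfl⟩
    rw [mem_sumZero]
    change ∑ x, ∑ y, B x y * v y = 0
    rw [Finset.sum_comm]
    apply Finset.sum_eq_zero
    intro y _
    rw [← Finset.sum_mul, hBcol, zero_mul]
  have hWW' : W.toSubmodule ≤ W'.toSubmodule := by
    rintro _ ⟨v, hv, rfl⟩
    exact ⟨v, Submodule.mem_top, rfl⟩
  have hne : W.toSubmodule ≠ W'.toSubmodule := by
    intro heq
    -- a vector with B v = 0 and nonzero sum
    obtain ⟨v, hv1, hv2⟩ : ∃ v : Ω → K, mat B v = 0 ∧ ∑ x, v x ≠ 0 := by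
      have h1 : mat B (Pi.single a 1) ∈ W.toSubmodule := by
        rw [heq]
        exact ⟨_, Submodule.mem_top, rfl⟩
      obtain ⟨w, hw, hwa⟩ := h1
      refine ⟨Pi.single a 1 - w, by rw [map_sub, hwa, sub_self], ?_⟩
      have hw0 : ∑ x, w x = 0 := hw
      simp only [Pi.sub_apply, Finset.sum_sub_distrib, hw0, sub_zero]
      rw [Finset.sum_pi_single']
      simp
    let Bt : Ω → Ω → K := fun x y => B y x
    have hBt : ∀ (g : G) x y, Bt (g • x) (g • y) = Bt x y := fun g x y => hB g y x
    have h1 : (mapSub hBt topR).toSubmodule ≠ ⊥ := by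
      intro h0
      have h2 : mat Bt (Pi.single a 1) ∈ (mapSub hBt topR).toSubmodule := ⟨_, Submodule.mem_top, rfl⟩
      rw [h0, Submodule.mem_bot] at h2
      have h3 := congrFun h2 b
      change ∑ y, Bt b y * (Pi.single a (1 : K) : Ω → K) y = 0 at h3
      rw [Finset.sum_eq_single a (fun y _ hy => by rw [Pi.single_eq_of_ne hy, mul_zero]) (fun h' => absurd (Finset.mem_univ a) h')] at h3
      rw [Pi.single_eq_same, mul_one] at h3
      exact one_ne_zero (hBab.symm.trans h3)
    have h2 := const_le hcard (mapSub hBt topR) h1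
    have h3 : (fun _ => (1 : K)) ∈ (mapSub hBt topR).toSubmodule := h2 (mem_const.mpr ⟨1, rfl⟩)
    obtain ⟨u, hu, hu1⟩ := h3
    apply hv2
    have h4 : ∀ x, v x = ∑ y, Bt x y * u y * v x := by
      intro x
      have h5 := congrFun hu1 x
      change ∑ y, Bt x y * u y = 1 at h5
      rw [← Finset.sum_mul, h5, one_mul]
    rw [Finset.sum_congr rfl (fun x _ => h4 x), Finset.sum_comm]
    apply Finset.sum_eq_zero
    intro y _
    have h5 := congrFun hv1 y
    change ∑ x, B y x * v x = 0 at h5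
    have h6 : ∀ x, Bt x y * u y * v x = u y * (B y x * v x) := by
      intro x
      simp only [Bt]
      ring
    rw [Finset.sum_congr rfl (fun x _ => h6 x), ← Finset.mul_sum, h5, mul_zero]
  have hWbot : W.toSubmodule = ⊥ := by
    by_contra hWb
    obtain ⟨g, v, ⟨u, hu, rfl⟩, hgv⟩ := h W W' (const_le hcard W hWb) (lt_of_le_of_ne hWW' hne) hW'0
    apply hgv
    refine ⟨Cfsg.permRep K G Ω g u - u, ?_, ?_⟩
    · change ∑ x, (Cfsg.permRep K G Ω g u - u) x = 0
      simp only [Pi.sub_apply, Finset.sum_sub_distrib, rho_apply]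
      rw [sub_eq_zero]
      apply Fintype.sum_equiv (MulAction.toPerm g⁻¹)
      intro x
      rfl
    · rw [map_sub, mat_equiv hB]
  -- columns agree
  have hcols : ∀ x y z : Ω, B z x = B z y := by
    intro x y z
    have h1 : mat B (Pi.single x 1 - Pi.single y 1) ∈ W.toSubmodule := by
      refine ⟨_, ?_, rfl⟩
      change ∑ t, (Pi.single x (1 : K) - Pi.single y (1 : K) : Ω → K) t = 0
      simp only [Pi.sub_apply, Finset.sum_sub_distrib]
      rw [Finset.sum_pi_single', Finset.sum_pi_single']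
      simp
    rw [hWbot, Submodule.mem_bot] at h1
    have h2 := congrFun h1 z
    change ∑ t, B z t * (Pi.single x (1 : K) - Pi.single y (1 : K) : Ω → K) t = 0 at h2
    simp only [Pi.sub_apply, mul_sub, Finset.sum_sub_distrib] at h2
    rw [Finset.sum_eq_single x (fun t _ ht => by rw [Pi.single_eq_of_ne ht, mul_zero]) (fun h' => absurd (Finset.mem_univ x) h'),
      Finset.sum_eq_single y (fun t _ ht => by rw [Pi.single_eq_of_ne ht, mul_zero]) (fun h' => absurd (Finset.mem_univ y) h')] at h2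
    rw [Pi.single_eq_same, Pi.single_eq_same, mul_one, mul_one] at h2
    exact sub_eq_zero.mp h2
  have h1 : (A c c : K) - (if c = c then (k : K) else 0) = (A c d : K) - (if c = d then (k : K) else 0) := hcols c d c
  have h2 : (A a a : K) - (if a = a then (k : K) else 0) = (A a b : K) - (if a = b then (k : K) else 0) := hcols a b a
  rw [hAdiag, hAcd, if_pos rfl, if_neg hcd] at h1
  rw [hAdiag, hAab, if_pos rfl, if_neg hab] at h2
  rw [h1] at h2
  simp at h2

theorem exists_ident {α : Type*} [Fintype α] [DecidableEq α] {p : ℕ} [hp : Fact p.Prime] (hα : Fintype.card α = p) (G : Subgroup (Equiv.Perm α)) [MulAction.IsPretransitive G α] :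
    ∃ e : ZMod p ≃ α, ∃ g ∈ G, (∀ j, g (e j) = e (j + 1)) ∧ orderOf g = p := by
  haveI : NeZero p := ⟨hp.out.ne_zero⟩
  have hα' : Nat.card α = p := by rw [Nat.card_eq_fintype_card, hα]
  haveI : Nonempty α := Fintype.card_pos_iff.mp (by rw [hα]; exact hp.out.pos)
  obtain ⟨a⟩ : Nonempty α := inferInstance
  have hdvd : p ∣ Nat.card G := by
    have h1 := card_orbit_mul_card_stabilizer (K := G) a
    rw [orbit_eq_univ, Nat.card_coe_set_eq, Set.ncard_univ, hα'] at h1
    exact ⟨_, h1.symm⟩
  obtain ⟨g, hg⟩ := exists_prime_orderOf_dvd_card' p hdvd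
  have hP : IsPGroup p (Subgroup.zpowers g) := IsPGroup.of_card (n := 1) (by rw [Nat.card_zpowers, hg, pow_one])
  haveI hnt : Nontrivial (Subgroup.zpowers g) := by
    rw [← Finite.one_lt_card_iff_nontrivial, Nat.card_zpowers, hg]
    exact hp.out.one_lt
  haveI hfaith : FaithfulSMul (Subgroup.zpowers g) α := by
    refine ⟨fun {x y} h => ?_⟩
    apply Subtype.ext
    apply Subtype.ext
    ext b
    exact h b
  obtain ⟨htr, hst, hc⟩ := pgroup_prime_degree (K := Subgroup.zpowers g) (α := α) hα' hP hnt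
  have hinj : Function.Injective (fun j : ZMod p => (g ^ j.val) • a) := by
    intro i j hij
    simp only at hij
    have h1 : (⟨(g ^ j.val)⁻¹ * g ^ i.val, mul_mem (inv_mem (pow_mem (mem_zpowers g) _)) (pow_mem (mem_zpowers g) _)⟩ : Subgroup.zpowers g) ∈ stabilizer (Subgroup.zpowers g) a := by
      rw [mem_stabilizer_iff]
      change ((g ^ j.val)⁻¹ * g ^ i.val) • a = a
      rw [mul_smul, hij, inv_smul_smul]
    rw [hst a, mem_bot] at h1
    have h2 : (g ^ j.val)⁻¹ * g ^ i.val = 1 := congrArg Subtype.val h1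
    rw [inv_mul_eq_one] at h2
    have h3 := pow_injOn_Iio_orderOf (x := g) (by rw [Set.mem_Iio, hg]; exact ZMod.val_lt j) (by rw [Set.mem_Iio, hg]; exact ZMod.val_lt i) h2
    exact (ZMod.val_injective p h3).symm
  have hbij : Function.Bijective (fun j : ZMod p => (g ^ j.val) • a) := by
    rw [Fintype.bijective_iff_injective_and_card]
    exact ⟨hinj, by rw [ZMod.card, hα]⟩
  refine ⟨Equiv.ofBijective _ hbij, g, g.2, ?_, by rw [Subgroup.orderOf_coe, hg]⟩
  intro j
  change g • ((g ^ j.val) • a) = (g ^ (j + 1).val) • a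
  have hmod : ∀ n : ℕ, g ^ (n % p) = g ^ n := by
    intro n
    have := pow_mod_orderOf g n
    rwa [hg] at this
  rw [← mul_smul, ← pow_succ']
  congr 1
  rw [ZMod.val_add, hmod, ZMod.val_one_eq_one_mod, pow_add g j.val (1 % p), hmod 1, ← pow_add]

theorem conj_group {α : Type*} {p : ℕ} (e : ZMod p ≃ α) (G : Subgroup (Equiv.Perm α)) :
    ∃ Φ : Subgroup (Equiv.Perm (ZMod p)), (∀ φ : Equiv.Perm (ZMod p), φ ∈ Φ ↔ (e.symm.trans (φ.trans e)) ∈ G) ∧ Nonempty (G ≃* Φ) := by
  refine ⟨G.map (Equiv.permCongrHom e.symm).toMonoidHom, ?_, ⟨?_⟩⟩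
  · intro φ
    constructor
    · rintro ⟨g, hg, rfl⟩
      have : e.symm.trans ((Equiv.permCongrHom e.symm g).trans e) = g := by
        ext x
        simp [Equiv.permCongrHom]
      change e.symm.trans ((Equiv.permCongrHom e.symm g).trans e) ∈ G
      rw [this]
      exact hg
    · intro h
      refine ⟨_, h, ?_⟩
      ext x
      simp [Equiv.permCongrHom]
  · exact G.equivMapOfInjective _ (Equiv.permCongrHom e.symm).injective

theorem affine_all {α : Type*} [Fintype α] [DecidableEq α] {p : ℕ} [hp : Fact p.Prime] (hα : Fintype.card α = p) (G : Subgroup (Equiv.Perm α)) [MulAction.IsPretransitive G α]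
    (hG : ¬ Group.IsSolvable G) {K : Type*} [Field K] [CharP K p] (W : Subrepresentation (Cfsg.permRep K G α)) (h2 : 2 ≤ Module.finrank K W.toSubmodule) (h3 : Module.finrank K W.toSubmodule + 2 ≤ p) : False := by
  obtain ⟨e, g, hg, hge, _⟩ := exists_ident hα G
  obtain ⟨Φ, hΦ, ⟨hiso⟩⟩ := conj_group e G
  have hT : Equiv.addRight (1 : ZMod p) ∈ Φ := by
    rw [hΦ]
    have : e.symm.trans ((Equiv.addRight (1 : ZMod p)).trans e) = g := by
      ext x
      have := hge (e.symm x)
      rw [Equiv.apply_symm_apply] at this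
      rw [this]
      simp
    rw [this]
    exact hg
  let W' : Submodule K (ZMod p → K) := W.toSubmodule.comap (LinearMap.funLeft K K e.symm)
  have hW' : ∀ f : ZMod p → K, f ∈ W' ↔ (fun x => f (e.symm x)) ∈ W.toSubmodule := fun f => Iff.rfl
  have hfr : Module.finrank K W' = Module.finrank K W.toSubmodule := by
    have h4 : W' = W.toSubmodule.comap ((LinearEquiv.funCongrLeft K K e.symm : (ZMod p → K) ≃ₗ[K] (α → K)) : (ZMod p → K) →ₗ[K] (α → K)) := rfl
    rw [h4, Submodule.comap_equiv_eq_map_symm, LinearEquiv.finrank_map_eq]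
  have hinv : ∀ φ ∈ Φ, ∀ f ∈ W', (fun j => f (φ j)) ∈ W' := by
    intro φ hφ f hf
    rw [hW'] at hf ⊢
    have h4 := (hΦ φ).mp hφ
    have h5 := W.apply_mem_toSubmodule (⟨_, h4⟩ : G)⁻¹ hf
    have h6 : (fun x => f (φ (e.symm x))) = Cfsg.permRep K G α (⟨_, h4⟩ : G)⁻¹ (fun x => f (e.symm x)) := by
      ext x
      rw [rho_apply, inv_inv]
      change _ = f (e.symm ((e.symm.trans (φ.trans e)) x))
      simp
    rw [h6]
    exact h5
  have h4 := affine_of_subrep Φ hT W' hinv (by rw [hfr]; exact h2) (by rw [hfr]; exact h3)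
  have h5 := solvable_of_affine Φ h4
  apply hG
  exact Group.isSolvable_of_isSolvable_injective (f := hiso.toMonoidHom) hiso.injective

theorem s0674 {α : Type*} [Fintype α] [DecidableEq α] {p : ℕ} [Fact p.Prime] (hα : Fintype.card α = p) (G : Subgroup (Equiv.Perm α)) [MulAction.IsPretransitive G α] (hG : ¬ Group.IsSolvable G) {K : Type*} [Field K] [CharP K p] (W : Subrepresentation (Cfsg.permRep K G α)) (h₁ : (Cfsg.permConstants K G α).toSubmodule ≤ W.toSubmodule) (h₂ : W.toSubmodule ≤ (Cfsg.permSumZero K G α).toSubmodule) : W = Cfsg.permConstants K G α ∨ W = Cfsg.permSumZero K G α := by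
  by_contra hcon
  push Not at hcon
  obtain ⟨hc1, hc2⟩ := hcon
  haveI : Nonempty α := Fintype.card_pos_iff.mp (by rw [hα]; exact (Fact.out : p.Prime).pos)
  obtain ⟨a⟩ : Nonempty α := inferInstance
  have hlt1 : (Cfsg.permConstants K G α).toSubmodule < W.toSubmodule := lt_of_le_of_ne h₁ (fun h => hc1 (Subrepresentation.toSubmodule_injective h.symm))
  have hlt2 : W.toSubmodule < (Cfsg.permSumZero K G α).toSubmodule := lt_of_le_of_ne h₂ (fun h => hc2 (Subrepresentation.toSubmodule_injective h))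
  have hlt0 : (⊥ : Submodule K (α → K)) < (Cfsg.permConstants K G α).toSubmodule := by
    rw [bot_lt_iff_ne_bot]
    intro h
    have : (fun _ => (1 : K)) ∈ (Cfsg.permConstants K G α).toSubmodule := mem_const.mpr ⟨1, rfl⟩
    rw [h, Submodule.mem_bot] at this
    exact one_ne_zero (congrFun this a)
  have hlt3 : (Cfsg.permSumZero K G α).toSubmodule < ⊤ := by
    rw [lt_top_iff_ne_top]
    intro h
    have : (Pi.single a (1 : K) : α → K) ∈ (Cfsg.permSumZero K G α).toSubmodule := by
      rw [h]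
      exact Submodule.mem_top
    rw [mem_sumZero, Finset.sum_pi_single'] at this
    simp at this
  have f0 := Submodule.finrank_lt_finrank_of_lt hlt0
  have f1 := Submodule.finrank_lt_finrank_of_lt hlt1
  have f2 := Submodule.finrank_lt_finrank_of_lt hlt2
  have f3 := Submodule.finrank_lt_finrank_of_lt hlt3
  rw [finrank_top, Module.finrank_fintype_fun_eq_card, hα] at f3
  exact affine_all hα G hG W (by omega) (by omega)

end Cfsg.Agent.Lib.H3PermModB
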