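import Mathlib
import Cfsg.Prelude.Def_Perm
import Cfsg.Agent.Lib.Basic
import Cfsg.Agent.Lib.PermTwo
import Cfsg.Agent.Lib.H3PermMod
import Cfsg.Agent.Lib.H3PermModB
import Cfsg.Agent.Lib.CharBurnside

/-!
Permutation modules: applications (helper3).
-/

set_option autoImplicit false
set_option maxHeartbeats 400000
set_option linter.unusedVariables false
set_option linter.unusedSectionVars false
set_option linter.unusedFintypeInType false

namespace Cfsg.Agent.Lib.H3PermModC

open Subgroup MulAction Cfsg.Agent.Lib.PermTwo Cfsg.Agent.Lib.H3PermMod Cfsg.Agent.Lib.H3PermModB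

theorem solvable_small {α : Type*} [Fintype α] [DecidableEq α] (h : Fintype.card α ≤ 3) (G : Subgroup (Equiv.Perm α)) : Group.IsSolvable G := by
  have h1 : Nat.card G ∣ 6 := by
    have h2 := Subgroup.card_subgroup_dvd_card G
    rw [Nat.card_perm, Nat.card_eq_fintype_card (α := α)] at h2
    have h3 : Nat.factorial 3 = 6 := rfl
    rw [← h3]
    exact h2.trans (Nat.factorial_dvd_factorial h)
  obtain ⟨a, b, hab⟩ : ∃ a b : ℕ, Nat.card G = 2 ^ a * 3 ^ b := by
    have h3 : Nat.card G ∈ Nat.divisors 6 := Nat.mem_divisors.mpr ⟨h1, by norm_num⟩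
    have h4 : Nat.divisors 6 = {1, 2, 3, 6} := by decide
    rw [h4] at h3
    simp only [Finset.mem_insert, Finset.mem_singleton] at h3
    rcases h3 with h | h | h | h
    · exact ⟨0, 0, by rw [h]; norm_num⟩
    · exact ⟨1, 0, by rw [h]; norm_num⟩
    · exact ⟨0, 1, by rw [h]; norm_num⟩
    · exact ⟨1, 1, by rw [h]; norm_num⟩
  exact CharBurnside.burnside_paqb _ G 2 3 a b Nat.prime_two Nat.prime_three hab rfl

theorem exists_notin {α : Type*} [Fintype α] [DecidableEq α] (s : Finset α) (h : s.card < Fintype.card α) : ∃ x, x ∉ s := by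
  by_contra hcon
  push Not at hcon
  have : s = Finset.univ := Finset.eq_univ_iff_forall.mpr hcon
  rw [this, Finset.card_univ] at h
  exact lt_irrefl _ h

theorem s0675 {α : Type*} [Fintype α] [DecidableEq α] (hα : (Fintype.card α).Prime) (G : Subgroup (Equiv.Perm α)) [MulAction.IsPretransitive G α] : Group.IsSolvable G ∨ MulAction.IsMultiplyPretransitive G α 2 := by
  by_cases hG : Group.IsSolvable G
  · exact Or.inl hG
  right
  obtain ⟨p, hp⟩ : ∃ p, Fintype.card α = p := ⟨_, rfl⟩
  rw [hp] at hα
  haveI : Fact p.Prime := ⟨hα⟩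
  have hp5 : 5 ≤ p := by
    by_contra hcon
    have h3 : p ≤ 3 := by
      by_contra h4
      have : p = 4 := by omega
      rw [this] at hα
      exact absurd hα (by norm_num)
    exact hG (solvable_small (by omega) G)
  apply s0671 (K := ZMod p) (p := p) (f := 1) le_rfl (by rw [hp, pow_one])
  intro W W' h1 h2 h3
  by_contra hcon
  push Not at hcon
  have hW : W = Cfsg.permConstants (ZMod p) G α := by
    rcases s0674 hp G hG W h1 (h2.le.trans h3) with h | h
    · exact h
    · exfalso
      rw [h] at h2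
      exact absurd (lt_of_lt_of_le h2 h3) (lt_irrefl _)
  have hW' : W' = Cfsg.permSumZero (ZMod p) G α := by
    rcases s0674 hp G hG W' (h1.trans h2.le) h3 with h | h
    · exfalso
      rw [h, hW] at h2
      exact lt_irrefl _ h2
    · exact h
  obtain ⟨a⟩ : Nonempty α := Fintype.card_pos_iff.mp (by omega)
  obtain ⟨a', ha'⟩ := exists_notin ({a} : Finset α) (by simp; omega)
  rw [Finset.mem_singleton] at ha'
  obtain ⟨g, hg⟩ := MulAction.exists_smul_eq G a a'
  have hga : g • a ≠ a := by rw [hg]; exact ha'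
  obtain ⟨b, hb⟩ := exists_notin ({a, g⁻¹ • a} : Finset α) (lt_of_le_of_lt (Finset.card_le_two) (by omega))
  simp only [Finset.mem_insert, Finset.mem_singleton, not_or] at hb
  obtain ⟨hba, hbg⟩ := hb
  have hgb : g • b ≠ a := by
    intro h
    rw [← h, inv_smul_smul] at hbg
    exact hbg rfl
  obtain ⟨x, hx⟩ := exists_notin ({a, b, g • a, g • b} : Finset α) (lt_of_le_of_lt (Finset.card_le_four) (by omega))
  simp only [Finset.mem_insert, Finset.mem_singleton, not_or] at hx
  obtain ⟨hxa, hxb, hxga, hxgb⟩ := hx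
  have h5 := hcon g (Pi.single a 1 - Pi.single b 1) (by
    rw [hW', mem_sumZero]
    simp only [Pi.sub_apply, Finset.sum_sub_distrib]
    rw [Finset.sum_pi_single', Finset.sum_pi_single']
    simp)
  rw [hW, mem_const] at h5
  obtain ⟨c, hc⟩ := h5
  have hva := congrFun hc a
  have hvx := congrFun hc x
  simp only [Pi.sub_apply, rho_apply] at hva hvx
  have hx1 : g⁻¹ • x ≠ a := fun h => hxga (by rw [← h, smul_inv_smul])
  have hx2 : g⁻¹ • x ≠ b := fun h => hxgb (by rw [← h, smul_inv_smul])
  have ha1 : g⁻¹ • a ≠ a := fun h => hga (by rw [inv_smul_eq_iff] at h; exact h.symm)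
  have ha2 : g⁻¹ • a ≠ b := fun h => hgb (by rw [← h, smul_inv_smul])
  rw [Pi.single_eq_of_ne hx1, Pi.single_eq_of_ne hx2, Pi.single_eq_of_ne hxa, Pi.single_eq_of_ne hxb] at hvx
  rw [Pi.single_eq_of_ne ha1, Pi.single_eq_of_ne ha2, Pi.single_eq_same, Pi.single_eq_of_ne (Ne.symm hba)] at hva
  rw [← hvx] at hva
  simp at hva

theorem s0714 {α : Type*} [Fintype α] [DecidableEq α] (hα : 5 ≤ Fintype.card α) {K : Type*} [Field K] (W : Subrepresentation (Cfsg.permRep K (alternatingGroup α) α)) : W.toSubmodule = ⊥ ∨ W = Cfsg.permConstants K (alternatingGroup α) α ∨ W = Cfsg.permSumZero K (alternatingGroup α) α ∨ W.toSubmodule = ⊤ := by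
  classical
  by_cases hconst : ∀ w ∈ W.toSubmodule, ∀ x y : α, w x = w y
  · by_cases hbot : W.toSubmodule = ⊥
    · exact Or.inl hbot
    right; left
    apply Subrepresentation.toSubmodule_injective
    apply le_antisymm
    · intro w hw
      rw [mem_const]
      obtain ⟨a⟩ : Nonempty α := Fintype.card_pos_iff.mp (by omega)
      exact ⟨w a, funext fun x => hconst w hw x a⟩
    · intro w hw
      obtain ⟨c, rfl⟩ := mem_const.mp hw
      obtain ⟨v, hv, hv0⟩ := (Submodule.ne_bot_iff _).mp hbot
      obtain ⟨x, hx⟩ : ∃ x, v x ≠ 0 := by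
        by_contra hcon
        push Not at hcon
        exact hv0 (funext hcon)
      have : (fun _ => c) = (c * (v x)⁻¹) • v := by
        ext y
        rw [Pi.smul_apply, smul_eq_mul, hconst v hv y x, mul_assoc, inv_mul_cancel₀ hx, mul_one]
      rw [this]
      exact W.toSubmodule.smul_mem _ hv
  · right; right
    push Not at hconst
    obtain ⟨w, hw, a, b, hab⟩ := hconst
    have hab' : a ≠ b := fun h => hab (by rw [h])
    obtain ⟨c, hc⟩ := exists_notin ({a, b} : Finset α) (lt_of_le_of_lt Finset.card_le_two (by omega))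
    simp only [Finset.mem_insert, Finset.mem_singleton, not_or] at hc
    obtain ⟨hca, hcb⟩ := hc
    obtain ⟨d, hd⟩ := exists_notin ({a, b, c} : Finset α) (lt_of_le_of_lt Finset.card_le_three (by omega))
    simp only [Finset.mem_insert, Finset.mem_singleton, not_or] at hd
    obtain ⟨hda, hdb, hdc⟩ := hd
    obtain ⟨e, he⟩ := exists_notin ({a, b, c, d} : Finset α) (lt_of_le_of_lt Finset.card_le_four (by omega))
    simp only [Finset.mem_insert, Finset.mem_singleton, not_or] at he
    obtain ⟨hea, heb, hec, hed⟩ := he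
    -- the key: p,q,r,s
    have key : ∀ (w : α → K), w ∈ W.toSubmodule → ∀ p q r s : α, p ≠ q → r ≠ s → p ≠ r → p ≠ s → q ≠ r → q ≠ s → w p ≠ w q → w r = w s →
        ∃ p q : α, p ≠ q ∧ (Pi.single p 1 - Pi.single q 1 : α → K) ∈ W.toSubmodule := by
      intro w hw p q r s hpq hrs hpr hps hqr hqs hwpq hwrs
      refine ⟨p, q, hpq, ?_⟩
      have hσ : Equiv.swap p q * Equiv.swap r s ∈ alternatingGroup α := by
        rw [Equiv.Perm.mem_alternatingGroup, Equiv.Perm.sign_mul, Equiv.Perm.sign_swap hpq, Equiv.Perm.sign_swap hrs]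
        norm_num
      have h1 := W.toSubmodule.sub_mem hw (W.apply_mem_toSubmodule (⟨_, hσ⟩ : alternatingGroup α)⁻¹ hw)
      have h2 : (Pi.single p 1 - Pi.single q 1 : α → K) = (w p - w q)⁻¹ • (w - Cfsg.permRep K (alternatingGroup α) α (⟨_, hσ⟩ : alternatingGroup α)⁻¹ w) := by
        have h0 : w p - w q ≠ 0 := sub_ne_zero.mpr hwpq
        ext x
        rw [Pi.smul_apply, smul_eq_mul, Pi.sub_apply, Pi.sub_apply, rho_apply, inv_inv]
        change _ = (w p - w q)⁻¹ * (w x - w (Equiv.swap p q (Equiv.swap r s x)))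
        by_cases hxp : x = p
        · subst hxp
          rw [Equiv.swap_apply_of_ne_of_ne hpr hps, Equiv.swap_apply_left, Pi.single_eq_same, Pi.single_eq_of_ne hpq, inv_mul_cancel₀ h0, sub_zero]
        by_cases hxq : x = q
        · subst hxq
          rw [Equiv.swap_apply_of_ne_of_ne hqr hqs, Equiv.swap_apply_right, Pi.single_eq_same, Pi.single_eq_of_ne (Ne.symm hpq), zero_sub]
          have : w x - w p = -(w p - w x) := by ring
          rw [this, mul_neg, inv_mul_cancel₀ h0]
        rw [Pi.single_eq_of_ne hxp, Pi.single_eq_of_ne hxq, sub_zero]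
        by_cases hxr : x = r
        · subst hxr
          rw [Equiv.swap_apply_left, Equiv.swap_apply_of_ne_of_ne (Ne.symm hps) (Ne.symm hqs), hwrs, sub_self, mul_zero]
        by_cases hxs : x = s
        · subst hxs
          rw [Equiv.swap_apply_right, Equiv.swap_apply_of_ne_of_ne (Ne.symm hpr) (Ne.symm hqr), hwrs, sub_self, mul_zero]
        rw [Equiv.swap_apply_of_ne_of_ne hxr hxs, Equiv.swap_apply_of_ne_of_ne hxp hxq, sub_self, mul_zero]
      rw [h2]
      exact W.toSubmodule.smul_mem _ h1
    -- apply the three-cycle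
    have hex : ∃ p q : α, p ≠ q ∧ (Pi.single p 1 - Pi.single q 1 : α → K) ∈ W.toSubmodule := by
      have hτ : Equiv.swap a b * Equiv.swap b c ∈ alternatingGroup α := by
        rw [Equiv.Perm.mem_alternatingGroup, Equiv.Perm.sign_mul, Equiv.Perm.sign_swap hab', Equiv.Perm.sign_swap (Ne.symm hcb)]
        norm_num
      have h1 := W.toSubmodule.sub_mem hw (W.apply_mem_toSubmodule (⟨_, hτ⟩ : alternatingGroup α)⁻¹ hw)
      set v := w - Cfsg.permRep K (alternatingGroup α) α (⟨_, hτ⟩ : alternatingGroup α)⁻¹ w with hv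
      have hvx : ∀ x, v x = w x - w (Equiv.swap a b (Equiv.swap b c x)) := by
        intro x
        rw [hv, Pi.sub_apply, rho_apply, inv_inv]
        rfl
      have hva : v a = w a - w b := by
        rw [hvx, Equiv.swap_apply_of_ne_of_ne hab' (Ne.symm hca), Equiv.swap_apply_left]
      have hvb : v b = w b - w c := by
        rw [hvx, Equiv.swap_apply_left, Equiv.swap_apply_of_ne_of_ne hca hcb]
      have hvc : v c = w c - w a := by
        rw [hvx, Equiv.swap_apply_right, Equiv.swap_apply_right]
      have hvd : v d = 0 := by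
        rw [hvx, Equiv.swap_apply_of_ne_of_ne hdb hdc, Equiv.swap_apply_of_ne_of_ne hda hdb, sub_self]
      have hve : v e = 0 := by
        rw [hvx, Equiv.swap_apply_of_ne_of_ne heb hec, Equiv.swap_apply_of_ne_of_ne hea heb, sub_self]
      by_cases h2 : v a = v b
      · by_cases h3 : v b = v c
        · apply key v h1 a d b c (Ne.symm hda) (Ne.symm hcb) hab' (Ne.symm hca) hdb hdc _ h3
          rw [hvd, hva]
          exact sub_ne_zero.mpr hab
        · exact key v h1 b c d e (Ne.symm hcb) (Ne.symm hed) (Ne.symm hdb) (Ne.symm heb) (Ne.symm hdc) (Ne.symm hec) h3 (hvd.trans hve.symm)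
      · exact key v h1 a b d e hab' (Ne.symm hed) (Ne.symm hda) (Ne.symm hea) (Ne.symm hdb) (Ne.symm heb) h2 (hvd.trans hve.symm)
    obtain ⟨p, q, hpq, hpqW⟩ := hex
    -- 2-transitivity of the alternating group
    have h2t : IsMultiplyPretransitive (alternatingGroup α) α 2 := by
      have h1 := alternatingGroup.isMultiplyPretransitive α
      haveI := h1
      exact isMultiplyPretransitive_of_le (n := Nat.card α - 2) (by rw [Nat.card_eq_fintype_card]; omega) (by rw [Nat.card_eq_fintype_card]; omega)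
    have hall : ∀ x y : α, x ≠ y → (Pi.single x 1 - Pi.single y 1 : α → K) ∈ W.toSubmodule := by
      intro x y hxy
      obtain ⟨g, hg1, hg2⟩ := (is_two_pretransitive_iff.mp h2t) hpq hxy
      have h3 := W.apply_mem_toSubmodule g hpqW
      have h4 : Cfsg.permRep K (alternatingGroup α) α g (Pi.single p 1 - Pi.single q 1) = Pi.single x 1 - Pi.single y 1 := by
        ext z
        rw [rho_apply, Pi.sub_apply, Pi.sub_apply]
        congr 1
        · by_cases hz : z = x
          · rw [hz, ← hg1, inv_smul_smul, Pi.single_eq_same, Pi.single_eq_same]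
          · rw [Pi.single_eq_of_ne hz, Pi.single_eq_of_ne]
            intro h5
            apply hz
            rw [← hg1, ← h5, smul_inv_smul]
        · by_cases hz : z = y
          · rw [hz, ← hg2, inv_smul_smul, Pi.single_eq_same, Pi.single_eq_same]
          · rw [Pi.single_eq_of_ne hz, Pi.single_eq_of_ne]
            intro h5
            apply hz
            rw [← hg2, ← h5, smul_inv_smul]
      rwa [h4] at h3
    have hsz : (Cfsg.permSumZero K (alternatingGroup α) α).toSubmodule ≤ W.toSubmodule := by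
      intro v hv
      rw [mem_sumZero] at hv
      have h3 : v = ∑ x, v x • (Pi.single x 1 - Pi.single a 1 : α → K) := by
        ext z
        rw [Finset.sum_apply]
        simp only [Pi.smul_apply, Pi.sub_apply, smul_eq_mul, mul_sub, Finset.sum_sub_distrib, ← Finset.sum_mul]
        rw [hv, zero_mul, sub_zero]
        rw [Finset.sum_eq_single z]
        · rw [Pi.single_eq_same, mul_one]
        · intro x _ hx
          rw [Pi.single_eq_of_ne (Ne.symm hx), mul_zero]
        · intro h
          exact absurd (Finset.mem_univ z) h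
      rw [h3]
      apply Submodule.sum_mem
      intro x _
      apply W.toSubmodule.smul_mem
      by_cases hxa : x = a
      · rw [hxa, sub_self]
        exact W.toSubmodule.zero_mem
      · exact hall x a hxa
    by_cases heq : W.toSubmodule ≤ (Cfsg.permSumZero K (alternatingGroup α) α).toSubmodule
    · left
      exact Subrepresentation.toSubmodule_injective (le_antisymm heq hsz)
    · right
      obtain ⟨u, hu, hu2⟩ := Set.not_subset.mp heq
      have hu3 : ∑ x, u x ≠ 0 := hu2
      rw [eq_top_iff]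
      intro v _
      have h4 : v - ((∑ x, v x) * (∑ x, u x)⁻¹) • u ∈ W.toSubmodule := by
        apply hsz
        rw [mem_sumZero]
        simp only [Pi.sub_apply, Pi.smul_apply, smul_eq_mul, Finset.sum_sub_distrib, ← Finset.mul_sum]
        rw [mul_assoc, inv_mul_cancel₀ hu3, mul_one, sub_self]
      have h5 := W.toSubmodule.add_mem h4 (W.toSubmodule.smul_mem ((∑ x, v x) * (∑ x, u x)⁻¹) hu)
      rwa [sub_add_cancel] at h5

end Cfsg.Agent.Lib.H3PermModC

namespace Cfsg.Agent.Lib.H3PermModC

open Subgroup MulAction Cfsg.Agent.Lib.PermTwo Cfsg.Agent.Lib.H3PermMod Cfsg.Agent.Lib.H3PermModB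
open scoped Pointwise

theorem s0672 {G : Type*} [Group G] [Finite G] {K : Type*} [Field K] {p : ℕ} [Fact p.Prime] [CharP K p] {Ω : Type*} [Fintype Ω] [DecidableEq Ω] [MulAction G Ω] [FaithfulSMul G Ω] (h2 : MulAction.IsMultiplyPretransitive G Ω 2) (hp : p ∣ Fintype.card Ω) (heven : ∀ a : Ω, Even (Nat.card (MulAction.stabilizer G a))) (h : ∀ f : Representation.IntertwiningMap (Cfsg.permSumZero K G Ω).toRepresentation (Cfsg.permRep K G (Set.powersetCard Ω 2)), (∀ v : (Cfsg.permSumZero K G Ω).toSubmodule, (v : Ω → K) ∈ (Cfsg.permConstants K G Ω).toSubmodule → f v = 0) → f = 0) : MulAction.IsMultiplyPretransitive G Ω 3 := by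
  classical
  have h2' : ∀ a b c d : Ω, a ≠ b → c ≠ d → ∃ g : G, g • a = c ∧ g • b = d := fun a b c d h1 h3 => is_two_pretransitive_iff.mp h2 h1 h3
  -- Step 1
  have step1 : ∀ a b c d : Ω, a ≠ b → c ≠ a → c ≠ b → d ≠ a → d ≠ b →
      ∃ g : G, ((g • a = a ∧ g • b = b) ∨ (g • a = b ∧ g • b = a)) ∧ g • c = d := by
    intro a b c d hab hca hcb hda hdb
    by_contra hcon
    push Not at hcon
    have hs0 : ({a, b} : Finset Ω).card = 2 := Finset.card_pair hab
    let s₀ : Set.powersetCard Ω 2 := ⟨{a, b}, hs0⟩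
    have hst : ∀ g : G, g • s₀ = s₀ → ((g • a = a ∧ g • b = b) ∨ (g • a = b ∧ g • b = a)) := by
      intro g hg
      have h3 : g • ({a, b} : Finset Ω) = {a, b} := congrArg Subtype.val hg
      have h4 : g • a ∈ ({a, b} : Finset Ω) := by
        rw [← h3]
        exact Finset.smul_mem_smul_finset (by simp)
      have h5 : g • b ∈ ({a, b} : Finset Ω) := by
        rw [← h3]
        exact Finset.smul_mem_smul_finset (by simp)
      simp only [Finset.mem_insert, Finset.mem_singleton] at h4 h5
      have h6 : g • a ≠ g • b := fun h' => hab (MulAction.injective g h')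
      rcases h4 with h4 | h4 <;> rcases h5 with h5 | h5
      · exact absurd (h4.trans h5.symm) h6
      · exact Or.inl ⟨h4, h5⟩
      · exact Or.inr ⟨h4, h5⟩
      · exact absurd (h4.trans h5.symm) h6
    have htrs : ∀ s : Set.powersetCard Ω 2, ∃ g : G, g • s₀ = s := by
      rintro ⟨s, hs⟩
      obtain ⟨x, y, hxy, rfl⟩ := Finset.card_eq_two.mp hs
      obtain ⟨g, hg1, hg2⟩ := h2' a b x y hab hxy
      refine ⟨g, ?_⟩
      apply Subtype.ext
      change g • ({a, b} : Finset Ω) = {x, y}
      rw [Finset.smul_finset_insert, Finset.smul_finset_singleton, hg1, hg2]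
    let A : Set.powersetCard Ω 2 → Ω → ℕ := fun s z => if ∃ g : G, g • s₀ = s ∧ g • c = z then 1 else 0
    have hA : ∀ (g : G) s z, A (g • s) (g • z) = A s z := by
      intro g s z
      simp only [A]
      congr 1
      apply propext
      constructor
      · rintro ⟨k, hk1, hk2⟩
        exact ⟨g⁻¹ * k, by rw [mul_smul, hk1, inv_smul_smul], by rw [mul_smul, hk2, inv_smul_smul]⟩
      · rintro ⟨k, hk1, hk2⟩
        exact ⟨g * k, by rw [mul_smul, hk1], by rw [mul_smul, hk2]⟩
    have hAc : A s₀ c = 1 := if_pos ⟨1, one_smul _ _, one_smul _ _⟩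
    have hAd : A s₀ d = 0 := by
      apply if_neg
      rintro ⟨g, h3, h4⟩
      exact hcon g (hst g h3) h4
    have hAa : A s₀ a = 0 := by
      apply if_neg
      rintro ⟨g, h3, h4⟩
      have hga := hst g⁻¹ (by rw [inv_smul_eq_iff, h3])
      have h5 : c = g⁻¹ • a := by rw [← h4, inv_smul_smul]
      rcases hga with ⟨h6, _⟩ | ⟨h6, _⟩
      · exact hca (h5.trans h6)
      · exact hcb (h5.trans h6)
    set k := ∑ z, A s₀ z with hk
    have hrow : ∀ s, ∑ z, A s z = k := by
      intro s
      obtain ⟨g, rfl⟩ := htrs s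
      rw [hk]
      symm
      apply Fintype.sum_equiv (MulAction.toPerm g)
      intro y
      rw [MulAction.toPerm_apply, hA]
    obtain ⟨α, β, hαβ, hne⟩ : ∃ α β : K, 2 * α + k * β = 0 ∧ (α ≠ 0 ∨ β ≠ 0) := by
      by_cases hk0 : (k : K) = 0
      · exact ⟨0, 1, by rw [hk0]; ring, Or.inr one_ne_zero⟩
      · exact ⟨k, -2, by ring, Or.inl hk0⟩
    let M : Set.powersetCard Ω 2 → Ω → K := fun s z => α * (if z ∈ (s : Finset Ω) then 1 else 0) + β * (A s z : K)
    have hM : ∀ (g : G) s z, M (g • s) (g • z) = M s z := by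
      intro g s z
      simp only [M]
      rw [hA]
      congr 2
      have : g • z ∈ ((g • s : Set.powersetCard Ω 2) : Finset Ω) ↔ z ∈ (s : Finset Ω) := by
        rw [Set.powersetCard.coe_smul]
        exact Finset.smul_mem_smul_finset_iff g
      by_cases hz : z ∈ (s : Finset Ω)
      · rw [if_pos hz, if_pos (this.mpr hz)]
      · rw [if_neg hz, if_neg (fun h' => hz (this.mp h'))]
    have hMsum : ∀ s, ∑ z, M s z = 0 := by
      intro s
      simp only [M, Finset.sum_add_distrib, ← Finset.mul_sum]
      rw [← Nat.cast_sum, hrow]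
      have h3 : ∑ z, (if z ∈ (s : Finset Ω) then (1 : K) else 0) = 2 := by
        rw [Finset.sum_ite_mem, Finset.univ_inter]
        simp only [Finset.sum_const, nsmul_eq_mul, mul_one]
        have h4 : (s : Finset Ω).card = 2 := s.2
        rw [h4]
        norm_num
      rw [h3, ← hαβ]
      ring
    let L : (Cfsg.permSumZero K G Ω).toSubmodule →ₗ[K] (Set.powersetCard Ω 2 → K) :=
      { toFun := fun v s => ∑ z, M s z * (v : Ω → K) z
        map_add' := by
          intro u v
          ext s
          simp [mul_add, Finset.sum_add_distrib]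
        map_smul' := by
          intro c v
          ext s
          simp only [Submodule.coe_smul, Pi.smul_apply, smul_eq_mul, RingHom.id_apply, Finset.mul_sum]
          apply Finset.sum_congr rfl
          intro y _
          ring }
    have hL : ∀ (g : G) (v : (Cfsg.permSumZero K G Ω).toSubmodule), L ((Cfsg.permSumZero K G Ω).toRepresentation g v) = Cfsg.permRep K G (Set.powersetCard Ω 2) g (L v) := by
      intro g v
      ext s
      change ∑ z, M s z * (v : Ω → K) (g⁻¹ • z) = ∑ z, M (g⁻¹ • s) z * (v : Ω → K) z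
      symm
      apply Fintype.sum_equiv (MulAction.toPerm g)
      intro z
      rw [MulAction.toPerm_apply, inv_smul_smul]
      congr 1
      rw [← hM g, smul_inv_smul]
    let F := LinearMap.intertwiningMap_of_isIntertwiningMap (Cfsg.permSumZero K G Ω).toRepresentation (Cfsg.permRep K G (Set.powersetCard Ω 2)) L hL
    have hF : F = 0 := by
      apply h F
      intro v hv
      obtain ⟨c', hc'⟩ := mem_const.mp hv
      ext s
      change ∑ z, M s z * (v : Ω → K) z = 0
      rw [hc']
      rw [← Finset.sum_mul, hMsum, zero_mul]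
    have hF0 : ∀ v, L v = 0 := by
      intro v
      have := congrArg (fun f : Representation.IntertwiningMap (Cfsg.permSumZero K G Ω).toRepresentation (Cfsg.permRep K G (Set.powersetCard Ω 2)) => f.toLinearMap v) hF
      exact this
    have hMd : M s₀ d = 0 := by
      simp only [M]
      rw [hAd, if_neg]
      · simp
      · change d ∉ ({a, b} : Finset Ω)
        simp [hda, hdb]
    have hval : ∀ x : Ω, M s₀ x = 0 := by
      intro x
      have h3 : (Pi.single x 1 - Pi.single d 1 : Ω → K) ∈ (Cfsg.permSumZero K G Ω).toSubmodule := by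
        rw [mem_sumZero]
        simp only [Pi.sub_apply, Finset.sum_sub_distrib]
        rw [Finset.sum_pi_single', Finset.sum_pi_single']
        simp
      have h4 := congrFun (hF0 ⟨_, h3⟩) s₀
      change ∑ t, M s₀ t * (Pi.single x (1 : K) - Pi.single d (1 : K) : Ω → K) t = 0 at h4
      simp only [Pi.sub_apply, mul_sub, Finset.sum_sub_distrib] at h4
      rw [Finset.sum_eq_single x (fun t _ ht => by rw [Pi.single_eq_of_ne ht, mul_zero]) (fun h' => absurd (Finset.mem_univ x) h'),
        Finset.sum_eq_single d (fun t _ ht => by rw [Pi.single_eq_of_ne ht, mul_zero]) (fun h' => absurd (Finset.mem_univ d) h')] at h4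
      rw [Pi.single_eq_same, Pi.single_eq_same, mul_one, mul_one, hMd, sub_zero] at h4
      exact h4
    have h3 := hval a
    have h4 := hval c
    simp only [M] at h3 h4
    rw [hAa, if_pos (by change a ∈ ({a, b} : Finset Ω); simp)] at h3
    rw [hAc, if_neg (by change c ∉ ({a, b} : Finset Ω); simp [hca, hcb])] at h4
    simp only [Nat.cast_zero, mul_zero, add_zero, mul_one, zero_add, Nat.cast_one] at h3 h4
    rcases hne with h5 | h5
    · exact h5 h3
    · exact h5 h4
  -- Step 2
  have step2 : ∀ a b c : Ω, a ≠ b → c ≠ a → c ≠ b → ∃ t : G, t • a = b ∧ t • b = a ∧ t • c = c := by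
    intro a b c hab hca hcb
    haveI : Fact (Nat.Prime 2) := ⟨Nat.prime_two⟩
    obtain ⟨t, ht⟩ := exists_prime_orderOf_dvd_card' (G := stabilizer G c) 2 (even_iff_two_dvd.mp (heven c))
    have ht1 : (t : G) ≠ 1 := by
      intro h'
      have : t = 1 := Subtype.ext h'
      rw [this, orderOf_one] at ht
      norm_num at ht
    have ht2 : (t : G) * t = 1 := by
      have := pow_orderOf_eq_one t
      rw [ht, pow_two] at this
      exact congrArg Subtype.val this
    obtain ⟨x, hx⟩ : ∃ x : Ω, (t : G) • x ≠ x := by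
      by_contra hcon
      push Not at hcon
      exact ht1 (FaithfulSMul.eq_of_smul_eq_smul (α := Ω) (fun x => by rw [hcon x, one_smul]))
    have htc : (t : G) • c = c := t.2
    obtain ⟨y, hy⟩ : ∃ y, y = (t : G) • x := ⟨_, rfl⟩
    have hty : (t : G) • y = x := by rw [hy, ← mul_smul, ht2, one_smul]
    have hxy : x ≠ y := fun h' => hx (by rw [← hy]; exact h'.symm)
    have hcx : c ≠ x := fun h' => hx (by rw [← h', htc])
    have hcy : c ≠ y := by
      intro h'
      rw [← h', htc] at hty
      exact hcx hty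
    obtain ⟨h₁, h11, h12⟩ := h2' x y a b hxy hab
    have hc1 : h₁ • c ≠ a := fun h' => hcx (MulAction.injective h₁ (h'.trans h11.symm))
    have hc2 : h₁ • c ≠ b := fun h' => hcy (MulAction.injective h₁ (h'.trans h12.symm))
    obtain ⟨k, hk1, hk2⟩ := step1 a b (h₁ • c) c hab hc1 hc2 hca hcb
    rcases hk1 with ⟨hka, hkb⟩ | ⟨hka, hkb⟩
    · refine ⟨(k * h₁) * t * (k * h₁)⁻¹, ?_, ?_, ?_⟩
      · have h3 : (k * h₁)⁻¹ • a = x := by rw [inv_smul_eq_iff, mul_smul, h11, hka]
        rw [mul_smul, mul_smul, h3, ← hy, mul_smul, h12, hkb]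
      · have h3 : (k * h₁)⁻¹ • b = y := by rw [inv_smul_eq_iff, mul_smul, h12, hkb]
        rw [mul_smul, mul_smul, h3, hty, mul_smul, h11, hka]
      · have h3 : (k * h₁)⁻¹ • c = c := by rw [inv_smul_eq_iff, mul_smul, hk2]
        rw [mul_smul, mul_smul, h3, htc, mul_smul, hk2]
    · refine ⟨(k * h₁) * t * (k * h₁)⁻¹, ?_, ?_, ?_⟩
      · have h3 : (k * h₁)⁻¹ • a = y := by rw [inv_smul_eq_iff, mul_smul, h12, hkb]
        rw [mul_smul, mul_smul, h3, hty, mul_smul, h11, hka]
      · have h3 : (k * h₁)⁻¹ • b = x := by rw [inv_smul_eq_iff, mul_smul, h11, hka]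
        rw [mul_smul, mul_smul, h3, ← hy, mul_smul, h12, hkb]
      · have h3 : (k * h₁)⁻¹ • c = c := by rw [inv_smul_eq_iff, mul_smul, hk2]
        rw [mul_smul, mul_smul, h3, htc, mul_smul, hk2]
  have step3 : ∀ a b c d : Ω, a ≠ b → c ≠ a → c ≠ b → d ≠ a → d ≠ b → ∃ g : G, g • a = a ∧ g • b = b ∧ g • c = d := by
    intro a b c d hab hca hcb hda hdb
    obtain ⟨g, hg1, hg2⟩ := step1 a b c d hab hca hcb hda hdb
    rcases hg1 with ⟨h3, h4⟩ | ⟨h3, h4⟩
    · exact ⟨g, h3, h4, hg2⟩
    · obtain ⟨t, ht1, ht2, ht3⟩ := step2 a b c hab hca hcb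
      exact ⟨g * t, by rw [mul_smul, ht1, h4], by rw [mul_smul, ht2, h3], by rw [mul_smul, ht3, hg2]⟩
  refine ⟨fun x y => ?_⟩
  have hx01 : x 0 ≠ x 1 := fun h' => absurd (x.injective h') (by decide)
  have hx02 : x 0 ≠ x 2 := fun h' => absurd (x.injective h') (by decide)
  have hx12 : x 1 ≠ x 2 := fun h' => absurd (x.injective h') (by decide)
  have hy01 : y 0 ≠ y 1 := fun h' => absurd (y.injective h') (by decide)
  have hy02 : y 0 ≠ y 2 := fun h' => absurd (y.injective h') (by decide)
  have hy12 : y 1 ≠ y 2 := fun h' => absurd (y.injective h') (by decide)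
  obtain ⟨g, hg0, hg1⟩ := h2' (x 0) (x 1) (y 0) (y 1) hx01 hy01
  obtain ⟨k, hk0, hk1, hk2⟩ := step3 (y 0) (y 1) (g • x 2) (y 2) hy01 (by
    rw [← hg0]
    exact fun h' => hx02 (MulAction.injective g h').symm) (by
    rw [← hg1]
    exact fun h' => hx12 (MulAction.injective g h').symm) hy02.symm hy12.symm
  refine ⟨k * g, ?_⟩
  ext i
  change (k * g) • (x i) = y i
  fin_cases i
  · change (k * g) • (x 0) = y 0
    rw [mul_smul, hg0, hk0]
  · change (k * g) • (x 1) = y 1
    rw [mul_smul, hg1, hk1]
  · change (k * g) • (x 2) = y 2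
    rw [mul_smul, hk2]

end Cfsg.Agent.Lib.H3PermModC
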