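import Mathlib
import Cfsg.Prelude.Def_Perm
import Cfsg.Agent.Lib.Basic
import Cfsg.Agent.Lib.PermTwo
import Cfsg.Agent.Lib.H3PermMod
import Cfsg.Agent.Lib.H3PermModB
import Cfsg.Agent.Lib.H3PermModC

/-!
Transitive groups of prime degree (helper3).
-/

set_option autoImplicit false
set_option maxHeartbeats 400000
set_option linter.unusedVariables false
set_option linter.unusedSectionVars false
set_option linter.unusedFintypeInType false

namespace Cfsg.Agent.Lib.H3PermModD

open Subgroup MulAction Cfsg.Agent.Lib.PermTwo Cfsg.Agent.Lib.H3PermMod Cfsg.Agent.Lib.H3PermModB Cfsg.Agent.Lib.H3PermModC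
open scoped Pointwise

section PD
variable {α : Type*} [Fintype α] [DecidableEq α] {p : ℕ} [hp : Fact p.Prime]

theorem pgroup_card (hα : Fintype.card α = p) (G : Subgroup (Equiv.Perm α)) {Q : Subgroup G} (hQ : IsPGroup p Q) (hne : Q ≠ ⊥) :
    IsPretransitive Q α ∧ (∀ a : α, stabilizer Q a = ⊥) ∧ Nat.card Q = p := by
  haveI hnt : Nontrivial Q := (nontrivial_iff_ne_bot Q).mpr hne
  haveI hfaith : FaithfulSMul Q α := by
    refine ⟨fun {x y} h => ?_⟩
    apply Subtype.ext
    apply Subtype.ext
    ext b
    exact h b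
  exact pgroup_prime_degree (K := Q) (α := α) (by rw [Nat.card_eq_fintype_card, hα]) hQ hnt

theorem dvd_card (hα : Fintype.card α = p) (G : Subgroup (Equiv.Perm α)) [MulAction.IsPretransitive G α] : p ∣ Nat.card G := by
  haveI : Nonempty α := Fintype.card_pos_iff.mp (by rw [hα]; exact hp.out.pos)
  obtain ⟨a⟩ : Nonempty α := inferInstance
  have h1 := card_orbit_mul_card_stabilizer (K := G) a
  rw [orbit_eq_univ, Nat.card_coe_set_eq, Set.ncard_univ, Nat.card_eq_fintype_card, hα] at h1
  exact ⟨_, h1.symm⟩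

theorem sylow_card (hα : Fintype.card α = p) (G : Subgroup (Equiv.Perm α)) [MulAction.IsPretransitive G α] (P : Sylow p G) : Nat.card (P : Subgroup G) = p := by
  apply (pgroup_card hα G P.2 _).2.2
  intro h
  have h1 := P.card_eq_multiplicity
  rw [h, card_bot] at h1
  have h2 : 1 ≤ (Nat.card G).factorization p := (hp.out.dvd_iff_one_le_factorization Nat.card_pos.ne').mp (dvd_card hα G)
  have h3 : 1 < p ^ (Nat.card G).factorization p := Nat.one_lt_pow (by omega) hp.out.one_lt
  omega

theorem ident_of (hα : Fintype.card α = p) (G : Subgroup (Equiv.Perm α)) (g : G) (hg : orderOf g = p) :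
    ∃ e : ZMod p ≃ α, ∀ j, g • (e j) = e (j + 1) := by
  haveI : NeZero p := ⟨hp.out.ne_zero⟩
  have hα' : Nat.card α = p := by rw [Nat.card_eq_fintype_card, hα]
  haveI : Nonempty α := Fintype.card_pos_iff.mp (by rw [hα]; exact hp.out.pos)
  obtain ⟨a⟩ : Nonempty α := inferInstance
  have hP : IsPGroup p (Subgroup.zpowers g) := IsPGroup.of_card (n := 1) (by rw [Nat.card_zpowers, hg, pow_one])
  obtain ⟨htr, hst, hc⟩ := pgroup_card hα G hP (by
    intro h
    rw [zpowers_eq_bot] at h
    rw [h, orderOf_one] at hg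
    exact hp.out.one_lt.ne hg)
  have hinj : Function.Injective (fun j : ZMod p => (g ^ j.val) • a) := by
    intro i j hij
    simp only at hij
    have h1 : (⟨(g ^ j.val)⁻¹ * g ^ i.val, mul_mem (inv_mem (pow_mem (mem_zpowers g) _)) (pow_mem (mem_zpowers g) _)⟩ : Subgroup.zpowers g) ∈ stabilizer (Subgroup.zpowers g) a := by
      rw [mem_stabilizer_iff]
      change ((g ^ j.val)⁻¹ * g ^ i.val) • a = a
      rw [mul_smul, hij, inv_smul_smul]
    rw [hst a, mem_bot] at h1
    have h2 : (g ^ j.val)⁻¹ * g ^ i.val = 1 := congrArg Subtype.val h1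
    rw [inv_mul_eq_one] at h2
    have h3 := pow_injOn_Iio_orderOf (x := g) (by rw [Set.mem_Iio, hg]; exact ZMod.val_lt j) (by rw [Set.mem_Iio, hg]; exact ZMod.val_lt i) h2
    exact (ZMod.val_injective p h3).symm
  have hbij : Function.Bijective (fun j : ZMod p => (g ^ j.val) • a) := by
    rw [Fintype.bijective_iff_injective_and_card]
    exact ⟨hinj, by rw [ZMod.card, hα]⟩
  refine ⟨Equiv.ofBijective _ hbij, ?_⟩
  intro j
  change g • ((g ^ j.val) • a) = (g ^ (j + 1).val) • a
  have hmod : ∀ n : ℕ, g ^ (n % p) = g ^ n := by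
    intro n
    have := pow_mod_orderOf g n
    rwa [hg] at this
  rw [← mul_smul, ← pow_succ']
  congr 1
  rw [ZMod.val_add, hmod, ZMod.val_one_eq_one_mod, pow_add g j.val (1 % p), hmod 1, ← pow_add]

theorem pow_act {G : Subgroup (Equiv.Perm α)} {g : G} {e : ZMod p ≃ α} (he : ∀ j, g • (e j) = e (j + 1)) (k : ℕ) (j : ZMod p) : (g ^ k) • (e j) = e (j + k) := by
  induction k with
  | zero => simp
  | succ k ih =>
    rw [pow_succ', mul_smul, ih, he]
    congr 1
    push_cast
    ring

/-- elements normalising the cycle act affinely -/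
theorem affine_act {G : Subgroup (Equiv.Perm α)} {g : G} {e : ZMod p ≃ α} (he : ∀ j, g • (e j) = e (j + 1)) {z : G} {i : ℕ} (hz : z * g * z⁻¹ = g ^ i) :
    ∃ c : ZMod p, ∀ j, z • (e j) = e (i * j + c) := by
  haveI : NeZero p := ⟨hp.out.ne_zero⟩
  refine ⟨e.symm (z • e 0), ?_⟩
  intro j
  have h1 : e j = (g ^ j.val) • e 0 := by
    rw [pow_act he, zero_add, ZMod.natCast_zmod_val]
  have h2 : z * g ^ j.val = g ^ (i * j.val) * z := by
    have h3 : z * g ^ j.val * z⁻¹ = (z * g * z⁻¹) ^ j.val := map_pow (MulAut.conj z) g j.val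
    rw [hz, ← pow_mul] at h3
    rw [← h3]
    group
  rw [h1, ← mul_smul, h2, mul_smul]
  have h4 : z • e 0 = e (e.symm (z • e 0)) := (Equiv.apply_symm_apply _ _).symm
  rw [h4, pow_act he]
  congr 1
  rw [Equiv.symm_apply_apply]
  push_cast
  rw [ZMod.natCast_zmod_val]
  ring

theorem five_le (hα : Fintype.card α = p) (G : Subgroup (Equiv.Perm α)) (hG : ¬ Group.IsSolvable G) : 5 ≤ p := by
  by_contra hcon
  have h3 : p ≤ 3 := by
    by_contra h4
    have h5 : p = 4 := by omega
    have := hp.out
    rw [h5] at this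
    exact absurd this (by norm_num)
  exact hG (solvable_small (by omega) G)

theorem exists_refl (hα : Fintype.card α = p) (hp2 : p ≠ 2) (G : Subgroup (Equiv.Perm α)) [MulAction.IsPretransitive G α] (P : Sylow p G) (heven : Even (Nat.card (Subgroup.normalizer ((P : Subgroup G) : Set G)))) :
    ∃ e : ZMod p ≃ α, ∃ g z : G, ∃ c : ZMod p, (∀ j, g • (e j) = e (j + 1)) ∧ (∀ j, z • (e j) = e (c - j)) ∧ (P : Subgroup G) = zpowers g := by
  haveI : NeZero p := ⟨hp.out.ne_zero⟩
  haveI : Fact (Nat.Prime 2) := ⟨Nat.prime_two⟩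
  have hPc := sylow_card hα G P
  have hPz : ∃ g : G, orderOf g = p ∧ (P : Subgroup G) = zpowers g := by
    haveI : Fact p.Prime := hp
    obtain ⟨g, hg⟩ := exists_prime_orderOf_dvd_card' (G := (P : Subgroup G)) p (by rw [hPc])
    refine ⟨g, by rw [Subgroup.orderOf_coe, hg], ?_⟩
    symm
    apply Subgroup.eq_of_le_of_card_ge
    · rw [zpowers_le]
      exact g.2
    · rw [hPc, Nat.card_zpowers, Subgroup.orderOf_coe, hg]
  obtain ⟨g, hg, hPg⟩ := hPz
  obtain ⟨e, he⟩ := ident_of hα G g hg
  obtain ⟨z', hz'⟩ := exists_prime_orderOf_dvd_card' (G := Subgroup.normalizer ((P : Subgroup G) : Set G)) 2 (even_iff_two_dvd.mp heven)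
  set z : G := (z' : G) with hz
  have hzo : orderOf z = 2 := by rw [hz, Subgroup.orderOf_coe, hz']
  have hzz : z * z = 1 := by
    have := pow_orderOf_eq_one z
    rwa [hzo, pow_two] at this
  have hz1 : z ≠ 1 := by
    intro h
    rw [h, orderOf_one] at hzo
    norm_num at hzo
  have hzn : z * g * z⁻¹ ∈ zpowers g := by
    have h1 : z ∈ Subgroup.normalizer ((P : Subgroup G) : Set G) := z'.2
    rw [← hPg]
    have h2 := (Subgroup.mem_normalizer_iff.mp h1 g).mp (by
      change g ∈ (P : Subgroup G)
      rw [hPg]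
      exact mem_zpowers g)
    exact h2
  obtain ⟨i, hi⟩ : ∃ i : ℕ, z * g * z⁻¹ = g ^ i := by
    obtain ⟨i, hi⟩ := mem_powers_iff_mem_zpowers.mpr hzn
    exact ⟨i, hi.symm⟩
  obtain ⟨c, hc⟩ := affine_act he hi
  have hzz' : ∀ j, e ((i : ZMod p) * (i * j + c) + c) = e j := by
    intro j
    rw [← hc, ← hc, ← mul_smul, hzz, one_smul]
  have h0 := e.injective (hzz' 0)
  have h1 := e.injective (hzz' 1)
  have h2 : ((i : ZMod p) - 1) * (i + 1) = 0 := by
    have : ((i : ZMod p) - 1) * (i + 1) = (i * (i * 1 + c) + c) - (i * (i * 0 + c) + c) - 1 := by ring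
    rw [this, h1, h0]
    ring
  have hi' : (i : ZMod p) = -1 := by
    rcases mul_eq_zero.mp h2 with h3 | h3
    · exfalso
      have hi1 : (i : ZMod p) = 1 := sub_eq_zero.mp h3
      rw [hi1] at h0
      have h4 : (2 : ZMod p) * c = 0 := by
        rw [← h0]
        ring
      have h5 : (2 : ZMod p) ≠ 0 := by
        intro h6
        have h7 : ((2 : ℕ) : ZMod p) = 0 := by exact_mod_cast h6
        rw [ZMod.natCast_eq_zero_iff] at h7
        have := (Nat.prime_dvd_prime_iff_eq hp.out Nat.prime_two).mp h7
        exact hp2 this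
      have hc0 : c = 0 := by
        rcases mul_eq_zero.mp h4 with h6 | h6
        · exact absurd h6 h5
        · exact h6
      apply hz1
      apply Subtype.ext
      ext a
      have h6 := hc (e.symm a)
      rw [hi1, hc0, one_mul, add_zero, Equiv.apply_symm_apply] at h6
      exact h6
    · exact eq_neg_of_add_eq_zero_left h3
  refine ⟨e, g, z, c, he, ?_, hPg⟩
  intro j
  rw [hc, hi']
  congr 1
  ring

theorem s0676 (hα : Fintype.card α = p) (G : Subgroup (Equiv.Perm α)) [MulAction.IsPretransitive G α] (hG : ¬ Group.IsSolvable G) (P : Sylow p G) (heven : Even (Nat.card (Subgroup.normalizer ((P : Subgroup G) : Set G)))) : MulAction.IsMultiplyPretransitive G α 3 := by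
  haveI : NeZero p := ⟨hp.out.ne_zero⟩
  have hp5 := five_le hα G hG
  have h2t : IsMultiplyPretransitive G α 2 := (s0675 (by rw [hα]; exact hp.out) G).resolve_left hG
  haveI hfaith : FaithfulSMul G α := by
    refine ⟨fun {x y} h => ?_⟩
    apply Subtype.ext
    ext b
    exact h b
  obtain ⟨e, g, z, c, he, hze, hPg⟩ := exists_refl hα (by omega) G P heven
  have htwo : (2 : ZMod p) ≠ 0 := by
    intro h6
    have h7 : ((2 : ℕ) : ZMod p) = 0 := by exact_mod_cast h6
    rw [ZMod.natCast_eq_zero_iff] at h7
    have := (Nat.prime_dvd_prime_iff_eq hp.out Nat.prime_two).mp h7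
    omega
  apply s0672 (K := ZMod p) (p := p) h2t (by rw [hα])
  · -- stabilisers have even order
    intro a
    -- z fixes the point e (c/2)
    have hzf : z • e (c / 2) = e (c / 2) := by
      rw [hze]
      congr 1
      field_simp
      ring
    obtain ⟨x, hx⟩ := MulAction.exists_smul_eq G (e (c / 2)) a
    have hzz : z * z = 1 := by
      apply Subtype.ext
      ext b
      have : z • z • b = b := by
        have hb : b = e (e.symm b) := (Equiv.apply_symm_apply _ _).symm
        rw [hb, hze, hze]
        congr 1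
        ring
      exact this
    have hz1 : z ≠ 1 := by
      intro h
      have h0 := hze 0
      have h1 := hze 1
      rw [h, one_smul] at h0 h1
      have h0' := e.injective h0
      have h1' := e.injective h1
      rw [sub_zero] at h0'
      rw [← h0', zero_sub] at h1'
      apply htwo
      have : (2 : ZMod p) = 1 + 1 := by norm_num
      rw [this]
      nth_rewrite 1 [h1']
      ring
    have hmem : x * z * x⁻¹ ∈ stabilizer G a := by
      rw [mem_stabilizer_iff, mul_smul, mul_smul, ← hx, inv_smul_smul, hzf]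
    have hord : orderOf (⟨_, hmem⟩ : stabilizer G a) = 2 := by
      rw [Subgroup.orderOf_mk]
      apply orderOf_eq_prime
      · rw [pow_two]
        have : x * z * x⁻¹ * (x * z * x⁻¹) = x * (z * z) * x⁻¹ := by group
        rw [this, hzz]
        group
      · intro h
        apply hz1
        rw [mul_inv_eq_one, mul_eq_left] at h
        exact h
    rw [even_iff_two_dvd, ← hord]
    exact orderOf_dvd_natCard _
  · intro f hf
    -- the identity function
    let io' : α → ZMod p := fun x => e.symm x
    have hio : io' ∈ (Cfsg.permSumZero (ZMod p) G α).toSubmodule := by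
      rw [mem_sumZero]
      have h1 : ∑ x, io' x = ∑ j : ZMod p, j := by
        apply Fintype.sum_equiv e.symm
        intro x
        rfl
      rw [h1]
      have h2 := FiniteField.sum_pow_lt_card_sub_one (ZMod p) 1 (by rw [ZMod.card]; omega)
      simpa using h2
    have hg' : ∀ x, g⁻¹ • x = e (e.symm x - 1) := by
      intro x
      rw [inv_smul_eq_iff, he, sub_add_cancel, Equiv.apply_symm_apply]
    have hz' : ∀ x, z⁻¹ • x = e (c - e.symm x) := by
      intro x
      rw [inv_smul_eq_iff, hze, sub_sub_cancel, Equiv.apply_symm_apply]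
    have hfeq : ∀ (k : G) (v : (Cfsg.permSumZero (ZMod p) G α).toSubmodule), f ((Cfsg.permSumZero (ZMod p) G α).toRepresentation k v) = Cfsg.permRep (ZMod p) G (Set.powersetCard α 2) k (f v) := by
      intro k v
      have := LinearMap.congr_fun (f.isIntertwining' k) v
      exact this
    set v₀ : (Cfsg.permSumZero (ZMod p) G α).toSubmodule := ⟨io', hio⟩ with hv₀
    have hone : (fun _ => (1 : ZMod p)) ∈ (Cfsg.permSumZero (ZMod p) G α).toSubmodule := by
      rw [mem_sumZero]
      simp [hα]
    set v₁ : (Cfsg.permSumZero (ZMod p) G α).toSubmodule := ⟨_, hone⟩ with hv₁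
    have hf1 : f v₁ = 0 := hf v₁ (mem_const.mpr ⟨1, rfl⟩)
    have e1 : (Cfsg.permSumZero (ZMod p) G α).toRepresentation g v₀ = v₀ - v₁ := by
      apply Subtype.ext
      ext x
      change e.symm (g⁻¹ • x) = e.symm x - 1
      rw [hg', Equiv.symm_apply_apply]
    have e2 : (Cfsg.permSumZero (ZMod p) G α).toRepresentation z v₀ = c • v₁ - v₀ := by
      apply Subtype.ext
      ext x
      change e.symm (z⁻¹ • x) = c * 1 - e.symm x
      rw [hz', Equiv.symm_apply_apply, mul_one]
    have f1 := hfeq g v₀
    rw [e1, map_sub, hf1, sub_zero] at f1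
    have f2 := hfeq z v₀
    rw [e2, map_sub, map_smul, hf1, smul_zero, zero_sub] at f2
    -- F = f v₀ is invariant under g, hence zero
    have hginv : ∀ (m : ℕ) (s : Set.powersetCard α 2), f v₀ (g ^ m • s) = f v₀ s := by
      intro m
      induction m with
      | zero => intro s; rw [pow_zero, one_smul]
      | succ m ih =>
        intro s
        rw [pow_succ, mul_smul, ih]
        have h1 := congrFun f1 (g • s)
        rw [rho_apply, inv_smul_smul] at h1
        exact h1
    have hF0 : f v₀ = 0 := by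
      ext s
      obtain ⟨s, hs⟩ := s
      obtain ⟨x, y, hxy, rfl⟩ := Finset.card_eq_two.mp hs
      have h1 := congrFun f2 ⟨{x, y}, hs⟩
      rw [rho_apply] at h1
      have h2 : z⁻¹ • (⟨{x, y}, hs⟩ : Set.powersetCard α 2) = g ^ (c - e.symm x - e.symm y).val • (⟨{x, y}, hs⟩ : Set.powersetCard α 2) := by
        apply Subtype.ext
        change z⁻¹ • ({x, y} : Finset α) = g ^ (c - e.symm x - e.symm y).val • ({x, y} : Finset α)
        rw [Finset.smul_finset_insert, Finset.smul_finset_singleton, Finset.smul_finset_insert, Finset.smul_finset_singleton]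
        have hx' : x = e (e.symm x) := (Equiv.apply_symm_apply _ _).symm
        have hy' : y = e (e.symm y) := (Equiv.apply_symm_apply _ _).symm
        have h3 : g ^ (c - e.symm x - e.symm y).val • x = z⁻¹ • y := by
          rw [hz']
          conv_lhs => rw [hx']
          rw [pow_act he, ZMod.natCast_zmod_val]
          congr 1
          rw [Equiv.symm_apply_apply]
          ring
        have h4 : g ^ (c - e.symm x - e.symm y).val • y = z⁻¹ • x := by
          rw [hz']
          conv_lhs => rw [hy']
          rw [pow_act he, ZMod.natCast_zmod_val]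
          congr 1
          rw [Equiv.symm_apply_apply]
          ring
        rw [h3, h4, Finset.pair_comm]
      rw [h2, hginv, Pi.neg_apply] at h1
      have h3 : (2 : ZMod p) * f v₀ ⟨{x, y}, hs⟩ = 0 := by
        have : (2 : ZMod p) * f v₀ ⟨{x, y}, hs⟩ = f v₀ ⟨{x, y}, hs⟩ - (-(f v₀ ⟨{x, y}, hs⟩)) := by ring
        rw [this, h1, sub_self]
      rcases mul_eq_zero.mp h3 with h4 | h4
      · exact absurd h4 htwo
      · exact h4
    -- kernel
    let U : Subrepresentation (Cfsg.permRep (ZMod p) G α) :=
      { toSubmodule := (LinearMap.ker f.toLinearMap).map (Cfsg.permSumZero (ZMod p) G α).toSubmodule.subtype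
        apply_mem_toSubmodule := by
          rintro k _ ⟨v, hv, rfl⟩
          refine ⟨(Cfsg.permSumZero (ZMod p) G α).toRepresentation k v, ?_, rfl⟩
          change f ((Cfsg.permSumZero (ZMod p) G α).toRepresentation k v) = 0
          have hv' : f v = 0 := hv
          rw [hfeq, hv', map_zero] }
    have hU2 : U.toSubmodule ≤ (Cfsg.permSumZero (ZMod p) G α).toSubmodule := by
      rintro _ ⟨v, hv, rfl⟩
      exact v.2
    have hU1 : (Cfsg.permConstants (ZMod p) G α).toSubmodule ≤ U.toSubmodule := by
      intro v hv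
      obtain ⟨d, rfl⟩ := mem_const.mp hv
      have hd : (fun _ => d) ∈ (Cfsg.permSumZero (ZMod p) G α).toSubmodule := by
        rw [mem_sumZero]
        simp [hα]
      exact ⟨⟨_, hd⟩, hf _ (mem_const.mpr ⟨d, rfl⟩), rfl⟩
    have hioU : io' ∈ U.toSubmodule := ⟨v₀, hF0, rfl⟩
    rcases s0674 hα G hG U hU1 hU2 with h | h
    · exfalso
      rw [h] at hioU
      obtain ⟨d, hd⟩ := mem_const.mp hioU
      have h0 := congrFun hd (e 0)
      have h1 := congrFun hd (e 1)
      simp only [io', Equiv.symm_apply_apply] at h0 h1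
      rw [← h0] at h1
      exact one_ne_zero h1
    · apply Representation.IntertwiningMap.ext
      ext1 v
      have hv : (v : α → ZMod p) ∈ U.toSubmodule := by
        rw [h]
        exact v.2
      obtain ⟨w, hw, hwv⟩ := hv
      have : w = v := Subtype.ext hwv
      rw [← this]
      exact hw

end PD

end Cfsg.Agent.Lib.H3PermModD
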