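import Mathlib
import Cfsg.Prelude.Def_Perm
import Cfsg.Agent.Lib.Basic
import Cfsg.Agent.Lib.Hall
import Cfsg.Agent.Lib.PermTwo
import Cfsg.Agent.Lib.H3PermMod
import Cfsg.Agent.Lib.H3PermModB
import Cfsg.Agent.Lib.H3PermModC
import Cfsg.Agent.Lib.H3PermModD
import Cfsg.Agent.Lib.H3Trans

/-!
Subgroups of prime index in groups of prime degree (helper3).
-/

set_option autoImplicit false
set_option maxHeartbeats 400000
set_option linter.unusedVariables false
set_option linter.unusedSectionVars false
set_option linter.unusedFintypeInType false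

namespace Cfsg.Agent.Lib.H3PermModE

open Subgroup MulAction Cfsg.Agent.Lib.PermTwo Cfsg.Agent.Lib.H3PermMod Cfsg.Agent.Lib.H3PermModB Cfsg.Agent.Lib.H3PermModC Cfsg.Agent.Lib.H3PermModD Cfsg.Agent.Lib.Hall
open scoped Pointwise

section Count
variable {S : Type*} [Group S] [Finite S] {X : Type*} [Finite X] [MulAction S X]

/-- Burnside's lemma -/
theorem burnside_lemma [Fintype S] : ∑ s : S, Nat.card (fixedBy X s) = Nat.card (orbitRel.Quotient S X) * Nat.card S := by
  classical
  haveI := Fintype.ofFinite X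
  haveI : Fintype (orbitRel.Quotient S X) := Fintype.ofFinite _
  have h := sum_card_fixedBy_eq_card_orbits_mul_card_group S X
  rw [Nat.card_eq_fintype_card, Nat.card_eq_fintype_card]
  rw [← h]
  apply Finset.sum_congr rfl
  intro s _
  rw [Nat.card_eq_fintype_card]

theorem orbits_le {Y : Type*} [Finite Y] (f : X → Y) (hf : ∀ x y, f x = f y → ∃ s : S, s • x = y) (hi : ∀ (s : S) x, f (s • x) = f x) (T : Set Y) (hT : ∀ x, f x ∈ T) : Nat.card (orbitRel.Quotient S X) ≤ T.ncard := by
  rw [← Nat.card_coe_set_eq]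
  let F : orbitRel.Quotient S X → T := Quotient.lift (fun x => (⟨f x, hT x⟩ : T)) (by
    intro x y hxy
    obtain ⟨s, hs⟩ := hxy
    apply Subtype.ext
    change f x = f y
    rw [← hs]
    exact hi s y)
  apply Nat.card_le_card_of_injective F
  intro q r h
  induction q using Quotient.inductionOn' with | h x => ?_
  induction r using Quotient.inductionOn' with | h y => ?_
  have h1 : f x = f y := congrArg Subtype.val h
  obtain ⟨s, hs⟩ := hf x y h1
  symm
  apply Quotient.sound'
  rw [orbitRel_apply]
  exact ⟨s, hs⟩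

theorem le_orbits {Y : Type*} (f : X → Y) (hi : ∀ (s : S) x, f (s • x) = f x) : Nat.card (Set.range f) ≤ Nat.card (orbitRel.Quotient S X) := by
  let F : orbitRel.Quotient S X → Set.range f := Quotient.lift (fun x => (⟨f x, ⟨x, rfl⟩⟩ : Set.range f)) (by
    intro x y hxy
    obtain ⟨s, hs⟩ := hxy
    apply Subtype.ext
    change f x = f y
    rw [← hs]
    exact hi s y)
  apply Nat.card_le_card_of_surjective F
  rintro ⟨_, ⟨x, rfl⟩⟩
  exact ⟨Quotient.mk'' x, rfl⟩

theorem card_fixed_prod {Y : Type*} [Finite Y] [MulAction S Y] (s : S) : Nat.card (fixedBy (X × Y) s) = Nat.card (fixedBy X s) * Nat.card (fixedBy Y s) := by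
  rw [← Nat.card_prod]
  apply Nat.card_congr
  refine ⟨fun z => (⟨z.1.1, congrArg Prod.fst z.2⟩, ⟨z.1.2, congrArg Prod.snd z.2⟩), fun z => ⟨(z.1, z.2), Prod.ext z.1.2 z.2.2⟩, fun z => rfl, fun z => rfl⟩

end Count

theorem char_eq {S : Type*} [Group S] [Finite S] {X Y : Type*} [Finite X] [Finite Y] [MulAction S X] [MulAction S Y]
    (hX : Nat.card (orbitRel.Quotient S (X × X)) ≤ 2) (hY : Nat.card (orbitRel.Quotient S (Y × Y)) ≤ 2) (hXY : 2 ≤ Nat.card (orbitRel.Quotient S (X × Y))) :
    ∀ s : S, Nat.card (fixedBy X s) = Nat.card (fixedBy Y s) := by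
  haveI := Fintype.ofFinite S
  have h1 := burnside_lemma (S := S) (X := X × X)
  have h2 := burnside_lemma (S := S) (X := Y × Y)
  have h3 := burnside_lemma (S := S) (X := X × Y)
  simp only [card_fixed_prod] at h1 h2 h3
  have h1' : (∑ s : S, ((Nat.card (fixedBy X s) : ℤ) * (Nat.card (fixedBy X s) : ℤ))) = Nat.card (orbitRel.Quotient S (X × X)) * Nat.card S := by
    exact_mod_cast h1
  have h2' : (∑ s : S, ((Nat.card (fixedBy Y s) : ℤ) * (Nat.card (fixedBy Y s) : ℤ))) = Nat.card (orbitRel.Quotient S (Y × Y)) * Nat.card S := by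
    exact_mod_cast h2
  have h3' : (∑ s : S, ((Nat.card (fixedBy X s) : ℤ) * (Nat.card (fixedBy Y s) : ℤ))) = Nat.card (orbitRel.Quotient S (X × Y)) * Nat.card S := by
    exact_mod_cast h3
  have hsum : ∑ s : S, ((Nat.card (fixedBy X s) : ℤ) - (Nat.card (fixedBy Y s) : ℤ)) ^ 2 ≤ 0 := by
    have h4 : ∑ s : S, ((Nat.card (fixedBy X s) : ℤ) - (Nat.card (fixedBy Y s) : ℤ)) ^ 2 =
        (∑ s : S, ((Nat.card (fixedBy X s) : ℤ) * (Nat.card (fixedBy X s) : ℤ))) + (∑ s : S, ((Nat.card (fixedBy Y s) : ℤ) * (Nat.card (fixedBy Y s) : ℤ))) - 2 * (∑ s : S, ((Nat.card (fixedBy X s) : ℤ) * (Nat.card (fixedBy Y s) : ℤ))) := by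
      rw [Finset.mul_sum, ← Finset.sum_add_distrib, ← Finset.sum_sub_distrib]
      apply Finset.sum_congr rfl
      intro s _
      ring
    rw [h4, h1', h2', h3']
    have hX' : (Nat.card (orbitRel.Quotient S (X × X)) : ℤ) ≤ 2 := by exact_mod_cast hX
    have hY' : (Nat.card (orbitRel.Quotient S (Y × Y)) : ℤ) ≤ 2 := by exact_mod_cast hY
    have hXY' : (2 : ℤ) ≤ Nat.card (orbitRel.Quotient S (X × Y)) := by exact_mod_cast hXY
    have hS : (0 : ℤ) ≤ Nat.card S := by positivity
    nlinarith
  have h5 := (Finset.sum_eq_zero_iff_of_nonneg (fun s _ => sq_nonneg _)).mp (le_antisymm hsum (Finset.sum_nonneg (fun s _ => sq_nonneg ((Nat.card (fixedBy X s) : ℤ) - (Nat.card (fixedBy Y s) : ℤ)))))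
  intro s
  have h6 := h5 s (Finset.mem_univ s)
  have h7 := pow_eq_zero_iff (two_ne_zero) |>.mp h6
  have h8 : (Nat.card (fixedBy X s) : ℤ) = (Nat.card (fixedBy Y s) : ℤ) := sub_eq_zero.mp h7
  exact_mod_cast h8

theorem rank_two {S : Type*} [Group S] [Finite S] {X : Type*} [Finite X] [MulAction S X] (h : IsMultiplyPretransitive S X 2) (hX : 2 ≤ Nat.card X) : Nat.card (orbitRel.Quotient S (X × X)) ≤ 2 := by
  classical
  have h1 : ∀ a b c d : X, a ≠ b → c ≠ d → ∃ g : S, g • a = c ∧ g • b = d := fun a b c d h3 h4 => is_two_pretransitive_iff.mp h h3 h4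
  haveI := h
  haveI : IsPretransitive S X := isPretransitive_of_is_two_pretransitive (G := S) (α := X)
  have h2 := orbits_le (S := S) (X := X × X) (Y := Prop) (fun z => z.1 = z.2) (by
    rintro ⟨a, b⟩ ⟨c, d⟩ hab
    simp only [eq_iff_iff] at hab
    by_cases h' : a = b
    · have hcd := hab.mp h'
      subst h' hcd
      obtain ⟨s, hs⟩ := exists_smul_eq S a c
      exact ⟨s, Prod.ext hs hs⟩
    · obtain ⟨s, hs1, hs2⟩ := h1 a b c d h' (fun hcd => h' (hab.mpr hcd))
      exact ⟨s, Prod.ext hs1 hs2⟩) (by
    rintro s ⟨a, b⟩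
    apply propext
    constructor
    · intro h'
      exact MulAction.injective s h'
    · intro h'
      have h'' : a = b := h'
      change s • a = s • b
      rw [h'']) Set.univ (fun _ => Set.mem_univ _)
  rw [Set.ncard_univ] at h2
  simpa using h2

/-- if `S` fixes `a` and is 2-transitive on the rest, it has at most five orbits on pairs -/
theorem rank_five {S : Type*} [Group S] [Finite S] {X : Type*} [Finite X] [MulAction S X] (a : X) (ha : ∀ s : S, s • a = a)
    (h1 : ∀ x y : X, x ≠ a → y ≠ a → ∃ s : S, s • x = y)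
    (h2 : ∀ x y z w : X, x ≠ a → y ≠ a → z ≠ a → w ≠ a → x ≠ y → z ≠ w → ∃ s : S, s • x = z ∧ s • y = w) : Nat.card (orbitRel.Quotient S (X × X)) ≤ 5 := by
  classical
  have hne : ∀ (s : S) (x : X), x ≠ a → s • x ≠ a := by
    intro s x hx h'
    apply hx
    rw [← ha s] at h'
    exact MulAction.injective s h'
  have hiff : ∀ (s : S) (x : X), s • x = a ↔ x = a := by
    intro s x
    constructor
    · intro h'
      by_contra hx
      exact hne s x hx h'
    · rintro rfl
      exact ha s
  have h3 := orbits_le (S := S) (X := X × X) (Y := Bool × Bool × Bool) (fun z => (decide (z.1 = a), decide (z.2 = a), decide (z.1 = z.2))) (by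
    rintro ⟨x, y⟩ ⟨z, w⟩ hab
    simp only [Prod.mk.injEq, decide_eq_decide] at hab
    obtain ⟨hxz, hyw, hxy⟩ := hab
    by_cases hx : x = a
    · have hz := hxz.mp hx
      by_cases hy : y = a
      · have hw := hyw.mp hy
        exact ⟨1, by rw [one_smul, hx, hy, hz, hw]⟩
      · have hw : w ≠ a := fun h' => hy (hyw.mpr h')
        obtain ⟨s, hs⟩ := h1 y w hy hw
        exact ⟨s, Prod.ext (by change s • x = z; rw [hx, hz, ha]) hs⟩
    · have hz : z ≠ a := fun h' => hx (hxz.mpr h')
      by_cases hy : y = a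
      · have hw := hyw.mp hy
        obtain ⟨s, hs⟩ := h1 x z hx hz
        exact ⟨s, Prod.ext hs (by change s • y = w; rw [hy, hw, ha])⟩
      · have hw : w ≠ a := fun h' => hy (hyw.mpr h')
        by_cases hxy' : x = y
        · have hzw := hxy.mp hxy'
          obtain ⟨s, hs⟩ := h1 x z hx hz
          exact ⟨s, Prod.ext hs (by change s • y = w; rw [← hxy', ← hzw, hs])⟩
        · have hzw : z ≠ w := fun h' => hxy' (hxy.mpr h')
          obtain ⟨s, hs1, hs2⟩ := h2 x y z w hx hy hz hw hxy' hzw
          exact ⟨s, Prod.ext hs1 hs2⟩) (by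
    rintro s ⟨x, y⟩
    simp only [Prod.mk.injEq, decide_eq_decide]
    refine ⟨hiff s x, hiff s y, ?_⟩
    constructor
    · intro h'
      exact MulAction.injective s h'
    · intro h'
      have h'' : x = y := h'
      change s • x = s • y
      rw [h'']) {(true, true, true), (true, false, false), (false, true, false), (false, false, true), (false, false, false)} (by
    rintro ⟨x, y⟩
    simp only [Set.mem_insert_iff, Set.mem_singleton_iff, Prod.mk.injEq, decide_eq_true_eq, decide_eq_false_iff_not]
    by_cases hx : x = a <;> by_cases hy : y = a <;> by_cases hxy : x = y <;> simp_all)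
  refine h3.trans ?_
  have : ({(true, true, true), (true, false, false), (false, true, false), (false, false, true), (false, false, false)} : Set (Bool × Bool × Bool)) = (({(true, true, true), (true, false, false), (false, true, false), (false, false, true), (false, false, false)} : Finset (Bool × Bool × Bool)) : Set (Bool × Bool × Bool)) := by
    simp
  rw [this, Set.ncard_coe_finset]
  decide

/-- intransitive and without fixed points: at least six orbits on pairs -/
theorem rank_six {S : Type*} [Group S] [Finite S] {X : Type*} [Finite X] [MulAction S X] (hnt : ¬ IsPretransitive S X) (hnf : ∀ x : X, ∃ s : S, s • x ≠ x) (hne : Nonempty X) : 6 ≤ Nat.card (orbitRel.Quotient S (X × X)) := by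
  classical
  obtain ⟨x⟩ := hne
  obtain ⟨y, hy⟩ : ∃ y, y ∉ orbit S x := by
    by_contra hcon
    push Not at hcon
    exact hnt (isPretransitive_of_orbit_eq_univ (a := x) (Set.eq_univ_of_forall hcon))
  obtain ⟨s, hs⟩ := hnf x
  obtain ⟨t, ht⟩ := hnf y
  have hiff : ∀ (s : S) (z : X), s • z ∈ orbit S x ↔ z ∈ orbit S x := by
    intro s z
    constructor
    · rintro ⟨t, ht⟩
      exact ⟨s⁻¹ * t, by
        change (s⁻¹ * t) • x = z
        rw [mul_smul]
        have ht' : t • x = s • z := ht
        rw [ht', inv_smul_smul]⟩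
    · rintro ⟨t, rfl⟩
      exact ⟨s * t, mul_smul s t x⟩
  have hx : x ∈ orbit S x := mem_orbit_self x
  have hsx : s • x ∈ orbit S x := (hiff s x).mpr hx
  have hty : t • y ∉ orbit S x := fun h' => hy ((hiff t y).mp h')
  let f : X × X → Bool × Bool × Bool := fun z => (decide (z.1 ∈ orbit S x), decide (z.2 ∈ orbit S x), decide (z.1 = z.2))
  have h3 := le_orbits (S := S) (X := X × X) f (by
    rintro s ⟨x', y'⟩
    simp only [f, Prod.mk.injEq, decide_eq_decide]
    refine ⟨hiff s x', hiff s y', ?_⟩
    constructor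
    · intro h'
      exact MulAction.injective s h'
    · intro h'
      have h'' : x' = y' := h'
      change s • x' = s • y'
      rw [h''])
  refine le_trans ?_ h3
  have hsub : (({(true, true, true), (true, true, false), (false, false, true), (false, false, false), (true, false, false), (false, true, false)} : Finset (Bool × Bool × Bool)) : Set (Bool × Bool × Bool)) ⊆ Set.range f := by
    intro z hz
    simp only [Finset.coe_insert, Finset.coe_singleton, Set.mem_insert_iff, Set.mem_singleton_iff] at hz
    rcases hz with rfl | rfl | rfl | rfl | rfl | rfl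
    · exact ⟨(x, x), by simp [f, hx]⟩
    · exact ⟨(x, s • x), by simp [f, hx, hsx, Ne.symm hs]⟩
    · exact ⟨(y, y), by simp [f, hy]⟩
    · exact ⟨(y, t • y), by simp [f, hy, hty, Ne.symm ht]⟩
    · refine ⟨(x, y), ?_⟩
      have : x ≠ y := by rintro rfl; exact hy hx
      simp [f, hx, hy, this]
    · refine ⟨(y, x), ?_⟩
      have : y ≠ x := by rintro rfl; exact hy hx
      simp [f, hx, hy, this]
  rw [Nat.card_coe_set_eq]
  have h4 := Set.ncard_le_ncard hsub (Set.toFinite _)
  rw [Set.ncard_coe_finset] at h4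
  refine le_trans ?_ h4
  decide

theorem final_count {S : Type*} [Group S] [Finite S] {X Y : Type*} [Finite X] [Finite Y] [MulAction S X] [MulAction S Y]
    (hc : ∀ s : S, Nat.card (fixedBy X s) = Nat.card (fixedBy Y s)) (h5 : Nat.card (orbitRel.Quotient S (X × X)) ≤ 5) (h6 : 6 ≤ Nat.card (orbitRel.Quotient S (Y × Y))) : False := by
  haveI : Fintype S := Fintype.ofFinite S
  have b1 := burnside_lemma (S := S) (X := X × X)
  have b2 := burnside_lemma (S := S) (X := Y × Y)
  simp only [card_fixed_prod] at b1 b2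
  simp only [hc] at b1
  rw [b1] at b2
  have := Nat.eq_of_mul_eq_mul_right Nat.card_pos b2
  omega

theorem dvd_of_transitive {S : Type*} [Group S] [Finite S] {X : Type*} [Finite X] [MulAction S X] [hne : Nonempty X] (h : IsPretransitive S X) : Nat.card X ∣ Nat.card S := by
  obtain ⟨a⟩ := hne
  have h1 := card_orbit_mul_card_stabilizer (K := S) a
  rw [orbit_eq_univ, Nat.card_coe_set_eq, Set.ncard_univ] at h1
  exact ⟨_, h1.symm⟩

theorem stab_conj {G : Type*} [Group G] {X : Type*} [MulAction G X] {H : Subgroup G} {a : X} {g : G} (h : ∀ x : G, x ∈ H ↔ g * x * g⁻¹ ∈ stabilizer G a) : H = stabilizer G (g⁻¹ • a) := by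
  ext x
  rw [h, mem_stabilizer_iff, mem_stabilizer_iff, mul_smul, mul_smul]
  constructor
  · intro h1
    rw [eq_inv_smul_iff]
    exact h1
  · intro h1
    rw [eq_inv_smul_iff] at h1
    exact h1

theorem s0677 {α : Type*} [Fintype α] [DecidableEq α] {p : ℕ} [hp : Fact p.Prime] (hα : Fintype.card α = p) (G : Subgroup (Equiv.Perm α)) [MulAction.IsPretransitive G α] (P : Sylow p G) (heven : Even (Nat.card (Subgroup.normalizer ((P : Subgroup G) : Set G)))) (H : Subgroup G) (hH : H.index = p) : ∃ a : α, H = MulAction.stabilizer G a := by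
  classical
  haveI : NeZero p := ⟨hp.out.ne_zero⟩
  haveI : Nonempty α := Fintype.card_pos_iff.mp (by rw [hα]; exact hp.out.pos)
  obtain ⟨a⟩ : Nonempty α := inferInstance
  have hα' : Nat.card α = p := by rw [Nat.card_eq_fintype_card, hα]
  have hfac : (Nat.card G).factorization p = 1 := by
    have h1 := sylow_card hα G P
    rw [P.card_eq_multiplicity] at h1
    exact Nat.pow_right_injective hp.out.two_le (by simpa using h1)
  have hndvd : ∀ K : Subgroup G, K.index = p → ¬ p ∣ Nat.card K := by
    intro K hK hd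
    have h1 := K.card_mul_index
    rw [hK] at h1
    obtain ⟨m, hm⟩ := hd
    have h2 : p ^ 2 ∣ Nat.card G := ⟨m, by rw [← h1, hm]; ring⟩
    have h3 := (hp.out.pow_dvd_iff_le_factorization Nat.card_pos.ne').mp h2
    omega
  have hSidx : ∀ a : α, (stabilizer G a).index = p := by
    intro a
    rw [index_stabilizer, orbit_eq_univ, Set.ncard_univ, hα']
  by_cases hG : Group.IsSolvable G
  · have hHall : ∀ K : Subgroup G, K.index = p → IsHall ({p}ᶜ : Set ℕ) K := by
      intro K hK
      refine ⟨?_, ?_⟩
      · intro q hq hd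
        rw [Set.mem_compl_iff, Set.mem_singleton_iff]
        rintro rfl
        exact hndvd K hK hd
      · intro q hq hqp hd
        rw [hK] at hd
        rw [Set.mem_compl_iff, Set.mem_singleton_iff] at hqp
        exact hqp ((Nat.prime_dvd_prime_iff_eq hq hp.out).mp hd)
    obtain ⟨g, hg⟩ := hall_conj (sep_of_solvable _ hG) (solvCond_of_solvable _ hG) (hHall _ hH) (hHall _ (hSidx a))
    refine ⟨g⁻¹ • a, stab_conj ?_⟩
    intro x
    rw [← hg]
    rw [Subgroup.mem_pointwise_smul_iff_inv_smul_mem]
    have : (MulAut.conj g)⁻¹ • (g * x * g⁻¹) = x := by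
      rw [← map_inv, MulAut.smul_def, MulAut.conj_apply]
      group
    rw [this]
  · -- non-solvable
    have h3 := s0676 hα G hG P heven
    have h2 : IsMultiplyPretransitive G α 2 := (s0675 (by rw [hα]; exact hp.out) G).resolve_left hG
    have hp5 := five_le hα G hG
    -- faithful action on the cosets
    set φ : G →* Equiv.Perm (G ⧸ H) := MulAction.toPermHom G (G ⧸ H) with hφ
    have hker : φ.ker = ⊥ := by
      by_contra hne
      have hkn : φ.ker.Normal := inferInstance
      have htr0 : H3Trans.TrOff φ.ker (∅ : Set α) := by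
        rcases H3Trans.normal_PrOff (N := φ.ker) (s := (∅ : Set α)) (H3Trans.TrOff_of_multi h2 (by omega) (by simp)) (H3Trans.PrOff_of_multi h2 (by omega) (by simp)) with h | h
        · exact h
        · exfalso
          apply hne
          rw [eq_bot_iff]
          intro x hx
          rw [mem_bot]
          exact H3Trans.perm_faith (h x ⟨hx, fun c hc => absurd hc (Set.notMem_empty c)⟩)
      have htr : IsPretransitive φ.ker α := by
        refine ⟨fun x y => ?_⟩
        obtain ⟨n, hn, hxy⟩ := htr0 x y (Set.notMem_empty _) (Set.notMem_empty _)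
        exact ⟨⟨n, hn.1⟩, hxy⟩
      have h4 := dvd_of_transitive htr
      rw [hα'] at h4
      have h5 : φ.ker ≤ H := by
        intro x hx
        have h6 : φ x (QuotientGroup.mk 1) = QuotientGroup.mk 1 := by
          rw [MonoidHom.mem_ker.mp hx]
          rfl
        have h7 : (QuotientGroup.mk (x * 1) : G ⧸ H) = QuotientGroup.mk 1 := h6
        rw [mul_one, QuotientGroup.eq] at h7
        simpa using h7
      exact hndvd H hH (h4.trans (Subgroup.card_dvd_of_le h5))
    haveI : Finite (G ⧸ H) := inferInstance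
    haveI : Fintype (G ⧸ H) := Fintype.ofFinite _
    have hcardQ : Nat.card (G ⧸ H) = p := hH
    have hcardQ' : Fintype.card (G ⧸ H) = p := by rw [← Nat.card_eq_fintype_card, hcardQ]
    have hinj : Function.Injective φ := (MonoidHom.ker_eq_bot_iff φ).mp hker
    have hR2 : IsMultiplyPretransitive G (G ⧸ H) 2 := by
      haveI : IsPretransitive φ.range (G ⧸ H) := by
        refine ⟨fun x y => ?_⟩
        obtain ⟨g, hg⟩ := exists_smul_eq G x y
        exact ⟨⟨φ g, ⟨g, rfl⟩⟩, hg⟩
      have hns : ¬ Group.IsSolvable φ.range := by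
        intro hs
        apply hG
        exact Group.isSolvable_of_isSolvable_injective (f := φ.rangeRestrict) (by
          intro x y hxy
          exact hinj (congrArg Subtype.val hxy))
      have h4 := (s0675 (α := G ⧸ H) (by rw [hcardQ']; exact hp.out) φ.range).resolve_left hns
      refine ⟨fun x y => ?_⟩
      obtain ⟨⟨_, ⟨g, rfl⟩⟩, hg⟩ := h4.exists_smul_eq x y
      exact ⟨g, hg⟩
    have hor : 2 ≤ Nat.card (orbitRel.Quotient G (α × (G ⧸ H))) := by
      by_contra hcon
      have h4 : Nat.card (orbitRel.Quotient G (α × (G ⧸ H))) ≤ 1 := by omega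
      rw [Finite.card_le_one_iff_subsingleton] at h4
      have h5 : IsPretransitive H α := by
        refine ⟨fun x y => ?_⟩
        have h6 : (Quotient.mk'' (y, (QuotientGroup.mk 1 : G ⧸ H)) : orbitRel.Quotient G (α × (G ⧸ H))) = Quotient.mk'' (x, (QuotientGroup.mk 1 : G ⧸ H)) := Subsingleton.elim _ _
        have h7 : (orbitRel G (α × (G ⧸ H))) (y, (QuotientGroup.mk 1 : G ⧸ H)) (x, (QuotientGroup.mk 1 : G ⧸ H)) := Quotient.exact' h6
        rw [orbitRel_apply] at h7
        obtain ⟨g, hg⟩ := h7
        have hg1 : g • x = y := congrArg Prod.fst hg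
        have hg2 : (QuotientGroup.mk (g * 1) : G ⧸ H) = QuotientGroup.mk 1 := congrArg Prod.snd hg
        rw [mul_one, QuotientGroup.eq] at hg2
        have hgH : g ∈ H := by simpa using hg2
        exact ⟨⟨g, hgH⟩, hg1⟩
      have h8 := dvd_of_transitive h5
      rw [hα'] at h8
      exact hndvd H hH h8
    have hchar := char_eq (S := G) (X := α) (Y := G ⧸ H) (rank_two h2 (by omega)) (rank_two hR2 (by omega)) hor
    -- the point stabiliser
    set S := stabilizer G a with hS
    by_cases hfix : ∃ ω : G ⧸ H, ∀ s : S, s • ω = ω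
    · obtain ⟨ω, hω⟩ := hfix
      obtain ⟨g, rfl⟩ := QuotientGroup.mk_surjective ω
      have hle : S ≤ H.map (MulAut.conj g).toMonoidHom := by
        intro x hx
        have h4 : (QuotientGroup.mk (x * g) : G ⧸ H) = QuotientGroup.mk g := hω ⟨x, hx⟩
        rw [eq_comm, QuotientGroup.eq] at h4
        exact ⟨_, h4, by change g * (g⁻¹ * (x * g)) * g⁻¹ = x; group⟩
      have hcard : Nat.card (H.map (MulAut.conj g).toMonoidHom) = Nat.card S := by
        have h4 : Nat.card (H.map (MulAut.conj g).toMonoidHom) = Nat.card H := card_map_of_injective (f := (MulAut.conj g).toMonoidHom) (MulAut.conj g).injective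
        have h5 := H.card_mul_index
        have h6 := S.card_mul_index
        rw [hH] at h5
        rw [hS, hSidx a, ← hS] at h6
        rw [h4]
        exact Nat.eq_of_mul_eq_mul_right hp.out.pos (h5.trans h6.symm)
      have heq : S = H.map (MulAut.conj g).toMonoidHom := Subgroup.eq_of_le_of_card_ge hle hcard.le
      refine ⟨g⁻¹ • a, stab_conj ?_⟩
      intro x
      rw [← hS, heq]
      constructor
      · intro hx
        exact ⟨x, hx, rfl⟩
      · rintro ⟨y, hy, hyx⟩
        have h4 : g * y * g⁻¹ = g * x * g⁻¹ := hyx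
        have h5 : y = x := by
          have := congrArg (fun t => g⁻¹ * t * g) h4
          simpa [mul_assoc] using this
        rw [← h5]
        exact hy
    · exfalso
      push Not at hfix
      have hnt : ¬ IsPretransitive S (G ⧸ H) := by
        intro h4
        have h5 := dvd_of_transitive h4
        rw [hcardQ] at h5
        exact hndvd S (hSidx a) h5
      have h6 := rank_six hnt hfix ⟨QuotientGroup.mk 1⟩
      have h2' : ∀ x y z w : α, x ≠ y → z ≠ w → ∃ g : G, g • x = z ∧ g • y = w := fun a b c d h4 h5 => is_two_pretransitive_iff.mp h2 h4 h5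
      have h5 := rank_five (S := S) a (fun s => s.2) (by
        intro x y hx hy
        obtain ⟨g, hg1, hg2⟩ := h2' a x a y hx.symm hy.symm
        exact ⟨⟨g, hg1⟩, hg2⟩) (by
        intro x y z w hx hy hz hw hxy hzw
        have mk : ∀ u v : α, u ≠ a → v ≠ a → u ≠ v → ∃ t : Fin 3 ↪ α, t 0 = a ∧ t 1 = u ∧ t 2 = v := by
          intro u v hu hv huv
          refine ⟨⟨![a, u, v], ?_⟩, rfl, rfl, rfl⟩
          intro i j hij
          fin_cases i <;> fin_cases j <;> simp_all
        obtain ⟨t, ht0, ht1, ht2⟩ := mk x y hx hy hxy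
        obtain ⟨r, hr0, hr1, hr2⟩ := mk z w hz hw hzw
        obtain ⟨g, hg⟩ := h3.exists_smul_eq t r
        have hgi : ∀ i, g • (t i) = r i := fun i => DFunLike.congr_fun hg i
        refine ⟨⟨g, ?_⟩, ?_, ?_⟩
        · have := hgi 0
          rw [ht0, hr0] at this
          exact this
        · have := hgi 1
          rw [ht1, hr1] at this
          exact this
        · have := hgi 2
          rw [ht2, hr2] at this
          exact this)
      exact final_count (S := S) (X := α) (Y := G ⧸ H) (fun s => hchar (s : G)) h5 h6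

end Cfsg.Agent.Lib.H3PermModE
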