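import Cfsg.Agent.Lib.Hall
import Cfsg.Agent.Lib.PNilp
import Cfsg.Agent.Lib.CoprimeB
import Cfsg.Agent.Lib.QuadB
import Cfsg.Agent.Lib.Nilp
import Cfsg.Prelude.Def_SolvableStructure

/-!
Hall complement systems and system normalizers.
-/

set_option autoImplicit false
set_option linter.unusedSectionVars false
set_option linter.unusedVariables false

namespace Cfsg.Agent.Lib.HallSys

open Subgroup Cfsg.Agent.Lib Cfsg.Agent.Lib.Hall
open scoped commutatorElement Pointwise

universe u v

variable {G : Type u} [Group G]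

/-- Hall `p`-complements -/
def HC (p : ℕ) (H : Subgroup G) : Prop := (∃ k, H.index = p ^ k) ∧ (Nat.card H).Coprime p

theorem hc_iff [Finite G] {p : ℕ} (hp : p.Prime) {H : Subgroup G} : H.index = p ^ (Nat.card G).factorization p ↔ HC p H := by
  have hG : Nat.card G ≠ 0 := Nat.card_pos.ne'
  have hH : Nat.card H ≠ 0 := Nat.card_pos.ne'
  have hmul := H.card_mul_index
  constructor
  · intro h
    refine ⟨⟨_, h⟩, ?_⟩
    have h1 : (Nat.card G).factorization p = (Nat.card H).factorization p + (Nat.card G).factorization p := by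
      conv_lhs => rw [← hmul, Nat.factorization_mul hH Subgroup.index_ne_zero_of_finite]
      rw [Finsupp.add_apply, h, hp.factorization_pow, Finsupp.single_eq_same]
    have h2 : (Nat.card H).factorization p = 0 := by omega
    have h3 : ¬ p ∣ Nat.card H := by
      intro hd
      have := (hp.dvd_iff_one_le_factorization hH).mp hd
      omega
    exact ((Nat.Prime.coprime_iff_not_dvd hp).2 h3).symm
  · rintro ⟨⟨k, hk⟩, hc⟩
    have h3 : ¬ p ∣ Nat.card H := (Nat.Prime.coprime_iff_not_dvd hp).1 hc.symm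
    have h1 : (Nat.card G).factorization p = k := by
      rw [← hmul, Nat.factorization_mul hH Subgroup.index_ne_zero_of_finite, Finsupp.add_apply, hk, hp.factorization_pow,
        Finsupp.single_eq_same, Nat.factorization_eq_zero_of_not_dvd h3, zero_add]
    rw [h1, hk]

theorem sys_iff [Finite G] {K : Nat.Primes → Subgroup G} : Cfsg.IsComplementSystem K ↔ ∀ p : Nat.Primes, HC (p : ℕ) (K p) :=
  forall_congr' fun p => hc_iff p.2

theorem HC.isHall [Finite G] {p : ℕ} (hp : p.Prime) {H : Subgroup G} (h : HC p H) : IsHall {p}ᶜ H := by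
  obtain ⟨⟨k, hk⟩, hc⟩ := h
  refine ⟨fun q hq hd => ?_, fun q hq hqp hd => ?_⟩
  · rintro rfl
    exact hq.one_lt.ne' (Nat.dvd_one.mp (hc ▸ Nat.dvd_gcd hd (dvd_refl _)))
  · rw [hk] at hd
    exact hqp ((Nat.prime_dvd_prime_iff_eq hq hp).mp (hq.dvd_of_dvd_pow hd))

theorem HC.of_isHall [Finite G] {p : ℕ} (hp : p.Prime) {H : Subgroup G} (h : IsHall {p}ᶜ H) : HC p H := by
  refine ⟨?_, ?_⟩
  · have h1 : ∀ {d : ℕ}, d.Prime → d ∣ H.index → d = p := by
      intro d hd hdi
      by_contra hne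
      exact h.2 d hd hne hdi
    exact ⟨_, Nat.eq_prime_pow_of_unique_prime_dvd Subgroup.index_ne_zero_of_finite (fun {d} hd hdi => h1 hd hdi)⟩
  · rw [Nat.coprime_comm, Nat.Prime.coprime_iff_not_dvd hp]
    intro hd
    exact h.1 p hp hd rfl

theorem exists_hc [Finite G] (hG : Group.IsSolvable G) {p : ℕ} (hp : p.Prime) : ∃ H : Subgroup G, HC p H := by
  obtain ⟨H, hH⟩ := exists_isHall (π := {p}ᶜ) (sep_of_solvable _ hG)
  exact ⟨H, HC.of_isHall hp hH⟩

theorem exists_sys [Finite G] (hG : Group.IsSolvable G) : ∃ K : Nat.Primes → Subgroup G, Cfsg.IsComplementSystem K := by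
  choose K hK using fun p : Nat.Primes => exists_hc hG p.2
  exact ⟨K, sys_iff.mpr hK⟩

theorem exists_hc_ge [Finite G] (hG : Group.IsSolvable G) {p : ℕ} (hp : p.Prime) {X : Subgroup G} (hX : (Nat.card X).Coprime p) :
    ∃ H : Subgroup G, HC p H ∧ X ≤ H := by
  obtain ⟨H, hH, hXH⟩ := exists_hall_ge (π := {p}ᶜ) (sep_of_solvable _ hG) (solvCond_of_solvable _ hG) (K := X) (by
    intro q hq hd
    rintro rfl
    exact hq.one_lt.ne' (Nat.dvd_one.mp (hX ▸ Nat.dvd_gcd hd (dvd_refl _))))
  exact ⟨H, HC.of_isHall hp hH, hXH⟩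

theorem HC.eq_top [Finite G] {p : ℕ} (hp : p.Prime) {H : Subgroup G} (h : HC p H) (hd : ¬ p ∣ Nat.card G) : H = ⊤ := by
  obtain ⟨⟨k, hk⟩, -⟩ := h
  rw [← index_eq_one, hk]
  rcases Nat.eq_zero_or_pos k with h0 | h0
  · rw [h0, pow_zero]
  · exfalso
    apply hd
    exact (dvd_pow_self p h0.ne').trans (hk ▸ H.index_dvd_card)

theorem HC.conj_smul [Finite G] {p : ℕ} (hp : p.Prime) {H : Subgroup G} (h : HC p H) (g : G) : HC p (MulAut.conj g • H) :=
  HC.of_isHall hp ((h.isHall hp).conj g)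

theorem smul_mono {X Y : Subgroup G} (g : G) (h : X ≤ Y) : MulAut.conj g • X ≤ MulAut.conj g • Y :=
  Subgroup.map_mono h

theorem conj_in [Finite G] (hG : Group.IsSolvable G) {p : ℕ} (hp : p.Prime) {H H' M : Subgroup G} (h : HC p H) (h' : HC p H')
    (hM : H ≤ M) (hM' : H' ≤ M) : ∃ m ∈ M, MulAut.conj m • H = H' := by
  have h1 : IsHall {p}ᶜ (H.subgroupOf M) := (h.isHall hp).subgroupOf_of_le hM
  have h2 : IsHall {p}ᶜ (H'.subgroupOf M) := (h'.isHall hp).subgroupOf_of_le hM'
  have hs : Group.IsSolvable M := inferInstance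
  obtain ⟨m, hm⟩ := hall_conj (sep_of_solvable _ hs) (solvCond_of_solvable _ hs) h1 h2
  refine ⟨m, m.2, ?_⟩
  have h3 : (MulAut.conj m • H.subgroupOf M).map M.subtype = MulAut.conj (m : G) • ((H.subgroupOf M).map M.subtype) := by
    ext x
    constructor
    · rintro ⟨_, ⟨y, hy, rfl⟩, rfl⟩
      exact ⟨y, ⟨y, hy, rfl⟩, rfl⟩
    · rintro ⟨_, ⟨y, hy, rfl⟩, rfl⟩
      exact ⟨_, ⟨y, hy, rfl⟩, rfl⟩
  rw [hm, map_subgroupOf_eq_of_le hM, map_subgroupOf_eq_of_le hM'] at h3
  exact h3.symm

/-- **simultaneous conjugation** -/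
theorem simul [Finite G] (N : Subgroup G) (K L : Nat.Primes → Subgroup G) (S : Finset Nat.Primes)
    (hL : ∀ p ∈ S, ∃ k, (normalizer (L p : Set G)).relIndex N = (p : ℕ) ^ k)
    (h : ∀ p ∈ S, ∃ n ∈ N, MulAut.conj n • K p = L p) :
    (∃ n ∈ N, ∀ p ∈ S, MulAut.conj n • K p = L p) ∧
      ∀ q : ℕ, q.Prime → (∀ p ∈ S, (p : ℕ) ≠ q) → ¬ q ∣ (S.inf fun p => (normalizer (L p : Set G)).subgroupOf N).index := by
  classical
  induction S using Finset.induction_on with
  | empty =>
    refine ⟨⟨1, one_mem _, by simp⟩, ?_⟩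
    intro q hq _ hd
    rw [Finset.inf_empty, index_top] at hd
    exact hq.one_lt.ne' (Nat.dvd_one.mp hd)
  | insert q S hq ih =>
    obtain ⟨⟨n0, hn0, hn0K⟩, hidx⟩ := ih (fun p hp => hL p (Finset.mem_insert_of_mem hp)) (fun p hp => h p (Finset.mem_insert_of_mem hp))
    obtain ⟨m0, hm0, hm0K⟩ := h q (Finset.mem_insert_self q S)
    obtain ⟨k, hk⟩ := hL q (Finset.mem_insert_self q S)
    set A : Subgroup N := S.inf fun p => (normalizer (L p : Set G)).subgroupOf N with hA
    set B : Subgroup N := (normalizer (L q : Set G)).subgroupOf N with hB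
    have hBk : B.index = (q : ℕ) ^ k := hk
    have hcop : B.index.Coprime A.index := by
      rw [hBk]
      apply Nat.Coprime.pow_left
      rw [Nat.Prime.coprime_iff_not_dvd q.2]
      refine hidx q q.2 fun p hp hpq => hq ?_
      have : p = q := Subtype.ext hpq
      rwa [← this]
    constructor
    · have hmem : (⟨m0 * n0⁻¹, N.mul_mem hm0 (N.inv_mem hn0)⟩ : N) ∈ ((B : Set N) * (A : Set N)) := by
        rw [Basic.mul_eq_univ_of_coprime_index hcop]; trivial
      obtain ⟨b, hb, a, ha, hab⟩ := hmem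
      have hab' : (b : G) * (a : G) = m0 * n0⁻¹ := congrArg Subtype.val hab
      have hbn : MulAut.conj (b : G) • L q = L q := Coprime.conj_smul_eq_of_mem_normalizer hb
      refine ⟨a * n0, N.mul_mem a.2 hn0, fun p hp => ?_⟩
      rcases Finset.mem_insert.mp hp with rfl | hp
      · have e1 : (a : G) * n0 = (b : G)⁻¹ * m0 := by
          have : (a : G) = (b : G)⁻¹ * (m0 * n0⁻¹) := by rw [← hab']; group
          rw [this]; group
        rw [e1, map_mul, mul_smul, hm0K, map_inv, inv_smul_eq_iff, hbn]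
      · rw [map_mul, mul_smul, hn0K p hp]
        apply Coprime.conj_smul_eq_of_mem_normalizer
        have h1 : A ≤ (normalizer (L p : Set G)).subgroupOf N := Finset.inf_le hp
        exact h1 ha
    · intro r hr hrS hd
      rw [Finset.inf_insert] at hd
      rw [Basic.card_inf_of_coprime_index hcop, hr.dvd_mul] at hd
      rcases hd with hd | hd
      · rw [hBk] at hd
        exact hrS q (Finset.mem_insert_self q S) ((Nat.prime_dvd_prime_iff_eq hr q.2).mp (hr.dvd_of_dvd_pow hd)).symm
      · exact hidx r hr (fun p hp => hrS p (Finset.mem_insert_of_mem hp)) hd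

theorem normalizer_index_pow [Finite G] {p : ℕ} (hp : p.Prime) {H : Subgroup G} (h : HC p H) (N : Subgroup G) [N.Normal] :
    ∃ k, (normalizer (H : Set G)).relIndex N = p ^ k := by
  obtain ⟨⟨k, hk⟩, -⟩ := h
  have h1 : (normalizer (H : Set G)).relIndex N ∣ p ^ k := by
    have h2 : (normalizer (H : Set G)).relIndex N = (normalizer (H : Set G)).relIndex (N ⊔ normalizer (H : Set G)) :=
      (CoprimeB.relIndex_sup_of_normalizes (N := N) (H := normalizer (H : Set G)) (by
        rw [Subgroup.normalizer_eq_top N]; exact le_top)).symm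
    rw [h2, ← hk]
    have h3 := Subgroup.relIndex_mul_index (le_sup_right : normalizer (H : Set G) ≤ N ⊔ normalizer (H : Set G))
    exact (Dvd.intro _ h3).trans (Subgroup.index_dvd_of_le (Subgroup.le_normalizer (H := H)))
  obtain ⟨j, -, hj⟩ := (Nat.dvd_prime_pow hp).mp h1
  exact ⟨j, hj⟩

/-- version for complement systems and all primes -/
theorem simul_sys [Finite G] (N : Subgroup G) [N.Normal] {K L : Nat.Primes → Subgroup G} (hK : ∀ p : Nat.Primes, HC (p : ℕ) (K p))
    (hL : ∀ p : Nat.Primes, HC (p : ℕ) (L p)) (h : ∀ p, ∃ n ∈ N, MulAut.conj n • K p = L p) :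
    ∃ n ∈ N, ∀ p, MulAut.conj n • K p = L p := by
  classical
  have hfin : {p : Nat.Primes | (p : ℕ) ∣ Nat.card G}.Finite := by
    apply Set.Finite.of_injOn (f := fun p : Nat.Primes => (p : ℕ)) (t := ((Nat.card G).primeFactors : Set ℕ))
    · intro p hp
      rw [Finset.mem_coe, Nat.mem_primeFactors]
      exact ⟨p.2, hp, Nat.card_pos.ne'⟩
    · exact fun a _ b _ hab => Subtype.ext hab
    · exact Finset.finite_toSet _
  obtain ⟨⟨n, hn, hnK⟩, -⟩ := simul N K L hfin.toFinset (fun p _ => normalizer_index_pow p.2 (hL p) N) (fun p _ => h p)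
  refine ⟨n, hn, fun p => ?_⟩
  by_cases hp : (p : ℕ) ∣ Nat.card G
  · exact hnK p (hfin.mem_toFinset.mpr hp)
  · rw [(hK p).eq_top p.2 hp, (hL p).eq_top p.2 hp]
    exact Subgroup.map_top_of_surjective _ (MulAut.conj n).surjective

theorem sys_conj [Finite G] (hG : Group.IsSolvable G) {K L : Nat.Primes → Subgroup G} (hK : Cfsg.IsComplementSystem K)
    (hL : Cfsg.IsComplementSystem L) : ∃ g : G, ∀ p : Nat.Primes, MulAut.conj g • K p = L p := by
  rw [sys_iff] at hK hL
  obtain ⟨g, -, hg⟩ := simul_sys (⊤ : Subgroup G) hK hL (fun p => conj_in hG p.2 (hK p) (hL p) le_top le_top)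
  exact ⟨g, hg⟩

theorem relIndex_pow [Finite G] {p : ℕ} (hp : p.Prime) {H : Subgroup G} (h : HC p H) {D : Subgroup G}
    (hD : D ≤ normalizer (H : Set G)) : ∃ k, H.relIndex D = p ^ k := by
  obtain ⟨⟨k, hk⟩, -⟩ := h
  have h1 : H.relIndex D ∣ p ^ k := by
    rw [← Basic.index_sup_of_normalizes hD, ← hk]
    exact Dvd.intro _ (Subgroup.relIndex_mul_index (le_sup_left : H ≤ H ⊔ D))
  obtain ⟨j, -, hj⟩ := (Nat.dvd_prime_pow hp).mp h1
  exact ⟨j, hj⟩

theorem sysNorm_le (K : Nat.Primes → Subgroup G) (p : Nat.Primes) : Cfsg.systemNormalizer K ≤ normalizer (K p : Set G) := iInf_le _ p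

theorem sysNorm_nilpotent [Finite G] {K : Nat.Primes → Subgroup G} (hK : Cfsg.IsComplementSystem K) :
    Group.IsNilpotent (Cfsg.systemNormalizer K) := by
  rw [sys_iff] at hK
  apply PNilp.isNilpotent_of_forall_pNil
  intro p hp
  have h1 := sysNorm_le K ⟨p, hp⟩
  haveI : ((K ⟨p, hp⟩).subgroupOf (Cfsg.systemNormalizer K)).Normal := Subgroup.normal_subgroupOf_of_le_normalizer h1
  refine ⟨(K ⟨p, hp⟩).subgroupOf (Cfsg.systemNormalizer K), inferInstance, ?_, relIndex_pow hp (hK ⟨p, hp⟩) h1⟩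
  have h2 : Nat.card ((K ⟨p, hp⟩).subgroupOf (Cfsg.systemNormalizer K)) ∣ Nat.card (K ⟨p, hp⟩) := by
    rw [← ThompsonJ.card_map_inj _ (Cfsg.systemNormalizer K).subtype_injective, subgroupOf_map_subtype]
    exact card_dvd_of_le inf_le_left
  exact Nat.Coprime.coprime_dvd_left h2 (hK ⟨p, hp⟩).2

theorem mem_normalizer_smul {X : Subgroup G} {g x : G} :
    x ∈ normalizer ((MulAut.conj g • X : Subgroup G) : Set G) ↔ g⁻¹ * x * g ∈ normalizer (X : Set G) := by
  rw [Coprime.mem_normalizer_iff_conj_smul_eq, Coprime.mem_normalizer_iff_conj_smul_eq, map_mul, map_mul, mul_smul, mul_smul,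
    map_inv, inv_smul_eq_iff]

theorem sysNorm_smul (K : Nat.Primes → Subgroup G) (g : G) :
    Cfsg.systemNormalizer (fun p => MulAut.conj g • K p) = MulAut.conj g • Cfsg.systemNormalizer K := by
  ext x
  rw [Subgroup.mem_pointwise_smul_iff_inv_smul_mem]
  unfold Cfsg.systemNormalizer
  rw [mem_iInf, mem_iInf]
  refine forall_congr' fun p => ?_
  rw [mem_normalizer_smul]
  have : (MulAut.conj g)⁻¹ • x = g⁻¹ * x * g := by
    rw [← map_inv, MulAut.smul_def, MulAut.conj_apply, inv_inv]
  rw [this]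

theorem HC.map [Finite G] {p : ℕ} (hp : p.Prime) {H : Subgroup G} (h : HC p H) {Q : Type v} [Group Q] (f : G →* Q)
    (hf : Function.Surjective f) : HC p (H.map f) := by
  haveI : Finite Q := Finite.of_surjective f hf
  exact HC.of_isHall hp ((h.isHall hp).map hf)

theorem sys_map [Finite G] {K : Nat.Primes → Subgroup G} (hK : Cfsg.IsComplementSystem K) {Q : Type v} [Group Q] (f : G →* Q)
    (hf : Function.Surjective f) : Cfsg.IsComplementSystem (fun p => (K p).map f) := by
  haveI : Finite Q := Finite.of_surjective f hf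
  rw [sys_iff] at hK ⊢
  exact fun p => (hK p).map p.2 f hf

theorem sysNorm_quotient [Finite G] (hG : Group.IsSolvable G) {K : Nat.Primes → Subgroup G} (hK : Cfsg.IsComplementSystem K)
    (N : Subgroup G) [N.Normal] :
    Cfsg.systemNormalizer (fun p => (K p).map (QuotientGroup.mk' N)) = (Cfsg.systemNormalizer K).map (QuotientGroup.mk' N) := by
  rw [sys_iff] at hK
  apply le_antisymm
  · intro y hy
    obtain ⟨x, rfl⟩ := QuotientGroup.mk'_surjective N y
    unfold Cfsg.systemNormalizer at hy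
    rw [mem_iInf] at hy
    have h1 : ∀ p : Nat.Primes, ∃ n ∈ N, MulAut.conj n • K p = MulAut.conj x • K p := by
      intro p
      have h2 : MulAut.conj x • K p ≤ K p ⊔ N := by
        rintro _ ⟨k, hk, rfl⟩
        have h3 := (mem_normalizer_iff.mp (hy p) (QuotientGroup.mk' N k)).mp (mem_map_of_mem _ hk)
        obtain ⟨k', hk', hkk⟩ := h3
        have h4 : k'⁻¹ * (x * k * x⁻¹) ∈ N := by
          rw [← QuotientGroup.eq_one_iff]
          have : QuotientGroup.mk' N (k'⁻¹ * (x * k * x⁻¹)) = 1 := by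
            rw [map_mul, map_inv, hkk, map_mul, map_mul, map_inv]; group
          exact this
        have h5 : x * k * x⁻¹ = k' * (k'⁻¹ * (x * k * x⁻¹)) := by group
        show x * k * x⁻¹ ∈ _
        rw [h5]
        exact mul_mem (mem_sup_left hk') (mem_sup_right h4)
      obtain ⟨m, hm, hmK⟩ := conj_in hG p.2 (hK p) ((hK p).conj_smul p.2 x) le_sup_left h2
      rw [sup_comm, Basic.mem_sup_iff_left (N := N) (by rw [normalizer_eq_top]; exact le_top)] at hm
      obtain ⟨n, hn, k, hk, rfl⟩ := hm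
      refine ⟨n, hn, ?_⟩
      rw [← hmK, map_mul, mul_smul, Coprime.conj_smul_eq_of_mem_normalizer (le_normalizer hk)]
    obtain ⟨n, hn, hnK⟩ := simul_sys N hK (fun p => (hK p).conj_smul p.2 x) h1
    refine ⟨n⁻¹ * x, ?_, ?_⟩
    · show n⁻¹ * x ∈ Cfsg.systemNormalizer K
      unfold Cfsg.systemNormalizer
      rw [mem_iInf]
      intro p
      apply Coprime.mem_normalizer_of_conj_smul_eq
      rw [map_mul, mul_smul, ← hnK p, map_inv, inv_smul_smul]
    · rw [map_mul, map_inv]
      have : QuotientGroup.mk' N n = 1 := (QuotientGroup.eq_one_iff n).2 hn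
      rw [this, inv_one, one_mul]
  · unfold Cfsg.systemNormalizer
    refine le_iInf fun p => ?_
    rintro _ ⟨x, hx, rfl⟩
    exact Subgroup.le_normalizer_map (QuotientGroup.mk' N) (mem_map_of_mem _ ((mem_iInf.mp hx) p))

theorem sysNorm_of_comm [IsMulCommutative G] (K : Nat.Primes → Subgroup G) : Cfsg.systemNormalizer K = ⊤ := by
  unfold Cfsg.systemNormalizer
  rw [eq_top_iff]
  refine le_iInf fun p => ?_
  intro x _
  rw [mem_normalizer_iff]
  intro y
  rw [mul_comm' x y, mul_assoc, mul_inv_cancel, mul_one]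

theorem normalClosure_sysNorm [Finite G] (hG : Group.IsSolvable G) {K : Nat.Primes → Subgroup G} (hK : Cfsg.IsComplementSystem K) :
    Subgroup.normalClosure ((Cfsg.systemNormalizer K : Subgroup G) : Set G) = ⊤ := by
  by_contra hne
  set M := Subgroup.normalClosure ((Cfsg.systemNormalizer K : Subgroup G) : Set G) with hM
  -- a normal subgroup with abelian quotient
  have h1 : M ⊔ commutator G ≠ ⊤ := by
    intro h
    have h2 : Group.IsSolvable (G ⧸ M) := inferInstance
    haveI : Nontrivial (G ⧸ M) := by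
      rw [QuotientGroup.nontrivial_iff]; exact hne
    have h3 : commutator (G ⧸ M) = ⊤ := by
      have h4 : (commutator G).map (QuotientGroup.mk' M) = ⊤ := by
        rw [← map_top_of_surjective _ (QuotientGroup.mk'_surjective M), ← h, Subgroup.map_sup]
        rw [show M.map (QuotientGroup.mk' M) = ⊥ by rw [Subgroup.map_eq_bot_iff, QuotientGroup.ker_mk'], bot_sup_eq]
      rw [eq_top_iff, ← h4, _root_.commutator_def, map_commutator]
      exact commutator_mono le_top le_top
    exact absurd h3 (IsSolvable.commutator_lt_top_of_nontrivial (G ⧸ M)).ne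
  set N := M ⊔ commutator G with hN
  haveI : N.Normal := inferInstance
  have h2 := sysNorm_quotient hG hK N
  haveI : IsMulCommutative (G ⧸ N) := by
    refine ⟨⟨fun a b => ?_⟩⟩
    obtain ⟨a, rfl⟩ := QuotientGroup.mk_surjective a
    obtain ⟨b, rfl⟩ := QuotientGroup.mk_surjective b
    rw [← QuotientGroup.mk_mul, ← QuotientGroup.mk_mul, QuotientGroup.eq]
    have : (a * b)⁻¹ * (b * a) = ⁅b⁻¹, a⁻¹⁆ := by rw [_root_.commutatorElement_def]; group
    rw [this]
    exact mem_sup_right (commutator_mem_commutator (mem_top _) (mem_top _))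
  rw [sysNorm_of_comm] at h2
  have h3 : (Cfsg.systemNormalizer K).map (QuotientGroup.mk' N) = ⊥ := by
    rw [Subgroup.map_eq_bot_iff, QuotientGroup.ker_mk']
    exact (Subgroup.subset_normalClosure (s := ((Cfsg.systemNormalizer K : Subgroup G) : Set G))).trans (SetLike.coe_subset_coe.mpr le_sup_left)
  rw [h3] at h2
  have h4 : Nontrivial (G ⧸ N) := by
    rw [QuotientGroup.nontrivial_iff]; exact h1
  exact absurd h2 (bot_ne_top.symm)

end Cfsg.Agent.Lib.HallSys
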