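import Cfsg.Agent.Lib.HallSys

/-!
Covering and avoidance for system normalizers; Carter subgroups.
-/

set_option autoImplicit false
set_option linter.unusedSectionVars false
set_option linter.unusedVariables false

namespace Cfsg.Agent.Lib.HallSysB

open Subgroup Cfsg.Agent.Lib Cfsg.Agent.Lib.Hall Cfsg.Agent.Lib.HallSys
open scoped commutatorElement Pointwise

universe u v

variable {G : Type u} [Group G]

theorem coprime_pow_one {a p k : ℕ} (h : a.Coprime p) (hd : p ^ k ∣ a) (hp : p.Prime) : p ^ k = 1 := by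
  rcases Nat.eq_zero_or_pos k with h0 | h0
  · rw [h0, pow_zero]
  · exfalso
    have h1 : p ∣ a := (dvd_pow_self p h0.ne').trans hd
    exact hp.one_lt.ne' (Nat.dvd_one.mp (h ▸ Nat.dvd_gcd h1 (dvd_refl _)))

/-- a Hall `p`-complement is a maximal `p'`-subgroup -/
theorem HC.eq_of_le [Finite G] {p : ℕ} (hp : p.Prime) {H T : Subgroup G} (h : HC p H) (hT : (Nat.card T).Coprime p) (hHT : H ≤ T) :
    H = T := by
  obtain ⟨⟨k, hk⟩, -⟩ := h
  have h1 := Subgroup.relIndex_mul_index hHT
  rw [hk] at h1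
  obtain ⟨j, -, hj⟩ := (Nat.dvd_prime_pow hp).mp (Dvd.intro _ h1)
  have h2 : H.relIndex T = 1 := by
    rw [hj]
    exact coprime_pow_one hT (hj ▸ Subgroup.relIndex_dvd_card H T) hp
  exact le_antisymm hHT (relIndex_eq_one.mp h2)

/-- a subgroup of a `p`-complement of `p`-power index is the `p`-complement -/
theorem HC.eq_of_le' [Finite G] {p : ℕ} (hp : p.Prime) {H T : Subgroup G} (h : HC p H) (hT : ∃ k, T.index = p ^ k) (hTH : T ≤ H) :
    T = H := by
  have hc : HC p T := ⟨hT, Nat.Coprime.coprime_dvd_left (card_dvd_of_le hTH) h.2⟩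
  exact HC.eq_of_le hp hc h.2 hTH

theorem HC.le_of_normal [Finite G] {p : ℕ} (hp : p.Prime) {H N : Subgroup G} (h : HC p H) [N.Normal] (hN : (Nat.card N).Coprime p) :
    N ≤ H := by
  have h1 : (Nat.card (N ⊔ H : Subgroup G)).Coprime p :=
    Cores.card_sup_coprime (by rw [normalizer_eq_top]; exact le_top) hN h.2
  rw [HC.eq_of_le hp h h1 le_sup_right]
  exact le_sup_left

theorem HC.normal_of_pNil [Finite G] {p : ℕ} (hp : p.Prime) {H : Subgroup G} (h : HC p H) (hG : PNilp.PNil p G) : H.Normal := by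
  obtain ⟨N, hN, hc, hi⟩ := hG
  haveI := hN
  have h1 := HC.le_of_normal hp h hc
  rw [← HC.eq_of_le' hp h hi h1]; exact hN

theorem pNil_of_isNilpotent [Finite G] {p : ℕ} (hp : p.Prime) (hG : Group.IsNilpotent G) : PNilp.PNil p G := by
  haveI : Fact p.Prime := ⟨hp⟩
  exact PNilp.pNil_of_isNilpotent hG

theorem isPGroup_of_exp [Finite G] {N : Subgroup G} {p : ℕ} (h : ∀ x ∈ N, x ^ p = 1) : IsPGroup p N :=
  fun x => ⟨1, Subtype.ext (by rw [pow_one]; exact h x x.2)⟩

/-- a noncentral minimal normal subgroup meets the system normalizer trivially -/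
theorem avoid [Finite G] (hG : Group.IsSolvable G) {K : Nat.Primes → Subgroup G} (hK : Cfsg.IsComplementSystem K) {V : Subgroup G}
    [hVn : V.Normal] (hV0 : V ≠ ⊥) (hmin : ∀ M : Subgroup G, M.Normal → M ≤ V → M = ⊥ ∨ M = V)
    (hnc : ¬ ⁅V, (⊤ : Subgroup G)⁆ = ⊥) : V ⊓ Cfsg.systemNormalizer K = ⊥ := by
  have hKs := hK
  rw [sys_iff] at hK
  obtain ⟨hab, q, hq, hqpow⟩ := Nilp.minimal_normal_solvable_elementary (G := G) (N := V) inferInstance hV0 hmin
  haveI : Fact q.Prime := ⟨hq⟩
  have hVq : IsPGroup q V := isPGroup_of_exp hqpow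
  set Kq := K ⟨q, hq⟩ with hKq
  have hHC : HC q Kq := hK ⟨q, hq⟩
  have hinf : V ⊓ Kq = ⊥ := Subgroup.inf_eq_bot_of_coprime (CoprimeB.card_coprime_of_isPGroup hHC.2 hVq).symm
  have h1 : V ⊓ Cfsg.systemNormalizer K ≤ V ⊓ centralizer (Kq : Set G) := by
    rintro x ⟨hxV, hxD⟩
    refine ⟨hxV, mem_centralizer_iff.mpr fun k hk => ?_⟩
    have hxn := sysNorm_le K ⟨q, hq⟩ hxD
    have h2 : x * k * x⁻¹ * k⁻¹ ∈ V ⊓ Kq := by
      refine ⟨?_, Kq.mul_mem ((mem_normalizer_iff.mp hxn k).mp hk) (Kq.inv_mem hk)⟩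
      have e : x * k * x⁻¹ * k⁻¹ = x * (k * x⁻¹ * k⁻¹) := by group
      rw [e]; exact V.mul_mem hxV (hVn.conj_mem _ (V.inv_mem hxV) k)
    rw [hinf, mem_bot, mul_inv_eq_one, mul_inv_eq_iff_eq_mul] at h2
    exact h2.symm
  set C := centralizer (V : Set G) with hC
  haveI hCn : C.Normal := by rw [hC]; infer_instance
  have hCtop : C ≠ ⊤ := by
    intro h
    apply hnc
    rw [commutator_eq_bot_iff_le_centralizer, ← le_centralizer_iff, ← hC, h]
  haveI : Nontrivial (G ⧸ C) := by
    rw [QuotientGroup.nontrivial_iff]; exact hCtop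
  obtain ⟨Mb, hMbn, hMb0, hMbmin⟩ := Basic.exists_minimal_normal' (G := G ⧸ C)
  haveI := hMbn
  obtain ⟨-, r, hr, hrpow⟩ := Nilp.minimal_normal_solvable_elementary (G := G ⧸ C) (N := Mb) inferInstance hMb0 hMbmin
  set π := QuotientGroup.mk' C with hπ
  have hπs : Function.Surjective π := QuotientGroup.mk'_surjective C
  set M := Mb.comap π with hM
  haveI hMn : M.Normal := by rw [hM]; infer_instance
  have hCM : C ≤ M := by
    intro c hc
    show π c ∈ Mb
    rw [show π c = 1 from (QuotientGroup.eq_one_iff c).2 hc]; exact one_mem _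
  have hMC : ¬ M ≤ C := by
    intro h
    apply hMb0
    rw [← map_comap_eq_self_of_surjective hπs Mb, Subgroup.map_eq_bot_iff, hπ, QuotientGroup.ker_mk']
    exact h
  have hVM : V ⊓ centralizer (M : Set G) = ⊥ := by
    rcases hmin (V ⊓ centralizer (M : Set G)) inferInstance inf_le_left with h | h
    · exact h
    · exfalso
      apply hMC
      rw [hC, le_centralizer_iff]
      rw [← h]; exact inf_le_right
  -- `r ≠ q`
  have hrq : r ≠ q := by
    rintro rfl
    have h2 : ⁅V, M⁆ ≠ V := by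
      intro h
      apply hV0
      refine QuadB.eq_bot_of_commutator (A := M) hVq (by rw [normalizer_eq_top]; exact le_top) (fun a ha => ⟨1, ?_⟩) le_rfl h
      rw [pow_one]
      have h3 : π (a ^ r) = 1 := by rw [map_pow]; exact hrpow _ ha
      exact (QuotientGroup.eq_one_iff _).mp h3
    have h3 : ⁅V, M⁆ ≤ V := Coprime.commutator_le_of_normalizes (by rw [normalizer_eq_top]; exact le_top)
    have h4 := (hmin ⁅V, M⁆ inferInstance h3).resolve_right h2
    apply hMC
    rwa [Coprime.commutator_eq_bot_iff_le_centralizer'] at h4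
  have h5 : M ≤ C ⊔ Kq := by
    have h6 : Mb ≤ Kq.map π := by
      haveI : Fact r.Prime := ⟨hr⟩
      apply HC.le_of_normal hq (hHC.map hq π hπs)
      exact Cores.card_coprime_of_isPGroup_ne hr hq hrq (isPGroup_of_exp hrpow)
    intro x hx
    obtain ⟨k, hk, hkx⟩ := h6 hx
    have h7 : x * k⁻¹ ∈ C := by
      rw [← QuotientGroup.eq_one_iff]
      have : π (x * k⁻¹) = 1 := by rw [map_mul, map_inv, hkx, mul_inv_cancel]
      exact this
    have e : x = (x * k⁻¹) * k := by group
    rw [e]; exact mul_mem (mem_sup_left h7) (mem_sup_right hk)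
  rw [eq_bot_iff, ← hVM]
  refine h1.trans (le_inf inf_le_left ?_)
  refine le_trans ?_ (centralizer_le h5)
  rw [QuadA.centralizer_sup]
  refine le_inf ?_ inf_le_right
  rw [le_centralizer_iff]
  exact centralizer_le (inf_le_left : V ⊓ centralizer (Kq : Set G) ≤ V)

theorem cover_avoid [Finite G] (hG : Group.IsSolvable G) {K : Nat.Primes → Subgroup G} (hK : Cfsg.IsComplementSystem K)
    {A B : Subgroup G} [A.Normal] [hBn : B.Normal] (hAB : A < B)
    (hchief : ∀ N : Subgroup G, N.Normal → A ≤ N → N ≤ B → N = A ∨ N = B) :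
    (⁅B, (⊤ : Subgroup G)⁆ ≤ A → B ≤ A ⊔ Cfsg.systemNormalizer K) ∧
      (¬ ⁅B, (⊤ : Subgroup G)⁆ ≤ A → B ⊓ Cfsg.systemNormalizer K ≤ A) := by
  set π := QuotientGroup.mk' A with hπ
  have hπs : Function.Surjective π := QuotientGroup.mk'_surjective A
  have hπk : π.ker = A := QuotientGroup.ker_mk' A
  have hq := sysNorm_quotient hG hK A
  haveI hBb : (B.map π).Normal := hBn.map _ hπs
  constructor
  · intro hcen b hb
    have h1 : π b ∈ Cfsg.systemNormalizer (fun p => (K p).map π) := by
      unfold Cfsg.systemNormalizer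
      rw [mem_iInf]
      intro p
      rw [mem_normalizer_iff]
      intro y
      obtain ⟨y, rfl⟩ := hπs y
      have h2 : π b * π y = π y * π b := by
        rw [← commutatorElement_eq_one_iff_mul_comm, ← map_commutatorElement]
        exact (QuotientGroup.eq_one_iff _).mpr (hcen (commutator_mem_commutator hb (mem_top y)))
      rw [h2, mul_assoc, mul_inv_cancel, mul_one]
    rw [hq] at h1
    obtain ⟨d, hd, hdb⟩ := h1
    have h3 : b * d⁻¹ ∈ A := by
      rw [← hπk, MonoidHom.mem_ker, map_mul, map_inv, hdb, mul_inv_cancel]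
    have e : b = (b * d⁻¹) * d := by group
    rw [e]; exact mul_mem (mem_sup_left h3) (mem_sup_right hd)
  · intro hnc
    have h1 : B.map π ⊓ Cfsg.systemNormalizer (fun p => (K p).map π) = ⊥ := by
      refine avoid inferInstance (sys_map hK π hπs) ?_ ?_ ?_
      · intro h
        rw [Subgroup.map_eq_bot_iff, hπk] at h
        exact absurd hAB (not_lt_of_ge h)
      · intro M hM hMB
        have h2 : A ≤ M.comap π := hπk.ge.trans (ker_le_comap π M)
        have h3 : M.comap π ≤ B := by
          intro x hx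
          obtain ⟨y, hy, hxy⟩ := hMB hx
          have h4 : x * y⁻¹ ∈ A := by
            rw [← hπk, MonoidHom.mem_ker, map_mul, map_inv, hxy, mul_inv_cancel]
          have e : x = (x * y⁻¹) * y := by group
          rw [e]; exact mul_mem (hAB.le h4) hy
        rcases hchief _ (hM.comap π) h2 h3 with h4 | h4
        · left
          rw [← map_comap_eq_self_of_surjective hπs M, h4, Subgroup.map_eq_bot_iff, hπk]
        · right
          rw [← map_comap_eq_self_of_surjective hπs M, h4]
      · intro h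
        apply hnc
        rw [← hπk, ← Subgroup.map_eq_bot_iff, map_commutator, map_top_of_surjective _ hπs]
        exact h
    rintro x ⟨hxB, hxD⟩
    have h2 : π x ∈ B.map π ⊓ Cfsg.systemNormalizer (fun p => (K p).map π) := by
      refine ⟨mem_map_of_mem π hxB, ?_⟩
      rw [hq]; exact mem_map_of_mem π hxD
    rw [h1, mem_bot] at h2
    exact (QuotientGroup.eq_one_iff x).mp h2

end Cfsg.Agent.Lib.HallSysB
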