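import Mathlib
import Cfsg.Agent.Lib.Herm17
import Cfsg.Agent.Lib.RCF3
import Cfsg.Agent.Lib.Herm18

/-! Centralizers of semisimple elements of `GU_n(q)`: determinants. -/

set_option linter.all false
set_option maxHeartbeats 400000

namespace Cfsg.Agent.Lib.Herm

open Matrix Cfsg.Agent.Lib.FinGal Cfsg.Agent.Lib.HilbN Cfsg.Agent.Lib.RCF

section Cyc

variable {F : Type*} [Field F] {σ : F ≃+* F} {V : Type*} [AddCommGroup V] [Module F V] [FiniteDimensional F V]

theorem aeval_mem_of_inv {T : V →ₗ[F] V} {W : Submodule F V} (hW : ∀ x ∈ W, T x ∈ W) (f : Polynomial F) :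
    ∀ x ∈ W, Polynomial.aeval T f x ∈ W := by
  intro x hx
  have hpow : ∀ k : ℕ, ∀ y ∈ W, (T ^ k) y ∈ W := by
    intro k
    induction k with
    | zero => intro y hy; exact hy
    | succ k ih =>
      intro y hy
      rw [pow_succ']
      exact hW _ (ih y hy)
  induction f using Polynomial.induction_on' with
  | add a b ha hb => rw [map_add, LinearMap.add_apply]; exact add_mem ha hb
  | monomial n a =>
    rw [Polynomial.aeval_monomial]
    show algebraMap F (Module.End F V) a ((T ^ n) x) ∈ W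
    rw [Module.algebraMap_end_apply]
    exact W.smul_mem _ (hpow n x hx)

theorem HF.exists_cyc_nd (B : HF σ V) {T : V →ₗ[F] V} {N : ℕ} (hN : 1 ≤ N) (hTN : T ^ N = 1)
    (hT : ∀ x y, B.h (T x) (T y) = B.h x y)
    (hss : ∀ p : Submodule F V, (∀ x ∈ p, T x ∈ p) → ∃ q : Submodule F V, (∀ x ∈ q, T x ∈ q) ∧ IsCompl p q)
    {w : V} (hw : B.h w w ≠ 0) : ∃ (w' : V) (W' : Submodule F V), (∀ x ∈ W', T x ∈ W') ∧ w' ∈ W' ∧ w' ≠ 0 ∧
      (∀ x ∈ W', ∃ f : Polynomial F, x = Polynomial.aeval T f w') ∧ (∀ x ∈ W', (∀ y ∈ W', B.h x y = 0) → x = 0) := by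
  classical
  let L : Polynomial F →ₗ[F] V := (LinearMap.applyₗ w) ∘ₗ (Polynomial.aeval T).toLinearMap
  have hL : ∀ f, L f = Polynomial.aeval T f w := fun f => rfl
  set W : Submodule F V := LinearMap.range L with hWd
  have hWT : ∀ x ∈ W, T x ∈ W := by
    rintro _ ⟨f, rfl⟩
    refine ⟨Polynomial.X * f, ?_⟩
    rw [hL, hL, map_mul, Polynomial.aeval_X]
    rfl
  have hwW : w ∈ W := ⟨1, by rw [hL, map_one]; rfl⟩
  have hpow : ∀ (U : Submodule F V), (∀ x ∈ U, T x ∈ U) → ∀ k : ℕ, ∀ y ∈ U, (T ^ k) y ∈ U := by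
    intro U hU k
    induction k with
    | zero => intro y hy; exact hy
    | succ k ih =>
      intro y hy
      rw [pow_succ']
      exact hU _ (ih y hy)
  have hTT : ∀ y, T ((T ^ (N - 1)) y) = y := by
    intro y
    have h1 : T * T ^ (N - 1) = 1 := by rw [← pow_succ', Nat.sub_add_cancel hN, hTN]
    exact LinearMap.congr_fun h1 y
  set R : Submodule F V := W ⊓ B.perp W with hR
  have hRT : ∀ x ∈ R, T x ∈ R := by
    rintro x ⟨hx1, hx2⟩
    refine ⟨hWT x hx1, ?_⟩
    intro y hy
    rw [← hTT y, hT]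
    exact hx2 _ (hpow W hWT _ y hy)
  obtain ⟨R', hR'T, hc⟩ := hss R hRT
  have hdec : ∀ v : V, ∃ (x : R) (y : R'), v = x + y := by
    intro v
    exact ⟨((Submodule.prodEquivOfIsCompl R R' hc).symm v).1, ((Submodule.prodEquivOfIsCompl R R' hc).symm v).2,
      ((Submodule.prodEquivOfIsCompl R R' hc).apply_symm_apply v).symm⟩
  obtain ⟨r, w', hrw⟩ := hdec w
  have hdisj := hc.disjoint
  rw [Submodule.disjoint_def] at hdisj
  have hw'W : (w' : V) ∈ W := by
    have : (w' : V) = w - r := by rw [hrw]; abel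
    rw [this]
    exact W.sub_mem hwW r.2.1
  refine ⟨w', R' ⊓ W, ?_, ⟨w'.2, hw'W⟩, ?_, ?_, ?_⟩
  · rintro x ⟨hx1, hx2⟩
    exact ⟨hR'T x hx1, hWT x hx2⟩
  · intro h0
    apply hw
    have h1 : w = r := by rw [hrw, h0, add_zero]
    rw [h1]
    exact r.2.2 _ r.2.1
  · rintro x ⟨hx1, hx2⟩
    obtain ⟨f, hf⟩ := hx2
    refine ⟨f, ?_⟩
    rw [hL] at hf
    have h1 : x - Polynomial.aeval T f w' = Polynomial.aeval T f r := by
      rw [← hf]
      conv_lhs => rw [hrw]
      rw [map_add]
      abel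
    have h2 : Polynomial.aeval T f (r : V) ∈ R := aeval_mem_of_inv hRT f _ r.2
    have h3 : x - Polynomial.aeval T f (w' : V) ∈ R' := R'.sub_mem hx1 (aeval_mem_of_inv hR'T f _ w'.2)
    have h4 := hdisj _ h2 (by rw [← h1]; exact h3)
    rw [h4, sub_eq_zero] at h1
    exact h1
  · rintro x ⟨hx1, hx2⟩ hx
    have h1 : x ∈ B.perp W := by
      intro y hy
      obtain ⟨a, b, hab⟩ := hdec y
      have hb : (b : V) ∈ W := by
        have : (b : V) = y - a := by rw [hab]; abel
        rw [this]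
        exact W.sub_mem hy a.2.1
      rw [hab, B.add_right, hx _ ⟨b.2, hb⟩, add_zero]
      rw [B.eq_zero_comm]
      exact a.2.2 x hx2
    exact hdisj x ⟨hx2, h1⟩ hx1

theorem HF.isCompl_perp (B : HF σ V) {W : Submodule F V} (h : ∀ x ∈ W, (∀ y ∈ W, B.h x y = 0) → x = 0) :
    IsCompl W (B.perp W) := by
  classical
  rw [isCompl_iff]
  constructor
  · rw [Submodule.disjoint_def]
    intro x hx hx'
    exact h x hx hx'
  · rw [codisjoint_iff, Submodule.eq_top_iff']
    intro y
    let b := Module.finBasis F W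
    obtain ⟨a, z, hz, hy⟩ := HF.nd_decomp (B := B) (v := fun i => (b i : V)) (by
      intro a ha
      have h1 : (∑ i, a i • (b i : V)) = 0 := by
        apply h
        · exact Submodule.sum_mem _ (fun i _ => W.smul_mem _ (b i).2)
        · intro y hy
          have h2 : (⟨y, hy⟩ : W) = ∑ j, b.repr ⟨y, hy⟩ j • b j := (b.sum_repr _).symm
          have h3 : y = ∑ j, b.repr ⟨y, hy⟩ j • (b j : V) := by
            have := congrArg Subtype.val h2
            rw [Submodule.coe_sum] at this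
            exact this
          rw [h3, B.sum_right]
          apply Finset.sum_eq_zero
          intro j _
          rw [B.smul_right, ha j, mul_zero]
      have h2 : (∑ i, a i • b i) = 0 := by
        apply Subtype.ext
        rw [Submodule.coe_sum]
        exact h1
      funext i
      exact Fintype.linearIndependent_iff.mp b.linearIndependent a h2 i) y
    rw [hy]
    apply Submodule.add_mem_sup
    · exact Submodule.sum_mem _ (fun i _ => W.smul_mem _ (b i).2)
    · intro x hx
      have h2 : (⟨x, hx⟩ : W) = ∑ j, b.repr ⟨x, hx⟩ j • b j := (b.sum_repr _).symm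
      have h3 : x = ∑ j, b.repr ⟨x, hx⟩ j • (b j : V) := by
        have := congrArg Subtype.val h2
        rw [Submodule.coe_sum] at this
        exact this
      rw [h3, B.sum_right]
      apply Finset.sum_eq_zero
      intro j _
      rw [B.smul_right]
      rw [HF.mem_perpF] at hz
      rw [hz j, mul_zero]

end Cyc

section Cent

variable {F : Type*} [Field F] {σ : F ≃+* F} {q n : ℕ}

theorem det_st (X : Matrix (Fin n) (Fin n) F) : (st σ X).det = σ X.det := by
  unfold st
  rw [Matrix.det_transpose]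
  exact (RingHom.map_det (σ : F →+* F) X).symm

theorem std_st (hσ2 : ∀ a, σ (σ a) = a) (X : Matrix (Fin n) (Fin n) F) (u v : Fin n → F) :
    (std σ hσ2 n).h (X *ᵥ u) v = (std σ hσ2 n).h u (st σ X *ᵥ v) := by
  show ∑ i, (∑ j, X i j * u j) * σ (v i) = ∑ j, u j * σ (∑ i, σ (X i j) * v i)
  simp only [Finset.sum_mul, map_sum, map_mul, hσ2, Finset.mul_sum]
  rw [Finset.sum_comm]
  apply Finset.sum_congr rfl
  intro j _
  apply Finset.sum_congr rfl
  intro i _
  ring

theorem exists_GU_cent_det [Finite F] {p : ℕ} [Fact p.Prime] [CharP F p] (hσ' : orderOf σ = 2) (hq : ∀ a, σ a = a ^ q)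
    (hn : 1 ≤ n) {A : GL (Fin n) F} (hA : A ∈ Cfsg.GU n F q) {N : ℕ} (hN : N.Coprime p) (hAN : A ^ N = 1) {μ : Fˣ}
    (hμ : μ ∈ NU σ) : ∃ Z ∈ Cfsg.GU n F q, Z * A = A * Z ∧ Matrix.GeneralLinearGroup.det Z = μ := by
  classical
  obtain ⟨hs1, hs2, hs3⟩ := sigma_facts hσ'
  set B := std σ hs1 n with hB
  have hnd : B.ND := std_nd hs1 n
  have hp : p.Prime := Fact.out
  have hN1 : 1 ≤ N := by
    rcases Nat.eq_zero_or_pos N with rfl | h
    · rw [Nat.coprime_zero_left] at hN
      exact absurd hN hp.ne_one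
    · exact h
  set T : (Fin n → F) →ₗ[F] (Fin n → F) := Matrix.toLin' (A : Matrix (Fin n) (Fin n) F) with hT
  have hTa : ∀ x, T x = (A : Matrix (Fin n) (Fin n) F) *ᵥ x := fun x => rfl
  have hTN : T ^ N = 1 := by
    rw [hT, ← Matrix.toLin'_pow, ← Units.val_pow_eq_pow_val, hAN, Units.val_one, Matrix.toLin'_one]
    rfl
  have hTB : ∀ x y, B.h (T x) (T y) = B.h x y := (mem_GU hs1 hq A).mp hA
  have hTpol : Polynomial.aeval T ((Polynomial.X : Polynomial F) ^ N - 1) = 0 := by
    rw [map_sub, map_pow, Polynomial.aeval_X, map_one, hTN, sub_self]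
  have hss : ∀ p : Submodule F (Fin n → F), (∀ x ∈ p, T x ∈ p) → ∃ q : Submodule F (Fin n → F), (∀ x ∈ q, T x ∈ q) ∧ IsCompl p q := by
    intro P hP
    have h1 := Module.End.isSemisimple_of_squarefree_aeval_eq_zero (squarefree_X_pow (p := p) (F := F) hN) hTpol
    rw [Module.End.isSemisimple_iff] at h1
    obtain ⟨Q, hQ, hc⟩ := h1 P hP
    exact ⟨Q, hQ, hc⟩
  have hw : B.h (Pi.single ⟨0, hn⟩ 1) (Pi.single ⟨0, hn⟩ 1) ≠ 0 := by
    have : B.h (Pi.single ⟨0, hn⟩ 1) (Pi.single ⟨0, hn⟩ 1) = 1 := by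
      show ∑ i, (Pi.single ⟨0, hn⟩ (1 : F) : Fin n → F) i * σ ((Pi.single ⟨0, hn⟩ (1 : F) : Fin n → F) i) = 1
      rw [Finset.sum_eq_single ⟨0, hn⟩]
      · rw [Pi.single_eq_same, map_one, mul_one]
      · intro i _ hi
        rw [Pi.single_eq_of_ne hi, zero_mul]
      · intro h; exact absurd (Finset.mem_univ _) h
    rw [this]; exact one_ne_zero
  obtain ⟨w, W, hWT, hwW, hw0, hcyc, hWnd⟩ := B.exists_cyc_nd hN1 hTN hTB hss hw
  have hc := B.isCompl_perp hWnd
  have hTT : ∀ y, T ((T ^ (N - 1)) y) = y := by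
    intro y
    have h1 : T * T ^ (N - 1) = 1 := by rw [← pow_succ', Nat.sub_add_cancel hN1, hTN]
    exact LinearMap.congr_fun h1 y
  have hpow : ∀ k : ℕ, ∀ y ∈ W, (T ^ k) y ∈ W := by
    intro k
    induction k with
    | zero => intro y hy; exact hy
    | succ k ih =>
      intro y hy
      rw [pow_succ']
      exact hWT _ (ih y hy)
  have hWpT : ∀ x ∈ B.perp W, T x ∈ B.perp W := by
    intro x hx y hy
    rw [← hTT y, hTB]
    exact hx _ (hpow _ y hy)
  -- the operator `c` on `W`
  obtain ⟨ν, hν0, hν⟩ := hilbert90_two hσ' (c := (μ : F)) (mem_NU.mp hμ)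
  haveI : Nontrivial W := ⟨⟨⟨w, hwW⟩, 0, fun h => hw0 (congrArg Subtype.val h)⟩⟩
  have hT'pol : Polynomial.aeval (T.restrict hWT) ((Polynomial.X : Polynomial F) ^ N - 1) = 0 := by
    rw [map_sub, map_pow, Polynomial.aeval_X, map_one]
    rw [sub_eq_zero]
    apply LinearMap.ext
    intro x
    apply Subtype.ext
    have h3 : ∀ k : ℕ, ((((T.restrict hWT) ^ k) x : W) : Fin n → F) = (T ^ k) (x : Fin n → F) := by
      intro k
      induction k with
      | zero => rfl
      | succ k ih =>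
        rw [pow_succ', pow_succ']
        show T (((T.restrict hWT) ^ k) x : Fin n → F) = T ((T ^ k) (x : Fin n → F))
        rw [ih]
    rw [h3, hTN]
    rfl
  obtain ⟨c, hcT, hcd⟩ := exists_cent_semisimple (T := T.restrict hWT) (squarefree_X_pow (p := p) (F := F) hN) hT'pol (Units.mk0 ν hν0)
  obtain ⟨f, hf⟩ := hcyc _ (c ⟨w, hwW⟩).2
  have hcf : ∀ x : W, ((c x : W) : Fin n → F) = Polynomial.aeval T f (x : Fin n → F) := by
    intro x
    obtain ⟨g, hg⟩ := hcyc _ x.2
    have h1 : x = Polynomial.aeval (T.restrict hWT) g ⟨w, hwW⟩ := by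
      apply Subtype.ext
      rw [hg]
      symm
      have h2 : ∀ g : Polynomial F, ((Polynomial.aeval (T.restrict hWT) g ⟨w, hwW⟩ : W) : Fin n → F) = Polynomial.aeval T g w := by
        intro g
        induction g using Polynomial.induction_on' with
        | add a b ha hb => rw [map_add, map_add, LinearMap.add_apply, LinearMap.add_apply, Submodule.coe_add, ha, hb]
        | monomial k a =>
          rw [Polynomial.aeval_monomial, Polynomial.aeval_monomial]
          have h3 : ∀ k : ℕ, ((((T.restrict hWT) ^ k) ⟨w, hwW⟩ : W) : Fin n → F) = (T ^ k) w := by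
            intro k
            induction k with
            | zero => rfl
            | succ k ih =>
              rw [pow_succ', pow_succ']
              show T (((T.restrict hWT) ^ k) ⟨w, hwW⟩ : W) = T ((T ^ k) w)
              rw [ih]
          show a • ((((T.restrict hWT) ^ k) ⟨w, hwW⟩ : W) : Fin n → F) = a • (T ^ k) w
          rw [h3]
      exact h2 g
    have h4 := aeval_conj (F := F) c (T := T.restrict hWT) (S := T.restrict hWT) hcT g ⟨w, hwW⟩
    have h5 : ∀ (g : Polynomial F) (x : W), ((Polynomial.aeval (T.restrict hWT) g x : W) : Fin n → F) = Polynomial.aeval T g (x : Fin n → F) := by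
      intro g x
      induction g using Polynomial.induction_on' with
      | add a b ha hb => rw [map_add, map_add, LinearMap.add_apply, LinearMap.add_apply, Submodule.coe_add, ha, hb]
      | monomial k a =>
        rw [Polynomial.aeval_monomial, Polynomial.aeval_monomial]
        have h3 : ∀ k : ℕ, ((((T.restrict hWT) ^ k) x : W) : Fin n → F) = (T ^ k) (x : Fin n → F) := by
          intro k
          induction k with
          | zero => rfl
          | succ k ih =>
            rw [pow_succ', pow_succ']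
            show T (((T.restrict hWT) ^ k) x : W) = T ((T ^ k) (x : Fin n → F))
            rw [ih]
        show a • ((((T.restrict hWT) ^ k) x : W) : Fin n → F) = a • (T ^ k) (x : Fin n → F)
        rw [h3]
    rw [h1, h4, h5, hf, h5]
    show (Polynomial.aeval T g) ((Polynomial.aeval T f) w) = (Polynomial.aeval T f) ((Polynomial.aeval T g) w)
    have h6 : Polynomial.aeval T g * Polynomial.aeval T f = Polynomial.aeval T f * Polynomial.aeval T g := by
      rw [← map_mul, mul_comm, map_mul]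
    exact LinearMap.congr_fun h6 w
  -- the projection
  let e := Submodule.prodEquivOfIsCompl W (B.perp W) hc
  have he : ∀ (x : W) (y : B.perp W), e (x, y) = (x : Fin n → F) + y := fun x y => rfl
  have hdec : ∀ v : Fin n → F, ∃ (x : W) (y : B.perp W), v = x + y := by
    intro v
    exact ⟨(e.symm v).1, (e.symm v).2, (e.apply_symm_apply v).symm⟩
  let P : (Fin n → F) →ₗ[F] (Fin n → F) := W.subtype ∘ₗ LinearMap.fst F W (B.perp W) ∘ₗ e.symm.toLinearMap
  have hP : ∀ (x : W) (y : B.perp W), P ((x : Fin n → F) + y) = x := by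
    intro x y
    show ((e.symm (e (x, y))).1 : Fin n → F) = x
    rw [e.symm_apply_apply]
  set Pm := LinearMap.toMatrix' P with hPm
  have hPma : ∀ v, Pm *ᵥ v = P v := by
    intro v
    rw [← Matrix.toLin'_apply, hPm, Matrix.toLin'_toMatrix']
  have hPP : Pm * Pm = Pm := by
    apply Matrix.toLin'.injective
    apply LinearMap.ext
    intro v
    rw [Matrix.toLin'_apply, Matrix.toLin'_apply, ← Matrix.mulVec_mulVec, hPma, hPma]
    obtain ⟨x, y, rfl⟩ := hdec v
    rw [hP]
    have := hP x 0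
    rw [Submodule.coe_zero, add_zero] at this
    exact this
  have hPA : Pm * (A : Matrix (Fin n) (Fin n) F) = (A : Matrix (Fin n) (Fin n) F) * Pm := by
    apply Matrix.toLin'.injective
    apply LinearMap.ext
    intro v
    rw [Matrix.toLin'_apply, Matrix.toLin'_apply, ← Matrix.mulVec_mulVec, ← Matrix.mulVec_mulVec, hPma, hPma, ← hTa, ← hTa]
    obtain ⟨x, y, rfl⟩ := hdec v
    rw [hP, map_add]
    have := hP (T.restrict hWT x) (T.restrict hWpT y)
    exact this
  have hstP : st σ Pm = Pm := by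
    apply Matrix.toLin'.injective
    apply LinearMap.ext
    intro v
    rw [Matrix.toLin'_apply, Matrix.toLin'_apply]
    rw [← sub_eq_zero]
    apply hnd.right
    intro u
    rw [B.sub_right, sub_eq_zero, hPma]
    have h1 := std_st hs1 Pm u v
    rw [← h1, hPma]
    obtain ⟨x, y, rfl⟩ := hdec v
    obtain ⟨x', y', rfl⟩ := hdec u
    rw [hP, hP, HF.add_right, HF.add_left]
    have h2 : B.h (x' : Fin n → F) (y : Fin n → F) = 0 := by rw [B.eq_zero_comm]; exact y.2 _ x'.2
    have h3 : B.h (y' : Fin n → F) (x : Fin n → F) = 0 := y'.2 _ x.2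
    have h2' : (std σ hs1 n).h (x' : Fin n → F) (y : Fin n → F) = 0 := h2
    rw [h2', h3]
  set Fm := Polynomial.aeval (A : Matrix (Fin n) (Fin n) F) f with hFm
  have hFa : ∀ v, Fm *ᵥ v = Polynomial.aeval T f v := by
    intro v
    have h1 : Polynomial.aeval T f = Matrix.toLin' Fm :=
      Polynomial.aeval_algHom_apply (Matrix.toLinAlgEquiv' : Matrix _ _ F ≃ₐ[F] _) (A : Matrix (Fin n) (Fin n) F) f
    rw [h1, Matrix.toLin'_apply]
  have hFmem : Fm ∈ Algebra.adjoin F {(A : Matrix (Fin n) (Fin n) F)} := Polynomial.aeval_mem_adjoin_singleton _ _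
  have hFA : (A : Matrix (Fin n) (Fin n) F) * Fm = Fm * (A : Matrix (Fin n) (Fin n) F) := commute_adjoin rfl _ hFmem
  have hPF : Pm * Fm = Fm * Pm := commute_adjoin hPA _ hFmem
  have hstA : st σ (A : Matrix (Fin n) (Fin n) F) = ((A⁻¹ : GL (Fin n) F) : Matrix (Fin n) (Fin n) F) := by
    rw [← stI_inv_val, (gu_iff_stI hs1 hq A).mp hA]
  have hstF : st σ Fm ∈ Algebra.adjoin F {((A⁻¹ : GL (Fin n) F) : Matrix (Fin n) (Fin n) F)} := by
    have h1 := aeval_st hs1 (A : Matrix (Fin n) (Fin n) F) (f.map (σ : F →+* F))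
    rw [Polynomial.map_map] at h1
    have h2 : ((σ : F →+* F).comp (σ : F →+* F)) = RingHom.id F := RingHom.ext hs1
    rw [h2, Polynomial.map_id] at h1
    rw [← h1, hstA]
    exact Polynomial.aeval_mem_adjoin_singleton _ _
  have hFF : Fm * st σ Fm = st σ Fm * Fm := by
    have h1 : Fm * ((A⁻¹ : GL (Fin n) F) : Matrix (Fin n) (Fin n) F) = ((A⁻¹ : GL (Fin n) F) : Matrix (Fin n) (Fin n) F) * Fm := by
      have e1 : (A : Matrix (Fin n) (Fin n) F) * ((A⁻¹ : GL (Fin n) F) : Matrix (Fin n) (Fin n) F) = 1 := by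
        rw [← Units.val_mul, mul_inv_cancel, Units.val_one]
      have e2 : ((A⁻¹ : GL (Fin n) F) : Matrix (Fin n) (Fin n) F) * (A : Matrix (Fin n) (Fin n) F) = 1 := by
        rw [← Units.val_mul, inv_mul_cancel, Units.val_one]
      calc Fm * ((A⁻¹ : GL (Fin n) F) : Matrix (Fin n) (Fin n) F) = (((A⁻¹ : GL (Fin n) F) : Matrix (Fin n) (Fin n) F) * (A : Matrix (Fin n) (Fin n) F)) * Fm * ((A⁻¹ : GL (Fin n) F) : Matrix (Fin n) (Fin n) F) := by
            rw [e2, one_mul]
        _ = ((A⁻¹ : GL (Fin n) F) : Matrix (Fin n) (Fin n) F) * ((A : Matrix (Fin n) (Fin n) F) * Fm) * ((A⁻¹ : GL (Fin n) F) : Matrix (Fin n) (Fin n) F) := by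
            simp only [mul_assoc]
        _ = ((A⁻¹ : GL (Fin n) F) : Matrix (Fin n) (Fin n) F) * Fm * ((A : Matrix (Fin n) (Fin n) F) * ((A⁻¹ : GL (Fin n) F) : Matrix (Fin n) (Fin n) F)) := by
            rw [hFA]; simp only [mul_assoc]
        _ = _ := by rw [e1, mul_one]
    exact commute_adjoin h1 _ hstF
  have hPG : st σ Fm * Pm = Pm * st σ Fm := by
    have := congrArg (st σ) hPF
    rw [st_mul, st_mul, hstP] at this
    exact this
  set M := Fm * Pm + (1 - Pm) with hM
  have hMa : ∀ v, M *ᵥ v = Polynomial.aeval T f (P v) + (v - P v) := by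
    intro v
    rw [hM, Matrix.add_mulVec, Matrix.sub_mulVec, Matrix.one_mulVec, ← Matrix.mulVec_mulVec, hPma, hFa]
  have hMdet : M.det = ν := by
    have h1 : Matrix.toLin' M = e.conj ((c : W →ₗ[F] W).prodMap (LinearMap.id : B.perp W →ₗ[F] B.perp W)) := by
      apply LinearMap.ext
      intro v
      obtain ⟨x, y, rfl⟩ := hdec v
      rw [Matrix.toLin'_apply, hMa, hP, ← hcf]
      have h2 : (x : Fin n → F) + y = e (x, y) := rfl
      rw [LinearEquiv.conj_apply_apply, h2, e.symm_apply_apply]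
      show (c x : Fin n → F) + (e (x, y) - x) = (c x : Fin n → F) + y
      rw [he]
      abel
    rw [← LinearMap.det_toLin', h1, LinearEquiv.conj_apply, LinearMap.comp_assoc, LinearMap.det_conj, LinearMap.det_prodMap, LinearMap.det_id, mul_one]
    have h3 := congrArg Units.val hcd
    rw [LinearEquiv.coe_det] at h3
    exact h3
  obtain ⟨M', hM'⟩ : ∃ M' : GL (Fin n) F, (M' : Matrix (Fin n) (Fin n) F) = M :=
    ⟨Matrix.GeneralLinearGroup.mkOfDetNeZero M (by rw [hMdet]; exact hν0), rfl⟩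
  have hMA : M' * A = A * M' := by
    apply Units.ext
    rw [Units.val_mul, Units.val_mul, hM', hM, add_mul, sub_mul, mul_add, mul_sub, one_mul, mul_one, hPA, mul_assoc, hPA,
      ← mul_assoc, ← hFA, mul_assoc]
  have hstM : st σ M = Pm * st σ Fm + (1 - Pm) := by
    rw [hM, st_add, st_mul, st_sub, st_one, hstP]
  have hP1 : Pm * (1 - Pm) = 0 := by rw [mul_sub, mul_one, hPP, sub_self]
  have hP2 : (1 - Pm) * Pm = 0 := by rw [sub_mul, one_mul, hPP, sub_self]
  have hP3 : (1 - Pm) * (1 - Pm) = 1 - Pm := by rw [mul_sub, mul_one, hP2, sub_zero]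
  have hMM : M * st σ M = st σ M * M := by
    rw [hstM, hM, add_mul, add_mul, mul_add, mul_add, mul_add, mul_add, hP3]
    have e1 : Fm * Pm * (Pm * st σ Fm) = Fm * st σ Fm * Pm := by
      rw [← mul_assoc, mul_assoc Fm Pm Pm, hPP, mul_assoc, ← hPG, ← mul_assoc]
    have e2 : Fm * Pm * (1 - Pm) = 0 := by rw [mul_assoc, hP1, mul_zero]
    have e3 : (1 - Pm) * (Pm * st σ Fm) = 0 := by rw [← mul_assoc, hP2, zero_mul]
    have e4 : Pm * st σ Fm * (Fm * Pm) = Fm * st σ Fm * Pm := by
      rw [← hPG, mul_assoc, ← mul_assoc Pm, hPF, mul_assoc, hPP, ← mul_assoc, hFF]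
    have e5 : Pm * st σ Fm * (1 - Pm) = 0 := by rw [← hPG, mul_assoc, hP1, mul_zero]
    have e6 : (1 - Pm) * (Fm * Pm) = 0 := by rw [← hPF, ← mul_assoc, hP2, zero_mul]
    rw [e1, e2, e3, e4, e5, e6]
  have hcomm : Commute M' (stI σ n M') := by
    have h1 : Commute M' (stI σ n M')⁻¹ := by
      apply Units.ext
      rw [Units.val_mul, Units.val_mul, stI_inv_val, hM', hMM]
    have := h1.inv_right
    rwa [inv_inv] at this
  have hstI2 : stI σ n (stI σ n M') = M' := by
    apply Units.ext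
    rw [stI_val, stI_inv_val, st_st hs1]
  refine ⟨M' * stI σ n M', ?_, ?_, ?_⟩
  · rw [gu_iff_stI hs1 hq, map_mul, hstI2]
    exact hcomm.eq.symm
  · have h1 : stI σ n M' * A = A * stI σ n M' := by
      have h2 := congrArg (stI σ n) hMA
      rw [map_mul, map_mul, (gu_iff_stI hs1 hq A).mp hA] at h2
      exact h2
    rw [mul_assoc, h1, ← mul_assoc, hMA, mul_assoc]
  · rw [map_mul]
    have h1 : Matrix.GeneralLinearGroup.det M' = Units.mk0 ν hν0 := by
      apply Units.ext
      show (M' : Matrix (Fin n) (Fin n) F).det = ν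
      rw [hM', hMdet]
    have h2 : ((Matrix.GeneralLinearGroup.det (stI σ n M'))⁻¹ : Fˣ) = Units.mk0 (σ ν) (sigma_ne_zero.mpr hν0) := by
      rw [← map_inv]
      apply Units.ext
      show (((stI σ n M')⁻¹ : GL (Fin n) F) : Matrix (Fin n) (Fin n) F).det = σ ν
      rw [stI_inv_val, det_st, hM', hMdet]
    have h3 : Matrix.GeneralLinearGroup.det (stI σ n M') = (Units.mk0 (σ ν) (sigma_ne_zero.mpr hν0))⁻¹ := by
      rw [← h2, inv_inv]
    rw [h1, h3]
    rw [mul_inv_eq_iff_eq_mul]
    apply Units.ext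
    show ν = (μ : F) * σ ν
    exact hν.symm

end Cent

end Cfsg.Agent.Lib.Herm
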