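import Mathlib
import Cfsg.Agent.Lib.Herm19
import Cfsg.Agent.Lib.RCF4

/-! Counting semisimple classes of `SU_n(q)`. -/

set_option linter.all false
set_option maxHeartbeats 400000

namespace Cfsg.Agent.Lib.Herm

open Matrix Cfsg.Agent.Lib.FinGal Cfsg.Agent.Lib.HilbN Cfsg.Agent.Lib.RCF

section Fix

variable {F : Type*} [Field F]

/-- fixed points of a semilinear involution -/
theorem card_fix_semi {σ : F ≃+* F} (hσ2 : ∀ a, σ (σ a) = a) (hσ : ∃ a, σ a ≠ a) {V : Type*} [AddCommGroup V] [Module F V] [Finite V]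
    (τ : V → V) (hadd : ∀ x y, τ (x + y) = τ x + τ y) (hsmul : ∀ (a : F) x, τ (a • x) = σ a • τ x) (hτ : ∀ x, τ (τ x) = x) :
    Nat.card {x : V // τ x = x} ^ 2 = Nat.card V := by
  classical
  obtain ⟨θ, hθ⟩ := hσ
  have hd : θ - σ θ ≠ 0 := sub_ne_zero.mpr (Ne.symm hθ)
  rw [sq, ← Nat.card_prod]
  symm
  have hsub : ∀ x y, τ (x - y) = τ x - τ y := by
    intro x y
    have h1 := hadd (x - y) y
    rw [sub_add_cancel] at h1
    rw [h1, add_sub_cancel_right]
  apply Nat.card_congr
  exact
    { toFun := fun v => (⟨v + τ v, by rw [hadd, hτ, add_comm]⟩, ⟨θ • v + σ θ • τ v, by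
        rw [hadd, hsmul, hsmul, hτ, hσ2, add_comm]⟩)
      invFun := fun p => (θ - σ θ)⁻¹ • (p.2.1 - σ θ • p.1.1)
      left_inv := by
        intro v
        show (θ - σ θ)⁻¹ • ((θ • v + σ θ • τ v) - σ θ • (v + τ v)) = v
        have h1 : (θ • v + σ θ • τ v) - σ θ • (v + τ v) = (θ - σ θ) • v := by
          rw [smul_add, sub_smul]; abel
        rw [h1, smul_smul, inv_mul_cancel₀ hd, one_smul]
      right_inv := by
        rintro ⟨⟨x, hx⟩, ⟨y, hy⟩⟩
        have hτv : τ ((θ - σ θ)⁻¹ • (y - σ θ • x)) = (σ θ - θ)⁻¹ • (y - θ • x) := by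
          rw [hsmul, hsub, hsmul, hx, hy, hσ2, map_inv₀, map_sub, hσ2]
        have hneg : (σ θ - θ)⁻¹ = -(θ - σ θ)⁻¹ := by rw [← neg_sub, inv_neg]
        apply Prod.ext
        · apply Subtype.ext
          show (θ - σ θ)⁻¹ • (y - σ θ • x) + τ ((θ - σ θ)⁻¹ • (y - σ θ • x)) = x
          rw [hτv, hneg, neg_smul, ← sub_eq_add_neg, ← smul_sub]
          have h1 : (y - σ θ • x) - (y - θ • x) = (θ - σ θ) • x := by rw [sub_smul]; abel
          rw [h1, smul_smul, inv_mul_cancel₀ hd, one_smul]
        · apply Subtype.ext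
          show θ • ((θ - σ θ)⁻¹ • (y - σ θ • x)) + σ θ • τ ((θ - σ θ)⁻¹ • (y - σ θ • x)) = y
          rw [hτv, hneg, neg_smul, smul_neg, ← sub_eq_add_neg, smul_smul, smul_smul, mul_comm θ, mul_comm (σ θ), mul_smul, mul_smul,
            ← smul_sub]
          have h1 : θ • (y - σ θ • x) - σ θ • (y - θ • x) = (θ - σ θ) • y := by
            rw [smul_sub, smul_sub, sub_smul, smul_smul, smul_smul, mul_comm (σ θ) θ]; abel
          rw [h1, smul_smul, inv_mul_cancel₀ hd, one_smul] }

/-- the conjugate-palindromic polynomials -/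
def UP (σ : F ≃+* F) (n : ℕ) (f : Polynomial F) : Prop :=
  f.Monic ∧ f.natDegree = n ∧ f.coeff 0 = (-1) ^ n ∧ ∀ i ≤ n, f.coeff (n - i) = (-1) ^ n * σ (f.coeff i)

/-- the polynomial of a sequence -/
noncomputable def upOf (ε : F) (m : ℕ) (a : Fin m → F) : Polynomial F := ∑ j ∈ Finset.range (m + 2), Polynomial.monomial j
    (if h : j = m + 1 then 1 else if h0 : j = 0 then ε else if h' : j - 1 < m then a ⟨j - 1, h'⟩ else 0)

theorem upOf_coeff (ε : F) (m : ℕ) (a : Fin m → F) (j : ℕ) : (upOf ε m a).coeff j = if j < m + 2 then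
      (if h : j = m + 1 then 1 else if h0 : j = 0 then ε else if h' : j - 1 < m then a ⟨j - 1, h'⟩ else 0) else 0 := by
  unfold upOf
  rw [Polynomial.finset_sum_coeff]
  simp only [Polynomial.coeff_monomial]
  rw [Finset.sum_ite_eq']
  simp only [Finset.mem_range]

theorem upOf_top (ε : F) (m : ℕ) (a : Fin m → F) : (upOf ε m a).coeff (m + 1) = 1 := by
  rw [upOf_coeff, if_pos (by omega), dif_pos rfl]

theorem upOf_zero (ε : F) (m : ℕ) (a : Fin m → F) : (upOf ε m a).coeff 0 = ε := by
  rw [upOf_coeff, if_pos (by omega), dif_neg (by omega), dif_pos rfl]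

theorem upOf_mid (ε : F) (m : ℕ) (a : Fin m → F) (i : Fin m) : (upOf ε m a).coeff ((i : ℕ) + 1) = a i := by
  have hi := i.2
  rw [upOf_coeff, if_pos (by omega), dif_neg (by omega), dif_neg (by omega), dif_pos (by omega)]
  congr 1

theorem upOf_deg (ε : F) (m : ℕ) (a : Fin m → F) : (upOf ε m a).natDegree = m + 1 := by
  apply le_antisymm
  · rw [Polynomial.natDegree_le_iff_coeff_eq_zero]
    intro N hN
    rw [upOf_coeff, if_neg (by omega)]
  · apply Polynomial.le_natDegree_of_ne_zero
    rw [upOf_top]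
    exact one_ne_zero

theorem card_UP [Fintype F] {q : ℕ} (hF : Fintype.card F = q ^ 2) {σ : F ≃+* F} (hσ2 : ∀ a, σ (σ a) = a) (hσ : ∃ a, σ a ≠ a)
    (m : ℕ) : Nat.card {f : Polynomial F // UP σ (m + 1) f} = q ^ m := by
  classical
  set ε : F := (-1) ^ (m + 1) with hε
  have hεε : ε * ε = 1 := by rw [hε, ← pow_add, ← two_mul, pow_mul, neg_one_sq, one_pow]
  have hσε : σ ε = ε := by rw [hε, map_pow, map_neg, map_one]
  let τ : (Fin m → F) → (Fin m → F) := fun a i => ε * σ (a (Fin.rev i))
  have h1 := card_fix_semi hσ2 hσ (V := Fin m → F) τ (by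
    intro x y; funext i; show ε * σ (x _ + y _) = ε * σ (x _) + ε * σ (y _); rw [map_add, mul_add]) (by
    intro a x; funext i; show ε * σ (a * x _) = σ a * (ε * σ (x _)); rw [map_mul]; ring) (by
    intro x; funext i; show ε * σ (ε * σ (x (Fin.rev (Fin.rev i)))) = x i
    rw [map_mul, hσε, hσ2, ← mul_assoc, hεε, one_mul, Fin.rev_rev])
  have h2 : Nat.card (Fin m → F) = (q ^ m) ^ 2 := by
    rw [Nat.card_eq_fintype_card, Fintype.card_fun, Fintype.card_fin, hF, ← pow_mul, ← pow_mul, mul_comm]
  rw [h2] at h1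
  have h3 : Nat.card {x : Fin m → F // τ x = x} = q ^ m := Nat.pow_left_injective (n := 2) (by norm_num) h1
  rw [← h3]
  apply Nat.card_congr
  exact
    { toFun := fun f => ⟨fun i => f.1.coeff ((i : ℕ) + 1), by
        obtain ⟨hf1, hf2, hf3, hf4⟩ := f.2
        funext i
        show ε * σ (f.1.coeff ((Fin.rev i : ℕ) + 1)) = f.1.coeff ((i : ℕ) + 1)
        have hi := i.2
        have h5 : (Fin.rev i : ℕ) = m - ((i : ℕ) + 1) := Fin.val_rev i
        have h4 := hf4 ((Fin.rev i : ℕ) + 1) (by rw [h5]; omega)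
        rw [← h4]
        congr 1
        rw [h5]; omega⟩
      invFun := fun a => ⟨upOf ε m a.1, by
        unfold Polynomial.Monic Polynomial.leadingCoeff
        rw [upOf_deg, upOf_top], upOf_deg _ _ _, upOf_zero _ _ _, by
        intro i hi
        rcases Nat.eq_zero_or_pos i with rfl | hi0
        · rw [Nat.sub_zero, upOf_top, upOf_zero, hσε, hεε]
        · rcases Nat.lt_or_ge i (m + 1) with hi1 | hi1
          · have h5 := congrFun a.2 ⟨m - i, by omega⟩
            have h6 : ε * σ (a.1 (Fin.rev ⟨m - i, by omega⟩)) = a.1 ⟨m - i, by omega⟩ := h5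
            have h7 : (Fin.rev ⟨m - i, by omega⟩ : Fin m) = ⟨i - 1, by omega⟩ := by
              apply Fin.ext
              rw [Fin.val_rev]
              show m - (m - i + 1) = i - 1
              omega
            rw [h7] at h6
            have h8 := upOf_mid ε m a.1 ⟨m - i, by omega⟩
            have h9 := upOf_mid ε m a.1 ⟨i - 1, by omega⟩
            have e1 : ((⟨m - i, by omega⟩ : Fin m) : ℕ) + 1 = m + 1 - i := by show m - i + 1 = m + 1 - i; omega
            have e2 : ((⟨i - 1, by omega⟩ : Fin m) : ℕ) + 1 = i := by show i - 1 + 1 = i; omega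
            rw [e1] at h8
            rw [e2] at h9
            rw [h8, h9, h6]
          · have : i = m + 1 := by omega
            rw [this, Nat.sub_self, upOf_zero, upOf_top, map_one, mul_one]⟩
      left_inv := by
        rintro ⟨f, hf1, hf2, hf3, hf4⟩
        apply Subtype.ext
        have hgoal : upOf ε m (fun i : Fin m => f.coeff ((i : ℕ) + 1)) = f := by
          apply Polynomial.ext
          intro j
          rw [upOf_coeff]
          split_ifs with h5 h6 h7 h8
          · have := hf1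
            unfold Polynomial.Monic Polynomial.leadingCoeff at this
            rw [hf2] at this
            rw [h6, this]
          · rw [h7, hf3]
          · show f.coeff (j - 1 + 1) = f.coeff j
            rw [Nat.sub_add_cancel (by omega)]
          · omega
          · symm
            apply Polynomial.coeff_eq_zero_of_natDegree_lt
            omega
        exact hgoal
      right_inv := by
        rintro ⟨a, ha⟩
        apply Subtype.ext
        funext i
        exact upOf_mid ε m a i }

end Fix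

section SUc

variable {F : Type*} [Field F] {σ : F ≃+* F} {q n : ℕ}

theorem charpoly_stI (hσ2 : ∀ a, σ (σ a) = a) (A : GL (Fin n) F) (hdet : (A : Matrix (Fin n) (Fin n) F).det = 1) :
    ((stI σ n A : GL (Fin n) F) : Matrix (Fin n) (Fin n) F).charpoly =
      ((-1) ^ n * (A : Matrix (Fin n) (Fin n) F).charpoly.reverse).map (σ : F →+* F) := by
  rw [stI_val]
  have h1 : (st σ ((A⁻¹ : GL (Fin n) F) : Matrix (Fin n) (Fin n) F)).charpoly = (((A⁻¹ : GL (Fin n) F) : Matrix (Fin n) (Fin n) F).charpoly).map (σ : F →+* F) := by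
    unfold st
    rw [Matrix.charpoly_transpose]
    exact Matrix.charpoly_map _ (σ : F →+* F)
  rw [h1]
  congr 1
  have h2 : ((A⁻¹ : GL (Fin n) F) : Matrix (Fin n) (Fin n) F) = ((A : Matrix (Fin n) (Fin n) F))⁻¹ := Matrix.coe_units_inv A
  rw [h2, Matrix.charpoly_inv _ A.isUnit, hdet, Ring.inverse_one, map_one, mul_one, Fintype.card_fin, Matrix.reverse_charpoly]

theorem UP_iff [Finite F] (hσ2 : ∀ a, σ (σ a) = a) (A : GL (Fin n) F) (hdet : (A : Matrix (Fin n) (Fin n) F).det = 1) :
    UP σ n (A : Matrix (Fin n) (Fin n) F).charpoly ↔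
      ((stI σ n A : GL (Fin n) F) : Matrix (Fin n) (Fin n) F).charpoly = (A : Matrix (Fin n) (Fin n) F).charpoly := by
  have hcoeff : ∀ j ≤ n, (((-1) ^ n * (A : Matrix (Fin n) (Fin n) F).charpoly.reverse).map (σ : F →+* F)).coeff j =
      (-1) ^ n * σ ((A : Matrix (Fin n) (Fin n) F).charpoly.coeff (n - j)) := by
    intro j hj
    rw [Polynomial.coeff_map]
    have h1 : ((-1 : Polynomial F) ^ n) = Polynomial.C ((-1 : F) ^ n) := by rw [map_pow, map_neg, map_one]
    rw [h1, Polynomial.coeff_C_mul, Polynomial.coeff_reverse, Matrix.charpoly_natDegree_eq_dim, Fintype.card_fin, Polynomial.revAt_le hj]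
    show σ _ = _
    rw [map_mul, map_pow, map_neg, map_one]
  rw [charpoly_stI hσ2 A hdet]
  constructor
  · rintro ⟨-, -, -, h4⟩
    ext j
    by_cases hj : j ≤ n
    · rw [hcoeff j hj, ← h4 (n - j) (Nat.sub_le _ _)]
      congr 1
      omega
    · rw [Polynomial.coeff_eq_zero_of_natDegree_lt, Polynomial.coeff_eq_zero_of_natDegree_lt]
      · rw [Matrix.charpoly_natDegree_eq_dim, Fintype.card_fin]; omega
      · refine lt_of_le_of_lt (Polynomial.natDegree_map_le) ?_
        have h1 : ((-1 : Polynomial F) ^ n) = Polynomial.C ((-1 : F) ^ n) := by rw [map_pow, map_neg, map_one]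
        rw [h1]
        refine lt_of_le_of_lt (Polynomial.natDegree_C_mul_le _ _) ?_
        refine lt_of_le_of_lt (Polynomial.reverse_natDegree_le _) ?_
        rw [Matrix.charpoly_natDegree_eq_dim, Fintype.card_fin]; omega
  · intro h
    refine ⟨Matrix.charpoly_monic _, by rw [Matrix.charpoly_natDegree_eq_dim, Fintype.card_fin], ?_, ?_⟩
    · haveI := Fintype.ofFinite F
      rw [det_charpoly, hdet, mul_one]
    · intro i hi
      conv_lhs => rw [← h]
      rw [hcoeff _ (Nat.sub_le _ _)]
      congr 3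
      omega

end SUc

end Cfsg.Agent.Lib.Herm
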