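import Cfsg.Agent.Lib.SuzTwoC

set_option autoImplicit false
set_option maxHeartbeats 400000

namespace Cfsg.Agent.Lib.SuzTwoD

open Cfsg Module Cfsg.Agent.Lib.SuzTwoA Cfsg.Agent.Lib.SuzTwoB Cfsg.Agent.Lib.SuzTwoC

noncomputable section

section setup

variable {P : Type*} [Group P] [Finite P] {A : Type*} [Group A]

theorem exists_invol_pow (h2 : IsPGroup 2 P) {x : P} (hx : x ≠ 1) : ∃ n : ℕ, x ^ n ≠ 1 ∧ x ^ n * x ^ n = 1 := by
  haveI : Fact (Nat.Prime 2) := ⟨Nat.prime_two⟩
  obtain ⟨k, hk⟩ := (IsPGroup.iff_orderOf.mp h2) x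
  obtain ⟨j, rfl⟩ : ∃ j, k = j + 1 := by
    apply Nat.exists_eq_succ_of_ne_zero
    rintro rfl
    rw [pow_zero, orderOf_eq_one_iff] at hk
    exact hx hk
  refine ⟨2 ^ j, ?_, ?_⟩
  · intro h
    have h1 := orderOf_dvd_of_pow_eq_one h
    rw [hk] at h1
    have h3 := Nat.le_of_dvd (by positivity) h1
    rw [pow_succ] at h3
    have : 0 < 2 ^ j := by positivity
    omega
  · rw [← pow_two, ← pow_mul, ← pow_succ, ← hk, pow_orderOf_eq_one]

theorem invol_central (θ : A →* MulAut P) (h2 : IsPGroup 2 P)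
    (hreg : ∀ x y : P, x ≠ 1 → x * x = 1 → y ≠ 1 → y * y = 1 → ∃! a : A, θ a x = y) {x : P} (hx1 : x ≠ 1)
    (hx : x * x = 1) : x ∈ Subgroup.center P := by
  haveI : Fact (Nat.Prime 2) := ⟨Nat.prime_two⟩
  haveI : Nontrivial P := ⟨⟨x, 1, hx1⟩⟩
  haveI : Nontrivial (Subgroup.center P) := h2.center_nontrivial
  obtain ⟨z, hz⟩ := exists_ne (1 : Subgroup.center P)
  have hz' : (z : P) ≠ 1 := fun h => hz (Subtype.ext h)
  obtain ⟨n, hn1, hn2⟩ := exists_invol_pow h2 hz'
  obtain ⟨a, ha, -⟩ := hreg _ x hn1 hn2 hx1 hx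
  rw [← ha]
  have hc : (z : P) ^ n ∈ Subgroup.center P := pow_mem z.2 n
  rw [Subgroup.mem_center_iff] at hc ⊢
  intro g
  have h1 := hc ((θ a).symm g)
  have h3 := congrArg (θ a) h1
  rw [map_mul, map_mul, MulEquiv.apply_symm_apply] at h3
  exact h3

theorem fpf (θ : A →* MulAut P) (h2 : IsPGroup 2 P)
    (hreg : ∀ x y : P, x ≠ 1 → x * x = 1 → y ≠ 1 → y * y = 1 → ∃! a : A, θ a x = y) (a : A) (ha : a ≠ 1) (x : P)
    (hx : θ a x = x) : x = 1 := by
  by_contra hx1
  obtain ⟨n, hn1, hn2⟩ := exists_invol_pow h2 hx1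
  apply ha
  obtain ⟨b, -, hb⟩ := hreg _ (x ^ n) hn1 hn2 hn1 hn2
  rw [hb a (by show θ a (x ^ n) = x ^ n; rw [map_pow, hx]), hb 1 (by show θ 1 (x ^ n) = x ^ n; rw [map_one]; rfl)]

theorem exists_V (θ : A →* MulAut P) (h2 : IsPGroup 2 P)
    (hreg : ∀ x y : P, x ≠ 1 → x * x = 1 → y ≠ 1 → y * y = 1 → ∃! a : A, θ a x = y) (hP : ∃ x : P, x ≠ 1) :
    ∃ V : Subgroup P, V.Normal ∧ (∀ v ∈ V, ∀ g, v * g = g * v) ∧ (∀ x : P, x * x = 1 ↔ x ∈ V) ∧
      Nat.card V = Nat.card A + 1 := by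
  have hcen : ∀ v : P, v * v = 1 → ∀ g : P, v * g = g * v := by
    intro v hv g
    by_cases hv1 : v = 1
    · rw [hv1, one_mul, mul_one]
    · exact ((Subgroup.mem_center_iff.mp (invol_central θ h2 hreg hv1 hv)) g).symm
  let V : Subgroup P :=
    { carrier := {u | u * u = 1}
      one_mem' := one_mul 1
      mul_mem' := by
        intro u v hu hv
        have h1 : u * u = 1 := hu
        have h2 : v * v = 1 := hv
        show (u * v) * (u * v) = 1
        calc (u * v) * (u * v) = u * (v * u) * v := by group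
          _ = u * (u * v) * v := by rw [hcen u h1 v]
          _ = (u * u) * (v * v) := by group
          _ = 1 := by rw [h1, h2, one_mul]
      inv_mem' := by
        intro u hu
        have h1 : u * u = 1 := hu
        show u⁻¹ * u⁻¹ = 1
        rw [← mul_inv_rev, h1, inv_one] }
  refine ⟨V, ⟨fun v hv g => ?_⟩, fun v hv g => hcen v hv g, fun x => Iff.rfl, ?_⟩
  · rw [← hcen v hv g, mul_inv_cancel_right]
    exact hv
  · obtain ⟨x, hx⟩ := hP
    obtain ⟨n, hn1, hn2⟩ := exists_invol_pow h2 hx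
    have h1 : Nat.card {y : P // y ≠ 1 ∧ y * y = 1} = Nat.card A := by
      apply Nat.card_congr
      symm
      refine Equiv.ofBijective (fun a => ⟨θ a (x ^ n), ?_, ?_⟩) ⟨?_, ?_⟩
      · intro h
        apply hn1
        exact (θ a).injective (h.trans (map_one _).symm)
      · rw [← map_mul, hn2, map_one]
      · intro a b hab
        obtain ⟨c, -, hc⟩ := hreg (x ^ n) (θ b (x ^ n)) hn1 hn2 (by
          intro h
          exact hn1 ((θ b).injective (h.trans (map_one _).symm))) (by rw [← map_mul, hn2, map_one])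
        rw [hc a (congrArg Subtype.val hab), hc b rfl]
      · rintro ⟨y, hy1, hy2⟩
        obtain ⟨a, ha, -⟩ := hreg (x ^ n) y hn1 hn2 hy1 hy2
        exact ⟨a, Subtype.ext ha⟩
    rw [← h1]
    have h3 : Nat.card V = Nat.card {y : P // y * y = 1} := rfl
    rw [h3, ← Finite.card_option]
    classical
    have e : {y : P // y * y = 1} ≃ Option {y : P // y ≠ 1 ∧ y * y = 1} :=
      { toFun := fun y => if h : (y : P) = 1 then none else some ⟨y, h, y.2⟩
        invFun := fun o => match o with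
          | none => ⟨1, one_mul 1⟩
          | some y => ⟨y.1, y.2.2⟩
        left_inv := by
          intro y
          by_cases h : (y : P) = 1
          · simp only [h, dif_pos]; exact Subtype.ext h.symm
          · simp only [h, dif_neg, not_false_eq_true]
        right_inv := by
          rintro (_ | ⟨y, hy1, hy2⟩)
          · simp
          · simp [hy1] }
    exact Nat.card_congr e

/-- fixed point freeness on quotients -/
theorem fpf_quot (α : MulAut P) (hfix : ∀ x : P, α x = x → x = 1) (C : Subgroup P) (hC : ∀ c ∈ C, α c ∈ C) {x : P}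
    (hx : x⁻¹ * α x ∈ C) : x ∈ C := by
  have hinj : Function.Injective (fun c : C => (⟨(c : P) * (α c)⁻¹, C.mul_mem c.2 (C.inv_mem (hC c c.2))⟩ : C)) := by
    intro c d hcd
    have h1 : (c : P) * (α c)⁻¹ = (d : P) * (α d)⁻¹ := congrArg Subtype.val hcd
    have h3 : α ((d : P)⁻¹ * c) = (d : P)⁻¹ * c := by
      rw [map_mul, map_inv]
      have h4 : (c : P) = (d : P) * (α d)⁻¹ * α c := by rw [← h1]; group
      calc (α d)⁻¹ * α c = (d : P)⁻¹ * ((d : P) * (α d)⁻¹ * α c) := by group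
        _ = (d : P)⁻¹ * c := by rw [← h4]
    have h5 := hfix _ h3
    exact Subtype.ext (inv_mul_eq_one.mp h5).symm
  obtain ⟨c, hc⟩ := (Finite.injective_iff_surjective.mp hinj) ⟨x⁻¹ * α x, hx⟩
  have h1 : (c : P) * (α c)⁻¹ = x⁻¹ * α x := congrArg Subtype.val hc
  have h3 : α (x * c) = x * c := by
    rw [map_mul]
    have h4 : α x = x * ((c : P) * (α c)⁻¹) := by rw [h1]; group
    rw [h4]; group
  have h5 := hfix _ h3
  rw [mul_eq_one_iff_eq_inv.mp h5]
  exact C.inv_mem c.2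

end setup

end

end Cfsg.Agent.Lib.SuzTwoD
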