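import Mathlib
import Cfsg.Agent.Lib.SuzTwoD

set_option autoImplicit false
set_option maxHeartbeats 400000

namespace Cfsg.Agent.Lib.Homoc

noncomputable section

theorem zmod_two {m : ℕ} (hm : 1 ≤ m) (a : ZMod (2 ^ m)) (ha : a + a = 0) : a = 0 ∨ a = ((2 ^ (m - 1) : ℕ) : ZMod (2 ^ m)) := by
  haveI : NeZero (2 ^ m) := ⟨by positivity⟩
  have h1 : ((2 * a.val : ℕ) : ZMod (2 ^ m)) = 0 := by
    push_cast
    rw [ZMod.natCast_zmod_val, two_mul, ha]
  rw [ZMod.natCast_eq_zero_iff] at h1
  have h2 : a.val < 2 ^ m := ZMod.val_lt a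
  obtain ⟨c, hc⟩ := h1
  have h3 : 2 ^ m = 2 * 2 ^ (m - 1) := by rw [← pow_succ', Nat.sub_add_cancel hm]
  have h4 : c < 2 := by
    by_contra h
    have : 2 ^ m * 2 ≤ 2 ^ m * c := Nat.mul_le_mul_left _ (by omega)
    omega
  interval_cases c
  · left
    have h5 : a.val = 0 := by omega
    exact (ZMod.val_eq_zero a).mp h5
  · right
    have h5 : a.val = 2 ^ (m - 1) := by omega
    rw [← h5, ZMod.natCast_zmod_val]

theorem half_ne {m : ℕ} (hm : 1 ≤ m) : ((2 ^ (m - 1) : ℕ) : ZMod (2 ^ m)) ≠ 0 := by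
  intro h
  rw [ZMod.natCast_eq_zero_iff] at h
  have h1 := Nat.le_of_dvd (by positivity) h
  have h3 : 2 ^ m = 2 * 2 ^ (m - 1) := by rw [← pow_succ', Nat.sub_add_cancel hm]
  have : 0 < 2 ^ (m - 1) := by positivity
  omega

theorem half_add {m : ℕ} (hm : 1 ≤ m) : ((2 ^ (m - 1) : ℕ) : ZMod (2 ^ m)) + ((2 ^ (m - 1) : ℕ) : ZMod (2 ^ m)) = 0 := by
  rw [← Nat.cast_add, ZMod.natCast_eq_zero_iff]
  have h3 : 2 ^ m = 2 * 2 ^ (m - 1) := by rw [← pow_succ', Nat.sub_add_cancel hm]
  rw [h3]
  exact Dvd.intro 1 (by ring)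

/-- there are involutions `s`, `t` such that all are `s`, `t`, `s * t` -/
theorem three_invol {A : Type*} [Group A] {m : ℕ} (hm : 1 ≤ m) (e : A ≃* Multiplicative (ZMod (2 ^ m) × ZMod (2 ^ m))) :
    ∃ s t : A, s ≠ 1 ∧ t ≠ 1 ∧ s ≠ t ∧ s * s = 1 ∧ t * t = 1 ∧ ∀ x : A, x * x = 1 → x = 1 ∨ x = s ∨ x = t ∨ x = s * t := by
  set h : ZMod (2 ^ m) := ((2 ^ (m - 1) : ℕ) : ZMod (2 ^ m)) with hh
  have h0 := half_ne hm
  have h1 := half_add hm
  refine ⟨e.symm (Multiplicative.ofAdd (h, 0)), e.symm (Multiplicative.ofAdd (0, h)), ?_, ?_, ?_, ?_, ?_, ?_⟩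
  · intro hx
    rw [← map_one e.symm] at hx
    have := congrArg (fun y => (Multiplicative.toAdd y).1) (e.symm.injective hx)
    exact h0 this
  · intro hx
    rw [← map_one e.symm] at hx
    have := congrArg (fun y => (Multiplicative.toAdd y).2) (e.symm.injective hx)
    exact h0 this
  · intro hx
    have := congrArg (fun y => (Multiplicative.toAdd y).1) (e.symm.injective hx)
    exact h0 this
  · rw [← map_mul, ← ofAdd_add, Prod.mk_add_mk, h1, add_zero]; exact map_one e.symm
  · rw [← map_mul, ← ofAdd_add, Prod.mk_add_mk, h1, add_zero]; exact map_one e.symm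
  · intro x hx
    have h2 : e x * e x = 1 := by rw [← map_mul, hx, map_one]
    have h3 : Multiplicative.toAdd (e x) + Multiplicative.toAdd (e x) = 0 := h2
    obtain ⟨a, b, hab⟩ : ∃ a b, Multiplicative.toAdd (e x) = (a, b) := ⟨_, _, rfl⟩
    rw [hab, Prod.mk_add_mk, Prod.mk_eq_zero] at h3
    have hx' : x = e.symm (Multiplicative.ofAdd (a, b)) := by
      rw [← hab]; exact (e.symm_apply_apply x).symm
    rcases zmod_two hm a h3.1 with ha | ha <;> rcases zmod_two hm b h3.2 with hb | hb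
    · left; rw [hx', ha, hb]; exact map_one e.symm
    · right; right; left; rw [hx', ha, hb]
    · right; left; rw [hx', ha, hb]
    · right; right; right
      rw [hx', ha, hb, ← map_mul, ← ofAdd_add, Prod.mk_add_mk, add_zero, zero_add]
section grp

variable {G : Type*} [Group G] [Finite G]

omit [Finite G] in
theorem odd_fix (P : Subgroup G) (hab : ∀ a ∈ P, ∀ b ∈ P, a * b = b * a)
    {g : G} (hgn : ∀ x ∈ P, g * x * g⁻¹ ∈ P) (hg : Odd (orderOf g)) (hfix : ∀ t ∈ P, t * t = 1 → g * t = t * g) :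
    ∀ i : ℕ, ∀ x ∈ P, x ^ 2 ^ i = 1 → g * x = x * g := by
  intro i
  induction i with
  | zero => intro x _ h; rw [pow_zero, pow_one] at h; rw [h, mul_one, one_mul]
  | succ i ih =>
    intro x hx h
    have h1 := ih (x * x) (P.mul_mem hx hx) (by rw [← pow_two, ← pow_mul, ← pow_succ']; exact h)
    have hgx := hgn x hx
    obtain ⟨u, hu⟩ : ∃ u, u = g * x * g⁻¹ * x⁻¹ := ⟨_, rfl⟩
    have huP : u ∈ P := by rw [hu]; exact P.mul_mem hgx (P.inv_mem hx)
    have hux : g * x * g⁻¹ = u * x := by rw [hu]; group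
    have huu : u * u = 1 := by
      have h2 : u * x = x * u := hab u huP x hx
      have h3 : (u * x) * (u * x) = x * x := by
        rw [← hux]
        calc g * x * g⁻¹ * (g * x * g⁻¹) = (g * (x * x)) * g⁻¹ := by group
          _ = x * x := by rw [h1]; group
      have h4 : (u * x) * (u * x) = u * u * (x * x) := by
        calc (u * x) * (u * x) = u * (x * u) * x := by group
          _ = u * (u * x) * x := by rw [h2]
          _ = _ := by group
      rw [h4] at h3
      exact mul_eq_right.mp h3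
    have hgu := hfix u huP huu
    have h5 : ∀ k : ℕ, g ^ k * x * (g ^ k)⁻¹ = u ^ k * x := by
      intro k
      induction k with
      | zero => simp
      | succ k ihk =>
        calc g ^ (k + 1) * x * (g ^ (k + 1))⁻¹ = g * (g ^ k * x * (g ^ k)⁻¹) * g⁻¹ := by rw [pow_succ']; group
          _ = g * (u ^ k * x) * g⁻¹ := by rw [ihk]
          _ = (g * u ^ k) * g⁻¹ * (g * x * g⁻¹) := by group
          _ = (u ^ k * g) * g⁻¹ * (u * x) := by rw [hux, ((show Commute g u from hgu).pow_right k).eq]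
          _ = u ^ (k + 1) * x := by rw [pow_succ]; group
    have h6 := h5 (orderOf g)
    rw [pow_orderOf_eq_one, inv_one, mul_one, one_mul] at h6
    obtain ⟨j, hj⟩ := hg
    rw [hj, pow_add, pow_mul, pow_two, huu, one_pow, one_mul, pow_one] at h6
    have h7 : u = 1 := right_eq_mul.mp h6
    rw [h7, one_mul] at hux
    calc g * x = g * x * g⁻¹ * g := by group
      _ = x * g := by rw [hux]

/-- the set of involutions -/
def Om (P : Subgroup G) : Type _ := {x : G // x ∈ P ∧ x ≠ 1 ∧ x * x = 1}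

instance (P : Subgroup G) : Finite (Om P) := inferInstanceAs (Finite {x : G // x ∈ P ∧ x ≠ 1 ∧ x * x = 1})

theorem card_Om (P : Subgroup G) {m : ℕ} (hm : 1 ≤ m) (e : P ≃* Multiplicative (ZMod (2 ^ m) × ZMod (2 ^ m))) :
    Nat.card (Om P) ≤ 3 := by
  obtain ⟨s, t, hs, ht, hst, hs2, ht2, hall⟩ := three_invol hm e
  by_cases hst1 : s * t = 1
  · exfalso; apply hst
    calc s = s * (t * t) := by rw [ht2, mul_one]
      _ = t := by rw [← mul_assoc, hst1, one_mul]
  have hstc : s * t = t * s := by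
    have h1 : ∀ x y : P, x * y = y * x := by
      intro x y
      apply e.injective
      rw [map_mul, map_mul, mul_comm]
    exact h1 s t
  have hst2 : s * t * (s * t) = 1 := by
    calc s * t * (s * t) = s * (t * s) * t := by group
      _ = (s * s) * (t * t) := by rw [← hstc]; group
      _ = 1 := by rw [hs2, ht2, one_mul]
  let f : Fin 3 → Om P := ![⟨s, s.2, fun h => hs (Subtype.ext h), congrArg Subtype.val hs2⟩,
    ⟨t, t.2, fun h => ht (Subtype.ext h), congrArg Subtype.val ht2⟩,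
    ⟨(s * t : P), (s * t).2, fun h => hst1 (Subtype.ext h), congrArg Subtype.val hst2⟩]
  have hf : Function.Surjective f := by
    rintro ⟨x, hx, hx1, hx2⟩
    rcases hall ⟨x, hx⟩ (Subtype.ext hx2) with h | h | h | h
    · exact absurd (congrArg Subtype.val h) hx1
    · exact ⟨0, Subtype.ext (congrArg Subtype.val h).symm⟩
    · exact ⟨1, Subtype.ext (congrArg Subtype.val h).symm⟩
    · exact ⟨2, Subtype.ext (congrArg Subtype.val h).symm⟩
  have := Nat.card_le_card_of_surjective f hf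
  rwa [Nat.card_eq_fintype_card (α := Fin 3), Fintype.card_fin] at this

theorem om_cases (P : Subgroup G) (hc : Nat.card (Om P) ≤ 3) (hab : ∀ a ∈ P, ∀ b ∈ P, a * b = b * a) {x y z : G}
    (hx : x ∈ P) (hx1 : x ≠ 1) (hx2 : x * x = 1) (hy : y ∈ P) (hy1 : y ≠ 1) (hy2 : y * y = 1) (hxy : x ≠ y)
    (hz : z ∈ P) (hz1 : z ≠ 1) (hz2 : z * z = 1) : z = x ∨ z = y ∨ z = x * y := by
  by_contra hcon
  push Not at hcon
  obtain ⟨hzx, hzy, hzxy⟩ := hcon
  have h1 : x * y ≠ 1 := by
    intro h; apply hxy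
    calc x = x * (y * y) := by rw [hy2, mul_one]
      _ = y := by rw [← mul_assoc, h, one_mul]
  have h2 : x * y * (x * y) = 1 := by
    calc x * y * (x * y) = x * (y * x) * y := by group
      _ = x * (x * y) * y := by rw [hab y hy x hx]
      _ = (x * x) * (y * y) := by group
      _ = 1 := by rw [hx2, hy2, one_mul]
  have h3 : x * y ≠ x := fun h => hy1 (mul_eq_left.mp h)
  have h4 : x * y ≠ y := fun h => hx1 (mul_eq_right.mp h)
  let f : Fin 4 → Om P := ![⟨x, hx, hx1, hx2⟩, ⟨y, hy, hy1, hy2⟩, ⟨z, hz, hz1, hz2⟩, ⟨x * y, P.mul_mem hx hy, h1, h2⟩]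
  have hf : Function.Injective f := by
    intro i j hij
    have hv := congrArg Subtype.val hij
    fin_cases i <;> fin_cases j <;> first
      | rfl
      | exact absurd hv hxy
      | exact absurd hv hxy.symm
      | exact absurd hv hzx
      | exact absurd hv hzx.symm
      | exact absurd hv hzy
      | exact absurd hv hzy.symm
      | exact absurd hv hzxy
      | exact absurd hv hzxy.symm
      | exact absurd hv h3
      | exact absurd hv h3.symm
      | exact absurd hv h4
      | exact absurd hv h4.symm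
  have := Nat.card_le_card_of_injective f hf
  rw [Nat.card_eq_fintype_card (α := Fin 4), Fintype.card_fin] at this
  omega

end grp
section main

variable {G : Type*} [Group G] [Finite G] (P : Sylow 2 G)

open Subgroup

omit [Finite G] in
theorem mem_of_coprime_pow (H : Subgroup G) {g : G} {a b : ℕ} (h : Nat.Coprime a b) (ha : g ^ a ∈ H) (hb : g ^ b ∈ H) :
    g ∈ H := by
  have h1 := Nat.gcd_eq_gcd_ab a b
  rw [show Nat.gcd a b = 1 from h] at h1
  have h2 : g = (g ^ a) ^ (Nat.gcdA a b) * (g ^ b) ^ (Nat.gcdB a b) := by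
    rw [← zpow_natCast g a, ← zpow_natCast g b, ← zpow_mul, ← zpow_mul, ← zpow_add, ← h1, Nat.cast_one, zpow_one]
  rw [h2]
  exact H.mul_mem (H.zpow_mem ha _) (H.zpow_mem hb _)

theorem mem_C_of_fix (hab : ∀ a ∈ (P : Subgroup G), ∀ b ∈ (P : Subgroup G), a * b = b * a)
    [hN : ((centralizer ((P : Subgroup G) : Set G)).subgroupOf (normalizer ((P : Subgroup G) : Set G))).Normal]
    (hodd : Odd (((centralizer ((P : Subgroup G) : Set G)).subgroupOf (normalizer ((P : Subgroup G) : Set G))).index))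
    {g : G} (hg : g ∈ normalizer ((P : Subgroup G) : Set G)) (hfix : ∀ t ∈ (P : Subgroup G), t * t = 1 → g * t = t * g) :
    g ∈ centralizer ((P : Subgroup G) : Set G) := by
  haveI : Fact (Nat.Prime 2) := ⟨Nat.prime_two⟩
  have hpos : orderOf g ≠ 0 := (orderOf_pos g).ne'
  obtain ⟨a, b, hb, hab'⟩ := Nat.exists_eq_two_pow_mul_odd hpos
  -- the odd part
  have h1 : g ^ 2 ^ a ∈ centralizer ((P : Subgroup G) : Set G) := by
    rw [mem_centralizer_iff]
    intro x hx
    obtain ⟨i, hi⟩ := P.isPGroup' ⟨x, hx⟩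
    have hi' : x ^ 2 ^ i = 1 := congrArg Subtype.val hi
    have hgN : g ^ 2 ^ a ∈ normalizer ((P : Subgroup G) : Set G) := pow_mem hg _
    refine (odd_fix (P : Subgroup G) hab (g := g ^ 2 ^ a) (fun y hy => (mem_normalizer_iff.mp hgN y).mp hy) ?_ ?_ i x hx hi').symm
    · have h2 : orderOf (g ^ 2 ^ a) = b := by
        rw [orderOf_pow, hab', Nat.gcd_mul_right_left, Nat.mul_div_cancel_left _ (by positivity)]
      rw [h2]; exact hb
    · intro t ht ht2
      exact ((show Commute g t from hfix t ht ht2).pow_left _).eq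
  have h2 := pow_index_mem ((centralizer ((P : Subgroup G) : Set G)).subgroupOf (normalizer ((P : Subgroup G) : Set G))) ⟨g, hg⟩
  have h3 : g ^ (((centralizer ((P : Subgroup G) : Set G)).subgroupOf (normalizer ((P : Subgroup G) : Set G))).index) ∈
      centralizer ((P : Subgroup G) : Set G) := mem_subgroupOf.mp h2
  have hcop : Nat.Coprime (2 ^ a) (((centralizer ((P : Subgroup G) : Set G)).subgroupOf (normalizer ((P : Subgroup G) : Set G))).index) :=
    Nat.Coprime.pow_left _ (Nat.coprime_two_left.mpr hodd)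
  exact mem_of_coprime_pow _ hcop h1 h3

theorem C_normal : ((centralizer ((P : Subgroup G) : Set G)).subgroupOf (normalizer ((P : Subgroup G) : Set G))).Normal := by
  rw [← normalizerMonoidHom_ker]
  infer_instance

theorem C_odd (hab : ∀ a ∈ (P : Subgroup G), ∀ b ∈ (P : Subgroup G), a * b = b * a) :
    Odd (((centralizer ((P : Subgroup G) : Set G)).subgroupOf (normalizer ((P : Subgroup G) : Set G))).index) := by
  haveI : Fact (Nat.Prime 2) := ⟨Nat.prime_two⟩
  rw [← Nat.not_even_iff_odd, even_iff_two_dvd]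
  intro h
  apply P.not_dvd_index
  have h1 : (P : Subgroup G) ≤ centralizer ((P : Subgroup G) : Set G) := fun x hx =>
    mem_centralizer_iff.mpr fun y hy => hab y hy x hx
  have h2 : (centralizer ((P : Subgroup G) : Set G)).relIndex (normalizer ((P : Subgroup G) : Set G)) ∣
      (P : Subgroup G).relIndex (normalizer ((P : Subgroup G) : Set G)) := relIndex_dvd_of_le_left _ h1
  have h3 : (P : Subgroup G).relIndex (normalizer ((P : Subgroup G) : Set G)) ∣ (P : Subgroup G).index :=
    relIndex_dvd_index_of_le le_normalizer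
  exact h.trans (h2.trans h3)

/-- part (i) -/
theorem index_one_or_three (hab : ∀ a ∈ (P : Subgroup G), ∀ b ∈ (P : Subgroup G), a * b = b * a)
    (hc : Nat.card (Om (P : Subgroup G)) ≤ 3) :
    ((centralizer ((P : Subgroup G) : Set G)).subgroupOf (normalizer ((P : Subgroup G) : Set G))).index = 1 ∨
    ((centralizer ((P : Subgroup G) : Set G)).subgroupOf (normalizer ((P : Subgroup G) : Set G))).index = 3 := by
  classical
  haveI := C_normal P
  have hodd := C_odd P hab
  letI : MulAction (normalizer ((P : Subgroup G) : Set G)) (Om (P : Subgroup G)) :=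
    { smul := fun g x => ⟨(g : G) * x.1 * (g : G)⁻¹, (mem_normalizer_iff.mp g.2 _).mp x.2.1,
        fun h => x.2.2.1 (conj_eq_one_iff.mp h), by
          calc (g : G) * x.1 * (g : G)⁻¹ * ((g : G) * x.1 * (g : G)⁻¹) = (g : G) * (x.1 * x.1) * (g : G)⁻¹ := by group
            _ = 1 := by rw [x.2.2.2]; group⟩
      one_smul := fun x => Subtype.ext (by show (1 : G) * x.1 * (1 : G)⁻¹ = x.1; group)
      mul_smul := fun y z x => Subtype.ext (by
        show ((y : G) * z) * x.1 * ((y : G) * z)⁻¹ = (y : G) * ((z : G) * x.1 * (z : G)⁻¹) * (y : G)⁻¹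
        group) }
  let φ := MulAction.toPermHom (normalizer ((P : Subgroup G) : Set G)) (Om (P : Subgroup G))
  have hker : φ.ker = (centralizer ((P : Subgroup G) : Set G)).subgroupOf (normalizer ((P : Subgroup G) : Set G)) := by
    ext g
    rw [MonoidHom.mem_ker, mem_subgroupOf]
    constructor
    · intro hg
      apply mem_C_of_fix P hab hodd g.2
      intro t ht ht2
      by_cases ht1 : t = 1
      · rw [ht1, mul_one, one_mul]
      have h1 : φ g ⟨t, ht, ht1, ht2⟩ = ⟨t, ht, ht1, ht2⟩ := by rw [hg]; rfl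
      have h2 : (g : G) * t * (g : G)⁻¹ = t := congrArg Subtype.val h1
      calc (g : G) * t = (g : G) * t * (g : G)⁻¹ * g := by group
        _ = t * g := by rw [h2]
    · intro hg
      refine Equiv.ext fun x => Subtype.ext ?_
      show (g : G) * x.1 * (g : G)⁻¹ = x.1
      rw [← mem_centralizer_iff.mp hg x.1 x.2.1, mul_inv_cancel_right]
  rw [← hker, index_ker] at hodd ⊢
  have h1 : Nat.card φ.range ∣ Nat.card (Equiv.Perm (Om (P : Subgroup G))) := card_subgroup_dvd_card _
  rw [Nat.card_perm] at h1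
  have h2 : Nat.card φ.range ∣ Nat.factorial 3 := h1.trans (Nat.factorial_dvd_factorial hc)
  have h3 : Nat.card φ.range ≤ 6 := Nat.le_of_dvd (by norm_num [Nat.factorial]) h2
  have h4 : Nat.factorial 3 = 6 := rfl
  rw [h4] at h2
  obtain ⟨j, hj⟩ := hodd
  generalize Nat.card φ.range = n at *
  have : n = 1 ∨ n = 3 ∨ n = 5 := by omega
  rcases this with h | h | h
  · exact Or.inl h
  · exact Or.inr h
  · rw [h] at h2; norm_num at h2

/-- part (ii) -/
theorem mem_C_of_commute (hab : ∀ a ∈ (P : Subgroup G), ∀ b ∈ (P : Subgroup G), a * b = b * a)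
    (hc : Nat.card (Om (P : Subgroup G)) ≤ 3) {g : G} (hg : g ∈ normalizer ((P : Subgroup G) : Set G))
    {t : G} (ht : t ∈ (P : Subgroup G)) (ht1 : t ≠ 1) (ht2 : t * t = 1) (hgt : g * t = t * g) :
    g ∈ centralizer ((P : Subgroup G) : Set G) := by
  haveI := C_normal P
  have hodd := C_odd P hab
  have hconj : ∀ x ∈ (P : Subgroup G), x ≠ 1 → x * x = 1 → g * x * g⁻¹ ∈ (P : Subgroup G) ∧ g * x * g⁻¹ ≠ 1 ∧
      g * x * g⁻¹ * (g * x * g⁻¹) = 1 := by
    intro x hx hx1 hx2
    refine ⟨(mem_normalizer_iff.mp hg x).mp hx, fun h => hx1 (conj_eq_one_iff.mp h), ?_⟩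
    calc g * x * g⁻¹ * (g * x * g⁻¹) = g * (x * x) * g⁻¹ := by group
      _ = 1 := by rw [hx2]; group
  have h1 : g ^ 2 ∈ centralizer ((P : Subgroup G) : Set G) := by
    apply mem_C_of_fix P hab hodd (pow_mem hg 2)
    intro x hx hx2
    by_cases hx1 : x = 1
    · rw [hx1, mul_one, one_mul]
    by_cases hxt : t = x
    · rw [← hxt]; exact ((show Commute g t from hgt).pow_left 2).eq
    obtain ⟨h3, h4, h5⟩ := hconj x hx hx1 hx2
    have hgt' : g * t * g⁻¹ = t := by rw [hgt, mul_inv_cancel_right]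
    rcases om_cases (P : Subgroup G) hc hab ht ht1 ht2 hx hx1 hx2 hxt h3 h4 h5 with h | h | h
    · exfalso
      apply hxt
      have h6 : g * x * g⁻¹ = g * t * g⁻¹ := by rw [h, hgt']
      exact (mul_left_cancel (mul_right_cancel h6)).symm
    · have h6 : g * x = x * g := by
        calc g * x = g * x * g⁻¹ * g := by group
          _ = x * g := by rw [h]
      exact ((show Commute g x from h6).pow_left 2).eq
    · calc g ^ 2 * x = g * (g * x * g⁻¹) * g := by rw [pow_two]; group
        _ = g * (t * x) * g := by rw [h]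
        _ = (g * t * g⁻¹) * (g * x * g⁻¹) * g ^ 2 := by rw [pow_two]; group
        _ = t * (t * x) * g ^ 2 := by rw [h, hgt']
        _ = x * g ^ 2 := by rw [← mul_assoc t t x, ht2, one_mul]
  have h2 := pow_index_mem ((centralizer ((P : Subgroup G) : Set G)).subgroupOf (normalizer ((P : Subgroup G) : Set G))) ⟨g, hg⟩
  have h3 : g ^ (((centralizer ((P : Subgroup G) : Set G)).subgroupOf (normalizer ((P : Subgroup G) : Set G))).index) ∈
      centralizer ((P : Subgroup G) : Set G) := mem_subgroupOf.mp h2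
  exact mem_of_coprime_pow _ (Nat.coprime_two_left.mpr hodd) h1 h3

theorem inf_eq (hab : ∀ a ∈ (P : Subgroup G), ∀ b ∈ (P : Subgroup G), a * b = b * a)
    (hc : Nat.card (Om (P : Subgroup G)) ≤ 3) {z : G} (hz : z ∈ (P : Subgroup G)) (hz1 : z ≠ 1) :
    centralizer ({z} : Set G) ⊓ normalizer ((P : Subgroup G) : Set G) = centralizer ((P : Subgroup G) : Set G) := by
  apply le_antisymm
  · rintro g ⟨hg1, hg2⟩
    obtain ⟨n, hn1, hn2⟩ := Cfsg.Agent.Lib.SuzTwoD.exists_invol_pow P.isPGroup' (x := ⟨z, hz⟩)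
      (fun h => hz1 (congrArg Subtype.val h))
    have hn1' : z ^ n ≠ 1 := fun h => hn1 (Subtype.ext h)
    have hn2' : z ^ n * z ^ n = 1 := congrArg Subtype.val hn2
    refine mem_C_of_commute P hab hc hg2 (pow_mem hz n) hn1' hn2' ?_
    have h1 : g * z = z * g := mem_centralizer_singleton_iff.mp hg1
    exact ((show Commute g z from h1).pow_right n).eq
  · intro g hg
    refine ⟨mem_centralizer_singleton_iff.mpr (mem_centralizer_iff.mp hg z hz).symm, ?_⟩
    have h3 : ∀ y ∈ (P : Subgroup G), g * y * g⁻¹ = y := by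
      intro y hy; rw [← mem_centralizer_iff.mp hg y hy]; group
    refine mem_normalizer_iff.mpr fun y => ?_
    constructor
    · intro hy
      have : g * y * g⁻¹ ∈ (P : Subgroup G) := by rw [h3 y hy]; exact hy
      exact this
    · intro hy
      have hy' : g * y * g⁻¹ ∈ (P : Subgroup G) := hy
      have h4 := h3 _ hy'
      have h5 : y = g * y * g⁻¹ := by
        have h6 : g * (g * y * g⁻¹) * g⁻¹ = g * y * g⁻¹ := h4
        have h7 := mul_right_cancel h6
        exact (mul_left_cancel h7).symm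
      rw [h5]; exact hy'

theorem conj_into {s : G} (hs : orderOf s = 2) : ∃ c : G, c * s * c⁻¹ ∈ (P : Subgroup G) := by
  haveI : Fact (Nat.Prime 2) := ⟨Nat.prime_two⟩
  have h1 : IsPGroup 2 (zpowers s) := IsPGroup.of_card (n := 1) (by rw [Nat.card_zpowers, hs, pow_one])
  obtain ⟨Q, hQ⟩ := h1.exists_le_sylow
  obtain ⟨c, hc⟩ := MulAction.exists_smul_eq G Q P
  refine ⟨c, ?_⟩
  rw [← hc]
  exact Subgroup.smul_mem_pointwise_smul s (MulAut.conj c) (Q : Subgroup G) (hQ (mem_zpowers s))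

theorem dichotomy (hab : ∀ a ∈ (P : Subgroup G), ∀ b ∈ (P : Subgroup G), a * b = b * a)
    (hc : Nat.card (Om (P : Subgroup G)) ≤ 3) :
    (∃ N : Subgroup G, N.Normal ∧ IsComplement' N (P : Subgroup G)) ∨
      ∀ s t : G, orderOf s = 2 → orderOf t = 2 → IsConj s t := by
  haveI : Fact (Nat.Prime 2) := ⟨Nat.prime_two⟩
  by_cases hle : normalizer ((P : Subgroup G) : Set G) ≤ centralizer ((P : Subgroup G) : Set G)
  · left
    exact ⟨_, inferInstance, MonoidHom.ker_transferSylow_isComplement' P hle⟩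
  right
  obtain ⟨g, hg, hgC⟩ := SetLike.not_le_iff_exists.mp hle
  have hno : ∀ x ∈ (P : Subgroup G), x ≠ 1 → x * x = 1 → g * x * g⁻¹ ≠ x := by
    intro x hx hx1 hx2 h
    apply hgC
    refine mem_C_of_commute P hab hc hg hx hx1 hx2 ?_
    calc g * x = g * x * g⁻¹ * g := by group
      _ = x * g := by rw [h]
  have hconj : ∀ x ∈ (P : Subgroup G), x ≠ 1 → x * x = 1 → g * x * g⁻¹ ∈ (P : Subgroup G) ∧ g * x * g⁻¹ ≠ 1 ∧
      g * x * g⁻¹ * (g * x * g⁻¹) = 1 := by
    intro x hx hx1 hx2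
    refine ⟨(mem_normalizer_iff.mp hg x).mp hx, fun h => hx1 (conj_eq_one_iff.mp h), ?_⟩
    calc g * x * g⁻¹ * (g * x * g⁻¹) = g * (x * x) * g⁻¹ := by group
      _ = 1 := by rw [hx2]; group
  have htr : ∀ x ∈ (P : Subgroup G), x ≠ 1 → x * x = 1 → ∀ y ∈ (P : Subgroup G), y ≠ 1 → y * y = 1 → IsConj x y := by
    intro x hx hx1 hx2 y hy hy1 hy2
    by_cases hxy : x = y
    · rw [hxy]
    obtain ⟨h1, h2, h3⟩ := hconj x hx hx1 hx2
    rcases om_cases (P : Subgroup G) hc hab hx hx1 hx2 hy hy1 hy2 hxy h1 h2 h3 with h | h | h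
    · exact absurd h (hno x hx hx1 hx2)
    · exact isConj_iff.mpr ⟨g, h⟩
    · obtain ⟨h4, h5, h6⟩ := hconj _ h1 h2 h3
      rcases om_cases (P : Subgroup G) hc hab hx hx1 hx2 hy hy1 hy2 hxy h4 h5 h6 with h' | h' | h'
      · exfalso
        apply hno y hy hy1 hy2
        have h7 : g * (x * y) * g⁻¹ = x := by rw [← h]; exact h'
        have h8 : (g * x * g⁻¹) * (g * y * g⁻¹) = x := by
          calc (g * x * g⁻¹) * (g * y * g⁻¹) = g * (x * y) * g⁻¹ := by group
            _ = x := h7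
        rw [h] at h8
        have h9 : g * y * g⁻¹ = (x * y)⁻¹ * x := eq_inv_mul_of_mul_eq h8
        have h10 : (x * y)⁻¹ = x * y := by
          have h11 : x * y * (x * y) = 1 := by rw [← h]; exact h3
          exact inv_eq_of_mul_eq_one_left h11
        rw [h9, h10, mul_assoc, hab y hy x hx, ← mul_assoc, hx2, one_mul]
      · refine isConj_iff.mpr ⟨g * g, ?_⟩
        rw [← h']; group
      · exact absurd (h'.trans h.symm) (hno _ h1 h2 h3)
  have hord : ∀ s : G, orderOf s = 2 → s ≠ 1 ∧ s * s = 1 := by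
    intro s hs
    refine ⟨fun h => by rw [h, orderOf_one] at hs; norm_num at hs, ?_⟩
    rw [← pow_two, ← hs, pow_orderOf_eq_one]
  intro s t hs ht
  obtain ⟨c, hcP⟩ := conj_into P hs
  obtain ⟨d, hdP⟩ := conj_into P ht
  have h1 : IsConj s (c * s * c⁻¹) := isConj_iff.mpr ⟨c, rfl⟩
  have h2 : IsConj t (d * t * d⁻¹) := isConj_iff.mpr ⟨d, rfl⟩
  have hcj : ∀ c s : G, s ≠ 1 ∧ s * s = 1 → c * s * c⁻¹ ≠ 1 ∧ c * s * c⁻¹ * (c * s * c⁻¹) = 1 := by
    intro c s hs
    refine ⟨fun h => hs.1 (conj_eq_one_iff.mp h), ?_⟩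
    calc c * s * c⁻¹ * (c * s * c⁻¹) = c * (s * s) * c⁻¹ := by group
      _ = 1 := by rw [hs.2]; group
  have h3 := hcj c s (hord s hs)
  have h4 := hcj d t (hord t ht)
  exact h1.trans ((htr _ hcP h3.1 h3.2 _ hdP h4.1 h4.2).trans h2.symm)

theorem comm_of_equiv {A : Type*} [Group A] {m : ℕ} (e : A ≃* Multiplicative (ZMod (2 ^ m) × ZMod (2 ^ m))) (x y : A) :
    x * y = y * x := by
  apply e.injective
  rw [map_mul, map_mul, mul_comm]

end main

end

end Cfsg.Agent.Lib.Homoc
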