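import Cfsg.Agent.Lib.PermutB
import Cfsg.Agent.Lib.QuadB
import Cfsg.Agent.Lib.SuperA
import Cfsg.Agent.Lib.PPart

/-!
Products of two abelian subgroups: a normal subgroup in one of the factors.
-/

set_option autoImplicit false
set_option linter.unusedSectionVars false
set_option linter.unusedVariables false

namespace Cfsg.Agent.Lib.ItoB

open Subgroup Cfsg.Agent.Lib Cfsg.Agent.Lib.Permut
open scoped commutatorElement Pointwise

universe u

variable {G : Type u} [Group G]

theorem normal_of_commutator_le {X : Subgroup G} (h : _root_.commutator G ≤ X) : X.Normal := by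
  refine ⟨fun x hx g => ?_⟩
  have h1 : ⁅g, x⁆ ∈ X := h (commutator_mem_commutator (mem_top g) (mem_top x))
  have e : g * x * g⁻¹ = ⁅g, x⁆ * x := by rw [_root_.commutatorElement_def]; group
  rw [e]; exact X.mul_mem h1 hx

/-- the centre of a product of two abelian groups -/
theorem center_fac {X A B : Subgroup G} (hA : ∀ x ∈ A, ∀ y ∈ A, x * y = y * x) (hB : ∀ x ∈ B, ∀ y ∈ B, x * y = y * x)
    (hAX : A ≤ X) (hBX : B ≤ X) (hX : ∀ x ∈ X, ∃ a ∈ A, ∃ b ∈ B, x = a * b) {z : G} (hz : z ∈ X) (hzC : z ∈ centralizer (X : Set G)) :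
    ∃ a ∈ A, ∃ b ∈ B, z = a * b ∧ a ∈ centralizer (X : Set G) ∧ b ∈ centralizer (X : Set G) := by
  obtain ⟨a, ha, b, hb, hab⟩ := hX z hz
  have hzc : ∀ x ∈ X, x * z = z * x := fun x hx => mem_centralizer_iff.mp hzC x hx
  have h1 : ∀ b' ∈ B, b' * a = a * b' := by
    intro b' hb'
    have h2 := hzc b' (hBX hb')
    rw [hab] at h2
    have h3 : b' * a * b = a * b' * b := by
      calc b' * a * b = b' * (a * b) := by group
        _ = a * b * b' := h2
        _ = a * (b * b') := by group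
        _ = a * (b' * b) := by rw [hB b hb b' hb']
        _ = a * b' * b := by group
    exact mul_right_cancel h3
  have haC : a ∈ centralizer (X : Set G) := by
    rw [mem_centralizer_iff]
    intro x hx
    obtain ⟨a', ha', b', hb', rfl⟩ := hX x hx
    calc a' * b' * a = a' * (b' * a) := by group
      _ = a' * (a * b') := by rw [h1 b' hb']
      _ = a' * a * b' := by group
      _ = a * a' * b' := by rw [hA a' ha' a ha]
      _ = a * (a' * b') := by group
  refine ⟨a, ha, b, hb, hab, haC, ?_⟩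
  have : b = a⁻¹ * z := by rw [hab]; group
  rw [this]
  exact mul_mem (inv_mem haC) hzC

/-- the subgroups `U A` with `U` the derived group -/
theorem step [Finite G] {A B U : Subgroup G} (hA : ∀ x ∈ A, ∀ y ∈ A, x * y = y * x) (hB : ∀ x ∈ B, ∀ y ∈ B, x * y = y * x)
    (hAB : ∀ g : G, ∃ a ∈ A, ∃ b ∈ B, g = a * b) (hU : _root_.commutator G ≤ U) (hUab : ∀ x ∈ U, ∀ y ∈ U, x * y = y * x)
    (hNA : ∀ N : Subgroup G, N.Normal → N ≤ A → N = ⊥) (hNB : ∀ N : Subgroup G, N.Normal → N ≤ B → N = ⊥) :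
    A ⊓ centralizer (U : Set G) = ⊥ ∧ A ⊓ U = ⊥ ∧ A ⊓ B = ⊥ := by
  -- centre of `G`
  have hZ : ∀ z : G, (∀ g : G, g * z = z * g) → z ∈ A ∨ z ∈ B → z = 1 := by
    intro z hz h
    have hn : (zpowers z).Normal := by
      refine ⟨fun x hx g => ?_⟩
      have h1 : zpowers z ≤ center G := by
        rw [zpowers_le, mem_center_iff]; exact hz
      have h2 := mem_center_iff.mp (h1 hx) g
      rw [h2, mul_assoc, mul_inv_cancel, mul_one]; exact hx
    rcases h with h | h
    · have := hNA _ hn (zpowers_le.mpr h)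
      exact zpowers_eq_bot.mp this
    · have := hNB _ hn (zpowers_le.mpr h)
      exact zpowers_eq_bot.mp this
  have hAiB : A ⊓ B = ⊥ := by
    rw [eq_bot_iff]
    rintro x ⟨hxA, hxB⟩
    rw [mem_bot]
    apply hZ x _ (Or.inl hxA)
    intro g
    obtain ⟨a, ha, b, hb, rfl⟩ := hAB g
    calc a * b * x = a * (b * x) := by group
      _ = a * (x * b) := by rw [hB b hb x hxB]
      _ = a * x * b := by group
      _ = x * a * b := by rw [hA a ha x hxA]
      _ = x * (a * b) := by group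
  haveI hUA : (U ⊔ A).Normal := normal_of_commutator_le (hU.trans le_sup_left)
  have hZUA : (U ⊔ A) ⊓ centralizer ((U ⊔ A : Subgroup G) : Set G) = ⊥ := by
    apply hNA _ inferInstance
    rintro z ⟨hz, hzC⟩
    obtain ⟨a, ha, b, hb, hab, haC, hbC⟩ := center_fac (X := U ⊔ A) (A := A) (B := B ⊓ (U ⊔ A)) hA
      (fun x hx y hy => hB x hx.1 y hy.1) le_sup_right inf_le_right (by
        intro x hx
        obtain ⟨a, ha, b, hb, rfl⟩ := hAB x
        refine ⟨a, ha, b, mem_inf.mpr ⟨hb, ?_⟩, rfl⟩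
        have e : b = a⁻¹ * (a * b) := by group
        rw [e]; exact mul_mem (inv_mem (mem_sup_right ha)) hx) hz hzC
    have hb1 : b = 1 := by
      apply hZ b _ (Or.inr hb.1)
      intro g
      obtain ⟨a', ha', b', hb', rfl⟩ := hAB g
      have h1 := mem_centralizer_iff.mp hbC a' (mem_sup_right ha')
      calc a' * b' * b = a' * (b' * b) := by group
        _ = a' * (b * b') := by rw [hB b' hb' b hb.1]
        _ = a' * b * b' := by group
        _ = b * a' * b' := by rw [h1]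
        _ = b * (a' * b') := by group
    rw [hab, hb1, mul_one]; exact ha
  have hCA : A ⊓ centralizer (U : Set G) = ⊥ := by
    rw [eq_bot_iff, ← hZUA]
    rintro x ⟨hxA, hxC⟩
    refine ⟨mem_sup_right hxA, ?_⟩
    have hx2 : x ∈ centralizer (U : Set G) ⊓ centralizer (A : Set G) :=
      ⟨hxC, mem_centralizer_iff.mpr fun y hy => hA y hy x hxA⟩
    rw [← QuadA.centralizer_sup] at hx2
    exact hx2
  refine ⟨hCA, ?_, hAiB⟩
  rw [eq_bot_iff, ← hCA]
  exact fun x hx => ⟨hx.1, mem_centralizer_iff.mpr fun y hy => hUab y hy x hx.2⟩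

theorem card_sup_of_normal [Finite G] {U X : Subgroup G} [U.Normal] (h : U ⊓ X = ⊥) :
    Nat.card (U ⊔ X : Subgroup G) = Nat.card U * Nat.card X :=
  Basic.card_sup_of_inf_eq_bot (by rw [normalizer_eq_top]; exact le_top) h

theorem card_of_fac [Finite G] {X A B : Subgroup G} (hX : (X : Set G) = (A : Set G) * (B : Set G)) (h : A ⊓ B = ⊥) :
    Nat.card X = Nat.card A * Nat.card B := by
  have h1 := Basic.card_mul_mul_card_inf A B
  rw [h, card_bot, mul_one, ← hX] at h1
  exact h1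

theorem main [Finite G] [Nontrivial G] {A B : Subgroup G} (hA : ∀ x ∈ A, ∀ y ∈ A, x * y = y * x)
    (hB : ∀ x ∈ B, ∀ y ∈ B, x * y = y * x) (hAB : ∀ g : G, ∃ a ∈ A, ∃ b ∈ B, g = a * b) :
    ∃ N : Subgroup G, N.Normal ∧ N ≠ ⊥ ∧ (N ≤ A ∨ N ≤ B) := by
  classical
  by_contra hcon
  push Not at hcon
  have hNA : ∀ N : Subgroup G, N.Normal → N ≤ A → N = ⊥ := by
    intro N hN hNA
    by_contra h0
    exact (hcon N hN h0).1 hNA
  have hNB : ∀ N : Subgroup G, N.Normal → N ≤ B → N = ⊥ := by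
    intro N hN hNB
    by_contra h0
    exact (hcon N hN h0).2 hNB
  have hUab := PermutB.ito hA hB hAB
  set U := _root_.commutator G with hU
  haveI hUn : U.Normal := by rw [hU]; infer_instance
  have hBA : ∀ g : G, ∃ b ∈ B, ∃ a ∈ A, g = b * a := by
    intro g
    obtain ⟨a, ha, b, hb, hab⟩ := hAB g⁻¹
    refine ⟨b⁻¹, inv_mem hb, a⁻¹, inv_mem ha, ?_⟩
    rw [← mul_inv_rev, ← hab, inv_inv]
  obtain ⟨hCA, hAU, hAiB⟩ := step hA hB hAB le_rfl hUab hNA hNB
  obtain ⟨hCB, hBU, -⟩ := step hB hA hBA le_rfl hUab hNB hNA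
  -- `U ≠ 1`
  have hU0 : U ≠ ⊥ := by
    intro h
    have hAn : A.Normal := normal_of_commutator_le (by rw [← hU, h]; exact bot_le)
    have hBn : B.Normal := normal_of_commutator_le (by rw [← hU, h]; exact bot_le)
    have h1 := hNA A hAn le_rfl
    have h2 := hNB B hBn le_rfl
    obtain ⟨x, hx⟩ := exists_ne (1 : G)
    obtain ⟨a, ha, b, hb, rfl⟩ := hAB x
    rw [h1, mem_bot] at ha
    rw [h2, mem_bot] at hb
    exact hx (by rw [ha, hb, one_mul])
  -- the subgroup `X`
  haveI hUAn : (U ⊔ A).Normal := normal_of_commutator_le le_sup_left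
  haveI hUBn : (U ⊔ B).Normal := normal_of_commutator_le le_sup_left
  set A1 := A ⊓ (U ⊔ B) with hA1
  set B1 := B ⊓ (U ⊔ A) with hB1
  have hAU' : U ⊓ A = ⊥ := by rw [inf_comm]; exact hAU
  have hBU' : U ⊓ B = ⊥ := by rw [inf_comm]; exact hBU
  have hcA1 : Nat.card A1 = Nat.card U := by
    have h1 : ((U ⊔ B : Subgroup G) : Set G) = (A1 : Set G) * (B : Set G) := by
      ext x
      constructor
      · intro hx
        obtain ⟨a, ha, b, hb, rfl⟩ := hAB x
        refine ⟨a, mem_inf.mpr ⟨ha, ?_⟩, b, hb, rfl⟩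
        have e : a = (a * b) * b⁻¹ := by group
        rw [e]; exact mul_mem hx (inv_mem (mem_sup_right hb))
      · rintro ⟨a, ha, b, hb, rfl⟩
        exact mul_mem ha.2 (mem_sup_right hb)
    have h2 := card_of_fac h1 (by rw [eq_bot_iff, ← hAiB]; exact inf_le_inf_right _ inf_le_left)
    rw [card_sup_of_normal hBU'] at h2
    exact (Nat.eq_of_mul_eq_mul_right Nat.card_pos h2).symm
  have hcB1 : Nat.card B1 = Nat.card U := by
    have h1 : ((U ⊔ A : Subgroup G) : Set G) = (B1 : Set G) * (A : Set G) := by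
      ext x
      constructor
      · intro hx
        obtain ⟨b, hb, a, ha, rfl⟩ := hBA x
        refine ⟨b, mem_inf.mpr ⟨hb, ?_⟩, a, ha, rfl⟩
        have e : b = (b * a) * a⁻¹ := by group
        rw [e]; exact mul_mem hx (inv_mem (mem_sup_right ha))
      · rintro ⟨b, hb, a, ha, rfl⟩
        exact mul_mem hb.2 (mem_sup_right ha)
    have h2 := card_of_fac h1 (by rw [eq_bot_iff, ← hAiB, inf_comm]; exact inf_le_inf_left _ inf_le_left)
    rw [card_sup_of_normal hAU'] at h2
    exact (Nat.eq_of_mul_eq_mul_right Nat.card_pos h2).symm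
  set X := U ⊔ A1 with hX
  have hUnX : (U ⊔ A1).Normal := normal_of_commutator_le le_sup_left
  have hcX : Nat.card X = Nat.card U * Nat.card U := by
    rw [hX, card_sup_of_normal (by rw [eq_bot_iff, ← hAU']; exact inf_le_inf_left _ inf_le_left), hcA1]
  have hUX : U ≤ X := le_sup_left
  have hA1X : A1 ≤ X := le_sup_right
  have hXe : X = (U ⊔ A) ⊓ (U ⊔ B) := by
    rw [hX, hA1, Basic.sup_inf_assoc_of_le' le_sup_left (by rw [normalizer_eq_top]; exact le_top)]
  have hB1X : B1 ≤ X := by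
    rw [hXe]; exact le_inf inf_le_right (inf_le_left.trans le_sup_right)
  have hAB1 : A1 ⊓ B1 = ⊥ := by rw [eq_bot_iff, ← hAiB]; exact inf_le_inf inf_le_left inf_le_left
  have hXAB : (X : Set G) = (A1 : Set G) * (B1 : Set G) := by
    symm
    refine Set.eq_of_subset_of_ncard_le ?_ ?_ (Set.toFinite _)
    · rintro _ ⟨a, ha, b, hb, rfl⟩
      exact mul_mem (hA1X ha) (hB1X hb)
    · have h1 := Basic.card_mul_mul_card_inf A1 B1
      rw [hAB1, card_bot, mul_one, hcA1, hcB1, ← hcX] at h1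
      rw [← Nat.card_coe_set_eq, ← Nat.card_coe_set_eq, h1]
      exact le_rfl
  have hXfac : ∀ x ∈ X, ∃ a ∈ A1, ∃ b ∈ B1, x = a * b := by
    intro x hx
    have : x ∈ (X : Set G) := hx
    rw [hXAB] at this
    obtain ⟨a, ha, b, hb, hab⟩ := this
    exact ⟨a, ha, b, hb, hab.symm⟩
  -- a prime dividing `|U|`
  obtain ⟨p, hp, hpU⟩ := Nat.exists_prime_and_dvd (n := Nat.card U) (by rw [Ne, card_eq_one]; exact hU0)
  haveI : Fact p.Prime := ⟨hp⟩
  let P : Subgroup G :=
    { carrier := {x | x ∈ U ∧ ∃ k : ℕ, x ^ p ^ k = 1}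
      one_mem' := ⟨one_mem _, 0, one_pow _⟩
      mul_mem' := by
        rintro a b ⟨ha, k, hk⟩ ⟨hb, l, hl⟩
        refine ⟨mul_mem ha hb, k + l, ?_⟩
        have hc : Commute a b := hUab a ha b hb
        rw [hc.mul_pow, pow_add, pow_mul, hk, one_pow, one_mul, mul_comm, pow_mul, hl, one_pow]
      inv_mem' := by
        rintro a ⟨ha, k, hk⟩
        exact ⟨inv_mem ha, k, by rw [inv_pow, hk, inv_one]⟩ }
  let L : Subgroup G :=
    { carrier := {x | x ∈ U ∧ (orderOf x).Coprime p}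
      one_mem' := ⟨one_mem _, by rw [orderOf_one]; exact Nat.coprime_one_left p⟩
      mul_mem' := by
        rintro a b ⟨ha, hk⟩ ⟨hb, hl⟩
        refine ⟨mul_mem ha hb, ?_⟩
        have hc : Commute a b := hUab a ha b hb
        exact Nat.Coprime.coprime_dvd_left hc.orderOf_mul_dvd_mul_orderOf (Nat.Coprime.mul_left hk hl)
      inv_mem' := by
        rintro a ⟨ha, hk⟩
        exact ⟨inv_mem ha, by rw [orderOf_inv]; exact hk⟩ }
  have hPU : P ≤ U := fun x hx => hx.1
  have hLU : L ≤ U := fun x hx => hx.1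
  haveI hPn : P.Normal := ⟨fun x hx g => ⟨hUn.conj_mem _ hx.1 g, by
    obtain ⟨k, hk⟩ := hx.2
    exact ⟨k, by rw [conj_pow, hk, mul_one, mul_inv_cancel]⟩⟩⟩
  haveI hLn : L.Normal := ⟨fun x hx g => ⟨hUn.conj_mem _ hx.1 g, by
    have : orderOf (g * x * g⁻¹) = orderOf x := orderOf_injective (MulAut.conj g).toMonoidHom (MulAut.conj g).injective x
    rw [this]; exact hx.2⟩⟩
  have hPp : IsPGroup p P := by
    rintro ⟨x, hx⟩
    obtain ⟨k, hk⟩ := hx.2
    exact ⟨k, Subtype.ext hk⟩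
  have hLc : (Nat.card L).Coprime p := by
    rw [Nat.coprime_comm, Nat.Prime.coprime_iff_not_dvd hp]
    intro hd
    obtain ⟨x, hx⟩ := exists_prime_orderOf_dvd_card' p hd
    have h1 := x.2.2
    rw [orderOf_coe, hx] at h1
    exact hp.one_lt.ne' (Nat.coprime_self p |>.mp h1)
  have hP0 : P ≠ ⊥ := by
    obtain ⟨x, hx⟩ := exists_prime_orderOf_dvd_card' p hpU
    intro h
    have h1 : (x : G) ∈ P := ⟨x.2, 1, by
      rw [pow_one, ← hx]
      exact congrArg Subtype.val (pow_orderOf_eq_one x)⟩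
    rw [h, mem_bot] at h1
    have h2 : x = 1 := Subtype.ext h1
    rw [h2, orderOf_one] at hx
    exact hp.one_lt.ne hx
  have hPL : P ⊓ L = ⊥ := Subgroup.inf_eq_bot_of_coprime (CoprimeB.card_coprime_of_isPGroup hLc hPp).symm
  have hULP : ∃ j, Nat.card U = Nat.card L * p ^ j := by
    have h1 : U = L ⊔ P := by
      apply le_antisymm
      · intro x hx
        obtain ⟨m, n, e1, ⟨j1, hj1⟩, hn⟩ := PPart.decomp p x
        rw [e1]
        refine mul_mem (mem_sup_right ⟨pow_mem hx m, j1, orderOf_dvd_iff_pow_eq_one.1 hj1⟩) (mem_sup_left ⟨pow_mem hx n, hn⟩)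
      · exact sup_le hLU hPU
    obtain ⟨j, hj⟩ := hPp.exists_card_eq
    refine ⟨j, ?_⟩
    rw [h1, card_sup_of_normal (by rw [inf_comm]; exact hPL), hj]
  -- `Y`
  set Y := (L ⊔ A1) ⊓ (L ⊔ B1) with hY
  have hA1L : L ⊓ A1 = ⊥ := by rw [eq_bot_iff, ← hAU']; exact inf_le_inf hLU inf_le_left
  have hB1L : L ⊓ B1 = ⊥ := by rw [eq_bot_iff, ← hBU']; exact inf_le_inf hLU inf_le_left
  have hcY : Nat.card Y = Nat.card L * Nat.card L := by
    have h1 := Basic.card_mul_mul_card_inf (L ⊔ A1) (L ⊔ B1)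
    have h2 : ((L ⊔ A1 : Subgroup G) : Set G) * ((L ⊔ B1 : Subgroup G) : Set G) = (X : Set G) := by
      apply Set.Subset.antisymm
      · rintro _ ⟨a, ha, b, hb, rfl⟩
        exact mul_mem ((sup_le (hLU.trans hUX) hA1X) ha) ((sup_le (hLU.trans hUX) hB1X) hb)
      · rw [hXAB]
        exact Set.mul_subset_mul (SetLike.coe_subset_coe.mpr le_sup_right) (SetLike.coe_subset_coe.mpr le_sup_right)
    rw [h2, card_sup_of_normal hA1L, card_sup_of_normal hB1L, hcA1, hcB1] at h1
    have h3 : Nat.card X * Nat.card Y = Nat.card X * (Nat.card L * Nat.card L) := by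
      have h4 : Nat.card (X : Set G) = Nat.card X := rfl
      rw [hY]
      calc Nat.card X * Nat.card ((L ⊔ A1) ⊓ (L ⊔ B1) : Subgroup G) = Nat.card L * Nat.card U * (Nat.card L * Nat.card U) := h1
        _ = Nat.card X * (Nat.card L * Nat.card L) := by rw [hcX]; ring
    exact Nat.eq_of_mul_eq_mul_left Nat.card_pos h3
  have hLY : L ≤ Y := le_inf le_sup_left le_sup_left
  have hYe : Y = L ⊔ (A1 ⊓ Y) := by
    rw [Basic.sup_inf_assoc_of_le' hLY (by rw [normalizer_eq_top]; exact le_top), eq_comm, inf_eq_right]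
    exact inf_le_left
  have hcA1Y : Nat.card (A1 ⊓ Y : Subgroup G) = Nat.card L := by
    have h1 : Nat.card Y = Nat.card L * Nat.card (A1 ⊓ Y : Subgroup G) := by
      conv_lhs => rw [hYe]
      exact card_sup_of_normal (by rw [eq_bot_iff, ← hA1L]; exact inf_le_inf_left _ inf_le_left)
    rw [hcY] at h1
    exact (Nat.eq_of_mul_eq_mul_left Nat.card_pos h1).symm
  -- `Y` centralizes `P`
  have hYX : ∀ y ∈ Y, ∀ x ∈ X, ⁅y, x⁆ ∈ L := by
    -- modulo `L`
    set π := QuotientGroup.mk' L with hπ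
    have hcm : ∀ y ∈ Y, ∀ a ∈ A1, π y * π a = π a * π y := by
      intro y hy a ha
      obtain ⟨l, hl, a', ha', rfl⟩ := (Basic.mem_sup_iff_left (N := L) (by rw [normalizer_eq_top]; exact le_top)).mp hy.1
      rw [map_mul, show π l = 1 from (QuotientGroup.eq_one_iff l).2 hl, one_mul, ← map_mul, ← map_mul, hA a' ha'.1 a ha.1]
    have hcm' : ∀ y ∈ Y, ∀ b ∈ B1, π y * π b = π b * π y := by
      intro y hy a ha
      obtain ⟨l, hl, a', ha', rfl⟩ := (Basic.mem_sup_iff_left (N := L) (by rw [normalizer_eq_top]; exact le_top)).mp hy.2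
      rw [map_mul, show π l = 1 from (QuotientGroup.eq_one_iff l).2 hl, one_mul, ← map_mul, ← map_mul, hB a' ha'.1 a ha.1]
    intro y hy x hx
    rw [← QuotientGroup.eq_one_iff]
    show π ⁅y, x⁆ = 1
    rw [map_commutatorElement, commutatorElement_eq_one_iff_mul_comm]
    obtain ⟨a, ha, b, hb, rfl⟩ := hXfac x hx
    rw [map_mul, ← mul_assoc, hcm y hy a ha, mul_assoc, hcm' y hy b hb, mul_assoc]
  have hYP : Y ≤ centralizer (P : Set G) := by
    intro y hy
    rw [mem_centralizer_iff]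
    intro x hx
    have h1 := hYX y hy x (hUX (hPU hx))
    have h2 : ⁅y, x⁆ ∈ P := by
      rw [_root_.commutatorElement_def]
      exact P.mul_mem (hPn.conj_mem x hx y) (P.inv_mem hx)
    have h3 : ⁅y, x⁆ ∈ P ⊓ L := ⟨h2, h1⟩
    rw [hPL, mem_bot, commutatorElement_eq_one_iff_mul_comm] at h3
    exact h3.symm
  -- fixed points of `A1` on `P`
  obtain ⟨j, hj⟩ := hULP
  have hact : ∀ a ∈ A1, ∃ k : ℕ, a ^ p ^ k ∈ centralizer (P : Set G) := by
    intro a ha
    refine ⟨j, hYP ?_⟩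
    have h1 : (A1 ⊓ Y).relIndex A1 = p ^ j := by
      have h2 := Basic.card_mul_relIndex (inf_le_left : A1 ⊓ Y ≤ A1)
      rw [hcA1Y, hcA1, hj] at h2
      exact Nat.eq_of_mul_eq_mul_left Nat.card_pos h2
    haveI : ((A1 ⊓ Y).subgroupOf A1).Normal := by
      refine ⟨fun x hx g => ?_⟩
      have : g * x * g⁻¹ = x := by
        apply Subtype.ext
        show (g : G) * x * (g : G)⁻¹ = x
        rw [hA g g.2.1 x x.2.1, mul_inv_cancel_right]
      rw [this]; exact hx
    have h3 := ((A1 ⊓ Y).subgroupOf A1).pow_index_mem (⟨a, ha⟩ : A1)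
    rw [show ((A1 ⊓ Y).subgroupOf A1).index = p ^ j from h1] at h3
    exact (show a ^ p ^ j ∈ A1 ⊓ Y from h3).2
  obtain ⟨V, ⟨hV0, hVP, hVn⟩, hVmin⟩ := Set.exists_min_image
    {V : Subgroup G | V ≠ ⊥ ∧ V ≤ P ∧ A1 ≤ normalizer (V : Set G)} (fun V => Nat.card V) (Set.toFinite _)
    ⟨P, hP0, le_rfl, by rw [normalizer_eq_top]; exact le_top⟩
  have hVA : ⁅V, A1⁆ = ⊥ := by
    by_contra h0
    have h1 : ⁅V, A1⁆ ≤ V := Coprime.commutator_le_of_normalizes hVn
    have h2 := hVmin ⁅V, A1⁆ ⟨h0, h1.trans hVP, Coprime.le_normalizer_commutator_right A1 V⟩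
    have h3 : ⁅V, A1⁆ = V := Subgroup.eq_of_le_of_card_ge h1 h2
    exact hV0 (QuadB.eq_bot_of_commutator hPp (by rw [normalizer_eq_top]; exact le_top) hact hVP h3)
  obtain ⟨⟨u, hu⟩, hu1'⟩ := (Subgroup.ne_bot_iff_exists_ne_one).mp hV0
  have hu1 : u ≠ 1 := fun h => hu1' (Subtype.ext h)
  have huX : u ∈ centralizer (X : Set G) := by
    rw [hX, QuadA.centralizer_sup]
    refine ⟨mem_centralizer_iff.mpr fun y hy => hUab y hy u (hPU (hVP hu)), ?_⟩
    rw [Coprime.commutator_eq_bot_iff_le_centralizer'] at hVA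
    exact mem_centralizer_iff.mpr fun y hy => (mem_centralizer_iff.mp (hVA hy) u hu).symm
  obtain ⟨a, ha, b, hb, hab, haC, hbC⟩ := center_fac (X := X) (A := A1) (B := B1) (fun x hx y hy => hA x hx.1 y hy.1)
    (fun x hx y hy => hB x hx.1 y hy.1) hA1X hB1X hXfac (hUX (hPU (hVP hu))) huX
  have ha1 : a ∈ A ⊓ centralizer (U : Set G) := ⟨ha.1, centralizer_le hUX haC⟩
  have hb1 : b ∈ B ⊓ centralizer (U : Set G) := ⟨hb.1, centralizer_le hUX hbC⟩
  rw [hCA, mem_bot] at ha1
  rw [hCB, mem_bot] at hb1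
  exact hu1 (by rw [hab, ha1, hb1, one_mul])

/-- a product of two cyclic groups is supersolvable -/
theorem supersolvable (n : ℕ) : ∀ (G : Type u) [Group G] [Finite G], Nat.card G ≤ n → ∀ A B : Subgroup G, IsCyclic A → IsCyclic B →
    (∀ g : G, ∃ a ∈ A, ∃ b ∈ B, g = a * b) → Cfsg.IsSupersolvable G := by
  induction n with
  | zero => intro G _ _ h; exact absurd h (by have := Nat.card_pos (α := G); omega)
  | succ n ih =>
    intro G _ _ hcard A B hA hB hAB
    rcases subsingleton_or_nontrivial G with h | h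
    · exact SuperA.of_subsingleton
    have hAc : ∀ x ∈ A, ∀ y ∈ A, x * y = y * x := by
      intro x hx y hy
      letI := IsCyclic.commGroup (α := A)
      exact congrArg Subtype.val (mul_comm (⟨x, hx⟩ : A) ⟨y, hy⟩)
    have hBc : ∀ x ∈ B, ∀ y ∈ B, x * y = y * x := by
      intro x hx y hy
      letI := IsCyclic.commGroup (α := B)
      exact congrArg Subtype.val (mul_comm (⟨x, hx⟩ : B) ⟨y, hy⟩)
    obtain ⟨N, hN, hN0, hle⟩ := main hAc hBc hAB
    haveI := hN
    have hNcyc : IsCyclic N := by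
      rcases hle with h | h
      · exact isCyclic_of_injective (inclusion h) (inclusion_injective h)
      · exact isCyclic_of_injective (inclusion h) (inclusion_injective h)
    refine SuperA.of_cyclic_normal hNcyc (ih (G ⧸ N) (by have := Basic.card_quotient_lt hN0; omega)
      (A.map (QuotientGroup.mk' N)) (B.map (QuotientGroup.mk' N)) ?_ ?_ ?_)
    · exact isCyclic_of_surjective ((QuotientGroup.mk' N).subgroupMap A) ((QuotientGroup.mk' N).subgroupMap_surjective A)
    · exact isCyclic_of_surjective ((QuotientGroup.mk' N).subgroupMap B) ((QuotientGroup.mk' N).subgroupMap_surjective B)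
    · intro y
      obtain ⟨g, rfl⟩ := QuotientGroup.mk'_surjective N y
      obtain ⟨a, ha, b, hb, rfl⟩ := hAB g
      exact ⟨_, mem_map_of_mem _ ha, _, mem_map_of_mem _ hb, map_mul _ _ _⟩

end Cfsg.Agent.Lib.ItoB
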