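import Mathlib

/-! The action of `GL_4` on alternating matrices. -/

set_option linter.all false
set_option maxHeartbeats 4000000

namespace Cfsg.Agent.Lib.Kl

open Matrix

variable {F : Type*} [Field F]

/-- alternating matrix with given coordinates -/
def X (v : Fin 3 ⊕ Fin 3 → F) : Matrix (Fin 4) (Fin 4) F :=
  !![0, v (.inl 0), v (.inl 1), v (.inl 2); -v (.inl 0), 0, v (.inr 2), -v (.inr 1);
    -v (.inl 1), -v (.inr 2), 0, v (.inr 0); -v (.inl 2), v (.inr 1), -v (.inr 0), 0]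

/-- coordinates -/
def C (M : Matrix (Fin 4) (Fin 4) F) : Fin 3 ⊕ Fin 3 → F := Sum.elim ![M 0 1, M 0 2, M 0 3] ![M 2 3, -M 1 3, M 1 2]

theorem C_X (v : Fin 3 ⊕ Fin 3 → F) : C (X v) = v := by
  funext i
  rcases i with i | i <;> fin_cases i <;> simp [C, X]

theorem conj_apply (g : Matrix (Fin 4) (Fin 4) F) (v : Fin 3 ⊕ Fin 3 → F) (i j : Fin 4) : (g * X v * gᵀ) i j =
    v (.inl 0) * (g i 0 * g j 1 - g i 1 * g j 0) + v (.inl 1) * (g i 0 * g j 2 - g i 2 * g j 0) + v (.inl 2) * (g i 0 * g j 3 - g i 3 * g j 0) +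
    v (.inr 0) * (g i 2 * g j 3 - g i 3 * g j 2) + v (.inr 1) * (g i 3 * g j 1 - g i 1 * g j 3) + v (.inr 2) * (g i 1 * g j 2 - g i 2 * g j 1) := by
  rw [Matrix.mul_apply, Fin.sum_univ_four]
  simp only [Matrix.mul_apply, Fin.sum_univ_four, Matrix.transpose_apply, X, Matrix.of_apply, Matrix.cons_val]
  ring

theorem X_C (g : Matrix (Fin 4) (Fin 4) F) (v : Fin 3 ⊕ Fin 3 → F) : X (C (g * X v * gᵀ)) = g * X v * gᵀ := by
  apply Matrix.ext
  intro i j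
  have h := conj_apply g v
  have e : ∀ i j, (g * X v * gᵀ) i j = -(g * X v * gᵀ) j i := by
    intro i j; rw [h, h]; ring
  have e0 : ∀ i, (g * X v * gᵀ) i i = 0 := by
    intro i; rw [h]; ring
  fin_cases i <;> fin_cases j
  · exact (e0 0).symm
  · rfl
  · rfl
  · rfl
  · exact (e 1 0).symm
  · exact (e0 1).symm
  · rfl
  · exact neg_neg _
  · exact (e 2 0).symm
  · exact (e 2 1).symm
  · exact (e0 2).symm
  · rfl
  · exact (e 3 0).symm
  · exact (e 3 1).symm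
  · exact (e 3 2).symm
  · exact (e0 3).symm

theorem pf (g : Matrix (Fin 4) (Fin 4) F) (v : Fin 3 ⊕ Fin 3 → F) :
    C (g * X v * gᵀ) (.inl 0) * C (g * X v * gᵀ) (.inr 0) + C (g * X v * gᵀ) (.inl 1) * C (g * X v * gᵀ) (.inr 1) + C (g * X v * gᵀ) (.inl 2) * C (g * X v * gᵀ) (.inr 2)
    = g.det * (v (.inl 0) * v (.inr 0) + v (.inl 1) * v (.inr 1) + v (.inl 2) * v (.inr 2)) := by
  have c1 : C (g * X v * gᵀ) (.inl 0) = (g * X v * gᵀ) 0 1 := rfl
  have c2 : C (g * X v * gᵀ) (.inl 1) = (g * X v * gᵀ) 0 2 := rfl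
  have c3 : C (g * X v * gᵀ) (.inl 2) = (g * X v * gᵀ) 0 3 := rfl
  have c4 : C (g * X v * gᵀ) (.inr 0) = (g * X v * gᵀ) 2 3 := rfl
  have c5 : C (g * X v * gᵀ) (.inr 1) = -(g * X v * gᵀ) 1 3 := rfl
  have c6 : C (g * X v * gᵀ) (.inr 2) = (g * X v * gᵀ) 1 2 := rfl
  rw [c1, c2, c3, c4, c5, c6]
  simp only [conj_apply]
  rw [Matrix.det_succ_row_zero, Fin.sum_univ_four]
  simp only [Matrix.det_fin_three, Matrix.submatrix_apply]
  simp [Fin.succAbove, Fin.succ, Fin.castSucc]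
  ring

end Cfsg.Agent.Lib.Kl
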