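import Mathlib

/-! Quasisimple groups and surjections. -/

set_option linter.all false
set_option maxHeartbeats 400000

namespace Cfsg.Agent.Lib.Ql

open Subgroup
open scoped commutatorElement

variable {G H : Type*} [Group G] [Group H]

theorem normal_cases (hperf : commutator G = ⊤) (hs : IsSimpleGroup (G ⧸ center G)) (N : Subgroup G) [hN : N.Normal] : N ≤ center G ∨ N = ⊤ := by
  have hmap : (N.map (QuotientGroup.mk' (center G))).Normal := Subgroup.Normal.map hN _ (QuotientGroup.mk'_surjective _)
  rcases hmap.eq_bot_or_eq_top with h | h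
  · left
    intro x hx
    have h1 : QuotientGroup.mk' (center G) x ∈ N.map (QuotientGroup.mk' (center G)) := Subgroup.mem_map_of_mem _ hx
    rw [h, Subgroup.mem_bot] at h1
    exact (QuotientGroup.eq_one_iff x).mp h1
  · right
    have hdec : ∀ g : G, ∃ n ∈ N, ∃ z ∈ center G, g = n * z := by
      intro g
      have h1 : QuotientGroup.mk' (center G) g ∈ N.map (QuotientGroup.mk' (center G)) := by rw [h]; trivial
      obtain ⟨n, hn, hng⟩ := h1
      refine ⟨n, hn, n⁻¹ * g, ?_, by group⟩
      exact QuotientGroup.eq.mp hng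
    rw [eq_top_iff, ← hperf, commutator_def, Subgroup.commutator_le]
    intro a _ b _
    obtain ⟨n, hn, z, hz, rfl⟩ := hdec a
    obtain ⟨m, hm, w, hw, rfl⟩ := hdec b
    have hz' := Subgroup.mem_center_iff.mp hz
    have hw' := Subgroup.mem_center_iff.mp hw
    have e : ⁅n * z, m * w⁆ = ⁅n, m⁆ := by
      rw [commutatorElement_def, commutatorElement_def]
      calc n * z * (m * w) * (n * z)⁻¹ * (m * w)⁻¹ = n * (z * m) * w * z⁻¹ * n⁻¹ * w⁻¹ * m⁻¹ := by group
        _ = n * (m * z) * w * z⁻¹ * n⁻¹ * w⁻¹ * m⁻¹ := by rw [hz' m]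
        _ = n * m * (z * w) * z⁻¹ * n⁻¹ * w⁻¹ * m⁻¹ := by group
        _ = n * m * (w * z) * z⁻¹ * n⁻¹ * w⁻¹ * m⁻¹ := by rw [hz' w]
        _ = n * m * (w * n⁻¹) * w⁻¹ * m⁻¹ := by group
        _ = n * m * (n⁻¹ * w) * w⁻¹ * m⁻¹ := by rw [hw' n⁻¹]
        _ = n * m * n⁻¹ * m⁻¹ := by group
    rw [e, commutatorElement_def]
    exact N.mul_mem (N.mul_mem (N.mul_mem hn hm) (N.inv_mem hn)) (N.inv_mem hm)

theorem ker_le_center (hperf : commutator G = ⊤) (hs : IsSimpleGroup (G ⧸ center G)) (φ : G →* H) (hne : ∃ g, φ g ≠ 1) : φ.ker ≤ center G := by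
  rcases normal_cases hperf hs φ.ker with h | h
  · exact h
  · obtain ⟨g, hg⟩ := hne
    exfalso
    apply hg
    have : g ∈ φ.ker := by rw [h]; trivial
    exact this

theorem quot_iso (hperf : commutator G = ⊤) (hs : IsSimpleGroup (G ⧸ center G)) (φ : G →* H) (hsurj : Function.Surjective φ) (hne : Nontrivial H) :
    Nonempty (H ⧸ center H ≃* G ⧸ center G) := by
  let π : G →* H ⧸ center H := (QuotientGroup.mk' (center H)).comp φ
  have hπ : Function.Surjective π := (QuotientGroup.mk'_surjective _).comp hsurj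
  have hnontriv : ∃ g, π g ≠ 1 := by
    by_contra hcon
    push Not at hcon
    have hab : ∀ h : H, h ∈ center H := by
      intro h
      obtain ⟨g, rfl⟩ := hsurj h
      exact (QuotientGroup.eq_one_iff _).mp (hcon g)
    have h1 : commutator G ≤ φ.ker := by
      rw [commutator_def, Subgroup.commutator_le]
      intro a _ b _
      rw [MonoidHom.mem_ker, map_commutatorElement, commutatorElement_eq_one_iff_mul_comm]
      exact (Subgroup.mem_center_iff.mp (hab (φ b)) (φ a))
    rw [hperf] at h1
    obtain ⟨x, y, hxy⟩ := hne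
    apply hxy
    obtain ⟨a, rfl⟩ := hsurj x
    obtain ⟨b, rfl⟩ := hsurj y
    have ha : φ a = 1 := h1 (Subgroup.mem_top a)
    have hb : φ b = 1 := h1 (Subgroup.mem_top b)
    rw [ha, hb]
  have hker : π.ker = center G := by
    apply le_antisymm (ker_le_center hperf hs π hnontriv)
    intro z hz
    rw [MonoidHom.mem_ker]
    show QuotientGroup.mk' (center H) (φ z) = 1
    refine (QuotientGroup.eq_one_iff _).mpr ?_
    rw [Subgroup.mem_center_iff]
    intro h
    obtain ⟨g, rfl⟩ := hsurj h
    rw [← map_mul, ← map_mul, Subgroup.mem_center_iff.mp hz g]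
  exact ⟨(QuotientGroup.quotientKerEquivOfSurjective π hπ).symm.trans (QuotientGroup.quotientMulEquivOfEq hker)⟩

/-- a simple nonabelian group is its own central quotient -/
theorem simple_quot [IsSimpleGroup H] (hna : ∃ a b : H, a * b ≠ b * a) : Nonempty (H ⧸ center H ≃* H) := by
  have h1 : center H = ⊥ := by
    rcases (inferInstance : (center H).Normal).eq_bot_or_eq_top with h | h
    · exact h
    · obtain ⟨a, b, hab⟩ := hna
      exfalso
      apply hab
      have : b ∈ center H := by rw [h]; trivial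
      exact Subgroup.mem_center_iff.mp this a
  exact ⟨(QuotientGroup.quotientMulEquivOfEq h1).trans QuotientGroup.quotientBot⟩

/-- order comparison -/
theorem surj_of_card [Finite G] [Finite H] (φ : G →* H) {k : ℕ} (hk : Nat.card φ.ker ≤ k) (hcard : Nat.card G = k * Nat.card H) : Function.Surjective φ := by
  have h1 : Nat.card φ.ker * Nat.card φ.range = Nat.card G := by
    rw [← Nat.card_congr (QuotientGroup.quotientKerEquivRange φ).toEquiv, mul_comm]
    exact (Subgroup.card_eq_card_quotient_mul_card_subgroup _).symm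
  have hk0 : 0 < k := by
    rcases Nat.eq_zero_or_pos k with h | h
    · rw [h, zero_mul] at hcard
      exact absurd hcard Nat.card_pos.ne'
    · exact h
  have h2 : Nat.card H ≤ Nat.card φ.range := by
    by_contra hcon
    push Not at hcon
    have h3 : Nat.card φ.ker * Nat.card φ.range ≤ k * Nat.card φ.range := Nat.mul_le_mul_right _ hk
    have h4 : k * Nat.card φ.range < k * Nat.card H := (Nat.mul_lt_mul_left hk0).mpr hcon
    omega
  rw [← MonoidHom.range_eq_top]
  exact Subgroup.eq_top_of_le_card _ h2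

end Cfsg.Agent.Lib.Ql
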