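import Mathlib
import Cfsg.Agent.Lib.Kl1
import Cfsg.Agent.Lib.Ql1
import Cfsg.Agent.Lib.Cox4
import Cfsg.Agent.Lib.SLn
import Cfsg.Agent.Lib.Orth12
import Cfsg.Agent.S0242
import Cfsg.Agent.S0287

/-! `PΩ_6^+(q) = PSL_4(q)`. -/

set_option linter.all false
set_option maxHeartbeats 1000000

namespace Cfsg.Agent.Lib.Kl

open Matrix QuadraticMap Cfsg.Agent.Lib.Orth

variable {F : Type*} [Field F]

theorem X_add (u v : Fin 3 ⊕ Fin 3 → F) : X (u + v) = X u + X v := by
  apply Matrix.ext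
  intro i j
  fin_cases i <;> fin_cases j <;> simp [X] <;> ring

theorem X_smul (c : F) (v : Fin 3 ⊕ Fin 3 → F) : X (c • v) = c • X v := by
  apply Matrix.ext
  intro i j
  fin_cases i <;> fin_cases j <;> simp [X]

theorem C_add (M N : Matrix (Fin 4) (Fin 4) F) : C (M + N) = C M + C N := by
  funext i
  rcases i with i | i <;> fin_cases i <;> simp [C] <;> ring

theorem C_smul (c : F) (M : Matrix (Fin 4) (Fin 4) F) : C (c • M) = c • C M := by
  funext i
  rcases i with i | i <;> fin_cases i <;> simp [C]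

/-- the linear action -/
def ψ0 (F : Type*) [Field F] : Matrix.SpecialLinearGroup (Fin 4) F →* ((Fin 3 ⊕ Fin 3 → F) →ₗ[F] (Fin 3 ⊕ Fin 3 → F)) where
  toFun g :=
    { toFun := fun v => C ((g : Matrix (Fin 4) (Fin 4) F) * X v * (g : Matrix (Fin 4) (Fin 4) F)ᵀ)
      map_add' := by intro u v; rw [X_add, mul_add, add_mul, C_add]
      map_smul' := by intro c v; rw [X_smul, Matrix.mul_smul, Matrix.smul_mul, C_smul, RingHom.id_apply] }
  map_one' := by
    apply LinearMap.ext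
    intro v
    show C (((1 : Matrix.SpecialLinearGroup (Fin 4) F) : Matrix (Fin 4) (Fin 4) F) * X v * ((1 : Matrix.SpecialLinearGroup (Fin 4) F) : Matrix (Fin 4) (Fin 4) F)ᵀ) = v
    rw [Matrix.SpecialLinearGroup.coe_one, one_mul, Matrix.transpose_one, mul_one, C_X]
  map_mul' := by
    intro g h
    apply LinearMap.ext
    intro v
    show C (((g * h : Matrix.SpecialLinearGroup (Fin 4) F) : Matrix (Fin 4) (Fin 4) F) * X v * ((g * h : Matrix.SpecialLinearGroup (Fin 4) F) : Matrix (Fin 4) (Fin 4) F)ᵀ) =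
      C ((g : Matrix (Fin 4) (Fin 4) F) * X (C ((h : Matrix (Fin 4) (Fin 4) F) * X v * (h : Matrix (Fin 4) (Fin 4) F)ᵀ)) * (g : Matrix (Fin 4) (Fin 4) F)ᵀ)
    rw [X_C, Matrix.SpecialLinearGroup.coe_mul, Matrix.transpose_mul]
    simp only [mul_assoc]

theorem ψ0_apply (g : Matrix.SpecialLinearGroup (Fin 4) F) (v : Fin 3 ⊕ Fin 3 → F) :
    ψ0 F g v = C ((g : Matrix (Fin 4) (Fin 4) F) * X v * (g : Matrix (Fin 4) (Fin 4) F)ᵀ) := rfl

/-- as linear equivalences -/
noncomputable def ψ1 (F : Type*) [Field F] : Matrix.SpecialLinearGroup (Fin 4) F →* ((Fin 3 ⊕ Fin 3 → F) ≃ₗ[F] (Fin 3 ⊕ Fin 3 → F)) :=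
  (LinearMap.GeneralLinearGroup.generalLinearEquiv F (Fin 3 ⊕ Fin 3 → F)).toMonoidHom.comp (MonoidHom.toHomUnits (ψ0 F))

theorem ψ1_apply (g : Matrix.SpecialLinearGroup (Fin 4) F) (v : Fin 3 ⊕ Fin 3 → F) : ψ1 F g v = ψ0 F g v := rfl

theorem ψ1_mem (g : Matrix.SpecialLinearGroup (Fin 4) F) : ψ1 F g ∈ O (qPlus 3 F) := by
  intro v
  rw [ψ1_apply, qPlus_apply, qPlus_apply, Cfsg.quadFormPlus, Cfsg.quadFormPlus, Fin.sum_univ_three, Fin.sum_univ_three, ψ0_apply]
  have h := pf (g : Matrix (Fin 4) (Fin 4) F) v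
  rw [g.det_coe, one_mul] at h
  exact h

/-- into the orthogonal group -/
noncomputable def ψ (F : Type*) [Field F] : Matrix.SpecialLinearGroup (Fin 4) F →* ↥(O (qPlus 3 F)) := (ψ1 F).codRestrict _ ψ1_mem

theorem ψ_apply (g : Matrix.SpecialLinearGroup (Fin 4) F) (v : Fin 3 ⊕ Fin 3 → F) : (ψ F g).1 v = C ((g : Matrix (Fin 4) (Fin 4) F) * X v * (g : Matrix (Fin 4) (Fin 4) F)ᵀ) := rfl

theorem ψ_mem_comm (g : Matrix.SpecialLinearGroup (Fin 4) F) : ψ F g ∈ commutator ↥(O (qPlus 3 F)) := by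
  have h1 : g ∈ commutator (Matrix.SpecialLinearGroup (Fin 4) F) := by
    rw [SLn.commutator_eq_top (by rw [Fintype.card_fin]; norm_num)]; trivial
  have h2 : (commutator (Matrix.SpecialLinearGroup (Fin 4) F)).map (ψ F) ≤ commutator ↥(O (qPlus 3 F)) := by
    rw [commutator_def, commutator_def, Subgroup.map_commutator]
    exact Subgroup.commutator_mono le_top le_top
  exact h2 (Subgroup.mem_map_of_mem _ h1)

/-- into the derived group -/
noncomputable def ψc (F : Type*) [Field F] : Matrix.SpecialLinearGroup (Fin 4) F →* ↥(commutator ↥(O (qPlus 3 F))) := (ψ F).codRestrict _ ψ_mem_comm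

theorem simple4 (F : Type*) [Field F] : IsSimpleGroup (Matrix.SpecialLinearGroup (Fin 4) F ⧸ Subgroup.center (Matrix.SpecialLinearGroup (Fin 4) F)) :=
  SLn.isSimpleGroup_PSL (ι := Fin 4) (F := F) (by rw [Fintype.card_fin]; norm_num)

theorem nontriv (F : Type*) [Field F] : ∃ g, ψ F g ≠ 1 := by
  refine ⟨Matrix.SpecialLinearGroup.transvection (show (0 : Fin 4) ≠ 1 by decide) 1, fun h => ?_⟩
  have h1 := congrArg (fun z : ↥(O (qPlus 3 F)) => z.1 (Pi.single (Sum.inr 2) 1) (Sum.inl 1)) h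
  change ((Matrix.transvection (0 : Fin 4) 1 (1 : F)) * X (Pi.single (Sum.inr 2) 1) * (Matrix.transvection (0 : Fin 4) 1 (1 : F))ᵀ : Matrix (Fin 4) (Fin 4) F) 0 2 = (Pi.single (Sum.inr 2) 1 : Fin 3 ⊕ Fin 3 → F) (Sum.inl 1) at h1
  rw [conj_apply] at h1
  simp [Matrix.transvection, Matrix.single_apply] at h1

theorem ker_le (F : Type*) [Field F] : (ψ F).ker ≤ Subgroup.center (Matrix.SpecialLinearGroup (Fin 4) F) :=
  Ql.ker_le_center (SLn.commutator_eq_top (by rw [Fintype.card_fin]; norm_num)) (simple4 F) (ψ F) (nontriv F)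

theorem ker_sq {g : Matrix.SpecialLinearGroup (Fin 4) F} (hg : g ∈ (ψ F).ker) : ∃ c : F, c ^ 2 = 1 ∧ (g : Matrix (Fin 4) (Fin 4) F) = c • (1 : Matrix (Fin 4) (Fin 4) F) := by
  obtain ⟨c, hc, hcg⟩ := Matrix.SpecialLinearGroup.mem_center_iff.mp (ker_le F hg)
  have hg' : (g : Matrix (Fin 4) (Fin 4) F) = c • (1 : Matrix (Fin 4) (Fin 4) F) := by
    rw [← hcg, Matrix.scalar_apply, ← Matrix.smul_one_eq_diagonal]
  refine ⟨c, ?_, hg'⟩
  have h1 := congrArg (fun z : ↥(O (qPlus 3 F)) => z.1 (Pi.single (Sum.inl 0) 1) (Sum.inl 0)) (MonoidHom.mem_ker.mp hg)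
  change C ((g : Matrix (Fin 4) (Fin 4) F) * X (Pi.single (Sum.inl 0) 1) * (g : Matrix (Fin 4) (Fin 4) F)ᵀ) (Sum.inl 0) = (Pi.single (Sum.inl 0) 1 : Fin 3 ⊕ Fin 3 → F) (Sum.inl 0) at h1
  rw [hg', Matrix.transpose_smul, Matrix.transpose_one, Matrix.smul_mul, one_mul, Matrix.mul_smul, mul_one, C_smul, C_smul, C_X] at h1
  change c * (c * (Pi.single (Sum.inl 0) 1 : Fin 3 ⊕ Fin 3 → F) (Sum.inl 0)) = (Pi.single (Sum.inl 0) 1 : Fin 3 ⊕ Fin 3 → F) (Sum.inl 0) at h1
  rw [Pi.single_eq_same, mul_one] at h1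
  rw [pow_two]; exact h1

open Classical in
theorem card_ker [Fintype F] : Nat.card (ψ F).ker ≤ if (2 : F) = 0 then 1 else 2 := by
  classical
  choose c hc1 hc2 using fun g : (ψ F).ker => ker_sq g.2
  have hinj : Function.Injective c := by
    intro g h hgh
    apply Subtype.ext
    apply Subtype.ext
    rw [hc2 g, hc2 h, hgh]
  have hcases : ∀ g, c g = 1 ∨ c g = -1 := fun g => by
    have := hc1 g
    rw [pow_two] at this
    exact mul_self_eq_one_iff.mp this
  let f : (ψ F).ker → ({1, -1} : Finset F) := fun g => ⟨c g, by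
    rcases hcases g with h | h
    · rw [h]; simp
    · rw [h]; simp⟩
  have hf : Function.Injective f := fun g h hgh => hinj (congrArg Subtype.val hgh)
  have h1 := Nat.card_le_card_of_injective f hf
  have h2 : Nat.card ({1, -1} : Finset F) = ({1, -1} : Finset F).card := Nat.card_eq_card_toFinset _ |>.trans (by simp)
  rw [h2] at h1
  split_ifs with h
  · have h3 : (-1 : F) = 1 := by linear_combination -h
    rw [h3] at h1
    simpa using h1
  · exact h1.trans Finset.card_le_two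

theorem card_SL4 [Fintype F] : Nat.card (Matrix.SpecialLinearGroup (Fin 4) F) = Fintype.card F ^ 6 * (Fintype.card F ^ 3 - 1) * ((Fintype.card F ^ 2 - 1) * (Fintype.card F ^ 4 - 1)) := by
  have h := Cfsg.Agent.S0242.result (F := F) rfl 4 (by norm_num)
  set q := Fintype.card F with hq
  have hq1 : 1 < q := Fintype.one_lt_card
  rw [Fin.prod_univ_four] at h
  have e0 : q ^ 4 - q ^ ((0 : Fin 4) : ℕ) = q ^ 4 - 1 := by simp
  have e1 : q ^ 4 - q ^ ((1 : Fin 4) : ℕ) = q * (q ^ 3 - 1) := by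
    rw [Nat.mul_sub]; simp; ring_nf
  have e2 : q ^ 4 - q ^ ((2 : Fin 4) : ℕ) = q ^ 2 * (q ^ 2 - 1) := by
    rw [Nat.mul_sub]; simp; ring_nf
  have e3 : q ^ 4 - q ^ ((3 : Fin 4) : ℕ) = q ^ 3 * (q - 1) := by
    rw [Nat.mul_sub]; simp; ring_nf
  rw [e0, e1, e2, e3] at h
  have hq0 : 0 < q - 1 := by omega
  apply Nat.eq_of_mul_eq_mul_left hq0
  rw [h]
  ring

theorem card_O6 [Fintype F] : Nat.card ↥(O (qPlus 3 F)) = 2 * Nat.card (Matrix.SpecialLinearGroup (Fin 4) F) := by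
  rw [← card_isometry, coe_qPlus, Cfsg.Agent.S0287.result (F := F) rfl 3 (by norm_num), card_SL4]
  simp only [Finset.prod_range_succ, Finset.prod_range_zero, Nat.add_one_sub_one]
  norm_num
  ring

theorem fr6 : Module.finrank F (Fin 3 ⊕ Fin 3 → F) = 6 := by
  rw [Module.finrank_fintype_fun_eq_card, Fintype.card_sum, Fintype.card_fin]

theorem ψc_surj [Fintype F] : Function.Surjective (ψc F) := by
  classical
  have hidx : (commutator ↥(O (qPlus 3 F))).index = if (2 : F) = 0 then 2 else 4 := by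
    have hn : 6 ≤ Module.finrank F (Fin 3 ⊕ Fin 3 → F) := fr6.ge
    split_ifs with h
    · exact index_commutator_two nd_plus h (R_eq_O nd_plus (Or.inr (by omega))) (by omega)
    · exact index_commutator_odd nd_plus h (by omega)
  have h2 : Nat.card ↥(O (qPlus 3 F)) = (commutator ↥(O (qPlus 3 F))).index * Nat.card ↥(commutator ↥(O (qPlus 3 F))) :=
    (Subgroup.index_mul_card _).symm
  rw [card_O6, hidx] at h2
  have hker : (ψc F).ker = (ψ F).ker := MonoidHom.ker_codRestrict _ _ _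
  haveI : Finite ↥(O (qPlus 3 F)) := by
    apply Nat.finite_of_card_ne_zero
    rw [card_O6]
    have := Nat.card_pos (α := Matrix.SpecialLinearGroup (Fin 4) F)
    omega
  refine Ql.surj_of_card (ψc F) (k := if (2 : F) = 0 then 1 else 2) ?_ ?_
  · rw [hker]
    exact card_ker
  · split_ifs with h
    · rw [if_pos h] at h2
      omega
    · rw [if_neg h] at h2
      omega

theorem nontrivial_comm [Fintype F] : Nontrivial ↥(commutator ↥(O (qPlus 3 F))) := by
  obtain ⟨g, hg⟩ := nontriv F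
  exact ⟨ψc F g, 1, fun h => hg (congrArg Subtype.val h)⟩

theorem s0302 {F : Type*} [Field F] [Fintype F] : Nonempty (Cfsg.POmega F (Cfsg.quadFormPlus 3 F) ≃* Matrix.ProjectiveSpecialLinearGroup (Fin 4) F) := by
  obtain ⟨e⟩ := Ql.quot_iso (SLn.commutator_eq_top (ι := Fin 4) (F := F) (by rw [Fintype.card_fin]; norm_num)) (simple4 F) (ψc F) ψc_surj (nontrivial_comm (F := F))
  rw [← coe_qPlus]
  exact ⟨(isoPOmega (qPlus 3 F)).trans e⟩

theorem s0256 {F : Type*} [Field F] [Fintype F] (hF : Fintype.card F = 2) : Nonempty (Matrix.ProjectiveSpecialLinearGroup (Fin 4) F ≃* alternatingGroup (Fin 8)) := by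
  obtain ⟨e⟩ := Ql.quot_iso (SLn.commutator_eq_top (ι := Fin 4) (F := F) (by rw [Fintype.card_fin]; norm_num)) (simple4 F) (ψc F) ψc_surj (nontrivial_comm (F := F))
  obtain ⟨s⟩ := Cox.s0825 hF
  have h1 : commutator (Equiv.Perm (Fin 8)) = alternatingGroup (Fin 8) := alternatingGroup.commutator_perm_eq (by rw [Nat.card_eq_fintype_card, Fintype.card_fin]; norm_num)
  -- the derived group is `A_8`
  rw [← coe_qPlus] at s
  let t : ↥(O (qPlus 3 F)) ≃* Equiv.Perm (Fin 8) := (isoO (qPlus 3 F)).symm.trans s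
  have h2 : (commutator ↥(O (qPlus 3 F))).map t.toMonoidHom = alternatingGroup (Fin 8) := by
    rw [← h1]
    exact map_commutator_equiv t
  let c : ↥(commutator ↥(O (qPlus 3 F))) ≃* alternatingGroup (Fin 8) := (Subgroup.equivMapOfInjective _ t.toMonoidHom t.injective).trans (MulEquiv.subgroupCongr h2)
  haveI : IsSimpleGroup (alternatingGroup (Fin 8)) := alternatingGroup.isSimpleGroup (by rw [Nat.card_eq_fintype_card, Fintype.card_fin]; norm_num)
  have h8 : ∃ a b : alternatingGroup (Fin 8), a * b ≠ b * a := by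
    refine ⟨⟨Equiv.swap 0 1 * Equiv.swap 1 2, by rw [Equiv.Perm.mem_alternatingGroup]; decide⟩, ⟨Equiv.swap 0 1 * Equiv.swap 1 3, by rw [Equiv.Perm.mem_alternatingGroup]; decide⟩, ?_⟩
    intro h
    have h3 := congrArg (fun z : alternatingGroup (Fin 8) => (z : Equiv.Perm (Fin 8)) 0) h
    revert h3
    decide
  haveI : IsSimpleGroup ↥(commutator ↥(O (qPlus 3 F))) := c.isSimpleGroup_congr.mpr inferInstance
  obtain ⟨d⟩ := Ql.simple_quot (H := ↥(commutator ↥(O (qPlus 3 F)))) (by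
    obtain ⟨a, b, hab⟩ := h8
    refine ⟨c.symm a, c.symm b, fun h => hab ?_⟩
    rw [← map_mul, ← map_mul] at h
    exact c.symm.injective h)
  exact ⟨(e.symm.trans d).trans c⟩

end Cfsg.Agent.Lib.Kl
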