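import Mathlib
import Cfsg.Agent.Lib.Ql1
import Cfsg.Agent.Lib.SLn

/-! Central quotients, two-dimensional groups. -/

set_option linter.all false
set_option maxHeartbeats 400000

namespace Cfsg.Agent.Lib.Ql

open Subgroup
open scoped commutatorElement

theorem quot_iso' {G H : Type*} [Group G] [Group H] (hZ : ∀ g : G, (∀ a, ⁅g, a⁆ ∈ center G) → g ∈ center G) (φ : G →* H) (hsurj : Function.Surjective φ)
    (hker : φ.ker ≤ center G) : Nonempty (H ⧸ center H ≃* G ⧸ center G) := by
  let π : G →* H ⧸ center H := (QuotientGroup.mk' (center H)).comp φ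
  have hπ : Function.Surjective π := (QuotientGroup.mk'_surjective _).comp hsurj
  have hk : π.ker = center G := by
    apply le_antisymm
    · intro g hg
      apply hZ
      intro a
      apply hker
      have h1 : φ g ∈ center H := (QuotientGroup.eq_one_iff _).mp hg
      rw [MonoidHom.mem_ker, map_commutatorElement, commutatorElement_eq_one_iff_mul_comm]
      exact (Subgroup.mem_center_iff.mp h1 (φ a)).symm
    · intro z hz
      rw [MonoidHom.mem_ker]
      show QuotientGroup.mk' (center H) (φ z) = 1
      refine (QuotientGroup.eq_one_iff _).mpr ?_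
      rw [Subgroup.mem_center_iff]
      intro h
      obtain ⟨g, rfl⟩ := hsurj h
      rw [← map_mul, ← map_mul, Subgroup.mem_center_iff.mp hz g]
  exact ⟨(QuotientGroup.quotientKerEquivOfSurjective π hπ).symm.trans (QuotientGroup.quotientMulEquivOfEq hk)⟩

open Matrix
open scoped MatrixGroups

variable {F : Type*} [Field F]

/-- the upper transvection -/
theorem tv_comm {a : F} (ha : a ≠ 0) (ha1 : a ≠ 1) {i j : Fin 2} (hij : i ≠ j) (c : F) :
    Matrix.SpecialLinearGroup.toGL (Matrix.SpecialLinearGroup.transvection hij c : SL(2, F)) ∈ commutator (GL (Fin 2) F) := by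
  let d : GL (Fin 2) F := Matrix.GeneralLinearGroup.mkOfDetNeZero (Matrix.diagonal (fun k => if k = i then a else 1)) (by
    rw [Matrix.det_diagonal]
    apply Finset.prod_ne_zero_iff.mpr
    intro k _
    split_ifs
    · exact ha
    · exact one_ne_zero)
  let t : GL (Fin 2) F := Matrix.SpecialLinearGroup.toGL (Matrix.SpecialLinearGroup.transvection hij (c / (a - 1)) : SL(2, F))
  have ha1' : a - 1 ≠ 0 := sub_ne_zero.mpr ha1
  have h1 : Matrix.SpecialLinearGroup.toGL (Matrix.SpecialLinearGroup.transvection hij c : SL(2, F)) = ⁅d, t⁆ := by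
    rw [commutatorElement_def, eq_mul_inv_iff_mul_eq, eq_mul_inv_iff_mul_eq]
    apply Units.ext
    show (Matrix.transvection i j c) * (Matrix.transvection i j (c / (a - 1))) * Matrix.diagonal (fun k => if k = i then a else 1) =
      Matrix.diagonal (fun k => if k = i then a else 1) * Matrix.transvection i j (c / (a - 1))
    rw [Matrix.transvection_mul_transvection_same _ _ hij]
    apply Matrix.ext
    intro k l
    rw [Matrix.mul_diagonal, Matrix.diagonal_mul, Matrix.transvection, Matrix.transvection, Matrix.add_apply, Matrix.add_apply]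
    by_cases hk : k = i
    · rw [if_pos hk, hk]
      by_cases hl : l = j
      · rw [hl, if_neg hij.symm, Matrix.one_apply_ne hij, Matrix.single_apply_same, Matrix.single_apply_same]
        field_simp
        ring
      · have hl' : l = i := (by decide : ∀ i j l : Fin 2, i ≠ j → l ≠ j → l = i) i j l hij hl
        rw [hl', if_pos rfl, Matrix.one_apply_eq, Matrix.single_apply_of_col_ne _ _ hij.symm, Matrix.single_apply_of_col_ne _ _ hij.symm]
        ring
    · rw [if_neg hk, Matrix.single_apply_of_row_ne (Ne.symm hk), Matrix.single_apply_of_row_ne (Ne.symm hk)]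
      by_cases hl : l = i
      · rw [hl, Matrix.one_apply_ne hk]
        ring
      · rw [if_neg hl]
        ring
  rw [h1]
  exact Subgroup.commutator_mem_commutator (Subgroup.mem_top _) (Subgroup.mem_top _)

theorem sl_le_comm (hF : ∃ a : F, a ≠ 0 ∧ a ≠ 1) (g : SL(2, F)) : Matrix.SpecialLinearGroup.toGL g ∈ commutator (GL (Fin 2) F) := by
  obtain ⟨a, ha, ha1⟩ := hF
  refine SLn.transvection_induction (ι := Fin 2) (F := F) (fun g => Matrix.SpecialLinearGroup.toGL g ∈ commutator (GL (Fin 2) F)) ?_ ?_ g
  · intro i j hij c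
    exact tv_comm ha ha1 hij c
  · intro A B hA hB
    rw [map_mul]
    exact mul_mem hA hB

theorem hom_comm (hF : ∃ a : F, a ≠ 0 ∧ a ≠ 1) {H : Type*} [Group H] (Φ : GL (Fin 2) F →* H) (g : SL(2, F)) : Φ (Matrix.SpecialLinearGroup.toGL g) ∈ commutator H := by
  have h2 : (commutator (GL (Fin 2) F)).map Φ ≤ commutator H := by
    rw [commutator_def, commutator_def, Subgroup.map_commutator]
    exact Subgroup.commutator_mono le_top le_top
  exact h2 (Subgroup.mem_map_of_mem _ (sl_le_comm hF g))

/-- `PSL_2` has trivial centre -/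
theorem sl_center (g : SL(2, F)) (h : ∀ a, ⁅g, a⁆ ∈ center SL(2, F)) : g ∈ center SL(2, F) := by
  have hcen : ∀ z : SL(2, F), z ∈ center SL(2, F) → ∃ c : F, c ^ 2 = 1 ∧ (z : Matrix (Fin 2) (Fin 2) F) = c • (1 : Matrix (Fin 2) (Fin 2) F) := by
    intro z hz
    obtain ⟨c, hc, hcz⟩ := Matrix.SpecialLinearGroup.mem_center_iff.mp hz
    rw [Fintype.card_fin] at hc
    refine ⟨c, hc, ?_⟩
    rw [← hcz, Matrix.scalar_apply, ← Matrix.smul_one_eq_diagonal]
  rw [Subgroup.mem_center_iff]
  intro a
  refine SLn.transvection_induction (ι := Fin 2) (F := F) (fun a => a * g = g * a) ?_ ?_ a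
  · intro i j hij t
    set a : SL(2, F) := Matrix.SpecialLinearGroup.transvection hij t with ha
    obtain ⟨c, hc, hca⟩ := hcen _ (h a)
    have e : g * a * g⁻¹ = ⁅g, a⁆ * a := by rw [commutatorElement_def]; group
    have e2 := congrArg (fun z : SL(2, F) => (z : Matrix (Fin 2) (Fin 2) F)) e
    simp only [Matrix.SpecialLinearGroup.coe_mul] at e2
    rw [hca, Matrix.smul_mul, one_mul] at e2
    have e3 := congrArg Matrix.trace e2
    rw [Matrix.trace_mul_comm, ← mul_assoc, ← Matrix.SpecialLinearGroup.coe_mul, inv_mul_cancel, Matrix.SpecialLinearGroup.coe_one, one_mul, Matrix.trace_smul, smul_eq_mul] at e3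
    have htr : (a : Matrix (Fin 2) (Fin 2) F).trace = 2 := by
      show (Matrix.transvection i j t).trace = 2
      rw [Matrix.transvection, Matrix.trace_add, Matrix.trace_one, Fintype.card_fin, Matrix.trace_single_eq_of_ne _ _ _ hij, add_zero]
      norm_num
    rw [htr] at e3
    have hc1 : c = 1 := by
      rw [pow_two] at hc
      rcases mul_self_eq_one_iff.mp hc with h1 | h1
      · exact h1
      · rw [h1] at e3
        have h4 : (2 : F) * 2 = 0 := by linear_combination e3
        have h2 : (2 : F) = 0 := by
          rcases mul_eq_zero.mp h4 with h | h <;> exact h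
        rw [h1]; linear_combination -h2
    have h5 : ⁅g, a⁆ = 1 := by
      apply Subtype.ext
      rw [hca, hc1, one_smul]
      rfl
    rw [commutatorElement_eq_one_iff_mul_comm] at h5
    exact h5.symm
  · intro A B hA hB
    rw [mul_assoc, hB, ← mul_assoc, hA, mul_assoc]

end Cfsg.Agent.Lib.Ql
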