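import Mathlib
import Cfsg.Agent.Lib.Ql2
import Cfsg.Agent.Lib.Orth9
import Cfsg.Agent.Lib.Orth12
import Cfsg.Agent.Lib.Cox4
import Cfsg.Agent.S0242
import Cfsg.Agent.S0286
import Cfsg.Agent.S0287

/-! `PΩ_3(q) = PSL_2(q)`. -/

set_option linter.all false
set_option maxHeartbeats 1000000

namespace Cfsg.Agent.Lib.Kl

open Matrix QuadraticMap Cfsg.Agent.Lib.Orth
open scoped MatrixGroups commutatorElement

variable {F : Type*} [Field F]

theorem card_SL2 [Fintype F] : Nat.card SL(2, F) = Fintype.card F * (Fintype.card F ^ 2 - 1) := by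
  have h := Cfsg.Agent.S0242.result (F := F) rfl 2 (by norm_num)
  set q := Fintype.card F with hq
  have hq1 : 1 < q := Fintype.one_lt_card
  rw [Fin.prod_univ_two] at h
  have e0 : q ^ 2 - q ^ ((0 : Fin 2) : ℕ) = q ^ 2 - 1 := by simp
  have e1 : q ^ 2 - q ^ ((1 : Fin 2) : ℕ) = q * (q - 1) := by
    rw [Nat.mul_sub]; simp; ring_nf
  rw [e0, e1] at h
  have hq0 : 0 < q - 1 := by omega
  apply Nat.eq_of_mul_eq_mul_left hq0
  rw [h]
  ring

/-- trace zero matrices -/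
def X3 (v : Unit ⊕ (Fin 1 ⊕ Fin 1) → F) : Matrix (Fin 2) (Fin 2) F :=
  !![v (.inl ()), v (.inr (.inl 0)); v (.inr (.inr 0)), -v (.inl ())]

def C3 (M : Matrix (Fin 2) (Fin 2) F) : Unit ⊕ (Fin 1 ⊕ Fin 1) → F :=
  Sum.elim (fun _ => M 0 0) (Sum.elim (fun _ => M 0 1) (fun _ => M 1 0))

theorem C3_X3 (v : Unit ⊕ (Fin 1 ⊕ Fin 1) → F) : C3 (X3 v) = v := by
  funext i
  rcases i with i | i | i
  · rfl
  · fin_cases i; rfl
  · fin_cases i; rfl

theorem X3_trace (v : Unit ⊕ (Fin 1 ⊕ Fin 1) → F) : (X3 v).trace = 0 := by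
  rw [X3, Matrix.trace_fin_two_of, add_neg_cancel]

theorem X3_C3 {M : Matrix (Fin 2) (Fin 2) F} (h : M.trace = 0) : X3 (C3 M) = M := by
  rw [Matrix.trace_fin_two] at h
  apply Matrix.ext
  intro i j
  fin_cases i <;> fin_cases j
  · rfl
  · rfl
  · rfl
  · show -M 0 0 = M 1 1
    linear_combination -h

theorem X3_add (u v : Unit ⊕ (Fin 1 ⊕ Fin 1) → F) : X3 (u + v) = X3 u + X3 v := by
  apply Matrix.ext
  intro i j
  fin_cases i <;> fin_cases j <;> simp [X3] <;> ring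

theorem X3_smul (c : F) (v : Unit ⊕ (Fin 1 ⊕ Fin 1) → F) : X3 (c • v) = c • X3 v := by
  apply Matrix.ext
  intro i j
  fin_cases i <;> fin_cases j <;> simp [X3]

theorem C3_add (M N : Matrix (Fin 2) (Fin 2) F) : C3 (M + N) = C3 M + C3 N := by
  funext i
  rcases i with i | i | i <;> rfl

theorem C3_smul (c : F) (M : Matrix (Fin 2) (Fin 2) F) : C3 (c • M) = c • C3 M := by
  funext i
  rcases i with i | i | i <;> rfl

theorem X3_det (v : Unit ⊕ (Fin 1 ⊕ Fin 1) → F) : (X3 v).det = - Cfsg.quadFormOdd 1 F v := by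
  rw [X3, Matrix.det_fin_two_of, Cfsg.quadFormOdd, Fin.sum_univ_one]
  ring

/-- conjugation -/
noncomputable def γ0 (F : Type*) [Field F] : GL (Fin 2) F →* ((Unit ⊕ (Fin 1 ⊕ Fin 1) → F) →ₗ[F] (Unit ⊕ (Fin 1 ⊕ Fin 1) → F)) where
  toFun g :=
    { toFun := fun v => C3 ((g : Matrix (Fin 2) (Fin 2) F) * X3 v * ((g⁻¹ : GL (Fin 2) F) : Matrix (Fin 2) (Fin 2) F))
      map_add' := by intro u v; rw [X3_add, mul_add, add_mul, C3_add]
      map_smul' := by intro c v; rw [X3_smul, Matrix.mul_smul, Matrix.smul_mul, C3_smul, RingHom.id_apply] }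
  map_one' := by
    apply LinearMap.ext
    intro v
    show C3 (((1 : GL (Fin 2) F) : Matrix (Fin 2) (Fin 2) F) * X3 v * ((1⁻¹ : GL (Fin 2) F) : Matrix (Fin 2) (Fin 2) F)) = v
    rw [inv_one, Units.val_one, one_mul, mul_one, C3_X3]
  map_mul' := by
    intro g h
    apply LinearMap.ext
    intro v
    show C3 (((g * h : GL (Fin 2) F) : Matrix (Fin 2) (Fin 2) F) * X3 v * (((g * h)⁻¹ : GL (Fin 2) F) : Matrix (Fin 2) (Fin 2) F)) =
      C3 ((g : Matrix (Fin 2) (Fin 2) F) * X3 (C3 ((h : Matrix (Fin 2) (Fin 2) F) * X3 v * ((h⁻¹ : GL (Fin 2) F) : Matrix (Fin 2) (Fin 2) F))) * ((g⁻¹ : GL (Fin 2) F) : Matrix (Fin 2) (Fin 2) F))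
    rw [X3_C3, _root_.mul_inv_rev, Units.val_mul, Units.val_mul]
    · simp only [mul_assoc]
    · rw [mul_assoc, Matrix.trace_mul_comm, mul_assoc, ← Units.val_mul, inv_mul_cancel, Units.val_one, mul_one, X3_trace]

theorem γ0_apply (g : GL (Fin 2) F) (v : Unit ⊕ (Fin 1 ⊕ Fin 1) → F) :
    γ0 F g v = C3 ((g : Matrix (Fin 2) (Fin 2) F) * X3 v * ((g⁻¹ : GL (Fin 2) F) : Matrix (Fin 2) (Fin 2) F)) := rfl

noncomputable def γ1 (F : Type*) [Field F] : GL (Fin 2) F →* ((Unit ⊕ (Fin 1 ⊕ Fin 1) → F) ≃ₗ[F] (Unit ⊕ (Fin 1 ⊕ Fin 1) → F)) :=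
  (LinearMap.GeneralLinearGroup.generalLinearEquiv F (Unit ⊕ (Fin 1 ⊕ Fin 1) → F)).toMonoidHom.comp (MonoidHom.toHomUnits (γ0 F))

theorem γ1_apply (g : GL (Fin 2) F) (v : Unit ⊕ (Fin 1 ⊕ Fin 1) → F) : γ1 F g v = γ0 F g v := rfl

theorem conj_trace (g : GL (Fin 2) F) (v : Unit ⊕ (Fin 1 ⊕ Fin 1) → F) :
    ((g : Matrix (Fin 2) (Fin 2) F) * X3 v * ((g⁻¹ : GL (Fin 2) F) : Matrix (Fin 2) (Fin 2) F)).trace = 0 := by
  rw [mul_assoc, Matrix.trace_mul_comm, mul_assoc, ← Units.val_mul, inv_mul_cancel, Units.val_one, mul_one, X3_trace]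

theorem γ1_mem (g : GL (Fin 2) F) : γ1 F g ∈ O (qOdd 1 F) := by
  intro v
  rw [γ1_apply, qOdd_apply, qOdd_apply]
  have h1 : (X3 (γ0 F g v)).det = (X3 v).det := by
    rw [γ0_apply, X3_C3 (conj_trace g v), Matrix.det_mul, Matrix.det_mul, mul_comm (Matrix.det _) (Matrix.det (X3 v)), mul_assoc, ← Matrix.det_mul,
      ← Units.val_mul, mul_inv_cancel, Units.val_one, Matrix.det_one, mul_one]
  rw [X3_det, X3_det] at h1
  exact neg_injective h1

noncomputable def γ (F : Type*) [Field F] : GL (Fin 2) F →* ↥(O (qOdd 1 F)) := (γ1 F).codRestrict _ γ1_mem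

theorem γ_apply (g : GL (Fin 2) F) (v : Unit ⊕ (Fin 1 ⊕ Fin 1) → F) :
    (γ F g).1 v = C3 ((g : Matrix (Fin 2) (Fin 2) F) * X3 v * ((g⁻¹ : GL (Fin 2) F) : Matrix (Fin 2) (Fin 2) F)) := rfl

theorem exists_ne_of_odd [Fintype F] (h2 : (2 : F) ≠ 0) : ∃ a : F, a ≠ 0 ∧ a ≠ 1 :=
  ⟨-1, neg_ne_zero.mpr one_ne_zero, fun h => h2 (by linear_combination -h)⟩

/-- into the derived group -/
noncomputable def γc (F : Type*) [Field F] (hF : ∃ a : F, a ≠ 0 ∧ a ≠ 1) : SL(2, F) →* ↥(commutator ↥(O (qOdd 1 F))) :=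
  ((γ F).comp Matrix.SpecialLinearGroup.toGL).codRestrict _ (fun g => Ql.hom_comm hF (γ F) g)

theorem γ_ker {g : SL(2, F)} (hg : γ F (Matrix.SpecialLinearGroup.toGL g) = 1) : ∃ c : F, c ^ 2 = 1 ∧ (g : Matrix (Fin 2) (Fin 2) F) = c • (1 : Matrix (Fin 2) (Fin 2) F) := by
  -- commutes with trace zero matrices
  have hcomm : ∀ v, (g : Matrix (Fin 2) (Fin 2) F) * X3 v = X3 v * (g : Matrix (Fin 2) (Fin 2) F) := by
    intro v
    have h1 : C3 (((Matrix.SpecialLinearGroup.toGL g : GL (Fin 2) F) : Matrix (Fin 2) (Fin 2) F) * X3 v * (((Matrix.SpecialLinearGroup.toGL g)⁻¹ : GL (Fin 2) F) : Matrix (Fin 2) (Fin 2) F)) = v :=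
      congrArg (fun z : ↥(O (qOdd 1 F)) => z.1 v) hg
    have h2 := congrArg X3 h1
    rw [X3_C3 (conj_trace _ v)] at h2
    have h3 : ((Matrix.SpecialLinearGroup.toGL g : GL (Fin 2) F) : Matrix (Fin 2) (Fin 2) F) * X3 v * (((Matrix.SpecialLinearGroup.toGL g)⁻¹ : GL (Fin 2) F) : Matrix (Fin 2) (Fin 2) F) * ((Matrix.SpecialLinearGroup.toGL g : GL (Fin 2) F) : Matrix (Fin 2) (Fin 2) F) = X3 v * ((Matrix.SpecialLinearGroup.toGL g : GL (Fin 2) F) : Matrix (Fin 2) (Fin 2) F) := by rw [h2]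
    rw [mul_assoc, ← Units.val_mul, inv_mul_cancel, Units.val_one, mul_one] at h3
    exact h3
  have e1 := hcomm (fun i => if i = .inr (.inl 0) then 1 else 0)
  have e2 := hcomm (fun i => if i = .inr (.inr 0) then 1 else 0)
  have X1 : X3 (fun i => if i = .inr (.inl 0) then (1 : F) else 0) = !![0, 1; 0, 0] := by
    rw [X3]; simp
  have X2 : X3 (fun i => if i = .inr (.inr 0) then (1 : F) else 0) = !![0, 0; 1, 0] := by
    rw [X3]; simp
  rw [X1] at e1
  rw [X2] at e2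
  have a1 := congrFun (congrFun e1 0) 0
  have a2 := congrFun (congrFun e1 0) 1
  have b1 := congrFun (congrFun e2 0) 0
  simp [Matrix.mul_apply, Fin.sum_univ_two] at a1 a2 b1
  have hd := g.det_coe
  rw [Matrix.det_fin_two, ← a2, b1, zero_mul, sub_zero] at hd
  refine ⟨(g : Matrix (Fin 2) (Fin 2) F) 0 0, by rw [pow_two]; exact hd, ?_⟩
  apply Matrix.ext
  intro i j
  fin_cases i <;> fin_cases j
  · simp
  · show (g : Matrix (Fin 2) (Fin 2) F) 0 1 = _
    rw [b1]; simp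
  · show (g : Matrix (Fin 2) (Fin 2) F) 1 0 = _
    rw [← a1]; simp
  · show (g : Matrix (Fin 2) (Fin 2) F) 1 1 = _
    rw [← a2]; simp

theorem scalar_mem_center {g : SL(2, F)} {c : F} (h : (g : Matrix (Fin 2) (Fin 2) F) = c • (1 : Matrix (Fin 2) (Fin 2) F)) : g ∈ Subgroup.center SL(2, F) := by
  rw [Subgroup.mem_center_iff]
  intro a
  apply Subtype.ext
  show (a : Matrix (Fin 2) (Fin 2) F) * (g : Matrix (Fin 2) (Fin 2) F) = (g : Matrix (Fin 2) (Fin 2) F) * (a : Matrix (Fin 2) (Fin 2) F)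
  rw [h, Matrix.mul_smul, Matrix.smul_mul, mul_one, one_mul]

theorem card_ker_le {K : Subgroup SL(2, F)} (h : ∀ g ∈ K, ∃ c : F, c ^ 2 = 1 ∧ (g : Matrix (Fin 2) (Fin 2) F) = c • (1 : Matrix (Fin 2) (Fin 2) F)) : Nat.card K ≤ 2 := by
  classical
  choose c hc1 hc2 using fun g : K => h g.1 g.2
  have hinj : Function.Injective c := by
    intro g h hgh
    apply Subtype.ext
    apply Subtype.ext
    rw [hc2 g, hc2 h, hgh]
  have hcases : ∀ g, c g = 1 ∨ c g = -1 := fun g => by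
    have := hc1 g
    rw [pow_two] at this
    exact mul_self_eq_one_iff.mp this
  let f : K → ({1, -1} : Finset F) := fun g => ⟨c g, by
    rcases hcases g with h | h
    · rw [h]; simp
    · rw [h]; simp⟩
  have hf : Function.Injective f := fun g h hgh => hinj (congrArg Subtype.val hgh)
  have h1 := Nat.card_le_card_of_injective f hf
  have h2 : Nat.card ({1, -1} : Finset F) = ({1, -1} : Finset F).card := Nat.card_eq_card_toFinset _ |>.trans (by simp)
  rw [h2] at h1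
  exact h1.trans Finset.card_le_two

theorem s0298 {F : Type*} [Field F] [Fintype F] (hodd : Odd (Fintype.card F)) : Nonempty (Cfsg.POmega F (Cfsg.quadFormOdd 1 F) ≃* Matrix.ProjectiveSpecialLinearGroup (Fin 2) F) := by
  classical
  have h2 : (2 : F) ≠ 0 := by
    intro h
    haveI : CharP F 2 := CharTwo.of_one_ne_zero_of_two_eq_zero one_ne_zero h
    have h3 := FiniteField.even_card_of_char_two (F := F) (ringChar.eq F 2 |>.symm ▸ rfl)
    have := Nat.odd_iff.mp hodd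
    omega
  have hF := exists_ne_of_odd h2
  have hnd : ND (qOdd 1 F) := nd_odd h2
  have hfr : Module.finrank F (Unit ⊕ (Fin 1 ⊕ Fin 1) → F) = 3 := by
    rw [Module.finrank_fintype_fun_eq_card, Fintype.card_sum, Fintype.card_sum, Fintype.card_fin, Fintype.card_unit]
  have hidx : (commutator ↥(O (qOdd 1 F))).index = 4 := index_commutator_odd hnd h2 (by omega)
  have hcard : Nat.card ↥(O (qOdd 1 F)) = 2 * Nat.card SL(2, F) := by
    rw [← card_isometry, coe_qOdd, Cfsg.Agent.S0286.result (F := F) rfl hodd 1, card_SL2]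
    simp
    ring
  have hmul : Nat.card ↥(O (qOdd 1 F)) = (commutator ↥(O (qOdd 1 F))).index * Nat.card ↥(commutator ↥(O (qOdd 1 F))) :=
    (Subgroup.index_mul_card _).symm
  rw [hcard, hidx] at hmul
  have hpos := Nat.card_pos (α := SL(2, F))
  haveI : Finite ↥(O (qOdd 1 F)) := by
    apply Nat.finite_of_card_ne_zero
    rw [hcard]
    omega
  have hker : ∀ g ∈ (γc F hF).ker, ∃ c : F, c ^ 2 = 1 ∧ (g : Matrix (Fin 2) (Fin 2) F) = c • (1 : Matrix (Fin 2) (Fin 2) F) := by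
    intro g hg
    exact γ_ker (congrArg Subtype.val (MonoidHom.mem_ker.mp hg))
  have hsurj : Function.Surjective (γc F hF) := Ql.surj_of_card (γc F hF) (card_ker_le hker) (by omega)
  obtain ⟨e⟩ := Ql.quot_iso' Ql.sl_center (γc F hF) hsurj (fun g hg => by
    obtain ⟨c, _, hc⟩ := hker g hg
    exact scalar_mem_center hc)
  rw [← coe_qOdd]
  exact ⟨(isoPOmega (qOdd 1 F)).trans e⟩

end Cfsg.Agent.Lib.Kl
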