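import Mathlib
import Cfsg.Agent.Lib.Kl3

/-! `PΩ_4^+(q) = PSL_2(q) × PSL_2(q)`. -/

set_option linter.all false
set_option maxHeartbeats 1000000

namespace Cfsg.Agent.Lib.Kl

open Matrix QuadraticMap Cfsg.Agent.Lib.Orth
open scoped MatrixGroups commutatorElement

variable {F : Type*} [Field F]

/-- two by two matrices -/
def X4 (v : Fin 2 ⊕ Fin 2 → F) : Matrix (Fin 2) (Fin 2) F := !![v (.inl 0), -v (.inl 1); v (.inr 1), v (.inr 0)]

def C4 (M : Matrix (Fin 2) (Fin 2) F) : Fin 2 ⊕ Fin 2 → F := Sum.elim ![M 0 0, -M 0 1] ![M 1 1, M 1 0]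

theorem C4_X4 (v : Fin 2 ⊕ Fin 2 → F) : C4 (X4 v) = v := by
  funext i
  rcases i with i | i <;> fin_cases i <;> simp [C4, X4]

theorem X4_C4 (M : Matrix (Fin 2) (Fin 2) F) : X4 (C4 M) = M := by
  apply Matrix.ext
  intro i j
  fin_cases i <;> fin_cases j <;> simp [C4, X4]

theorem X4_add (u v : Fin 2 ⊕ Fin 2 → F) : X4 (u + v) = X4 u + X4 v := by
  apply Matrix.ext
  intro i j
  fin_cases i <;> fin_cases j <;> simp [X4] <;> ring

theorem X4_smul (c : F) (v : Fin 2 ⊕ Fin 2 → F) : X4 (c • v) = c • X4 v := by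
  apply Matrix.ext
  intro i j
  fin_cases i <;> fin_cases j <;> simp [X4]

theorem C4_add (M N : Matrix (Fin 2) (Fin 2) F) : C4 (M + N) = C4 M + C4 N := by
  funext i
  rcases i with i | i <;> fin_cases i <;> simp [C4] <;> ring

theorem C4_smul (c : F) (M : Matrix (Fin 2) (Fin 2) F) : C4 (c • M) = c • C4 M := by
  funext i
  rcases i with i | i <;> fin_cases i <;> simp [C4]

theorem X4_det (v : Fin 2 ⊕ Fin 2 → F) : (X4 v).det = Cfsg.quadFormPlus 2 F v := by
  rw [X4, Matrix.det_fin_two_of, Cfsg.quadFormPlus, Fin.sum_univ_two]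
  ring

/-- two sided multiplication -/
def β0 (F : Type*) [Field F] : GL (Fin 2) F × GL (Fin 2) F →* ((Fin 2 ⊕ Fin 2 → F) →ₗ[F] (Fin 2 ⊕ Fin 2 → F)) where
  toFun g :=
    { toFun := fun v => C4 ((g.1 : Matrix (Fin 2) (Fin 2) F) * X4 v * (g.2 : Matrix (Fin 2) (Fin 2) F)ᵀ)
      map_add' := by intro u v; rw [X4_add, mul_add, add_mul, C4_add]
      map_smul' := by intro c v; rw [X4_smul, Matrix.mul_smul, Matrix.smul_mul, C4_smul, RingHom.id_apply] }
  map_one' := by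
    apply LinearMap.ext
    intro v
    show C4 (((1 : GL (Fin 2) F) : Matrix (Fin 2) (Fin 2) F) * X4 v * ((1 : GL (Fin 2) F) : Matrix (Fin 2) (Fin 2) F)ᵀ) = v
    rw [Units.val_one, one_mul, Matrix.transpose_one, mul_one, C4_X4]
  map_mul' := by
    intro g h
    apply LinearMap.ext
    intro v
    show C4 (((g.1 * h.1 : GL (Fin 2) F) : Matrix (Fin 2) (Fin 2) F) * X4 v * ((g.2 * h.2 : GL (Fin 2) F) : Matrix (Fin 2) (Fin 2) F)ᵀ) =
      C4 ((g.1 : Matrix (Fin 2) (Fin 2) F) * X4 (C4 ((h.1 : Matrix (Fin 2) (Fin 2) F) * X4 v * (h.2 : Matrix (Fin 2) (Fin 2) F)ᵀ)) * (g.2 : Matrix (Fin 2) (Fin 2) F)ᵀ)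
    rw [X4_C4, Units.val_mul, Units.val_mul, Matrix.transpose_mul]
    simp only [mul_assoc]

noncomputable def β1 (F : Type*) [Field F] : GL (Fin 2) F × GL (Fin 2) F →* ((Fin 2 ⊕ Fin 2 → F) ≃ₗ[F] (Fin 2 ⊕ Fin 2 → F)) :=
  (LinearMap.GeneralLinearGroup.generalLinearEquiv F (Fin 2 ⊕ Fin 2 → F)).toMonoidHom.comp (MonoidHom.toHomUnits (β0 F))

theorem β1_apply (g : GL (Fin 2) F × GL (Fin 2) F) (v : Fin 2 ⊕ Fin 2 → F) :
    β1 F g v = C4 ((g.1 : Matrix (Fin 2) (Fin 2) F) * X4 v * (g.2 : Matrix (Fin 2) (Fin 2) F)ᵀ) := rfl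

theorem β1_Q (g : GL (Fin 2) F × GL (Fin 2) F) (v : Fin 2 ⊕ Fin 2 → F) :
    qPlus 2 F (β1 F g v) = (g.1 : Matrix (Fin 2) (Fin 2) F).det * (g.2 : Matrix (Fin 2) (Fin 2) F).det * qPlus 2 F v := by
  rw [qPlus_apply, qPlus_apply, ← X4_det, ← X4_det, β1_apply, X4_C4, Matrix.det_mul, Matrix.det_mul, Matrix.det_transpose]
  ring

/-- the diagonal partner -/
noncomputable def dg (F : Type*) [Field F] : GL (Fin 2) F →* GL (Fin 2) F where
  toFun g := ⟨!![(((Matrix.GeneralLinearGroup.det g)⁻¹ : Fˣ) : F), 0; 0, 1], !![((Matrix.GeneralLinearGroup.det g : Fˣ) : F), 0; 0, 1], by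
    rw [Matrix.mul_fin_two, Matrix.one_fin_two, Units.inv_mul]; simp, by
    rw [Matrix.mul_fin_two, Matrix.one_fin_two, Units.mul_inv]; simp⟩
  map_one' := by
    apply Units.ext
    show !![(((Matrix.GeneralLinearGroup.det (1 : GL (Fin 2) F))⁻¹ : Fˣ) : F), 0; 0, 1] = 1
    rw [map_one, inv_one, Matrix.one_fin_two, Units.val_one]
  map_mul' := by
    intro g h
    apply Units.ext
    show !![(((Matrix.GeneralLinearGroup.det (g * h))⁻¹ : Fˣ) : F), 0; 0, 1] = !![(((Matrix.GeneralLinearGroup.det g)⁻¹ : Fˣ) : F), 0; 0, 1] * !![(((Matrix.GeneralLinearGroup.det h)⁻¹ : Fˣ) : F), 0; 0, 1]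
    rw [map_mul, Matrix.mul_fin_two, mul_inv, Units.val_mul]
    simp

theorem dg_det (g : GL (Fin 2) F) : (g : Matrix (Fin 2) (Fin 2) F).det * (dg F g : Matrix (Fin 2) (Fin 2) F).det = 1 := by
  show (g : Matrix (Fin 2) (Fin 2) F).det * (!![(((Matrix.GeneralLinearGroup.det g)⁻¹ : Fˣ) : F), 0; 0, 1]).det = 1
  rw [Matrix.det_fin_two_of, mul_one, mul_zero, sub_zero]
  show ((Matrix.GeneralLinearGroup.det g : Fˣ) : F) * (((Matrix.GeneralLinearGroup.det g)⁻¹ : Fˣ) : F) = 1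
  exact Units.mul_inv _

theorem dg_SL (g : SL(2, F)) : dg F (Matrix.SpecialLinearGroup.toGL g) = 1 := by
  apply Units.ext
  show !![(((Matrix.GeneralLinearGroup.det (Matrix.SpecialLinearGroup.toGL g))⁻¹ : Fˣ) : F), 0; 0, 1] = 1
  have h : Matrix.GeneralLinearGroup.det (Matrix.SpecialLinearGroup.toGL g) = 1 := Units.ext g.det_coe
  rw [h, inv_one, Matrix.one_fin_two, Units.val_one]

/-- left multiplications -/
noncomputable def lam1 (F : Type*) [Field F] : GL (Fin 2) F →* ↥(O (qPlus 2 F)) :=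
  ((β1 F).comp ((MonoidHom.id _).prod (dg F))).codRestrict _ (fun g v => by
    show qPlus 2 F (β1 F (g, dg F g) v) = qPlus 2 F v
    rw [β1_Q, dg_det, one_mul])

noncomputable def rho1 (F : Type*) [Field F] : GL (Fin 2) F →* ↥(O (qPlus 2 F)) :=
  ((β1 F).comp ((dg F).prod (MonoidHom.id _))).codRestrict _ (fun g v => by
    show qPlus 2 F (β1 F (dg F g, g) v) = qPlus 2 F v
    rw [β1_Q, mul_comm (Matrix.det _), dg_det, one_mul])

/-- the map on `SL_2 × SL_2` -/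
noncomputable def β (F : Type*) [Field F] : SL(2, F) × SL(2, F) →* ↥(O (qPlus 2 F)) :=
  ((β1 F).comp (MonoidHom.prodMap Matrix.SpecialLinearGroup.toGL Matrix.SpecialLinearGroup.toGL)).codRestrict _ (fun g v => by
    show qPlus 2 F (β1 F (Matrix.SpecialLinearGroup.toGL g.1, Matrix.SpecialLinearGroup.toGL g.2) v) = qPlus 2 F v
    rw [β1_Q]
    show (g.1 : Matrix (Fin 2) (Fin 2) F).det * (g.2 : Matrix (Fin 2) (Fin 2) F).det * qPlus 2 F v = qPlus 2 F v
    rw [g.1.det_coe, g.2.det_coe, one_mul, one_mul])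

theorem β_apply (g : SL(2, F) × SL(2, F)) (v : Fin 2 ⊕ Fin 2 → F) :
    (β F g).1 v = C4 ((g.1 : Matrix (Fin 2) (Fin 2) F) * X4 v * (g.2 : Matrix (Fin 2) (Fin 2) F)ᵀ) := rfl

theorem β_split (g : SL(2, F) × SL(2, F)) : β F g = lam1 F (Matrix.SpecialLinearGroup.toGL g.1) * rho1 F (Matrix.SpecialLinearGroup.toGL g.2) := by
  have h1 : β F (g.1, 1) = lam1 F (Matrix.SpecialLinearGroup.toGL g.1) := by
    apply Subtype.ext
    show β1 F (Matrix.SpecialLinearGroup.toGL g.1, Matrix.SpecialLinearGroup.toGL 1) = β1 F (Matrix.SpecialLinearGroup.toGL g.1, dg F (Matrix.SpecialLinearGroup.toGL g.1))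
    rw [dg_SL, map_one]
  have h2 : β F (1, g.2) = rho1 F (Matrix.SpecialLinearGroup.toGL g.2) := by
    apply Subtype.ext
    show β1 F (Matrix.SpecialLinearGroup.toGL 1, Matrix.SpecialLinearGroup.toGL g.2) = β1 F (dg F (Matrix.SpecialLinearGroup.toGL g.2), Matrix.SpecialLinearGroup.toGL g.2)
    rw [dg_SL, map_one]
  rw [← h1, ← h2, ← map_mul, Prod.mk_mul_mk, mul_one, one_mul]

noncomputable def βc (F : Type*) [Field F] (hF : ∃ a : F, a ≠ 0 ∧ a ≠ 1) : SL(2, F) × SL(2, F) →* ↥(commutator ↥(O (qPlus 2 F))) :=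
  (β F).codRestrict _ (fun g => by
    rw [β_split]
    exact mul_mem (Ql.hom_comm hF (lam1 F) g.1) (Ql.hom_comm hF (rho1 F) g.2))

theorem scalar_of_comm {g : SL(2, F)} (e1 : (g : Matrix (Fin 2) (Fin 2) F) * !![0, 1; 0, 0] = !![0, 1; 0, 0] * (g : Matrix (Fin 2) (Fin 2) F))
    (e2 : (g : Matrix (Fin 2) (Fin 2) F) * !![0, 0; 1, 0] = !![0, 0; 1, 0] * (g : Matrix (Fin 2) (Fin 2) F)) :
    ∃ c : F, c ^ 2 = 1 ∧ (g : Matrix (Fin 2) (Fin 2) F) = c • (1 : Matrix (Fin 2) (Fin 2) F) := by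
  have a1 := congrFun (congrFun e1 0) 0
  have a2 := congrFun (congrFun e1 0) 1
  have b1 := congrFun (congrFun e2 0) 0
  simp [Matrix.mul_apply, Fin.sum_univ_two] at a1 a2 b1
  have hd := g.det_coe
  rw [Matrix.det_fin_two, ← a2, b1, zero_mul, sub_zero] at hd
  refine ⟨(g : Matrix (Fin 2) (Fin 2) F) 0 0, by rw [pow_two]; exact hd, ?_⟩
  apply Matrix.ext
  intro i j
  fin_cases i <;> fin_cases j
  · simp
  · show (g : Matrix (Fin 2) (Fin 2) F) 0 1 = _
    rw [b1]; simp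
  · show (g : Matrix (Fin 2) (Fin 2) F) 1 0 = _
    rw [← a1]; simp
  · show (g : Matrix (Fin 2) (Fin 2) F) 1 1 = _
    rw [← a2]; simp

theorem β_ker {g : SL(2, F) × SL(2, F)} (hg : β F g = 1) : ∃ c : F, c ^ 2 = 1 ∧ (g.1 : Matrix (Fin 2) (Fin 2) F) = c • (1 : Matrix (Fin 2) (Fin 2) F) ∧
    (g.2 : Matrix (Fin 2) (Fin 2) F) = c • (1 : Matrix (Fin 2) (Fin 2) F) := by
  have hM : ∀ M : Matrix (Fin 2) (Fin 2) F, (g.1 : Matrix (Fin 2) (Fin 2) F) * M * (g.2 : Matrix (Fin 2) (Fin 2) F)ᵀ = M := by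
    intro M
    have h1 : C4 ((g.1 : Matrix (Fin 2) (Fin 2) F) * X4 (C4 M) * (g.2 : Matrix (Fin 2) (Fin 2) F)ᵀ) = C4 M :=
      congrArg (fun z : ↥(O (qPlus 2 F)) => z.1 (C4 M)) hg
    have h2 := congrArg X4 h1
    rwa [X4_C4, X4_C4] at h2
  have h1 := hM 1
  rw [mul_one] at h1
  have h2 : (g.2 : Matrix (Fin 2) (Fin 2) F)ᵀ * (g.1 : Matrix (Fin 2) (Fin 2) F) = 1 := mul_eq_one_comm.mp h1
  have hc : ∀ M : Matrix (Fin 2) (Fin 2) F, (g.1 : Matrix (Fin 2) (Fin 2) F) * M = M * (g.1 : Matrix (Fin 2) (Fin 2) F) := by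
    intro M
    have h3 : (g.1 : Matrix (Fin 2) (Fin 2) F) * M * (g.2 : Matrix (Fin 2) (Fin 2) F)ᵀ * (g.1 : Matrix (Fin 2) (Fin 2) F) = M * (g.1 : Matrix (Fin 2) (Fin 2) F) :=
      congrArg (· * (g.1 : Matrix (Fin 2) (Fin 2) F)) (hM M)
    rwa [mul_assoc ((g.1 : Matrix (Fin 2) (Fin 2) F) * M), h2, mul_one] at h3
  obtain ⟨c, hc2, hcg⟩ := scalar_of_comm (g := g.1) (hc _) (hc _)
  refine ⟨c, hc2, hcg, ?_⟩
  rw [hcg, Matrix.smul_mul, one_mul] at h1
  have h4 : (g.2 : Matrix (Fin 2) (Fin 2) F)ᵀ = c • (1 : Matrix (Fin 2) (Fin 2) F) := by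
    rw [← h1, smul_smul, ← pow_two, hc2, one_smul]
  have h5 := congrArg Matrix.transpose h4
  rwa [Matrix.transpose_transpose, Matrix.transpose_smul, Matrix.transpose_one] at h5

theorem s0299 {F : Type*} [Field F] [Fintype F] (hF3 : 3 ≤ Fintype.card F) :
    Nonempty (Cfsg.POmega F (Cfsg.quadFormPlus 2 F) ≃* Matrix.ProjectiveSpecialLinearGroup (Fin 2) F × Matrix.ProjectiveSpecialLinearGroup (Fin 2) F) := by
  classical
  have hthird : ∀ x y : F, ∃ a : F, a ≠ x ∧ a ≠ y := by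
    intro x y
    by_contra hcon
    push Not at hcon
    have h5 : (Finset.univ : Finset F) ⊆ {x, y} := by
      intro a _
      by_cases h6 : a = x
      · rw [h6]; simp
      · rw [hcon a h6]; simp
    have h6 := Finset.card_le_card h5
    rw [Finset.card_univ] at h6
    have h7 := Finset.card_le_two (a := x) (b := y)
    omega
  have hF : ∃ a : F, a ≠ 0 ∧ a ≠ 1 := hthird 0 1
  have hF' : ∃ a : F, a ≠ 0 ∧ a ≠ -1 := hthird 0 (-1)
  have hfr : Module.finrank F (Fin 2 ⊕ Fin 2 → F) = 4 := by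
    rw [Module.finrank_fintype_fun_eq_card, Fintype.card_sum, Fintype.card_fin]
  have hidx : (commutator ↥(O (qPlus 2 F))).index = if (2 : F) = 0 then 2 else 4 := by
    split_ifs with h
    · exact index_commutator_two nd_plus h (R_eq_O nd_plus (Or.inl hF')) (by omega)
    · exact index_commutator_odd nd_plus h (by omega)
  have hcard : Nat.card ↥(O (qPlus 2 F)) = 2 * Nat.card (SL(2, F) × SL(2, F)) := by
    rw [← card_isometry, coe_qPlus, Cfsg.Agent.S0287.result (F := F) rfl 2 (by norm_num), Nat.card_prod, card_SL2]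
    simp
    ring
  have hmul : Nat.card ↥(O (qPlus 2 F)) = (commutator ↥(O (qPlus 2 F))).index * Nat.card ↥(commutator ↥(O (qPlus 2 F))) :=
    (Subgroup.index_mul_card _).symm
  rw [hcard, hidx] at hmul
  have hpos := Nat.card_pos (α := SL(2, F) × SL(2, F))
  haveI : Finite ↥(O (qPlus 2 F)) := by
    apply Nat.finite_of_card_ne_zero
    rw [hcard]
    omega
  have hker : ∀ g ∈ (βc F hF).ker, ∃ c : F, c ^ 2 = 1 ∧ (g.1 : Matrix (Fin 2) (Fin 2) F) = c • (1 : Matrix (Fin 2) (Fin 2) F) ∧ (g.2 : Matrix (Fin 2) (Fin 2) F) = c • (1 : Matrix (Fin 2) (Fin 2) F) := by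
    intro g hg
    exact β_ker (congrArg Subtype.val (MonoidHom.mem_ker.mp hg))
  have hkc : Nat.card (βc F hF).ker ≤ if (2 : F) = 0 then 1 else 2 := by
    choose c hc1 hc2 hc3 using fun g : (βc F hF).ker => hker g.1 g.2
    have hinj : Function.Injective c := by
      intro g h hgh
      apply Subtype.ext
      refine Prod.ext (Subtype.ext ?_) (Subtype.ext ?_)
      · rw [hc2 g, hc2 h, hgh]
      · rw [hc3 g, hc3 h, hgh]
    have hcases : ∀ g, c g = 1 ∨ c g = -1 := fun g => by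
      have := hc1 g
      rw [pow_two] at this
      exact mul_self_eq_one_iff.mp this
    let f : (βc F hF).ker → ({1, -1} : Finset F) := fun g => ⟨c g, by
      rcases hcases g with h | h
      · rw [h]; simp
      · rw [h]; simp⟩
    have hf : Function.Injective f := fun g h hgh => hinj (congrArg Subtype.val hgh)
    have h1 := Nat.card_le_card_of_injective f hf
    have h2 : Nat.card ({1, -1} : Finset F) = ({1, -1} : Finset F).card := Nat.card_eq_card_toFinset _ |>.trans (by simp)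
    rw [h2] at h1
    split_ifs with h
    · have h3 : (-1 : F) = 1 := by linear_combination -h
      rw [h3] at h1
      simpa using h1
    · exact h1.trans Finset.card_le_two
  have hsurj : Function.Surjective (βc F hF) := by
    refine Ql.surj_of_card (βc F hF) hkc ?_
    split_ifs with h
    · rw [if_pos h] at hmul
      omega
    · rw [if_neg h] at hmul
      omega
  -- centre of the product
  have hcp : ∀ g : SL(2, F) × SL(2, F), g ∈ Subgroup.center (SL(2, F) × SL(2, F)) ↔ g.1 ∈ Subgroup.center SL(2, F) ∧ g.2 ∈ Subgroup.center SL(2, F) := by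
    intro g
    simp only [Subgroup.mem_center_iff]
    constructor
    · intro h
      exact ⟨fun a => congrArg Prod.fst (h (a, 1)), fun a => congrArg Prod.snd (h (1, a))⟩
    · rintro ⟨h1, h2⟩ ⟨a, b⟩
      exact Prod.ext (h1 a) (h2 b)
  obtain ⟨e⟩ := Ql.quot_iso' (G := SL(2, F) × SL(2, F)) (by
    intro g hg
    rw [hcp]
    refine ⟨Ql.sl_center g.1 (fun a => ?_), Ql.sl_center g.2 (fun a => ?_)⟩
    · exact ((hcp _).mp (hg (a, 1))).1
    · exact ((hcp _).mp (hg (1, a))).2) (βc F hF) hsurj (fun g hg => by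
    obtain ⟨c, _, hc, hc'⟩ := hker g hg
    exact (hcp g).mpr ⟨scalar_mem_center hc, scalar_mem_center hc'⟩)
  -- the quotient of the product
  let π : SL(2, F) × SL(2, F) →* Matrix.ProjectiveSpecialLinearGroup (Fin 2) F × Matrix.ProjectiveSpecialLinearGroup (Fin 2) F :=
    MonoidHom.prodMap (QuotientGroup.mk' _) (QuotientGroup.mk' _)
  have hπ : Function.Surjective π := Prod.map_surjective.mpr ⟨QuotientGroup.mk'_surjective _, QuotientGroup.mk'_surjective _⟩
  have hπk : π.ker = Subgroup.center (SL(2, F) × SL(2, F)) := by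
    ext g
    rw [hcp, MonoidHom.mem_ker]
    show (QuotientGroup.mk' _ g.1, QuotientGroup.mk' _ g.2) = (1, 1) ↔ _
    rw [Prod.mk.injEq]
    exact and_congr (QuotientGroup.eq_one_iff _) (QuotientGroup.eq_one_iff _)
  rw [← coe_qPlus]
  exact ⟨((isoPOmega (qPlus 2 F)).trans e).trans ((QuotientGroup.quotientMulEquivOfEq hπk.symm).trans (QuotientGroup.quotientKerEquivOfSurjective π hπ))⟩

end Cfsg.Agent.Lib.Kl
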