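import Mathlib
import Cfsg.Agent.Lib.Kl2
import Cfsg.Agent.Lib.Symp4
import Cfsg.Agent.S0286
import Cfsg.Agent.S0245

/-! `PΩ_5(q) = PSp_4(q)`. -/

set_option linter.all false
set_option maxHeartbeats 1000000

namespace Cfsg.Agent.Lib.Kl

open Matrix QuadraticMap Cfsg.Agent.Lib.Orth

variable {F : Type*} [Field F]

/-- the index equivalence -/
def e4 : Fin 4 ≃ Fin 2 ⊕ Fin 2 where
  toFun := ![.inl 0, .inl 1, .inr 0, .inr 1]
  invFun := Sum.elim ![0, 1] ![2, 3]
  left_inv := by decide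
  right_inv := by decide

def j5 (w : Unit ⊕ (Fin 2 ⊕ Fin 2) → F) : Fin 3 ⊕ Fin 3 → F :=
  Sum.elim ![w (.inr (.inl 0)), w (.inl ()), w (.inr (.inl 1))] ![w (.inr (.inr 0)), w (.inl ()), w (.inr (.inr 1))]

def p5 (v : Fin 3 ⊕ Fin 3 → F) : Unit ⊕ (Fin 2 ⊕ Fin 2) → F :=
  Sum.elim (fun _ => v (.inl 1)) (Sum.elim ![v (.inl 0), v (.inl 2)] ![v (.inr 0), v (.inr 2)])

theorem p5_j5 (w : Unit ⊕ (Fin 2 ⊕ Fin 2) → F) : p5 (j5 w) = w := by
  funext i
  rcases i with i | i | i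
  · rfl
  · fin_cases i <;> rfl
  · fin_cases i <;> rfl

theorem j5_p5 {v : Fin 3 ⊕ Fin 3 → F} (h : v (.inl 1) = v (.inr 1)) : j5 (p5 v) = v := by
  funext i
  rcases i with i | i
  · fin_cases i <;> rfl
  · fin_cases i
    · rfl
    · exact h
    · rfl

theorem p5_add (u v : Fin 3 ⊕ Fin 3 → F) : p5 (u + v) = p5 u + p5 v := by
  funext i
  rcases i with i | i | i
  · rfl
  · fin_cases i <;> rfl
  · fin_cases i <;> rfl

theorem p5_smul (c : F) (v : Fin 3 ⊕ Fin 3 → F) : p5 (c • v) = c • p5 v := by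
  funext i
  rcases i with i | i | i
  · rfl
  · fin_cases i <;> rfl
  · fin_cases i <;> rfl

theorem j5_add (u v : Unit ⊕ (Fin 2 ⊕ Fin 2) → F) : j5 (u + v) = j5 u + j5 v := by
  funext i
  rcases i with i | i
  · fin_cases i <;> rfl
  · fin_cases i <;> rfl

theorem j5_smul (c : F) (v : Unit ⊕ (Fin 2 ⊕ Fin 2) → F) : j5 (c • v) = c • j5 v := by
  funext i
  rcases i with i | i
  · fin_cases i <;> rfl
  · fin_cases i <;> rfl

theorem j5_Q (w : Unit ⊕ (Fin 2 ⊕ Fin 2) → F) : Cfsg.quadFormPlus 3 F (j5 w) = Cfsg.quadFormOdd 2 F w := by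
  rw [Cfsg.quadFormPlus, Cfsg.quadFormOdd, Fin.sum_univ_three, Fin.sum_univ_two]
  show w (.inr (.inl 0)) * w (.inr (.inr 0)) + w (.inl ()) * w (.inl ()) + w (.inr (.inl 1)) * w (.inr (.inr 1)) = _
  ring

theorem j5_perp (w : Unit ⊕ (Fin 2 ⊕ Fin 2) → F) : j5 w (.inl 1) = j5 w (.inr 1) := rfl

/-- the coordinates of `J` -/
def vJ (F : Type*) [Field F] : Fin 3 ⊕ Fin 3 → F := Sum.elim ![0, -1, 0] ![0, 1, 0]

theorem X_vJ : X (vJ F) = (Matrix.J (Fin 2) F).submatrix e4 e4 := by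
  apply Matrix.ext
  intro i j
  fin_cases i <;> fin_cases j <;> simp [X, vJ, Matrix.J, e4, Matrix.one_apply]

theorem quad_vJ (v : Fin 3 ⊕ Fin 3 → F) : Cfsg.quadFormPlus 3 F (v + vJ F) = Cfsg.quadFormPlus 3 F v + (v (.inl 1) - v (.inr 1)) - 1 := by
  rw [Cfsg.quadFormPlus, Cfsg.quadFormPlus, Fin.sum_univ_three, Fin.sum_univ_three]
  simp only [Pi.add_apply, vJ, Sum.elim_inl, Sum.elim_inr, Matrix.cons_val_zero, Matrix.cons_val_one, Matrix.cons_val]
  ring

theorem sub_J (g : Matrix.symplecticGroup (Fin 2) F) :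
    ((g : Matrix (Fin 2 ⊕ Fin 2) (Fin 2 ⊕ Fin 2) F).submatrix e4 e4) * X (vJ F) * ((g : Matrix (Fin 2 ⊕ Fin 2) (Fin 2 ⊕ Fin 2) F).submatrix e4 e4)ᵀ = X (vJ F) := by
  rw [X_vJ, Matrix.transpose_submatrix, Matrix.submatrix_mul_equiv, Matrix.submatrix_mul_equiv, SymplecticGroup.mem_iff.mp g.2]

theorem sub_det (g : Matrix.symplecticGroup (Fin 2) F) : ((g : Matrix (Fin 2 ⊕ Fin 2) (Fin 2 ⊕ Fin 2) F).submatrix e4 e4).det = 1 := by
  have h := pf ((g : Matrix (Fin 2 ⊕ Fin 2) (Fin 2 ⊕ Fin 2) F).submatrix e4 e4) (vJ F)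
  rw [sub_J, C_X] at h
  simp only [vJ, Sum.elim_inl, Sum.elim_inr, Matrix.cons_val_zero, Matrix.cons_val_one, Matrix.cons_val] at h
  linear_combination h

/-- `Sp_4 ⊆ SL_4` -/
def s4 (F : Type*) [Field F] : Matrix.symplecticGroup (Fin 2) F →* Matrix.SpecialLinearGroup (Fin 4) F where
  toFun g := ⟨(g : Matrix (Fin 2 ⊕ Fin 2) (Fin 2 ⊕ Fin 2) F).submatrix e4 e4, sub_det g⟩
  map_one' := by
    apply Subtype.ext
    exact Matrix.submatrix_one_equiv e4
  map_mul' := by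
    intro g h
    apply Subtype.ext
    exact (Matrix.submatrix_mul_equiv _ _ _ _ _).symm

theorem s4_inj : Function.Injective (s4 F) := by
  intro g h hgh
  apply Subtype.ext
  have h1 : (g : Matrix (Fin 2 ⊕ Fin 2) (Fin 2 ⊕ Fin 2) F).submatrix e4 e4 = (h : Matrix (Fin 2 ⊕ Fin 2) (Fin 2 ⊕ Fin 2) F).submatrix e4 e4 := congrArg Subtype.val hgh
  apply Matrix.ext
  intro i j
  have h2 := congrFun (congrFun h1 (e4.symm i)) (e4.symm j)
  rwa [Matrix.submatrix_apply, Matrix.submatrix_apply, Equiv.apply_symm_apply, Equiv.apply_symm_apply] at h2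

/-- acting on the six-space -/
noncomputable def σ (F : Type*) [Field F] : Matrix.symplecticGroup (Fin 2) F →* ↥(O (qPlus 3 F)) := (ψ F).comp (s4 F)

theorem σ_vJ (g : Matrix.symplecticGroup (Fin 2) F) : (σ F g).1 (vJ F) = vJ F := by
  show (ψ F (s4 F g)).1 (vJ F) = vJ F
  rw [ψ_apply]
  exact (congrArg C (sub_J g)).trans (C_X _)

theorem σ_perp (g : Matrix.symplecticGroup (Fin 2) F) (w : Unit ⊕ (Fin 2 ⊕ Fin 2) → F) :
    (σ F g).1 (j5 w) (.inl 1) = (σ F g).1 (j5 w) (.inr 1) := by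
  have h1 := (σ F g).2 (j5 w + vJ F)
  have h2 := (σ F g).2 (j5 w)
  rw [map_add, σ_vJ, qPlus_apply, qPlus_apply, quad_vJ, quad_vJ] at h1
  rw [qPlus_apply, qPlus_apply] at h2
  rw [h2, j5_perp, sub_self] at h1
  linear_combination h1

/-- the linear action on the five-space -/
noncomputable def σ0 (F : Type*) [Field F] : Matrix.symplecticGroup (Fin 2) F →* ((Unit ⊕ (Fin 2 ⊕ Fin 2) → F) →ₗ[F] (Unit ⊕ (Fin 2 ⊕ Fin 2) → F)) where
  toFun g :=
    { toFun := fun w => p5 ((σ F g).1 (j5 w))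
      map_add' := by intro u v; rw [j5_add, map_add, p5_add]
      map_smul' := by intro c v; rw [j5_smul, map_smul, p5_smul, RingHom.id_apply] }
  map_one' := by
    apply LinearMap.ext
    intro w
    show p5 ((σ F 1).1 (j5 w)) = w
    rw [map_one]
    exact p5_j5 w
  map_mul' := by
    intro g h
    apply LinearMap.ext
    intro w
    show p5 ((σ F (g * h)).1 (j5 w)) = p5 ((σ F g).1 (j5 (p5 ((σ F h).1 (j5 w)))))
    rw [j5_p5 (σ_perp h w), map_mul]
    rfl

noncomputable def σ1 (F : Type*) [Field F] : Matrix.symplecticGroup (Fin 2) F →* ((Unit ⊕ (Fin 2 ⊕ Fin 2) → F) ≃ₗ[F] (Unit ⊕ (Fin 2 ⊕ Fin 2) → F)) :=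
  (LinearMap.GeneralLinearGroup.generalLinearEquiv F (Unit ⊕ (Fin 2 ⊕ Fin 2) → F)).toMonoidHom.comp (MonoidHom.toHomUnits (σ0 F))

theorem σ1_mem (g : Matrix.symplecticGroup (Fin 2) F) : σ1 F g ∈ O (qOdd 2 F) := by
  intro w
  show qOdd 2 F (p5 ((σ F g).1 (j5 w))) = qOdd 2 F w
  rw [qOdd_apply, qOdd_apply, ← j5_Q, ← j5_Q, j5_p5 (σ_perp g w), ← qPlus_apply, ← qPlus_apply]
  exact (σ F g).2 (j5 w)

noncomputable def σ5 (F : Type*) [Field F] : Matrix.symplecticGroup (Fin 2) F →* ↥(O (qOdd 2 F)) := (σ1 F).codRestrict _ σ1_mem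

theorem σ5_apply (g : Matrix.symplecticGroup (Fin 2) F) (w : Unit ⊕ (Fin 2 ⊕ Fin 2) → F) : (σ5 F g).1 w = p5 ((σ F g).1 (j5 w)) := rfl

theorem σ5_ker (h2 : (2 : F) ≠ 0) {g : Matrix.symplecticGroup (Fin 2) F} (hg : σ5 F g = 1) :
    ∃ c : F, c ^ 2 = 1 ∧ (s4 F g : Matrix (Fin 4) (Fin 4) F) = c • (1 : Matrix (Fin 4) (Fin 4) F) := by
  have h1 : ∀ w, (σ F g).1 (j5 w) = j5 w := by
    intro w
    have h3 : p5 ((σ F g).1 (j5 w)) = w := congrArg (fun z : ↥(O (qOdd 2 F)) => z.1 w) hg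
    have h4 := congrArg j5 h3
    rwa [j5_p5 (σ_perp g w)] at h4
  have h3 : σ F g = 1 := by
    apply Subtype.ext
    apply LinearEquiv.ext
    intro v
    show (σ F g).1 v = v
    set a : F := (v (.inr 1) - v (.inl 1)) / 2 with ha
    have hv : v = j5 (p5 (v - a • vJ F)) + a • vJ F := by
      rw [j5_p5, sub_add_cancel]
      show v (.inl 1) - a * (-1) = v (.inr 1) - a * 1
      rw [ha]
      field_simp
      ring
    rw [hv, map_add, map_smul, h1, σ_vJ]
  exact ker_sq (F := F) (g := s4 F g) (MonoidHom.mem_ker.mpr h3)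

theorem s0301 {F : Type*} [Field F] [Fintype F] (hodd : Odd (Fintype.card F)) : Nonempty (Cfsg.POmega F (Cfsg.quadFormOdd 2 F) ≃* Cfsg.PSp 2 F) := by
  classical
  have h2 : (2 : F) ≠ 0 := by
    intro h
    haveI : CharP F 2 := CharTwo.of_one_ne_zero_of_two_eq_zero one_ne_zero h
    have h3 := FiniteField.even_card_of_char_two (F := F) (ringChar.eq F 2 |>.symm ▸ rfl)
    have := Nat.odd_iff.mp hodd
    omega
  have hq : 3 ≤ Fintype.card F := by
    have := Fintype.one_lt_card (α := F)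
    have := Nat.odd_iff.mp hodd
    omega
  have hperf : commutator (Matrix.symplecticGroup (Fin 2) F) = ⊤ := Symp.perfect_finite 2 (Or.inr (Or.inl ⟨rfl, hq⟩))
  have hsimp : IsSimpleGroup (Cfsg.PSp 2 F) := Symp.isSimpleGroup_PSp (by norm_num) hperf
  have hnd : ND (qOdd 2 F) := nd_odd h2
  have hfr : Module.finrank F (Unit ⊕ (Fin 2 ⊕ Fin 2) → F) = 5 := by
    rw [Module.finrank_fintype_fun_eq_card, Fintype.card_sum, Fintype.card_sum, Fintype.card_fin, Fintype.card_unit]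
  have hidx : (commutator ↥(O (qOdd 2 F))).index = 4 := index_commutator_odd hnd h2 (by omega)
  have hSp := Cfsg.Agent.S0245.result (F := F) rfl 2
  have hcard : Nat.card ↥(O (qOdd 2 F)) = 2 * Nat.card (Matrix.symplecticGroup (Fin 2) F) := by
    rw [← card_isometry, coe_qOdd, Cfsg.Agent.S0286.result (F := F) rfl hodd 2, hSp]
    ring
  have hmul : Nat.card ↥(O (qOdd 2 F)) = (commutator ↥(O (qOdd 2 F))).index * Nat.card ↥(commutator ↥(O (qOdd 2 F))) :=
    (Subgroup.index_mul_card _).symm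
  rw [hcard, hidx] at hmul
  have hbig : 4 ≤ Nat.card (Matrix.symplecticGroup (Fin 2) F) := by
    rw [hSp, Finset.prod_range_succ, Finset.prod_range_one]
    have h3 : 3 ^ 2 ^ 2 ≤ Fintype.card F ^ 2 ^ 2 := Nat.pow_le_pow_left hq _
    have h4 : 1 ≤ Fintype.card F ^ (2 * (0 + 1)) - 1 := by
      have : 3 ^ (2 * (0 + 1)) ≤ Fintype.card F ^ (2 * (0 + 1)) := Nat.pow_le_pow_left hq _
      omega
    have h5 : 1 ≤ Fintype.card F ^ (2 * (1 + 1)) - 1 := by
      have : 3 ^ (2 * (1 + 1)) ≤ Fintype.card F ^ (2 * (1 + 1)) := Nat.pow_le_pow_left hq _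
      omega
    have h6 := Nat.mul_le_mul h3 (Nat.mul_le_mul h4 h5)
    exact le_trans (by norm_num) h6
  haveI : Finite ↥(O (qOdd 2 F)) := by
    apply Nat.finite_of_card_ne_zero
    rw [hcard]
    omega
  let φ : Matrix.symplecticGroup (Fin 2) F →* ↥(commutator ↥(O (qOdd 2 F))) := (σ5 F).codRestrict _ (fun g => by
    have h1 : g ∈ commutator (Matrix.symplecticGroup (Fin 2) F) := by rw [hperf]; trivial
    have h3 : (commutator (Matrix.symplecticGroup (Fin 2) F)).map (σ5 F) ≤ commutator ↥(O (qOdd 2 F)) := by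
      rw [commutator_def, commutator_def, Subgroup.map_commutator]
      exact Subgroup.commutator_mono le_top le_top
    exact h3 (Subgroup.mem_map_of_mem _ h1))
  have hker : Nat.card φ.ker ≤ 2 := by
    have hk : ∀ g : φ.ker, ∃ c : F, c ^ 2 = 1 ∧ (s4 F g.1 : Matrix (Fin 4) (Fin 4) F) = c • (1 : Matrix (Fin 4) (Fin 4) F) := fun g =>
      σ5_ker h2 (congrArg Subtype.val (MonoidHom.mem_ker.mp g.2))
    choose c hc1 hc2 using hk
    have hinj : Function.Injective c := by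
      intro g h hgh
      apply Subtype.ext
      apply s4_inj
      apply Subtype.ext
      rw [hc2 g, hc2 h, hgh]
    have hcases : ∀ g, c g = 1 ∨ c g = -1 := fun g => by
      have := hc1 g
      rw [pow_two] at this
      exact mul_self_eq_one_iff.mp this
    let f : φ.ker → ({1, -1} : Finset F) := fun g => ⟨c g, by
      rcases hcases g with h | h
      · rw [h]; simp
      · rw [h]; simp⟩
    have hf : Function.Injective f := fun g h hgh => hinj (congrArg Subtype.val hgh)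
    have h1 := Nat.card_le_card_of_injective f hf
    have h3 : Nat.card ({1, -1} : Finset F) = ({1, -1} : Finset F).card := Nat.card_eq_card_toFinset _ |>.trans (by simp)
    rw [h3] at h1
    exact h1.trans Finset.card_le_two
  have hsurj : Function.Surjective φ := Ql.surj_of_card φ hker (by omega)
  have hnt : Nontrivial ↥(commutator ↥(O (qOdd 2 F))) := by
    haveI : Finite ↥(commutator ↥(O (qOdd 2 F))) := inferInstance
    exact (Finite.one_lt_card_iff_nontrivial).mp (by omega)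
  obtain ⟨e⟩ := Ql.quot_iso hperf hsimp φ hsurj hnt
  rw [← coe_qOdd]
  exact ⟨(isoPOmega (qOdd 2 F)).trans e⟩

end Cfsg.Agent.Lib.Kl
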