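import Mathlib
import Cfsg.Agent.Lib.Tor13
import Cfsg.Agent.Lib.GLSL

/-! Small isomorphisms. -/

set_option linter.all false
set_option maxHeartbeats 400000

namespace Cfsg.Agent.Lib.Sm

open Matrix Module Cfsg Cfsg.Agent.Lib.Tor
open scoped MatrixGroups Nat LinearAlgebra.Projectivization

theorem alt_of_hom {G : Type*} [Group G] [Finite G] {n : ℕ} (hn : 2 ≤ n) {α : Type*} [Finite α] (hα : Nat.card α = n) (f : G →* Equiv.Perm α)
    (hf : Function.Injective f) (hc : 2 * Nat.card G = n !) : Nonempty (G ≃* alternatingGroup (Fin n)) := by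
  classical
  have e : α ≃ Fin n := Finite.equivFinOfCardEq hα
  let f' : G →* Equiv.Perm (Fin n) := (e.permCongrHom.toMonoidHom).comp f
  have hf' : Function.Injective f' := e.permCongrHom.injective.comp hf
  have hidx : f'.range.index = 2 := by
    have h1 := f'.range.card_mul_index
    rw [← Nat.card_congr (MonoidHom.ofInjective hf').toEquiv, Nat.card_eq_fintype_card (α := Equiv.Perm (Fin n)), Fintype.card_perm, Fintype.card_fin, ← hc,
      mul_comm] at h1
    exact Nat.eq_of_mul_eq_mul_right Nat.card_pos h1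
  haveI : Nontrivial (Fin n) := Fin.nontrivial_iff_two_le.mpr hn
  have h2 := Equiv.Perm.eq_alternatingGroup_of_index_eq_two hidx
  exact ⟨(MonoidHom.ofInjective hf').trans (MulEquiv.subgroupCongr h2)⟩

theorem perm_of_hom {G : Type*} [Group G] [Finite G] {n : ℕ} {α : Type*} [Finite α] (hα : Nat.card α = n) (f : G →* Equiv.Perm α)
    (hf : Function.Injective f) (hc : Nat.card G = n !) : Nonempty (G ≃* Equiv.Perm (Fin n)) := by
  classical
  have e : α ≃ Fin n := Finite.equivFinOfCardEq hα
  let f' : G →* Equiv.Perm (Fin n) := (e.permCongrHom.toMonoidHom).comp f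
  have hf' : Function.Injective f' := e.permCongrHom.injective.comp hf
  have hb : Function.Bijective f' := by
    rw [Nat.bijective_iff_injective_and_card]
    refine ⟨hf', ?_⟩
    rw [hc, Nat.card_eq_fintype_card, Fintype.card_perm, Fintype.card_fin]
  exact ⟨MulEquiv.ofBijective f' hb⟩

variable {F : Type*} [Field F] [Fintype F]

theorem card_proj : Nat.card (ℙ F (Fin 2 → F)) = Fintype.card F + 1 := by
  rw [Projectivization.card_of_finrank_two F (Fin 2 → F) (by simp), Nat.card_eq_fintype_card]

theorem toPerm_PSL_inj : Function.Injective (MulAction.toPermHom (Matrix.ProjectiveSpecialLinearGroup (Fin 2) F) (ℙ F (Fin 2 → F))) :=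
  MulAction.toPerm_injective

theorem card_PSL2 : Nat.gcd 2 (Fintype.card F - 1) * Nat.card (Matrix.ProjectiveSpecialLinearGroup (Fin 2) F) =
    (Fintype.card F - 1) * Fintype.card F * (Fintype.card F + 1) := by
  classical
  rw [GLSL.card_PSL 2 (by norm_num), SL2.card_SL2]
  ring

theorem psl_three (h : Fintype.card F = 3) : Nonempty (Matrix.ProjectiveSpecialLinearGroup (Fin 2) F ≃* alternatingGroup (Fin 4)) := by
  have h1 := card_PSL2 (F := F)
  rw [h] at h1
  have h2 := card_proj (F := F)
  rw [h] at h2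
  haveI : Finite (ℙ F (Fin 2 → F)) := Nat.finite_of_card_ne_zero (by rw [h2]; norm_num)
  refine alt_of_hom (by norm_num) h2 _ toPerm_PSL_inj ?_
  have : Nat.gcd 2 (3 - 1) = 2 := by norm_num
  rw [this] at h1
  rw [h1]
  norm_num [Nat.factorial]

theorem psl_four (h : Fintype.card F = 4) : Nonempty (Matrix.ProjectiveSpecialLinearGroup (Fin 2) F ≃* alternatingGroup (Fin 5)) := by
  have h1 := card_PSL2 (F := F)
  rw [h] at h1
  have h2 := card_proj (F := F)
  rw [h] at h2
  haveI : Finite (ℙ F (Fin 2 → F)) := Nat.finite_of_card_ne_zero (by rw [h2]; norm_num)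
  refine alt_of_hom (by norm_num) h2 _ toPerm_PSL_inj ?_
  have : Nat.gcd 2 (4 - 1) = 1 := by norm_num
  rw [this, one_mul] at h1
  rw [h1]
  norm_num [Nat.factorial]

theorem sl_two (h : Fintype.card F = 2) : Nonempty (SL(2, F) ≃* Equiv.Perm (Fin 3)) := by
  classical
  have h1 := SL2.card_SL2 (F := F)
  rw [h] at h1
  have h2 := card_proj (F := F)
  rw [h] at h2
  haveI : Finite (ℙ F (Fin 2 → F)) := Nat.finite_of_card_ne_zero (by rw [h2]; norm_num)
  haveI : CharP F 2 := by
    haveI := ringChar.charP F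
    obtain ⟨p, hp⟩ := CharP.exists F
    haveI := hp
    haveI : Fact p.Prime := ⟨CharP.char_is_prime F p⟩
    obtain ⟨n, hn, hcard⟩ := FiniteField.card F p
    rw [h] at hcard
    have := (Nat.prime_dvd_prime_iff_eq hn Nat.prime_two).mp (hcard ▸ dvd_pow_self p n.ne_zero)
    subst this
    exact hp
  have hinj : Function.Injective (mk F) := by
    intro a b h
    rcases mk_eq_iff.mp h with h | h
    · exact h.symm
    · rw [h]
      apply Subtype.ext
      rw [Matrix.SpecialLinearGroup.coe_neg]
      ext i j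
      rw [Matrix.neg_apply, CharTwo.neg_eq]
  refine perm_of_hom h2 ((MulAction.toPermHom (Matrix.ProjectiveSpecialLinearGroup (Fin 2) F) (ℙ F (Fin 2 → F))).comp (mk F)) (toPerm_PSL_inj.comp hinj) ?_
  rw [h1]
  norm_num [Nat.factorial]

end Cfsg.Agent.Lib.Sm
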