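import Mathlib
import Cfsg.Agent.Lib.Kl4
import Cfsg.Agent.Lib.Sm1

/-! `O_4^+(2)`. -/

set_option linter.all false
set_option maxHeartbeats 1000000

namespace Cfsg.Agent.Lib.Kl

open Matrix QuadraticMap Cfsg.Agent.Lib.Orth
open scoped MatrixGroups

variable {F : Type*} [Field F]

/-- transposition -/
def tau0 (F : Type*) [Field F] : (Fin 2 ⊕ Fin 2 → F) →ₗ[F] (Fin 2 ⊕ Fin 2 → F) where
  toFun v := C4 (X4 v)ᵀ
  map_add' := by intro u v; rw [X4_add, Matrix.transpose_add, C4_add]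
  map_smul' := by intro c v; rw [X4_smul, Matrix.transpose_smul, C4_smul, RingHom.id_apply]

theorem tau0_tau0 (v : Fin 2 ⊕ Fin 2 → F) : tau0 F (tau0 F v) = v := by
  show C4 (X4 (C4 (X4 v)ᵀ))ᵀ = v
  rw [X4_C4, Matrix.transpose_transpose, C4_X4]

def tau1 (F : Type*) [Field F] : (Fin 2 ⊕ Fin 2 → F) ≃ₗ[F] (Fin 2 ⊕ Fin 2 → F) :=
  { tau0 F with
    invFun := tau0 F
    left_inv := tau0_tau0
    right_inv := tau0_tau0 }

def tau (F : Type*) [Field F] : ↥(O (qPlus 2 F)) := ⟨tau1 F, fun v => by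
  show qPlus 2 F (C4 (X4 v)ᵀ) = qPlus 2 F v
  rw [qPlus_apply, qPlus_apply, ← X4_det, ← X4_det, X4_C4, Matrix.det_transpose]⟩

theorem tau_mul_self : tau F * tau F = 1 := by
  apply Subtype.ext
  apply LinearEquiv.ext
  intro v
  exact tau0_tau0 v

theorem tau_conj (g h : SL(2, F)) : tau F * β F (g, h) * (tau F)⁻¹ = β F (h, g) := by
  rw [mul_inv_eq_iff_eq_mul]
  apply Subtype.ext
  apply LinearEquiv.ext
  intro v
  show C4 (X4 (C4 ((g : Matrix (Fin 2) (Fin 2) F) * X4 v * (h : Matrix (Fin 2) (Fin 2) F)ᵀ)))ᵀ = C4 ((h : Matrix (Fin 2) (Fin 2) F) * X4 (C4 (X4 v)ᵀ) * (g : Matrix (Fin 2) (Fin 2) F)ᵀ)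
  rw [X4_C4, X4_C4, Matrix.transpose_mul, Matrix.transpose_mul, Matrix.transpose_transpose, mul_assoc]

theorem β_inj (h2 : (2 : F) = 0) : Function.Injective (β F) := by
  rw [← MonoidHom.ker_eq_bot_iff, Subgroup.eq_bot_iff_forall]
  intro g hg
  obtain ⟨c, hc, h1, h3⟩ := β_ker (MonoidHom.mem_ker.mp hg)
  have hc1 : c = 1 := by
    have h4 : (c - 1) ^ 2 = 0 := by linear_combination hc + (1 - c) * h2
    exact sub_eq_zero.mp (pow_eq_zero_iff (two_ne_zero) |>.mp h4)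
  rw [hc1, one_smul] at h1 h3
  exact Prod.ext (Subtype.ext h1) (Subtype.ext h3)

theorem s2566_aux {F : Type*} [Field F] [Fintype F] (hF : Fintype.card F = 2) :
    Nat.card ↥(Cfsg.isometryGroup F (Cfsg.quadFormPlus 2 F)) = 72 ∧
    ∃ (A B : Subgroup ↥(Cfsg.isometryGroup F (Cfsg.quadFormPlus 2 F))),
      Nonempty (↥A ≃* Equiv.Perm (Fin 3)) ∧ Nonempty (↥B ≃* Equiv.Perm (Fin 3)) ∧ A ⊓ B = ⊥ ∧ (∀ a ∈ A, ∀ b ∈ B, a * b = b * a) ∧
      (A ⊔ B).index = 2 ∧ ∃ g : ↥(Cfsg.isometryGroup F (Cfsg.quadFormPlus 2 F)), A.map (MulAut.conj g).toMonoidHom = B := by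
  classical
  have hcard : Nat.card ↥(Cfsg.isometryGroup F (Cfsg.quadFormPlus 2 F)) = 72 := by
    rw [Cfsg.Agent.S0287.result (F := F) rfl 2 (by norm_num), hF]
    simp [Finset.prod_range_succ]
  refine ⟨hcard, ?_⟩
  rw [← coe_qPlus] at hcard ⊢
  haveI := Cox.charTwo_of_card hF
  have h2 : (2 : F) = 0 := CharTwo.two_eq_zero
  obtain ⟨s⟩ := Cfsg.Agent.Lib.Sm.sl_two hF
  let i : ↥(Cfsg.isometryGroup F (qPlus 2 F)) ≃* ↥(O (qPlus 2 F)) := isoO (qPlus 2 F)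
  let φ : SL(2, F) × SL(2, F) →* ↥(Cfsg.isometryGroup F (qPlus 2 F)) := i.symm.toMonoidHom.comp (β F)
  have hφ : Function.Injective φ := i.symm.injective.comp (β_inj h2)
  let a : SL(2, F) →* ↥(Cfsg.isometryGroup F (qPlus 2 F)) := φ.comp (MonoidHom.inl _ _)
  let b : SL(2, F) →* ↥(Cfsg.isometryGroup F (qPlus 2 F)) := φ.comp (MonoidHom.inr _ _)
  have ha : Function.Injective a := by
    intro x y hxy
    exact (Prod.ext_iff.mp (hφ hxy)).1
  have hb : Function.Injective b := by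
    intro x y hxy
    exact (Prod.ext_iff.mp (hφ hxy)).2
  have hsup : a.range ⊔ b.range = φ.range := by
    apply le_antisymm
    · apply sup_le
      · rintro _ ⟨x, rfl⟩; exact ⟨_, rfl⟩
      · rintro _ ⟨x, rfl⟩; exact ⟨_, rfl⟩
    · rintro _ ⟨⟨x, y⟩, rfl⟩
      have : φ (x, y) = a x * b y := by
        show φ (x, y) = φ (x, 1) * φ (1, y)
        rw [← map_mul, Prod.mk_mul_mk, mul_one, one_mul]
      rw [this]
      exact Subgroup.mul_mem_sup ⟨x, rfl⟩ ⟨y, rfl⟩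
  refine ⟨a.range, b.range, ⟨(MonoidHom.ofInjective ha).symm.trans s⟩, ⟨(MonoidHom.ofInjective hb).symm.trans s⟩, ?_, ?_, ?_, i.symm (tau F), ?_⟩
  · rw [Subgroup.eq_bot_iff_forall]
    rintro _ ⟨⟨x, rfl⟩, ⟨y, hy⟩⟩
    have h := Prod.ext_iff.mp (hφ hy)
    have h1 : (1 : SL(2, F)) = x := h.1
    rw [← h1, map_one]
  · rintro _ ⟨x, rfl⟩ _ ⟨y, rfl⟩
    show φ (x, 1) * φ (1, y) = φ (1, y) * φ (x, 1)
    rw [← map_mul, ← map_mul, Prod.mk_mul_mk, Prod.mk_mul_mk, mul_one, one_mul, mul_one, one_mul]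
  · rw [hsup]
    have h1 : Nat.card φ.range = 36 := by
      rw [← Nat.card_congr (MonoidHom.ofInjective hφ).toEquiv, Nat.card_prod, Nat.card_congr s.toEquiv, Nat.card_perm, Nat.card_eq_fintype_card (α := Fin 3), Fintype.card_fin]
      rfl
    have h3 := φ.range.card_mul_index
    rw [h1, hcard] at h3
    omega
  · apply Subgroup.ext
    intro z
    constructor
    · rintro ⟨_, ⟨x, rfl⟩, rfl⟩
      refine ⟨x, ?_⟩
      show i.symm (β F (1, x)) = i.symm (tau F) * i.symm (β F (x, 1)) * (i.symm (tau F))⁻¹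
      rw [← map_inv, ← map_mul, ← map_mul, tau_conj]
    · rintro ⟨x, rfl⟩
      refine ⟨a x, ⟨x, rfl⟩, ?_⟩
      show i.symm (tau F) * i.symm (β F (x, 1)) * (i.symm (tau F))⁻¹ = i.symm (β F (1, x))
      rw [← map_inv, ← map_mul, ← map_mul, tau_conj]

end Cfsg.Agent.Lib.Kl
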