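import Mathlib

/-! Fixed vectors of Frobenius-semilinear maps over an algebraically closed field. -/

set_option linter.all false
set_option maxHeartbeats 400000

namespace Cfsg.Agent.Lib.LangGL

open Polynomial

section PolyPart

variable {K : Type*} [Field K]

/-- the recursive polynomials -/
noncomputable def PP (q : ℕ) (a : ℕ → K) : ℕ → K[X]
  | 0 => C (a 0) * X ^ q
  | (i + 1) => (PP q a i) ^ q + C (a (i + 1)) * X ^ q

theorem PP_dvd (q : ℕ) (hq : 2 ≤ q) (a : ℕ → K) (i : ℕ) : (X : K[X]) ^ q ∣ PP q a i := by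
  induction i with
  | zero => exact dvd_mul_left _ _
  | succ i ih =>
    apply dvd_add
    · exact ih.trans (dvd_pow_self _ (by omega))
    · exact dvd_mul_left _ _

theorem PP_ne (q : ℕ) (hq : 2 ≤ q) (a : ℕ → K) (i : ℕ) (h : ∃ j ≤ i, a j ≠ 0) : PP q a i ≠ 0 := by
  induction i with
  | zero =>
    obtain ⟨j, hj, haj⟩ := h
    have : j = 0 := by omega
    subst this
    exact mul_ne_zero (C_ne_zero.mpr haj) (pow_ne_zero _ X_ne_zero)
  | succ i ih =>
    intro h0
    have h1 : (PP q a i) ^ q = -(C (a (i + 1)) * X ^ q) := eq_neg_of_add_eq_zero_left h0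
    have h2 : (X : K[X]) ^ (q + 1) ∣ (PP q a i) ^ q := by
      have h3 : (X : K[X]) ^ (q * q) ∣ (PP q a i) ^ q := by
        rw [pow_mul]
        exact pow_dvd_pow_of_dvd (PP_dvd q hq a i) q
      exact (pow_dvd_pow X (by nlinarith)).trans h3
    have h4 : a (i + 1) = 0 := by
      rw [h1, dvd_neg] at h2
      have h5 := (X_pow_dvd_iff.mp h2) q (Nat.lt_succ_self q)
      rw [coeff_C_mul, coeff_X_pow, if_pos rfl, mul_one] at h5
      exact h5
    rw [h4, C_0, zero_mul, neg_zero] at h1
    have h6 : PP q a i = 0 := pow_eq_zero_iff (by omega) |>.mp h1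
    obtain ⟨j, hj, haj⟩ := h
    have hji : j ≤ i := by
      by_contra hc
      have : j = i + 1 := by omega
      rw [this] at haj
      exact haj h4
    exact ih ⟨j, hji, haj⟩ h6

theorem exists_root [IsAlgClosed K] (q : ℕ) (hq : 2 ≤ q) (a : ℕ → K) (i : ℕ) (h : ∃ j ≤ i, a j ≠ 0) :
    ∃ t : K, t ≠ 0 ∧ (PP q a i).eval t = t := by
  obtain ⟨Q, hQ⟩ := (pow_dvd_pow X hq).trans (PP_dvd q hq a i)
  have hP := PP_ne q hq a i h
  have hQ0 : Q ≠ 0 := by
    rintro rfl
    rw [mul_zero] at hQ
    exact hP hQ
  have hdeg : (X * Q - 1 : K[X]).degree ≠ 0 := by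
    have h1 : (X * Q - 1 : K[X]).degree = (X * Q).degree := by
      apply degree_sub_eq_left_of_degree_lt
      rw [degree_one, degree_mul, degree_X, degree_eq_natDegree hQ0]
      exact_mod_cast (by omega : 0 < 1 + Q.natDegree)
    rw [h1, degree_mul, degree_X, degree_eq_natDegree hQ0]
    exact_mod_cast (by omega : 1 + Q.natDegree ≠ 0)
  obtain ⟨t, ht⟩ := IsAlgClosed.exists_root _ hdeg
  have h2 : t * Q.eval t = 1 := by
    have : (X * Q - 1 : K[X]).eval t = 0 := ht
    rw [eval_sub, eval_mul, eval_X, eval_one, sub_eq_zero] at this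
    exact this
  refine ⟨t, left_ne_zero_of_mul_eq_one h2, ?_⟩
  rw [hQ, eval_mul, eval_pow, eval_X, pow_two, mul_assoc, h2, mul_one]

end PolyPart

section Semi

variable {K : Type*} [Field K] [IsAlgClosed K] {p f : ℕ} [Fact p.Prime] [CharP K p]

theorem two_le_q (hf : 1 ≤ f) : 2 ≤ p ^ f := by
  have hp := (Fact.out : p.Prime).two_le
  calc 2 ≤ p := hp
    _ = p ^ 1 := (pow_one p).symm
    _ ≤ p ^ f := Nat.pow_le_pow_right (by omega) hf

theorem exists_fixed (hf : 1 ≤ f) {V : Type*} [AddCommGroup V] [Module K V] [FiniteDimensional K V]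
    (φ : V →+ V) (hφ : ∀ (c : K) v, φ (c • v) = c ^ (p ^ f) • φ v) (hinj : Function.Injective φ)
    {w : V} (hw : w ≠ 0) : ∃ v, v ≠ 0 ∧ φ v = v := by
  classical
  set q := p ^ f with hq
  have hq2 : 2 ≤ q := two_le_q hf
  let it : ℕ → V := fun i => (φ^[i]) w
  have hit : ∀ i, it (i + 1) = φ (it i) := fun i => Function.iterate_succ_apply' _ _ _
  have hne : ∀ i, it i ≠ 0 := by
    intro i
    induction i with
    | zero => exact hw
    | succ i ih => rw [hit]; intro h; exact ih (hinj (h.trans (map_zero φ).symm))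
  have hex : ∃ m, ¬ LinearIndependent K (fun i : Fin (m + 1) => it i) := by
    refine ⟨Module.finrank K V, fun h => ?_⟩
    have := h.fintype_card_le_finrank
    rw [Fintype.card_fin] at this
    omega
  set m := Nat.find hex with hm
  have hm1 : ¬ LinearIndependent K (fun i : Fin (m + 1) => it i) := Nat.find_spec hex
  have hm2 : LinearIndependent K (fun i : Fin m => it i) := by
    rcases Nat.eq_zero_or_pos m with h | h
    · rw [h]; exact linearIndependent_empty_type
    · have h1 := Nat.find_min hex (m := m - 1) (by omega)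
      push Not at h1
      have h2 : m - 1 + 1 = m := by omega
      rw [h2] at h1
      exact h1
  have hmem : it m ∈ Submodule.span K (Set.range (fun i : Fin m => it i)) := by
    by_contra hc
    apply hm1
    rw [linearIndependent_fin_succ']
    exact ⟨hm2, hc⟩
  obtain ⟨a', ha'⟩ := (Submodule.mem_span_range_iff_exists_fun K).mp hmem
  have hmpos : 0 < m := by
    rcases Nat.eq_zero_or_pos m with h | h
    · exfalso
      have h5 : ∀ m, m = 0 → it m ∈ Submodule.span K (Set.range (fun i : Fin m => it i)) → False := by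
        intro m h0 h1
        subst h0
        rw [Set.range_eq_empty, Submodule.span_empty, Submodule.mem_bot] at h1
        exact hne 0 h1
      exact h5 m h hmem
    · exact h
  obtain ⟨M, hM⟩ : ∃ M, m = M + 1 := ⟨m - 1, by omega⟩
  clear_value m
  subst hM
  let a : ℕ → K := fun i => if h : i < M + 1 then a' ⟨i, h⟩ else 0
  have ha : ∑ i ∈ Finset.range (M + 1), a i • it i = it (M + 1) := by
    rw [← ha', Finset.sum_range]
    apply Finset.sum_congr rfl
    intro i _
    simp only [a]
    rw [dif_pos i.2]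
  have hane : ∃ j ≤ M, a j ≠ 0 := by
    by_contra hc
    push Not at hc
    apply hne (M + 1)
    rw [← ha]
    apply Finset.sum_eq_zero
    intro i hi
    rw [hc i (by have := Finset.mem_range.mp hi; omega), zero_smul]
  obtain ⟨t, ht0, ht⟩ := exists_root q hq2 a M hane
  let c : ℕ → K := fun i => (PP q a i).eval t
  have hc0 : c 0 = a 0 * t ^ q := by
    show (C (a 0) * X ^ q).eval t = _
    rw [eval_mul, eval_C, eval_pow, eval_X]
  have hcs : ∀ i, c (i + 1) = c i ^ q + a (i + 1) * t ^ q := by
    intro i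
    show ((PP q a i) ^ q + C (a (i + 1)) * X ^ q).eval t = _
    rw [eval_add, eval_mul, eval_C, eval_pow, eval_pow, eval_X]
  have hcM : c M = t := ht
  refine ⟨∑ i ∈ Finset.range (M + 1), c i • it i, ?_, ?_⟩
  · intro h0
    rw [Finset.sum_range] at h0
    have h1 := (Fintype.linearIndependent_iff.mp hm2) (fun i => c i) h0 ⟨M, Nat.lt_succ_self M⟩
    exact ht0 (hcM.symm.trans h1)
  · have e1 : φ (∑ i ∈ Finset.range (M + 1), c i • it i) = ∑ i ∈ Finset.range (M + 1), (c i) ^ q • it (i + 1) := by
      rw [map_sum]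
      exact Finset.sum_congr rfl fun i _ => by rw [hφ, hit]
    have e2 : ∑ i ∈ Finset.range (M + 1), (c i) ^ q • it (i + 1) =
        ∑ i ∈ Finset.range M, (c i) ^ q • it (i + 1) + ∑ i ∈ Finset.range (M + 1), (a i * t ^ q) • it i := by
      rw [Finset.sum_range_succ, hcM, ← ha, Finset.smul_sum]
      congr 1
      exact Finset.sum_congr rfl fun i _ => by rw [smul_smul, mul_comm]
    rw [e1, e2, Finset.sum_range_succ' (fun i => (a i * t ^ q) • it i), Finset.sum_range_succ' (fun i => c i • it i),
      ← add_assoc, ← Finset.sum_add_distrib, hc0]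
    congr 1
    exact Finset.sum_congr rfl fun i _ => by rw [← add_smul, hcs]

theorem exists_AS (hf : 1 ≤ f) (b : K) : ∃ s : K, b + s ^ (p ^ f) = s := by
  have hq2 : 2 ≤ p ^ f := two_le_q hf
  set q := p ^ f
  have hdeg : (X ^ q + (C b - X) : K[X]).degree ≠ 0 := by
    rw [degree_add_eq_left_of_degree_lt]
    · rw [degree_X_pow]
      exact_mod_cast (by omega : q ≠ 0)
    · rw [degree_X_pow]
      apply lt_of_le_of_lt (degree_sub_le _ _)
      rw [max_lt_iff]
      constructor
      · apply lt_of_le_of_lt degree_C_le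
        exact_mod_cast (by omega : 0 < q)
      · rw [degree_X]
        exact_mod_cast (by omega : 1 < q)
  obtain ⟨s, hs⟩ := IsAlgClosed.exists_root _ hdeg
  refine ⟨s, ?_⟩
  have : (X ^ q + (C b - X) : K[X]).eval s = 0 := hs
  rw [eval_add, eval_pow, eval_X, eval_sub, eval_C, eval_X] at this
  linear_combination this

theorem exists_root_q (hf : 1 ≤ f) (c : K) : ∃ d : K, d ^ (p ^ f) = c :=
  IsAlgClosed.exists_pow_nat_eq c (by have := two_le_q (p := p) hf; omega)

theorem exists_basis (hf : 1 ≤ f) (n : ℕ) : ∀ {V : Type*} [AddCommGroup V] [Module K V] [FiniteDimensional K V],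
    Module.finrank K V = n → ∀ (φ : V →+ V), (∀ (c : K) v, φ (c • v) = c ^ (p ^ f) • φ v) →
    Function.Injective φ → ∃ b : Fin n → V, LinearIndependent K b ∧ ∀ i, φ (b i) = b i := by
  induction n with
  | zero =>
    intro V _ _ _ hn φ hφ hinj
    exact ⟨fun i => i.elim0, linearIndependent_empty_type, fun i => i.elim0⟩
  | succ n ih =>
    intro V _ _ _ hn φ hφ hinj
    haveI : Nontrivial V := Module.nontrivial_of_finrank_pos (R := K) (by omega)
    obtain ⟨w, hw⟩ := exists_ne (0 : V)
    obtain ⟨v, hv0, hv⟩ := exists_fixed hf φ hφ hinj hw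
    let L : Submodule K V := Submodule.span K {v}
    have hL : Module.finrank K L = 1 := finrank_span_singleton hv0
    have hLφ : ∀ x ∈ L, φ x ∈ L := by
      intro x hx
      obtain ⟨c, rfl⟩ := Submodule.mem_span_singleton.mp hx
      rw [hφ, hv]
      exact Submodule.mem_span_singleton.mpr ⟨_, rfl⟩
    let ψ : (V ⧸ L) →+ (V ⧸ L) := QuotientAddGroup.map L.toAddSubgroup L.toAddSubgroup φ hLφ
    have hψ : ∀ x : V, ψ (Submodule.Quotient.mk x) = Submodule.Quotient.mk (φ x) := fun x => rfl
    have hψs : ∀ (c : K) y, ψ (c • y) = c ^ (p ^ f) • ψ y := by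
      intro c y
      obtain ⟨x, rfl⟩ := Submodule.Quotient.mk_surjective _ y
      rw [← Submodule.Quotient.mk_smul, hψ, hψ, hφ, Submodule.Quotient.mk_smul]
    have hψi : Function.Injective ψ := by
      rw [injective_iff_map_eq_zero]
      intro y hy
      obtain ⟨x, rfl⟩ := Submodule.Quotient.mk_surjective _ y
      rw [hψ, Submodule.Quotient.mk_eq_zero] at hy
      obtain ⟨c, hc⟩ := Submodule.mem_span_singleton.mp hy
      obtain ⟨d, hd⟩ := exists_root_q (p := p) hf c
      rw [Submodule.Quotient.mk_eq_zero]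
      apply Submodule.mem_span_singleton.mpr
      refine ⟨d, ?_⟩
      apply hinj
      rw [hφ, hd, hv, hc]
    have hfr : Module.finrank K (V ⧸ L) = n := by
      have := Submodule.finrank_quotient_add_finrank L
      omega
    obtain ⟨b, hb1, hb2⟩ := ih hfr ψ hψs hψi
    have hlift : ∀ i, ∃ u : V, Submodule.Quotient.mk u = b i ∧ φ u = u := by
      intro i
      obtain ⟨u, hu⟩ := Submodule.Quotient.mk_surjective _ (b i)
      have h1 := hb2 i
      rw [← hu, hψ, Submodule.Quotient.eq] at h1
      obtain ⟨c, hc⟩ := Submodule.mem_span_singleton.mp h1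
      obtain ⟨s, hs⟩ := exists_AS (p := p) hf c
      refine ⟨u + s • v, ?_, ?_⟩
      · rw [← hu, Submodule.Quotient.eq, add_sub_cancel_left]
        exact Submodule.smul_mem _ _ (Submodule.mem_span_singleton_self v)
      · rw [map_add, hφ, hv]
        have h2 : φ u = u + c • v := by rw [hc]; abel
        rw [h2, add_assoc, ← add_smul, hs]
    choose u hu1 hu2 using hlift
    refine ⟨Fin.cons v u, ?_, ?_⟩
    · rw [linearIndependent_finCons]
      constructor
      · apply LinearIndependent.of_comp L.mkQ
        have : L.mkQ ∘ u = b := by funext i; exact hu1 i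
        rw [this]
        exact hb1
      · intro hmem
        obtain ⟨c, hc⟩ := (Submodule.mem_span_range_iff_exists_fun K).mp hmem
        have h3 := congrArg L.mkQ hc
        rw [map_sum] at h3
        have h4 : ∑ i, c i • b i = 0 := by
          have h5 : L.mkQ v = 0 := by
            rw [Submodule.mkQ_apply, Submodule.Quotient.mk_eq_zero]
            exact Submodule.mem_span_singleton_self v
          rw [h5] at h3
          rw [← h3]
          apply Finset.sum_congr rfl
          intro i _
          rw [map_smul, Submodule.mkQ_apply, hu1]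
        have h6 := Fintype.linearIndependent_iff.mp hb1 c h4
        apply hv0
        rw [← hc]
        apply Finset.sum_eq_zero
        intro i _
        rw [h6, zero_smul]
    · intro i
      refine Fin.cases ?_ (fun j => ?_) i
      · exact hv
      · exact hu2 j

end Semi

end Cfsg.Agent.Lib.LangGL
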