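import Cfsg.Agent.Lib.LargeExB

/-!
# Large extraspecial subgroups: the amalgam `⟨Q, Q^g⟩`
-/

universe u v w

open Subgroup
open scoped commutatorElement Pointwise

namespace Cfsg.Agent.Lib.LargeEx

open Cfsg.Agent.Lib.ExSp Cfsg.Agent.Lib.ExSpC

variable {G : Type*} [Group G] {Q : Subgroup G} {z : G}

theorem exists_z [Finite G] (hE : Cfsg.IsExtraspecial 2 Q) :
    ∃ z : G, z ∈ Q ∧ orderOf z = 2 ∧ (∀ x ∈ Q, x * z = z * x) ∧ (center Q).map Q.subtype = zpowers z := by
  haveI : Fact (Nat.Prime 2) := ⟨Nat.prime_two⟩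
  obtain ⟨w, D⟩ := dat_of hE
  refine ⟨w, w.2, ?_, fun x hx => congrArg Subtype.val (D.zc ⟨x, hx⟩), ?_⟩
  · rw [← D.ord]
    exact orderOf_injective Q.subtype (subtype_injective _) w
  · rw [center_eq D, MonoidHom.map_zpowers]; rfl

theorem LE.center_map (L : LE Q z) : (center Q).map Q.subtype = zpowers z := by
  ext x
  constructor
  · rintro ⟨y, hy, rfl⟩
    rw [SetLike.mem_coe, mem_center_iff] at hy
    rcases L.cen' y y.2 (fun w hw => (congrArg Subtype.val (hy ⟨w, hw⟩)).symm) with h | h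
    · show (y : G) ∈ zpowers z
      rw [h]; exact one_mem _
    · show (y : G) ∈ zpowers z
      rw [h]; exact mem_zpowers z
  · intro hx
    have h1 : z ∈ (center Q).map Q.subtype :=
      ⟨⟨z, L.zQ⟩, mem_center_iff.mpr fun y => Subtype.ext (L.zc y y.2), rfl⟩
    exact (zpowers_le.mpr h1) hx

/-- from `IsLargeExtraspecial` -/
theorem of_large [Finite G] (h : Cfsg.IsLargeExtraspecial Q) (hz : (center Q).map Q.subtype = zpowers z)
    (ho : orderOf z = 2) : LE Q z := by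
  obtain ⟨h1, h2, h3, -⟩ := h
  rw [hz] at h2 h3
  have hzQ : z ∈ Q := by
    have : z ∈ (center Q).map Q.subtype := by rw [hz]; exact mem_zpowers z
    exact map_subtype_le _ this
  have hzc : ∀ x ∈ Q, x * z = z * x := by
    intro x hx
    have : z ∈ (center Q).map Q.subtype := by rw [hz]; exact mem_zpowers z
    obtain ⟨y, hy, hyz⟩ := this
    have := mem_center_iff.mp hy ⟨x, hx⟩
    have h4 := congrArg Subtype.val this
    rw [← hyz]
    exact h4
  refine of_extraspecial h1 hzQ ho hzc ?_ ?_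
  · rw [h2, zpowers_le]; exact hzQ
  · intro x hx
    apply h3
    rw [mem_centralizer_singleton_iff] at hx
    rw [mem_centralizer_iff]
    intro y hy
    obtain ⟨n, rfl⟩ := mem_zpowers_iff.mp hy
    have h4 : Commute x z := hx
    exact (h4.zpow_right n).symm.eq

theorem LE.cen_eq (L : LE Q z) : centralizer (Q : Set G) = (center Q).map Q.subtype := by
  rw [L.center_map]
  apply le_antisymm
  · intro x hx
    have h1 := mem_centralizer_iff.mp hx
    rcases L.cen' x (L.cQ hx) (fun y hy => (h1 y hy).symm) with h | h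
    · rw [h]; exact one_mem _
    · rw [h]; exact mem_zpowers z
  · rw [zpowers_le, mem_centralizer_iff]
    exact fun x hx => L.zc x hx

theorem LE.cz_le (L : LE Q z) : centralizer (((center Q).map Q.subtype : Subgroup G) : Set G) ≤ normalizer (Q : Set G) := by
  rw [L.center_map]
  refine le_trans ?_ L.cz
  intro x hx
  rw [mem_centralizer_singleton_iff]
  exact (mem_centralizer_iff.mp hx z (mem_zpowers z)).symm

theorem inf_eq_bot_of_odd [Finite G] {P K : Subgroup G} (hP : IsPGroup 2 P) (hK : Odd (Nat.card K)) {x : G} (hx : x ∈ K)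
    (hxP : x ∈ P) : x = 1 := by
  haveI : Fact (Nat.Prime 2) := ⟨Nat.prime_two⟩
  have h1 : orderOf x ∣ Nat.card K := by
    have := orderOf_dvd_natCard (⟨x, hx⟩ : K)
    rwa [← orderOf_injective K.subtype (subtype_injective _)] at this
  obtain ⟨k, hk⟩ := hP ⟨x, hxP⟩
  have h2 : x ^ 2 ^ k = 1 := congrArg Subtype.val hk
  obtain ⟨j, -, hj⟩ := (Nat.dvd_prime_pow Nat.prime_two).mp (orderOf_dvd_of_pow_eq_one h2)
  rcases Nat.eq_zero_or_pos j with h | h
  · rw [h, pow_zero] at hj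
    exact orderOf_eq_one_iff.mp hj
  · exfalso
    rw [hj] at h1
    have h3 : 2 ∣ Nat.card K := (dvd_pow_self 2 h.ne').trans h1
    rw [← Nat.not_even_iff_odd] at hK
    exact hK (even_iff_two_dvd.mpr h3)

/-- `Q` normalizes no non-trivial subgroup of odd order -/
theorem odd_trivial' [Finite G] (L : LQ Q z) {a : G} (hin : a ∈ Q) (haa : a * a = 1) (ha1 : a ≠ 1) (hne : a ≠ z)
    {P : Subgroup G} (hPp : IsPGroup 2 P) (hzP : z ∈ P) (hCP : centralizer ({a} : Set G) ≤ normalizer (P : Set G))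
    {K : Subgroup G}
    (hK : Odd (Nat.card K)) (hQK : Q ≤ normalizer (K : Set G)) : K = ⊥ := by
  have hza : a * z = z * a := L.zc a hin
  obtain ⟨q, hq, hqa⟩ := L.exists_move hin haa ha1 hne
  have hzza : z * (z * a) = a := by rw [← mul_assoc, L.zz, one_mul]
  have hqK : ∀ y ∈ Q, ∀ k ∈ K, y * k * y⁻¹ ∈ K := fun y hy k hk => (mem_normalizer_iff.mp (hQK hy) k).mp hk
  have h1 : ∀ c ∈ K, c * z = z * c → c = 1 := by
    intro c hc hcz
    apply inf_eq_bot_of_odd L.pg hK hc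
    apply L.cQ
    rw [mem_centralizer_iff]
    intro y hy
    have hcN := L.cz (mem_centralizer_singleton_iff.mpr hcz)
    have h2 : c * y * c⁻¹ * y⁻¹ ∈ Q := mul_mem ((mem_normalizer_iff.mp hcN y).mp hy) (inv_mem hy)
    have h3 : c * y * c⁻¹ * y⁻¹ ∈ K := by
      have := mul_mem hc (hqK y hy c⁻¹ (inv_mem hc))
      have e : c * (y * c⁻¹ * y⁻¹) = c * y * c⁻¹ * y⁻¹ := by group
      rwa [e] at this
    have h4 := inf_eq_bot_of_odd L.pg hK h3 h2
    calc y * c = (c * y * c⁻¹ * y⁻¹)⁻¹ * (c * y) := by group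
      _ = c * y := by rw [h4]; group
  have h2 : ∀ c ∈ K, c * a = a * c → c = 1 := by
    intro c hc hca
    apply h1 c hc
    have hcN := hCP (mem_centralizer_singleton_iff.mpr hca)
    have h2 : c * z * c⁻¹ * z⁻¹ ∈ P := mul_mem ((mem_normalizer_iff.mp hcN z).mp hzP) (inv_mem hzP)
    have h3 : c * z * c⁻¹ * z⁻¹ ∈ K := by
      have := mul_mem hc (hqK z L.zQ c⁻¹ (inv_mem hc))
      have e : c * (z * c⁻¹ * z⁻¹) = c * z * c⁻¹ * z⁻¹ := by group
      rwa [e] at this
    have h4 := inf_eq_bot_of_odd hPp hK h3 h2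
    calc c * z = (c * z * c⁻¹ * z⁻¹) * (z * c) := by group
      _ = z * c := by rw [h4, one_mul]
  have h3 : ∀ c ∈ K, c * (z * a) = (z * a) * c → c = 1 := by
    intro c hc hca
    have hqza : q * (z * a) * q⁻¹ = a := by
      calc q * (z * a) * q⁻¹ = (q * z * q⁻¹) * (q * a * q⁻¹) := by group
        _ = a := by rw [L.zc q hq, mul_inv_cancel_right, hqa, hzza]
    have h4 := h2 (q * c * q⁻¹) (hqK q hq c hc) (by
      calc (q * c * q⁻¹) * a = (q * c * q⁻¹) * (q * (z * a) * q⁻¹) := by rw [hqza]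
        _ = q * (c * (z * a)) * q⁻¹ := by group
        _ = (q * (z * a) * q⁻¹) * (q * c * q⁻¹) := by rw [hca]; group
        _ = a * (q * c * q⁻¹) := by rw [hqza])
    calc c = q⁻¹ * (q * c * q⁻¹) * q := by group
      _ = 1 := by rw [h4]; group
  -- `z` inverts `K`
  have hinv : ∀ k ∈ K, z * k * z⁻¹ = k⁻¹ := by
    let f : K → K := fun k => ⟨(k : G)⁻¹ * (z * k * z⁻¹), mul_mem (inv_mem k.2) (hqK z L.zQ k k.2)⟩
    have hf : Function.Injective f := by
      intro k l hkl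
      have h4 : (k : G)⁻¹ * (z * k * z⁻¹) = (l : G)⁻¹ * (z * l * z⁻¹) := congrArg Subtype.val hkl
      have h5 : ((l : G) * (k : G)⁻¹) * z = z * ((l : G) * (k : G)⁻¹) := by
        calc ((l : G) * (k : G)⁻¹) * z = (l : G) * ((k : G)⁻¹ * (z * k * z⁻¹)) * z * (k : G)⁻¹ := by group
          _ = z * ((l : G) * (k : G)⁻¹) := by rw [h4]; group
      have h6 := h1 _ (mul_mem l.2 (inv_mem k.2)) h5
      apply Subtype.ext
      calc (k : G) = ((l : G) * (k : G)⁻¹)⁻¹ * l := by group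
        _ = l := by rw [h6]; group
    have hs := Finite.surjective_of_injective hf
    intro k hk
    obtain ⟨l, hl⟩ := hs ⟨k, hk⟩
    have h4 : (l : G)⁻¹ * (z * l * z⁻¹) = k := congrArg Subtype.val hl
    have hzi : z⁻¹ = z := inv_eq_of_mul_eq_one_left L.zz
    rw [← h4]
    calc z * ((l : G)⁻¹ * (z * l * z⁻¹)) * z⁻¹ = (z * (l : G)⁻¹ * z⁻¹) * ((z * z) * l * (z * z)⁻¹) := by group
      _ = ((l : G)⁻¹ * (z * l * z⁻¹))⁻¹ := by rw [L.zz]; group
  rw [eq_bot_iff_forall]
  intro k hk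
  have hcomm : ∀ x ∈ K, ∀ y ∈ K, x * y = y * x := by
    intro x hx y hy
    have e1 := hinv (x * y) (mul_mem hx hy)
    have e2 : z * (x * y) * z⁻¹ = (z * x * z⁻¹) * (z * y * z⁻¹) := by group
    rw [e2, hinv x hx, hinv y hy] at e1
    calc x * y = (y⁻¹ * x⁻¹)⁻¹ := by group
      _ = ((x * y)⁻¹)⁻¹ := by rw [mul_inv_rev x y]
      _ = (x⁻¹ * y⁻¹)⁻¹ := by rw [← e1]
      _ = y * x := by group
  have h4 : a * k * a⁻¹ = k⁻¹ := by
    have haK := hqK a hin k hk
    have h5 := h2 (k * (a * k * a⁻¹)) (mul_mem hk haK) (by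
      have e1 : a * (k * (a * k * a⁻¹)) * a⁻¹ = k * (a * k * a⁻¹) := by
        calc a * (k * (a * k * a⁻¹)) * a⁻¹ = (a * k * a⁻¹) * ((a * a) * k * (a * a)⁻¹) := by group
          _ = k * (a * k * a⁻¹) := by rw [haa, one_mul, inv_one, mul_one, hcomm _ haK k hk]
      rw [mul_inv_eq_iff_eq_mul] at e1
      exact e1.symm)
    exact eq_inv_of_mul_eq_one_right h5
  apply h3 k hk
  have e1 : (z * a) * k * (z * a)⁻¹ = k := by
    calc (z * a) * k * (z * a)⁻¹ = z * (a * k * a⁻¹) * z⁻¹ := by group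
      _ = (z * k * z⁻¹)⁻¹ := by rw [h4]; group
      _ = k := by rw [hinv k hk, inv_inv]
  rw [mul_inv_eq_iff_eq_mul] at e1
  exact e1.symm

/-- `Q` normalizes no non-trivial subgroup of odd order -/
theorem odd_trivial [Finite G] (L : LQ Q z) {g : G} (hin : g * z * g⁻¹ ∈ Q) (hne : g * z * g⁻¹ ≠ z) {K : Subgroup G}
    (hK : Odd (Nat.card K)) (hQK : Q ≤ normalizer (K : Set G)) : K = ⊥ :=
  odd_trivial' L hin (L.conj g).zz (L.conj g).z1 hne (L.conj g).pg (key L hin hne).1 (L.conj g).cz hK hQK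

theorem LE.large [Finite G] (L : LE Q z) (hE : Cfsg.IsExtraspecial 2 Q) {g : G} (hin : g * z * g⁻¹ ∈ Q)
    (hne : g * z * g⁻¹ ≠ z) : Cfsg.IsLargeExtraspecial Q :=
  ⟨hE, L.cen_eq, L.cz_le, fun _ hK hQK => odd_trivial L.toLQ hin hne hK hQK⟩

theorem LQ.le_norm_V (L : LQ Q z) {a : G} (haa : a * a = 1) (ha : a ∈ Q) :
    Q ≤ normalizer ((closure ({z, a} : Set G) : Subgroup G) : Set G) := by
  have hza : a * z = z * a := L.zc a ha
  have h1 : ∀ y ∈ Q, ∀ v ∈ closure ({z, a} : Set G), y * v * y⁻¹ ∈ closure ({z, a} : Set G) := by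
    intro y hy v hv
    have hz' : z ∈ closure ({z, a} : Set G) := Subgroup.subset_closure (by simp)
    have hvQ : v ∈ Q := by
      have : closure ({z, a} : Set G) ≤ Q := by
        rw [Subgroup.closure_le]
        rintro x (rfl | rfl)
        · exact L.zQ
        · exact ha
      exact this hv
    rcases L.conj_cases hvQ hy with h | h <;> rw [h]
    · exact hv
    · exact mul_mem hz' hv
  intro y hy
  rw [mem_normalizer_iff]
  intro e
  refine ⟨h1 y hy e, fun h => ?_⟩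
  have := h1 y⁻¹ (inv_mem hy) _ h
  have e' : y⁻¹ * (y * e * y⁻¹) * y⁻¹⁻¹ = e := by group
  rwa [e'] at this

/-- S5422 -/
theorem main22 [Finite G] (L : LQ Q z) {g : G} (hin : g * z * g⁻¹ ∈ Q) (hne : g * z * g⁻¹ ≠ z) :
    (centralizer ((closure ({z, g * z * g⁻¹} : Set G) : Subgroup G) : Set G)).relIndex
      (normalizer ((closure ({z, g * z * g⁻¹} : Set G) : Subgroup G) : Set G)) = 6 := by
  have L' := L.conj g
  have hza : (g * z * g⁻¹) * z = z * (g * z * g⁻¹) := L.zc _ hin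
  have h1 := s3 L hin hne
  have hzP := (key L hin hne).1
  have hX : Q ⊔ Q.map (MulAut.conj g).toMonoidHom ≤
      normalizer ((closure ({z, g * z * g⁻¹} : Set G) : Subgroup G) : Set G) := by
    apply sup_le
    · exact L.le_norm_V L'.zz hin
    · have := L'.le_norm_V L.zz hzP
      rwa [Set.pair_comm] at this
  obtain ⟨φ, hφ, hk⟩ := act L.zz L'.zz hza L.z1 L'.z1 hne _ le_rfl (fun u v hu hv huv => by
    obtain ⟨x, hx, h2⟩ := h1 u v hu hv huv
    exact ⟨x, hX hx, h2⟩)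
  rw [relIndex, ← hk, index_ker, MonoidHom.range_eq_top.mpr hφ, card_top, Nat.card_eq_fintype_card, Fintype.card_perm]
  decide

end Cfsg.Agent.Lib.LargeEx
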