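import Cfsg.Agent.Lib.LargeExD
import Cfsg.Agent.Lib.Nilp
import Cfsg.Agent.Lib.Components

/-!
# Large extraspecial subgroups: constructors and centralizers of involutions
-/

universe u v w

open Subgroup
open scoped commutatorElement Pointwise

namespace Cfsg.Agent.Lib.LargeEx

open Cfsg.Agent.Lib.ExSp Cfsg.Agent.Lib.ExSpC

variable {G : Type*} [Group G] {Q : Subgroup G} {z : G}

theorem extraspecial_of_dat {E : Type*} [Group E] [Finite E] {z : E} (hP : IsPGroup 2 E) (D : Dat 2 z)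
    (hne : ∃ x y : E, ⁅x, y⁆ ≠ 1) : Cfsg.IsExtraspecial 2 E := by
  haveI : Fact (Nat.Prime 2) := ⟨Nat.prime_two⟩
  have hzz : z * z = 1 := by rw [← pow_two, ← D.ord, pow_orderOf_eq_one]
  have hc : center E = zpowers z := center_eq D
  have h1 : commutator E = center E := by
    apply le_antisymm
    · rw [_root_.commutator_def, commutator_le, hc]
      exact fun x _ y _ => D.comm x y
    · obtain ⟨x, y, hxy⟩ := hne
      rw [hc, zpowers_le]
      rcases eq_or_of_mem_zpowers hzz (D.comm x y) with h | h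
      · exact absurd h hxy
      · rw [← h, _root_.commutator_def]
        exact commutator_mem_commutator (mem_top _) (mem_top _)
  refine ⟨⟨hP, le_antisymm ?_ ?_, h1⟩, ?_⟩
  · exact Cfsg.Agent.Lib.Nilp.frattini_le_of_elementary_quotient (p := 2) (center E) h1.le
      (fun x => by rw [hc]; exact D.pow_mem x)
  · rw [← h1]
    exact Cfsg.Agent.Lib.Nilp.commutator_le_frattini hP
  · rw [hc, Nat.card_zpowers, D.ord]

/-- `Dat` for a subgroup -/
theorem dat_of_sub {H : Subgroup G} (hz : z ∈ H) (ho : orderOf z = 2)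
    (hcomm : ∀ x ∈ H, ∀ y ∈ H, ⁅x, y⁆ = 1 ∨ ⁅x, y⁆ = z)
    (hcen : ∀ x ∈ H, (∀ y ∈ H, x * y = y * x) → x = 1 ∨ x = z) : Dat 2 (⟨z, hz⟩ : H) := by
  have hzz : z * z = 1 := by rw [← pow_two, ← ho, pow_orderOf_eq_one]
  have hz1 : z ≠ 1 := fun h => by rw [h, orderOf_one] at ho; norm_num at ho
  have hmem : ∀ x : H, ((x : G) = 1 ∨ (x : G) = z) → x ∈ zpowers (⟨z, hz⟩ : H) := by
    intro x hx
    rcases hx with h | h
    · have : x = 1 := Subtype.ext h
      rw [this]; exact one_mem _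
    · have : x = ⟨z, hz⟩ := Subtype.ext h
      rw [this]; exact mem_zpowers _
  refine ⟨?_, ?_, ?_, ?_⟩
  · rw [← ho]
    exact (orderOf_injective H.subtype (subtype_injective _) ⟨z, hz⟩).symm
  · intro x
    apply Subtype.ext
    show (x : G) * z = z * x
    rcases hcomm x x.2 z hz with h | h
    · exact commutatorElement_eq_one_iff_mul_comm.mp h
    · exfalso
      rw [commutatorElement_def] at h
      apply hz1
      have h2 : (x : G) * z * (x : G)⁻¹ = 1 := by
        calc (x : G) * z * (x : G)⁻¹ = (x * z * (x : G)⁻¹ * z⁻¹) * z := by group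
          _ = 1 := by rw [h, hzz]
      calc z = (x : G)⁻¹ * (x * z * (x : G)⁻¹) * x := by group
        _ = 1 := by rw [h2]; group
  · intro x y
    exact hmem _ (hcomm x x.2 y y.2)
  · intro x hx
    exact hmem _ (hcen x x.2 fun y hy => congrArg Subtype.val (hx ⟨y, hy⟩))

/-- constructor of extraspecial subgroups -/
theorem extraspecial_of [Finite G] {H : Subgroup G} (hP : IsPGroup 2 H) (hz : z ∈ H) (ho : orderOf z = 2)
    (hcomm : ∀ x ∈ H, ∀ y ∈ H, ⁅x, y⁆ = 1 ∨ ⁅x, y⁆ = z)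
    (hcen : ∀ x ∈ H, (∀ y ∈ H, x * y = y * x) → x = 1 ∨ x = z)
    (hne : ∃ x ∈ H, ∃ y ∈ H, x * y ≠ y * x) : Cfsg.IsExtraspecial 2 H := by
  refine extraspecial_of_dat hP (dat_of_sub hz ho hcomm hcen) ?_
  obtain ⟨x, hx, y, hy, hxy⟩ := hne
  refine ⟨⟨x, hx⟩, ⟨y, hy⟩, fun h => hxy ?_⟩
  exact congrArg Subtype.val (commutatorElement_eq_one_iff_mul_comm.mp h)

theorem equiv_extraspecial {E E' : Type*} [Group E] [Group E'] [Finite E] [Finite E'] (e : E ≃* E')
    (h : Cfsg.IsExtraspecial 2 E) : Cfsg.IsExtraspecial 2 E' := by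
  haveI : Fact (Nat.Prime 2) := ⟨Nat.prime_two⟩
  obtain ⟨z, D⟩ := dat_of h
  refine extraspecial_of_dat (h.1.1.of_equiv e) (dat_map D e) ?_
  by_contra hcon
  push Not at hcon
  have h1 : commutator E = ⊥ := by
    rw [_root_.commutator_def, commutator_eq_bot_iff_le_centralizer]
    intro x _
    rw [mem_centralizer_iff]
    intro y _
    apply e.injective
    rw [map_mul, map_mul]
    exact commutatorElement_eq_one_iff_mul_comm.mp (hcon (e y) (e x))
  have h2 := h.2
  rw [← h.1.2.2, h1, card_bot] at h2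
  norm_num at h2

/-- from a subgroup of the centralizer -/
theorem LE_of_gf [Finite G] (hz : orderOf z = 2) {C : Subgroup G} (hC : C = centralizer ({z} : Set G))
    {F : Subgroup C} (hFn : F.Normal) (hcF : centralizer (F : Set C) ≤ F) (hE : Cfsg.IsExtraspecial 2 F) :
    LE (F.map C.subtype) z ∧ Cfsg.IsExtraspecial 2 ↥(F.map C.subtype) := by
  have hzC : z ∈ C := by rw [hC, mem_centralizer_singleton_iff]
  have hcz : ∀ f : C, (f : G) * z = z * f := fun f => mem_centralizer_singleton_iff.mp (hC ▸ f.2)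
  have hzF : (⟨z, hzC⟩ : C) ∈ F := by
    apply hcF
    rw [mem_centralizer_iff]
    intro f _
    exact Subtype.ext (hcz f)
  have hE' : Cfsg.IsExtraspecial 2 ↥(F.map C.subtype) :=
    equiv_extraspecial (F.equivMapOfInjective C.subtype (subtype_injective _)) hE
  refine ⟨of_extraspecial hE' ⟨⟨z, hzC⟩, hzF, rfl⟩ hz ?_ ?_ ?_, hE'⟩
  · rintro _ ⟨f, _, rfl⟩
    exact hcz f
  · intro x hx
    have hxC : x ∈ C := by
      rw [hC, mem_centralizer_singleton_iff]
      exact (mem_centralizer_iff.mp hx z ⟨⟨z, hzC⟩, hzF, rfl⟩).symm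
    refine ⟨⟨x, hxC⟩, hcF ?_, rfl⟩
    rw [mem_centralizer_iff]
    intro f hf
    exact Subtype.ext (mem_centralizer_iff.mp hx f ⟨f, hf, rfl⟩)
  · rw [← hC]
    intro x hx
    have key : ∀ y ∈ C, ∀ q ∈ F.map C.subtype, y * q * y⁻¹ ∈ F.map C.subtype := by
      rintro y hy _ ⟨q, hq, rfl⟩
      exact ⟨⟨y, hy⟩ * q * ⟨y, hy⟩⁻¹, hFn.conj_mem q hq ⟨y, hy⟩, rfl⟩
    rw [mem_normalizer_iff]
    intro q
    refine ⟨key x hx q, fun h => ?_⟩
    have := key x⁻¹ (inv_mem hx) _ h
    have e : x⁻¹ * (x * q * x⁻¹) * x⁻¹⁻¹ = q := by group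
    rwa [e] at this

theorem LE_gf [Finite G] (hz : orderOf z = 2)
    (hE : Cfsg.IsExtraspecial 2 ↥(Cfsg.generalizedFittingSubgroup ↥(centralizer ({z} : Set G)))) :
    LE ((Cfsg.generalizedFittingSubgroup ↥(centralizer ({z} : Set G))).map (centralizer ({z} : Set G)).subtype) z ∧
      Cfsg.IsExtraspecial 2
        ↥((Cfsg.generalizedFittingSubgroup ↥(centralizer ({z} : Set G))).map (centralizer ({z} : Set G)).subtype) :=
  LE_of_gf hz rfl Cfsg.Agent.Lib.Components.generalizedFitting_normal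
    Cfsg.Agent.Lib.Components.centralizer_generalizedFitting_le hE

/-- a Sylow `2`-subgroup containing `Q` has centre `⟨z⟩` -/
theorem LE.sylow_center (L : LE Q z) {T : Subgroup G} (hQT : Q ≤ T) {x : G} (hx : x ∈ T)
    (hc : ∀ y ∈ T, x * y = y * x) : x = 1 ∨ x = z :=
  have h1 : x ∈ Q := L.cQ (mem_centralizer_iff.mpr fun y hy => (hc y (hQT hy)).symm)
  L.cen' x h1 fun y hy => hc y (hQT hy)

/-- the centre of a `2`-group containing `Q` is `⟨z⟩` -/
theorem LE.normalizer_le [Finite G] (L : LE Q z) {T : Subgroup G} (hT : IsPGroup 2 T) (hQT : Q ≤ T) :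
    T ≤ centralizer ({z} : Set G) ∧ normalizer (T : Set G) ≤ centralizer ({z} : Set G) := by
  haveI : Fact (Nat.Prime 2) := ⟨Nat.prime_two⟩
  have hTz : T ≤ centralizer ({z} : Set G) := by
    haveI : Nontrivial T := ⟨⟨z, hQT L.zQ⟩, 1, fun h => L.z1 (congrArg Subtype.val h)⟩
    have h1 := hT.center_nontrivial
    obtain ⟨x, hx⟩ := exists_ne (1 : center T)
    have hxc := mem_center_iff.mp x.2
    rcases L.sylow_center hQT x.1.2 (fun y hy => (congrArg Subtype.val (hxc ⟨y, hy⟩)).symm) with h | h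
    · exact absurd (Subtype.ext (Subtype.ext h)) hx
    · intro y hy
      rw [mem_centralizer_singleton_iff, ← h]
      exact congrArg Subtype.val (hxc ⟨y, hy⟩)
  refine ⟨hTz, fun n hn => ?_⟩
  have h1 : n * z * n⁻¹ ∈ T := (mem_normalizer_iff.mp hn z).mp (hQT L.zQ)
  have hc : ∀ y ∈ T, (n * z * n⁻¹) * y = y * (n * z * n⁻¹) := by
    intro y hy
    have h2 : n⁻¹ * y * n ∈ T := by
      have := (mem_normalizer_iff.mp (inv_mem hn) y).mp hy
      rwa [inv_inv] at this
    have h3 := mem_centralizer_singleton_iff.mp (hTz h2)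
    calc n * z * n⁻¹ * y = n * (z * (n⁻¹ * y * n)) * n⁻¹ := by group
      _ = y * (n * z * n⁻¹) := by rw [← h3]; group
  rcases L.sylow_center hQT h1 hc with h | h
  · exfalso
    apply L.z1
    calc z = n⁻¹ * (n * z * n⁻¹) * n := by group
      _ = 1 := by rw [h]; group
  · rw [mem_centralizer_singleton_iff, ← mul_inv_eq_iff_eq_mul]
    exact h

theorem LE.z_mem_of_normal [Finite G] (L : LE Q z)
    (hodd : ∀ K : Subgroup G, Odd (Nat.card K) → Q ≤ normalizer (K : Set G) → K = ⊥)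
    {N : Subgroup G} (hN : N.Normal) (hN1 : N ≠ ⊥) : z ∈ N := by
  haveI : Fact (Nat.Prime 2) := ⟨Nat.prime_two⟩
  obtain ⟨T, hT⟩ := L.pg.exists_le_sylow
  have h2 : 2 ∣ Nat.card N := by
    rw [← even_iff_two_dvd]
    by_contra h
    rw [Nat.not_even_iff_odd] at h
    exact hN1 (hodd N h (by rw [normalizer_eq_top N]; exact le_top))
  -- `N ⊓ T ≠ ⊥`
  have hNT : ∃ x : G, x ∈ N ∧ x ∈ (T : Subgroup G) ∧ x ≠ 1 := by
    obtain ⟨x, hx⟩ := exists_prime_orderOf_dvd_card' 2 h2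
    have hxp : IsPGroup 2 (zpowers (x : G)) := by
      apply IsPGroup.of_card (n := 1)
      rw [Nat.card_zpowers, pow_one, ← hx]
      exact orderOf_injective N.subtype (subtype_injective _) x
    obtain ⟨T', hT'⟩ := hxp.exists_le_sylow
    obtain ⟨g, hg⟩ := MulAction.exists_smul_eq G T' T
    have h3 : g * x * g⁻¹ ∈ (T : Subgroup G) := by
      rw [← hg]
      exact ⟨x, hT' (mem_zpowers _), rfl⟩
    refine ⟨g * x * g⁻¹, hN.conj_mem x x.2 g, h3, fun h4 => ?_⟩
    have h5 : (x : G) = 1 := by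
      calc (x : G) = g⁻¹ * (g * x * g⁻¹) * g := by group
        _ = 1 := by rw [h4]; group
    have h6 : x = 1 := Subtype.ext h5
    rw [h6, orderOf_one] at hx
    norm_num at hx
  obtain ⟨x, hxN, hxT, hx1⟩ := hNT
  haveI : Group.IsNilpotent T := T.2.isNilpotent
  haveI : (N.subgroupOf (T : Subgroup G)).Normal := inferInstance
  have h3 := Cfsg.Agent.Lib.Nilp.normal_inf_center_ne_bot (N.subgroupOf (T : Subgroup G)) (by
    intro h
    have h4 : (⟨x, hxT⟩ : T) ∈ N.subgroupOf (T : Subgroup G) := mem_subgroupOf.mpr hxN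
    rw [h, mem_bot] at h4
    exact hx1 (congrArg Subtype.val h4))
  obtain ⟨y, hy⟩ := (Subgroup.ne_bot_iff_exists_ne_one.mp h3)
  obtain ⟨hy1, hy2⟩ := mem_inf.mp y.2
  have hyc := mem_center_iff.mp hy2
  rcases L.sylow_center hT y.1.2 (fun w hw => (congrArg Subtype.val (hyc ⟨w, hw⟩)).symm) with h | h
  · exact absurd (Subtype.ext (Subtype.ext h)) hy
  · rw [← h]; exact mem_subgroupOf.mp hy1

theorem LE.simple_of [Finite G] (L : LE Q z)
    (hodd : ∀ K : Subgroup G, Odd (Nat.card K) → Q ≤ normalizer (K : Set G) → K = ⊥)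
    (hN : ∀ N : Subgroup G, N.Normal → z ∈ N → centralizer ({z} : Set G) ≤ N) : IsSimpleGroup G := by
  haveI : Fact (Nat.Prime 2) := ⟨Nat.prime_two⟩
  haveI : Nontrivial G := ⟨⟨z, 1, L.z1⟩⟩
  refine ⟨fun N hNn => ?_⟩
  by_cases hN1 : N = ⊥
  · exact Or.inl hN1
  right
  have hzN := L.z_mem_of_normal hodd hNn hN1
  have hCN := hN N hNn hzN
  obtain ⟨T, hT⟩ := L.pg.exists_le_sylow
  obtain ⟨h1, h2⟩ := L.normalizer_le T.2 hT
  have h3 := T.normalizer_sup_eq_top' (h1.trans hCN)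
  rw [eq_top_iff, ← h3]
  exact sup_le (h2.trans hCN) le_rfl

theorem closure_normal_of_conj {H : Type*} [Group H] {S : Set H} (hS : ∀ x ∈ S, ∀ g : H, g * x * g⁻¹ ∈ S) :
    (closure S).Normal := by
  refine ⟨fun n hn g => ?_⟩
  induction hn using closure_induction with
  | mem x hx => exact Subgroup.subset_closure (hS x hx g)
  | one => rw [mul_one, mul_inv_cancel]; exact one_mem _
  | mul x y _ _ hx hy =>
    have e : g * (x * y) * g⁻¹ = (g * x * g⁻¹) * (g * y * g⁻¹) := by group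
    rw [e]; exact mul_mem hx hy
  | inv x _ hx =>
    have e : g * x⁻¹ * g⁻¹ = (g * x * g⁻¹)⁻¹ := by group
    rw [e]; exact inv_mem hx

/-- S5436 -/
theorem main36 [Finite G] (hz : orderOf z = 2) {H : Subgroup G} (hH : H = centralizer ({z} : Set G))
    {Q : Subgroup H} (hQn : Q.Normal) (hcQ : centralizer (Q : Set H) ≤ Q) (hQ : Cfsg.IsExtraspecial 2 Q)
    (hnwc : ∃ g : G, (∃ hq : g * z * g⁻¹ ∈ H, (⟨g * z * g⁻¹, hq⟩ : H) ∈ Q) ∧ g * z * g⁻¹ ≠ z)
    (hsimp : IsSimpleGroup (H ⧸ Q))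
    (hirr : ∀ W : Subgroup H, W.Normal → W ≤ Q → (W = Q ∨ ∀ x ∈ W, (x : G) ∈ zpowers z))
    (hwcl : closure {x : H | IsConj z (x : G)} ≠ Q) : IsSimpleGroup G := by
  obtain ⟨L, hE⟩ := LE_of_gf hz hH hQn hcQ hQ
  obtain ⟨g, ⟨hq, hgQ⟩, hne⟩ := hnwc
  have hin : g * z * g⁻¹ ∈ Q.map H.subtype := ⟨_, hgQ, rfl⟩
  have hnz : g * z * g⁻¹ ∉ zpowers z := by
    intro h
    rcases eq_or_of_mem_zpowers L.zz h with h | h
    · exact (L.toLQ.conj g).z1 h
    · exact hne h
  refine L.simple_of (fun K hK hQK => odd_trivial L.toLQ hin hne hK hQK) fun N hN hzN => ?_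
  have haN : g * z * g⁻¹ ∈ N := hN.conj_mem z hzN g
  rw [← hH]
  have hNn : (N.subgroupOf H).Normal := inferInstance
  have hQN : Q ≤ N.subgroupOf H := by
    have hn : (N.subgroupOf H ⊓ Q).Normal := inferInstance
    rcases hirr _ hn inf_le_right with h | h
    · rw [← h]; exact inf_le_left
    · exact absurd (h ⟨g * z * g⁻¹, hq⟩ ⟨mem_subgroupOf.mpr haN, hgQ⟩) hnz
  have hn : ((N.subgroupOf H).map (QuotientGroup.mk' Q)).Normal :=
    hNn.map _ (QuotientGroup.mk'_surjective Q)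
  rcases hn.eq_bot_or_eq_top with h | h
  · exfalso
    rw [Subgroup.map_eq_bot_iff, QuotientGroup.ker_mk'] at h
    apply hwcl
    have hcl : closure {x : H | IsConj z (x : G)} ≤ Q := by
      rw [Subgroup.closure_le]
      intro x hx
      obtain ⟨c, hc⟩ := isConj_iff.mp hx
      exact h (mem_subgroupOf.mpr (by rw [← hc]; exact hN.conj_mem z hzN c))
    have hcn : (closure {x : H | IsConj z (x : G)}).Normal := by
      refine closure_normal_of_conj fun x hx y => ?_
      have h1 : IsConj (x : G) ((y * x * y⁻¹ : H) : G) := isConj_iff.mpr ⟨y, rfl⟩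
      exact IsConj.trans hx h1
    rcases hirr _ hcn hcl with h' | h'
    · exact h'
    · exfalso
      exact hnz (h' ⟨g * z * g⁻¹, hq⟩ (Subgroup.subset_closure (isConj_iff.mpr ⟨g, rfl⟩)))
  · intro x hx
    have h1 : (⟨x, hx⟩ : H) ∈ N.subgroupOf H := by
      have h2 : QuotientGroup.mk' Q ⟨x, hx⟩ ∈ (N.subgroupOf H).map (QuotientGroup.mk' Q) := by rw [h]; trivial
      rw [← Subgroup.mem_comap, Subgroup.comap_map_eq, QuotientGroup.ker_mk'] at h2
      exact (sup_le le_rfl hQN) h2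
    exact mem_subgroupOf.mp h1

end Cfsg.Agent.Lib.LargeEx
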