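import Cfsg.Agent.Lib.LargeExE

/-!
# Large extraspecial subgroups: the structure of `⟨Q, Q^g⟩` (S5430, S5431)
-/

universe u v w

open Subgroup
open scoped commutatorElement Pointwise

namespace Cfsg.Agent.Lib.LargeEx

variable {G : Type*} [Group G]

theorem le_normalizer_of_conj {K H : Subgroup G} (h : ∀ y ∈ K, ∀ q ∈ H, y * q * y⁻¹ ∈ H) :
    K ≤ normalizer (H : Set G) := by
  intro y hy
  rw [mem_normalizer_iff]
  intro q
  refine ⟨h y hy q, fun h' => ?_⟩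
  have := h y⁻¹ (inv_mem hy) _ h'
  have e : y⁻¹ * (y * q * y⁻¹) * y⁻¹⁻¹ = q := by group
  rwa [e] at this

theorem conj_mem_of_normalizer {K H : Subgroup G} (h : K ≤ normalizer (H : Set G)) {y q : G} (hy : y ∈ K) (hq : q ∈ H) :
    y * q * y⁻¹ ∈ H := (mem_normalizer_iff.mp (h hy) q).mp hq

/-- a symmetric pair of large extraspecial subgroups -/
structure Pair (Q P : Subgroup G) (z a : G) : Prop where
  LQz : LE Q z
  LPa : LE P a
  zP : z ∈ P
  aQ : a ∈ Q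
  ne : a ≠ z
  cj : ∀ h : G, h * z * h⁻¹ = a → ∀ x ∈ Q, h * x * h⁻¹ ∈ P
  cj' : ∀ h : G, h * a * h⁻¹ = z → ∀ x ∈ P, h * x * h⁻¹ ∈ Q

variable {Q P : Subgroup G} {z a : G}

namespace Pair

theorem symm (D : Pair Q P z a) : Pair P Q a z := ⟨D.LPa, D.LQz, D.aQ, D.zP, D.ne.symm, D.cj', D.cj⟩

theorem za (D : Pair Q P z a) : a * z = z * a := D.LQz.zc a D.aQ

theorem mem_V (D : Pair Q P z a) {x : G} :
    x ∈ closure ({z, a} : Set G) ↔ x = 1 ∨ x = z ∨ x = a ∨ x = z * a := mem_four D.LQz.zz D.LPa.zz D.za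

theorem zV (D : Pair Q P z a) : z ∈ closure ({z, a} : Set G) := Subgroup.subset_closure (by simp)

theorem aV (D : Pair Q P z a) : a ∈ closure ({z, a} : Set G) := Subgroup.subset_closure (by simp)

theorem mem_cV (D : Pair Q P z a) {x : G} :
    x ∈ centralizer ((closure ({z, a} : Set G) : Subgroup G) : Set G) ↔ x * z = z * x ∧ x * a = a * x := by
  constructor
  · intro h
    rw [mem_centralizer_iff] at h
    exact ⟨(h z D.zV).symm, (h a D.aV).symm⟩
  · rintro ⟨h1, h2⟩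
    rw [mem_centralizer_iff]
    intro y hy
    rcases D.mem_V.mp hy with rfl | rfl | rfl | rfl
    · rw [one_mul, mul_one]
    · exact h1.symm
    · exact h2.symm
    · calc z * a * x = z * (x * a) := by rw [h2]; group
        _ = x * (z * a) := by rw [← mul_assoc, ← h1]; group

/-- `C(V)` -/
theorem cV_norm_Q (D : Pair Q P z a) : centralizer ((closure ({z, a} : Set G) : Subgroup G) : Set G) ≤ normalizer (Q : Set G) :=
  fun _ hx => D.LQz.cz (mem_centralizer_singleton_iff.mpr (D.mem_cV.mp hx).1)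

theorem cV_norm_P (D : Pair Q P z a) : centralizer ((closure ({z, a} : Set G) : Subgroup G) : Set G) ≤ normalizer (P : Set G) :=
  fun _ hx => D.LPa.cz (mem_centralizer_singleton_iff.mpr (D.mem_cV.mp hx).2)

theorem Q_norm_V (D : Pair Q P z a) : Q ≤ normalizer ((closure ({z, a} : Set G) : Subgroup G) : Set G) :=
  D.LQz.toLQ.le_norm_V D.LPa.zz D.aQ

theorem P_norm_V (D : Pair Q P z a) : P ≤ normalizer ((closure ({z, a} : Set G) : Subgroup G) : Set G) := by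
  have := D.LPa.toLQ.le_norm_V D.LQz.zz D.zP
  rwa [Set.pair_comm] at this

theorem X_norm_V (D : Pair Q P z a) : Q ⊔ P ≤ normalizer ((closure ({z, a} : Set G) : Subgroup G) : Set G) :=
  sup_le D.Q_norm_V D.P_norm_V

/-- `V` -/
theorem V_le (D : Pair Q P z a) : closure ({z, a} : Set G) ≤ Q ⊓ P := by
  rw [Subgroup.closure_le]
  rintro x (rfl | rfl)
  · exact ⟨D.LQz.zQ, D.zP⟩
  · exact ⟨D.aQ, D.LPa.zQ⟩

theorem E_le_cV (D : Pair Q P z a) : Q ⊓ P ≤ centralizer ((closure ({z, a} : Set G) : Subgroup G) : Set G) :=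
  fun x hx => D.mem_cV.mpr ⟨D.LQz.zc x hx.1, D.LPa.zc x hx.2⟩

/-- `Q_a = Q ⊓ C(a)` lies in `C(V)` -/
theorem Qa_le (D : Pair Q P z a) : Q ⊓ centralizer ({a} : Set G) ≤ centralizer ((closure ({z, a} : Set G) : Subgroup G) : Set G) :=
  fun x hx => D.mem_cV.mpr ⟨D.LQz.zc x hx.1, mem_centralizer_singleton_iff.mp hx.2⟩

theorem Pz_le (D : Pair Q P z a) : P ⊓ centralizer ({z} : Set G) ≤ centralizer ((closure ({z, a} : Set G) : Subgroup G) : Set G) :=
  fun x hx => D.mem_cV.mpr ⟨mem_centralizer_singleton_iff.mp hx.2, D.LPa.zc x hx.1⟩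

theorem cV_norm_cV (D : Pair Q P z a) {n c : G} (hn : n ∈ normalizer ((closure ({z, a} : Set G) : Subgroup G) : Set G))
    (hc : c ∈ centralizer ((closure ({z, a} : Set G) : Subgroup G) : Set G)) :
    n * c * n⁻¹ ∈ centralizer ((closure ({z, a} : Set G) : Subgroup G) : Set G) := by
  rw [mem_centralizer_iff] at hc ⊢
  intro y hy
  have h1 := (mem_normalizer_iff.mp (inv_mem hn) y).mp hy
  rw [inv_inv] at h1
  have h2 := hc _ h1
  calc y * (n * c * n⁻¹) = n * ((n⁻¹ * y * n) * c) * n⁻¹ := by group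
    _ = n * c * n⁻¹ * y := by rw [h2]; group

/-- `[Q, C(V)] ≤ Q_a` -/
theorem comm_Q (D : Pair Q P z a) {q c : G} (hq : q ∈ Q)
    (hc : c ∈ centralizer ((closure ({z, a} : Set G) : Subgroup G) : Set G)) :
    q * c * q⁻¹ * c⁻¹ ∈ Q ⊓ centralizer ({a} : Set G) := by
  have h1 : q * c * q⁻¹ * c⁻¹ ∈ Q := by
    have e : q * c * q⁻¹ * c⁻¹ = q * (c * q⁻¹ * c⁻¹) := by group
    rw [e]
    exact mul_mem hq (conj_mem_of_normalizer D.cV_norm_Q hc (inv_mem hq))
  have h2 : q * c * q⁻¹ * c⁻¹ ∈ centralizer ((closure ({z, a} : Set G) : Subgroup G) : Set G) :=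
    mul_mem (D.cV_norm_cV (D.Q_norm_V hq) hc) (Subgroup.inv_mem _ hc)
  exact ⟨h1, mem_centralizer_singleton_iff.mpr (D.mem_cV.mp h2).2⟩

theorem comm_P (D : Pair Q P z a) {q c : G} (hq : q ∈ P)
    (hc : c ∈ centralizer ((closure ({z, a} : Set G) : Subgroup G) : Set G)) :
    q * c * q⁻¹ * c⁻¹ ∈ P ⊓ centralizer ({z} : Set G) := by
  have := D.symm.comm_Q (q := q) (c := c) hq
  rw [Set.pair_comm] at this
  exact this hc

/-- `R` -/
theorem cV_norm_Qa (D : Pair Q P z a) : centralizer ((closure ({z, a} : Set G) : Subgroup G) : Set G) ≤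
    normalizer ((Q ⊓ centralizer ({a} : Set G) : Subgroup G) : Set G) := by
  refine le_normalizer_of_conj fun y hy q hq => ⟨conj_mem_of_normalizer D.cV_norm_Q hy hq.1, ?_⟩
  have h1 := mem_centralizer_singleton_iff.mpr (D.mem_cV.mp hy).2
  exact mul_mem (mul_mem h1 hq.2) (Subgroup.inv_mem _ h1)

theorem cV_norm_Pz (D : Pair Q P z a) : centralizer ((closure ({z, a} : Set G) : Subgroup G) : Set G) ≤
    normalizer ((P ⊓ centralizer ({z} : Set G) : Subgroup G) : Set G) := by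
  have := D.symm.cV_norm_Qa
  rwa [Set.pair_comm] at this

theorem R_le (D : Pair Q P z a) : (P ⊓ centralizer ({z} : Set G)) ⊔ (Q ⊓ centralizer ({a} : Set G)) ≤
    centralizer ((closure ({z, a} : Set G) : Subgroup G) : Set G) := sup_le D.Pz_le D.Qa_le

theorem R_le_X (D : Pair Q P z a) : (P ⊓ centralizer ({z} : Set G)) ⊔ (Q ⊓ centralizer ({a} : Set G)) ≤ Q ⊔ P :=
  sup_le (inf_le_left.trans le_sup_right) (inf_le_left.trans le_sup_left)

theorem cV_norm_R (D : Pair Q P z a) : centralizer ((closure ({z, a} : Set G) : Subgroup G) : Set G) ≤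
    normalizer (((P ⊓ centralizer ({z} : Set G)) ⊔ (Q ⊓ centralizer ({a} : Set G)) : Subgroup G) : Set G) :=
  (le_inf D.cV_norm_Pz D.cV_norm_Qa).trans (normalizer_inf_normalizer_le_normalizer_sup _ _)

theorem Q_norm_R (D : Pair Q P z a) : Q ≤
    normalizer (((P ⊓ centralizer ({z} : Set G)) ⊔ (Q ⊓ centralizer ({a} : Set G)) : Subgroup G) : Set G) := by
  refine le_normalizer_of_conj fun y hy r hr => ?_
  have e : y * r * y⁻¹ = (y * r * y⁻¹ * r⁻¹) * r := by group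
  rw [e]
  exact mul_mem (mem_sup_right (D.comm_Q hy (D.R_le hr))) hr

theorem P_norm_R (D : Pair Q P z a) : P ≤
    normalizer (((P ⊓ centralizer ({z} : Set G)) ⊔ (Q ⊓ centralizer ({a} : Set G)) : Subgroup G) : Set G) := by
  refine le_normalizer_of_conj fun y hy r hr => ?_
  have e : y * r * y⁻¹ = (y * r * y⁻¹ * r⁻¹) * r := by group
  rw [e]
  exact mul_mem (mem_sup_left (D.comm_P hy (D.R_le hr))) hr

theorem X_norm_R (D : Pair Q P z a) : Q ⊔ P ≤
    normalizer (((P ⊓ centralizer ({z} : Set G)) ⊔ (Q ⊓ centralizer ({a} : Set G)) : Subgroup G) : Set G) :=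
  sup_le D.Q_norm_R D.P_norm_R

theorem comm_X (D : Pair Q P z a) {x c : G} (hx : x ∈ Q ⊔ P)
    (hc : c ∈ centralizer ((closure ({z, a} : Set G) : Subgroup G) : Set G)) :
    x * c * x⁻¹ * c⁻¹ ∈ (P ⊓ centralizer ({z} : Set G)) ⊔ (Q ⊓ centralizer ({a} : Set G)) := by
  rw [sup_eq_closure] at hx
  have key : x ∈ Q ⊔ P ∧ x * c * x⁻¹ * c⁻¹ ∈ (P ⊓ centralizer ({z} : Set G)) ⊔ (Q ⊓ centralizer ({a} : Set G)) := by
    induction hx using closure_induction with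
    | mem x hx =>
      rcases hx with hx | hx
      · exact ⟨mem_sup_left hx, mem_sup_right (D.comm_Q hx hc)⟩
      · exact ⟨mem_sup_right hx, mem_sup_left (D.comm_P hx hc)⟩
    | one => exact ⟨one_mem _, by rw [one_mul, inv_one, mul_one, mul_inv_cancel]; exact one_mem _⟩
    | mul x y _ _ hx hy =>
      refine ⟨mul_mem hx.1 hy.1, ?_⟩
      have e : x * y * c * (x * y)⁻¹ * c⁻¹ = (x * (y * c * y⁻¹ * c⁻¹) * x⁻¹) * (x * c * x⁻¹ * c⁻¹) := by group
      rw [e]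
      exact mul_mem (conj_mem_of_normalizer D.X_norm_R hx.1 hy.2) hx.2
    | inv x _ hx =>
      refine ⟨inv_mem hx.1, ?_⟩
      have e : x⁻¹ * c * x⁻¹⁻¹ * c⁻¹ = x⁻¹ * (x * c * x⁻¹ * c⁻¹)⁻¹ * x⁻¹⁻¹ := by group
      rw [e]
      exact conj_mem_of_normalizer D.X_norm_R (inv_mem hx.1) (inv_mem hx.2)
  exact key.2

/-- moving elements -/
theorem exists_qp (D : Pair Q P z a) : ∃ q ∈ Q, ∃ p ∈ P, (q * z * q⁻¹ = z ∧ q * a * q⁻¹ = z * a ∧ q * (z * a) * q⁻¹ = a) ∧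
    (p * z * p⁻¹ = z * a ∧ p * a * p⁻¹ = a ∧ p * (z * a) * p⁻¹ = z) := by
  obtain ⟨q, hq, hqa⟩ := D.LQz.exists_move D.aQ D.LPa.zz D.LPa.z1 D.ne
  obtain ⟨p, hp, hpz⟩ := D.LPa.exists_move D.zP D.LQz.zz D.LQz.z1 D.ne.symm
  rw [D.za] at hpz
  have hqz : q * z * q⁻¹ = z := by rw [D.LQz.zc q hq, mul_inv_cancel_right]
  have hpa : p * a * p⁻¹ = a := by rw [D.LPa.zc p hp, mul_inv_cancel_right]
  refine ⟨q, hq, p, hp, ⟨hqz, hqa, ?_⟩, hpz, hpa, ?_⟩
  · calc q * (z * a) * q⁻¹ = (q * z * q⁻¹) * (q * a * q⁻¹) := by group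
      _ = a := by rw [hqz, hqa, ← mul_assoc, D.LQz.zz, one_mul]
  · calc p * (z * a) * p⁻¹ = (p * z * p⁻¹) * (p * a * p⁻¹) := by group
      _ = z := by rw [hpz, hpa, mul_assoc, D.LPa.zz, mul_one]

theorem s3 (D : Pair Q P z a) :
    ∀ u v : G, (u = z ∨ u = a ∨ u = z * a) → (v = z ∨ v = a ∨ v = z * a) → u ≠ v →
      ∃ x ∈ Q ⊔ P, x * z * x⁻¹ = u ∧ x * a * x⁻¹ = v := by
  obtain ⟨q, hq, p, hp, ⟨hqz, hqa, hqza⟩, hpz, hpa, hpza⟩ := D.exists_qp
  have hq' : q ∈ Q ⊔ P := mem_sup_left hq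
  have hp' : p ∈ Q ⊔ P := mem_sup_right hp
  have e2 : ∀ x y w : G, (x * y) * w * (x * y)⁻¹ = x * (y * w * y⁻¹) * x⁻¹ := fun x y w => by group
  rintro u v (rfl | rfl | rfl) (rfl | rfl | rfl) huv
  · exact absurd rfl huv
  · exact ⟨1, one_mem _, by group, by group⟩
  · exact ⟨q, hq', hqz, hqa⟩
  · exact ⟨p * (q * p), mul_mem hp' (mul_mem hq' hp'), by rw [e2, e2, hpz, hqza, hpa], by rw [e2, e2, hpa, hqa, hpza]⟩
  · exact absurd rfl huv
  · exact ⟨q * p, mul_mem hq' hp', by rw [e2, hpz, hqza], by rw [e2, hpa, hqa]⟩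
  · exact ⟨p * q, mul_mem hp' hq', by rw [e2, hqz, hpz], by rw [e2, hqa, hpza]⟩
  · exact ⟨p, hp', hpz, hpa⟩
  · exact absurd rfl huv

theorem hza_a (D : Pair Q P z a) : z * a ≠ a := fun h => D.LQz.z1 (mul_eq_right.mp h)

theorem hza_z (D : Pair Q P z a) : z * a ≠ z := fun h => D.LPa.z1 (mul_eq_left.mp h)

/-- `X ∩ C(V) = R` -/
theorem X_inf_cV (D : Pair Q P z a) :
    (Q ⊔ P) ⊓ centralizer ((closure ({z, a} : Set G) : Subgroup G) : Set G) =
      (P ⊓ centralizer ({z} : Set G)) ⊔ (Q ⊓ centralizer ({a} : Set G)) := by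
  apply le_antisymm _ (le_inf D.R_le_X D.R_le)
  set R : Subgroup G := (P ⊓ centralizer ({z} : Set G)) ⊔ (Q ⊓ centralizer ({a} : Set G)) with hR
  obtain ⟨q, hq, p, hp, ⟨hqz, hqa, hqza⟩, hpz, hpa, hpza⟩ := D.exists_qp
  have hq' : q ∈ Q ⊔ P := mem_sup_left hq
  have hp' : p ∈ Q ⊔ P := mem_sup_right hp
  have hn : ∀ x ∈ Q ⊔ P, ∀ r ∈ R, x⁻¹ * r * x ∈ R := by
    intro x hx r hr
    have := conj_mem_of_normalizer D.X_norm_R (inv_mem hx) hr
    rwa [inv_inv] at this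
  have e2 : ∀ x y w : G, (x * y) * w * (x * y)⁻¹ = x * (y * w * y⁻¹) * x⁻¹ := fun x y w => by group
  have hcent : ∀ x w v : G, x * w * x⁻¹ = w → x * w = w * x := fun x w _ h => by rwa [mul_inv_eq_iff_eq_mul] at h
  have hqq : q * q ∈ R := by
    refine mem_sup_right ⟨mul_mem hq hq, mem_centralizer_singleton_iff.mpr (hcent _ _ a ?_)⟩
    rw [e2, hqa, hqza]
  have hpp : p * p ∈ R := by
    refine mem_sup_left ⟨mul_mem hp hp, mem_centralizer_singleton_iff.mpr (hcent _ _ a ?_)⟩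
    rw [e2, hpz, hpza]
  -- the braid relation
  have hbr : (p * q * p)⁻¹ * (q * p * q) ∈ R := by
    have h1 : (p * q * p) * z * (p * q * p)⁻¹ = a := by rw [e2, e2, hpz, hqza, hpa]
    have h1' : (p * q * p) * a * (p * q * p)⁻¹ = z := by rw [e2, e2, hpa, hqa, hpza]
    have h2 := D.cj _ h1 q hq
    have h3 : p⁻¹ * ((p * q * p) * q * (p * q * p)⁻¹) ∈ R := by
      refine mem_sup_left ⟨mul_mem (Subgroup.inv_mem _ hp) h2, mem_centralizer_singleton_iff.mpr (hcent _ _ a ?_)⟩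
      have h4 : ((p * q * p) * q * (p * q * p)⁻¹) * z * ((p * q * p) * q * (p * q * p)⁻¹)⁻¹ = z * a := by
        have h5 : (p * q * p)⁻¹ * z * (p * q * p) = a := by rw [← h1']; group
        calc ((p * q * p) * q * (p * q * p)⁻¹) * z * ((p * q * p) * q * (p * q * p)⁻¹)⁻¹
            = (p * q * p) * (q * ((p * q * p)⁻¹ * z * (p * q * p)) * q⁻¹) * (p * q * p)⁻¹ := by group
          _ = ((p * q * p) * z * (p * q * p)⁻¹) * ((p * q * p) * a * (p * q * p)⁻¹) := by rw [h5, hqa]; group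
          _ = z * a := by rw [h1, h1', D.za]
      rw [e2, h4]
      have h6 : p⁻¹ * (z * a) * p⁻¹⁻¹ = z := by
        calc p⁻¹ * (z * a) * p⁻¹⁻¹ = p⁻¹ * (p * z * p⁻¹) * p := by rw [hpz]; group
          _ = z := by group
      exact h6
    -- `p⁻¹ (pqp) q (pqp)⁻¹ ∈ R`, so `(pqp)⁻¹ (qpq)` is a conjugate
    have h7 := hn (p * q * p) (mul_mem (mul_mem hp' hq') hp') _ h3
    have e : (p * q * p)⁻¹ * (p⁻¹ * ((p * q * p) * q * (p * q * p)⁻¹)) * (p * q * p) = (p * q * p)⁻¹ * (q * p * q) := by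
      group
    rwa [e] at h7
  have hbr' : (q * p * q)⁻¹ * (p * q * p) ∈ R := by
    have := inv_mem hbr
    have e : ((p * q * p)⁻¹ * (q * p * q))⁻¹ = (q * p * q)⁻¹ * (p * q * p) := by group
    rwa [e] at this
  -- coset representatives
  let S : Set G := {1, q, p, q * p, p * q, p * q * p}
  have hS : ∀ s ∈ S, s ∈ Q ⊔ P := by
    rintro s (rfl | rfl | rfl | rfl | rfl | rfl)
    · exact one_mem _
    · exact hq'
    · exact hp'
    · exact mul_mem hq' hp'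
    · exact mul_mem hp' hq'
    · exact mul_mem (mul_mem hp' hq') hp'
  have hMr : ∀ r ∈ R, ∀ x : G, (∃ s ∈ S, s⁻¹ * x ∈ R) → ∃ s ∈ S, s⁻¹ * (r * x) ∈ R := by
    rintro r hr x ⟨s, hs, hx⟩
    refine ⟨s, hs, ?_⟩
    have e : s⁻¹ * (r * x) = (s⁻¹ * r * s) * (s⁻¹ * x) := by group
    rw [e]
    exact mul_mem (hn s (hS s hs) r hr) hx
  have hMq : ∀ x : G, (∃ s ∈ S, s⁻¹ * x ∈ R) → ∃ s ∈ S, s⁻¹ * (q * x) ∈ R := by
    rintro x ⟨s, (rfl | rfl | rfl | rfl | rfl | rfl), hx⟩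
    · refine ⟨q, by simp [S], ?_⟩
      have e : q⁻¹ * (q * x) = 1⁻¹ * x := by group
      rw [e]; exact hx
    · refine ⟨1, by simp [S], ?_⟩
      have e : (1 : G)⁻¹ * (s * x) = (s * s) * (s⁻¹ * x) := by group
      rw [e]; exact mul_mem hqq hx
    · refine ⟨q * s, by simp [S], ?_⟩
      have e : (q * s)⁻¹ * (q * x) = s⁻¹ * x := by group
      rw [e]; exact hx
    · refine ⟨p, by simp [S], ?_⟩
      have e : p⁻¹ * (q * x) = (p⁻¹ * (q * q) * p) * ((q * p)⁻¹ * x) := by group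
      rw [e]; exact mul_mem (hn p hp' _ hqq) hx
    · refine ⟨p * q * p, by simp [S], ?_⟩
      have e : (p * q * p)⁻¹ * (q * x) = ((p * q * p)⁻¹ * (q * p * q)) * ((p * q)⁻¹ * x) := by group
      rw [e]; exact mul_mem hbr hx
    · refine ⟨p * q, by simp [S], ?_⟩
      have e : (p * q)⁻¹ * (q * x) = ((p * q)⁻¹ * (q * q) * (p * q)) * ((q * p * q)⁻¹ * (p * q * p)) *
        ((p * q * p)⁻¹ * x) := by group
      rw [e]; exact mul_mem (mul_mem (hn _ (mul_mem hp' hq') _ hqq) hbr') hx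
  have hMp : ∀ x : G, (∃ s ∈ S, s⁻¹ * x ∈ R) → ∃ s ∈ S, s⁻¹ * (p * x) ∈ R := by
    rintro x ⟨s, (rfl | rfl | rfl | rfl | rfl | rfl), hx⟩
    · refine ⟨p, by simp [S], ?_⟩
      have e : p⁻¹ * (p * x) = 1⁻¹ * x := by group
      rw [e]; exact hx
    · refine ⟨p * s, by simp [S], ?_⟩
      have e : (p * s)⁻¹ * (p * x) = s⁻¹ * x := by group
      rw [e]; exact hx
    · refine ⟨1, by simp [S], ?_⟩
      have e : (1 : G)⁻¹ * (s * x) = (s * s) * (s⁻¹ * x) := by group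
      rw [e]; exact mul_mem hpp hx
    · refine ⟨p * q * p, by simp [S], ?_⟩
      have e : (p * q * p)⁻¹ * (p * x) = (q * p)⁻¹ * x := by group
      rw [e]; exact hx
    · refine ⟨q, by simp [S], ?_⟩
      have e : q⁻¹ * (p * x) = (q⁻¹ * (p * p) * q) * ((p * q)⁻¹ * x) := by group
      rw [e]; exact mul_mem (hn q hq' _ hpp) hx
    · refine ⟨q * p, by simp [S], ?_⟩
      have e : (q * p)⁻¹ * (p * x) = ((q * p)⁻¹ * (p * p) * (q * p)) * ((p * q * p)⁻¹ * x) := by group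
      rw [e]; exact mul_mem (hn _ (mul_mem hq' hp') _ hpp) hx
  have hMQ : ∀ y ∈ Q, ∀ x : G, (∃ s ∈ S, s⁻¹ * x ∈ R) → ∃ s ∈ S, s⁻¹ * (y * x) ∈ R := by
    intro y hy x hx
    rcases D.LQz.conj_cases D.aQ hy with h | h
    · exact hMr y (mem_sup_right ⟨hy, mem_centralizer_singleton_iff.mpr (hcent _ _ a h)⟩) x hx
    · have h1 : q⁻¹ * y ∈ R := by
        refine mem_sup_right ⟨mul_mem (Subgroup.inv_mem _ hq) hy, mem_centralizer_singleton_iff.mpr (hcent _ _ a ?_)⟩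
        rw [e2, h]
        calc q⁻¹ * (z * a) * q⁻¹⁻¹ = q⁻¹ * (q * a * q⁻¹) * q := by rw [hqa]; group
          _ = a := by group
      have h2 := hMq _ (hMr _ h1 x hx)
      have e : q * (q⁻¹ * y * x) = y * x := by group
      rwa [e] at h2
  have hMP : ∀ y ∈ P, ∀ x : G, (∃ s ∈ S, s⁻¹ * x ∈ R) → ∃ s ∈ S, s⁻¹ * (y * x) ∈ R := by
    intro y hy x hx
    rcases D.LPa.conj_cases D.zP hy with h | h
    · exact hMr y (mem_sup_left ⟨hy, mem_centralizer_singleton_iff.mpr (hcent _ _ a h)⟩) x hx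
    · have h1 : p⁻¹ * y ∈ R := by
        refine mem_sup_left ⟨mul_mem (Subgroup.inv_mem _ hp) hy, mem_centralizer_singleton_iff.mpr (hcent _ _ a ?_)⟩
        rw [e2, h, D.za]
        calc p⁻¹ * (z * a) * p⁻¹⁻¹ = p⁻¹ * (p * z * p⁻¹) * p := by rw [hpz]; group
          _ = z := by group
      have h2 := hMp _ (hMr _ h1 x hx)
      have e : p * (p⁻¹ * y * x) = y * x := by group
      rwa [e] at h2
  have hall : ∀ x ∈ Q ⊔ P, ∃ s ∈ S, s⁻¹ * x ∈ R := by
    intro x hx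
    rw [sup_eq_closure] at hx
    induction hx using closure_induction_left with
    | one => exact ⟨1, by simp [S], by rw [inv_one, one_mul]; exact one_mem _⟩
    | mul_left x hx y _ ih =>
      rcases hx with hx | hx
      · exact hMQ x hx y ih
      · exact hMP x hx y ih
    | inv_mul_cancel x hx y _ ih =>
      rcases hx with hx | hx
      · exact hMQ _ (inv_mem hx) y ih
      · exact hMP _ (inv_mem hx) y ih
  rintro x ⟨hxX, hxV⟩
  obtain ⟨s, hs, hsx⟩ := hall x hxX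
  have h1 : s⁻¹ ∈ centralizer ((closure ({z, a} : Set G) : Subgroup G) : Set G) := by
    have := mul_mem (D.R_le hsx) (Subgroup.inv_mem _ hxV)
    rwa [mul_inv_cancel_right] at this
  have h2 : s ∈ centralizer ((closure ({z, a} : Set G) : Subgroup G) : Set G) := by
    have := Subgroup.inv_mem _ h1
    rwa [inv_inv] at this
  obtain ⟨h3, h4⟩ := D.mem_cV.mp h2
  have h3' : s * z * s⁻¹ = z := by rw [h3, mul_inv_cancel_right]
  have h4' : s * a * s⁻¹ = a := by rw [h4, mul_inv_cancel_right]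
  rcases hs with rfl | rfl | rfl | rfl | rfl | rfl
  · rwa [inv_one, one_mul] at hsx
  · exfalso; rw [hqa] at h4'; exact D.hza_a h4'
  · exfalso; rw [hpz] at h3'; exact D.hza_z h3'
  · exfalso; rw [e2, hpz, hqza] at h3'; exact D.ne h3'
  · exfalso; rw [e2, hqz, hpz] at h3'; exact D.hza_z h3'
  · exfalso; rw [e2, e2, hpz, hqza, hpa] at h3'; exact D.ne h3'

end Pair

end Cfsg.Agent.Lib.LargeEx
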