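import Cfsg.Agent.Lib.LargeExF

/-!
# Large extraspecial subgroups: S5430, S5431
-/

universe u v w

open Subgroup
open scoped commutatorElement Pointwise

namespace Cfsg.Agent.Lib.LargeEx

variable {G : Type*} [Group G] {Q P : Subgroup G} {z a : G}

set_option maxRecDepth 40000 in
theorem perm3 : ∀ σ : Equiv.Perm (Fin 3), σ = 1 ∨ σ ^ 3 = 1 ∨
    ∃ τ : Equiv.Perm (Fin 3), (σ * (τ * σ * τ⁻¹)) ^ 3 = 1 ∧ σ * (τ * σ * τ⁻¹) ≠ 1 := by decide

theorem perm3_normal {N : Subgroup (Equiv.Perm (Fin 3))} (hN : N.Normal) (hp : IsPGroup 2 N) : N = ⊥ := by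
  have h3 : ∀ σ ∈ N, σ ^ 3 = 1 → σ = 1 := by
    intro σ hσ h
    obtain ⟨k, hk⟩ := hp ⟨σ, hσ⟩
    have hk' : σ ^ 2 ^ k = 1 := congrArg Subtype.val hk
    rw [← orderOf_eq_one_iff]
    have h1 := orderOf_dvd_of_pow_eq_one h
    have h2 := orderOf_dvd_of_pow_eq_one hk'
    have h4 : Nat.Coprime 3 (2 ^ k) := Nat.Coprime.pow_right k (by norm_num)
    exact Nat.eq_one_of_dvd_coprimes h4 h1 h2
  rw [eq_bot_iff_forall]
  intro σ hσ
  rcases perm3 σ with h | h | ⟨τ, h1, h2⟩
  · exact h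
  · exact h3 σ hσ h
  · exact absurd (h3 _ (mul_mem hσ (hN.conj_mem σ hσ τ)) h1) h2

theorem pair_of [Finite G] (L : LE Q z) {g : G} (hin : g * z * g⁻¹ ∈ Q) (hne : g * z * g⁻¹ ≠ z) :
    Pair Q (Q.map (MulAut.conj g).toMonoidHom) z (g * z * g⁻¹) := by
  refine ⟨L, L.conj g, (key L.toLQ hin hne).1, hin, hne, fun h hh x hx => ?_, fun h hh x hx => ?_⟩
  · have h1 : g⁻¹ * h ∈ centralizer ({z} : Set G) := by
      rw [mem_centralizer_singleton_iff]
      calc g⁻¹ * h * z = g⁻¹ * (h * z * h⁻¹) * h := by group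
        _ = z * (g⁻¹ * h) := by rw [hh]; group
    have h2 := (mem_normalizer_iff.mp (L.cz h1) x).mp hx
    rw [mem_map_conj]
    have e : g⁻¹ * (h * x * h⁻¹) * g = g⁻¹ * h * x * (g⁻¹ * h)⁻¹ := by group
    rw [e]; exact h2
  · have h1 : h * g ∈ centralizer ({z} : Set G) := by
      rw [mem_centralizer_singleton_iff]
      calc h * g * z = (h * (g * z * g⁻¹) * h⁻¹) * (h * g) := by group
        _ = z * (h * g) := by rw [hh]
    have h2 := (mem_normalizer_iff.mp (L.cz h1) _).mp (mem_map_conj.mp hx)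
    have e : h * g * (g⁻¹ * x * g) * (h * g)⁻¹ = h * x * h⁻¹ := by group
    rwa [e] at h2

namespace Pair

theorem R_pgroup (D : Pair Q P z a) : IsPGroup 2 ((P ⊓ centralizer ({z} : Set G)) ⊔ (Q ⊓ centralizer ({a} : Set G)) : Subgroup G) :=
  (D.LPa.pg.to_le inf_le_left).to_sup_of_normal_right' (D.LQz.pg.to_le inf_le_left) (D.Pz_le.trans D.cV_norm_Qa)

theorem exists_hom (D : Pair Q P z a) : ∃ φ : ↥(Q ⊔ P) →* Equiv.Perm (Fin 3), Function.Surjective φ ∧
      φ.ker = ((P ⊓ centralizer ({z} : Set G)) ⊔ (Q ⊓ centralizer ({a} : Set G))).subgroupOf (Q ⊔ P) := by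
  obtain ⟨φ, h1, h2⟩ := act D.LQz.zz D.LPa.zz D.za D.LQz.z1 D.LPa.z1 D.ne (Q ⊔ P) D.X_norm_V D.s3
  refine ⟨φ, h1, ?_⟩
  rw [h2, ← D.X_inf_cV, inf_comm]
  exact (inf_subgroupOf_right _ _).symm

/-- S5430 -/
theorem main30 [Finite G] (D : Pair Q P z a) {X R V : Subgroup G} (hV : V = closure ({z, a} : Set G))
    (hX : X = Q ⊔ P) (hR : R = (P ⊓ centralizer ({z} : Set G)) ⊔ (Q ⊓ centralizer ({a} : Set G))) :
    R = X ⊓ centralizer (V : Set G) ∧ R = (Cfsg.pCore 2 ↥X).map X.subtype ∧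
      (∃ h : (R.subgroupOf X).Normal, Nonempty (↥X ⧸ R.subgroupOf X ≃* Equiv.Perm (Fin 3))) ∧
      normalizer (V : Set G) = X ⊔ (centralizer ({z} : Set G) ⊓ centralizer (V : Set G)) ∧
      (∀ y ∈ normalizer (V : Set G), ∀ x ∈ X, y * x * y⁻¹ ∈ X) ∧
      R ≤ centralizer ({z} : Set G) ⊓ centralizer (V : Set G) ∧
      (∀ x ∈ X, ∀ c ∈ centralizer ({z} : Set G) ⊓ centralizer (V : Set G), x * c * x⁻¹ * c⁻¹ ∈ R) ∧
      X ⊓ (centralizer ({z} : Set G) ⊓ centralizer (V : Set G)) = R := by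
  haveI : Fact (Nat.Prime 2) := ⟨Nat.prime_two⟩
  have hhom := D.exists_hom
  rw [← hX, ← hR] at hhom
  obtain ⟨φ, hφ, hk⟩ := hhom
  have h1 := D.X_inf_cV
  have hRX := D.R_le_X
  have hXR := D.X_norm_R
  have hRp := D.R_pgroup
  have hs3 := D.s3
  have hXV := D.X_norm_V
  have hcomm := fun (x c : G) => D.comm_X (x := x) (c := c)
  rw [← hX] at h1 hRX hXR hs3 hXV
  rw [← hR] at h1 hRX hXR hRp
  simp only [← hX, ← hR] at hcomm
  have hQX : Q ≤ X := by rw [hX]; exact le_sup_left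
  have hPX : P ≤ X := by rw [hX]; exact le_sup_right
  have hcQ := D.cV_norm_Q
  have hcP := D.cV_norm_P
  have hmc := fun (x : G) => D.mem_cV (x := x)
  rw [← hV] at h1 hXV hcQ hcP
  simp only [← hV] at hcomm hmc
  have hCC : centralizer ({z} : Set G) ⊓ centralizer (V : Set G) = centralizer (V : Set G) := by
    rw [inf_eq_right]
    exact fun x hx => mem_centralizer_singleton_iff.mpr ((hmc x).mp hx).1
  rw [hCC]
  have hcX : ∀ c ∈ centralizer (V : Set G), ∀ x ∈ X, c * x * c⁻¹ ∈ X := by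
    intro c hc x hx
    have e : c * x * c⁻¹ = (x * c * x⁻¹ * c⁻¹)⁻¹ * x := by group
    rw [e]
    exact mul_mem (inv_mem (hRX (hcomm x c hx hc))) hx
  have hnV : normalizer (V : Set G) = X ⊔ centralizer (V : Set G) := by
    apply le_antisymm
    · intro n hn
      have hz' : n * z * n⁻¹ ∈ V := (mem_normalizer_iff.mp hn z).mp (by rw [hV]; exact D.zV)
      have ha' : n * a * n⁻¹ ∈ V := (mem_normalizer_iff.mp hn a).mp (by rw [hV]; exact D.aV)
      rw [hV, D.mem_V] at hz' ha'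
      have hinj : ∀ x y : G, n * x * n⁻¹ = n * y * n⁻¹ → x = y := fun x y h => mul_left_cancel (mul_right_cancel h)
      have hz'' : n * z * n⁻¹ = z ∨ n * z * n⁻¹ = a ∨ n * z * n⁻¹ = z * a := by
        rcases hz' with h | h
        · exact absurd (hinj z 1 (by rw [h]; group)) D.LQz.z1
        · exact h
      have ha'' : n * a * n⁻¹ = z ∨ n * a * n⁻¹ = a ∨ n * a * n⁻¹ = z * a := by
        rcases ha' with h | h
        · exact absurd (hinj a 1 (by rw [h]; group)) D.LPa.z1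
        · exact h
      obtain ⟨x, hx, hx1, hx2⟩ := hs3 _ _ hz'' ha'' (fun h => D.ne (hinj _ _ h).symm)
      have h3 : x⁻¹ * n ∈ centralizer (V : Set G) := by
        rw [hmc]
        constructor
        · calc x⁻¹ * n * z = x⁻¹ * (n * z * n⁻¹) * n := by group
            _ = z * (x⁻¹ * n) := by rw [← hx1]; group
        · calc x⁻¹ * n * a = x⁻¹ * (n * a * n⁻¹) * n := by group
            _ = a * (x⁻¹ * n) := by rw [← hx2]; group
      have e : n = x * (x⁻¹ * n) := by group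
      rw [e]
      exact mul_mem (mem_sup_left hx) (mem_sup_right h3)
    · refine sup_le hXV ?_
      intro c hc
      rw [mem_normalizer_iff]
      intro y
      have h4 : ∀ v ∈ V, c * v * c⁻¹ = v := fun v hv => by
        rw [← mem_centralizer_iff.mp hc v hv, mul_inv_cancel_right]
      constructor
      · intro hy; rw [h4 y hy]; exact hy
      · intro hy
        have h5 := h4 _ hy
        have h6 : c * y * c⁻¹ = y := mul_left_cancel (mul_right_cancel h5)
        rwa [h6] at hy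
  have hRn : (R.subgroupOf X).Normal := by
    refine ⟨fun r hr x => mem_subgroupOf.mpr ?_⟩
    exact conj_mem_of_normalizer hXR x.2 (mem_subgroupOf.mp hr)
  refine ⟨h1.symm, ?_, ⟨hRn, ?_⟩, hnV, ?_, ?_, fun x hx c hc => hcomm x c hx hc, h1⟩
  · apply le_antisymm
    · intro r hr
      exact ⟨⟨r, hRX hr⟩, Cfsg.Agent.Lib.Cores.le_pCore hRn (hRp.comap_of_injective X.subtype (subtype_injective _))
        (mem_subgroupOf.mpr hr), rfl⟩
    · rintro _ ⟨x, hx, rfl⟩
      have hn := Cfsg.Agent.Lib.Cores.pCore_normal (G := X) 2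
      have h3 := perm3_normal (hn.map φ hφ) ((Cfsg.Agent.Lib.Cores.pCore_isPGroup 2).map φ)
      rw [Subgroup.map_eq_bot_iff, hk] at h3
      exact mem_subgroupOf.mp (h3 hx)
  · exact ⟨(QuotientGroup.quotientMulEquivOfEq hk.symm).trans (QuotientGroup.quotientKerEquivOfSurjective φ hφ)⟩
  · intro y hy x hx
    rw [hnV, sup_eq_closure] at hy
    induction hy using closure_induction generalizing x with
    | mem y hy =>
      rcases hy with hy | hy
      · exact mul_mem (mul_mem hy hx) (inv_mem hy)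
      · exact hcX y hy x hx
    | one => rw [one_mul, inv_one, mul_one]; exact hx
    | mul y y' _ _ h1 h2 =>
      have e : y * y' * x * (y * y')⁻¹ = y * (y' * x * y'⁻¹) * y⁻¹ := by group
      rw [e]; exact h1 _ (h2 x hx)
    | inv y _ h =>
      -- finite order
      have key : ∀ n : ℕ, ∀ x ∈ X, y ^ n * x * (y ^ n)⁻¹ ∈ X := by
        intro n
        induction n with
        | zero => intro x hx; rw [pow_zero, one_mul, inv_one, mul_one]; exact hx
        | succ n ih =>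
          intro x hx
          have e : y ^ (n + 1) * x * (y ^ (n + 1))⁻¹ = y * (y ^ n * x * (y ^ n)⁻¹) * y⁻¹ := by
            rw [pow_succ']; group
          rw [e]; exact h _ (ih x hx)
      have e : y⁻¹ = y ^ (orderOf y - 1) := by
        rw [inv_eq_iff_mul_eq_one, ← pow_succ', Nat.sub_add_cancel (orderOf_pos y), pow_orderOf_eq_one]
      rw [e]; exact key _ x hx
  · rw [← h1]; exact inf_le_right

/-- S5431 -/
theorem main31 [Finite G] (D : Pair Q P z a) {X R V E : Subgroup G} (hV : V = closure ({z, a} : Set G))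
    (hX : X = Q ⊔ P) (hR : R = (P ⊓ centralizer ({z} : Set G)) ⊔ (Q ⊓ centralizer ({a} : Set G)))
    (hE : E = Q ⊓ P) :
    (center ↥R).map R.subtype = V ∧ E ≤ (Subgroup.upperCentralSeries ↥R 2).map R.subtype ∧
      Subgroup.upperCentralSeries ↥R 3 = ⊤ ∧ Cfsg.IsElementaryAbelian 2 E ∧
      (∀ x ∈ R, ∀ y ∈ R, x * y * x⁻¹ * y⁻¹ ∈ E ∧ x ^ 2 ∈ E) ∧
      (P ⊓ centralizer ({z} : Set G)) ⊓ (Q ⊓ centralizer ({a} : Set G)) = E ∧ ⁅X, E⁆ ≤ V := by
  have hRV := D.R_le
  have hXV := D.X_norm_V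
  have hcQ := D.cV_norm_Q
  have hcP := D.cV_norm_P
  have hmc := fun (x : G) => D.mem_cV (x := x)
  have hVE := D.V_le
  have hEc := D.E_le_cV
  have hmV := fun (x : G) => D.mem_V (x := x)
  have hzV := D.zV
  have haV := D.aV
  rw [← hE] at hVE hEc
  rw [← hR] at hRV
  rw [← hV] at hRV hXV hcQ hcP hVE hEc hzV haV
  simp only [← hV] at hmc hmV
  have hQaR : Q ⊓ centralizer ({a} : Set G) ≤ R := by rw [hR]; exact le_sup_right
  have hPzR : P ⊓ centralizer ({z} : Set G) ≤ R := by rw [hR]; exact le_sup_left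
  have hEE : (P ⊓ centralizer ({z} : Set G)) ⊓ (Q ⊓ centralizer ({a} : Set G)) = E := by
    rw [hE]
    apply le_antisymm
    · exact fun x hx => ⟨hx.2.1, hx.1.1⟩
    · exact fun x hx => ⟨⟨hx.2, mem_centralizer_singleton_iff.mpr (D.LQz.zc x hx.1)⟩,
        ⟨hx.1, mem_centralizer_singleton_iff.mpr (D.LPa.zc x hx.2)⟩⟩
  have hER : E ≤ R := by rw [← hEE]; exact inf_le_left.trans hPzR
  have hVR : V ≤ R := hVE.trans hER
  -- commutators `[x, e]` for `x ∈ X`, `e ∈ E`
  have hXE : ∀ x ∈ X, ∀ e ∈ E, x * e * x⁻¹ * e⁻¹ ∈ V := by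
    intro x hx e he
    rw [hE] at he
    rw [hX, sup_eq_closure] at hx
    have key : x ∈ Q ⊔ P ∧ x * e * x⁻¹ * e⁻¹ ∈ V := by
      induction hx using closure_induction with
      | mem x hx =>
        rcases hx with hx | hx
        · refine ⟨mem_sup_left hx, ?_⟩
          have := D.LQz.comm x hx e he.1
          rw [commutatorElement_def] at this
          rcases this with h | h <;> rw [h]
          · exact one_mem _
          · exact hzV
        · refine ⟨mem_sup_right hx, ?_⟩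
          have := D.LPa.comm x hx e he.2
          rw [commutatorElement_def] at this
          rcases this with h | h <;> rw [h]
          · exact one_mem _
          · exact haV
      | one => exact ⟨one_mem _, by rw [one_mul, inv_one, mul_one, mul_inv_cancel]; exact one_mem _⟩
      | mul x y _ _ hx hy =>
        refine ⟨mul_mem hx.1 hy.1, ?_⟩
        have e' : x * y * e * (x * y)⁻¹ * e⁻¹ = (x * (y * e * y⁻¹ * e⁻¹) * x⁻¹) * (x * e * x⁻¹ * e⁻¹) := by group
        rw [e']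
        exact mul_mem (conj_mem_of_normalizer hXV hx.1 hy.2) hx.2
      | inv x _ hx =>
        refine ⟨inv_mem hx.1, ?_⟩
        have e' : x⁻¹ * e * x⁻¹⁻¹ * e⁻¹ = x⁻¹ * (x * e * x⁻¹ * e⁻¹)⁻¹ * x⁻¹⁻¹ := by group
        rw [e']
        exact conj_mem_of_normalizer hXV (inv_mem hx.1) (inv_mem hx.2)
    exact key.2
  have hRX : R ≤ X := by rw [hR, hX]; exact D.R_le_X
  -- `E` is normalized by `C(V)`
  have hcE : ∀ c ∈ centralizer (V : Set G), ∀ e ∈ E, c * e * c⁻¹ ∈ E := by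
    intro c hc e he
    rw [hE] at he ⊢
    exact ⟨conj_mem_of_normalizer hcQ hc he.1, conj_mem_of_normalizer hcP hc he.2⟩
  have hab : ∀ u v : G, (u = 1 ∨ u = z) → (u = 1 ∨ u = a) → u = 1 := by
    rintro u _ (h | h) (h' | h')
    · exact h
    · exact h
    · exact h'
    · exact absurd (h'.symm.trans h) D.ne
  have hEel : Cfsg.IsElementaryAbelian 2 E := by
    rw [hE]
    refine ⟨⟨⟨fun x y => Subtype.ext ?_⟩⟩, fun x hx => ?_⟩
    · exact commutatorElement_eq_one_iff_mul_comm.mp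
        (hab _ 1 (D.LQz.comm x x.2.1 y y.2.1) (D.LPa.comm x x.2.2 y y.2.2))
    · rw [pow_two]
      exact hab _ 1 (D.LQz.sq x hx.1) (D.LPa.sq x hx.2)
  -- squares of elements of `R`
  have hsq : ∀ x ∈ R, x ^ 2 ∈ E := by
    intro x hx
    rw [hR] at hx
    have hn : P ⊓ centralizer ({z} : Set G) ≤ normalizer ((Q ⊓ centralizer ({a} : Set G) : Subgroup G) : Set G) :=
      D.Pz_le.trans D.cV_norm_Qa
    rw [sup_comm, Cfsg.Agent.Lib.Basic.mem_sup_iff_left hn] at hx
    obtain ⟨n, hn1, y, hy1, rfl⟩ := hx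
    have hnV := D.Qa_le hn1
    have hyV := D.Pz_le hy1
    rw [← hV] at hnV hyV
    have h1 : y * n * y⁻¹ * n⁻¹ ∈ E := by
      rw [hE]
      refine ⟨mul_mem (conj_mem_of_normalizer hcQ hyV hn1.1) (Subgroup.inv_mem _ hn1.1), ?_⟩
      have e : y * n * y⁻¹ * n⁻¹ = y * (n * y⁻¹ * n⁻¹) := by group
      rw [e]
      exact mul_mem hy1.1 (conj_mem_of_normalizer hcP hnV (Subgroup.inv_mem _ hy1.1))
    have h2 : n * n ∈ E := by
      rcases D.LQz.sq n hn1.1 with h | h <;> rw [h]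
      · exact one_mem _
      · exact hVE hzV
    have h3 : y * y ∈ E := by
      rcases D.LPa.sq y hy1.1 with h | h <;> rw [h]
      · exact one_mem _
      · exact hVE haV
    have e : (n * y) ^ 2 = (n * (y * n * y⁻¹ * n⁻¹) * n⁻¹) * (n * n) * (y * y) := by rw [pow_two]; group
    rw [e]
    exact mul_mem (mul_mem (hcE n hnV _ h1) h2) h3
  have hcR : ∀ x ∈ R, ∀ y ∈ R, x * y * x⁻¹ * y⁻¹ ∈ E := by
    intro x hx y hy
    have e : x * y * x⁻¹ * y⁻¹ = x ^ 2 * (x⁻¹ * y) ^ 2 * (y ^ 2)⁻¹ := by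
      simp only [pow_two]; group
    rw [e]
    exact mul_mem (mul_mem (hsq x hx) (hsq _ (mul_mem (inv_mem hx) hy))) (inv_mem (hsq y hy))
  have hZ : (center ↥R).map R.subtype = V := by
    apply le_antisymm
    · rintro _ ⟨c, hc, rfl⟩
      rw [SetLike.mem_coe, mem_center_iff] at hc
      have hcV := hRV c.2
      rw [hmV]
      exact D.LQz.tQ' D.aQ D.LPa.zz D.LPa.z1 D.ne (hcQ hcV) (fun k hk hka =>
        (congrArg Subtype.val (hc ⟨k, hQaR ⟨hk, mem_centralizer_singleton_iff.mpr hka⟩⟩)).symm)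
    · intro v hv
      refine ⟨⟨v, hVR hv⟩, ?_, rfl⟩
      rw [SetLike.mem_coe, mem_center_iff]
      intro r
      exact Subtype.ext (mem_centralizer_iff.mp (hRV r.2) v hv).symm
  have hcen : ∀ x : R, (x : G) ∈ V → x ∈ center R := by
    intro x hx
    rw [← hZ] at hx
    obtain ⟨y, hy, hyx⟩ := hx
    have : y = x := Subtype.ext hyx
    rw [← this]; exact hy
  have hE2 : ∀ x : R, (x : G) ∈ E → x ∈ Subgroup.upperCentralSeries ↥R 2 := by
    intro x hx
    rw [Subgroup.mem_upperCentralSeries_succ_iff]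
    intro y
    rw [Subgroup.upperCentralSeries_one]
    apply hcen
    have h1 := inv_mem (hXE y (hRX y.2) x hx)
    have e : ((⁅x, y⁆ : R) : G) = ((y : G) * x * (y : G)⁻¹ * (x : G)⁻¹)⁻¹ := by
      rw [commutatorElement_def]
      simp only [coe_mul, coe_inv]
      group
    rw [e]; exact h1
  refine ⟨hZ, fun e he => ⟨⟨e, hER he⟩, hE2 _ he, rfl⟩, ?_, hEel, fun x hx y hy => ⟨hcR x hx y hy, hsq x hx⟩, hEE, ?_⟩
  · rw [eq_top_iff]
    intro x _
    rw [Subgroup.mem_upperCentralSeries_succ_iff]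
    intro y
    apply hE2
    have h1 := hcR x x.2 y y.2
    rw [commutatorElement_def]
    simpa using h1
  · rw [commutator_le]
    intro x hx e he
    rw [commutatorElement_def]
    exact hXE x hx e he

end Pair

end Cfsg.Agent.Lib.LargeEx
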