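import Cfsg.Agent.Lib.LargeExE
import Cfsg.Agent.Lib.PGrpB
import Cfsg.Agent.Lib.TiSub
import Cfsg.Prelude.Def_ClassificationK

/-!
# `2`-groups of symplectic type and exponent four
-/

universe u v w

open Subgroup
open scoped commutatorElement Pointwise

namespace Cfsg.Agent.Lib.LargeEx

/-- all commutators in `⟨z⟩`, `z` central of order two -/
structure PD {E : Type*} [Group E] (z : E) : Prop where
  zz : z * z = 1
  z1 : z ≠ 1
  zc : ∀ x : E, x * z = z * x
  comm : ∀ x y : E, ⁅x, y⁆ = 1 ∨ ⁅x, y⁆ = z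

namespace PD

variable {E : Type*} [Group E] {z : E}

theorem mul_left (D : PD z) (x y w : E) : ⁅x * y, w⁆ = ⁅x, w⁆ * ⁅y, w⁆ := by
  have h : ∀ v : E, v * ⁅y, w⁆ = ⁅y, w⁆ * v := by
    intro v
    rcases D.comm y w with h | h <;> rw [h]
    · rw [mul_one, one_mul]
    · exact D.zc v
  have h1 : ⁅x * y, w⁆ = x * ⁅y, w⁆ * x⁻¹ * ⁅x, w⁆ := by simp only [commutatorElement_def]; group
  rw [h1, h, mul_inv_cancel_right, h]

/-- `x ↦ [x, w]` -/
def homL (D : PD z) (w : E) : E →* E where
  toFun x := ⁅x, w⁆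
  map_one' := commutatorElement_one_left w
  map_mul' x y := D.mul_left x y w

theorem ord (D : PD z) : orderOf z = 2 := by
  haveI : Fact (Nat.Prime 2) := ⟨Nat.prime_two⟩
  exact orderOf_eq_prime (by rw [pow_two, D.zz]) D.z1

theorem comm' (D : PD z) (x y : E) : ⁅x, y⁆ ∈ zpowers z := by
  rcases D.comm x y with h | h <;> rw [h]
  · exact one_mem _
  · exact mem_zpowers z

theorem relIndex_centralizer_le [Finite E] (D : PD z) (A : Subgroup E) (u : E) :
    (centralizer ({u} : Set E)).relIndex A ≤ 2 := by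
  -- the map `a ↦ [a, u]` from `A` to `⟨z⟩`
  let f : A →* zpowers z := (((D.homL u).comp A.subtype).codRestrict (zpowers z) (fun a => D.comm' a u))
  have hker : f.ker = (centralizer ({u} : Set E)).subgroupOf A := by
    ext a
    rw [MonoidHom.mem_ker, mem_subgroupOf, mem_centralizer_singleton_iff]
    rw [← commutatorElement_eq_one_iff_mul_comm]
    constructor
    · intro h; exact congrArg Subtype.val h
    · intro h; exact Subtype.ext h
  have h1 : (centralizer ({u} : Set E)).relIndex A = Nat.card f.range := by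
    rw [relIndex, ← hker, index_ker]
  rw [h1]
  calc Nat.card f.range ≤ Nat.card (zpowers z) := Subgroup.card_le_card_group _
    _ = 2 := by rw [Nat.card_zpowers, D.ord]

theorem relIndex_le [Finite E] (D : PD z) (A : Subgroup E) (n : ℕ) :
    ∀ U : Subgroup E, Nat.card U ≤ n →
      (centralizer (U : Set E)).relIndex A ≤ (centralizer (A : Set E)).relIndex U := by
  haveI hp : Fact (Nat.Prime 2) := ⟨Nat.prime_two⟩
  induction n with
  | zero => intro U h; exact absurd (Nat.le_zero.mp h) Nat.card_pos.ne'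
  | succ n ih =>
    intro U hU
    by_cases hUA : U ≤ centralizer (A : Set E)
    · have h1 : A ≤ centralizer (U : Set E) := le_centralizer_iff.mp hUA
      rw [relIndex_eq_one.mpr h1, relIndex_eq_one.mpr hUA]
    · obtain ⟨u, hu, huA⟩ := SetLike.not_le_iff_exists.mp hUA
      rw [mem_centralizer_iff] at huA
      push Not at huA
      obtain ⟨a, ha, hau⟩ := huA
      let f : U →* zpowers z := (((D.homL a).comp U.subtype).codRestrict (zpowers z) (fun b => D.comm' b a))
      set V : Subgroup E := U ⊓ centralizer ({a} : Set E) with hV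
      have hker : f.ker = V.subgroupOf U := by
        ext b
        rw [MonoidHom.mem_ker, mem_subgroupOf]
        constructor
        · intro h
          refine mem_inf.mpr ⟨b.2, ?_⟩
          rw [mem_centralizer_singleton_iff, ← commutatorElement_eq_one_iff_mul_comm]
          exact congrArg Subtype.val h
        · intro h
          have h2 := (mem_inf.mp h).2
          rw [mem_centralizer_singleton_iff, ← commutatorElement_eq_one_iff_mul_comm] at h2
          exact Subtype.ext h2
      have hVU : V ≤ U := inf_le_left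
      have hidx : V.relIndex U = 2 := by
        have h1 : V.relIndex U = Nat.card f.range := by rw [relIndex, ← hker, index_ker]
        have h2 : Nat.card f.range ∣ 2 := by
          have := Subgroup.card_subgroup_dvd_card f.range
          rwa [Nat.card_zpowers, D.ord] at this
        rcases (Nat.dvd_prime hp.out).mp h2 with h | h
        · exfalso
          have h3 : V.relIndex U = 1 := by rw [h1, h]
          rw [relIndex_eq_one] at h3
          have h4 := (mem_inf.mp (h3 hu)).2
          rw [mem_centralizer_singleton_iff] at h4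
          exact hau h4.symm
        · rw [h1, h]
      have huV : u ∉ V := fun h => hau (mem_centralizer_singleton_iff.mp (mem_inf.mp h).2).symm
      have hlt : Nat.card V < Nat.card U := by
        apply Cfsg.Agent.Lib.Basic.card_lt_card_of_lt
        exact lt_of_le_of_ne hVU (fun h => huV (h ▸ hu))
      have hsup : V ⊔ zpowers u = U := by
        have h1 : V ⊔ zpowers u ≤ U := sup_le hVU (by rw [zpowers_le]; exact hu)
        have h2 := relIndex_mul_relIndex V (V ⊔ zpowers u) U le_sup_left h1
        rw [hidx] at h2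
        have h3 : V.relIndex (V ⊔ zpowers u) ≠ 1 := by
          intro h
          rw [relIndex_eq_one] at h
          exact huV (h (mem_sup_right (mem_zpowers u)))
        have h4 : (V ⊔ zpowers u).relIndex U = 1 := by
          have h5 : V.relIndex (V ⊔ zpowers u) ∣ 2 := ⟨_, h2.symm⟩
          rcases (Nat.dvd_prime hp.out).mp h5 with h | h
          · exact absurd h h3
          · rw [h] at h2
            exact Nat.eq_of_mul_eq_mul_left hp.out.pos (by rw [h2, mul_one])
        exact le_antisymm h1 (relIndex_eq_one.mp h4)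
      have hcen : centralizer (U : Set E) = centralizer (V : Set E) ⊓ centralizer ({u} : Set E) := by
        apply le_antisymm
        · refine le_inf (centralizer_le hVU) ?_
          exact centralizer_le (Set.singleton_subset_iff.mpr hu)
        · have h1 : U ≤ centralizer ((centralizer (V : Set E) ⊓ centralizer ({u} : Set E) : Subgroup E) : Set E) := by
            rw [← hsup]
            refine sup_le ?_ ?_
            · rw [← le_centralizer_iff]; exact inf_le_left
            · rw [zpowers_le, mem_centralizer_iff]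
              intro c hc
              exact mem_centralizer_singleton_iff.mp (mem_inf.mp hc).2
          exact le_centralizer_iff.mp h1
      calc (centralizer (U : Set E)).relIndex A
          ≤ (centralizer (V : Set E)).relIndex A * (centralizer ({u} : Set E)).relIndex A := by
            rw [hcen]; exact relIndex_inf_le
        _ ≤ (centralizer (A : Set E)).relIndex V * 2 :=
            Nat.mul_le_mul (ih V (by omega)) (relIndex_centralizer_le D A u)
        _ = (centralizer (A : Set E)).relIndex U := by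
            have h1 : (centralizer (A : Set E) ⊓ U).relIndex U = (centralizer (A : Set E)).relIndex U :=
              inf_relIndex_right _ _
            have h2 : centralizer (A : Set E) ⊓ U ≤ V := by
              refine le_inf inf_le_right (inf_le_left.trans ?_)
              exact centralizer_le (Set.singleton_subset_iff.mpr ha)
            have h3 := relIndex_mul_relIndex _ V U h2 hVU
            rw [hidx, h1] at h3
            rw [← h3]
            congr 1
            have h4 : (centralizer (A : Set E) ⊓ U) ⊓ V = centralizer (A : Set E) ⊓ V := by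
              rw [inf_assoc, inf_eq_right.mpr hVU]
            rw [← inf_relIndex_right (centralizer (A : Set E)) V, ← h4, inf_relIndex_right]

/-- every character with values in `⟨z⟩` trivial on the centre is a commutator map -/
theorem inner_of [Finite E] (D : PD z) (l : E →* E) (hl : ∀ x, l x = 1 ∨ l x = z) (hc : ∀ x ∈ center E, l x = 1) :
    ∃ g : E, ∀ x : E, ⁅g, x⁆ = l x := by
  by_cases ht : ∀ x, l x = 1
  · exact ⟨1, fun x => by rw [commutatorElement_one_left, ht]⟩
  push Not at ht
  obtain ⟨a, ha⟩ := ht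
  have haz : l a = z := (hl a).resolve_left ha
  set K : Subgroup E := l.ker with hK
  have hidx : K.index = 2 := by
    rw [index_eq_two_iff]
    refine ⟨a, fun b => ?_⟩
    rw [hK, MonoidHom.mem_ker, MonoidHom.mem_ker, map_mul, haz]
    rcases hl b with h | h <;> rw [h]
    · right
      exact ⟨rfl, by rw [one_mul]; exact D.z1⟩
    · left
      exact ⟨D.zz, D.z1⟩
  have hZK : center E ≤ K := fun x hx => hc x hx
  -- `C(K) ≠ Z(E)`
  have h1 := relIndex_le D ⊤ _ K le_rfl
  rw [relIndex_top_right, coe_top, centralizer_univ] at h1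
  have h2 := relIndex_mul_index hZK
  rw [hidx] at h2
  have h3 : ∃ g ∈ centralizer (K : Set E), g ∉ center E := by
    by_contra hcon
    push Not at hcon
    have h4 : centralizer (K : Set E) ≤ center E := hcon
    have h5 : (center E).index ≤ (centralizer (K : Set E)).index :=
      Nat.le_of_dvd (Nat.pos_of_ne_zero index_ne_zero_of_finite) (index_dvd_of_le h4)
    have h6 : 0 < (center E).relIndex K := Nat.pos_of_ne_zero (by
      intro h
      rw [h, zero_mul] at h2
      exact index_ne_zero_of_finite h2.symm)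
    omega
  obtain ⟨g, hg, hgc⟩ := h3
  have hgK : ∀ x ∈ K, g * x = x * g := fun x hx => (mem_centralizer_iff.mp hg x hx).symm
  refine ⟨g, fun x => ?_⟩
  by_cases hx : x ∈ K
  · rw [show l x = 1 from hx, commutatorElement_eq_one_iff_mul_comm]
    exact hgK x hx
  · rw [(hl x).resolve_left hx]
    refine (D.comm g x).resolve_left fun h => hgc ?_
    rw [commutatorElement_eq_one_iff_mul_comm] at h
    rw [mem_center_iff]
    intro y
    by_cases hy : y ∈ K
    · exact (hgK y hy).symm
    · have h4 : x⁻¹ * y ∈ K := by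
        rw [mul_mem_iff_of_index_two hidx]
        exact ⟨fun h' => absurd (inv_mem_iff.mp h') hx, fun h' => absurd h' hy⟩
      have h5 := hgK _ h4
      calc y * g = x * ((x⁻¹ * y) * g) := by group
        _ = x * g * (x⁻¹ * y) := by rw [← h5]; group
        _ = g * y := by rw [← h]; group

end PD

/-- commutators in a `2`-group of symplectic type of exponent dividing four -/
theorem sympl4 {T : Type*} [Group T] [Finite T] (hT : Cfsg.IsOfSymplecticType T) (h4 : ∀ x : T, x ^ 4 = 1) {z : T}
    (hz : orderOf z = 2) (hzc : ∀ x, x * z = z * x) : ∀ x y : T, ⁅x, y⁆ = 1 ∨ ⁅x, y⁆ = z := by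
  haveI : Fact (Nat.Prime 2) := ⟨Nat.prime_two⟩
  have hzz : z * z = 1 := by rw [← pow_two, ← hz, pow_orderOf_eq_one]
  have hz1 : z ≠ 1 := fun h => by rw [h, orderOf_one] at hz; norm_num at hz
  have hzi : z⁻¹ = z := inv_eq_of_mul_eq_one_left hzz
  obtain ⟨H, hHc, hCH, hcomm, hsq⟩ := Cfsg.Agent.Lib.PGrpB.exists_critical (p := 2) hT.1
  have hZchar : (H ⊓ centralizer (H : Set T)).Characteristic := inferInstance
  have hZab : IsMulCommutative ↥(H ⊓ centralizer (H : Set T)) :=
    ⟨⟨fun x y => Subtype.ext (mem_centralizer_iff.mp y.2.2 x x.2.1)⟩⟩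
  have hZcyc := hT.2 _ hZchar hZab
  set Z : Subgroup T := H ⊓ centralizer (H : Set T) with hZ
  have hZn : Z.Normal := inferInstance
  have hzH : z ∈ H := hCH (mem_centralizer_iff.mpr fun y _ => hzc y)
  have hzZ : z ∈ Z := ⟨hzH, mem_centralizer_iff.mpr fun y _ => hzc y⟩
  have hZc : ∀ c ∈ Z, ∀ h ∈ H, c * h = h * c := fun c hc h hh => (mem_centralizer_iff.mp hc.2 h hh).symm
  have inv : ∀ c ∈ Z, c * c = 1 → c = 1 ∨ c = z := by
    intro c hc hcc
    by_cases h : c = 1
    · exact Or.inl h
    · right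
      exact Cfsg.Agent.Lib.TiSub.unique_inv Z hZcyc hc hzZ (orderOf_eq_prime (by rw [pow_two, hcc]) h) hz
  have h4' : ∀ x : T, (x * x) * (x * x) = 1 := by
    intro x
    rw [← h4 x]
    simp only [pow_succ, pow_zero, one_mul, mul_assoc]
  have hZsq : ∀ c ∈ Z, c * c = 1 ∨ c * c = z := fun c hc => inv _ (mul_mem hc hc) (h4' c)
  have hHsq : ∀ x ∈ H, x * x = 1 ∨ x * x = z := by
    intro x hx
    have h1 := hsq x hx
    rw [pow_two] at h1
    exact inv _ h1 (h4' x)
  have hεc : ∀ ε : T, (ε = 1 ∨ ε = z) → ∀ x, x * ε = ε * x := by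
    rintro ε (rfl | rfl) x
    · rw [mul_one, one_mul]
    · exact hzc x
  have hεε : ∀ ε : T, (ε = 1 ∨ ε = z) → ε * ε = 1 := by
    rintro ε (rfl | rfl)
    · rw [mul_one]
    · exact hzz
  have hHH : ∀ x ∈ H, ∀ y ∈ H, ⁅x, y⁆ = 1 ∨ ⁅x, y⁆ = z := by
    intro x hx y hy
    have h1 : ⁅x, y⁆ ∈ Z := hcomm x hx y
    refine inv _ h1 ?_
    have h2 := hZc _ h1 x hx
    have h3 : ⁅x * x, y⁆ = ⁅x, y⁆ * ⁅x, y⁆ := by
      have e : ⁅x * x, y⁆ = x * ⁅x, y⁆ * x⁻¹ * ⁅x, y⁆ := by simp only [commutatorElement_def]; group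
      rw [e, ← h2, mul_inv_cancel_right]
    rw [← h3, commutatorElement_eq_one_iff_mul_comm]
    exact (hεc _ (hHsq x hx) y).symm
  have D : PD (⟨z, hzH⟩ : H) := by
    refine ⟨Subtype.ext hzz, fun h => hz1 (congrArg Subtype.val h), fun x => Subtype.ext (hzc x), fun x y => ?_⟩
    rcases hHH x x.2 y y.2 with h | h
    · exact Or.inl (Subtype.ext h)
    · exact Or.inr (Subtype.ext h)
  -- elements centralizing `Z` lie in `H`
  have hT0 : ∀ t : T, (∀ c ∈ Z, t * c = c * t) → t ∈ H := by
    intro t ht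
    have hm : ∀ h ∈ H, ⁅t, h⁆ ∈ Z := by
      intro h hh
      have := inv_mem (hcomm h hh t)
      rwa [commutatorElement_inv] at this
    have hv : ∀ h ∈ H, ⁅t, h⁆ = 1 ∨ ⁅t, h⁆ = z := by
      intro h hh
      refine inv _ (hm h hh) ?_
      have h2 := hZc _ (hm h hh) h hh
      have h3 : ⁅t, h * h⁆ = ⁅t, h⁆ * ⁅t, h⁆ := by
        have e : ⁅t, h * h⁆ = ⁅t, h⁆ * (h * ⁅t, h⁆ * h⁻¹) := by simp only [commutatorElement_def]; group
        rw [e, ← h2, mul_inv_cancel_right]
      rw [← h3, commutatorElement_eq_one_iff_mul_comm]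
      exact hεc _ (hHsq h hh) t
    let l : H →* H :=
      { toFun := fun h => ⟨⁅t, (h : T)⁆, (hm h h.2).1⟩
        map_one' := Subtype.ext (commutatorElement_one_right t)
        map_mul' := fun h k => Subtype.ext (by
          show ⁅t, (h : T) * k⁆ = ⁅t, (h : T)⁆ * ⁅t, (k : T)⁆
          have h2 := hZc _ (hm k k.2) h h.2
          have e : ⁅t, (h : T) * k⁆ = ⁅t, (h : T)⁆ * (h * ⁅t, (k : T)⁆ * (h : T)⁻¹) := by
            simp only [commutatorElement_def]; group
          rw [e, ← h2, mul_inv_cancel_right]) }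
    obtain ⟨g, hg⟩ := D.inner_of l (fun h => by
      rcases hv h h.2 with h' | h'
      · exact Or.inl (Subtype.ext h')
      · exact Or.inr (Subtype.ext h')) (fun h hh => by
      apply Subtype.ext
      show ⁅t, (h : T)⁆ = 1
      rw [commutatorElement_eq_one_iff_mul_comm]
      refine ht h ⟨h.2, mem_centralizer_iff.mpr fun y hy => ?_⟩
      exact congrArg Subtype.val (mem_center_iff.mp hh ⟨y, hy⟩))
    have h1 : (g : T)⁻¹ * t ∈ centralizer (H : Set T) := by
      rw [mem_centralizer_iff]
      intro y hy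
      have h2 : ⁅(g : T), y⁆ = ⁅t, y⁆ := congrArg Subtype.val (hg ⟨y, hy⟩)
      rw [commutatorElement_def, commutatorElement_def] at h2
      have h3 : (g : T) * y * (g : T)⁻¹ = t * y * t⁻¹ := mul_right_cancel h2
      calc y * ((g : T)⁻¹ * t) = (g : T)⁻¹ * ((g : T) * y * (g : T)⁻¹) * t := by group
        _ = (g : T)⁻¹ * t * y := by rw [h3]; group
    have e : t = g * ((g : T)⁻¹ * t) := by group
    rw [e]
    exact mul_mem g.2 (hCH h1)
  -- elements outside `H`
  have hout : ∀ t : T, t ∉ H → ∃ c ∈ Z, c * c = z ∧ t * c * t⁻¹ = z * c := by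
    intro t ht
    have h1 : ¬ ∀ c ∈ Z, t * c = c * t := fun h => ht (hT0 t h)
    push Not at h1
    obtain ⟨c, hc, hct⟩ := h1
    have hcc : c * c = z := by
      refine (hZsq c hc).resolve_left fun h => hct ?_
      exact hεc _ (inv c hc h) t
    refine ⟨c, hc, hcc, ?_⟩
    have h2 : t * c * t⁻¹ ∈ Z := hZn.conj_mem c hc t
    have h3 : (t * c * t⁻¹ * c⁻¹) * (t * c * t⁻¹ * c⁻¹) = 1 := by
      have h5 := hZc _ h2 c⁻¹ (inv_mem hc.1)
      calc (t * c * t⁻¹ * c⁻¹) * (t * c * t⁻¹ * c⁻¹) = (t * c * t⁻¹ * c⁻¹) * (c⁻¹ * (t * c * t⁻¹)) := by rw [h5]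
        _ = (t * c * t⁻¹) * (c * c)⁻¹ * (t * c * t⁻¹) := by group
        _ = (t * c * t⁻¹) * z⁻¹ * (t * c * t⁻¹) := by rw [hcc]
        _ = t * (c * c) * t⁻¹ * z⁻¹ := by
            have h6 : (t * c * t⁻¹) * z⁻¹ = z⁻¹ * (t * c * t⁻¹) := by
              rw [hzi]; exact hzc _
            rw [h6, mul_assoc, show (t * c * t⁻¹) * (t * c * t⁻¹) = t * (c * c) * t⁻¹ by group, hcc, hzc t]
            group
        _ = 1 := by rw [hcc, hzc t]; group
    have h4 : t * c * t⁻¹ * c⁻¹ ∈ Z := mul_mem h2 (inv_mem hc)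
    rcases inv _ h4 h3 with h | h
    · exfalso
      apply hct
      rwa [mul_inv_eq_one, mul_inv_eq_iff_eq_mul] at h
    · rwa [mul_inv_eq_iff_eq_mul] at h
  have hZ4 : ∀ c ∈ Z, c * c = z → ∀ d ∈ Z, d * d = z → d = c ∨ d = z * c := by
    intro c hc hcc d hd hdd
    have h1 : (d * c⁻¹) * (d * c⁻¹) = 1 := by
      have h5 := hZc _ hd c⁻¹ (inv_mem hc.1)
      calc (d * c⁻¹) * (d * c⁻¹) = (d * c⁻¹) * (c⁻¹ * d) := by rw [h5]
        _ = d * (c * c)⁻¹ * d := by group
        _ = d * z⁻¹ * d := by rw [hcc]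
        _ = (d * d) * z⁻¹ := by
            have h6 : d * z⁻¹ = z⁻¹ * d := by
              rw [hzi]; exact hzc _
            rw [h6, mul_assoc, hdd]; group
        _ = 1 := by rw [hdd, mul_inv_cancel]
    rcases inv _ (mul_mem hd (inv_mem hc)) h1 with h | h
    · left; rwa [mul_inv_eq_one] at h
    · right; rwa [mul_inv_eq_iff_eq_mul] at h
  have hout2 : ∀ t t' : T, t ∉ H → t' ∉ H → t⁻¹ * t' ∈ H := by
    intro t t' ht ht'
    obtain ⟨c, hc, hcc, h1⟩ := hout t ht
    obtain ⟨d, hd, hdd, h2⟩ := hout t' ht'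
    have h3 : t' * c * t'⁻¹ = z * c := by
      rcases hZ4 d hd hdd c hc hcc with h | h
      · rw [h]; exact h2
      · rw [h]
        calc t' * (z * d) * t'⁻¹ = (t' * z) * d * t'⁻¹ := by group
          _ = z * (t' * d * t'⁻¹) := by rw [hzc t']; group
          _ = z * (z * d) := by rw [h2]
    have h4 : (t⁻¹ * t') * c = c * (t⁻¹ * t') := by
      have h5 : t⁻¹ * (z * c) * t = c := by rw [← h1]; group
      calc (t⁻¹ * t') * c = t⁻¹ * (t' * c * t'⁻¹) * t' := by group
        _ = (t⁻¹ * (z * c) * t) * (t⁻¹ * t') := by rw [h3]; group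
        _ = c * (t⁻¹ * t') := by rw [h5]
    apply hT0
    intro e he
    rcases hZsq e he with h | h
    · exact hεc _ (inv e he h) _
    · rcases hZ4 c hc hcc e he h with h' | h'
      · rw [h']; exact h4
      · rw [h']
        calc t⁻¹ * t' * (z * c) = ((t⁻¹ * t') * z) * c := by group
          _ = z * ((t⁻¹ * t') * c) := by rw [hzc]; group
          _ = z * c * (t⁻¹ * t') := by rw [h4]; group
  have hxh : ∀ x : T, x ∉ H → ∀ h ∈ H, ⁅x, h⁆ = 1 ∨ ⁅x, h⁆ = z := by
    intro x hx h hh
    have hd : ⁅x, h⁆ ∈ Z := by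
      have := inv_mem (hcomm h hh x)
      rwa [commutatorElement_inv] at this
    refine inv _ hd ?_
    refine (hZsq _ hd).resolve_right fun hdd => hz1 ?_
    set d := ⁅x, h⁆ with hdef
    have hxhx : x * h * x⁻¹ = d * h := by rw [hdef, commutatorElement_def]; group
    have hxx : x * x ∈ H := by
      have := hout2 x⁻¹ x (fun h' => hx (by simpa using inv_mem h')) hx
      rwa [inv_inv] at this
    have h1 : ∃ ε : T, (ε = 1 ∨ ε = z) ∧ h * (x * x) * h = ε * (x * x) := by
      refine ⟨⁅h, x * x⁆ * (h * h), ?_, ?_⟩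
      · rcases hHH h hh (x * x) hxx with h1 | h1 <;> rcases hHsq h hh with h2 | h2 <;> rw [h1, h2]
        · left; rw [one_mul]
        · right; rw [one_mul]
        · right; rw [mul_one]
        · left; exact hzz
      · have h2 := hεc _ (hHsq h hh) (x * x)
        calc h * (x * x) * h = ⁅h, x * x⁆ * ((x * x) * (h * h)) := by rw [commutatorElement_def]; group
          _ = ⁅h, x * x⁆ * (h * h) * (x * x) := by rw [h2]; group
    obtain ⟨ε, hε, h1⟩ := h1
    have h2 : (x * h) * (x * h) = d * (ε * (x * x)) := by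
      calc (x * h) * (x * h) = (x * h * x⁻¹) * (x * x) * h := by group
        _ = d * (h * (x * x) * h) := by rw [hxhx]; group
        _ = d * (ε * (x * x)) := by rw [h1]
    have h3 := h4' (x * h)
    rw [h2] at h3
    have h5 := hZc _ hd (x * x) hxx
    have h6 := hεc ε hε
    calc z = d * d := hdd.symm
      _ = d * d * (ε * ε) * ((x * x) * (x * x)) := by rw [hεε ε hε, h4', mul_one, mul_one]
      _ = d * (d * ε) * (ε * (x * x)) * (x * x) := by group
      _ = d * (ε * d) * ((x * x) * ε) * (x * x) := by rw [h6 d, h6 (x * x)]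
      _ = d * ε * (d * (x * x)) * (ε * (x * x)) := by group
      _ = d * ε * ((x * x) * d) * (ε * (x * x)) := by rw [h5]
      _ = d * (ε * (x * x)) * (d * (ε * (x * x))) := by group
      _ = 1 := h3
  intro x y
  by_cases hx : x ∈ H
  · by_cases hy : y ∈ H
    · exact hHH x hx y hy
    · have := hxh y hy x hx
      rw [← commutatorElement_inv]
      rcases this with h | h <;> rw [h]
      · left; rw [inv_one]
      · right; exact inv_eq_of_mul_eq_one_left hzz
  · by_cases hy : y ∈ H
    · exact hxh x hx y hy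
    · have h1 := hout2 x y hx hy
      have h2 := hxh x hx _ h1
      have e : ⁅x, y⁆ = x * ⁅x, x⁻¹ * y⁆ * x⁻¹ := by simp only [commutatorElement_def]; group
      rw [e]
      rcases h2 with h | h <;> rw [h]
      · left; group
      · right; rw [hzc x, mul_inv_cancel_right]

/-- `LQ` for a subgroup of the centralizer of symplectic type and exponent four -/
theorem LQ_of_sympl {G : Type*} [Group G] [Finite G] {z : G} (hz : orderOf z = 2) {C : Subgroup G}
    (hC : C = centralizer ({z} : Set G)) {F : Subgroup C} (hFn : F.Normal) (hcF : centralizer (F : Set C) ≤ F)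
    (hQ : Cfsg.IsOfSymplecticType F) (h4 : ∀ q ∈ F.map C.subtype, q ^ 4 = 1) : LQ (F.map C.subtype) z := by
  haveI : Fact (Nat.Prime 2) := ⟨Nat.prime_two⟩
  have hzC : z ∈ C := by rw [hC, mem_centralizer_singleton_iff]
  have hcz : ∀ f : C, (f : G) * z = z * f := fun f => mem_centralizer_singleton_iff.mp (hC ▸ f.2)
  have hzF : (⟨z, hzC⟩ : C) ∈ F := by
    apply hcF
    rw [mem_centralizer_iff]
    intro f _
    exact Subtype.ext (hcz f)
  have hF4 : ∀ x : F, x ^ 4 = 1 := fun x => Subtype.ext (Subtype.ext (h4 _ ⟨x, x.2, rfl⟩))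
  have hoz : orderOf (⟨⟨z, hzC⟩, hzF⟩ : F) = 2 := by
    rw [← hz]
    rw [← orderOf_injective (C.subtype.comp F.subtype) (by
      rw [MonoidHom.coe_comp]
      exact (subtype_injective C).comp (subtype_injective F)) (⟨⟨z, hzC⟩, hzF⟩ : F)]
    rfl
  have hcomm := sympl4 hQ hF4 hoz (fun x => Subtype.ext (Subtype.ext (hcz x)))
  refine ⟨(hQ.1).map C.subtype, ⟨⟨z, hzC⟩, hzF, rfl⟩, hz, ?_, ?_, ?_, ?_, ?_⟩
  · rintro _ ⟨f, _, rfl⟩
    exact hcz f
  · rintro _ ⟨x, hx, rfl⟩ _ ⟨y, hy, rfl⟩
    rcases hcomm ⟨x, hx⟩ ⟨y, hy⟩ with h | h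
    · left; exact congrArg (fun f : F => ((f : C) : G)) h
    · right; exact congrArg (fun f : F => ((f : C) : G)) h
  · rintro _ ⟨x, hx, rfl⟩ hc hxx
    have hxcen : (⟨x, hx⟩ : F) ∈ center F := by
      rw [mem_center_iff]
      intro y
      exact Subtype.ext (Subtype.ext (hc _ ⟨y, y.2, rfl⟩).symm)
    by_cases hx1 : x = 1
    · left; rw [hx1]; rfl
    · right
      have h1 := Cfsg.Agent.Lib.TiSub.unique_inv (center F) (hQ.2 _ inferInstance inferInstance) hxcen
        (mem_center_iff.mpr fun y => Subtype.ext (Subtype.ext (hcz y))) (orderOf_eq_prime (by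
          rw [pow_two]
          exact Subtype.ext (Subtype.ext hxx)) (fun h => hx1 (congrArg Subtype.val h))) hoz
      exact congrArg (fun f : F => ((f : C) : G)) h1
  · intro x hx
    have hxC : x ∈ C := by
      rw [hC, mem_centralizer_singleton_iff]
      exact (mem_centralizer_iff.mp hx z ⟨⟨z, hzC⟩, hzF, rfl⟩).symm
    refine ⟨⟨x, hxC⟩, hcF ?_, rfl⟩
    rw [mem_centralizer_iff]
    intro f hf
    exact Subtype.ext (mem_centralizer_iff.mp hx f ⟨f, hf, rfl⟩)
  · rw [← hC]
    intro x hx
    have key : ∀ y ∈ C, ∀ q ∈ F.map C.subtype, y * q * y⁻¹ ∈ F.map C.subtype := by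
      rintro y hy _ ⟨q, hq, rfl⟩
      exact ⟨⟨y, hy⟩ * q * ⟨y, hy⟩⁻¹, hFn.conj_mem q hq ⟨y, hy⟩, rfl⟩
    rw [mem_normalizer_iff]
    intro q
    refine ⟨key x hx q, fun h => ?_⟩
    have := key x⁻¹ (inv_mem hx) _ h
    have e : x⁻¹ * (x * q * x⁻¹) * x⁻¹⁻¹ = q := by group
    rwa [e] at this

end Cfsg.Agent.Lib.LargeEx
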