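import Cfsg.Agent.Lib.LargeExG
import Cfsg.Agent.Lib.Coprime

/-!
# Large extraspecial subgroups in sections
-/

universe u v w

open Subgroup
open scoped commutatorElement Pointwise

namespace Cfsg.Agent.Lib.LargeEx

variable {G : Type*} [Group G] {Q : Subgroup G} {z : G}

theorem LE.norm_z (L : LE Q z) {a : G} (hN : a ∈ normalizer (Q : Set G)) : a * z = z * a := by
  have h3 : a * z * a⁻¹ ∈ Q := (mem_normalizer_iff.mp hN z).mp L.zQ
  have h4 : ∀ y ∈ Q, (a * z * a⁻¹) * y = y * (a * z * a⁻¹) := by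
    intro y hy
    have h5 : a⁻¹ * y * a ∈ Q := by
      have := (mem_normalizer_iff.mp (inv_mem hN) y).mp hy
      rwa [inv_inv] at this
    have h6 := L.zc _ h5
    calc a * z * a⁻¹ * y = a * (z * (a⁻¹ * y * a)) * a⁻¹ := by group
      _ = y * (a * z * a⁻¹) := by rw [← h6]; group
  rcases L.cen' _ h3 h4 with h | h
  · exfalso
    apply L.z1
    calc z = a⁻¹ * (a * z * a⁻¹) * a := by group
      _ = 1 := by rw [h]; group
  · rwa [mul_inv_eq_iff_eq_mul] at h

/-- the centralizer in `Q` of an odd order group acting has centre in `⟨z⟩` -/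
theorem LE.cen_of_odd [Finite G] (L : LE Q z) {A : Subgroup G} (hA : A ≤ normalizer (Q : Set G)) (hAodd : Odd (Nat.card A))
    {x : G} (hx : x ∈ Q ⊓ centralizer (A : Set G)) (hxc : ∀ y ∈ Q ⊓ centralizer (A : Set G), x * y = y * x) :
    x = 1 ∨ x = z := by
  haveI : Fact (Nat.Prime 2) := ⟨Nat.prime_two⟩
  have hcop : (Nat.card A).Coprime (Nat.card Q) := by
    obtain ⟨n, hn⟩ := IsPGroup.iff_card.mp L.pg
    rw [hn]
    exact Nat.Coprime.pow_right n (Nat.coprime_two_right.mpr hAodd)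
  have hnil : Group.IsNilpotent Q := L.pg.isNilpotent
  have hsolv : Group.IsSolvable A ∨ Group.IsSolvable Q := Or.inr inferInstance
  have h1 := Cfsg.Agent.Lib.Coprime.commutator_sup_centralizer hA hcop hsolv
  have hAz : ∀ a ∈ A, a * z = z * a := fun a ha => L.norm_z (hA ha)
  have hCQ : Q ⊓ centralizer (A : Set G) ≤ Q := inf_le_left
  have hcomm : ⁅⁅Q, A⁆, Q ⊓ centralizer (A : Set G)⁆ = ⊥ := by
    apply commutator_commutator_eq_bot_of_rotate
    · have h3 : ⁅A, Q ⊓ centralizer (A : Set G)⁆ = ⊥ := by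
        rw [commutator_comm, commutator_eq_bot_iff_le_centralizer]
        exact inf_le_right
      rw [h3, commutator_bot_left]
    · rw [commutator_eq_bot_iff_le_centralizer]
      have h3 : ⁅Q ⊓ centralizer (A : Set G), Q⁆ ≤ zpowers z := by
        rw [commutator_le]
        intro x hx y hy
        rcases L.comm x (hCQ hx) y hy with h | h <;> rw [h]
        · exact one_mem _
        · exact mem_zpowers z
      refine h3.trans ?_
      rw [zpowers_le, mem_centralizer_iff]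
      exact fun a ha => hAz a ha
  rw [commutator_eq_bot_iff_le_centralizer] at hcomm
  refine L.cen' x hx.1 ?_
  have h3 : ⁅Q, A⁆ ⊔ (Q ⊓ centralizer (A : Set G)) ≤ centralizer ({x} : Set G) := by
    refine sup_le (fun c hc => mem_centralizer_singleton_iff.mpr ?_)
      (fun c hc => mem_centralizer_singleton_iff.mpr (hxc c hc).symm)
    exact (mem_centralizer_iff.mp (hcomm hc) x hx).symm
  rw [h1] at h3
  exact fun y hy => (mem_centralizer_singleton_iff.mp (h3 hy)).symm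

/-- the image of a subgroup in a quotient is large extraspecial -/
theorem large_map {M B : Type*} [Group M] [Group B] [Finite B] (π : M →* B) (hπ : Function.Surjective π)
    {R P : Subgroup M} {z a : M} (hR : IsPGroup 2 R) (hzR : z ∈ R) (hzz : z * z = 1) (hz : π z ≠ 1)
    (comm : ∀ x ∈ R, ∀ y ∈ R, ⁅x, y⁆ = 1 ∨ ⁅x, y⁆ = z)
    (cen : ∀ x ∈ R, (∀ y ∈ R, π ⁅x, y⁆ = 1) → π x = 1 ∨ π x = π z)
    (cent : ∀ x : M, (∀ y ∈ R, π ⁅x, y⁆ = 1) → π x ∈ R.map π)
    (norm : ∀ x : M, π ⁅x, z⁆ = 1 → ∀ y ∈ R, π (x * y * x⁻¹) ∈ R.map π)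
    (haR : a ∈ R) (haa : a * a = 1) (ha1 : π a ≠ 1) (haz : π a ≠ π z)
    (hP : IsPGroup 2 P) (hzP : z ∈ P) (normP : ∀ x : M, π ⁅x, a⁆ = 1 → ∀ y ∈ P, π (x * y * x⁻¹) ∈ P.map π) :
    Cfsg.IsLargeExtraspecial (R.map π) := by
  haveI : Fact (Nat.Prime 2) := ⟨Nat.prime_two⟩
  have ho : orderOf (π z) = 2 := orderOf_eq_prime (by rw [pow_two, ← map_mul, hzz, map_one]) hz
  have hpc : ∀ x y : M, π x * π y = π y * π x ↔ π ⁅x, y⁆ = 1 := by
    intro x y
    rw [← commutatorElement_eq_one_iff_mul_comm, map_commutatorElement]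
  have hcen' : ∀ x ∈ R.map π, (∀ y ∈ R.map π, x * y = y * x) → x = 1 ∨ x = π z := by
    rintro _ ⟨x, hx, rfl⟩ h
    exact cen x hx fun y hy => (hpc x y).mp (h _ ⟨y, hy, rfl⟩)
  have hcomm' : ∀ x ∈ R.map π, ∀ y ∈ R.map π, ⁅x, y⁆ = 1 ∨ ⁅x, y⁆ = π z := by
    rintro _ ⟨x, hx, rfl⟩ _ ⟨y, hy, rfl⟩
    rw [← map_commutatorElement]
    rcases comm x hx y hy with h | h <;> rw [h]
    · left; rw [map_one]
    · right; rfl
  have hE : Cfsg.IsExtraspecial 2 ↥(R.map π) := by
    refine extraspecial_of (hR.map π) ⟨z, hzR, rfl⟩ ho hcomm' hcen' ?_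
    by_contra hcon
    push Not at hcon
    rcases hcen' (π a) ⟨a, haR, rfl⟩ (hcon (π a) ⟨a, haR, rfl⟩) with h | h
    · exact ha1 h
    · exact haz h
  have hzc : ∀ x ∈ R.map π, x * π z = π z * x := by
    intro x hx
    rcases hcomm' x hx (π z) ⟨z, hzR, rfl⟩ with h | h
    · exact commutatorElement_eq_one_iff_mul_comm.mp h
    · exfalso
      rw [commutatorElement_def] at h
      apply hz
      have hpp : π z * π z = 1 := by rw [← map_mul, hzz, map_one]
      have h2 : x * π z * x⁻¹ = 1 := by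
        calc x * π z * x⁻¹ = (x * π z * x⁻¹ * (π z)⁻¹) * π z := by group
          _ = 1 := by rw [h, hpp]
      calc π z = x⁻¹ * (x * π z * x⁻¹) * x := by group
        _ = 1 := by rw [h2]; group
  have L : LE (R.map π) (π z) := by
    refine of_extraspecial hE ⟨z, hzR, rfl⟩ ho hzc ?_ ?_
    · intro x hx
      obtain ⟨x, rfl⟩ := hπ x
      exact cent x fun y hy => (hpc x y).mp (mem_centralizer_iff.mp hx _ ⟨y, hy, rfl⟩).symm
    · refine le_normalizer_of_conj fun x hx y hy => ?_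
      obtain ⟨x, rfl⟩ := hπ x
      obtain ⟨y, hy, rfl⟩ := hy
      have := norm x ((hpc x z).mp (mem_centralizer_singleton_iff.mp hx)) y hy
      rwa [map_mul, map_mul, map_inv] at this
  refine ⟨hE, L.cen_eq, L.cz_le, fun K hK hQK => ?_⟩
  refine odd_trivial' L.toLQ ⟨a, haR, rfl⟩ (by rw [← map_mul, haa, map_one]) ha1 haz (P := P.map π) (hP.map π)
    ⟨z, hzP, rfl⟩ ?_ hK hQK
  refine le_normalizer_of_conj fun x hx y hy => ?_
  obtain ⟨x, rfl⟩ := hπ x
  obtain ⟨y, hy, rfl⟩ := hy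
  have := normP x ((hpc x a).mp (mem_centralizer_singleton_iff.mp hx)) y hy
  rwa [map_mul, map_mul, map_inv] at this

/-- order argument -/
theorem comm_of_odd [Finite G] {A : Subgroup G} (hAodd : Odd (Nat.card A)) {x r : G} (hr : r ∈ centralizer (A : Set G))
    (hrp : ∃ k : ℕ, r ^ 2 ^ k = 1) (h : x * r * x⁻¹ * r⁻¹ ∈ A) : x * r = r * x := by
  obtain ⟨k, hk⟩ := hrp
  set α : G := x * r * x⁻¹ * r⁻¹ with hα
  have h1 : Commute α r := (mem_centralizer_iff.mp hr α h)
  have h2 : x * r * x⁻¹ = α * r := by rw [hα]; group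
  have h3 : α ^ 2 ^ k = 1 := by
    have h4 : (α * r) ^ 2 ^ k = 1 := by rw [← h2, conj_pow, hk]; group
    rw [h1.mul_pow, hk, mul_one] at h4
    exact h4
  have h5 : α = 1 := by
    rw [← orderOf_eq_one_iff]
    have e1 := orderOf_dvd_of_pow_eq_one h3
    have e2 : orderOf α ∣ Nat.card A := by
      have := orderOf_dvd_natCard (⟨α, h⟩ : A)
      rwa [← orderOf_injective A.subtype (subtype_injective _)] at this
    have e3 : Nat.Coprime (Nat.card A) (2 ^ k) := Nat.Coprime.pow_right k (Nat.coprime_two_right.mpr hAodd)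
    exact Nat.eq_one_of_dvd_coprimes e3 e2 e1
  rw [h5, one_mul, mul_inv_eq_iff_eq_mul] at h2
  exact h2

end Cfsg.Agent.Lib.LargeEx
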