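import Cfsg.Agent.Lib.LargeExI
import Cfsg.Agent.Lib.QuatSyl
import Cfsg.Prelude.Def_CaseTheorems

/-!
# Large extraspecial subgroups: S5428, S5429
-/

universe u v w

open Subgroup
open scoped commutatorElement Pointwise

namespace Cfsg.Agent.Lib.LargeEx

variable {G : Type*} [Group G] {Q : Subgroup G} {z : G}

theorem oddCore_of_four {D : Type*} [Group D] [Finite D] (h4 : ¬ 4 ∣ Nat.card D) {z : D} (hz : orderOf z = 2) (d : D) :
    d ∈ Cfsg.pPrimeCore 2 D ∨ d * z ∈ Cfsg.pPrimeCore 2 D := by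
  haveI : Fact (Nat.Prime 2) := ⟨Nat.prime_two⟩
  obtain ⟨P⟩ := (inferInstance : Nonempty (Sylow 2 D))
  have hk1 : ∀ k : ℕ, 2 ^ k ∣ Nat.card D → k ≤ 1 := by
    intro k hk
    by_contra h
    exact h4 (((show 4 = 2 ^ 2 by norm_num) ▸ pow_dvd_pow 2 (by omega : 2 ≤ k)).trans hk)
  have hcyc : IsCyclic P := by
    obtain ⟨k, hk⟩ := P.isPGroup'.exists_card_eq
    have h1 := hk1 k (by rw [← hk]; exact card_subgroup_dvd_card _)
    rcases (by omega : k = 0 ∨ k = 1) with h | h
    · rw [h, pow_zero] at hk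
      haveI : Subsingleton P := (Nat.card_eq_one_iff_unique.mp hk).1
      exact isCyclic_of_subsingleton
    · rw [h, pow_one] at hk
      exact isCyclic_of_prime_card hk
  have h1 := Cfsg.Agent.Lib.QuatSyl.pNil_of_cyclic P hcyc
  obtain ⟨k, hk⟩ := Cfsg.Agent.Lib.PNilp.pNil_iff_core.mp h1
  have h2 := hk1 k (by rw [← hk]; exact index_dvd_card _)
  have hzn : z ∉ Cfsg.pPrimeCore 2 D := by
    intro h
    have h3 := orderOf_dvd_natCard (⟨z, h⟩ : Cfsg.pPrimeCore 2 D)
    rw [← orderOf_injective (Cfsg.pPrimeCore 2 D).subtype (subtype_injective _)] at h3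
    have h5 : orderOf z ∣ Nat.card (Cfsg.pPrimeCore 2 D) := h3
    rw [hz] at h5
    have h6 := Cfsg.Agent.Lib.Cores.pPrimeCore_coprime (G := D) 2
    rw [Nat.coprime_two_right] at h6
    exact (Nat.not_even_iff_odd.mpr h6) (even_iff_two_dvd.mpr h5)
  have hidx : (Cfsg.pPrimeCore 2 D).index = 2 := by
    rcases (by omega : k = 0 ∨ k = 1) with h | h
    · exfalso
      rw [h, pow_zero, index_eq_one] at hk
      exact hzn (by rw [hk]; trivial)
    · rw [hk, h, pow_one]
  rw [mul_mem_iff_of_index_two hidx]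
  by_cases h : d ∈ Cfsg.pPrimeCore 2 D
  · exact Or.inl h
  · exact Or.inr ⟨fun h' => absurd h' h, fun h' => absurd h' hzn⟩

theorem exists_mover (L : LE Q z) {H : Subgroup G} (hHQ : H ≤ Q)
    (hcen : ∀ x ∈ H, (∀ y ∈ H, x * y = y * x) → x = 1 ∨ x = z) {a : G} (ha : a ∈ H) (ha1 : a ≠ 1) (haz : a ≠ z) :
    ∃ q ∈ H, q * a * q⁻¹ = z * a := by
  have h : ¬ ∀ y ∈ H, a * y = y * a := fun h => by
    rcases hcen a ha h with h | h
    · exact ha1 h
    · exact haz h
  push Not at h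
  obtain ⟨q, hq, hqa⟩ := h
  refine ⟨q, hq, ?_⟩
  rcases L.conj_cases (hHQ ha) (hHQ hq) with h | h
  · exfalso
    rw [mul_inv_eq_iff_eq_mul] at h
    exact hqa h.symm
  · exact h

/-- S5428 -/
theorem main28 [Finite G] (L : LE Q z) {A : Subgroup G} (hA : A ≤ centralizer ({z} : Set G))
    (hAodd : Odd (Nat.card ↥A)) {R : Subgroup G} (hR : R = Q ⊓ centralizer (A : Set G))
    (hO : (Cfsg.oddCore ↥(centralizer ((A ⊔ R : Subgroup G) : Set G))).map
      (centralizer ((A ⊔ R : Subgroup G) : Set G)).subtype ≤ A)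
    (h4 : ¬ 4 ∣ Nat.card ↥(centralizer ((A ⊔ R : Subgroup G) : Set G)))
    {g : G} (hgR : g * z * g⁻¹ ∈ R) (hgZ : g * z * g⁻¹ ∉ zpowers z) {M : Subgroup G}
    (hM : M = centralizer (A : Set G) ⊔ A) (hn : (A.subgroupOf M).Normal) :
    (M ⊓ centralizer ((R ⊔ A : Subgroup G) : Set G)) ⊔ A = A ⊔ zpowers z ∧
      Cfsg.IsLargeExtraspecial ((R.subgroupOf M).map (QuotientGroup.mk' (A.subgroupOf M))) ∧
      ∃ x ∈ R ⊔ (Q.map (MulAut.conj g).toMonoidHom ⊓ centralizer (A : Set G)), x * (g * z * g⁻¹) * x⁻¹ = z := by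
  haveI : Fact (Nat.Prime 2) := ⟨Nat.prime_two⟩
  have hRQ : R ≤ Q := by rw [hR]; exact inf_le_left
  have hRA : R ≤ centralizer (A : Set G) := by rw [hR]; exact inf_le_right
  have hne : g * z * g⁻¹ ≠ z := fun h => hgZ (by rw [h]; exact mem_zpowers z)
  have hin : g * z * g⁻¹ ∈ Q := hRQ hgR
  have L' := L.conj g
  have D := pair_of L hin hne
  set a : G := g * z * g⁻¹ with ha
  set P : Subgroup G := Q.map (MulAut.conj g).toMonoidHom with hP
  have hAz : ∀ α ∈ A, α * z = z * α := fun α hα => mem_centralizer_singleton_iff.mp (hA hα)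
  have hzA : z ∈ centralizer (A : Set G) := mem_centralizer_iff.mpr hAz
  have hzR : z ∈ R := by rw [hR]; exact ⟨L.zQ, hzA⟩
  have hAN : A ≤ normalizer (Q : Set G) := hA.trans L.cz
  have hAa : A ≤ centralizer ({a} : Set G) := fun α hα =>
    mem_centralizer_singleton_iff.mpr (mem_centralizer_iff.mp (hRA hgR) α hα)
  have hAP : A ≤ normalizer (P : Set G) := hAa.trans L'.cz
  have hRcen : ∀ x ∈ R, (∀ y ∈ R, x * y = y * x) → x = 1 ∨ x = z := by
    rw [hR]; exact fun x hx h => L.cen_of_odd hAN hAodd hx h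
  have hPcen : ∀ x ∈ P ⊓ centralizer (A : Set G), (∀ y ∈ P ⊓ centralizer (A : Set G), x * y = y * x) →
      x = 1 ∨ x = a := fun x hx h => L'.cen_of_odd hAP hAodd hx h
  have hQA : ∀ x ∈ Q, x ∈ A → x = 1 := fun x hx hxA => inf_eq_bot_of_odd L.pg hAodd hxA hx
  have hCM : centralizer (A : Set G) ≤ M := by rw [hM]; exact le_sup_left
  have hAM : A ≤ M := by rw [hM]; exact le_sup_right
  have hRM : R ≤ M := hRA.trans hCM
  -- `D`
  have hDD : ∀ d : G, d ∈ centralizer (A : Set G) → (∀ y ∈ R, d * y = y * d) → d ∈ A ∨ d * z ∈ A := by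
    intro d hd hdR
    have hdD : d ∈ centralizer ((A ⊔ R : Subgroup G) : Set G) := by
      have h1 : A ⊔ R ≤ centralizer ({d} : Set G) := sup_le
        (fun α hα => mem_centralizer_singleton_iff.mpr (mem_centralizer_iff.mp hd α hα))
        (fun y hy => mem_centralizer_singleton_iff.mpr (hdR y hy).symm)
      exact mem_centralizer_iff.mpr fun y hy => mem_centralizer_singleton_iff.mp (h1 hy)
    have hzD : z ∈ centralizer ((A ⊔ R : Subgroup G) : Set G) := by
      have h1 : A ⊔ R ≤ centralizer ({z} : Set G) := sup_le hA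
        (fun y hy => mem_centralizer_singleton_iff.mpr (L.zc y (hRQ hy)))
      exact mem_centralizer_iff.mpr fun y hy => mem_centralizer_singleton_iff.mp (h1 hy)
    have ho : orderOf (⟨z, hzD⟩ : centralizer ((A ⊔ R : Subgroup G) : Set G)) = 2 := by
      rw [← L.ord]
      exact (orderOf_injective (centralizer ((A ⊔ R : Subgroup G) : Set G)).subtype (subtype_injective _) ⟨z, hzD⟩).symm
    rcases oddCore_of_four h4 ho ⟨d, hdD⟩ with h | h
    · left; exact hO ⟨_, h, rfl⟩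
    · right; exact hO ⟨_, h, rfl⟩
  -- representatives in `C(A)`
  have hrep : ∀ x ∈ M, ∃ c ∈ centralizer (A : Set G), c⁻¹ * x ∈ A ∧ ∀ y ∈ centralizer (A : Set G), x * y * x⁻¹ = c * y * c⁻¹ := by
    intro x hx
    have hAN' : A ≤ normalizer ((centralizer (A : Set G) : Subgroup G) : Set G) := by
      refine le_normalizer_of_conj fun α hα c hc => ?_
      rw [mem_centralizer_iff.mp hc α hα, mul_inv_cancel_right]; exact hc
    rw [hM, Cfsg.Agent.Lib.Basic.mem_sup_iff_left hAN'] at hx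
    obtain ⟨c, hc, α, hα, rfl⟩ := hx
    refine ⟨c, hc, by rw [inv_mul_cancel_left]; exact hα, fun y hy => ?_⟩
    calc c * α * y * (c * α)⁻¹ = c * (α * y) * α⁻¹ * c⁻¹ := by group
      _ = c * y * c⁻¹ := by rw [mem_centralizer_iff.mp hy α hα]; group
  set π := QuotientGroup.mk' (A.subgroupOf M) with hπ
  have hπ1 : ∀ x : M, π x = 1 ↔ (x : G) ∈ A := by
    intro x
    rw [hπ, QuotientGroup.mk'_apply, QuotientGroup.eq_one_iff, mem_subgroupOf]
  have hπeq : ∀ x y : M, π x = π y ↔ (x : G)⁻¹ * y ∈ A := by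
    intro x y
    rw [hπ, QuotientGroup.mk'_apply, QuotientGroup.mk'_apply, QuotientGroup.eq, mem_subgroupOf]
    rfl
  have hcomM : ∀ (x : M) (y : M), (y : G) ∈ centralizer (A : Set G) → (∃ k : ℕ, (y : G) ^ 2 ^ k = 1) → π ⁅x, y⁆ = 1 →
      ∀ c ∈ centralizer (A : Set G), (∀ w ∈ centralizer (A : Set G), (x : G) * w * (x : G)⁻¹ = c * w * c⁻¹) →
      c * (y : G) = y * c := by
    intro x y hy hk h c hc hw
    rw [hπ1] at h
    have e : ((⁅x, y⁆ : M) : G) = (x : G) * y * (x : G)⁻¹ * (y : G)⁻¹ := by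
      rw [commutatorElement_def]; simp
    rw [e, hw y hy] at h
    exact comm_of_odd hAodd hy hk h
  have h2pow : ∀ {H : Subgroup G}, IsPGroup 2 H → ∀ y ∈ H, ∃ k : ℕ, y ^ 2 ^ k = 1 := by
    intro H hH y hy
    obtain ⟨k, hk⟩ := hH ⟨y, hy⟩
    exact ⟨k, congrArg Subtype.val hk⟩
  have hRp : IsPGroup 2 R := L.pg.to_le hRQ
  have haa : a * a = 1 := L'.zz
  refine ⟨?_, ?_, ?_⟩
  · apply le_antisymm
    · refine sup_le ?_ le_sup_left
      rintro x ⟨-, hx⟩
      have hxA : x ∈ centralizer (A : Set G) := mem_centralizer_iff.mpr fun α hα =>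
        mem_centralizer_iff.mp hx α (mem_sup_right hα)
      have hxR : ∀ y ∈ R, x * y = y * x := fun y hy => (mem_centralizer_iff.mp hx y (mem_sup_left hy)).symm
      rcases hDD x hxA hxR with h | h
      · exact mem_sup_left h
      · have e : x = (x * z) * z := by rw [mul_assoc, L.zz, mul_one]
        rw [e]
        exact mul_mem (mem_sup_left h) (mem_sup_right (mem_zpowers z))
    · refine sup_le le_sup_right ?_
      rw [zpowers_le]
      refine mem_sup_left ⟨hRM hzR, ?_⟩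
      have h1 : R ⊔ A ≤ centralizer ({z} : Set G) := sup_le
        (fun y hy => mem_centralizer_singleton_iff.mpr (L.zc y (hRQ hy))) hA
      exact mem_centralizer_iff.mpr fun y hy => mem_centralizer_singleton_iff.mp (h1 hy)
  · refine large_map π (QuotientGroup.mk'_surjective _) (z := ⟨z, hRM hzR⟩) (a := ⟨a, hRM hgR⟩)
      (P := (P ⊓ centralizer (A : Set G)).subgroupOf M) (hRp.comap_of_injective M.subtype (subtype_injective _))
      (mem_subgroupOf.mpr hzR) (Subtype.ext L.zz) ?_ ?_ ?_ ?_ ?_ (mem_subgroupOf.mpr hgR) (Subtype.ext haa) ?_ ?_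
      ((L'.pg.to_le inf_le_left).comap_of_injective M.subtype (subtype_injective _))
      (mem_subgroupOf.mpr ⟨D.zP, hzA⟩) ?_
    · intro h
      rw [hπ1] at h
      exact L.z1 (hQA z L.zQ h)
    · intro x hx y hy
      rcases L.comm x (hRQ (mem_subgroupOf.mp hx)) y (hRQ (mem_subgroupOf.mp hy)) with h | h
      · left; exact Subtype.ext h
      · right; exact Subtype.ext h
    · intro x hx h
      have h1 := hRcen x (mem_subgroupOf.mp hx) (fun y hy => by
        have h2 := h ⟨y, hRM hy⟩ (mem_subgroupOf.mpr hy)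
        rw [hπ1] at h2
        have h3 : ((⁅x, (⟨y, hRM hy⟩ : M)⁆ : M) : G) = ⁅(x : G), y⁆ := rfl
        rw [h3] at h2
        have h5 : ⁅(x : G), y⁆ ∈ Q := by
          rcases L.comm x (hRQ (mem_subgroupOf.mp hx)) y (hRQ hy) with h | h <;> rw [h]
          · exact one_mem _
          · exact L.zQ
        exact commutatorElement_eq_one_iff_mul_comm.mp (hQA _ h5 h2))
      rcases h1 with h1 | h1
      · left; rw [show x = 1 from Subtype.ext h1, map_one]
      · right; rw [show x = ⟨z, hRM hzR⟩ from Subtype.ext h1]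
    · intro x h
      obtain ⟨c, hc, hcx, hw⟩ := hrep x x.2
      have h1 : ∀ y ∈ R, c * y = y * c := fun y hy =>
        hcomM x ⟨y, hRM hy⟩ (hRA hy) (h2pow hRp y hy) (h _ (mem_subgroupOf.mpr hy)) c hc hw
      have hxc : π x = π ⟨c, hCM hc⟩ := ((hπeq ⟨c, hCM hc⟩ x).mpr hcx).symm
      rw [hxc]
      rcases hDD c hc h1 with h | h
      · rw [(hπ1 ⟨c, hCM hc⟩).mpr h]; exact one_mem _
      · refine ⟨⟨z, hRM hzR⟩, mem_subgroupOf.mpr hzR, ?_⟩
        rw [hπeq]
        show z⁻¹ * c ∈ A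
        have e : z⁻¹ * c = c * z := by
          rw [inv_eq_of_mul_eq_one_left L.zz]; exact (h1 z hzR).symm
        rw [e]; exact h
    · intro x h y hy
      obtain ⟨c, hc, hcx, hw⟩ := hrep x x.2
      have h1 : c * z = z * c := hcomM x ⟨z, hRM hzR⟩ hzA (h2pow hRp z hzR) h c hc hw
      have hcy : c * y * c⁻¹ ∈ R := by
        have hy' := mem_subgroupOf.mp hy
        rw [hR] at hy' ⊢
        exact ⟨conj_mem_of_normalizer L.cz (mem_centralizer_singleton_iff.mpr h1) hy'.1,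
          mul_mem (mul_mem hc hy'.2) (Subgroup.inv_mem _ hc)⟩
      refine ⟨⟨c * y * c⁻¹, hRM hcy⟩, mem_subgroupOf.mpr hcy, ?_⟩
      congr 1
      exact Subtype.ext (hw y (hRA (mem_subgroupOf.mp hy))).symm
    · intro h
      rw [hπ1] at h
      exact D.LPa.z1 (hQA a hin h)
    · intro h
      rw [hπeq] at h
      have h1 := hQA _ (mul_mem (Subgroup.inv_mem _ hin) L.zQ) h
      exact hne (inv_mul_eq_one.mp h1)
    · intro x h y hy
      obtain ⟨c, hc, hcx, hw⟩ := hrep x x.2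
      have h1 : c * a = a * c := hcomM x ⟨a, hRM hgR⟩ (hRA hgR) (h2pow hRp a hgR) h c hc hw
      have hcy : c * y * c⁻¹ ∈ P ⊓ centralizer (A : Set G) := by
        have hy' := mem_subgroupOf.mp hy
        exact ⟨conj_mem_of_normalizer L'.cz (mem_centralizer_singleton_iff.mpr h1) hy'.1,
          mul_mem (mul_mem hc hy'.2) (Subgroup.inv_mem _ hc)⟩
      refine ⟨⟨c * y * c⁻¹, hCM hcy.2⟩, mem_subgroupOf.mpr hcy, ?_⟩
      congr 1
      exact Subtype.ext (hw y (mem_subgroupOf.mp hy).2).symm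
  · obtain ⟨q, hq, hqa⟩ := exists_mover L hRQ hRcen hgR D.LPa.z1 hne
    obtain ⟨p, hp, hpz⟩ := exists_mover L' inf_le_left hPcen (⟨D.zP, hzA⟩ : z ∈ P ⊓ centralizer (A : Set G)) L.z1 (Ne.symm hne)
    refine ⟨p * q, mul_mem (mem_sup_right hp) (mem_sup_left hq), ?_⟩
    calc p * q * a * (p * q)⁻¹ = p * (q * a * q⁻¹) * p⁻¹ := by group
      _ = (p * z * p⁻¹) * (p * a * p⁻¹) := by rw [hqa]; group
      _ = (a * z) * a := by
          rw [hpz, L'.zc p hp.1, mul_inv_cancel_right]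
      _ = z := by rw [D.za, mul_assoc, haa, mul_one]

/-- the double centralizer of an involution of `Q` -/
theorem LE.dc_inv (L : LE Q z) {t : G} (ht : t ∈ Q) (htt : t * t = 1) {x : G} (hx : x ∈ Q)
    (h : ∀ y ∈ Q ⊓ centralizer ({t} : Set G), x * y = y * x) : x = 1 ∨ x = z ∨ x = t ∨ x = z * t := by
  rw [← mem_four L.zz htt (L.zc t ht)]
  refine L.dc _ ?_ (Subgroup.subset_closure (by simp)) x hx fun c hc hcu => ?_
  · rw [Subgroup.closure_le]
    rintro y (rfl | rfl)
    · exact L.zQ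
    · exact ht
  · exact (h c ⟨hc, mem_centralizer_singleton_iff.mpr (hcu t (Subgroup.subset_closure (by simp)))⟩).symm

/-- S5429 -/
theorem main29 [Finite G] (L : LE Q z) {g : G} (hin : g * z * g⁻¹ ∈ Q) (hgZ : g * z * g⁻¹ ∉ zpowers z)
    {t : G} (ht : orderOf t = 2) (htQ : t ∈ Q ⊓ Q.map (MulAut.conj g).toMonoidHom) (htz : ¬ IsConj z t)
    {S : Subgroup G} (hS : S = Q ⊓ centralizer ({t} : Set G))
    (hCP : ∀ c ∈ centralizer ({z} : Set G), (∀ x ∈ S, ∃ y ∈ closure ({t, z} : Set G), c * x * c⁻¹ = x * y) ↔ c ∈ Q)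
    {M : Subgroup G} (hM : M = centralizer ({t} : Set G)) (hn : ((zpowers t).subgroupOf M).Normal) :
    Cfsg.IsLargeExtraspecial ((S.subgroupOf M).map (QuotientGroup.mk' ((zpowers t).subgroupOf M))) ∧
      ∃ x ∈ S ⊔ (Q.map (MulAut.conj g).toMonoidHom ⊓ centralizer ({t} : Set G)), x * (g * z * g⁻¹) * x⁻¹ = z := by
  haveI : Fact (Nat.Prime 2) := ⟨Nat.prime_two⟩
  have hne : g * z * g⁻¹ ≠ z := fun h => hgZ (by rw [h]; exact mem_zpowers z)
  have L' := L.conj g
  have D := pair_of L hin hne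
  have hconj : IsConj z (g * z * g⁻¹) := isConj_iff.mpr ⟨g, rfl⟩
  set a : G := g * z * g⁻¹ with ha
  set P : Subgroup G := Q.map (MulAut.conj g).toMonoidHom with hP
  have htt : t * t = 1 := by rw [← pow_two, ← ht, pow_orderOf_eq_one]
  have ht1 : t ≠ 1 := fun h => by rw [h, orderOf_one] at ht; norm_num at ht
  have htz' : t ≠ z := fun h => htz (by rw [h])
  have hta : t ≠ a := fun h => htz (by rw [h]; exact hconj)
  have hSQ : S ≤ Q := by rw [hS]; exact inf_le_left
  have hSM : S ≤ M := by rw [hS, hM]; exact inf_le_right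
  obtain ⟨q₀, hq₀, hq₀t⟩ := L.exists_move htQ.1 htt ht1 htz'
  obtain ⟨p₀, hp₀, hp₀t⟩ := L'.exists_move htQ.2 htt ht1 hta
  have hzt : ∀ x : G, x * z * x⁻¹ ≠ z * t := fun x h => htz
    ((isConj_iff.mpr ⟨x, h⟩).trans (isConj_iff.mpr ⟨q₀, hq₀t⟩).symm)
  have hat : ∀ x : G, x * a * x⁻¹ ≠ a * t := fun x h => htz
    (hconj.trans ((isConj_iff.mpr ⟨x, h⟩).trans (isConj_iff.mpr ⟨p₀, hp₀t⟩).symm))
  have hat' : z ≠ a * t := fun h => htz ((by rw [← h] : IsConj z (a * t)).trans (isConj_iff.mpr ⟨p₀, hp₀t⟩).symm)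
  have hzt' : a ≠ z * t := fun h => htz ((hconj.trans (by rw [← h])).trans (isConj_iff.mpr ⟨q₀, hq₀t⟩).symm)
  have htzc : t * z = z * t := L.zc t htQ.1
  have htac : t * a = a * t := L'.zc t htQ.2
  have hzS : z ∈ S := by rw [hS]; exact ⟨L.zQ, mem_centralizer_singleton_iff.mpr htzc.symm⟩
  have haS : a ∈ S := by rw [hS]; exact ⟨hin, mem_centralizer_singleton_iff.mpr htac.symm⟩
  have hzPt : z ∈ P ⊓ centralizer ({t} : Set G) := ⟨D.zP, mem_centralizer_singleton_iff.mpr htzc.symm⟩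
  have hSt : ∀ x ∈ S, x * t = t * x := fun x hx => by
    rw [hS] at hx; exact mem_centralizer_singleton_iff.mp hx.2
  have hmt : ∀ x : G, x ∈ zpowers t ↔ x = 1 ∨ x = t := fun x =>
    ⟨eq_or_of_mem_zpowers htt, by rintro (rfl | rfl); exacts [one_mem _, mem_zpowers _]⟩
  set π := QuotientGroup.mk' ((zpowers t).subgroupOf M) with hπ
  have hπ1 : ∀ x : M, π x = 1 ↔ ((x : G) = 1 ∨ (x : G) = t) := by
    intro x
    rw [hπ, QuotientGroup.mk'_apply, QuotientGroup.eq_one_iff, mem_subgroupOf, hmt]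
  have hπeq : ∀ x y : M, π x = π y ↔ ((x : G)⁻¹ * y = 1 ∨ (x : G)⁻¹ * y = t) := by
    intro x y
    rw [hπ, QuotientGroup.mk'_apply, QuotientGroup.mk'_apply, QuotientGroup.eq, mem_subgroupOf, hmt]
    rfl
  have hMt' : ∀ x ∈ M, x * t = t * x := fun x hx => by
    rw [hM] at hx
    exact mem_centralizer_singleton_iff.mp hx
  have hMt : ∀ x : M, (x : G) * t = t * x := fun x => hMt' x x.2
  have hcz : ∀ x : M, π ⁅x, (⟨z, hSM hzS⟩ : M)⁆ = 1 → (x : G) * z = z * x := by
    intro x h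
    rw [hπ1] at h
    have e : ((⁅x, (⟨z, hSM hzS⟩ : M)⁆ : M) : G) = (x : G) * z * (x : G)⁻¹ * z⁻¹ := rfl
    rw [e] at h
    rcases h with h | h
    · exact mul_inv_eq_iff_eq_mul.mp (mul_inv_eq_one.mp h)
    · have h2 := mul_inv_eq_iff_eq_mul.mp h
      rw [htzc] at h2
      exact absurd h2 (hzt x)
  have hca : ∀ x : M, π ⁅x, (⟨a, hSM haS⟩ : M)⁆ = 1 → (x : G) * a = a * x := by
    intro x h
    rw [hπ1] at h
    have e : ((⁅x, (⟨a, hSM haS⟩ : M)⁆ : M) : G) = (x : G) * a * (x : G)⁻¹ * a⁻¹ := rfl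
    rw [e] at h
    rcases h with h | h
    · exact mul_inv_eq_iff_eq_mul.mp (mul_inv_eq_one.mp h)
    · have h2 := mul_inv_eq_iff_eq_mul.mp h
      rw [htac] at h2
      exact absurd h2 (hat x)
  have hScen : ∀ x ∈ S, (∀ y ∈ S, x * y = y * x) → x = 1 ∨ x = z ∨ x = t ∨ x = z * t := by
    rw [hS]
    exact fun x hx h => L.dc_inv htQ.1 htt hx.1 h
  have hcommS : ∀ x ∈ S, ∀ y ∈ S, (⁅x, y⁆ = 1 ∨ ⁅x, y⁆ = t) → x * y = y * x := by
    intro x hx y hy h
    rcases h with h | h
    · exact commutatorElement_eq_one_iff_mul_comm.mp h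
    · rcases L.comm x (hSQ hx) y (hSQ hy) with h' | h'
      · exact commutatorElement_eq_one_iff_mul_comm.mp h'
      · exact absurd (h.symm.trans h') htz'
  refine ⟨?_, ?_⟩
  · refine large_map π (QuotientGroup.mk'_surjective _) (z := ⟨z, hSM hzS⟩) (a := ⟨a, hSM haS⟩)
      (P := (P ⊓ centralizer ({t} : Set G)).subgroupOf M)
      ((L.pg.to_le hSQ).comap_of_injective M.subtype (subtype_injective _))
      (mem_subgroupOf.mpr hzS) (Subtype.ext L.zz) ?_ ?_ ?_ ?_ ?_ (mem_subgroupOf.mpr haS) (Subtype.ext L'.zz) ?_ ?_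
      ((L'.pg.to_le inf_le_left).comap_of_injective M.subtype (subtype_injective _))
      (mem_subgroupOf.mpr hzPt) ?_
    · intro h
      rw [hπ1] at h
      rcases h with h | h
      · exact L.z1 h
      · exact htz' h.symm
    · intro x hx y hy
      rcases L.comm x (hSQ (mem_subgroupOf.mp hx)) y (hSQ (mem_subgroupOf.mp hy)) with h | h
      · left; exact Subtype.ext h
      · right; exact Subtype.ext h
    · intro x hx h
      rcases hScen x (mem_subgroupOf.mp hx) (fun y hy => hcommS x (mem_subgroupOf.mp hx) y hy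
        ((hπ1 _).mp (h ⟨y, hSM hy⟩ (mem_subgroupOf.mpr hy)))) with h1 | h1 | h1 | h1
      · left; rw [hπ1]; exact Or.inl h1
      · right; rw [hπeq]; left; rw [h1]; exact inv_mul_cancel z
      · left; rw [hπ1]; exact Or.inr h1
      · right; rw [hπeq]; right
        rw [h1, mul_inv_rev, inv_eq_of_mul_eq_one_left L.zz, inv_eq_of_mul_eq_one_left htt]
        show t * z * z = t
        rw [mul_assoc, L.zz, mul_one]
    · intro x h
      have hxz := hcz x (h _ (mem_subgroupOf.mpr hzS))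
      have hxQ : (x : G) ∈ Q := by
        rw [← hCP x (mem_centralizer_singleton_iff.mpr hxz)]
        intro y hy
        have h1 := (hπ1 _).mp (h ⟨y, hSM hy⟩ (mem_subgroupOf.mpr hy))
        have e : ((⁅x, (⟨y, hSM hy⟩ : M)⁆ : M) : G) = (x : G) * y * (x : G)⁻¹ * y⁻¹ := rfl
        rw [e] at h1
        rcases h1 with h1 | h1
        · exact ⟨1, one_mem _, by rw [mul_one]; exact mul_inv_eq_one.mp h1⟩
        · refine ⟨t, Subgroup.subset_closure (by simp), ?_⟩
          rw [hSt y hy]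
          exact mul_inv_eq_iff_eq_mul.mp h1
      have hxS : (x : G) ∈ S := by
        rw [hS]; exact ⟨hxQ, mem_centralizer_singleton_iff.mpr (hMt x)⟩
      exact ⟨x, mem_subgroupOf.mpr hxS, rfl⟩
    · intro x h y hy
      have hxz := hcz x h
      refine ⟨x * y * x⁻¹, mem_subgroupOf.mpr ?_, rfl⟩
      have hy' := mem_subgroupOf.mp hy
      show (x : G) * y * (x : G)⁻¹ ∈ S
      have hxt : (x : G) ∈ centralizer ({t} : Set G) := mem_centralizer_singleton_iff.mpr (hMt x)
      rw [hS] at hy' ⊢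
      exact ⟨conj_mem_of_normalizer L.cz (mem_centralizer_singleton_iff.mpr hxz) hy'.1,
          mul_mem (mul_mem hxt hy'.2) (Subgroup.inv_mem _ hxt)⟩
    · intro h
      rw [hπ1] at h
      rcases h with h | h
      · exact L'.z1 h
      · exact hta h.symm
    · intro h
      rw [hπeq] at h
      rcases h with h | h
      · exact hne (inv_mul_eq_one.mp h)
      · exact hat' (inv_mul_eq_iff_eq_mul.mp h)
    · intro x h y hy
      have hxa := hca x h
      refine ⟨x * y * x⁻¹, mem_subgroupOf.mpr ?_, rfl⟩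
      have hy' := mem_subgroupOf.mp hy
      show (x : G) * y * (x : G)⁻¹ ∈ P ⊓ centralizer ({t} : Set G)
      have hxt : (x : G) ∈ centralizer ({t} : Set G) := mem_centralizer_singleton_iff.mpr (hMt x)
      exact ⟨conj_mem_of_normalizer L'.cz (mem_centralizer_singleton_iff.mpr hxa) hy'.1,
          mul_mem (mul_mem hxt hy'.2) (Subgroup.inv_mem _ hxt)⟩
  · have h1 : ¬ ∀ y ∈ S, a * y = y * a := by
      intro h
      rcases hScen a haS h with h | h | h | h
      · exact L'.z1 h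
      · exact hne h
      · exact hta h.symm
      · exact hzt' h
    have h2 : ¬ ∀ y ∈ P ⊓ centralizer ({t} : Set G), z * y = y * z := by
      intro h
      rcases L'.dc_inv htQ.2 htt D.zP h with h | h | h | h
      · exact L.z1 h
      · exact hne h.symm
      · exact htz' h.symm
      · exact hat' h
    push Not at h1 h2
    obtain ⟨q, hq, hqa⟩ := h1
    obtain ⟨p, hp, hpz⟩ := h2
    have hqa' : q * a * q⁻¹ = z * a := (L.conj_cases hin (hSQ hq)).resolve_left fun h => hqa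
      (mul_inv_eq_iff_eq_mul.mp h).symm
    have hpz' : p * z * p⁻¹ = a * z := (L'.conj_cases D.zP hp.1).resolve_left fun h => hpz
      (mul_inv_eq_iff_eq_mul.mp h).symm
    refine ⟨p * q, mul_mem (mem_sup_right hp) (mem_sup_left hq), ?_⟩
    calc p * q * a * (p * q)⁻¹ = p * (q * a * q⁻¹) * p⁻¹ := by group
      _ = (p * z * p⁻¹) * (p * a * p⁻¹) := by rw [hqa']; group
      _ = (a * z) * a := by
          rw [hpz', L'.zc p hp.1, mul_inv_cancel_right]
      _ = z := by rw [D.za, mul_assoc, L'.zz, mul_one]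

end Cfsg.Agent.Lib.LargeEx
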