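import Mathlib

set_option autoImplicit false
set_option linter.all false

namespace Cfsg.Agent.Lib.NilCount

open Module

/-- a counting lemma for an action -/
theorem count_lemma {G Ω : Type*} [Group G] (act : G → Ω → Ω) (h1 : ∀ w, act 1 w = w)
    (hmul : ∀ g h w, act (g * h) w = act g (act h w)) (Y : Set Ω) (H : Set G)
    (h : ∀ y ∈ Y, ∀ g : G, act g y ∈ Y ↔ g ∈ H) :
    Nat.card {w : Ω // ∃ g : G, ∃ y ∈ Y, act g y = w} * Nat.card H = Nat.card G * Nat.card Y := by
  classical
  rw [← Nat.card_prod, ← Nat.card_prod]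
  choose g0 hg0 using fun w : {w : Ω // ∃ g : G, ∃ y ∈ Y, act g y = w} => w.2
  choose y0 hy0 hy0' using hg0
  have hinv : ∀ (g : G) (x z : Ω), act g x = z → x = act g⁻¹ z := by
    intro g x z hx
    rw [← hx, ← hmul, inv_mul_cancel, h1]
  let f : {w : Ω // ∃ g : G, ∃ y ∈ Y, act g y = w} × H → G × Y := fun x =>
    (g0 x.1 * (x.2 : G)⁻¹, ⟨act (x.2 : G) (y0 x.1), (h _ (hy0 x.1) _).2 x.2.2⟩)
  refine Nat.card_congr (Equiv.ofBijective f ⟨?_, ?_⟩)
  · rintro ⟨w, a⟩ ⟨w', a'⟩ hf
    have e1 : g0 w * (a : G)⁻¹ = g0 w' * (a' : G)⁻¹ := congrArg Prod.fst hf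
    have e2 : act (a : G) (y0 w) = act (a' : G) (y0 w') := congrArg (fun z => (z.2 : Ω)) hf
    have e3 : ∀ (w : {w : Ω // ∃ g : G, ∃ y ∈ Y, act g y = w}) (a : H), act (g0 w * (a : G)⁻¹) (act (a : G) (y0 w)) = w := by
      intro w a
      rw [← hmul, mul_assoc, inv_mul_cancel, mul_one, hy0']
    have e4 : w = w' := by
      apply Subtype.ext
      rw [← e3 w a, ← e3 w' a', e1, e2]
    subst e4
    have e5 : a = a' := by
      apply Subtype.ext
      exact inv_injective (mul_left_cancel e1)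
    rw [e5]
  · rintro ⟨g, ⟨y, hy⟩⟩
    let w : {w : Ω // ∃ g : G, ∃ y ∈ Y, act g y = w} := ⟨act g y, g, y, hy, rfl⟩
    have e1 : act (g⁻¹ * g0 w) (y0 w) = y := by
      rw [hmul, hy0']
      exact (hinv g y _ rfl).symm
    refine ⟨(w, ⟨g⁻¹ * g0 w, (h _ (hy0 w) _).1 (e1 ▸ hy)⟩), ?_⟩
    apply Prod.ext
    · show g0 w * (g⁻¹ * g0 w)⁻¹ = g
      group
    · apply Subtype.ext
      exact e1

variable {F : Type*} [Field F]

section block

variable {A B : Type*} [AddCommGroup A] [Module F A] [AddCommGroup B] [Module F B]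

theorem prodMap_pow (N : A →ₗ[F] A) (S : B →ₗ[F] B) (m : ℕ) : (N.prodMap S) ^ m = (N ^ m).prodMap (S ^ m) := by
  induction m with
  | zero => rfl
  | succ m ih => 
    rw [pow_succ, ih, pow_succ, pow_succ]
    rfl

/-- the model set -/
def Ymod (F A B : Type*) [Field F] [AddCommGroup A] [Module F A] [AddCommGroup B] [Module F B] : Set (Module.End F (A × B)) :=
  {T | ∃ N : Module.End F A, IsNilpotent N ∧ ∃ S : (Module.End F B)ˣ, T = LinearMap.prodMap N (S : Module.End F B)}

def Hmod (F A B : Type*) [Field F] [AddCommGroup A] [Module F A] [AddCommGroup B] [Module F B] : Set (Module.End F (A × B))ˣ :=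
  {T | ∃ N : (Module.End F A)ˣ, ∃ S : (Module.End F B)ˣ, (T : Module.End F (A × B)) = LinearMap.prodMap (N : Module.End F A) (S : Module.End F B)}

theorem prodMap_mul' (N N' : Module.End F A) (S S' : Module.End F B) :
    (LinearMap.prodMap N S : Module.End F (A × B)) * (LinearMap.prodMap N' S' : Module.End F (A × B)) = LinearMap.prodMap (N * N') (S * S') := rfl

theorem prodMap_inj' {N N' : Module.End F A} {S S' : Module.End F B} (h : (LinearMap.prodMap N S : Module.End F (A × B)) = LinearMap.prodMap N' S') :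
    N = N' ∧ S = S' := by
  constructor
  · ext a
    exact congrArg Prod.fst (LinearMap.congr_fun h (a, 0))
  · ext b
    exact congrArg Prod.snd (LinearMap.congr_fun h (0, b))

theorem card_Y : Nat.card (Ymod F A B) = Nat.card {N : Module.End F A // IsNilpotent N} * Nat.card (Module.End F B)ˣ := by
  rw [← Nat.card_prod]
  symm
  refine Nat.card_congr (Equiv.ofBijective (fun x => (⟨LinearMap.prodMap x.1.1 (x.2 : Module.End F B), x.1.1, x.1.2, x.2, rfl⟩ : Ymod F A B)) ⟨?_, ?_⟩)
  · rintro ⟨⟨N, hN⟩, S⟩ ⟨⟨N', hN'⟩, S'⟩ h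
    obtain ⟨h1, h2⟩ := prodMap_inj' (congrArg Subtype.val h)
    have h1' : N = N' := h1
    have h2' : S = S' := Units.ext h2
    subst h1'; subst h2'; rfl
  · rintro ⟨T, N, hN, S, rfl⟩
    exact ⟨⟨⟨N, hN⟩, S⟩, rfl⟩

theorem card_H : Nat.card (Hmod F A B) = Nat.card (Module.End F A)ˣ * Nat.card (Module.End F B)ˣ := by
  rw [← Nat.card_prod]
  symm
  let mk : (Module.End F A)ˣ × (Module.End F B)ˣ → (Module.End F (A × B))ˣ := fun x =>
    { val := LinearMap.prodMap (x.1 : Module.End F A) (x.2 : Module.End F B)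
      inv := LinearMap.prodMap ((x.1⁻¹ : (Module.End F A)ˣ) : Module.End F A) ((x.2⁻¹ : (Module.End F B)ˣ) : Module.End F B)
      val_inv := by rw [prodMap_mul', Units.mul_inv, Units.mul_inv]; rfl
      inv_val := by rw [prodMap_mul', Units.inv_mul, Units.inv_mul]; rfl }
  refine Nat.card_congr (Equiv.ofBijective (fun x => (⟨mk x, x.1, x.2, rfl⟩ : Hmod F A B)) ⟨?_, ?_⟩)
  · rintro ⟨N, S⟩ ⟨N', S'⟩ h
    have h0 : mk (N, S) = mk (N', S') := congrArg Subtype.val h
    obtain ⟨h1, h2⟩ := prodMap_inj' (congrArg Units.val h0)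
    have e1 : N = N' := Units.ext h1
    have e2 : S = S' := Units.ext h2
    rw [e1, e2]
  · rintro ⟨T, N, S, hT⟩
    refine ⟨⟨N, S⟩, ?_⟩
    apply Subtype.ext
    apply Units.ext
    exact hT.symm

/-- intertwiners are block diagonal -/
theorem block (y y' : Module.End F (A × B)) (hy : y ∈ Ymod F A B) (hy' : y' ∈ Ymod F A B) (g : Module.End F (A × B))
    (hg : g * y = y' * g) : g = LinearMap.prodMap ((LinearMap.fst F A B) ∘ₗ g ∘ₗ (LinearMap.inl F A B))
      ((LinearMap.snd F A B) ∘ₗ g ∘ₗ (LinearMap.inr F A B)) := by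
  obtain ⟨N, ⟨m, hN⟩, S, rfl⟩ := hy
  obtain ⟨N', ⟨m', hN'⟩, S', rfl⟩ := hy'
  have hpow : ∀ j : ℕ, g * (LinearMap.prodMap N (S : Module.End F B)) ^ j = (LinearMap.prodMap N' (S' : Module.End F B)) ^ j * g := by
    intro j
    exact (SemiconjBy.pow_right (show SemiconjBy g _ _ from hg) j)
  have key1 : ∀ a : A, (g (a, 0)).2 = 0 := by
    intro a
    have h1 := LinearMap.congr_fun (hpow m) (a, 0)
    rw [prodMap_pow, prodMap_pow, hN] at h1
    have h2 : g ((0 : A), ((S : Module.End F B) ^ m) 0) = ((N' ^ m) (g (a, 0)).1, ((S' : Module.End F B) ^ m) (g (a, 0)).2) := h1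
    rw [map_zero] at h2
    have h3 : g ((0 : A), (0 : B)) = 0 := map_zero g
    rw [h3] at h2
    have h4 : ((S' : Module.End F B) ^ m) (g (a, 0)).2 = 0 := (congrArg Prod.snd h2).symm
    have h5 : ((((S' ^ m)⁻¹ : (Module.End F B)ˣ) : Module.End F B) * ((S' ^ m : (Module.End F B)ˣ) : Module.End F B)) (g (a, 0)).2 = (g (a, 0)).2 := by
      rw [Units.inv_mul]; rfl
    rw [← h5]
    show (((S' ^ m)⁻¹ : (Module.End F B)ˣ) : Module.End F B) (((S' ^ m : (Module.End F B)ˣ) : Module.End F B) (g (a, 0)).2) = 0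
    rw [Units.val_pow_eq_pow_val, h4, map_zero]
  have key2 : ∀ b : B, (g (0, b)).1 = 0 := by
    intro b
    have h5 : (((S ^ m' : (Module.End F B)ˣ) : Module.End F B) * (((S ^ m')⁻¹ : (Module.End F B)ˣ) : Module.End F B)) b = b := by
      rw [Units.mul_inv]; rfl
    obtain ⟨b0, hb0⟩ : ∃ b0, ((S : Module.End F B) ^ m') b0 = b := ⟨(((S ^ m')⁻¹ : (Module.End F B)ˣ) : Module.End F B) b, by
      rw [← Units.val_pow_eq_pow_val]; exact h5⟩
    have h1 := LinearMap.congr_fun (hpow m') (0, b0)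
    rw [prodMap_pow, prodMap_pow, hN'] at h1
    have h2 : g ((N ^ m') (0 : A), ((S : Module.End F B) ^ m') b0) = (0, ((S' : Module.End F B) ^ m') (g (0, b0)).2) := h1
    rw [map_zero, hb0] at h2
    rw [h2]
  apply LinearMap.ext
  rintro ⟨a, b⟩
  have h1 : ((a, b) : A × B) = (a, 0) + (0, b) := by simp
  rw [h1, map_add, map_add]
  apply Prod.ext
  · show (g (a, 0)).1 + (g (0, b)).1 = (g (a, 0)).1 + (g (0, 0)).1
    have h3 : g ((0 : A), (0 : B)) = 0 := map_zero g
    rw [key2, h3]; rfl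
  · show (g (a, 0)).2 + (g (0, b)).2 = (g (0, 0)).2 + (g (0, b)).2
    have h3 : g ((0 : A), (0 : B)) = 0 := map_zero g
    rw [key1, h3]; rfl

/-- the conjugation action -/
def act {V : Type*} [AddCommGroup V] [Module F V] (g : (Module.End F V)ˣ) (T : Module.End F V) : Module.End F V :=
  (g : Module.End F V) * T * ((g⁻¹ : (Module.End F V)ˣ) : Module.End F V)

theorem act_one {V : Type*} [AddCommGroup V] [Module F V] (T : Module.End F V) : act (1 : (Module.End F V)ˣ) T = T := by
  simp [act]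

theorem act_mul {V : Type*} [AddCommGroup V] [Module F V] (g h : (Module.End F V)ˣ) (T : Module.End F V) :
    act (g * h) T = act g (act h T) := by
  simp [act, mul_assoc]

theorem act_mem_iff (y : Module.End F (A × B)) (hy : y ∈ Ymod F A B) (g : (Module.End F (A × B))ˣ) :
    act g y ∈ Ymod F A B ↔ g ∈ Hmod F A B := by
  constructor
  · intro h
    have h1 : (g : Module.End F (A × B)) * y = act g y * g := by
      simp [act, mul_assoc]
    have h2 : ((g⁻¹ : (Module.End F (A × B))ˣ) : Module.End F (A × B)) * act g y = y * ((g⁻¹ : (Module.End F (A × B))ˣ) : Module.End F (A × B)) := by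
      simp [act, mul_assoc]
    have b1 := block y (act g y) hy h _ h1
    have b2 := block (act g y) y h hy _ h2
    set gA := (LinearMap.fst F A B) ∘ₗ (g : Module.End F (A × B)) ∘ₗ (LinearMap.inl F A B)
    set gB := (LinearMap.snd F A B) ∘ₗ (g : Module.End F (A × B)) ∘ₗ (LinearMap.inr F A B)
    set hA := (LinearMap.fst F A B) ∘ₗ ((g⁻¹ : (Module.End F (A × B))ˣ) : Module.End F (A × B)) ∘ₗ (LinearMap.inl F A B)
    set hB := (LinearMap.snd F A B) ∘ₗ ((g⁻¹ : (Module.End F (A × B))ˣ) : Module.End F (A × B)) ∘ₗ (LinearMap.inr F A B)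
    have m1 : (LinearMap.prodMap (gA * hA : Module.End F A) (gB * hB : Module.End F B) : Module.End F (A × B)) = LinearMap.prodMap (1 : Module.End F A) (1 : Module.End F B) := by
      rw [← prodMap_mul', ← b1, ← b2, Units.mul_inv]; rfl
    have m2 : (LinearMap.prodMap (hA * gA : Module.End F A) (hB * gB : Module.End F B) : Module.End F (A × B)) = LinearMap.prodMap (1 : Module.End F A) (1 : Module.End F B) := by
      rw [← prodMap_mul', ← b1, ← b2, Units.inv_mul]; rfl
    obtain ⟨p1, p2⟩ := prodMap_inj' m1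
    obtain ⟨p3, p4⟩ := prodMap_inj' m2
    exact ⟨⟨gA, hA, p1, p3⟩, ⟨gB, hB, p2, p4⟩, b1⟩
  · rintro ⟨a, b, hg⟩
    obtain ⟨N, ⟨m, hN⟩, S, rfl⟩ := hy
    have hginv : ((g⁻¹ : (Module.End F (A × B))ˣ) : Module.End F (A × B)) = LinearMap.prodMap ((a⁻¹ : (Module.End F A)ˣ) : Module.End F A) ((b⁻¹ : (Module.End F B)ˣ) : Module.End F B) := by
      apply Units.inv_eq_of_mul_eq_one_right
      rw [hg, prodMap_mul', Units.mul_inv, Units.mul_inv]; rfl
    refine ⟨(a : Module.End F A) * N * ((a⁻¹ : (Module.End F A)ˣ) : Module.End F A), ⟨m, ?_⟩, b * S * b⁻¹, ?_⟩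
    · rw [Units.conj_pow, hN, mul_zero, zero_mul]
    · unfold act
      rw [hg, hginv, prodMap_mul', prodMap_mul']
      rfl

end block

/-- generalized kernel -/
def W {V : Type*} [AddCommGroup V] [Module F V] (T : Module.End F V) : Submodule F V := ⨆ n, LinearMap.ker (T ^ n)

theorem mem_W {V : Type*} [AddCommGroup V] [Module F V] (T : Module.End F V) (v : V) : v ∈ W T ↔ ∃ n, (T ^ n) v = 0 := by
  unfold W
  rw [Submodule.mem_iSup_of_directed]
  · rfl
  · apply Monotone.directed_le
    intro i j hij v hv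
    rw [LinearMap.mem_ker] at hv ⊢
    obtain ⟨k, rfl⟩ := Nat.exists_eq_add_of_le hij
    rw [add_comm, pow_add]
    show (T ^ k) ((T ^ i) v) = 0
    rw [hv, map_zero]

theorem W_conj {V V' : Type*} [AddCommGroup V] [Module F V] [AddCommGroup V'] [Module F V'] (e : V ≃ₗ[F] V')
    (T : Module.End F V) (T' : Module.End F V') (h : ∀ v, e (T v) = T' (e v)) : finrank F (W T) = finrank F (W T') := by
  have hp : ∀ n v, e ((T ^ n) v) = (T' ^ n) (e v) := by
    intro n
    induction n with
    | zero => intro v; rfl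
    | succ n ih => 
      intro v
      rw [pow_succ, pow_succ]
      show e ((T ^ n) (T v)) = (T' ^ n) (T' (e v))
      rw [ih, h]
  have h1 : (W T).map (e : V →ₗ[F] V') = W T' := by
    ext v
    rw [Submodule.mem_map]
    constructor
    · rintro ⟨u, hu, rfl⟩
      obtain ⟨n, hn⟩ := (mem_W T u).1 hu
      rw [mem_W]
      exact ⟨n, by show (T' ^ n) (e u) = 0; rw [← hp, hn, map_zero]⟩
    · intro hv
      obtain ⟨n, hn⟩ := (mem_W T' v).1 hv
      refine ⟨e.symm v, (mem_W T _).2 ⟨n, ?_⟩, by simp⟩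
      apply e.injective
      rw [hp, e.apply_symm_apply, hn, map_zero]
  rw [← h1]
  exact (LinearEquiv.finrank_eq (e.submoduleMap (W T)))

theorem W_model {A B : Type*} [AddCommGroup A] [Module F A] [AddCommGroup B] [Module F B] (y : Module.End F (A × B))
    (hy : y ∈ Ymod F A B) : finrank F (W y) = finrank F A := by
  obtain ⟨N, ⟨m, hN⟩, S, rfl⟩ := hy
  have h1 : W (LinearMap.prodMap N (S : Module.End F B)) = LinearMap.range (LinearMap.inl F A B) := by
    ext ⟨a, b⟩
    rw [mem_W]
    constructor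
    · rintro ⟨n, hn⟩
      rw [prodMap_pow] at hn
      have h2 : ((S : Module.End F B) ^ n) b = 0 := congrArg Prod.snd hn
      have h5 : ((((S ^ n)⁻¹ : (Module.End F B)ˣ) : Module.End F B) * ((S ^ n : (Module.End F B)ˣ) : Module.End F B)) b = b := by
        rw [Units.inv_mul]; rfl
      have h6 : b = 0 := by
        rw [← h5]
        show (((S ^ n)⁻¹ : (Module.End F B)ˣ) : Module.End F B) (((S ^ n : (Module.End F B)ˣ) : Module.End F B) b) = 0
        rw [Units.val_pow_eq_pow_val, h2, map_zero]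
      rw [h6]
      exact ⟨a, rfl⟩
    · rintro ⟨a', ha⟩
      have hb : b = 0 := (congrArg Prod.snd ha).symm
      refine ⟨m, ?_⟩
      rw [prodMap_pow, hN, hb]
      show ((0 : A), ((S : Module.End F B) ^ m) 0) = 0
      rw [map_zero]; rfl
  rw [h1]
  exact LinearMap.finrank_range_of_inj LinearMap.inl_injective

theorem exists_model {A B : Type*} [AddCommGroup A] [Module F A] [AddCommGroup B] [Module F B] [FiniteDimensional F A] [FiniteDimensional F B]
    (T : Module.End F (A × B)) (hT : finrank F (W T) = finrank F A) : ∃ g : (Module.End F (A × B))ˣ, ∃ y ∈ Ymod F A B, act g y = T := by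
  obtain ⟨m, hm⟩ := Filter.eventually_atTop.mp <| (T.eventually_isCompl_ker_pow_range_pow.and <|
    T.eventually_iInf_range_pow_eq.and T.eventually_iSup_ker_pow_eq)
  obtain ⟨c1, c2, c3⟩ := hm m le_rfl
  obtain ⟨d1, d2, d3⟩ := hm (m + 1) (Nat.le_succ m)
  have hWker : W T = LinearMap.ker (T ^ m) := c3
  have hkk : LinearMap.ker (T ^ (m + 1)) = LinearMap.ker (T ^ m) := d3.symm.trans c3
  set X := LinearMap.range (T ^ m) with hX
  set U := LinearMap.ker (T ^ m) with hU
  have hcomm : ∀ v, (T ^ m) (T v) = T ((T ^ m) v) := by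
    intro v
    have : T ^ m * T = T * T ^ m := (pow_succ T m).symm.trans (pow_succ' T m)
    exact LinearMap.congr_fun this v
  have hTU : ∀ v ∈ U, T v ∈ U := by
    intro v hv
    rw [LinearMap.mem_ker] at hv ⊢
    rw [hcomm, hv, map_zero]
  have hTX : ∀ v ∈ X, T v ∈ X := by
    rintro v ⟨u, rfl⟩
    exact ⟨T u, hcomm u⟩
  let TU : Module.End F U := T.restrict hTU
  let TX : Module.End F X := T.restrict hTX
  have hTXinj : Function.Injective TX := by
    rw [← LinearMap.ker_eq_bot, LinearMap.ker_eq_bot']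
    rintro ⟨v, u, rfl⟩ hv
    have h1 : T ((T ^ m) u) = 0 := congrArg Subtype.val hv
    have h2 : u ∈ LinearMap.ker (T ^ (m + 1)) := by
      rw [LinearMap.mem_ker, pow_succ']
      exact h1
    rw [hkk] at h2
    exact Subtype.ext h2
  have hTXbij : Function.Bijective TX := ⟨hTXinj, LinearMap.surjective_of_injective hTXinj⟩
  let sX : X ≃ₗ[F] X := LinearEquiv.ofBijective TX hTXbij
  have hfU : finrank F A = finrank F U := by rw [← hT, hWker]
  have hfX : finrank F B = finrank F X := by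
    have h1 := Submodule.finrank_add_eq_of_isCompl c1
    rw [Module.finrank_prod] at h1
    omega
  let eA : A ≃ₗ[F] U := LinearEquiv.ofFinrankEq A U hfU
  let eB : B ≃ₗ[F] X := LinearEquiv.ofFinrankEq B X hfX
  let g : (A × B) ≃ₗ[F] (A × B) := (eA.prodCongr eB).trans (Submodule.prodEquivOfIsCompl U X c1)
  have hg : ∀ a b, g (a, b) = (eA a : A × B) + (eB b : A × B) := fun a b => rfl
  let N : Module.End F A := (eA.symm : U →ₗ[F] A) ∘ₗ TU ∘ₗ (eA : A →ₗ[F] U)
  have hNpow : ∀ n a, ((eA ((N ^ n) a) : U) : A × B) = (T ^ n) (eA a : A × B) := by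
    intro n
    induction n with
    | zero => intro a; rfl
    | succ n ih =>
      intro a
      rw [pow_succ, pow_succ]
      show ((eA ((N ^ n) (N a)) : U) : A × B) = (T ^ n) (T (eA a : A × B))
      rw [ih]
      congr 1
      show ((eA (eA.symm (TU (eA a))) : U) : A × B) = _
      rw [eA.apply_symm_apply]
      rfl
  have hNnil : IsNilpotent N := by
    refine ⟨m, ?_⟩
    ext a
    apply eA.injective
    apply Subtype.ext
    rw [hNpow]
    show _ = ((eA 0 : U) : A × B)
    rw [map_zero]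
    exact (eA a).2
  let S : (Module.End F B)ˣ := 
    { val := (eB.symm : X →ₗ[F] B) ∘ₗ (sX : X →ₗ[F] X) ∘ₗ (eB : B →ₗ[F] X)
      inv := (eB.symm : X →ₗ[F] B) ∘ₗ (sX.symm : X →ₗ[F] X) ∘ₗ (eB : B →ₗ[F] X)
      val_inv := by
        ext b
        show eB.symm (sX (eB (eB.symm (sX.symm (eB b))))) = b
        simp
      inv_val := by
        ext b
        show eB.symm (sX.symm (eB (eB.symm (sX (eB b))))) = b
        simp }
  let gu : (Module.End F (A × B))ˣ := 
    { val := (g : A × B →ₗ[F] A × B)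
      inv := (g.symm : A × B →ₗ[F] A × B)
      val_inv := by
        apply LinearMap.ext; intro v
        show g (g.symm v) = v
        simp
      inv_val := by
        apply LinearMap.ext; intro v
        show g.symm (g v) = v
        simp }
  refine ⟨gu, LinearMap.prodMap N (S : Module.End F B), ⟨N, hNnil, S, rfl⟩, ?_⟩
  have hmain : (gu : Module.End F (A × B)) * LinearMap.prodMap N (S : Module.End F B) = T * gu := by
    apply LinearMap.ext
    rintro ⟨a, b⟩
    show g (N a, (S : Module.End F B) b) = T (g (a, b))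
    rw [hg, hg, map_add]
    congr 1
    · show ((eA (eA.symm (TU (eA a))) : U) : A × B) = _
      rw [eA.apply_symm_apply]
      rfl
    · show ((eB (eB.symm (sX (eB b))) : X) : A × B) = _
      rw [eB.apply_symm_apply]
      rfl
  show (gu : Module.End F (A × B)) * LinearMap.prodMap N (S : Module.End F B) * _ = T
  rw [hmain, mul_assoc, Units.mul_inv, mul_one]

theorem finrank_act {V : Type*} [AddCommGroup V] [Module F V] (g : (Module.End F V)ˣ) (T : Module.End F V) : 
    finrank F (W (act g T)) = finrank F (W T) := by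
  symm
  apply W_conj (LinearMap.GeneralLinearGroup.generalLinearEquiv F V g)
  intro v
  show (g : Module.End F V) (T v) = (g : Module.End F V) (T (((g⁻¹ : (Module.End F V)ˣ) : Module.End F V) ((g : Module.End F V) v)))
  congr 2
  have : (((g⁻¹ : (Module.End F V)ˣ) : Module.End F V) * (g : Module.End F V)) v = v := by
    rw [Units.inv_mul]; rfl
  exact this.symm

end Cfsg.Agent.Lib.NilCount
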