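import Mathlib
import Cfsg.Agent.Lib.NilCount

set_option autoImplicit false
set_option linter.all false

namespace Cfsg.Agent.Lib.NilCount

open Module

variable (F : Type*) [Field F] [Finite F]

/-- numbers -/
noncomputable def Nn (n : ℕ) : ℕ := Nat.card {N : Module.End F (Fin n → F) // IsNilpotent N}
noncomputable def Gn (n : ℕ) : ℕ := Nat.card (Module.End F (Fin n → F))ˣ
noncomputable def cnk (n k : ℕ) : ℕ := Nat.card {T : Module.End F (Fin n → F) // finrank F (W T) = k}

theorem finite_end (n : ℕ) : Finite (Module.End F (Fin n → F)) := Module.finite_of_finite F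

theorem Gn_eq (n : ℕ) : Gn F n = ∏ i : Fin n, (Nat.card F ^ n - Nat.card F ^ (i : ℕ)) := by
  classical
  have : Fintype F := Fintype.ofFinite F
  rw [Nat.card_eq_fintype_card, ← Matrix.card_GL_field]
  unfold Gn
  exact (Nat.card_congr (Matrix.GeneralLinearGroup.toLin (n := Fin n) (R := F)).toEquiv).symm

theorem Gn_pos (n : ℕ) : 0 < Gn F n := by
  unfold Gn
  have := finite_end F n
  exact Nat.card_pos

theorem Gn_succ (n : ℕ) : Gn F (n + 1) = Nat.card F ^ n * (Nat.card F ^ (n + 1) - 1) * Gn F n := by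
  rw [Gn_eq, Gn_eq, Fin.prod_univ_succ]
  have h1 : ∀ i : Fin n, Nat.card F ^ (n + 1) - Nat.card F ^ ((i.succ : Fin (n + 1)) : ℕ) = Nat.card F * (Nat.card F ^ n - Nat.card F ^ (i : ℕ)) := by
    intro i
    rw [Fin.val_succ, Nat.mul_sub, pow_succ, pow_succ]
    ring_nf
  rw [Finset.prod_congr rfl (fun i _ => h1 i), Finset.prod_mul_distrib, Finset.prod_const, Finset.card_univ, Fintype.card_fin]
  simp only [Fin.val_zero, pow_zero]
  ring

/-- conj equivalence gives the count for A × B -/
theorem card_conj {V : Type*} [AddCommGroup V] [Module F V] [FiniteDimensional F V] (n k : ℕ) (hn : finrank F V = n) :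
    Nat.card {T : Module.End F V // finrank F (W T) = k} = cnk F n k := by
  let e : V ≃ₗ[F] (Fin n → F) := LinearEquiv.ofFinrankEq _ _ (by rw [hn, Module.finrank_fin_fun])
  unfold cnk
  refine Nat.card_congr (Equiv.subtypeEquiv e.conj.toEquiv ?_)
  intro T
  have : finrank F (W T) = finrank F (W (e.conj T)) := by
    apply W_conj e
    intro v
    rw [LinearEquiv.conj_apply_apply, e.symm_apply_apply]
  show _ ↔ finrank F (W (e.conj T)) = k
  rw [this]

theorem card_units {V : Type*} [AddCommGroup V] [Module F V] [FiniteDimensional F V] (n : ℕ) (hn : finrank F V = n) :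
    Nat.card (Module.End F V)ˣ = Gn F n := by
  let e : V ≃ₗ[F] (Fin n → F) := LinearEquiv.ofFinrankEq _ _ (by rw [hn, Module.finrank_fin_fun])
  unfold Gn
  exact Nat.card_congr (Units.mapEquiv (e.conjRingEquiv : Module.End F V ≃* Module.End F (Fin n → F))).toEquiv

theorem main_id (k l : ℕ) : cnk F (k + l) k * Gn F k = Gn F (k + l) * Nn F k := by
  classical
  have hfr : finrank F ((Fin k → F) × (Fin l → F)) = k + l := by
    rw [Module.finrank_prod, Module.finrank_fin_fun, Module.finrank_fin_fun]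
  have : Finite (Module.End F ((Fin k → F) × (Fin l → F))) := by
    have : FiniteDimensional F (Module.End F ((Fin k → F) × (Fin l → F))) := inferInstance
    exact Module.finite_of_finite F
  have h1 := count_lemma (G := (Module.End F ((Fin k → F) × (Fin l → F)))ˣ) (Ω := Module.End F ((Fin k → F) × (Fin l → F)))
    act act_one act_mul (Ymod F (Fin k → F) (Fin l → F)) (Hmod F (Fin k → F) (Fin l → F))
    (fun y hy g => act_mem_iff y hy g)
  rw [card_Y, card_H, card_units F (k + l) hfr] at h1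
  have h2 : Nat.card {w : Module.End F ((Fin k → F) × (Fin l → F)) // ∃ g, ∃ y ∈ Ymod F (Fin k → F) (Fin l → F), act g y = w} = cnk F (k + l) k := by
    rw [← card_conj F (k + l) k hfr]
    refine Nat.card_congr (Equiv.subtypeEquivRight ?_)
    intro T
    constructor
    · rintro ⟨g, y, hy, rfl⟩
      rw [finrank_act, W_model y hy, Module.finrank_fin_fun]
    · intro h
      exact exists_model T (by rw [h, Module.finrank_fin_fun])
  rw [h2] at h1
  have h3 : 0 < Gn F l := Gn_pos F l
  change cnk F (k + l) k * (Gn F k * Gn F l) = Gn F (k + l) * (Nn F k * Gn F l) at h1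
  rw [← mul_assoc, ← mul_assoc] at h1
  exact Nat.eq_of_mul_eq_mul_right h3 h1

theorem sum_cnk (n : ℕ) : ∑ k ∈ Finset.range (n + 1), cnk F n k = Nat.card F ^ (n * n) := by
  classical
  have := finite_end F n
  have : Fintype (Module.End F (Fin n → F)) := Fintype.ofFinite _
  have h1 : Nat.card (Module.End F (Fin n → F)) = Nat.card F ^ (n * n) := by
    rw [Module.natCard_eq_pow_finrank (K := F), Module.finrank_linearMap, Module.finrank_fin_fun]
  rw [← h1, Nat.card_eq_fintype_card, ← Finset.card_univ]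
  rw [Finset.card_eq_sum_card_fiberwise (f := fun T : Module.End F (Fin n → F) => finrank F (W T)) (t := Finset.range (n + 1))]
  · refine Finset.sum_congr rfl fun k _ => ?_
    unfold cnk
    rw [Nat.card_eq_fintype_card, Fintype.card_subtype]
  · intro T _
    have := Submodule.finrank_le (W T)
    rw [Module.finrank_fin_fun] at this
    show finrank F (W T) ∈ (Finset.range (n + 1) : Set ℕ)
    simp only [Finset.coe_range, Set.mem_Iio]
    omega

theorem cnk_self (n : ℕ) : cnk F n n = Nn F n := by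
  have h := main_id F n 0
  rw [add_zero, mul_comm] at h
  exact Nat.eq_of_mul_eq_mul_left (Gn_pos F n) h

theorem Nn_eq (n : ℕ) : Nn F n = Nat.card F ^ (n * (n - 1)) := by
  have key : ∀ n, ∑ k ∈ Finset.range (n + 1), (Nn F k : ℚ) / Gn F k = (Nat.card F : ℚ) ^ (n * n) / Gn F n := by
    intro n
    have h1 := sum_cnk F n
    have h2 : (∑ k ∈ Finset.range (n + 1), (cnk F n k : ℚ)) = (Nat.card F : ℚ) ^ (n * n) := by exact_mod_cast h1
    rw [← h2, Finset.sum_div]
    refine Finset.sum_congr rfl fun k hk => ?_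
    have hk' : k ≤ n := by rw [Finset.mem_range] at hk; omega
    obtain ⟨l, rfl⟩ := Nat.exists_eq_add_of_le hk'
    have h3 := main_id F k l
    have h4 : (Gn F k : ℚ) ≠ 0 := by exact_mod_cast (Gn_pos F k).ne'
    have h5 : (Gn F (k + l) : ℚ) ≠ 0 := by exact_mod_cast (Gn_pos F (k + l)).ne'
    rw [div_eq_div_iff h4 h5]
    have h6 : (cnk F (k + l) k : ℚ) * Gn F k = Gn F (k + l) * Nn F k := by exact_mod_cast h3
    rw [h6]; ring
  rcases n with _ | n
  · have h := key 0
    simp only [zero_add, Finset.range_one, Finset.sum_singleton, mul_zero, pow_zero] at h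
    have h4 : (Gn F 0 : ℚ) ≠ 0 := by exact_mod_cast (Gn_pos F 0).ne'
    rw [div_left_inj' h4] at h
    simp only [zero_mul, pow_zero]
    exact_mod_cast h
  · have h := key (n + 1)
    rw [Finset.sum_range_succ, key n] at h
    have h4 : (Gn F (n + 1) : ℚ) ≠ 0 := by exact_mod_cast (Gn_pos F (n + 1)).ne'
    have h5 : (Gn F n : ℚ) ≠ 0 := by exact_mod_cast (Gn_pos F n).ne'
    have hq1 : 1 ≤ Nat.card F ^ (n + 1) := Nat.one_le_pow _ _ Nat.card_pos
    have h6 : (Gn F (n + 1) : ℚ) = (Nat.card F : ℚ) ^ n * ((Nat.card F : ℚ) ^ (n + 1) - 1) * Gn F n := by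
      have h7 := Gn_succ F n
      have h8 : ((Nat.card F ^ (n + 1) - 1 : ℕ) : ℚ) = (Nat.card F : ℚ) ^ (n + 1) - 1 := by
        rw [Nat.cast_sub hq1]; push_cast; ring
      rw [h7]
      push_cast [h8]
      ring
    have h9 : (Nn F (n + 1) : ℚ) = (Nat.card F : ℚ) ^ ((n + 1) * (n + 1)) - (Nat.card F : ℚ) ^ (n * n) * ((Gn F (n + 1) : ℚ) / Gn F n) := by
      field_simp at h ⊢
      linarith
    have h10 : (Gn F (n + 1) : ℚ) / Gn F n = (Nat.card F : ℚ) ^ n * ((Nat.card F : ℚ) ^ (n + 1) - 1) := by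
      rw [h6]; field_simp
    rw [h10] at h9
    have h11 : (Nn F (n + 1) : ℚ) = (Nat.card F : ℚ) ^ ((n + 1) * n) := by
      rw [h9]; ring
    rw [Nat.add_sub_cancel]
    exact_mod_cast h11

theorem card_nil_mat (n : ℕ) : Nat.card {N : Matrix (Fin n) (Fin n) F // IsNilpotent N} = Nn F n := by
  unfold Nn
  refine Nat.card_congr (Equiv.subtypeEquiv (Matrix.toLinAlgEquiv' (R := F) (n := Fin n)).toEquiv ?_)
  intro N
  exact (IsNilpotent.map_iff (f := (Matrix.toLinAlgEquiv' (R := F) (n := Fin n))) (Matrix.toLinAlgEquiv' (R := F) (n := Fin n)).injective).symm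

theorem unip_iff (p : ℕ) [Fact p.Prime] [CharP F p] (n : ℕ) (g : Matrix.GeneralLinearGroup (Fin n) F) :
    (∃ k : ℕ, orderOf g = p ^ k) ↔ IsNilpotent ((g : Matrix (Fin n) (Fin n) F) - 1) := by
  have hF : CharP (Matrix (Fin n) (Fin n) F) p ∨ n = 0 := by
    rcases Nat.eq_zero_or_pos n with h | h
    · exact Or.inr h
    · have : Nonempty (Fin n) := ⟨⟨0, h⟩⟩
      exact Or.inl inferInstance
  rcases hF with hF | hF
  swap
  · subst hF
    have h1 : g = 1 := by
      apply Units.ext
      ext i j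
      exact i.elim0
    rw [h1]
    constructor
    · intro _
      simp
    · intro _
      exact ⟨0, by simp⟩
  have hpw : ∀ k, ((g : Matrix (Fin n) (Fin n) F) - 1) ^ (p ^ k) = (g : Matrix (Fin n) (Fin n) F) ^ (p ^ k) - 1 := by
    intro k
    rw [sub_pow_char_pow_of_commute _ _ (Commute.one_right _), one_pow]
  constructor
  · rintro ⟨k, hk⟩
    refine ⟨p ^ k, ?_⟩
    rw [hpw, ← Units.val_pow_eq_pow_val, ← hk, pow_orderOf_eq_one]
    simp
  · rintro ⟨m, hm⟩
    have h1 : m ≤ p ^ m := (Nat.lt_pow_self (Fact.out (p := p.Prime)).one_lt).le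
    have h2 := hpw m
    rw [pow_eq_zero_of_le h1 hm] at h2
    have h3 : g ^ (p ^ m) = 1 := by
      apply Units.ext
      rw [Units.val_pow_eq_pow_val, Units.val_one]
      exact (sub_eq_zero.1 h2.symm)
    have h4 := orderOf_dvd_of_pow_eq_one h3
    obtain ⟨k, -, hk⟩ := (Nat.dvd_prime_pow (Fact.out (p := p.Prime))).1 h4
    exact ⟨k, hk⟩

theorem steinberg_count (p : ℕ) [Fact p.Prime] [CharP F p] (n : ℕ) :
    Nat.card {g : Matrix.GeneralLinearGroup (Fin n) F // ∃ k : ℕ, orderOf g = p ^ k} = Nat.card F ^ (n * (n - 1)) := by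
  rw [← Nn_eq, ← card_nil_mat]
  refine Nat.card_congr (Equiv.ofBijective (fun g => ⟨((g : Matrix.GeneralLinearGroup (Fin n) F) : Matrix (Fin n) (Fin n) F) - 1, (unip_iff F p n g.1).1 g.2⟩) ⟨?_, ?_⟩)
  · rintro ⟨g, hg⟩ ⟨g', hg'⟩ h
    have h1 : (g : Matrix (Fin n) (Fin n) F) - 1 = (g' : Matrix (Fin n) (Fin n) F) - 1 := congrArg Subtype.val h
    have h2 : g = g' := Units.ext (sub_left_injective h1)
    subst h2; rfl
  · rintro ⟨N, hN⟩
    have hu : IsUnit (1 + N) := hN.isUnit_one_add
    obtain ⟨u, hu⟩ := hu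
    have h1 : (u : Matrix (Fin n) (Fin n) F) - 1 = N := by rw [hu]; simp
    refine ⟨⟨u, (unip_iff F p n u).2 (by rw [h1]; exact hN)⟩, ?_⟩
    apply Subtype.ext
    exact h1

end Cfsg.Agent.Lib.NilCount
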