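import Mathlib
import Cfsg.Agent.Lib.SLn

/-! Subgroups of `GL_n` normalized by `SL_n`. -/

set_option linter.all false
set_option maxHeartbeats 400000

namespace Cfsg.Agent.Lib.Nrm

open Matrix
open scoped MatrixGroups commutatorElement

variable {F : Type*} [Field F] [Fintype F] {n : ℕ}

theorem perfect (h2 : 2 ≤ n) (hex : ¬ (n = 2 ∧ Fintype.card F ≤ 3)) : commutator (Matrix.SpecialLinearGroup (Fin n) F) = ⊤ := by
  haveI : Nontrivial (Fin n) := Fin.nontrivial_iff_two_le.mpr h2
  rcases Nat.lt_or_ge 2 n with h3 | h3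
  · exact SLn.commutator_eq_top (by rw [Fintype.card_fin]; omega)
  · have hn : n = 2 := by omega
    have hq : 4 ≤ Nat.card F := by
      rw [Nat.card_eq_fintype_card]
      by_contra h
      exact hex ⟨hn, by omega⟩
    obtain ⟨a, ha, ha2⟩ := SLn.exists_sq_ne_one hq
    exact SLn.commutator_eq_top' ha ha2

theorem simple (h2 : 2 ≤ n) (hex : ¬ (n = 2 ∧ Fintype.card F ≤ 3)) : IsSimpleGroup (Matrix.ProjectiveSpecialLinearGroup (Fin n) F) := by
  apply SLn.isSimpleGroup_PSL' (by rw [Fintype.card_fin]; exact h2)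
  intro h
  rw [Fintype.card_fin] at h
  rw [Nat.card_eq_fintype_card]
  by_contra h3
  exact hex ⟨h, by omega⟩

/-- a normal subgroup of `SL_n` is central or everything -/
theorem normal_SL (h2 : 2 ≤ n) (hex : ¬ (n = 2 ∧ Fintype.card F ≤ 3)) (K : Subgroup (Matrix.SpecialLinearGroup (Fin n) F)) (hK : K.Normal) :
    K ≤ Subgroup.center _ ∨ K = ⊤ := by
  haveI := simple (F := F) h2 hex
  have hp := perfect (F := F) h2 hex
  let Z := Subgroup.center (Matrix.SpecialLinearGroup (Fin n) F)
  let π : Matrix.SpecialLinearGroup (Fin n) F →* Matrix.ProjectiveSpecialLinearGroup (Fin n) F := QuotientGroup.mk' Z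
  have hπ : Function.Surjective π := QuotientGroup.mk'_surjective Z
  have hn : (K.map π).Normal := hK.map π hπ
  rcases hn.eq_bot_or_eq_top with h | h
  · left
    intro g hg
    have h1 : π g ∈ K.map π := ⟨g, hg, rfl⟩
    rw [h, Subgroup.mem_bot] at h1
    exact (QuotientGroup.eq_one_iff g).mp h1
  · right
    have hex2 : ∀ g, ∃ k ∈ K, ∃ z ∈ Z, g = k * z := by
      intro g
      have h1 : π g ∈ K.map π := by rw [h]; trivial
      obtain ⟨k, hk, hkg⟩ := h1
      have h2 : k⁻¹ * g ∈ Z := QuotientGroup.eq.mp hkg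
      exact ⟨k, hk, _, h2, by group⟩
    rw [eq_top_iff, ← hp, commutator_def, Subgroup.commutator_le]
    intro a _ b _
    obtain ⟨k, hk, z, hz, rfl⟩ := hex2 a
    obtain ⟨l, hl, w, hw, rfl⟩ := hex2 b
    have hzc : ∀ y, y * z = z * y := Subgroup.mem_center_iff.mp hz
    have hwc : ∀ y, y * w = w * y := Subgroup.mem_center_iff.mp hw
    have : ⁅k * z, l * w⁆ = ⁅k, l⁆ := by
      rw [hzc k, hwc l, commutatorElement_def, commutatorElement_def, _root_.mul_inv_rev, _root_.mul_inv_rev]
      have h1 : z * k * (w * l) * (k⁻¹ * z⁻¹) * (l⁻¹ * w⁻¹) = z * (k * w * l * k⁻¹) * z⁻¹ * l⁻¹ * w⁻¹ := by group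
      rw [h1, ← hzc (k * w * l * k⁻¹), mul_inv_cancel_right, hwc k]
      have h2 : w * k * l * k⁻¹ * l⁻¹ * w⁻¹ = w * (k * l * k⁻¹ * l⁻¹) * w⁻¹ := by group
      rw [h2, ← hwc, mul_inv_cancel_right]
    rw [this]
    exact K.mul_mem (K.mul_mem (K.mul_mem hk hl) (K.inv_mem hk)) (K.inv_mem hl)

theorem central_cross {S : Type*} [Group S] (hp : commutator S = ⊤) (c : S → S) (hcm : ∀ s t, c (s * t) = c s * c t)
    (hz : ∀ s, c s * s⁻¹ ∈ Subgroup.center S) (s : S) : c s = s := by
  have hc1 : c 1 = 1 := by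
    have := hcm 1 1
    rw [mul_one] at this
    exact (mul_eq_left.mp this.symm)
  let f : S →* Subgroup.center S :=
    { toFun := fun s => ⟨c s * s⁻¹, hz s⟩
      map_one' := by
        apply Subtype.ext
        show c 1 * 1⁻¹ = 1
        rw [hc1, inv_one, mul_one]
      map_mul' := by
        intro s t
        apply Subtype.ext
        show c (s * t) * (s * t)⁻¹ = (c s * s⁻¹) * (c t * t⁻¹)
        rw [hcm, _root_.mul_inv_rev]
        have h3 := Subgroup.mem_center_iff.mp (hz t) s⁻¹
        calc c s * c t * (t⁻¹ * s⁻¹) = c s * ((c t * t⁻¹) * s⁻¹) := by group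
          _ = c s * (s⁻¹ * (c t * t⁻¹)) := by rw [h3]
          _ = (c s * s⁻¹) * (c t * t⁻¹) := by group }
  have h1 : commutator S ≤ f.ker := by
    rw [commutator_def, Subgroup.commutator_le]
    intro a _ b _
    rw [MonoidHom.mem_ker, map_commutatorElement, commutatorElement_eq_one_iff_mul_comm]
    exact Subtype.ext (Subgroup.mem_center_iff.mp (f b).2 _)
  rw [hp] at h1
  have h2 : f s = 1 := h1 (Subgroup.mem_top s)
  exact mul_inv_eq_one.mp (congrArg Subtype.val h2)

theorem s2540 (n : ℕ) (hn : 1 ≤ n) (hex : ¬ (n = 2 ∧ Fintype.card F ≤ 3)) (G : Subgroup (Matrix.GeneralLinearGroup (Fin n) F)) (hG : ∀ s : Matrix.SpecialLinearGroup (Fin n) F, ∀ g ∈ G, (Matrix.SpecialLinearGroup.toGL s) * g * (Matrix.SpecialLinearGroup.toGL s)⁻¹ ∈ G) : (∀ g ∈ G, ∃ c : F, (g : Matrix (Fin n) (Fin n) F) = c • (1 : Matrix (Fin n) (Fin n) F)) ∨ (Matrix.SpecialLinearGroup.toGL : Matrix.SpecialLinearGroup (Fin n) F →* _).range ≤ G := by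
  classical
  rcases Nat.lt_or_ge 1 n with h2 | h2
  swap
  · left
    have hn1 : n = 1 := by omega
    subst hn1
    intro g _
    refine ⟨(g : Matrix (Fin 1) (Fin 1) F) 0 0, ?_⟩
    ext i j
    rw [Subsingleton.elim i 0, Subsingleton.elim j 0]
    simp
  · set ι : Matrix.SpecialLinearGroup (Fin n) F →* GL (Fin n) F := Matrix.SpecialLinearGroup.toGL with hι
    have hιinj : Function.Injective ι := by
      intro a b h
      apply Subtype.ext
      exact congrArg Units.val h
    let K : Subgroup (Matrix.SpecialLinearGroup (Fin n) F) := G.comap ι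
    have hK : K.Normal := by
      constructor
      intro k hk s
      show ι (s * k * s⁻¹) ∈ G
      rw [map_mul, map_mul, map_inv]
      exact hG s _ hk
    rcases normal_SL (F := F) h2 hex K hK with h | h
    · left
      intro g hg
      -- conjugation by g
      have hdet : ∀ s : Matrix.SpecialLinearGroup (Fin n) F, ∃ c : Matrix.SpecialLinearGroup (Fin n) F, ι c = g * ι s * g⁻¹ := by
        intro s
        refine ⟨⟨((g * ι s * g⁻¹ : GL (Fin n) F) : Matrix (Fin n) (Fin n) F), ?_⟩, Units.ext rfl⟩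
        have h1 : ((Matrix.GeneralLinearGroup.det (g * ι s * g⁻¹) : Fˣ) : F) = ((Matrix.GeneralLinearGroup.det (ι s) : Fˣ) : F) := by
          rw [map_mul, map_mul, map_inv, mul_comm, ← mul_assoc, inv_mul_cancel, one_mul]
        exact h1.trans s.2
      choose c hc using hdet
      have hk : ∀ s, c s * s⁻¹ ∈ K := by
        intro s
        show ι (c s * s⁻¹) ∈ G
        rw [map_mul, map_inv, hc]
        have : g * ι s * g⁻¹ * (ι s)⁻¹ = g * (ι s * g⁻¹ * (ι s)⁻¹) := by group
        rw [this]
        exact G.mul_mem hg (hG s _ (G.inv_mem hg))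
      have hcm : ∀ s t, c (s * t) = c s * c t := by
        intro s t
        apply hιinj
        rw [map_mul, hc, hc, hc, map_mul]
        group
      have hcs : ∀ s, c s = s := central_cross (perfect (F := F) h2 hex) c hcm (fun s => h (hk s))
      have hcomm : ∀ s, g * ι s = ι s * g := by
        intro s
        have h4 := hc s
        rw [hcs] at h4
        rw [← mul_inv_eq_iff_eq_mul, ← h4]
      -- g commutes with transvections
      obtain ⟨a, ha⟩ := Matrix.mem_range_scalar_of_commute_transvectionStruct (M := (g : Matrix (Fin n) (Fin n) F)) (by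
        intro t
        have h1 := congrArg Units.val (hcomm ⟨t.toMatrix, t.det⟩)
        exact h1.symm)
      refine ⟨a, ?_⟩
      rw [← ha]
      ext i j
      simp [Matrix.scalar_apply, Matrix.diagonal_apply, Matrix.one_apply]
    · right
      rintro _ ⟨s, rfl⟩
      have : s ∈ K := by rw [h]; trivial
      exact this

end Cfsg.Agent.Lib.Nrm
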