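import Cfsg.Agent.Lib.CharBasic
import Cfsg.Agent.Lib.CharInd
import Cfsg.Agent.Lib.CharLin
import Cfsg.Agent.Lib.CharExc
import Cfsg.Prelude.Def_OddOrderChar
import Cfsg.Prelude.Def_OddOrderLocal

set_option autoImplicit false

namespace Cfsg.Agent.Lib.OddCyc

open Cfsg Cfsg.Agent.Lib.CharBasic Cfsg.Agent.Lib.CharInd Cfsg.Agent.Lib.CharLin
open scoped ComplexConjugate

noncomputable section

variable {G : Type*} [Group G] {W₁ W₂ : Subgroup G}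

theorem hmul_one {X : Type*} [Group X] (φ : X →* ℂˣ) : φ * 1 = φ := mul_one φ
theorem hone_mul {X : Type*} [Group X] (φ : X →* ℂˣ) : 1 * φ = φ := one_mul φ
theorem hmul_assoc {X : Type*} [Group X] (φ ψ θ : X →* ℂˣ) : φ * ψ * θ = φ * (ψ * θ) := by
  ext x; simp [mul_assoc]
theorem hinv_mul_cancel_left {X : Type*} [Group X] (φ ψ : X →* ℂˣ) : φ⁻¹ * (φ * ψ) = ψ := by
  ext x; simp

/-- characters trivial on `W₂` -/
def K1 (W₁ W₂ : Subgroup G) : Subgroup (↥(W₁ ⊔ W₂) →* ℂˣ) where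
  carrier := {φ | ∀ w : ↥(W₁ ⊔ W₂), (w : G) ∈ W₂ → φ w = 1}
  mul_mem' := fun {a b} ha hb w hw => by rw [MonoidHom.mul_apply, ha w hw, hb w hw, one_mul]
  one_mem' := fun w _ => rfl
  inv_mem' := fun {a} ha w hw => by rw [MonoidHom.inv_apply, ha w hw, inv_one]

/-- characters trivial on `W₁` -/
def K2 (W₁ W₂ : Subgroup G) : Subgroup (↥(W₁ ⊔ W₂) →* ℂˣ) where
  carrier := {φ | ∀ w : ↥(W₁ ⊔ W₂), (w : G) ∈ W₁ → φ w = 1}
  mul_mem' := fun {a b} ha hb w hw => by rw [MonoidHom.mul_apply, ha w hw, hb w hw, one_mul]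
  one_mem' := fun w _ => rfl
  inv_mem' := fun {a} ha w hw => by rw [MonoidHom.inv_apply, ha w hw, inv_one]

theorem mem_K1 {φ : ↥(W₁ ⊔ W₂) →* ℂˣ} : φ ∈ K1 W₁ W₂ ↔ ∀ w : ↥(W₁ ⊔ W₂), (w : G) ∈ W₂ → φ w = 1 := Iff.rfl
theorem mem_K2 {φ : ↥(W₁ ⊔ W₂) →* ℂˣ} : φ ∈ K2 W₁ W₂ ↔ ∀ w : ↥(W₁ ⊔ W₂), (w : G) ∈ W₁ → φ w = 1 := Iff.rfl

section decomp

variable (hdisj : W₁ ⊓ W₂ = ⊥) (hcomm : ∀ a ∈ W₁, ∀ b ∈ W₂, a * b = b * a)

/-- the internal product decomposition -/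
def prodEquiv : W₁ × W₂ ≃* ↥(W₁ ⊔ W₂) :=
  (MonoidHom.ofInjective (f := MonoidHom.noncommCoprod W₁.subtype W₂.subtype
    (fun m n => hcomm m m.2 n n.2)) (by
      rw [← MonoidHom.ker_eq_bot_iff, eq_bot_iff]
      rintro ⟨a, b⟩ h
      have h1 : (a : G) * (b : G) = 1 := h
      have h2 : (a : G) = (b : G)⁻¹ := eq_inv_of_mul_eq_one_left h1
      have h3 : (a : G) ∈ W₁ ⊓ W₂ := ⟨a.2, h2 ▸ W₂.inv_mem b.2⟩
      rw [hdisj, Subgroup.mem_bot] at h3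
      have h4 : (b : G) = 1 := by rw [h3, one_mul] at h1; exact h1
      rw [Subgroup.mem_bot]
      exact Prod.ext (Subtype.ext h3) (Subtype.ext h4))).trans
    (MulEquiv.subgroupCongr ((MonoidHom.noncommCoprod_range _ _ _).trans
      (by rw [Subgroup.range_subtype, Subgroup.range_subtype])))

theorem prodEquiv_coe (p : W₁ × W₂) : ((prodEquiv hdisj hcomm p : ↥(W₁ ⊔ W₂)) : G) = p.1 * p.2 := rfl

/-- projection to `W₁` -/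
def q1 : ↥(W₁ ⊔ W₂) →* W₁ := (MonoidHom.fst W₁ W₂).comp (prodEquiv hdisj hcomm).symm.toMonoidHom
/-- projection to `W₂` -/
def q2 : ↥(W₁ ⊔ W₂) →* W₂ := (MonoidHom.snd W₁ W₂).comp (prodEquiv hdisj hcomm).symm.toMonoidHom

theorem q_mul (w : ↥(W₁ ⊔ W₂)) : (w : G) = (q1 hdisj hcomm w : G) * (q2 hdisj hcomm w : G) := by
  have := prodEquiv_coe hdisj hcomm ((prodEquiv hdisj hcomm).symm w)
  rw [MulEquiv.apply_symm_apply] at this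
  exact this

theorem q_unique {w : ↥(W₁ ⊔ W₂)} {a : W₁} {b : W₂} (h : (w : G) = a * b) :
    q1 hdisj hcomm w = a ∧ q2 hdisj hcomm w = b := by
  have : w = prodEquiv hdisj hcomm (a, b) := Subtype.ext (by rw [prodEquiv_coe, h])
  have h2 : (prodEquiv hdisj hcomm).symm w = (a, b) := by rw [this, MulEquiv.symm_apply_apply]
  constructor
  · show ((prodEquiv hdisj hcomm).symm w).1 = a
    rw [h2]
  · show ((prodEquiv hdisj hcomm).symm w).2 = b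
    rw [h2]

theorem q1_of_mem {w : ↥(W₁ ⊔ W₂)} (h : (w : G) ∈ W₁) : q1 hdisj hcomm w = ⟨w, h⟩ ∧ q2 hdisj hcomm w = 1 :=
  q_unique hdisj hcomm (a := ⟨w, h⟩) (b := 1) (by simp)

theorem q2_of_mem {w : ↥(W₁ ⊔ W₂)} (h : (w : G) ∈ W₂) : q2 hdisj hcomm w = ⟨w, h⟩ ∧ q1 hdisj hcomm w = 1 :=
  (q_unique hdisj hcomm (a := 1) (b := ⟨w, h⟩) (by simp)).symm

theorem mem2_iff {w : ↥(W₁ ⊔ W₂)} : (w : G) ∈ W₂ ↔ q1 hdisj hcomm w = 1 := by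
  refine ⟨fun h => (q2_of_mem hdisj hcomm h).2, fun h => ?_⟩
  rw [q_mul hdisj hcomm w, h]; simp

theorem mem1_iff {w : ↥(W₁ ⊔ W₂)} : (w : G) ∈ W₁ ↔ q2 hdisj hcomm w = 1 := by
  refine ⟨fun h => (q1_of_mem hdisj hcomm h).2, fun h => ?_⟩
  rw [q_mul hdisj hcomm w, h]; simp

/-- inclusion of `W₁` -/
def i1 (W₁ W₂ : Subgroup G) : W₁ →* ↥(W₁ ⊔ W₂) := Subgroup.inclusion le_sup_left
/-- inclusion of `W₂` -/
def i2 (W₁ W₂ : Subgroup G) : W₂ →* ↥(W₁ ⊔ W₂) := Subgroup.inclusion le_sup_right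

theorem q_eq (w : ↥(W₁ ⊔ W₂)) : w = i1 W₁ W₂ (q1 hdisj hcomm w) * i2 W₁ W₂ (q2 hdisj hcomm w) :=
  Subtype.ext (q_mul hdisj hcomm w)

theorem K1_apply {φ : ↥(W₁ ⊔ W₂) →* ℂˣ} (h : φ ∈ K1 W₁ W₂) (w : ↥(W₁ ⊔ W₂)) :
    φ w = φ (i1 W₁ W₂ (q1 hdisj hcomm w)) := by
  conv_lhs => rw [q_eq hdisj hcomm w, map_mul, h (i2 W₁ W₂ (q2 hdisj hcomm w)) (q2 hdisj hcomm w).2, mul_one]

theorem K2_apply {φ : ↥(W₁ ⊔ W₂) →* ℂˣ} (h : φ ∈ K2 W₁ W₂) (w : ↥(W₁ ⊔ W₂)) :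
    φ w = φ (i2 W₁ W₂ (q2 hdisj hcomm w)) := by
  conv_lhs => rw [q_eq hdisj hcomm w, map_mul, h (i1 W₁ W₂ (q1 hdisj hcomm w)) (q1 hdisj hcomm w).2, one_mul]

include hdisj hcomm in
theorem K_inj {φ φ' ψ ψ' : ↥(W₁ ⊔ W₂) →* ℂˣ} (h1 : φ ∈ K1 W₁ W₂) (h1' : φ' ∈ K1 W₁ W₂) (h2 : ψ ∈ K2 W₁ W₂)
    (h2' : ψ' ∈ K2 W₁ W₂) (h : φ * ψ = φ' * ψ') : φ = φ' ∧ ψ = ψ' := by
  have hφ : φ = φ' := by
    ext w
    have := DFunLike.congr_fun h (i1 W₁ W₂ (q1 hdisj hcomm w))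
    rw [MonoidHom.mul_apply, MonoidHom.mul_apply, h2 _ (q1 hdisj hcomm w).2, h2' _ (q1 hdisj hcomm w).2,
      mul_one, mul_one] at this
    rw [K1_apply hdisj hcomm h1, K1_apply hdisj hcomm h1', this]
  subst hφ
  exact ⟨rfl, mul_left_cancel h⟩

include hdisj hcomm in
theorem K_inf {φ : ↥(W₁ ⊔ W₂) →* ℂˣ} (h1 : φ ∈ K1 W₁ W₂) (h2 : φ ∈ K2 W₁ W₂) : φ = 1 :=
  (K_inj hdisj hcomm h1 (K1 W₁ W₂).one_mem (K2 W₁ W₂).one_mem h2 (by rw [hmul_one, hone_mul])).1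

include hdisj hcomm in
theorem K_surj (ω : ↥(W₁ ⊔ W₂) →* ℂˣ) : ∃ φ ∈ K1 W₁ W₂, ∃ ψ ∈ K2 W₁ W₂, ω = φ * ψ := by
  refine ⟨ω.comp ((i1 W₁ W₂).comp (q1 hdisj hcomm)), fun w hw => ?_,
    ω.comp ((i2 W₁ W₂).comp (q2 hdisj hcomm)), fun w hw => ?_, ?_⟩
  · show ω (i1 W₁ W₂ (q1 hdisj hcomm w)) = 1
    rw [(mem2_iff hdisj hcomm).mp hw, map_one, map_one]
  · show ω (i2 W₁ W₂ (q2 hdisj hcomm w)) = 1
    rw [(mem1_iff hdisj hcomm).mp hw, map_one, map_one]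
  · refine MonoidHom.ext fun w => ?_
    show ω w = ω (i1 W₁ W₂ (q1 hdisj hcomm w)) * ω (i2 W₁ W₂ (q2 hdisj hcomm w))
    rw [← map_mul, ← q_eq]

/-- the function `(1 - φ)(1 - ψ)` -/
def alp (φ ψ : ↥(W₁ ⊔ W₂) →* ℂˣ) : ↥(W₁ ⊔ W₂) → ℂ := fun w =>
  1 - (φ w : ℂ) - (ψ w : ℂ) + (φ w : ℂ) * (ψ w : ℂ)

theorem alp_eq (φ ψ : ↥(W₁ ⊔ W₂) →* ℂˣ) : alp φ ψ = linFn 1 - linFn φ - linFn ψ + linFn (φ * ψ) := by
  funext w
  simp [alp, linFn]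

theorem alp_one_left (ψ : ↥(W₁ ⊔ W₂) →* ℂˣ) : alp 1 ψ = 0 := by funext w; simp [alp]
theorem alp_one_right (φ : ↥(W₁ ⊔ W₂) →* ℂˣ) : alp φ 1 = 0 := by funext w; simp [alp]

theorem alp_vanish {φ ψ : ↥(W₁ ⊔ W₂) →* ℂˣ} (h1 : φ ∈ K1 W₁ W₂) (h2 : ψ ∈ K2 W₁ W₂) (w : ↥(W₁ ⊔ W₂))
    (hw : (w : G) ∈ W₁ ∨ (w : G) ∈ W₂) : alp φ ψ w = 0 := by
  rcases hw with hw | hw
  · simp [alp, h2 w hw]
  · simp [alp, h1 w hw]

theorem alp_classFn (φ ψ : ↥(W₁ ⊔ W₂) →* ℂˣ) : IsClassFunction ↥(W₁ ⊔ W₂) (alp φ ψ) := by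
  intro g h
  have : ∀ ω : ↥(W₁ ⊔ W₂) →* ℂˣ, ω (h * g * h⁻¹) = ω g := by
    intro ω; rw [map_mul, map_mul, map_inv, mul_comm (ω h), mul_assoc, mul_inv_cancel, mul_one]
  simp only [alp, this]

include hdisj hcomm in
open Classical in
theorem alp_inner [Fintype ↥(W₁ ⊔ W₂)] {φ φ' ψ ψ' : ↥(W₁ ⊔ W₂) →* ℂˣ} (h1 : φ ∈ K1 W₁ W₂) (h1' : φ' ∈ K1 W₁ W₂)
    (h2 : ψ ∈ K2 W₁ W₂) (h2' : ψ' ∈ K2 W₁ W₂) (hφ : φ ≠ 1) (hφ' : φ' ≠ 1) (hψ : ψ ≠ 1) (hψ' : ψ' ≠ 1) :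
    classInner (alp φ ψ) (alp φ' ψ') = 1 + (if φ = φ' then 1 else 0) + (if ψ = ψ' then 1 else 0) +
      (if φ = φ' then 1 else 0) * (if ψ = ψ' then 1 else 0) := by
  have key : ∀ {a a' b b' : ↥(W₁ ⊔ W₂) →* ℂˣ}, a ∈ K1 W₁ W₂ → a' ∈ K1 W₁ W₂ → b ∈ K2 W₁ W₂ → b' ∈ K2 W₁ W₂ →
      classInner (linFn (a * b)) (linFn (a' * b')) = (if a = a' then 1 else 0) * (if b = b' then 1 else 0) := by
    intro a a' b b' ha ha' hb hb'
    rw [linFn_inner]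
    by_cases h : a * b = a' * b'
    · obtain ⟨e1, e2⟩ := K_inj hdisj hcomm ha ha' hb hb' h
      rw [if_pos h, if_pos e1, if_pos e2, one_mul]
    · rw [if_neg h]
      by_cases e1 : a = a'
      · rw [if_neg (fun e2 : b = b' => h (by rw [e1, e2])), mul_zero]
      · rw [if_neg e1, zero_mul]
  have o1 := (K1 W₁ W₂).one_mem
  have o2 := (K2 W₁ W₂).one_mem
  have e1 : linFn (1 : ↥(W₁ ⊔ W₂) →* ℂˣ) = linFn (1 * 1) := by rw [hmul_one]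
  have e2 : ∀ φ : ↥(W₁ ⊔ W₂) →* ℂˣ, linFn φ = linFn (φ * 1) := fun φ => by rw [hmul_one]
  have e3 : ∀ φ : ↥(W₁ ⊔ W₂) →* ℂˣ, linFn φ = linFn (1 * φ) := fun φ => by rw [hone_mul]
  rw [alp_eq, alp_eq, e1, e2 φ, e3 ψ, e2 φ', e3 ψ']
  simp only [classInner_add_left, classInner_add_right, classInner_sub_left, classInner_sub_right]
  rw [key o1 o1 o2 o2, key o1 h1' o2 o2, key o1 o1 o2 h2', key o1 h1' o2 h2',
    key h1 o1 o2 o2, key h1 h1' o2 o2, key h1 o1 o2 h2', key h1 h1' o2 h2',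
    key o1 o1 h2 o2, key o1 h1' h2 o2, key o1 o1 h2 h2', key o1 h1' h2 h2',
    key h1 o1 h2 o2, key h1 h1' h2 o2, key h1 o1 h2 h2', key h1 h1' h2 h2']
  rw [if_neg hφ, if_neg hψ, if_neg (Ne.symm hφ'), if_neg (Ne.symm hψ')]
  simp only [if_true]
  ring

end decomp

/-- linear independence of the functions `(1 - φ)(1 - ψ)` -/
theorem alp_linInd [Finite G] (hdisj : W₁ ⊓ W₂ = ⊥) (hcomm : ∀ a ∈ W₁, ∀ b ∈ W₂, a * b = b * a) :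
    LinearIndependent ℂ (fun p : {p : (↥(W₁ ⊔ W₂) →* ℂˣ) × (↥(W₁ ⊔ W₂) →* ℂˣ) // p.1 ≠ 1 ∧ p.2 ≠ 1 ∧
      (∀ w : ↥(W₁ ⊔ W₂), (w : G) ∈ W₂ → p.1 w = 1) ∧ (∀ w : ↥(W₁ ⊔ W₂), (w : G) ∈ W₁ → p.2 w = 1)} =>
      fun w : ↥(W₁ ⊔ W₂) => 1 - (p.1.1 w : ℂ) - (p.1.2 w : ℂ) + (p.1.1 w : ℂ) * (p.1.2 w : ℂ)) := by
  classical
  haveI : Fintype ↥(W₁ ⊔ W₂) := Fintype.ofFinite _
  rw [linearIndependent_iff']
  intro s c hs p hp
  have h1 : classInner (∑ i ∈ s, c i • alp i.1.1 i.1.2) (linFn (p.1.1 * p.1.2)) = 0 := by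
    have : ∑ i ∈ s, c i • alp i.1.1 i.1.2 = 0 := hs
    rw [this, classInner_zero_left]
  rw [classInner_sum_left] at h1
  have h2 : ∀ i ∈ s, classInner (c i • alp i.1.1 i.1.2) (linFn (p.1.1 * p.1.2)) = if i = p then c i else 0 := by
    intro i _
    obtain ⟨⟨φ, ψ⟩, hφ, hψ, hφ2, hψ1⟩ := i
    obtain ⟨⟨φ', ψ'⟩, hφ', hψ', hφ2', hψ1'⟩ := p
    simp only
    rw [classInner_smul_left, alp_eq]
    simp only [classInner_add_left, classInner_sub_left]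
    have n1 : (1 : ↥(W₁ ⊔ W₂) →* ℂˣ) ≠ φ' * ψ' := by
      intro h
      exact hφ' (K_inj hdisj hcomm (φ := 1) (ψ := 1) (K1 W₁ W₂).one_mem hφ2' (K2 W₁ W₂).one_mem hψ1' ((hmul_one _).trans h)).1.symm
    have n2 : φ ≠ φ' * ψ' := by
      intro h
      exact hψ' (K_inj hdisj hcomm (φ := φ) (ψ := 1) hφ2 hφ2' (K2 W₁ W₂).one_mem hψ1' ((hmul_one _).trans h)).2.symm
    have n3 : ψ ≠ φ' * ψ' := by
      intro h
      exact hφ' (K_inj hdisj hcomm (φ := 1) (ψ := ψ) (K1 W₁ W₂).one_mem hφ2' hψ1 hψ1' ((hone_mul _).trans h)).1.symm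
    rw [linFn_inner, linFn_inner, linFn_inner, linFn_inner, if_neg n1, if_neg n2, if_neg n3]
    by_cases h : φ * ψ = φ' * ψ'
    · obtain ⟨e1, e2⟩ := K_inj hdisj hcomm hφ2 hφ2' hψ1 hψ1' h
      subst e1; subst e2
      simp
    · rw [if_neg h, if_neg]
      · ring
      · intro he
        apply h
        have := congrArg Subtype.val he
        simp only [Prod.mk.injEq] at this
        rw [this.1, this.2]
  rw [Finset.sum_congr rfl h2, Finset.sum_ite_eq' s p, if_pos hp] at h1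
  exact h1
section sums

variable [Finite G] (hdisj : W₁ ⊓ W₂ = ⊥) (hcomm : ∀ a ∈ W₁, ∀ b ∈ W₂, a * b = b * a)

include hdisj hcomm in
theorem sep1 (hab : ∀ a b : W₁, a * b = b * a) {w : ↥(W₁ ⊔ W₂)} (hw : (w : G) ∉ W₂) :
    ∃ φ ∈ K1 W₁ W₂, φ w ≠ 1 := by
  have h1 : q1 hdisj hcomm w ≠ 1 := fun h => hw ((mem2_iff hdisj hcomm).mpr h)
  obtain ⟨η, hη⟩ := exists_lin_ne_one_of_comm hab h1
  refine ⟨η.comp (q1 hdisj hcomm), fun u hu => ?_, hη⟩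
  show η (q1 hdisj hcomm u) = 1
  rw [(mem2_iff hdisj hcomm).mp hu, map_one]

include hdisj hcomm in
theorem sep2 (hab : ∀ a b : W₂, a * b = b * a) {w : ↥(W₁ ⊔ W₂)} (hw : (w : G) ∉ W₁) :
    ∃ φ ∈ K2 W₁ W₂, φ w ≠ 1 := by
  have h1 : q2 hdisj hcomm w ≠ 1 := fun h => hw ((mem1_iff hdisj hcomm).mpr h)
  obtain ⟨η, hη⟩ := exists_lin_ne_one_of_comm hab h1
  refine ⟨η.comp (q2 hdisj hcomm), fun u hu => ?_, hη⟩
  show η (q2 hdisj hcomm u) = 1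
  rw [(mem1_iff hdisj hcomm).mp hu, map_one]

omit [Finite G] in
theorem sum_sub_zero {X : Type*} [Group X] (K : Subgroup (X →* ℂˣ)) [Fintype K] {w : X} {φ₀ : X →* ℂˣ} (h0 : φ₀ ∈ K)
    (h1 : φ₀ w ≠ 1) : ∑ φ : K, ((φ.1 w : ℂˣ) : ℂ) = 0 := by
  have e : ∑ φ : K, ((φ.1 w : ℂˣ) : ℂ) = (φ₀ w : ℂ) * ∑ φ : K, ((φ.1 w : ℂˣ) : ℂ) := by
    conv_lhs => rw [← Equiv.sum_comp (Equiv.mulLeft (⟨φ₀, h0⟩ : K))]
    rw [Finset.mul_sum]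
    refine Finset.sum_congr rfl fun φ _ => ?_
    show (((φ₀ * φ.1) w : ℂˣ) : ℂ) = _
    rw [MonoidHom.mul_apply, Units.val_mul]
  have h2 : (1 - (φ₀ w : ℂ)) * ∑ φ : K, ((φ.1 w : ℂˣ) : ℂ) = 0 := by
    rw [sub_mul, one_mul, ← e, sub_self]
  rcases mul_eq_zero.mp h2 with h | h
  · exfalso
    apply h1
    apply Units.ext
    rw [Units.val_one]
    exact (sub_eq_zero.mp h).symm
  · exact h

/-- the equivalence `K1 ≃ Hom(W₁, ℂˣ)` -/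
def K1equiv : K1 W₁ W₂ ≃ (W₁ →* ℂˣ) where
  toFun φ := φ.1.comp (i1 W₁ W₂)
  invFun η := ⟨η.comp (q1 hdisj hcomm), fun u hu => by
    show η (q1 hdisj hcomm u) = 1
    rw [(mem2_iff hdisj hcomm).mp hu, map_one]⟩
  left_inv φ := by
    apply Subtype.ext
    refine MonoidHom.ext fun w => ?_
    show φ.1 (i1 W₁ W₂ (q1 hdisj hcomm w)) = φ.1 w
    rw [← K1_apply hdisj hcomm φ.2]
  right_inv η := by
    refine MonoidHom.ext fun w => ?_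
    show η (q1 hdisj hcomm (i1 W₁ W₂ w)) = η w
    rw [(q1_of_mem hdisj hcomm (w := i1 W₁ W₂ w) w.2).1]
    rfl

/-- the equivalence `K2 ≃ Hom(W₂, ℂˣ)` -/
def K2equiv : K2 W₁ W₂ ≃ (W₂ →* ℂˣ) where
  toFun φ := φ.1.comp (i2 W₁ W₂)
  invFun η := ⟨η.comp (q2 hdisj hcomm), fun u hu => by
    show η (q2 hdisj hcomm u) = 1
    rw [(mem1_iff hdisj hcomm).mp hu, map_one]⟩
  left_inv φ := by
    apply Subtype.ext
    refine MonoidHom.ext fun w => ?_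
    show φ.1 (i2 W₁ W₂ (q2 hdisj hcomm w)) = φ.1 w
    rw [← K2_apply hdisj hcomm φ.2]
  right_inv η := by
    refine MonoidHom.ext fun w => ?_
    show η (q2 hdisj hcomm (i2 W₁ W₂ w)) = η w
    rw [(q2_of_mem hdisj hcomm (w := i2 W₁ W₂ w) w.2).1]
    rfl

omit [Finite G] in
theorem card_hom_of_comm {X : Type*} [Group X] [Finite X] (hab : ∀ a b : X, a * b = b * a) :
    Nat.card (X →* ℂˣ) = Nat.card X := by
  rw [card_hom_units]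
  have : commutator X = ⊥ := by
    rw [commutator_def, Subgroup.commutator_eq_bot_iff_le_centralizer]
    intro x _
    rw [Subgroup.mem_centralizer_iff]
    intro y _
    exact hab y x
  rw [this, Subgroup.index_bot]

include hdisj hcomm in
theorem card_K1 (hab : ∀ a b : W₁, a * b = b * a) : Nat.card (K1 W₁ W₂) = Nat.card W₁ := by
  rw [Nat.card_congr (K1equiv hdisj hcomm), card_hom_of_comm hab]

include hdisj hcomm in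
theorem card_K2 (hab : ∀ a b : W₂, a * b = b * a) : Nat.card (K2 W₁ W₂) = Nat.card W₂ := by
  rw [Nat.card_congr (K2equiv hdisj hcomm), card_hom_of_comm hab]

include hdisj hcomm in
omit [Finite G] in
theorem card_W : Nat.card ↥(W₁ ⊔ W₂) = Nat.card W₁ * Nat.card W₂ := by
  rw [← Nat.card_prod, Nat.card_congr (prodEquiv hdisj hcomm).toEquiv]

variable [Fintype ↥(W₁ ⊔ W₂)] [Fintype (K1 W₁ W₂)] [Fintype (K2 W₁ W₂)]

omit [Finite G] [Fintype (K1 W₁ W₂)] [Fintype (K2 W₁ W₂)] [Fintype ↥(W₁ ⊔ W₂)] in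
theorem conj_alp [Finite ↥(W₁ ⊔ W₂)] (φ ψ : ↥(W₁ ⊔ W₂) →* ℂˣ) (w : ↥(W₁ ⊔ W₂)) : conj (alp φ ψ w) = alp φ ψ w⁻¹ := by
  have h : ∀ ω : ↥(W₁ ⊔ W₂) →* ℂˣ, conj ((ω w : ℂˣ) : ℂ) = ((ω w⁻¹ : ℂˣ) : ℂ) := by
    intro ω
    have := linFn_inv_conj ω w
    rw [linFn_apply] at this
    rw [this, map_inv]
  simp only [alp, map_add, map_sub, map_mul, map_one, h]

include hdisj hcomm in
/-- the inversion formula off `W₁ ∪ W₂` -/
theorem inversion (hab1 : ∀ a b : W₁, a * b = b * a) (hab2 : ∀ a b : W₂, a * b = b * a) (f : ↥(W₁ ⊔ W₂) → ℂ)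
    {w : ↥(W₁ ⊔ W₂)} (hw1 : (w : G) ∉ W₁) (hw2 : (w : G) ∉ W₂) :
    f w = ∑ φ : K1 W₁ W₂, ∑ ψ : K2 W₁ W₂, classInner f (alp φ.1 ψ.1) * ((φ.1 w : ℂˣ) : ℂ) * ((ψ.1 w : ℂˣ) : ℂ) := by
  classical
  have hs1 : ∀ u : ↥(W₁ ⊔ W₂), (u : G) ∉ W₂ → ∑ φ : K1 W₁ W₂, ((φ.1 u : ℂˣ) : ℂ) = 0 := by
    intro u hu
    obtain ⟨φ₀, h0, h1⟩ := sep1 hdisj hcomm hab1 hu
    exact sum_sub_zero _ h0 h1
  have hs2 : ∀ u : ↥(W₁ ⊔ W₂), (u : G) ∉ W₁ → ∑ φ : K2 W₁ W₂, ((φ.1 u : ℂˣ) : ℂ) = 0 := by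
    intro u hu
    obtain ⟨φ₀, h0, h1⟩ := sep2 hdisj hcomm hab2 hu
    exact sum_sub_zero _ h0 h1
  have hs1' : ∀ u : ↥(W₁ ⊔ W₂), (u : G) ∈ W₂ → ∑ φ : K1 W₁ W₂, ((φ.1 u : ℂˣ) : ℂ) = (Nat.card W₁ : ℂ) := by
    intro u hu
    have : ∀ φ : K1 W₁ W₂, ((φ.1 u : ℂˣ) : ℂ) = 1 := fun φ => by rw [φ.2 u hu, Units.val_one]
    rw [Finset.sum_congr rfl fun φ _ => this φ, Finset.sum_const, Finset.card_univ, nsmul_eq_mul, mul_one,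
      ← Nat.card_eq_fintype_card, card_K1 hdisj hcomm hab1]
  have hs2' : ∀ u : ↥(W₁ ⊔ W₂), (u : G) ∈ W₁ → ∑ φ : K2 W₁ W₂, ((φ.1 u : ℂˣ) : ℂ) = (Nat.card W₂ : ℂ) := by
    intro u hu
    have : ∀ φ : K2 W₁ W₂, ((φ.1 u : ℂˣ) : ℂ) = 1 := fun φ => by rw [φ.2 u hu, Units.val_one]
    rw [Finset.sum_congr rfl fun φ _ => this φ, Finset.sum_const, Finset.card_univ, nsmul_eq_mul, mul_one,
      ← Nat.card_eq_fintype_card, card_K2 hdisj hcomm hab2]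
  have key : ∀ u : ↥(W₁ ⊔ W₂), ∑ φ : K1 W₁ W₂, ∑ ψ : K2 W₁ W₂, alp φ.1 ψ.1 u⁻¹ * ((φ.1 w : ℂˣ) : ℂ) * ((ψ.1 w : ℂˣ) : ℂ) =
      if u = w then (Nat.card ↥(W₁ ⊔ W₂) : ℂ) else 0 := by
    intro u
    have e1 : ∑ φ : K1 W₁ W₂, ∑ ψ : K2 W₁ W₂, alp φ.1 ψ.1 u⁻¹ * ((φ.1 w : ℂˣ) : ℂ) * ((ψ.1 w : ℂˣ) : ℂ) =
        (∑ φ : K1 W₁ W₂, (((φ.1 w : ℂˣ) : ℂ) - ((φ.1 (u⁻¹ * w) : ℂˣ) : ℂ))) *
        (∑ ψ : K2 W₁ W₂, (((ψ.1 w : ℂˣ) : ℂ) - ((ψ.1 (u⁻¹ * w) : ℂˣ) : ℂ))) := by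
      rw [Finset.sum_mul_sum]
      refine Finset.sum_congr rfl fun φ _ => Finset.sum_congr rfl fun ψ _ => ?_
      rw [alp, map_mul, map_mul, Units.val_mul, Units.val_mul]
      ring
    rw [e1, Finset.sum_sub_distrib, Finset.sum_sub_distrib, hs1 w hw2, hs2 w hw1]
    by_cases hu : u = w
    · subst hu
      rw [if_pos rfl, hs1' (u⁻¹ * u) (by rw [inv_mul_cancel]; exact W₂.one_mem),
        hs2' (u⁻¹ * u) (by rw [inv_mul_cancel]; exact W₁.one_mem), card_W hdisj hcomm]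
      push_cast; ring
    · rw [if_neg hu]
      by_cases h2 : ((u⁻¹ * w : ↥(W₁ ⊔ W₂)) : G) ∈ W₂
      · have h1 : ((u⁻¹ * w : ↥(W₁ ⊔ W₂)) : G) ∉ W₁ := by
          intro h1
          have : ((u⁻¹ * w : ↥(W₁ ⊔ W₂)) : G) ∈ W₁ ⊓ W₂ := ⟨h1, h2⟩
          rw [hdisj, Subgroup.mem_bot] at this
          apply hu
          have h3 : u⁻¹ * w = 1 := Subtype.ext this
          exact (inv_mul_eq_one.mp h3)
        rw [hs2 _ h1]; ring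
      · rw [hs1 _ h2]; ring
  have hW : (Nat.card ↥(W₁ ⊔ W₂) : ℂ) ≠ 0 := card_ne_zero'
  have e2 : ∀ (φ : K1 W₁ W₂) (ψ : K2 W₁ W₂), classInner f (alp φ.1 ψ.1) * ((φ.1 w : ℂˣ) : ℂ) * ((ψ.1 w : ℂˣ) : ℂ) =
      ∑ u : ↥(W₁ ⊔ W₂), (Nat.card ↥(W₁ ⊔ W₂) : ℂ)⁻¹ * (f u * (alp φ.1 ψ.1 u⁻¹ * ((φ.1 w : ℂˣ) : ℂ) * ((ψ.1 w : ℂˣ) : ℂ))) := by
    intro φ ψ
    rw [classInner_def, mul_assoc, mul_assoc, Finset.sum_mul, Finset.mul_sum]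
    refine Finset.sum_congr rfl fun u _ => ?_
    rw [conj_alp]; ring
  rw [Finset.sum_congr rfl fun φ _ => Finset.sum_congr rfl fun ψ _ => e2 φ ψ]
  rw [Finset.sum_congr rfl fun φ _ => Finset.sum_comm, Finset.sum_comm]
  have e3 : ∀ u : ↥(W₁ ⊔ W₂), ∑ φ : K1 W₁ W₂, ∑ ψ : K2 W₁ W₂, (Nat.card ↥(W₁ ⊔ W₂) : ℂ)⁻¹ * (f u * (alp φ.1 ψ.1 u⁻¹ * ((φ.1 w : ℂˣ) : ℂ) * ((ψ.1 w : ℂˣ) : ℂ))) =
      (Nat.card ↥(W₁ ⊔ W₂) : ℂ)⁻¹ * (f u * (if u = w then (Nat.card ↥(W₁ ⊔ W₂) : ℂ) else 0)) := by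
    intro u
    rw [← key u, Finset.mul_sum, Finset.mul_sum]
    refine Finset.sum_congr rfl fun φ _ => ?_
    rw [Finset.mul_sum, Finset.mul_sum]
  rw [Finset.sum_congr rfl fun u _ => e3 u, Finset.sum_eq_single w]
  · rw [if_pos rfl]; field_simp
  · intro u _ hu; rw [if_neg hu]; ring
  · intro h; exact absurd (Finset.mem_univ _) h

end sums

section family

variable [Fintype G] {W₁ W₂ : Subgroup G} (hW : IsSelfNormalizingCyclic W₁ W₂)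

include hW

omit [Fintype G] in
theorem W_comm (a b : ↥(W₁ ⊔ W₂)) : a * b = b * a := by
  haveI : IsCyclic ↥(W₁ ⊔ W₂) := hW.2.2.2.2.1
  letI := IsCyclic.commGroup (α := ↥(W₁ ⊔ W₂))
  exact mul_comm a b

omit [Fintype G] in
theorem W1_comm (a b : W₁) : a * b = b * a := by
  have := W_comm hW (i1 W₁ W₂ a) (i1 W₁ W₂ b)
  exact Subtype.ext (congrArg (fun x : ↥(W₁ ⊔ W₂) => (x : G)) this)

omit [Fintype G] in
theorem W2_comm (a b : W₂) : a * b = b * a := by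
  have := W_comm hW (i2 W₁ W₂ a) (i2 W₁ W₂ b)
  exact Subtype.ext (congrArg (fun x : ↥(W₁ ⊔ W₂) => (x : G)) this)

omit [Fintype G] in
theorem mem_iff_pow [Finite G] {S : Subgroup G} (hS : S ≤ W₁ ⊔ W₂) {u : G} (hu : u ∈ W₁ ⊔ W₂) :
    u ∈ S ↔ u ^ Nat.card S = 1 := by
  classical
  haveI : IsCyclic ↥(W₁ ⊔ W₂) := hW.2.2.2.2.1
  haveI : Fintype ↥(W₁ ⊔ W₂) := Fintype.ofFinite _
  haveI : Fintype S := Fintype.ofFinite _
  constructor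
  · intro h
    have := pow_card_eq_one' (G := S) (x := ⟨u, h⟩)
    exact congrArg Subtype.val this
  · intro h
    have hle := IsCyclic.card_pow_eq_one_le (α := ↥(W₁ ⊔ W₂)) (n := Nat.card S) Nat.card_pos
    set T := Finset.univ.filter (fun a : ↥(W₁ ⊔ W₂) => a ^ Nat.card S = 1) with hT
    let T' : Finset ↥(W₁ ⊔ W₂) := Finset.univ.image (Subgroup.inclusion hS)
    have hsub : T' ⊆ T := by
      intro x hx
      obtain ⟨s, -, rfl⟩ := Finset.mem_image.mp hx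
      rw [hT, Finset.mem_filter]
      refine ⟨Finset.mem_univ _, ?_⟩
      rw [← map_pow, pow_card_eq_one', map_one]
    have hcard : T'.card = Nat.card S := by
      rw [Finset.card_image_of_injective _ (Subgroup.inclusion_injective hS), Finset.card_univ, Nat.card_eq_fintype_card]
    have heq : T' = T := Finset.eq_of_subset_of_card_le hsub (by rw [hcard]; exact hle)
    have huT : (⟨u, hu⟩ : ↥(W₁ ⊔ W₂)) ∈ T := by
      rw [hT, Finset.mem_filter]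
      exact ⟨Finset.mem_univ _, Subtype.ext h⟩
    rw [← heq] at huT
    obtain ⟨s, -, hs⟩ := Finset.mem_image.mp huT
    have : u = s := (congrArg Subtype.val hs).symm
    rw [this]; exact s.2

omit [Fintype G] in
theorem W_cent [Finite G] {w : G} (hw : w ∈ W₁ ⊔ W₂) (h1 : w ∉ W₁) (h2 : w ∉ W₂) :
    Subgroup.centralizer ({w} : Set G) = W₁ ⊔ W₂ := by
  have := hW.2.2.2.2.2 {w} (by
    rintro x hx
    rw [Set.mem_singleton_iff] at hx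
    subst hx
    exact ⟨hw, fun h => h.elim h1 h2⟩) (Set.singleton_nonempty w)
  rw [← this]
  ext c
  rw [Subgroup.mem_centralizer_singleton_iff, Subgroup.mem_set_normalizer_iff]
  constructor
  · intro hc h
    rw [Set.mem_singleton_iff, Set.mem_singleton_iff]
    constructor
    · rintro rfl
      rw [hc, mul_inv_cancel_right]
    · intro h3
      have : c * h = w * c := by rw [← h3]; group
      rw [← hc] at this
      exact mul_left_cancel this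
  · intro hc
    have := (hc w).mp rfl
    rw [Set.mem_singleton_iff] at this
    calc c * w = c * w * c⁻¹ * c := by group
      _ = w * c := by rw [this]

omit [Fintype G] in
/-- conjugating an element off `W₁ ∪ W₂` into `W` forces membership in `W` -/
theorem W_ti [Finite G] {w g : G} (hw : w ∈ W₁ ⊔ W₂) (h1 : w ∉ W₁) (h2 : w ∉ W₂) (hg : g * w * g⁻¹ ∈ W₁ ⊔ W₂) :
    g ∈ W₁ ⊔ W₂ := by
  -- `W` is inside the centralizer of `g w g⁻¹`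
  have hle : ∀ x ∈ W₁ ⊔ W₂, g⁻¹ * x * g ∈ W₁ ⊔ W₂ := by
    intro x hx
    rw [← W_cent hW hw h1 h2, Subgroup.mem_centralizer_singleton_iff]
    have hc : x * (g * w * g⁻¹) = (g * w * g⁻¹) * x :=
      congrArg Subtype.val (W_comm hW ⟨x, hx⟩ ⟨_, hg⟩)
    calc g⁻¹ * x * g * w = g⁻¹ * (x * (g * w * g⁻¹)) * g := by group
      _ = g⁻¹ * ((g * w * g⁻¹) * x) * g := by rw [hc]
      _ = w * (g⁻¹ * x * g) := by group
  have hN : g⁻¹ ∈ Subgroup.normalizer ((W₁ ⊔ W₂ : Subgroup G) : Set G) := by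
    rw [Subgroup.mem_normalizer_iff_map_conj_eq]
    apply Subgroup.eq_of_le_of_card_ge
    · rintro _ ⟨x, hx, rfl⟩
      have := hle x hx
      simpa [MulAut.conj_apply] using this
    · exact (Subgroup.card_map_of_injective (MulAut.conj g⁻¹).injective).ge
  have hN' : g ∈ Subgroup.normalizer ((W₁ ⊔ W₂ : Subgroup G) : Set G) := by
    have := Subgroup.inv_mem _ hN
    rwa [inv_inv] at this
  have hNW : ∀ x, x ∈ W₁ ⊔ W₂ ↔ g * x * g⁻¹ ∈ W₁ ⊔ W₂ := fun x => Subgroup.mem_set_normalizer_iff.mp hN' x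
  have hSub : ∀ S : Subgroup G, S ≤ W₁ ⊔ W₂ → ∀ x ∈ W₁ ⊔ W₂, x ∈ S ↔ g * x * g⁻¹ ∈ S := by
    intro S hS x hx
    rw [mem_iff_pow hW hS hx, mem_iff_pow hW hS ((hNW x).mp hx), conj_pow]
    constructor
    · intro h; rw [h]; group
    · intro h
      have : x ^ Nat.card S = g⁻¹ * (g * x ^ Nat.card S * g⁻¹) * g := by group
      rw [this, h]; group
  have hV := hW.2.2.2.2.2 ((↑(W₁ ⊔ W₂) : Set G) \ (↑W₁ ∪ ↑W₂)) (subset_refl _) ⟨w, hw, fun h => h.elim h1 h2⟩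
  rw [← hV, Subgroup.mem_set_normalizer_iff]
  intro x
  constructor
  · rintro ⟨hx, hx2⟩
    refine ⟨(hNW x).mp hx, fun h => hx2 ?_⟩
    rcases h with h | h
    · exact Or.inl ((hSub W₁ le_sup_left x hx).mpr h)
    · exact Or.inr ((hSub W₂ le_sup_right x hx).mpr h)
  · rintro ⟨hx, hx2⟩
    have hx' := (hNW x).mpr hx
    refine ⟨hx', fun h => hx2 ?_⟩
    rcases h with h | h
    · exact Or.inl ((hSub W₁ le_sup_left x hx').mp h)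
    · exact Or.inr ((hSub W₂ le_sup_right x hx').mp h)

/-- induced functions restrict correctly -/
theorem ind_res {f : ↥(W₁ ⊔ W₂) → ℂ} (hf : ∀ w : ↥(W₁ ⊔ W₂), (w : G) ∈ W₁ ∨ (w : G) ∈ W₂ → f w = 0)
    (w : ↥(W₁ ⊔ W₂)) : indFun (W₁ ⊔ W₂) f w = f w := by
  classical
  have hW0 : (Nat.card ↥(W₁ ⊔ W₂) : ℂ) ≠ 0 := Nat.cast_ne_zero.mpr Nat.card_pos.ne'
  have key : ∀ x : G, extendByZero (W₁ ⊔ W₂) f (x⁻¹ * w * x) = if x ∈ W₁ ⊔ W₂ then f w else 0 := by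
    intro x
    by_cases hx : x ∈ W₁ ⊔ W₂
    · rw [if_pos hx]
      have : x⁻¹ * w * x = w := by
        have := congrArg Subtype.val (W_comm hW w ⟨x, hx⟩)
        have h2 : (w : G) * x = x * w := this
        rw [mul_assoc, h2, inv_mul_cancel_left]
      rw [this, ext_mem _ _ w.2]
    · rw [if_neg hx]
      by_cases hm : x⁻¹ * w * x ∈ W₁ ⊔ W₂
      · rw [ext_mem _ _ hm]
        by_cases h12 : x⁻¹ * w * x ∈ W₁ ∨ x⁻¹ * w * x ∈ W₂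
        · exact hf ⟨_, hm⟩ h12
        · exfalso
          apply hx
          push_neg at h12
          refine W_ti hW hm h12.1 h12.2 (g := x) ?_
          have : x * (x⁻¹ * ↑w * x) * x⁻¹ = w := by group
          rw [this]; exact w.2
      · exact ext_notMem _ _ hm
  rw [indFun_apply, Finset.sum_congr rfl fun x _ => key x, ← Finset.sum_filter, Finset.sum_const, nsmul_eq_mul]
  have : (Finset.univ.filter (fun x => x ∈ W₁ ⊔ W₂)).card = Nat.card ↥(W₁ ⊔ W₂) := by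
    rw [Nat.card_eq_fintype_card, Fintype.card_subtype]
  rw [this]
  field_simp

open Classical in
theorem ind_inner [Fintype ↥(W₁ ⊔ W₂)] {φ φ' ψ ψ' : ↥(W₁ ⊔ W₂) →* ℂˣ} (h1 : φ ∈ K1 W₁ W₂) (h1' : φ' ∈ K1 W₁ W₂)
    (h2 : ψ ∈ K2 W₁ W₂) (h2' : ψ' ∈ K2 W₁ W₂) (hφ : φ ≠ 1) (hφ' : φ' ≠ 1) (hψ : ψ ≠ 1) (hψ' : ψ' ≠ 1) :
    classInner (indFun (W₁ ⊔ W₂) (alp φ ψ)) (indFun (W₁ ⊔ W₂) (alp φ' ψ')) = 1 + (if φ = φ' then 1 else 0) + (if ψ = ψ' then 1 else 0) +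
      (if φ = φ' then 1 else 0) * (if ψ = ψ' then 1 else 0) := by
  rw [reciprocity _ _ _ (indFun_classFn _ _)]
  have : (fun h : ↥(W₁ ⊔ W₂) => indFun (W₁ ⊔ W₂) (alp φ' ψ') h) = alp φ' ψ' := by
    funext w
    exact ind_res hW (fun w hw => alp_vanish h1' h2' w hw) w
  rw [this]
  exact alp_inner hW.2.2.1 hW.2.2.2.1 h1 h1' h2 h2' hφ hφ' hψ hψ'

theorem ind_inner_one {φ ψ : ↥(W₁ ⊔ W₂) →* ℂˣ} (h1 : φ ∈ K1 W₁ W₂) 
    (h2 : ψ ∈ K2 W₁ W₂) (hφ : φ ≠ 1) (hψ : ψ ≠ 1)  :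
    classInner (indFun (W₁ ⊔ W₂) (alp φ ψ)) (fun _ => 1) = 1 := by
  classical
  haveI : Fintype ↥(W₁ ⊔ W₂) := Fintype.ofFinite _
  rw [reciprocity _ _ _ (classFn_const 1)]
  have : (fun h : ↥(W₁ ⊔ W₂) => (1 : ℂ)) = linFn 1 := by funext w; simp [linFn]
  have n3 : φ * ψ ≠ 1 := fun h => hφ (K_inj hW.2.2.1 hW.2.2.2.1 h1 (K1 W₁ W₂).one_mem h2 (K2 W₁ W₂).one_mem
    (h.trans (hmul_one 1).symm)).1
  rw [this, alp_eq, classInner_add_left, classInner_sub_left, classInner_sub_left, linFn_inner, linFn_inner,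
    linFn_inner, linFn_inner, if_pos rfl, if_neg hφ, if_neg hψ, if_neg n3]
  ring

variable {χ : (↥(W₁ ⊔ W₂) →* ℂˣ) → (G → ℂ)} (hχ : IsCyclicTIFamily W₁ W₂ χ)

omit hW in
include hχ in
theorem inner_alpha [Fintype ↥(W₁ ⊔ W₂)] {θ : G → ℂ} (hθ : IsClassFunction G θ) {φ ψ : ↥(W₁ ⊔ W₂) →* ℂˣ} (h1 : φ ∈ K1 W₁ W₂) (h2 : ψ ∈ K2 W₁ W₂) :
    classInner (fun w : ↥(W₁ ⊔ W₂) => θ w) (alp φ ψ) =
      classInner θ (χ 1) - classInner θ (χ φ) - classInner θ (χ ψ) + classInner θ (χ (φ * ψ)) := by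
  by_cases hφ : φ = 1
  · subst hφ
    rw [alp_one_left, classInner_zero_right, hone_mul]; ring
  by_cases hψ : ψ = 1
  · subst hψ
    rw [alp_one_right, classInner_zero_right, hmul_one]; ring
  have h3 := hχ.induced_eq φ ψ hφ hψ h1 h2
  have h4 : (fun g => 1 - χ φ g - χ ψ g + χ (φ * ψ) g) = χ 1 - χ φ - χ ψ + χ (φ * ψ) := by
    funext g
    simp [hχ.map_one]
  have h5 : classInner (fun w : ↥(W₁ ⊔ W₂) => θ w) (alp φ ψ) = classInner θ (indFun (W₁ ⊔ W₂) (alp φ ψ)) := by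
    rw [← classInner_conj_symm, ← reciprocity _ _ _ hθ, classInner_conj_symm]
  have h6 : indFun (W₁ ⊔ W₂) (alp φ ψ) = χ 1 - χ φ - χ ψ + χ (φ * ψ) := h3.trans h4
  rw [h5, h6, classInner_add_right, classInner_sub_right, classInner_sub_right]

include hχ in
theorem orth_vanish {θ : G → ℂ} (hθ : IsClassFunction G θ) (horth : ∀ ω, classInner θ (χ ω) = 0) {w : ↥(W₁ ⊔ W₂)}
    (h1 : (w : G) ∉ W₁) (h2 : (w : G) ∉ W₂) : θ w = 0 := by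
  classical
  haveI : Fintype ↥(W₁ ⊔ W₂) := Fintype.ofFinite _
  haveI : Fintype (K1 W₁ W₂) := Fintype.ofFinite _
  haveI : Fintype (K2 W₁ W₂) := Fintype.ofFinite _
  have := inversion hW.2.2.1 hW.2.2.2.1 (W1_comm hW) (W2_comm hW) (fun w : ↥(W₁ ⊔ W₂) => θ w) h1 h2
  rw [this]
  refine Finset.sum_eq_zero fun φ _ => Finset.sum_eq_zero fun ψ _ => ?_
  rw [inner_alpha hχ hθ φ.2 ψ.2, horth, horth, horth, horth]; ring

omit hW in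
include hχ in
theorem rect {θ : G → ℂ} (hθ : IsClassFunction G θ)
    (hθV : ∀ w : ↥(W₁ ⊔ W₂), (w : G) ∉ W₁ → (w : G) ∉ W₂ → θ w = 0) {φ ψ : ↥(W₁ ⊔ W₂) →* ℂˣ}
    (h1 : φ ∈ K1 W₁ W₂) (h2 : ψ ∈ K2 W₁ W₂) :
    classInner θ (χ (φ * ψ)) = classInner θ (χ φ) + classInner θ (χ ψ) - classInner θ (χ 1) := by
  classical
  haveI : Fintype ↥(W₁ ⊔ W₂) := Fintype.ofFinite _
  have h := inner_alpha hχ hθ h1 h2
  have h0 : classInner (fun w : ↥(W₁ ⊔ W₂) => θ w) (alp φ ψ) = 0 := by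
    rw [classInner_def]
    rw [Finset.sum_eq_zero, mul_zero]
    intro w _
    by_cases hw : (w : G) ∈ W₁ ∨ (w : G) ∈ W₂
    · rw [alp_vanish h1 h2 w hw, map_zero, mul_zero]
    · push_neg at hw
      rw [hθV w hw.1 hw.2, zero_mul]
  rw [h0] at h
  linear_combination -h

end family

end

end Cfsg.Agent.Lib.OddCyc
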