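import Cfsg.Agent.Lib.OddCyc
import Cfsg.Agent.Lib.OddSgn

set_option autoImplicit false

namespace Cfsg.Agent.Lib.OddCycB

open Cfsg Cfsg.Agent.Lib.CharBasic Cfsg.Agent.Lib.CharInd Cfsg.Agent.Lib.CharLin
open Cfsg.Agent.Lib.OddCyc Cfsg.Agent.Lib.OddSgn
open scoped ComplexConjugate

noncomputable section

variable {G : Type*} [Group G] [Fintype G] {W₁ W₂ : Subgroup G}

theorem card_ge_three (hW : IsSelfNormalizingCyclic W₁ W₂) (hodd : Odd (Nat.card ↥(W₁ ⊔ W₂))) :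
    3 ≤ Nat.card W₁ ∧ 3 ≤ Nat.card W₂ ∧ Odd (Nat.card W₁) ∧ Odd (Nat.card W₂) := by
  rw [card_W hW.2.2.1 hW.2.2.2.1] at hodd
  obtain ⟨o1, o2⟩ := Nat.odd_mul.mp hodd
  have h1 : 1 < Nat.card W₁ := by rw [Subgroup.one_lt_card_iff_ne_bot]; exact hW.1
  have h2 : 1 < Nat.card W₂ := by rw [Subgroup.one_lt_card_iff_ne_bot]; exact hW.2.1
  refine ⟨?_, ?_, o1, o2⟩
  · obtain ⟨k, hk⟩ := o1; omega
  · obtain ⟨k, hk⟩ := o2; omega

theorem exists_third {A : Type*} [Group A] (K : Subgroup A) [Finite K] (h : 3 ≤ Nat.card K) (a : A) (ha : a ∈ K) :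
    ∃ b ∈ K, b ≠ 1 ∧ b ≠ a := by
  classical
  haveI : Fintype K := Fintype.ofFinite _
  by_contra hcon
  push_neg at hcon
  have : (Finset.univ : Finset K) ⊆ {1, ⟨a, ha⟩} := by
    intro x _
    rw [Finset.mem_insert, Finset.mem_singleton]
    by_cases hx : x = 1
    · exact Or.inl hx
    · right
      exact Subtype.ext (hcon x.1 x.2 (fun h => hx (Subtype.ext h)))
  have h2 := Finset.card_le_card this
  rw [Finset.card_univ, ← Nat.card_eq_fintype_card] at h2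
  have := Finset.card_le_two (a := (1 : K)) (b := ⟨a, ha⟩)
  omega

section uniq

variable {χ χ' : (↥(W₁ ⊔ W₂) →* ℂˣ) → (G → ℂ)} (hχ : IsCyclicTIFamily W₁ W₂ χ) (hχ' : IsCyclicTIFamily W₁ W₂ χ')

include hχ in
theorem fam_SI (ω : ↥(W₁ ⊔ W₂) →* ℂˣ) : SI (χ ω) := hχ.irr_or_neg ω

include hχ in
theorem fam_ne {ω ω' : ↥(W₁ ⊔ W₂) →* ℂˣ} (h : ω ≠ ω') : classInner (χ ω) (χ ω') = 0 := by
  classical
  rw [hχ.orthonormal, if_neg h]

include hχ in
theorem fam_one (ω : ↥(W₁ ⊔ W₂) →* ℂˣ) : classInner (χ ω) (χ ω) = 1 := by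
  classical
  rw [hχ.orthonormal, if_pos rfl]

include hχ hχ' in
theorem fam_eq3 {φ ψ : ↥(W₁ ⊔ W₂) →* ℂˣ} (hφ : φ ≠ 1) (hψ : ψ ≠ 1) (h1 : φ ∈ K1 W₁ W₂) (h2 : ψ ∈ K2 W₁ W₂) :
    χ φ + χ ψ - χ (φ * ψ) = χ' φ + χ' ψ - χ' (φ * ψ) := by
  have e := hχ.induced_eq φ ψ hφ hψ h1 h2
  have e' := hχ'.induced_eq φ ψ hφ hψ h1 h2
  rw [e] at e'
  funext g
  have := congrFun e' g
  simp only [Pi.add_apply, Pi.sub_apply]
  linear_combination -this

/-- the core of uniqueness -/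
theorem core {a x y z y' z' : G → ℂ} (ha : SI a) (hx : SI x) (hy : SI y) (hz : SI z) (hy' : SI y') (hz' : SI z')
    (oxy : classInner x y = 0) (oxz : classInner x z = 0) (oyy' : classInner y y' = 0)
    (oyz' : classInner y z' = 0) (ozy' : classInner z y' = 0) (ozz' : classInner z z' = 0)
    (h1 : classInner a (x + y - z) = 1) (h2 : classInner a (x + y' - z') = 1) : a = x := by
  rw [classInner_sub_right, classInner_add_right] at h1 h2
  have hxne : classInner a x ≠ 0 := by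
    intro h0
    rw [h0, zero_add] at h1 h2
    by_cases hay : classInner a y = 0
    · have haz : classInner a z ≠ 0 := by
        intro h; rw [hay, h] at h1; norm_num at h1
      by_cases hay' : classInner a y' = 0
      · have haz' : classInner a z' ≠ 0 := by
          intro h; rw [hay', h] at h2; norm_num at h2
        exact ha.trans_ne hz hz' haz haz' ozz'
      · exact ha.trans_ne hz hy' haz hay' ozy'
    · by_cases hay' : classInner a y' = 0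
      · have haz' : classInner a z' ≠ 0 := by
          intro h; rw [hay', h] at h2; norm_num at h2
        exact ha.trans_ne hy hz' hay haz' oyz'
      · exact ha.trans_ne hy hy' hay hay' oyy'
  have hay : classInner a y = 0 := by
    by_contra h; exact ha.trans_ne hx hy hxne h oxy
  have haz : classInner a z = 0 := by
    by_contra h; exact ha.trans_ne hx hz hxne h oxz
  rw [hay, haz, add_zero, sub_zero] at h1
  exact eq_of_inner_one ha.norm hx.norm h1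

variable (hW : IsSelfNormalizingCyclic W₁ W₂) (hodd : Odd (Nat.card ↥(W₁ ⊔ W₂)))

include hχ hχ' hW hodd in
theorem uniq1 {φ : ↥(W₁ ⊔ W₂) →* ℂˣ} (h1 : φ ∈ K1 W₁ W₂) : χ' φ = χ φ := by
  by_cases hφ : φ = 1
  · rw [hφ, hχ.map_one, hχ'.map_one]
  have hd := hW.2.2.1
  have hc := hW.2.2.2.1
  have hc2 : 3 ≤ Nat.card (K2 W₁ W₂) := by
    rw [card_K2 hd hc (W2_comm hW)]; exact (card_ge_three hW hodd).2.1
  obtain ⟨ψ, hψ, hψ1, -⟩ := exists_third _ hc2 1 (K2 W₁ W₂).one_mem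
  obtain ⟨ψ', hψ', hψ1', hne⟩ := exists_third _ hc2 ψ hψ
  have I := fun {a b c d : ↥(W₁ ⊔ W₂) →* ℂˣ} (ha : a ∈ K1 W₁ W₂) (hb : b ∈ K1 W₁ W₂) (hc' : c ∈ K2 W₁ W₂)
    (hd' : d ∈ K2 W₁ W₂) (h : a * c = b * d) => K_inj hd hc ha hb hc' hd' h
  have o1 := (K1 W₁ W₂).one_mem
  have o2 := (K2 W₁ W₂).one_mem
  have inner1 : ∀ ψ, ψ ≠ 1 → ψ ∈ K2 W₁ W₂ → classInner (χ' φ) (χ φ + χ ψ - χ (φ * ψ)) = 1 := by
    intro ψ hψ1 hψ
    rw [fam_eq3 hχ hχ' hφ hψ1 h1 hψ, classInner_sub_right, classInner_add_right, fam_one hχ',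
      fam_ne hχ' (fun h => hφ (I h1 o1 o2 hψ (by rw [hmul_one, hone_mul]; exact h)).1),
      fam_ne hχ' (fun h => hψ1 (I h1 h1 o2 hψ (by rw [hmul_one]; exact h)).2.symm)]
    ring
  refine core (fam_SI hχ' φ) (fam_SI hχ φ) (fam_SI hχ ψ) (fam_SI hχ (φ * ψ)) (fam_SI hχ ψ') (fam_SI hχ (φ * ψ'))
    (fam_ne hχ (fun h => hφ (I h1 o1 o2 hψ (by rw [hmul_one, hone_mul]; exact h)).1))
    (fam_ne hχ (fun h => hψ1 (I h1 h1 o2 hψ (by rw [hmul_one]; exact h)).2.symm))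
    (fam_ne hχ (Ne.symm hne))
    (fam_ne hχ (fun h => hφ (I o1 h1 hψ hψ' (by rw [hone_mul]; exact h)).1.symm))
    (fam_ne hχ (fun h => hφ (I h1 o1 hψ hψ' (by rw [hone_mul]; exact h)).1))
    (fam_ne hχ (fun h => hne (I h1 h1 hψ hψ' h).2.symm))
    (inner1 ψ hψ1 hψ) (inner1 ψ' hψ1' hψ')

include hχ hχ' hW hodd in
theorem uniq2 {ψ : ↥(W₁ ⊔ W₂) →* ℂˣ} (h2 : ψ ∈ K2 W₁ W₂) : χ' ψ = χ ψ := by
  by_cases hψ1 : ψ = 1
  · rw [hψ1, hχ.map_one, hχ'.map_one]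
  have hd := hW.2.2.1
  have hc := hW.2.2.2.1
  have hc1 : 3 ≤ Nat.card (K1 W₁ W₂) := by
    rw [card_K1 hd hc (W1_comm hW)]; exact (card_ge_three hW hodd).1
  obtain ⟨φ, hφ, hφ1, -⟩ := exists_third _ hc1 1 (K1 W₁ W₂).one_mem
  obtain ⟨φ', hφ', hφ1', hne⟩ := exists_third _ hc1 φ hφ
  have I := fun {a b c d : ↥(W₁ ⊔ W₂) →* ℂˣ} (ha : a ∈ K1 W₁ W₂) (hb : b ∈ K1 W₁ W₂) (hc' : c ∈ K2 W₁ W₂)
    (hd' : d ∈ K2 W₁ W₂) (h : a * c = b * d) => K_inj hd hc ha hb hc' hd' h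
  have o1 := (K1 W₁ W₂).one_mem
  have o2 := (K2 W₁ W₂).one_mem
  have inner1 : ∀ φ, φ ≠ 1 → φ ∈ K1 W₁ W₂ → classInner (χ' ψ) (χ ψ + χ φ - χ (φ * ψ)) = 1 := by
    intro φ hφ1 hφ
    rw [add_comm (χ ψ), fam_eq3 hχ hχ' hφ1 hψ1 hφ h2, classInner_sub_right, classInner_add_right, fam_one hχ',
      fam_ne hχ' (fun h => hφ1 (I o1 hφ h2 o2 (by rw [hmul_one, hone_mul]; exact h)).1.symm),
      fam_ne hχ' (fun h => hφ1 (I o1 hφ h2 h2 (by rw [hone_mul]; exact h)).1.symm)]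
    ring
  refine core (fam_SI hχ' ψ) (fam_SI hχ ψ) (fam_SI hχ φ) (fam_SI hχ (φ * ψ)) (fam_SI hχ φ') (fam_SI hχ (φ' * ψ))
    (fam_ne hχ (fun h => hφ1 (I o1 hφ h2 o2 (by rw [hmul_one, hone_mul]; exact h)).1.symm))
    (fam_ne hχ (fun h => hφ1 (I o1 hφ h2 h2 (by rw [hone_mul]; exact h)).1.symm))
    (fam_ne hχ (Ne.symm hne))
    (fam_ne hχ (fun h => hψ1 (I hφ hφ' o2 h2 (by rw [hmul_one]; exact h)).2.symm))
    (fam_ne hχ (fun h => hψ1 (I hφ hφ' h2 o2 (by rw [hmul_one]; exact h)).2))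
    (fam_ne hχ (fun h => hne (I hφ hφ' h2 h2 h).1.symm))
    (inner1 φ hφ1 hφ) (inner1 φ' hφ1' hφ')

include hχ hχ' hW hodd in
/-- the cyclic TI family is unique -/
theorem uniq : χ' = χ := by
  funext ω
  obtain ⟨φ, hφ, ψ, hψ, rfl⟩ := K_surj hW.2.2.1 hW.2.2.2.1 ω
  by_cases h1 : φ = 1
  · rw [h1, hone_mul]; exact uniq2 hχ hχ' hW hodd hψ
  by_cases h2 : ψ = 1
  · rw [h2, hmul_one]; exact uniq1 hχ hχ' hW hodd hφ
  have := fam_eq3 hχ hχ' h1 h2 hφ hψ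
  rw [uniq1 hχ hχ' hW hodd hφ, uniq2 hχ hχ' hW hodd hψ] at this
  exact (sub_right_injective this).symm

end uniq

section gal

/-- Galois conjugate of a linear character -/
def gl {X : Type*} [Group X] (σ : ℂ ≃+* ℂ) (ω : X →* ℂˣ) : X →* ℂˣ := (Units.map (σ : ℂ →* ℂ)).comp ω

theorem gl_apply {X : Type*} [Group X] (σ : ℂ ≃+* ℂ) (ω : X →* ℂˣ) (x : X) : ((gl σ ω x : ℂˣ) : ℂ) = σ (ω x) := rfl

theorem gl_gl {X : Type*} [Group X] (σ : ℂ ≃+* ℂ) (ω : X →* ℂˣ) : gl σ (gl σ.symm ω) = ω := by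
  refine MonoidHom.ext fun x => Units.ext ?_
  rw [gl_apply, gl_apply, RingEquiv.apply_symm_apply]

theorem gl_mul {X : Type*} [Group X] (σ : ℂ ≃+* ℂ) (ω ω' : X →* ℂˣ) : gl σ (ω * ω') = gl σ ω * gl σ ω' := by
  refine MonoidHom.ext fun x => Units.ext ?_
  rw [gl_apply, MonoidHom.mul_apply, MonoidHom.mul_apply, Units.val_mul, Units.val_mul, map_mul, gl_apply, gl_apply]

theorem gl_inj {X : Type*} [Group X] (σ : ℂ ≃+* ℂ) {ω ω' : X →* ℂˣ} (h : gl σ ω = gl σ ω') : ω = ω' := by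
  refine MonoidHom.ext fun x => Units.ext ?_
  have := congrArg (fun f : X →* ℂˣ => ((f x : ℂˣ) : ℂ)) h
  simp only [gl_apply] at this
  exact σ.injective this

theorem gl_one {X : Type*} [Group X] (σ : ℂ ≃+* ℂ) : gl σ (1 : X →* ℂˣ) = 1 := by
  refine MonoidHom.ext fun x => Units.ext ?_
  rw [gl_apply]; simp

theorem indFun_gal (σ : ℂ ≃+* ℂ) (H : Subgroup G) (f : H → ℂ) (g : G) :
    indFun H (fun x => σ (f x)) g = σ (indFun H f g) := by
  rw [indFun_apply, indFun_apply, map_mul, map_inv₀, map_natCast, map_sum]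
  congr 1
  refine Finset.sum_congr rfl fun x _ => ?_
  by_cases hx : x⁻¹ * g * x ∈ H
  · rw [ext_mem _ _ hx, ext_mem _ _ hx]
  · rw [ext_notMem _ _ hx, ext_notMem _ _ hx, map_zero]

theorem fam_gal {χ : (↥(W₁ ⊔ W₂) →* ℂˣ) → (G → ℂ)} (hχ : IsCyclicTIFamily W₁ W₂ χ) (σ : ℂ ≃+* ℂ) :
    IsCyclicTIFamily W₁ W₂ (fun ω g => σ (χ (gl σ.symm ω) g)) := by
  classical
  constructor
  · intro ω; exact (fam_SI hχ (gl σ.symm ω)).galois σ
  · intro ω ω'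
    rw [SI.galois_inner σ (fam_SI hχ _) (fam_SI hχ _), hχ.orthonormal]
    by_cases h : ω = ω'
    · rw [if_pos h, if_pos (by rw [h]), map_one]
    · rw [if_neg h, if_neg (fun h' => h (gl_inj _ h')), map_zero]
  · funext g; rw [gl_one, hχ.map_one, map_one]
  · intro ω w h1 h2
    show σ (χ (gl σ.symm ω) w) = _
    rw [hχ.eq_on _ w h1 h2, gl_apply, RingEquiv.apply_symm_apply]
  · intro φ ψ hφ hψ h1 h2
    have e := hχ.induced_eq (gl σ.symm φ) (gl σ.symm ψ)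
      (fun h => hφ (gl_inj σ.symm (by rw [h, gl_one]))) (fun h => hψ (gl_inj σ.symm (by rw [h, gl_one])))
      (fun w hw => Units.ext (by rw [gl_apply, h1 w hw]; simp)) (fun w hw => Units.ext (by rw [gl_apply, h2 w hw]; simp))
    funext g
    have e2 := congrArg σ (congrFun e g)
    rw [← indFun_gal] at e2
    rw [gl_mul]
    have e3 : (fun w : ↥(W₁ ⊔ W₂) => σ (1 - ((gl σ.symm φ w : ℂˣ) : ℂ) - ((gl σ.symm ψ w : ℂˣ) : ℂ) + ((gl σ.symm φ w : ℂˣ) : ℂ) * ((gl σ.symm ψ w : ℂˣ) : ℂ))) =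
      fun w => 1 - (φ w : ℂ) - (ψ w : ℂ) + (φ w : ℂ) * (ψ w : ℂ) := by
      funext w
      simp only [gl_apply, map_add, map_sub, map_mul, map_one, RingEquiv.apply_symm_apply]
    rw [e3] at e2
    rw [e2]
    simp only [map_add, map_sub, map_one]

/-- Galois action on the family -/
theorem fam_gal_eq {χ : (↥(W₁ ⊔ W₂) →* ℂˣ) → (G → ℂ)} (hχ : IsCyclicTIFamily W₁ W₂ χ)
    (hW : IsSelfNormalizingCyclic W₁ W₂) (hodd : Odd (Nat.card ↥(W₁ ⊔ W₂))) (σ : ℂ ≃+* ℂ)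
    (ω : ↥(W₁ ⊔ W₂) →* ℂˣ) (g : G) : σ (χ ω g) = χ (gl σ ω) g := by
  have h := uniq hχ (fam_gal hχ σ) hW hodd
  have h2 := congrFun (congrFun h (gl σ ω)) g
  have h3 : gl σ.symm (gl σ ω) = ω := gl_gl σ.symm ω
  simp only [h3] at h2
  exact h2

theorem values_int {χ : (↥(W₁ ⊔ W₂) →* ℂˣ) → (G → ℂ)} (hχ : IsCyclicTIFamily W₁ W₂ χ)
    (hW : IsSelfNormalizingCyclic W₁ W₂) (hodd : Odd (Nat.card ↥(W₁ ⊔ W₂)))
    (ω : ↥(W₁ ⊔ W₂) →* ℂˣ) (g : G) (hg : Nat.Coprime (orderOf g) (orderOf ω)) : ∃ n : ℤ, χ ω g = n := by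
  have hsi := fam_SI hχ ω
  have hint : IsIntegral ℤ (χ ω g) := by
    rcases hsi with h | h
    · exact char_isIntegral (isChar_of_irr h) g
    · have := (char_isIntegral (isChar_of_irr h) g).neg
      simpa using this
  have hω0 : orderOf ω ≠ 0 := (orderOf_pos ω).ne'
  have hg0 : orderOf g ≠ 0 := (orderOf_pos g).ne'
  apply Lib.CharGal.isInt_of_fixed _ hint
  intro σ
  obtain ⟨k, hk, hσ⟩ := Lib.CharGal.exists_pow_of_aut (orderOf g) hg0 σ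
  obtain ⟨k', hk1, hk2⟩ := Nat.chineseRemainder hg k 1
  have hk'c : Nat.Coprime k' (orderOf g * orderOf ω) := by
    apply Nat.Coprime.mul_right
    · rw [Nat.Coprime, hk1.gcd_eq]; exact hk
    · rw [Nat.Coprime, hk2.gcd_eq]; exact Nat.coprime_one_left _
  obtain ⟨τ, hτ⟩ := Lib.CharGal.exists_aut_pow (orderOf g * orderOf ω) k' (mul_ne_zero hg0 hω0) hk'c
  have hpow : ∀ {n : ℕ} {z : ℂ} {a b : ℕ}, z ^ n = 1 → a ≡ b [MOD n] → z ^ a = z ^ b := by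
    intro n z a b hz hab
    rw [pow_eq_pow_mod a hz, pow_eq_pow_mod b hz, hab]
  have h1 : gl τ ω = ω := by
    refine MonoidHom.ext fun w => Units.ext ?_
    have hw : ((ω w : ℂˣ) : ℂ) ^ orderOf ω = 1 := by
      have := DFunLike.congr_fun (pow_orderOf_eq_one ω) w
      rw [MonoidHom.pow_apply, MonoidHom.one_apply] at this
      rw [← Units.val_pow_eq_pow_val, this, Units.val_one]
    rw [gl_apply, hτ _ (by rw [mul_comm, pow_mul, hw, one_pow]), hpow hw hk2, pow_one]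
  have h2 : τ (χ ω g) = χ ω g := by rw [fam_gal_eq hχ hW hodd, h1]
  have h3 : τ (χ ω g) = σ (χ ω g) := by
    have key : ∀ {a : G → ℂ}, IsIrrCharacter G a → τ (a g) = σ (a g) := by
      intro a ha
      rw [Lib.CharGal.galois_pow σ k (isChar_of_irr ha) g hσ,
        Lib.CharGal.galois_pow τ k (isChar_of_irr ha) g]
      intro z hz
      rw [hτ _ (by rw [pow_mul, hz, one_pow]), hpow hz hk1]
    rcases hsi with h | h
    · exact key h
    · have := key h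
      simpa using this
  rw [← h3, h2]

end gal

end

end Cfsg.Agent.Lib.OddCycB
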