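import Mathlib

set_option autoImplicit false

namespace Cfsg.Agent.Lib.OddMat

noncomputable section

open Classical in
/-- a matrix satisfying the rectangle rule with few nonzero entries -/
theorem trichotomy {I J : Type*} [Fintype I] [Fintype J] (a : I → J → ℂ)
    (hrect : ∀ i i' j j', a i j + a i' j' = a i j' + a i' j) (hI : 3 ≤ Fintype.card I)
    (hIJ : Fintype.card I + 2 ≤ Fintype.card J)
    (hfew : (Finset.univ.filter (fun p : I × J => a p.1 p.2 ≠ 0)).card < 2 * Fintype.card I) :
    (∀ i j, a i j = 0) ∨ (∃ j0 c, ∀ i j, a i j = if j = j0 then c else 0) ∨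
      (∃ i0 c, ∀ i j, a i j = if i = i0 then c else 0) := by
  haveI : Nonempty I := Fintype.card_pos_iff.mp (by omega)
  haveI : Nonempty J := Fintype.card_pos_iff.mp (by omega)
  set N := Finset.univ.filter (fun p : I × J => a p.1 p.2 ≠ 0) with hN
  by_cases hcol : ∃ j0, ∀ i, a i j0 = 0
  · obtain ⟨j0, hj0⟩ := hcol
    have hc : ∀ i i' j, a i j = a i' j := by
      intro i i' j
      have := hrect i i' j j0
      rw [hj0, hj0] at this
      simpa using this
    obtain ⟨i0⟩ := ‹Nonempty I›
    by_cases hz : ∀ j, a i0 j = 0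
    · left; intro i j; rw [hc i i0 j, hz]
    · push_neg at hz
      obtain ⟨j1, hj1⟩ := hz
      right; left
      refine ⟨j1, a i0 j1, fun i j => ?_⟩
      by_cases hj : j = j1
      · rw [if_pos hj, hj, hc i i0]
      · rw [if_neg hj]
        by_contra hne
        have hsub : (Finset.univ ×ˢ ({j1, j} : Finset J)) ⊆ N := by
          rintro ⟨x, y⟩ hxy
          rw [hN, Finset.mem_filter]
          refine ⟨Finset.mem_univ _, ?_⟩
          rw [Finset.mem_product] at hxy
          have := hxy.2
          simp only [Finset.mem_insert, Finset.mem_singleton] at this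
          rcases this with h | h
          · simp only [h]; rw [hc x i0]; exact hj1
          · simp only [h]; rw [hc x i]; exact hne
        have := Finset.card_le_card hsub
        rw [Finset.card_product, Finset.card_univ, Finset.card_pair (Ne.symm hj)] at this
        omega
  by_cases hrow : ∃ i0, ∀ j, a i0 j = 0
  · obtain ⟨i0, hi0⟩ := hrow
    have hc : ∀ i j j', a i j = a i j' := by
      intro i j j'
      have := hrect i i0 j j'
      rw [hi0, hi0] at this
      simpa using this
    obtain ⟨j0⟩ := ‹Nonempty J›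
    by_cases hz : ∀ i, a i j0 = 0
    · left; intro i j; rw [hc i j j0, hz]
    · push_neg at hz
      obtain ⟨i1, hi1⟩ := hz
      right; right
      refine ⟨i1, a i1 j0, fun i j => ?_⟩
      by_cases hi : i = i1
      · rw [if_pos hi, hi, hc i1 j j0]
      · rw [if_neg hi]
        by_contra hne
        have hsub : (({i1, i} : Finset I) ×ˢ Finset.univ) ⊆ N := by
          rintro ⟨x, y⟩ hxy
          rw [hN, Finset.mem_filter]
          refine ⟨Finset.mem_univ _, ?_⟩
          rw [Finset.mem_product] at hxy
          have := hxy.1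
          simp only [Finset.mem_insert, Finset.mem_singleton] at this
          rcases this with h | h
          · simp only [h]; rw [hc i1 y j0]; exact hi1
          · simp only [h]; rw [hc i y j]; exact hne
        have := Finset.card_le_card hsub
        rw [Finset.card_product, Finset.card_univ, Finset.card_pair (Ne.symm hi)] at this
        omega
  exfalso
  push_neg at hcol hrow
  -- column counts
  let n : J → ℕ := fun j => (Finset.univ.filter (fun i => a i j ≠ 0)).card
  have hNn : N.card = ∑ j, n j := by
    rw [hN, ← Fintype.card_subtype]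
    have e : {p : I × J // a p.1 p.2 ≠ 0} ≃ Σ j : J, {i : I // a i j ≠ 0} :=
      ⟨fun p => ⟨p.1.2, ⟨p.1.1, p.2⟩⟩, fun q => ⟨(q.2.1, q.1), q.2.2⟩, fun _ => rfl, fun _ => rfl⟩
    rw [Fintype.card_congr e, Fintype.card_sigma]
    refine Finset.sum_congr rfl fun j _ => ?_
    rw [Fintype.card_subtype]
  have hn1 : ∀ j, 1 ≤ n j := by
    intro j
    obtain ⟨i, hi⟩ := hcol j
    exact Finset.card_pos.mpr ⟨i, Finset.mem_filter.mpr ⟨Finset.mem_univ _, hi⟩⟩
  have hex : ∃ j0, n j0 = 1 := by
    by_contra hno
    push_neg at hno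
    have : ∑ _j : J, 2 ≤ ∑ j, n j := Finset.sum_le_sum fun j _ => by have := hn1 j; have := hno j; omega
    rw [Finset.sum_const, Finset.card_univ, smul_eq_mul] at this
    omega
  obtain ⟨j0, hj0⟩ := hex
  obtain ⟨i0, hi0⟩ := Finset.card_eq_one.mp hj0
  have hz : ∀ i, i ≠ i0 → a i j0 = 0 := by
    intro i hi
    by_contra hne
    have : i ∈ Finset.univ.filter (fun i => a i j0 ≠ 0) := Finset.mem_filter.mpr ⟨Finset.mem_univ _, hne⟩
    rw [hi0, Finset.mem_singleton] at this
    exact hi this
  obtain ⟨i1, hi1⟩ : ∃ i1, i1 ≠ i0 := by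
    haveI : Nontrivial I := Fintype.one_lt_card_iff_nontrivial.mp (by omega)
    exact exists_ne i0
  obtain ⟨j1, hj1⟩ := hrow i1
  have hall : ∀ i, i ≠ i0 → a i j1 ≠ 0 := by
    intro i hi
    have := hrect i i1 j1 j0
    rw [hz i hi, hz i1 hi1, add_zero, zero_add] at this
    rw [this]; exact hj1
  have hnj1 : Fintype.card I - 1 ≤ n j1 := by
    have : Finset.univ.erase i0 ⊆ Finset.univ.filter (fun i => a i j1 ≠ 0) := by
      intro i hi
      exact Finset.mem_filter.mpr ⟨Finset.mem_univ _, hall i (Finset.ne_of_mem_erase hi)⟩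
    have := Finset.card_le_card this
    rwa [Finset.card_erase_of_mem (Finset.mem_univ _), Finset.card_univ] at this
  have hsum : ∑ j, n j = n j1 + ∑ j ∈ Finset.univ.erase j1, n j := (Finset.add_sum_erase _ _ (Finset.mem_univ j1)).symm
  have hrest : Fintype.card J - 1 ≤ ∑ j ∈ Finset.univ.erase j1, n j := by
    have : ∑ _j ∈ Finset.univ.erase j1, 1 ≤ ∑ j ∈ Finset.univ.erase j1, n j := Finset.sum_le_sum fun j _ => hn1 j
    rwa [Finset.sum_const, Finset.card_erase_of_mem (Finset.mem_univ _), Finset.card_univ, smul_eq_mul, mul_one] at this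
  omega

end

end Cfsg.Agent.Lib.OddMat
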