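import Cfsg.Agent.Lib.OddCyc
import Cfsg.Agent.Lib.OddA
import Cfsg.Agent.Lib.OddDade
import Cfsg.Agent.Lib.GlaubLemma
import Cfsg.Agent.Lib.CharTable
import Cfsg.Agent.Lib.CharNormal
import Cfsg.Agent.Lib.CharClifford
import Cfsg.Agent.Lib.CharExt
import Cfsg.Agent.Lib.CharFrob

set_option autoImplicit false

namespace Cfsg.Agent.Lib.OddP

open Cfsg Cfsg.Agent.Lib.CharBasic Cfsg.Agent.Lib.CharInd Cfsg.Agent.Lib.CharLin Cfsg.Agent.Lib.CharTable
open Cfsg.Agent.Lib.CharNormal Cfsg.Agent.Lib.CharClifford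
open scoped ComplexConjugate

noncomputable section

/-- type synonym for the conjugation action -/
def Cj (L : Type*) := L

/-- to the synonym -/
def toCj {L : Type*} (x : L) : Cj L := x
/-- from the synonym -/
def ofCj {L : Type*} (x : Cj L) : L := x

instance instCj (L : Type*) [Group L] : MulAction L (Cj L) where
  smul l x := toCj (l * ofCj x * l⁻¹)
  one_smul x := by show (1 * ofCj x * 1⁻¹ : L) = ofCj x; group
  mul_smul a b x := by
    show (a * b * ofCj x * (a * b)⁻¹ : L) = a * (b * ofCj x * b⁻¹) * a⁻¹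
    group

theorem cj_smul' {L : Type*} [Group L] (l x : L) : l • toCj x = toCj (l * x * l⁻¹) := rfl

section classes

variable {L : Type*} [Group L] [Finite L] (K W₂ : Subgroup L) [hK : K.Normal] (x : L)

theorem map_conj_mk (k : K) : ConjClasses.map (MulEquiv.toMonoidHom ((MulAut.conjNormal x : MulAut K))) (ConjClasses.mk k) =
    ConjClasses.mk (⟨x * k * x⁻¹, hK.conj_mem k k.2 x⟩ : K) := rfl

/-- invariant classes meet the centralizer -/
theorem inv_class (hx : Nat.Coprime (orderOf x) (Nat.card K))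
    {k : K} (hk : IsConj (⟨x * k * x⁻¹, hK.conj_mem k k.2 x⟩ : K) k) :
    ∃ c : K, IsConj k c ∧ x * c * x⁻¹ = c := by
  have hAK : Subgroup.zpowers x ≤ Subgroup.normalizer (K : Set L) := by
    rw [Subgroup.normalizer_eq_top]; exact le_top
  have hcop : (Nat.card (Subgroup.zpowers x)).Coprime (Nat.card K) := by rwa [Nat.card_zpowers]
  have hs : Group.IsSolvable (Subgroup.zpowers x) := by
    letI := IsCyclic.commGroup (α := Subgroup.zpowers x)
    infer_instance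
  have hstep : ∀ n : ℤ, ∃ j ∈ K, x ^ n * k * (x ^ n)⁻¹ = j * k * j⁻¹ := by
    obtain ⟨u, hu⟩ := isConj_iff.mp hk
    have hu' : (u : L) * (x * k * x⁻¹) * (u : L)⁻¹ = k := congrArg Subtype.val hu
    have h1 : x * (k : L) * x⁻¹ = (u : L)⁻¹ * k * u := by
      calc x * (k : L) * x⁻¹ = (u : L)⁻¹ * (u * (x * k * x⁻¹) * (u : L)⁻¹) * u := by group
        _ = (u : L)⁻¹ * k * u := by rw [hu']
    intro n
    induction n using Int.induction_on with
    | zero => exact ⟨1, K.one_mem, by simp⟩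
    | succ n ih =>
      obtain ⟨j, hj, e⟩ := ih
      refine ⟨x * j * x⁻¹ * (u : L)⁻¹, K.mul_mem (hK.conj_mem j hj x) (K.inv_mem u.2), ?_⟩
      calc x ^ ((n : ℤ) + 1) * k * (x ^ ((n : ℤ) + 1))⁻¹ = x * (x ^ (n : ℤ) * k * (x ^ (n : ℤ))⁻¹) * x⁻¹ := by
            rw [zpow_add, zpow_one, ← (Commute.refl x).zpow_right n |>.eq]; group
        _ = x * (j * k * j⁻¹) * x⁻¹ := by rw [e]
        _ = (x * j * x⁻¹) * (x * k * x⁻¹) * (x * j * x⁻¹)⁻¹ := by group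
        _ = (x * j * x⁻¹) * ((u : L)⁻¹ * k * u) * (x * j * x⁻¹)⁻¹ := by rw [h1]
        _ = _ := by group
    | pred n ih =>
      obtain ⟨j, hj, e⟩ := ih
      have h2 : x⁻¹ * (k : L) * x = (x⁻¹ * u * x) * k * (x⁻¹ * u * x)⁻¹ := by
        calc x⁻¹ * (k : L) * x = x⁻¹ * (u * (x * k * x⁻¹) * (u : L)⁻¹) * x := by rw [hu']
          _ = _ := by group
      refine ⟨x⁻¹ * j * x * (x⁻¹ * u * x), K.mul_mem (by have := hK.conj_mem j hj x⁻¹; rwa [inv_inv] at this)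
        (by have := hK.conj_mem u u.2 x⁻¹; rwa [inv_inv] at this), ?_⟩
      calc x ^ (-(n : ℤ) - 1) * k * (x ^ (-(n : ℤ) - 1))⁻¹ = x⁻¹ * (x ^ (-(n : ℤ)) * k * (x ^ (-(n : ℤ)))⁻¹) * x := by
            rw [zpow_sub_one, ((Commute.refl x).inv_left.zpow_right (-(n : ℤ))).eq.symm]; group
        _ = x⁻¹ * (j * k * j⁻¹) * x := by rw [e]
        _ = (x⁻¹ * j * x) * (x⁻¹ * k * x) * (x⁻¹ * j * x)⁻¹ := by group
        _ = (x⁻¹ * j * x) * ((x⁻¹ * u * x) * k * (x⁻¹ * u * x)⁻¹) * (x⁻¹ * j * x)⁻¹ := by rw [h2]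
        _ = _ := by group
  obtain ⟨j, hj, hfix⟩ := Lib.GlaubLemma.exists_fixed (Ω := Cj L) hAK hcop (Or.inl hs) (toCj (k : L)) (by
    intro a ha
    obtain ⟨n, rfl⟩ := Subgroup.mem_zpowers_iff.mp ha
    obtain ⟨j, hj, e⟩ := hstep n
    exact ⟨j, hj, congrArg toCj e⟩)
  refine ⟨⟨j * k * j⁻¹, hK.conj_mem k k.2 j⟩, isConj_iff.mpr ⟨⟨j, hj⟩, rfl⟩, ?_⟩
  exact hfix x (Subgroup.mem_zpowers x)

theorem class_bound (hx1 : x ≠ 1) (hx : Nat.Coprime (orderOf x) (Nat.card K))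
    (hC : K ⊓ Subgroup.centralizer ({x} : Set L) = W₂) :
    Nat.card {C : ConjClasses K // ConjClasses.map (MulEquiv.toMonoidHom ((MulAut.conjNormal x : MulAut K))) C = C} ≤ Nat.card W₂ := by
  have hW : ∀ w : W₂, (w : L) ∈ K ∧ x * (w : L) * x⁻¹ = w := by
    intro w
    have h1 : (w : L) ∈ K ⊓ Subgroup.centralizer ({x} : Set L) := by rw [hC]; exact w.2
    refine ⟨h1.1, ?_⟩
    rw [← Subgroup.mem_centralizer_singleton_iff.mp h1.2, mul_inv_cancel_right]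
  refine Nat.card_le_card_of_surjective (fun w : W₂ => (⟨ConjClasses.mk ⟨w, (hW w).1⟩, by
    rw [map_conj_mk]; congr 1; exact Subtype.ext (hW w).2⟩ : {C : ConjClasses K // _ = C})) ?_
  rintro ⟨C, hCC⟩
  obtain ⟨k, rfl⟩ := ConjClasses.mk_surjective C
  rw [map_conj_mk, ConjClasses.mk_eq_mk_iff_isConj] at hCC
  obtain ⟨c, hkc, hc⟩ := inv_class K x hx hCC
  have hcW : (c : L) ∈ W₂ := by
    rw [← hC]
    refine ⟨c.2, Subgroup.mem_centralizer_singleton_iff.mpr ?_⟩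
    calc (c : L) * x = (x * c * x⁻¹) * x := by rw [hc]
      _ = x * c := by group
  refine ⟨⟨c, hcW⟩, Subtype.ext ?_⟩
  exact (ConjClasses.mk_eq_mk_iff_isConj.mpr hkc).symm

/-- exact count when the centralizer is abelian -/
theorem class_count (hx : Nat.Coprime (orderOf x) (Nat.card K))
    (hC : K ⊓ Subgroup.centralizer ({x} : Set L) = W₂) (hab : ∀ a ∈ W₂, ∀ b ∈ W₂, a * b = b * a) :
    Nat.card {C : ConjClasses K // ConjClasses.map (MulEquiv.toMonoidHom ((MulAut.conjNormal x : MulAut K))) C = C} = Nat.card W₂ := by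
  have hW : ∀ w : W₂, (w : L) ∈ K ∧ x * (w : L) * x⁻¹ = w := by
    intro w
    have h1 : (w : L) ∈ K ⊓ Subgroup.centralizer ({x} : Set L) := by rw [hC]; exact w.2
    refine ⟨h1.1, ?_⟩
    rw [← Subgroup.mem_centralizer_singleton_iff.mp h1.2, mul_inv_cancel_right]
  have hAK : Subgroup.zpowers x ≤ Subgroup.normalizer (K : Set L) := by
    rw [Subgroup.normalizer_eq_top]; exact le_top
  have hcop : (Nat.card (Subgroup.zpowers x)).Coprime (Nat.card K) := by rwa [Nat.card_zpowers]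
  have hs : Group.IsSolvable (Subgroup.zpowers x) := by
    letI := IsCyclic.commGroup (α := Subgroup.zpowers x)
    infer_instance
  symm
  refine Nat.card_congr (Equiv.ofBijective (fun w : W₂ => (⟨ConjClasses.mk ⟨w, (hW w).1⟩, by
    rw [map_conj_mk]; congr 1; exact Subtype.ext (hW w).2⟩ : {C : ConjClasses K // _ = C})) ⟨?_, ?_⟩)
  · intro w w' h
    have h1 := congrArg Subtype.val h
    simp only at h1
    rw [ConjClasses.mk_eq_mk_iff_isConj, isConj_iff] at h1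
    obtain ⟨u, hu⟩ := h1
    have hu' : (u : L) * w * (u : L)⁻¹ = w' := congrArg Subtype.val hu
    have hfx : ∀ w : W₂, ∀ a ∈ Subgroup.zpowers x, a • toCj (w : L) = toCj (w : L) := by
      intro w a ha
      have h2 : Commute x (w : L) := by
        show x * (w : L) = w * x
        conv_rhs => rw [← (hW w).2]
        group
      obtain ⟨n, rfl⟩ := Subgroup.mem_zpowers_iff.mp ha
      rw [cj_smul', (h2.zpow_left n).eq, mul_inv_cancel_right]
    obtain ⟨c, hc, hc2⟩ := Lib.GlaubLemma.fixed_conj (Ω := Cj L) hAK hcop (Or.inl hs) (hfx w) (hfx w') ⟨u, u.2, congrArg toCj hu'⟩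
    have hcW : c ∈ W₂ := by
      rw [← hC]
      refine ⟨hc.1, Subgroup.mem_centralizer_singleton_iff.mpr ?_⟩
      exact (Subgroup.mem_centralizer_iff.mp hc.2 x (Subgroup.mem_zpowers x)).symm
    have h3 : (c * w * c⁻¹ : L) = w' := hc2
    rw [hab c hcW w w.2, mul_inv_cancel_right] at h3
    exact Subtype.ext h3
  · rintro ⟨C, hCC⟩
    obtain ⟨k, rfl⟩ := ConjClasses.mk_surjective C
    rw [map_conj_mk, ConjClasses.mk_eq_mk_iff_isConj] at hCC
    obtain ⟨c, hkc, hc⟩ := inv_class K x hx hCC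
    have hcW : (c : L) ∈ W₂ := by
      rw [← hC]
      refine ⟨c.2, Subgroup.mem_centralizer_singleton_iff.mpr ?_⟩
      calc (c : L) * x = (x * c * x⁻¹) * x := by rw [hc]
        _ = x * c := by group
    refine ⟨⟨c, hcW⟩, Subtype.ext ?_⟩
    exact (ConjClasses.mk_eq_mk_iff_isConj.mpr hkc).symm

end classes
section typeP

variable {L : Type*} [Group L] {K W₁ W₂ : Subgroup L} [hK : K.Normal]
  (hKW₁ : K ⊓ W₁ = ⊥) (hKW₁' : K ⊔ W₁ = ⊤) (hW₁ : W₁ ≠ ⊥) (hW₁c : IsCyclic W₁)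
  (hHall : Nat.Coprime (Nat.card W₁) W₁.index) (hW₂ : W₂ ≠ ⊥) (hW₂c : IsCyclic W₂) (hW₂K : W₂ ≤ K)
  (hC : ∀ x ∈ W₁, x ≠ 1 → K ⊓ Subgroup.centralizer ({x} : Set L) = W₂)

include hKW₁' in
theorem factor (g : L) : ∃ k ∈ K, ∃ w ∈ W₁, g = k * w := by
  have h1 : g ∈ ((K ⊔ W₁ : Subgroup L) : Set L) := by rw [hKW₁']; trivial
  rw [Subgroup.normal_mul] at h1
  obtain ⟨k, hk, w, hw, e⟩ := h1
  exact ⟨k, hk, w, hw, e.symm⟩

include hKW₁ hKW₁' in
theorem card_L [Finite L] : Nat.card L = Nat.card K * Nat.card W₁ := by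
  have := Lib.Basic.card_sup_of_inf_eq_bot (N := K) (H := W₁) (by rw [Subgroup.normalizer_eq_top]; exact le_top) hKW₁
  rw [hKW₁'] at this
  rw [← this, Subgroup.card_top]

include hKW₁ hKW₁' in
theorem index_W1 [Finite L] : W₁.index = Nat.card K := by
  have h1 := W₁.index_mul_card
  rw [card_L hKW₁ hKW₁'] at h1
  exact Nat.eq_of_mul_eq_mul_right Nat.card_pos h1

include hKW₁ hKW₁' in
theorem index_K [Finite L] : K.index = Nat.card W₁ := by
  have h1 := K.index_mul_card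
  rw [card_L hKW₁ hKW₁', mul_comm (Nat.card K)] at h1
  exact Nat.eq_of_mul_eq_mul_right Nat.card_pos h1

include hKW₁ hKW₁' hHall in
theorem cop [Finite L] : Nat.Coprime (Nat.card W₁) (Nat.card K) := by
  rw [← index_W1 hKW₁ hKW₁']; exact hHall

include hKW₁ hW₂K in
omit hK in
theorem disj : W₁ ⊓ W₂ = ⊥ := by
  rw [eq_bot_iff, ← hKW₁, inf_comm K W₁]
  exact inf_le_inf_left _ hW₂K

include hC hW₂K in
omit hK in
theorem comm12 : ∀ a ∈ W₁, ∀ b ∈ W₂, a * b = b * a := by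
  intro a ha b hb
  by_cases h1 : a = 1
  · rw [h1, one_mul, mul_one]
  · rw [← hC a ha h1] at hb
    exact (Subgroup.mem_centralizer_singleton_iff.mp hb.2).symm

include hKW₁ hKW₁' hHall hC in
theorem cent_W2 [Finite L] {w₁ w₂ w₁' w₂' k : L} (hw₁ : w₁ ∈ W₁) (hw₁1 : w₁ ≠ 1) (hw₂ : w₂ ∈ W₂) (hw₁' : w₁' ∈ W₁) (hw₂' : w₂' ∈ W₂)
    (hW₂K : W₂ ≤ K) (hk : k ∈ K) (h : k * (w₁ * w₂) * k⁻¹ = w₁' * w₂') : k ∈ W₂ := by
  -- modulo K
  have hmod : w₁ = w₁' := by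
    have e : w₁'⁻¹ * (k * (w₁ * w₂) * k⁻¹) = w₂' := by rw [h]; group
    have h1 : w₁⁻¹ * (k * (w₁ * w₂) * k⁻¹) ∈ K := by
      have e2 : w₁⁻¹ * (k * (w₁ * w₂) * k⁻¹) = (w₁⁻¹ * k * w₁⁻¹⁻¹) * w₂ * k⁻¹ := by group
      rw [e2]
      exact K.mul_mem (K.mul_mem (hK.conj_mem k hk _) (hW₂K hw₂)) (K.inv_mem hk)
    have h2 : w₁⁻¹ * w₁' ∈ K ⊓ W₁ := by
      refine ⟨?_, W₁.mul_mem (W₁.inv_mem hw₁) hw₁'⟩
      rw [h] at h1
      have e3 : w₁⁻¹ * w₁' = w₁⁻¹ * (w₁' * w₂') * w₂'⁻¹ := by group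
      rw [e3]; exact K.mul_mem h1 (K.inv_mem (hW₂K hw₂'))
    rw [hKW₁, Subgroup.mem_bot] at h2
    exact (inv_mul_eq_one.mp h2)
  subst hmod
  have hcomm := comm12 hW₂K hC
  have hp := Lib.OddDade.parts_eq (cop hKW₁ hKW₁' hHall) (x := k * w₁ * k⁻¹) (y := k * w₂ * k⁻¹) (b := w₁) (v := w₂')
    (by
      show _ * _ = _ * _
      calc k * w₁ * k⁻¹ * (k * w₂ * k⁻¹) = k * (w₁ * w₂) * k⁻¹ := by group
        _ = k * (w₂ * w₁) * k⁻¹ := by rw [hcomm w₁ hw₁ w₂ hw₂]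
        _ = _ := by group) (hcomm w₁ hw₁ w₂' hw₂')
    (by rw [conj_pow, Lib.OddDade.pow_card_mem hw₁]; group) (Lib.OddDade.pow_card_mem hw₁)
    (by rw [conj_pow, Lib.OddDade.pow_card_mem (hW₂K hw₂)]; group) (Lib.OddDade.pow_card_mem (hW₂K hw₂'))
    (by rw [← h]; group)
  rw [← hC w₁ hw₁ hw₁1]
  refine ⟨hk, Subgroup.mem_centralizer_singleton_iff.mpr ?_⟩
  calc k * w₁ = k * w₁ * k⁻¹ * k := by group
    _ = w₁ * k := by rw [hp.1]

include hKW₁ hKW₁' hW₁ hW₁c hHall hW₂ hW₂c hW₂K hC in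
/-- the pair is self-normalizing cyclic -/
theorem selfNorm [Finite L] : IsSelfNormalizingCyclic W₁ W₂ := by
  have hd := disj hKW₁ hW₂K
  have hc := comm12 hW₂K hC
  have hcop12 : Nat.Coprime (Nat.card W₁) (Nat.card W₂) :=
    Nat.Coprime.coprime_dvd_right (Subgroup.card_dvd_of_le hW₂K) (cop hKW₁ hKW₁' hHall)
  have hcyc : IsCyclic ↥(W₁ ⊔ W₂) := by
    haveI : IsCyclic (W₁ × W₂) := by
      rw [Group.isCyclic_prod_iff]
      exact ⟨hW₁c, hW₂c, hcop12⟩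
    exact isCyclic_of_surjective (Lib.OddCyc.prodEquiv hd hc) (Lib.OddCyc.prodEquiv hd hc).surjective
  refine ⟨hW₁, hW₂, hd, hc, hcyc, ?_⟩
  intro X hX hne
  have habW : ∀ a ∈ W₁ ⊔ W₂, ∀ b ∈ W₁ ⊔ W₂, a * b = b * a := by
    intro a ha b hb
    letI := IsCyclic.commGroup (α := ↥(W₁ ⊔ W₂))
    exact congrArg Subtype.val (mul_comm (⟨a, ha⟩ : ↥(W₁ ⊔ W₂)) ⟨b, hb⟩)
  have hdec : ∀ x ∈ W₁ ⊔ W₂, ∃ a ∈ W₁, ∃ b ∈ W₂, x = a * b := by
    intro x hx
    exact ⟨_, (Lib.OddCyc.q1 hd hc ⟨x, hx⟩).2, _, (Lib.OddCyc.q2 hd hc ⟨x, hx⟩).2, Lib.OddCyc.q_mul hd hc ⟨x, hx⟩⟩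
  have hge : W₁ ⊔ W₂ ≤ Subgroup.normalizer X := by
    intro w hw
    refine Subgroup.mem_set_normalizer_iff.mpr fun x => ?_
    constructor
    · intro hx
      rw [habW w hw x (hX hx).1, mul_inv_cancel_right]; exact hx
    · intro hx
      have h1 := habW w hw _ (hX hx).1
      have h2 : w * x * w⁻¹ = x := by
        have h3 : w * x * w⁻¹ * w = w * (w * x * w⁻¹) := h1.symm
        have h4 : w * x = w * (w * x * w⁻¹) := by rw [← h3]; group
        exact (mul_left_cancel h4).symm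
      rwa [h2] at hx
  apply le_antisymm _ hge
  intro g hg
  obtain ⟨k, hk, w, hw, rfl⟩ := factor hKW₁' g
  have hkN : k ∈ Subgroup.normalizer X := by
    have := Subgroup.mul_mem _ hg (Subgroup.inv_mem _ (hge (Subgroup.mem_sup_left hw)))
    rwa [mul_inv_cancel_right] at this
  obtain ⟨x, hx⟩ := hne
  have hx' := (Subgroup.mem_set_normalizer_iff.mp hkN x).mp hx
  obtain ⟨a, ha, b, hb, rfl⟩ := hdec x (hX hx).1
  obtain ⟨a', ha', b', hb', e⟩ := hdec _ (hX hx').1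
  have ha1 : a ≠ 1 := by
    rintro rfl
    apply (hX hx).2
    right; rw [one_mul]; exact hb
  have hkW := cent_W2 hKW₁ hKW₁' hHall hC ha ha1 hb ha' hb' hW₂K hk e
  exact Subgroup.mul_mem _ (Subgroup.mem_sup_right hkW) (Subgroup.mem_sup_left hw)

end typeP
section typePchars

variable {L : Type*} [Group L] [Fintype L] {K W₁ W₂ : Subgroup L} [hK : K.Normal]
  (hKW₁ : K ⊓ W₁ = ⊥) (hKW₁' : K ⊔ W₁ = ⊤) (hW₁ : W₁ ≠ ⊥) (hW₁c : IsCyclic W₁)
  (hHall : Nat.Coprime (Nat.card W₁) W₁.index) (hW₂c : IsCyclic W₂) (hW₂K : W₂ ≤ K)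
  (hC : ∀ x ∈ W₁, x ≠ 1 → K ⊓ Subgroup.centralizer ({x} : Set L) = W₂)

include hKW₁ hKW₁' hHall hW₂c hC in
theorem card_fix {x : L} (hx : x ∈ W₁) (hx1 : x ≠ 1) :
    Nat.card {θ : IrrCharacter K // cj x θ.1 = θ.1} = Nat.card W₂ := by
  haveI : Fintype K := Fintype.ofFinite _
  have hab : ∀ a ∈ W₂, ∀ b ∈ W₂, a * b = b * a := by
    intro a ha b hb
    letI := IsCyclic.commGroup (α := W₂)
    exact congrArg Subtype.val (mul_comm (⟨a, ha⟩ : W₂) ⟨b, hb⟩)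
  have hord : orderOf x ∣ Nat.card W₁ := by
    have := orderOf_dvd_natCard (⟨x, hx⟩ : W₁)
    rwa [Subgroup.orderOf_mk] at this
  have hcx : Nat.Coprime (orderOf x) (Nat.card K) := Nat.Coprime.coprime_dvd_left hord (cop hKW₁ hKW₁' hHall)
  rw [← class_count K W₂ x hcx (hC x hx hx1) hab]
  rw [card_fixed_aut (MulAut.conjNormal x : MulAut K)]
  rfl

include hKW₁ hKW₁' hW₁c hHall hW₂c hC in
theorem fixed_all {θ : K → ℂ} (hθ : IsIrrCharacter K θ) {y : L} (hy : y ∈ W₁) (hy1 : y ≠ 1) (hfix : cj y θ = θ) :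
    ∀ x ∈ W₁, cj x θ = θ := by
  classical
  obtain ⟨⟨z, hz⟩, hgen⟩ := hW₁c.exists_generator
  have hz1 : z ≠ 1 := by
    rintro rfl
    obtain ⟨n, hn⟩ := Subgroup.mem_zpowers_iff.mp (hgen ⟨y, hy⟩)
    apply hy1
    have := congrArg Subtype.val hn
    simp at this
    exact this.symm
  have hpow : ∀ {θ : K → ℂ}, cj z θ = θ → ∀ x ∈ W₁, cj x θ = θ := by
    intro θ h x hx
    obtain ⟨n, hn⟩ := Subgroup.mem_zpowers_iff.mp (hgen ⟨x, hx⟩)
    have hn' : z ^ n = x := congrArg Subtype.val hn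
    have : x ∈ inertia θ := by
      rw [← hn']; exact Subgroup.zpow_mem _ (mem_inertia.mpr h) n
    exact mem_inertia.mp this
  let Fz : Set (IrrCharacter K) := {θ | cj z θ.1 = θ.1}
  let Fy : Set (IrrCharacter K) := {θ | cj y θ.1 = θ.1}
  have hsub : Fz ⊆ Fy := fun θ h => hpow h y hy
  have h1 : Fz.ncard = Nat.card W₂ := card_fix hKW₁ hKW₁' hHall hW₂c hC hz hz1
  have h2 : Fy.ncard = Nat.card W₂ := card_fix hKW₁ hKW₁' hHall hW₂c hC hy hy1
  have heq : Fz = Fy := Set.eq_of_subset_of_ncard_le hsub (by rw [h1, h2]) (Set.toFinite _)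
  have : (⟨θ, hθ⟩ : IrrCharacter K) ∈ Fz := by rw [heq]; exact hfix
  exact hpow this

include hKW₁ hKW₁' hW₁c hHall hW₂c hC in
theorem ind_irr {θ : K → ℂ} (hθ : IsIrrCharacter K θ) {x : L} (hx : x ∈ W₁) (hmove : cj x θ ≠ θ) :
    IsIrrCharacter L (indFun K θ) := by
  classical
  haveI : Fintype K := Fintype.ofFinite _
  have hcl := isChar_classFn (isChar_of_irr hθ)
  have hin : inertia θ = K := by
    apply le_antisymm _ (le_inertia hcl)
    intro g hg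
    obtain ⟨k, hk, w, hw, rfl⟩ := factor hKW₁' g
    have hw' : w ∈ inertia θ := by
      have := Subgroup.mul_mem _ (Subgroup.inv_mem _ (le_inertia hcl hk)) hg
      rwa [inv_mul_cancel_left] at this
    by_cases hw1 : w = 1
    · rw [hw1, mul_one]; exact hk
    · exact absurd (fixed_all hKW₁ hKW₁' hW₁c hHall hW₂c hC hθ hw hw1 (mem_inertia.mp hw') x hx) hmove
  apply isIrr_of_inner_self_one
  · exact isChar_ind K (isChar_of_irr hθ)
  · rw [ind_inner_self hθ, hin]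
    simp

include hKW₁ hKW₁' hW₁ hW₁c hHall hW₂c hC in
theorem card_inv : Nat.card {θ : IrrCharacter K // ∀ x ∈ W₁, cj x θ.1 = θ.1} = Nat.card W₂ := by
  obtain ⟨y, hy, hy1⟩ := W₁.bot_or_exists_ne_one.resolve_left hW₁
  rw [← card_fix hKW₁ hKW₁' hHall hW₂c hC hy hy1]
  apply Nat.card_congr
  apply Equiv.subtypeEquivRight
  intro θ
  exact ⟨fun h => h y hy, fun h => fixed_all hKW₁ hKW₁' hW₁c hHall hW₂c hC θ.2 hy hy1 h⟩

include hKW₁' hW₁c in
theorem quot_cyclic : IsCyclic (L ⧸ K) := by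
  refine isCyclic_of_surjective ((QuotientGroup.mk' K).comp W₁.subtype) ?_
  intro q
  obtain ⟨g, rfl⟩ := QuotientGroup.mk_surjective q
  obtain ⟨k, hk, w, hw, rfl⟩ := factor hKW₁' g
  refine ⟨⟨w, hw⟩, ?_⟩
  show ((w : L) : L ⧸ K) = _
  rw [QuotientGroup.eq]
  have : w⁻¹ * (k * w) = w⁻¹ * k * w⁻¹⁻¹ := by group
  rw [this]; exact hK.conj_mem k hk _

include hKW₁' in
theorem inv_all {θ : K → ℂ} (hθ : IsClassFunction K θ) (hinv : ∀ x ∈ W₁, cj x θ = θ) (g : L) : cj g θ = θ := by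
  obtain ⟨k, hk, w, hw, rfl⟩ := factor hKW₁' g
  exact mem_inertia.mp (Subgroup.mul_mem _ (le_inertia hθ hk) (mem_inertia.mpr (hinv w hw)))

include hKW₁ hKW₁' hW₁c in
theorem ind_sum {θ : K → ℂ} (hθ : IsIrrCharacter K θ) (hinv : ∀ x ∈ W₁, cj x θ = θ) :
    ∃ C : Finset (L → ℂ), C.card = Nat.card W₁ ∧ (∀ μ ∈ C, IsIrrCharacter L μ) ∧ indFun K θ = ∑ μ ∈ C, μ := by
  classical
  haveI : Fintype K := Fintype.ofFinite _
  haveI : Fintype ↥(⊤ : Subgroup L) := Fintype.ofFinite _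
  have hall := inv_all hKW₁' (isChar_classFn (isChar_of_irr hθ)) hinv
  have hcyc := quot_cyclic (K := K) hKW₁' hW₁c
  obtain ⟨χ, hχ, hres⟩ := Lib.CharExt.ext_of_cyclic hcyc hθ hall
  have hcomm : ∀ x ∈ (⊤ : Subgroup L), ∀ y ∈ (⊤ : Subgroup L), x * y * x⁻¹ * y⁻¹ ∈ K := by
    intro x _ y _
    letI := IsCyclic.commGroup (α := L ⧸ K)
    rw [← QuotientGroup.eq_one_iff]
    have : ((x * y * x⁻¹ * y⁻¹ : L) : L ⧸ K) = (x : L ⧸ K) * y * (x : L ⧸ K)⁻¹ * (y : L ⧸ K)⁻¹ := rfl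
    rw [this, mul_comm (x : L ⧸ K) y]
    group
  obtain ⟨e, C, he, hCi, hcard, hind, -, h1⟩ := Lib.OddA.abelian_inertia (T := (⊤ : Subgroup L)) hθ
    (fun g => ⟨fun _ => hall g, fun _ => Subgroup.mem_top g⟩) le_top hcomm
  have he1 : e = 1 := h1 ⟨fun t => χ t, isIrr_comp_surjective (Subgroup.topEquiv (G := L)).toMonoidHom
    (Subgroup.topEquiv (G := L)).surjective hχ, by funext n; exact hres n⟩
  subst he1
  refine ⟨C, ?_, hCi, ?_⟩
  · rw [one_pow, one_mul, Subgroup.card_top, card_L hKW₁ hKW₁', mul_comm] at hcard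
    exact Nat.eq_of_mul_eq_mul_left Nat.card_pos hcard
  · rw [hind]; simp

end typePchars

end

end Cfsg.Agent.Lib.OddP
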