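import Cfsg.Agent.Lib.OddP

set_option autoImplicit false

namespace Cfsg.Agent.Lib.OddPB

open Cfsg Cfsg.Agent.Lib.CharBasic Cfsg.Agent.Lib.CharInd Cfsg.Agent.Lib.CharLin Cfsg.Agent.Lib.CharExc
open Cfsg.Agent.Lib.OddCyc Cfsg.Agent.Lib.OddP
open scoped ComplexConjugate

noncomputable section

/-- induction from a TI subset is an isometry -/
theorem ti_inner {G : Type*} [Group G] [Fintype G] (H : Subgroup G) [Fintype H] (S : Set G)
    (hTI : ∀ g : G, g ∉ H → ∀ s ∈ S, g * s * g⁻¹ ∈ S → s = 1) {f g : H → ℂ} (hg : IsClassFunction H g)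
    (hf : ∀ x : H, (x : G) ∉ S ∨ x = 1 → f x = 0) (hg0 : ∀ x : H, (x : G) ∉ S → g x = 0) :
    classInner (indFun H f) (indFun H g) = classInner f g := by
  classical
  rw [reciprocity _ _ _ (indFun_classFn _ _), classInner_def, classInner_def]
  congr 1
  refine Finset.sum_congr rfl fun h _ => ?_
  by_cases hh : (h : G) ∉ S ∨ h = 1
  · rw [hf h hh, zero_mul, zero_mul]
  · push_neg at hh
    congr 2
    have key : ∀ x : G, extendByZero H g (x⁻¹ * h * x) = if x ∈ H then g h else 0 := by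
      intro x
      by_cases hx : x ∈ H
      · rw [if_pos hx]
        have hm : x⁻¹ * h * x ∈ H := H.mul_mem (H.mul_mem (H.inv_mem hx) h.2) hx
        rw [ext_mem _ _ hm]
        have := hg h (⟨x, hx⟩ : H)⁻¹
        rw [← this]
        congr 1
        apply Subtype.ext
        simp
      · rw [if_neg hx]
        by_cases hm : x⁻¹ * h * x ∈ H
        · rw [ext_mem _ _ hm]
          apply hg0
          intro hs
          have hx' : x⁻¹ ∉ H := fun h => hx (by simpa using H.inv_mem h)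
          have := hTI x⁻¹ hx' h hh.1 (by rw [inv_inv]; exact hs)
          exact hh.2 (Subtype.ext this)
        · exact ext_notMem _ _ hm
    rw [indFun_apply, Finset.sum_congr rfl fun x _ => key x, ← Finset.sum_filter, Finset.sum_const, nsmul_eq_mul]
    have : (Finset.univ.filter (fun x => x ∈ H)).card = Nat.card H := by
      rw [Nat.card_eq_fintype_card, Fintype.card_subtype]
    rw [this]
    have : (Nat.card H : ℂ) ≠ 0 := card_ne_zero'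
    field_simp

variable {L : Type*} [Group L] [Fintype L] {K W₁ W₂ : Subgroup L} [hK : K.Normal]
  (hKW₁ : K ⊓ W₁ = ⊥) (hKW₁' : K ⊔ W₁ = ⊤) (hW₁ : W₁ ≠ ⊥) (hW₁c : IsCyclic W₁)
  (hHall : Nat.Coprime (Nat.card W₁) W₁.index) (hW₂ : W₂ ≠ ⊥) (hW₂c : IsCyclic W₂) (hW₂K : W₂ ≤ K)
  (hC : ∀ x ∈ W₁, x ≠ 1 → K ⊓ Subgroup.centralizer ({x} : Set L) = W₂)

include hKW₁ hKW₁' hHall hW₂K hC in
/-- `W \ W₂` is a TI-set -/
theorem ti2 {g s : L} (hg : g ∉ W₁ ⊔ W₂) (hs : s ∈ W₁ ⊔ W₂) (hs2 : s ∉ W₂) (hgs : g * s * g⁻¹ ∈ W₁ ⊔ W₂) : False := by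
  have hd := disj hKW₁ hW₂K
  have hc := comm12 hW₂K hC
  have hdec : ∀ x ∈ W₁ ⊔ W₂, ∃ a ∈ W₁, ∃ b ∈ W₂, x = a * b := by
    intro x hx
    exact ⟨_, (Lib.OddCyc.q1 hd hc ⟨x, hx⟩).2, _, (Lib.OddCyc.q2 hd hc ⟨x, hx⟩).2, Lib.OddCyc.q_mul hd hc ⟨x, hx⟩⟩
  obtain ⟨k, hk, w, hw, rfl⟩ := factor hKW₁' g
  have hwW : w ∈ W₁ ⊔ W₂ := Subgroup.mem_sup_left hw
  -- replace s by w s w⁻¹
  obtain ⟨a, ha, b, hb, e⟩ := hdec (w * s * w⁻¹) (Subgroup.mul_mem _ (Subgroup.mul_mem _ hwW hs) (Subgroup.inv_mem _ hwW))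
  obtain ⟨a', ha', b', hb', e'⟩ := hdec _ hgs
  have ha1 : a ≠ 1 := by
    rintro rfl
    apply hs2
    rw [one_mul] at e
    have : s = w⁻¹ * b * w := by rw [← e]; group
    rw [this]
    have h2 := hc w hw b hb
    have : w⁻¹ * b * w = b := by
      rw [mul_assoc, ← h2, inv_mul_cancel_left]
    rw [this]; exact hb
  have h3 : k * (a * b) * k⁻¹ = a' * b' := by rw [← e, ← e']; group
  have := cent_W2 hKW₁ hKW₁' hHall hC ha ha1 hb ha' hb' hW₂K hk h3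
  exact hg (Subgroup.mul_mem _ (Subgroup.mem_sup_right this) hwW)

variable (hodd : Odd (Nat.card ↥(W₁ ⊔ W₂)))

include hKW₁ hKW₁' hW₁ hW₁c hHall hW₂ hW₂c hW₂K hC hodd in
theorem exceptional_chars : ∃ (μ : (↥(W₁ ⊔ W₂) →* ℂˣ) → (L → ℂ)) (δ : (↥(W₁ ⊔ W₂) →* ℂˣ) → ℂ),
    Function.Injective μ ∧ (∀ ω, IsIrrCharacter L (μ ω)) ∧ (∀ ω, δ ω = 1 ∨ δ ω = -1) ∧
    (∀ ω ω' : ↥(W₁ ⊔ W₂) →* ℂˣ, (∀ w : ↥(W₁ ⊔ W₂), (w : L) ∈ W₂ → ω w = ω' w) → δ ω = δ ω' ∧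
      indFun (W₁ ⊔ W₂) (fun w => (ω w : ℂ) - (ω' w : ℂ)) = δ ω • (μ ω - μ ω')) ∧
    (∀ ω, ∀ w : ↥(W₁ ⊔ W₂), (w : L) ∉ W₂ → μ ω w = δ ω * (ω w : ℂ)) ∧
    (∀ θ : L → ℂ, IsIrrCharacter L θ → (∀ ω, θ ≠ μ ω) → ∀ w : ↥(W₁ ⊔ W₂), (w : L) ∉ W₂ → θ w = 0) ∧
    (∀ ω, ∃ n : ℤ, μ ω 1 - δ ω = n * (Nat.card W₁ : ℂ)) := by
  classical
  have hW := selfNorm hKW₁ hKW₁' hW₁ hW₁c hHall hW₂ hW₂c hW₂K hC
  have hd := disj hKW₁ hW₂K
  have hc := comm12 hW₂K hC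
  haveI : Fintype ↥(W₁ ⊔ W₂) := Fintype.ofFinite _
  haveI : Fintype (K1 W₁ W₂) := Fintype.ofFinite _
  haveI : Fintype (K2 W₁ W₂) := Fintype.ofFinite _
  haveI : Fintype W₁ := Fintype.ofFinite _
  have I := fun {a b c d : ↥(W₁ ⊔ W₂) →* ℂˣ} (ha : a ∈ K1 W₁ W₂) (hb : b ∈ K1 W₁ W₂) (hc' : c ∈ K2 W₁ W₂)
    (hd' : d ∈ K2 W₁ W₂) (h : a * c = b * d) => K_inj hd hc ha hb hc' hd' h
  have hc1 : Nat.card (K1 W₁ W₂) = Nat.card W₁ := card_K1 hd hc (W1_comm hW)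
  have h3 : 3 ≤ Nat.card W₁ := by
    have h1 : 1 < Nat.card W₁ := by rw [Subgroup.one_lt_card_iff_ne_bot]; exact hW₁
    rw [card_W hd hc] at hodd
    obtain ⟨k, hk⟩ := (Nat.odd_mul.mp hodd).1
    omega
  -- the TI set
  set S : Set L := {s | s ∈ W₁ ⊔ W₂ ∧ s ∉ W₂} with hS
  have hTI : ∀ g : L, g ∉ W₁ ⊔ W₂ → ∀ s ∈ S, g * s * g⁻¹ ∈ S → s = 1 := by
    intro g hg s hs hgs
    exact (ti2 hKW₁ hKW₁' hHall hW₂K hC hg hs.1 hs.2 hgs.1).elim
  -- the exceptional characters for each ψ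
  obtain ⟨n, ⟨en⟩⟩ : ∃ n, Nonempty (Fin n ≃ K1 W₁ W₂) := ⟨_, ⟨(Fintype.equivFin (K1 W₁ W₂)).symm⟩⟩
  have hn : 1 ≤ n := by
    have : Nat.card (K1 W₁ W₂) = n := by rw [← Nat.card_congr en]; simp
    omega
  have hexc : ∀ ψ : K2 W₁ W₂, ∃ ε : ℂ, (ε = 1 ∨ ε = -1) ∧ ∃ θ : K1 W₁ W₂ → (L → ℂ), (∀ i, IsIrrCharacter L (θ i)) ∧
      Function.Injective θ ∧ ∀ i j, indFun (W₁ ⊔ W₂) (linFn (i.1 * ψ.1)) - indFun (W₁ ⊔ W₂) (linFn (j.1 * ψ.1)) = ε • (θ i - θ j) := by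
    intro ψ
    obtain ⟨ε, hε, θ, h1, h2, h4⟩ := exceptional_ti (W₁ ⊔ W₂) S hTI n hn (fun i => linFn ((en i).1 * ψ.1))
      (fun i => linFn_isIrr _) (fun i j h => by
        have := linFn_injective h
        exact en.injective (Subtype.ext (I (en i).2 (en j).2 ψ.2 ψ.2 this).1))
      (fun i j x hx => by
        have hx2 : (x : L) ∈ W₂ := by
          by_contra h; exact hx ⟨x.2, h⟩
        rw [linFn_apply, linFn_apply, MonoidHom.mul_apply, MonoidHom.mul_apply, (en i).2 x hx2, (en j).2 x hx2])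
      (fun i j => by rw [linFn_apply_one, linFn_apply_one])
    refine ⟨ε, hε, fun i => θ (en.symm i), fun i => h1 _, fun i j h => en.symm.injective (h2 h), fun i j => ?_⟩
    have := h4 (en.symm i) (en.symm j)
    simpa using this
  choose ε hε θ hθi hθinj hθ using hexc
  -- components
  let c1 : (↥(W₁ ⊔ W₂) →* ℂˣ) → K1 W₁ W₂ := fun ω => ⟨Classical.choose (K_surj hd hc ω), (Classical.choose_spec (K_surj hd hc ω)).1⟩
  let c2 : (↥(W₁ ⊔ W₂) →* ℂˣ) → K2 W₁ W₂ := fun ω => ⟨Classical.choose (Classical.choose_spec (K_surj hd hc ω)).2, (Classical.choose_spec (Classical.choose_spec (K_surj hd hc ω)).2).1⟩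
  have hc12 : ∀ ω, ω = (c1 ω).1 * (c2 ω).1 := fun ω => (Classical.choose_spec (Classical.choose_spec (K_surj hd hc ω)).2).2
  have hcu : ∀ (φ : K1 W₁ W₂) (ψ : K2 W₁ W₂), c1 (φ.1 * ψ.1) = φ ∧ c2 (φ.1 * ψ.1) = ψ := by
    intro φ ψ
    obtain ⟨e1, e2⟩ := I (c1 (φ.1 * ψ.1)).2 φ.2 (c2 (φ.1 * ψ.1)).2 ψ.2 (hc12 _).symm
    exact ⟨Subtype.ext e1, Subtype.ext e2⟩
  -- orthogonality between different ψ
  have hcross : ∀ (ψ ψ' : K2 W₁ W₂), ψ ≠ ψ' → ∀ φ φ' : K1 W₁ W₂, θ ψ φ ≠ θ ψ' φ' := by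
    intro ψ ψ' hne φ φ' heq
    have h3' : 3 ≤ Nat.card (K1 W₁ W₂) := by rw [hc1]; exact h3
    obtain ⟨φ₁, hφ₁⟩ : ∃ φ₁ : K1 W₁ W₂, φ₁ ≠ φ := by
      haveI : Nontrivial (K1 W₁ W₂) := Finite.one_lt_card_iff_nontrivial.mp (by omega)
      exact exists_ne φ
    obtain ⟨φ₂, hφ₂⟩ : ∃ φ₂ : K1 W₁ W₂, φ₂ ≠ φ' := by
      haveI : Nontrivial (K1 W₁ W₂) := Finite.one_lt_card_iff_nontrivial.mp (by omega)
      exact exists_ne φ'
    have hz : classInner (indFun (W₁ ⊔ W₂) (linFn (φ.1 * ψ.1) - linFn (φ₁.1 * ψ.1)))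
        (indFun (W₁ ⊔ W₂) (linFn (φ'.1 * ψ'.1) - linFn (φ₂.1 * ψ'.1))) = 0 := by
      have hv : ∀ (a b : K1 W₁ W₂) (p : K2 W₁ W₂) (x : ↥(W₁ ⊔ W₂)), (x : L) ∉ S → (linFn (a.1 * p.1) - linFn (b.1 * p.1)) x = 0 := by
        intro a b p x hx
        have hx2 : (x : L) ∈ W₂ := by
          by_contra h; exact hx ⟨x.2, h⟩
        rw [Pi.sub_apply, linFn_apply, linFn_apply, MonoidHom.mul_apply, MonoidHom.mul_apply, a.2 x hx2, b.2 x hx2, sub_self]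
      rw [ti_inner (W₁ ⊔ W₂) S hTI
        (classFn_sub (isChar_classFn (linFn_isChar _)) (isChar_classFn (linFn_isChar _)))
        (fun x hx => by
          rcases hx with hx | hx
          · exact hv _ _ _ _ hx
          · rw [hx, Pi.sub_apply, linFn_apply_one, linFn_apply_one, sub_self]) (fun x hx => hv _ _ _ _ hx)]
      rw [classInner_sub_left, classInner_sub_right, classInner_sub_right, linFn_inner, linFn_inner, linFn_inner, linFn_inner,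
        if_neg (fun h => hne (Subtype.ext (I φ.2 φ'.2 ψ.2 ψ'.2 h).2)), if_neg (fun h => hne (Subtype.ext (I φ.2 φ₂.2 ψ.2 ψ'.2 h).2)),
        if_neg (fun h => hne (Subtype.ext (I φ₁.2 φ'.2 ψ.2 ψ'.2 h).2)), if_neg (fun h => hne (Subtype.ext (I φ₁.2 φ₂.2 ψ.2 ψ'.2 h).2))]
      ring
    rw [indFun_sub, indFun_sub, hθ, hθ, classInner_smul_left, classInner_smul_right] at hz
    have he : ε ψ ≠ 0 := by rcases hε ψ with h | h <;> rw [h] <;> norm_num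
    have he' : conj (ε ψ') ≠ 0 := by rcases hε ψ' with h | h <;> rw [h] <;> simp
    have hz2 := (mul_eq_zero.mp ((mul_eq_zero.mp hz).resolve_left he)).resolve_left he'
    rw [classInner_sub_left, classInner_sub_right, classInner_sub_right, irr_inner (hθi _ _) (hθi _ _),
      irr_inner (hθi _ _) (hθi _ _), irr_inner (hθi _ _) (hθi _ _), irr_inner (hθi _ _) (hθi _ _), if_pos heq,
      if_neg (show θ ψ φ ≠ θ ψ' φ₂ by rw [heq]; exact fun h => hφ₂ (hθinj ψ' h).symm),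
      if_neg (show θ ψ φ₁ ≠ θ ψ' φ' by rw [← heq]; exact fun h => hφ₁ (hθinj ψ h))] at hz2
    split_ifs at hz2 <;> norm_num at hz2
  have hinj : Function.Injective (fun ω : ↥(W₁ ⊔ W₂) →* ℂˣ => θ (c2 ω) (c1 ω)) := by
    intro ω ω' h
    simp only at h
    by_cases h2 : c2 ω = c2 ω'
    · rw [← h2] at h
      have := hθinj _ h
      rw [hc12 ω, hc12 ω', this, h2]
    · exact absurd h (hcross _ _ h2 _ _)
  -- the value formula
  have hval : ∀ f : L → ℂ, IsClassFunction L f → ∀ w : ↥(W₁ ⊔ W₂), (w : L) ∉ W₂ →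
      f w = ∑ ψ : K2 W₁ W₂, ∑ φ : K1 W₁ W₂, ε ψ * classInner f (θ ψ φ) * (((φ.1 * ψ.1) w : ℂˣ) : ℂ) := by
    intro f hf w hw
    have hsum : ∑ φ : K1 W₁ W₂, ((φ.1 w : ℂˣ) : ℂ) = 0 := by
      obtain ⟨φ₀, h0, h1⟩ := sep1 hd hc (W1_comm hW) hw
      exact sum_sub_zero _ h0 h1
    have hfull : f w = ∑ ψ : K2 W₁ W₂, ∑ φ : K1 W₁ W₂, classInner (fun x : ↥(W₁ ⊔ W₂) => f x) (linFn (φ.1 * ψ.1)) * (((φ.1 * ψ.1) w : ℂˣ) : ℂ) := by
      have hcl : IsClassFunction ↥(W₁ ⊔ W₂) (fun x : ↥(W₁ ⊔ W₂) => f x) := fun g h => hf g h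
      have h1 := congrFun (classFn_expand _ hcl) w
      rw [h1, Finset.sum_apply]
      rw [← Fintype.sum_prod_type']
      refine (Fintype.sum_equiv (Equiv.ofBijective (fun p : K2 W₁ W₂ × K1 W₁ W₂ => (⟨linFn (p.2.1 * p.1.1), linFn_isIrr _⟩ : IrrCharacter ↥(W₁ ⊔ W₂))) ⟨by
          rintro ⟨a, b⟩ ⟨a', b'⟩ h
          have h2 := linFn_injective (show linFn (b.1 * a.1) = linFn (b'.1 * a'.1) from congrArg Subtype.val h)
          obtain ⟨e1, e2⟩ := I b.2 b'.2 a.2 a'.2 h2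
          exact Prod.ext (Subtype.ext e2) (Subtype.ext e1), by
          rintro ⟨χ, hχ⟩
          obtain ⟨l, rfl⟩ := irr_lin_of_comm (W_comm hW) hχ
          refine ⟨(c2 l, c1 l), Subtype.ext ?_⟩
          show linFn ((c1 l).1 * (c2 l).1) = linFn l
          rw [← hc12]⟩) _ _ fun p => ?_).symm
      rfl
    rw [hfull]
    refine Finset.sum_congr rfl fun ψ _ => ?_
    have hrec : ∀ φ : K1 W₁ W₂, classInner (fun x : ↥(W₁ ⊔ W₂) => f x) (linFn (φ.1 * ψ.1)) =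
        ε ψ * classInner f (θ ψ φ) + (classInner (fun x : ↥(W₁ ⊔ W₂) => f x) (linFn (1 * ψ.1)) - ε ψ * classInner f (θ ψ 1)) := by
      intro φ
      have h1 : classInner f (indFun (W₁ ⊔ W₂) (linFn (φ.1 * ψ.1) - linFn (1 * ψ.1))) =
          classInner (fun x : ↥(W₁ ⊔ W₂) => f x) (linFn (φ.1 * ψ.1) - linFn (1 * ψ.1)) := by
        rw [← classInner_conj_symm, reciprocity _ _ _ hf, classInner_conj_symm]
      have h2 := hθ ψ φ 1
      rw [indFun_sub] at h1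
      have h2' : indFun (W₁ ⊔ W₂) (linFn (φ.1 * ψ.1)) - indFun (W₁ ⊔ W₂) (linFn (1 * ψ.1)) = ε ψ • (θ ψ φ - θ ψ 1) := h2
      rw [h2', classInner_smul_right, classInner_sub_right, classInner_sub_right] at h1
      have he : conj (ε ψ) = ε ψ := by rcases hε ψ with h | h <;> rw [h] <;> simp
      rw [he] at h1
      linear_combination -h1
    have hm : ∀ φ : K1 W₁ W₂, (((φ.1 * ψ.1) w : ℂˣ) : ℂ) = ((φ.1 w : ℂˣ) : ℂ) * ((ψ.1 w : ℂˣ) : ℂ) := fun φ => by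
      rw [MonoidHom.mul_apply, Units.val_mul]
    rw [Finset.sum_congr rfl fun φ _ => by rw [hrec φ, add_mul], Finset.sum_add_distrib]
    have hz : ∑ φ : K1 W₁ W₂, (classInner (fun x : ↥(W₁ ⊔ W₂) => f x) (linFn (1 * ψ.1)) - ε ψ * classInner f (θ ψ 1)) * (((φ.1 * ψ.1) w : ℂˣ) : ℂ) = 0 := by
      rw [← Finset.mul_sum, Finset.sum_congr rfl fun φ _ => hm φ, ← Finset.sum_mul, hsum, zero_mul, mul_zero]
    rw [hz, add_zero]
  have hvalμ : ∀ ω, ∀ w : ↥(W₁ ⊔ W₂), (w : L) ∉ W₂ → θ (c2 ω) (c1 ω) w = ε (c2 ω) * (ω w : ℂ) := by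
    intro ω w hw
    rw [hval _ (isChar_classFn (isChar_of_irr (hθi _ _))) w hw, Finset.sum_eq_single (c2 ω), Finset.sum_eq_single (c1 ω)]
    · rw [irr_inner_self (hθi _ _), mul_one, ← hc12]
    · intro φ _ hφ
      rw [irr_inner_ne (hθi _ _) (hθi _ _) (fun h => hφ (hθinj _ h).symm)]; ring
    · intro h; exact absurd (Finset.mem_univ _) h
    · intro ψ _ hψ
      refine Finset.sum_eq_zero fun φ _ => ?_
      rw [irr_inner_ne (hθi _ _) (hθi _ _) (hcross _ _ (Ne.symm hψ) _ _)]; ring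
    · intro h; exact absurd (Finset.mem_univ _) h
  refine ⟨fun ω => θ (c2 ω) (c1 ω), fun ω => ε (c2 ω), hinj, fun ω => hθi _ _, fun ω => hε _, ?_, hvalμ, ?_, ?_⟩
  · intro ω ω' hag
    have h2 : c2 ω = c2 ω' := by
      have hk : (c2 ω').1⁻¹ * (c2 ω).1 ∈ K1 W₁ W₂ := by
        intro w hw
        have h1 := hag w hw
        rw [hc12 ω, hc12 ω', MonoidHom.mul_apply, MonoidHom.mul_apply, (c1 ω).2 w hw, (c1 ω').2 w hw, one_mul, one_mul] at h1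
        rw [MonoidHom.mul_apply, MonoidHom.inv_apply, h1, inv_mul_cancel]
      have := K_inf hd hc hk ((K2 W₁ W₂).mul_mem ((K2 W₁ W₂).inv_mem (c2 ω').2) (c2 ω).2)
      exact Subtype.ext (inv_mul_eq_one.mp this).symm
    refine ⟨by simp only [h2], ?_⟩
    have h3 := hθ (c2 ω) (c1 ω) (c1 ω')
    have e1 : linFn ((c1 ω).1 * (c2 ω).1) = linFn ω := by rw [← hc12]
    have e2 : linFn ((c1 ω').1 * (c2 ω).1) = linFn ω' := by rw [h2, ← hc12]
    rw [e1, e2, ← indFun_sub] at h3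
    simp only
    rw [← h2, ← h3]
    rfl
  · intro f hf hne w hw
    rw [hval f (isChar_classFn (isChar_of_irr hf)) w hw]
    refine Finset.sum_eq_zero fun ψ _ => Finset.sum_eq_zero fun φ _ => ?_
    have : f ≠ θ ψ φ := by
      have := hne (φ.1 * ψ.1)
      simp only at this
      rwa [(hcu φ ψ).1, (hcu φ ψ).2] at this
    rw [irr_inner_ne hf (hθi _ _) this]; ring
  · intro ω
    simp only
    -- restriction to W₁
    set μ := θ (c2 ω) (c1 ω) with hμ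
    have hμi : IsIrrCharacter L μ := hθi _ _
    obtain ⟨l, hl⟩ : ∃ l : W₁ →* ℂˣ, l = ω.comp (i1 W₁ W₂) := ⟨_, rfl⟩
    have hgen : ∃ m : ℤ, ε (c2 ω) = m := by
      rcases hε (c2 ω) with h | h
      · exact ⟨1, by rw [h]; simp⟩
      · exact ⟨-1, by rw [h]; simp⟩
    obtain ⟨m, hm⟩ := hgen
    have hg : IsGeneralizedCharacter W₁ ((fun x : W₁ => μ x) - (m : ℂ) • linFn l) :=
      gen_sub (gen_of_char (isChar_res W₁ (isChar_of_irr hμi))) (gen_zsmul m (gen_of_char (linFn_isChar l)))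
    have hv : ∀ x : W₁, x ≠ 1 → ((fun x : W₁ => μ x) - (m : ℂ) • linFn l) x = 0 := by
      intro x hx
      have hx2 : ((i1 W₁ W₂ x : ↥(W₁ ⊔ W₂)) : L) ∉ W₂ := by
        intro h
        have : (x : L) ∈ W₁ ⊓ W₂ := ⟨x.2, h⟩
        rw [hd, Subgroup.mem_bot] at this
        exact hx (Subtype.ext this)
      have h1 := hvalμ ω (i1 W₁ W₂ x) hx2
      have h1' : μ (x : L) = ε (c2 ω) * (ω (i1 W₁ W₂ x) : ℂ) := h1
      rw [Pi.sub_apply, Pi.smul_apply, smul_eq_mul, linFn_apply, h1', hm, hl]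
      simp
    obtain ⟨n, hn'⟩ := gen_inner_int hg (gen_of_irr (isIrr_trivial (G := W₁)))
    refine ⟨n, ?_⟩
    rw [← hn', classInner_def, Finset.sum_eq_single (1 : W₁)]
    · rw [Pi.sub_apply, Pi.smul_apply, smul_eq_mul, linFn_apply_one, hm, map_one, mul_one, mul_one]
      have : (Nat.card W₁ : ℂ) ≠ 0 := card_ne_zero'
      field_simp
      simp
    · intro x _ hx; rw [hv x hx, zero_mul]
    · intro h; exact absurd (Finset.mem_univ _) h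

end

end Cfsg.Agent.Lib.OddPB
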