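import Cfsg.Agent.Lib.OddFeit
import Cfsg.Agent.Lib.CharTI

set_option autoImplicit false

namespace Cfsg.Agent.Lib.OddTIChar

open Cfsg Cfsg.Agent.Lib.CharBasic Cfsg.Agent.Lib.CharInd Cfsg.Agent.Lib.CharExc Cfsg.Agent.Lib.OddSgn Cfsg.Agent.Lib.CharLin
open Cfsg.Agent.Lib.OddCoh Cfsg.Agent.Lib.OddCohB Cfsg.Agent.Lib.OddCohC Cfsg.Agent.Lib.OddCohD Cfsg.Agent.Lib.OddCohE
open Cfsg.Agent.Lib.OddCohF Cfsg.Agent.Lib.OddSib Cfsg.Agent.Lib.OddTIFN Cfsg.Agent.Lib.OddFeit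
open Cfsg.Agent.Lib.CharNormal Cfsg.Agent.Lib.CharMono Cfsg.Agent.Lib.OddZ
open scoped ComplexConjugate

noncomputable section

section const

variable {L : Type*} [Group L] [Fintype L] {K : Subgroup L} [hK : K.Normal]

/-- characters outside `S` have `K` in the kernel -/
theorem ker_of_not_mem (hfpf : ∀ g : L, g ∉ K → ∀ k ∈ K, g * k = k * g → k = 1) {χ : L → ℂ} (hχ : IsIrrCharacter L χ)
    (h : χ ∉ inducedIrrAbove K ⊥) : ∀ k ∈ K, χ k = χ 1 := by
  intro k hk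
  by_contra hne
  apply h
  rw [iia_eq hfpf]
  exact ⟨hχ, k, hk, hne⟩

theorem sum_out (hfpf : ∀ g : L, g ∉ K → ∀ k ∈ K, g * k = k * g → k = 1)
    [DecidablePred fun χ : IrrCharacter L => χ.1 ∈ inducedIrrAbove K ⊥] :
    ∑ χ : IrrCharacter L with ¬ χ.1 ∈ inducedIrrAbove K ⊥, (ideg χ : ℂ) ^ 2 = K.index := by
  classical
  haveI := Fintype.ofFinite K
  obtain ⟨T, hT⟩ : ∃ T : Finset (L → ℂ), (↑T : Set (L → ℂ)) = inducedIrrAbove K ⊥ :=
    ⟨(iia_finite (K := K) ⊥).toFinset, Set.Finite.coe_toFinset _⟩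
  have hmem : ∀ {φ}, φ ∈ T ↔ φ ∈ inducedIrrAbove K ⊥ := fun {φ} => by rw [← hT]; exact Iff.rfl
  have h1 : ∀ φ ∈ inducedIrrAbove K ⊥, ∃ d : ℕ, 0 < d ∧ φ 1 = d := fun φ hφ => isIrr_one_eq (iia_irr' hfpf hφ)
  choose! d hd using h1
  have hA := sum_formula (K := K) ⊥ (fun χ hχ φ hφ hne => irr_inner_ne (iia_irr' hfpf hχ) (iia_irr' hfpf hφ) hne)
    (n := fun _ => 1) (fun φ hφ => (hd φ hφ).2) (fun φ hφ => by rw [irr_inner_self (iia_irr' hfpf hφ)]; simp)
    (fun _ _ => one_pos) hT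
  rw [Subgroup.relIndex_bot_left] at hA
  have h2 : ∑ χ : IrrCharacter L with χ.1 ∈ inducedIrrAbove K ⊥, (ideg χ : ℝ) ^ 2 = K.index * ((Nat.card K : ℝ) - 1) := by
    rw [← hA]
    refine Finset.sum_bij (fun χ _ => χ.1) ?_ ?_ ?_ ?_
    · intro χ hχ
      exact hmem.mpr (Finset.mem_filter.mp hχ).2
    · intro χ _ ψ _ h
      exact Subtype.ext h
    · intro φ hφ
      exact ⟨⟨φ, iia_irr' hfpf (hmem.mp hφ)⟩, Finset.mem_filter.mpr ⟨Finset.mem_univ _, hmem.mp hφ⟩, rfl⟩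
    · intro χ hχ
      have h3 := (hd χ.1 (Finset.mem_filter.mp hχ).2).2
      rw [ideg_spec] at h3
      have : ideg χ = d χ.1 := by exact_mod_cast h3
      rw [this]; simp
  have h3 := Finset.sum_filter_add_sum_filter_not (Finset.univ : Finset (IrrCharacter L)) (fun χ => χ.1 ∈ inducedIrrAbove K ⊥)
    (fun χ => (ideg χ : ℝ) ^ 2)
  have h4 : ∑ χ : IrrCharacter L, (ideg χ : ℝ) ^ 2 = Nat.card L := by exact_mod_cast sum_ideg (K := L)
  rw [h2, h4, ← K.card_mul_index] at h3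
  have h5 : ∑ χ : IrrCharacter L with ¬ χ.1 ∈ inducedIrrAbove K ⊥, (ideg χ : ℝ) ^ 2 = K.index := by
    push_cast at h3
    linarith
  exact_mod_cast h5

/-- A class function whose multiplicities on `S` are proportional to the degrees is constant on `K#`. -/
theorem const_on (hfpf : ∀ g : L, g ∉ K → ∀ k ∈ K, g * k = k * g → k = 1)
    [DecidablePred fun χ : IrrCharacter L => χ.1 ∈ inducedIrrAbove K ⊥] {f : L → ℂ} (hf : IsClassFunction L f) {r : ℂ}
    (h : ∀ ξ ∈ inducedIrrAbove K ⊥, classInner f ξ = r * ξ 1) {k : L} (hk : k ∈ K) (hk1 : k ≠ 1) :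
    f k = ∑ χ : IrrCharacter L with ¬ χ.1 ∈ inducedIrrAbove K ⊥, classInner f χ.1 * ideg χ - r * K.index := by
  classical
  have h1 := congrFun (classFn_expand f hf) k
  rw [Finset.sum_apply] at h1
  rw [h1, ← Finset.sum_filter_add_sum_filter_not (Finset.univ : Finset (IrrCharacter L)) (fun χ => χ.1 ∈ inducedIrrAbove K ⊥)]
  have h2 : ∀ χ ∈ Finset.univ.filter (fun χ : IrrCharacter L => ¬ χ.1 ∈ inducedIrrAbove K ⊥), χ.1 k = ideg χ := by
    intro χ hχ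
    rw [ker_of_not_mem hfpf χ.2 (Finset.mem_filter.mp hχ).2 k hk, ideg_spec]
  have h3 : ∑ χ : IrrCharacter L with ¬ χ.1 ∈ inducedIrrAbove K ⊥, (classInner f χ.1 • χ.1) k =
      ∑ χ : IrrCharacter L with ¬ χ.1 ∈ inducedIrrAbove K ⊥, classInner f χ.1 * ideg χ := by
    refine Finset.sum_congr rfl fun χ hχ => ?_
    rw [Pi.smul_apply, smul_eq_mul, h2 χ hχ]
  have h4 : ∑ χ : IrrCharacter L with χ.1 ∈ inducedIrrAbove K ⊥, (classInner f χ.1 • χ.1) k =
      r * ∑ χ : IrrCharacter L with χ.1 ∈ inducedIrrAbove K ⊥, χ.1 k * χ.1 1 := by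
    rw [Finset.mul_sum]
    refine Finset.sum_congr rfl fun χ hχ => ?_
    rw [Pi.smul_apply, smul_eq_mul, h χ.1 (Finset.mem_filter.mp hχ).2]
    ring
  have h5 : ∑ χ : IrrCharacter L with χ.1 ∈ inducedIrrAbove K ⊥, χ.1 k * χ.1 1 = -(K.index : ℂ) := by
    have h6 := column_orth_one k
    rw [if_neg hk1, ← Finset.sum_filter_add_sum_filter_not (Finset.univ : Finset (IrrCharacter L))
      (fun χ => χ.1 ∈ inducedIrrAbove K ⊥)] at h6
    have h7 : ∑ χ : IrrCharacter L with ¬ χ.1 ∈ inducedIrrAbove K ⊥, χ.1 k * χ.1 1 = K.index := by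
      rw [← sum_out hfpf]
      refine Finset.sum_congr rfl fun χ hχ => ?_
      rw [h2 χ hχ, ideg_spec]; ring
    rw [h7] at h6
    exact eq_neg_of_add_eq_zero_left h6
  rw [h3, h4, h5]
  ring

/-- orthogonality to the members of `ℤ[S]` of degree zero -/
theorem prop_of_orth (hfpf : ∀ g : L, g ∉ K → ∀ k ∈ K, g * k = k * g → k = 1) {f : L → ℂ}
    (h : ∀ α ∈ zspanOn (inducedIrrAbove K ⊥) {1}ᶜ, classInner f α = 0) :
    ∃ r : ℂ, ∀ ξ ∈ inducedIrrAbove K ⊥, classInner f ξ = r * ξ 1 := by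
  by_cases hne : (inducedIrrAbove K (⊥ : Subgroup L)).Nonempty
  · obtain ⟨χ, hχ⟩ := hne
    have hχ1 := isIrr_one_ne_zero (iia_irr' hfpf hχ)
    refine ⟨classInner f χ / χ 1, fun ξ hξ => ?_⟩
    obtain ⟨a, -, ha⟩ := isIrr_one_eq (iia_irr' hfpf hχ)
    obtain ⟨b, -, hb⟩ := isIrr_one_eq (iia_irr' hfpf hξ)
    have h1 : (a : ℤ) • ξ - (b : ℤ) • χ ∈ zspanOn (inducedIrrAbove K ⊥) {1}ᶜ := by
      rw [mem_zon_one]
      refine ⟨(zsp _).sub_mem ((zsp _).smul_mem _ (subset_zspan _ hξ)) ((zsp _).smul_mem _ (subset_zspan _ hχ)), ?_⟩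
      rw [zs, zs, Pi.sub_apply, Pi.smul_apply, Pi.smul_apply, ha, hb, smul_eq_mul, smul_eq_mul]
      push_cast; ring
    have h2 := h _ h1
    rw [classInner_sub_right, inner_zsmul_right, inner_zsmul_right] at h2
    push_cast at h2
    rw [ha, hb]
    rw [ha] at hχ1
    field_simp
    linear_combination h2
  · exact ⟨0, fun ξ hξ => absurd ⟨ξ, hξ⟩ hne⟩

end const

section star

variable {G : Type*} [Group G] [Fintype G] {L : Subgroup G} [Fintype L] {K : Subgroup L} [hK : K.Normal]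

theorem star_zero {S : Set (L → ℂ)} {star : (L → ℂ) → (G → ℂ)}
    (hext : ∀ α ∈ zspanOn S ({1}ᶜ : Set L), star α = indFun L α) : ∀ α ∈ zspan S, α 1 = 0 → star α 1 = 0 := by
  intro α hα h1
  rw [hext α (mem_zon_one.mpr ⟨hα, h1⟩), indFun_one, h1, mul_zero]

/-- The characters `± χ⋆` are those not constant on the kernel. -/
theorem exceptional_iff (hfpf : ∀ g : L, g ∉ K → ∀ k ∈ K, g * k = k * g → k = 1)
    (htwo : ∃ χ ∈ inducedIrrAbove K ⊥, ∃ ξ ∈ inducedIrrAbove K ⊥, χ ≠ ξ) {star : (L → ℂ) → (G → ℂ)}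
    (hstar : IsLinearIsometryOn (zspan (inducedIrrAbove K ⊥)) star)
    (hext : ∀ α ∈ zspanOn (inducedIrrAbove K ⊥) ({1}ᶜ : Set L), star α = indFun L α) {ψ : G → ℂ} (hψ : IsIrrCharacter G ψ) :
    (∃ χ ∈ inducedIrrAbove K ⊥, ψ = star χ ∨ ψ = -star χ) ↔ ∃ a ∈ K, ∃ b ∈ K, a ≠ 1 ∧ b ≠ 1 ∧ ψ a ≠ ψ b := by
  classical
  have hirr : ∀ χ ∈ inducedIrrAbove K ⊥, IsIrrCharacter L χ := fun χ hχ => iia_irr' hfpf hχ
  have hψc := isChar_classFn (isChar_of_irr hψ)
  have hres : IsClassFunction L (fun x : L => ψ x) := isChar_classFn (isChar_res L (isChar_of_irr hψ))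
  obtain ⟨χ₀, hχ₀, ξ₀, hξ₀, hne₀⟩ := htwo
  constructor
  · rintro ⟨χ, hχ, hψχ⟩
    by_contra hcon
    push_neg at hcon
    obtain ⟨ξ, hξ, hne⟩ : ∃ ξ ∈ inducedIrrAbove K ⊥, ξ ≠ χ := by
      by_cases h : χ₀ = χ
      · exact ⟨ξ₀, hξ₀, fun e => hne₀ (h.trans e.symm)⟩
      · exact ⟨χ₀, hχ₀, h⟩
    obtain ⟨a, -, ha⟩ := isIrr_one_eq (hirr χ hχ)
    obtain ⟨b, hb0, hb⟩ := isIrr_one_eq (hirr ξ hξ)
    have hmem : (a : ℤ) • ξ - (b : ℤ) • χ ∈ zspanOn (inducedIrrAbove K ⊥) {1}ᶜ := by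
      rw [mem_zon_one]
      refine ⟨(zsp _).sub_mem ((zsp _).smul_mem _ (subset_zspan _ hξ)) ((zsp _).smul_mem _ (subset_zspan _ hχ)), ?_⟩
      rw [zs, zs, Pi.sub_apply, Pi.smul_apply, Pi.smul_apply, ha, hb, smul_eq_mul, smul_eq_mul]
      push_cast; ring
    obtain ⟨α, hα⟩ : ∃ α : L → ℂ, α = (a : ℤ) • ξ - (b : ℤ) • χ := ⟨_, rfl⟩
    rw [← hα] at hmem
    have h1 : classInner (star χ) (star α) = -(b : ℂ) := by
      rw [hstar.2.2.1 _ (subset_zspan _ hχ) _ hmem.1, hα, classInner_sub_right, inner_zsmul_right, inner_zsmul_right,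
        irr_inner_ne (hirr χ hχ) (hirr ξ hξ) (Ne.symm hne), irr_inner_self (hirr χ hχ)]
      push_cast; ring
    have h2 : classInner ψ (star α) ≠ 0 := by
      have hb0' : (b : ℂ) ≠ 0 := Nat.cast_ne_zero.mpr hb0.ne'
      rcases hψχ with h | h
      · rw [h, h1]; exact neg_ne_zero.mpr hb0'
      · rw [h, classInner_neg_left, h1, neg_neg]; exact hb0'
    apply h2
    rw [hext α hmem, reciprocity' L α ψ hψc]
    -- ψ is constant on K#
    have hv := (zspan_vanish hmem.1).2.2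
    have hα1 : α 1 = 0 := (mem_zon_one.mp hmem).2
    obtain ⟨c, hc⟩ : ∃ c : ℂ, ∀ x : L, ψ x * conj (α x) = c * conj (α x) := by
      by_cases hK1 : ∃ a ∈ K, a ≠ 1
      · obtain ⟨a, ha, ha1⟩ := hK1
        refine ⟨ψ a, fun x => ?_⟩
        by_cases hx : x ∈ K
        · by_cases hx1 : x = 1
          · rw [hx1, hα1]; simp
          · rw [hcon x hx a ha hx1 ha1]
        · rw [hv x hx]; simp
      · push_neg at hK1
        refine ⟨0, fun x => ?_⟩
        by_cases hx : x ∈ K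
        · rw [hK1 x hx, hα1]; simp
        · rw [hv x hx]; simp
    have h3 : classInner (fun x : L => ψ x) α = c * classInner (fun _ => 1) α := by
      rw [classInner_def, classInner_def]
      simp only [hc, one_mul, ← Finset.mul_sum]
      ring
    rw [h3]
    have h4 : classInner (fun _ => (1 : ℂ)) α = 0 := by
      have h1S : ∀ φ ∈ inducedIrrAbove K ⊥, classInner (fun _ => (1 : ℂ)) φ = 0 := by
        intro φ hφ
        refine irr_inner_ne isIrr_trivial (hirr φ hφ) ?_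
        rintro rfl
        rw [iia_eq hfpf] at hφ
        obtain ⟨-, z, -, hz⟩ := hφ
        exact hz rfl
      rw [hα, classInner_sub_right, inner_zsmul_right, inner_zsmul_right, h1S ξ hξ, h1S χ hχ]; simp
    rw [h4, mul_zero]
  · rintro ⟨a, ha, b, hb, ha1, hb1, hab⟩
    by_contra hcon
    push_neg at hcon
    have horth : ∀ χ ∈ inducedIrrAbove K ⊥, classInner ψ (star χ) = 0 := by
      intro χ hχ
      have h1 : SI (star χ) := SI.of_norm (hstar.2.2.2 _ (subset_zspan _ hχ))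
        (by rw [hstar.2.2.1 _ (subset_zspan _ hχ) _ (subset_zspan _ hχ), irr_inner_self (hirr χ hχ)])
      rcases h1 with h1 | h1
      · exact irr_inner_ne hψ h1 (hcon χ hχ).1
      · have h2 := irr_inner_ne hψ h1 (hcon χ hχ).2
        rw [classInner_neg_right, neg_eq_zero] at h2
        exact h2
    have horth' : ∀ α ∈ zspan (inducedIrrAbove K ⊥), classInner ψ (star α) = 0 := by
      intro α hα
      have hs' : IsLinearIsometryOn ((zsp (inducedIrrAbove K ⊥) : Submodule ℤ (L → ℂ)) : Set (L → ℂ)) star := hstar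
      refine zspan_induction (p := fun α => classInner ψ (star α) = 0) horth (by rw [iso_zero hs']; exact classInner_zero_right _) ?_ ?_ hα
      · intro x y hx hy h1 h2
        show classInner ψ (star (x + y)) = 0
        rw [hstar.1 x hx y hy, classInner_add_right, h1, h2, add_zero]
      · intro n x hx h1
        show classInner ψ (star (n • x)) = 0
        rw [hstar.2.1 x hx n, inner_zsmul_right, h1, mul_zero]
    obtain ⟨r, hr⟩ := prop_of_orth hfpf (f := fun x : L => ψ x) (fun α hα => by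
      rw [← reciprocity' L α ψ hψc, ← hext α hα]
      exact horth' α hα.1)
    apply hab
    rw [const_on hfpf hres hr ha ha1, const_on hfpf hres hr hb hb1]

end star
section restr

theorem gen_res' {G : Type*} [Group G] [Fintype G] (L : Subgroup G) [Fintype L] {a : G → ℂ} (ha : IsGeneralizedCharacter G a) :
    IsGeneralizedCharacter L (fun x : L => a x) := by
  obtain ⟨x, y, hx, hy, rfl⟩ := ha
  exact ⟨_, _, isChar_res L hx, isChar_res L hy, rfl⟩

variable {G : Type*} [Group G] [Fintype G] {L : Subgroup G} [Fintype L] {K : Subgroup L} [hK : K.Normal]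

theorem restriction_const (hfpf : ∀ g : L, g ∉ K → ∀ k ∈ K, g * k = k * g → k = 1) (hsolv : Group.IsSolvable K)
    {star : (L → ℂ) → (G → ℂ)} (hstar : IsLinearIsometryOn (zspan (inducedIrrAbove K ⊥)) star)
    (hext : ∀ α ∈ zspanOn (inducedIrrAbove K ⊥) ({1}ᶜ : Set L), star α = indFun L α)
    (hres : ∀ α : L → ℂ, IsClassFunction L α → (∀ x : L, x ∉ K → α x = 0) → α 1 = 0 → ∀ x : L, indFun L α x = α x) :
    ∃ m : ℤ, ∀ χ ∈ inducedIrrAbove K ⊥, ∀ k ∈ K, k ≠ 1 → star χ k - χ k = (m : ℂ) * χ 1 / (K.index : ℂ) := by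
  classical
  have hirr : ∀ χ ∈ inducedIrrAbove K ⊥, IsIrrCharacter L χ := fun χ hχ => iia_irr' hfpf hχ
  by_cases hK1 : K = ⊥
  · refine ⟨0, fun χ hχ k hk hk1 => ?_⟩
    rw [hK1, Subgroup.mem_bot] at hk
    exact absurd hk hk1
  have e0 : (K.index : ℂ) ≠ 0 := Nat.cast_ne_zero.mpr Subgroup.FiniteIndex.index_ne_zero
  have hbot : (⊥ : Subgroup L) < K := bot_lt_iff_ne_bot.mpr hK1
  obtain ⟨ξ₀, hξ₀, hξ₀d⟩ := exists_degree_e hsolv hbot
  have hgen : ∀ χ ∈ inducedIrrAbove K ⊥, IsGeneralizedCharacter G (star χ) := fun χ hχ => hstar.2.2.2 _ (subset_zspan _ hχ)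
  have hfgen : ∀ χ ∈ inducedIrrAbove K ⊥, IsGeneralizedCharacter L (fun x : L => star χ x - χ x) := fun χ hχ =>
    gen_sub (gen_res' L (hgen χ hχ)) (gen_of_irr (hirr χ hχ))
  have hr : ∀ χ ∈ inducedIrrAbove K ⊥, ∃ r : ℂ, ∀ ξ ∈ inducedIrrAbove K ⊥, classInner (fun x : L => star χ x - χ x) ξ = r * ξ 1 := by
    intro χ hχ
    refine prop_of_orth hfpf fun α hα => ?_
    have h1 : classInner (fun x : L => star χ x - χ x) α = classInner (fun x : L => star χ x) α - classInner χ α :=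
      classInner_sub_left _ _ _
    rw [h1, ← reciprocity' L α (star χ) (gen_classFn (hgen χ hχ)), ← hext α hα,
      hstar.2.2.1 _ (subset_zspan _ hχ) _ hα.1, sub_self]
  choose! r hr using hr
  have hc : ∀ χ ∈ inducedIrrAbove K ⊥, ∃ c : ℤ, ∀ k ∈ K, k ≠ 1 → star χ k - χ k = c := by
    intro χ hχ
    have hi : ∀ ξ : IrrCharacter L, ∃ n : ℤ, classInner (fun x : L => star χ x - χ x) ξ.1 = n := fun ξ =>
      gen_int_inner (hfgen χ hχ) ξ
    choose n hn using hi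
    obtain ⟨b, hb⟩ : ∃ b : ℤ, r χ * K.index = b := by
      refine ⟨n ⟨ξ₀, hirr ξ₀ hξ₀⟩, ?_⟩
      rw [← hn, hr χ hχ ξ₀ hξ₀, hξ₀d]
    refine ⟨∑ ξ : IrrCharacter L with ¬ ξ.1 ∈ inducedIrrAbove K ⊥, n ξ * ideg ξ - b, fun k hk hk1 => ?_⟩
    have h1 := const_on hfpf (gen_classFn (hfgen χ hχ)) (hr χ hχ) hk hk1
    rw [hb] at h1
    refine h1.trans ?_
    push_cast
    congr 1
    exact Finset.sum_congr rfl fun ξ _ => by rw [hn]
  choose! c hc using hc
  refine ⟨c ξ₀, fun χ hχ k hk hk1 => ?_⟩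
  rw [hc χ hχ k hk hk1]
  obtain ⟨a, -, ha⟩ := isIrr_one_eq (hirr χ hχ)
  have hmem : (a : ℤ) • ξ₀ - (K.index : ℤ) • χ ∈ zspanOn (inducedIrrAbove K ⊥) {1}ᶜ := by
    rw [mem_zon_one]
    refine ⟨(zsp _).sub_mem ((zsp _).smul_mem _ (subset_zspan _ hξ₀)) ((zsp _).smul_mem _ (subset_zspan _ hχ)), ?_⟩
    rw [zs, zs, Pi.sub_apply, Pi.smul_apply, Pi.smul_apply, ha, hξ₀d, smul_eq_mul, smul_eq_mul]
    push_cast; ring
  have hs' : IsLinearIsometryOn ((zsp (inducedIrrAbove K ⊥) : Submodule ℤ (L → ℂ)) : Set (L → ℂ)) star := hstar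
  have h1 : star ((a : ℤ) • ξ₀ - (K.index : ℤ) • χ) = (a : ℤ) • star ξ₀ - (K.index : ℤ) • star χ := by
    rw [iso_sub hs' ((zsp _).smul_mem _ (subset_zspan _ hξ₀)) ((zsp _).smul_mem _ (subset_zspan _ hχ)),
      hstar.2.1 _ (subset_zspan _ hξ₀), hstar.2.1 _ (subset_zspan _ hχ)]
  have hv := zspan_vanish hmem.1
  have h2 := hres _ hv.1 hv.2.2 (mem_zon_one.mp hmem).2 k
  rw [← hext _ hmem, h1, zs, zs, zs, zs] at h2
  simp only [Pi.sub_apply, Pi.smul_apply, smul_eq_mul] at h2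
  have h3 := hc χ hχ k hk hk1
  have h4 := hc ξ₀ hξ₀ k hk hk1
  rw [ha]
  field_simp
  push_cast at h2
  linear_combination (-1 : ℂ) * h2 + (a : ℂ) * h4 - (K.index : ℂ) * h3

end restr

end

end Cfsg.Agent.Lib.OddTIChar
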