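import Mathlib
import Cfsg.Agent.Lib.BForm4
import Cfsg.Agent.Lib.Herm3
import Cfsg.Agent.Lib.RCF11

/-! Elements of order three without fixed points in `Sp_{2m}(q)`, `q ≡ 2 mod 3`. -/

set_option linter.all false
set_option maxHeartbeats 400000

namespace Cfsg.Agent.Lib.BForm

open Cfsg.Agent.Lib.Symp Matrix Module Polynomial Cfsg.Agent.Lib.Herm

section O3

variable {F : Type*} [Field F] [Fintype F] {q m : ℕ}

theorem no_root (hF : Fintype.card F = q) (hq : q % 3 = 2) (a : F) : a ^ 2 + a + 1 ≠ 0 := by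
  intro h
  have h3 : a ^ 3 = 1 := by
    have : a ^ 3 - 1 = (a - 1) * (a ^ 2 + a + 1) := by ring
    rw [h, mul_zero, sub_eq_zero] at this
    exact this
  have ha0 : a ≠ 0 := by
    rintro rfl
    norm_num at h
  have h4 : a ^ q = a := by rw [← hF]; exact FiniteField.pow_card a
  have h5 : q = 3 * (q / 3) + 2 := by omega
  have h6 : a = 1 := by
    rw [h5, pow_add, pow_mul, h3, one_pow, one_mul, sq] at h4
    have h7 : a * a = a * 1 := by rw [mul_one]; exact h4
    exact mul_left_cancel₀ ha0 h7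
  rw [h6] at h
  have h7 : (3 : F) = 0 := by
    rw [← h]; norm_num
  -- characteristic three divides q
  obtain ⟨p, hp⟩ := CharP.exists F
  haveI := hp
  have hpp : p.Prime := CharP.char_is_prime F p
  haveI : Fact p.Prime := ⟨hpp⟩
  have h8 : p ∣ 3 := by
    rw [← CharP.cast_eq_zero_iff F p]
    exact_mod_cast h7
  have h9 : p = 3 := (Nat.prime_dvd_prime_iff_eq hpp Nat.prime_three).mp h8
  obtain ⟨e, he1, he⟩ := FiniteField.card F p
  rw [hF, h9] at he
  have h10 : 3 ∣ q := by rw [he]; exact dvd_pow_self 3 e.pos.ne'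
  omega

theorem irr3 (hF : Fintype.card F = q) (hq : q % 3 = 2) : Irreducible (X ^ 2 + X + 1 : F[X]) := by
  have hdeg : (X ^ 2 + X + 1 : F[X]).natDegree = 2 := by
    have : (X ^ 2 + X + 1 : F[X]) = X ^ 2 + (X + C 1) := by rw [C_1]; ring
    rw [this]
    rw [natDegree_add_eq_left_of_natDegree_lt]
    · exact natDegree_X_pow 2
    · rw [natDegree_X_pow, natDegree_X_add_C]; norm_num
  apply Polynomial.irreducible_of_degree_le_three_of_not_isRoot
  · rw [hdeg]; decide
  · intro a ha
    apply no_root hF hq a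
    simpa using ha

theorem natDegree3 : (X ^ 2 + X + 1 : F[X]).natDegree = 2 := by
  have : (X ^ 2 + X + 1 : F[X]) = X ^ 2 + (X + C 1) := by rw [C_1]; ring
  rw [this]
  rw [natDegree_add_eq_left_of_natDegree_lt]
  · exact natDegree_X_pow 2
  · rw [natDegree_X_pow, natDegree_X_add_C]; norm_num

variable {V : Type*} [AddCommGroup V] [Module F V] [FiniteDimensional F V]

theorem card_cent3_aux (hF : Fintype.card F = q) (hq : q % 3 = 2) (hfrV : finrank F V = 2 * m) {f : LinearMap.BilinForm F V}
    (hfnd : f.Nondegenerate) (hfalt : ∀ u v, f v u = - f u v) {T : V →ₗ[F] V} (hfT : ∀ u v, f (T u) (T v) = f u v)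
    (hTT : ∀ v, T (T v) + T v + v = 0) :
    Nat.card {g : V ≃ₗ[F] V // (∀ u v, f (g u) (g v) = f u v) ∧ ∀ v, g (T v) = T (g v)} = ∏ i ∈ Finset.range m, Nn q (m - i) := by
  classical
  set π : F[X] := X ^ 2 + X + 1 with hπd
  have hπ : Irreducible π := irr3 hF hq
  have hdeg : π.natDegree = 2 := natDegree3
  haveI : Fact (Irreducible π) := ⟨hπ⟩
  haveI : Module.Finite F (AdjoinRoot π) := (AdjoinRoot.powerBasis hπ.ne_zero).finite
  haveI : Finite (AdjoinRoot π) := Module.finite_of_finite F
  letI := Fintype.ofFinite (AdjoinRoot π)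
  have hKcard : Fintype.card (AdjoinRoot π) = q ^ 2 := by
    rw [← Nat.card_eq_fintype_card, RCF.card_adjoin hπ, Nat.card_eq_fintype_card, hF, hdeg]
  have hT2 : ∀ u, T (T u) = -(T u) - u := by
    intro u
    have := hTT u
    have h2 : T (T u) = (T (T u) + T u + u) - T u - u := by abel
    rw [h2, this]; abel
  have hT3 : ∀ u, T (T (T u)) = u := by
    intro u
    rw [hT2 (T u), hT2 u]
    abel
  have hTpol : aeval T π = 0 := by
    apply LinearMap.ext
    intro v
    rw [hπd, map_add, map_add, map_pow, aeval_X, map_one]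
    exact hTT v
  let φ : AdjoinRoot π →+* Module.End F V :=
    Ideal.Quotient.lift (Ideal.span {π}) (aeval T : F[X] →ₐ[F] Module.End F V).toRingHom (by
      intro a ha
      obtain ⟨c, rfl⟩ := Ideal.mem_span_singleton'.mp ha
      show aeval T (c * π) = 0
      rw [map_mul, hTpol, mul_zero])
  letI : Module (AdjoinRoot π) V := Module.compHom V φ
  have hsm : ∀ (f : F[X]) (x : V), (AdjoinRoot.mk π f) • x = aeval T f x := fun f x => rfl
  haveI : IsScalarTower F (AdjoinRoot π) V := by
    constructor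
    intro a k x
    obtain ⟨f, rfl⟩ := AdjoinRoot.mk_surjective k
    have h1 : a • AdjoinRoot.mk π f = AdjoinRoot.mk π (C a * f) := by
      rw [map_mul, AdjoinRoot.mk_C, Algebra.smul_def]
      rfl
    rw [h1, hsm, hsm, map_mul, aeval_C, Module.End.mul_apply]
    rfl
  haveI : FiniteDimensional (AdjoinRoot π) V := Module.Finite.of_restrictScalars_finite F _ _
  have hfr : Module.finrank (AdjoinRoot π) V = m := by
    have h2 := Module.finrank_mul_finrank F (AdjoinRoot π) V
    rw [(AdjoinRoot.powerBasis hπ.ne_zero).finrank, AdjoinRoot.powerBasis_dim, hdeg, hfrV] at h2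
    omega
  obtain ⟨σ, hσ, hσq⟩ := Herm.exists_sigma hKcard
  obtain ⟨hs1, hs2, hs3⟩ := sigma_facts hσ
  set ω : AdjoinRoot π := AdjoinRoot.root π with hω
  have hω1 : ω ^ 2 + ω + 1 = 0 := by
    have h1 := AdjoinRoot.eval₂_root π
    rw [hπd] at h1
    simpa using h1
  have hω3 : ω ^ 3 = 1 := by
    have : ω ^ 3 - 1 = (ω - 1) * (ω ^ 2 + ω + 1) := by ring
    rw [hω1, mul_zero, sub_eq_zero] at this
    exact this
  have hσω : σ ω = ω ^ 2 := by
    rw [hσq]
    have h5 : q = 3 * (q / 3) + 2 := by omega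
    rw [h5, pow_add, pow_mul, hω3, one_pow, one_mul]
  have hσF : ∀ a : F, σ (AdjoinRoot.of π a) = AdjoinRoot.of π a := by
    intro a
    rw [hσq, ← map_pow, ← hF, FiniteField.pow_card]
  have hωv : ∀ v : V, ω • v = T v := by
    intro v
    have h1 : ω = AdjoinRoot.mk π X := AdjoinRoot.mk_X.symm
    rw [h1, hsm, aeval_X]
  have hofv : ∀ (a : F) (v : V), (AdjoinRoot.of π a) • v = a • v := by
    intro a v
    rw [← AdjoinRoot.mk_C, hsm, aeval_C]
    rfl
  set ι := AdjoinRoot.of π with hι
  -- the sesquilinear form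
  let h : V → V → AdjoinRoot π := fun u v => ω ^ 2 * ι (f u v) - ι (f (T u) v)
  have hadd : ∀ u u' v, h (u + u') v = h u v + h u' v := by
    intro u u' v
    show ω ^ 2 * ι (f (u + u') v) - ι (f (T (u + u')) v) = (ω ^ 2 * ι (f u v) - ι (f (T u) v)) + (ω ^ 2 * ι (f u' v) - ι (f (T u') v))
    rw [map_add T, map_add f, map_add f, LinearMap.add_apply, LinearMap.add_apply, map_add ι, map_add ι]
    ring
  have hF' : ∀ (a : F) u v, h (a • u) v = ι a * h u v := by
    intro a u v
    show ω ^ 2 * ι (f (a • u) v) - ι (f (T (a • u)) v) = ι a * (ω ^ 2 * ι (f u v) - ι (f (T u) v))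
    rw [map_smul T, map_smul f, map_smul f, LinearMap.smul_apply, LinearMap.smul_apply, smul_eq_mul, smul_eq_mul, map_mul, map_mul]
    ring
  have hTh : ∀ u v, h (T u) v = ω * h u v := by
    intro u v
    show ω ^ 2 * ι (f (T u) v) - ι (f (T (T u)) v) = ω * (ω ^ 2 * ι (f u v) - ι (f (T u) v))
    rw [hT2, map_sub, map_neg, LinearMap.sub_apply, LinearMap.neg_apply, map_sub, map_neg]
    linear_combination (ι (f (T u) v)) * hω1 - (ι (f u v)) * hω3
  have hsmul : ∀ (a : AdjoinRoot π) u v, h (a • u) v = a * h u v := by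
    intro a u v
    obtain ⟨g, rfl⟩ := AdjoinRoot.mk_surjective a
    induction g using Polynomial.induction_on' generalizing u with
    | add a b ha hb => rw [map_add, add_smul, hadd, ha, hb, add_mul]
    | monomial n a =>
      rw [← C_mul_X_pow_eq_monomial, map_mul, AdjoinRoot.mk_C, map_pow, AdjoinRoot.mk_X, mul_smul, hofv, hF']
      have h1 : ∀ k : ℕ, ∀ u, h (ω ^ k • u) v = ω ^ k * h u v := by
        intro k
        induction k with
        | zero => intro u; rw [pow_zero, one_smul, one_mul]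
        | succ k ih =>
          intro u
          rw [pow_succ, mul_smul, ih, hωv, hTh, mul_assoc]
      rw [h1, mul_assoc]
  have hTinv : ∀ u v, f u (T v) = - f u v - f (T u) v := by
    intro u v
    have h2 : f u (T v) = f (T (T u)) v := by
      rw [← hfT u (T v), ← hfT (T u) (T (T v)), hT3]
    rw [h2, hT2, map_sub, map_neg, LinearMap.sub_apply, LinearMap.neg_apply]
    ring
  have h4 : (ω ^ 2) ^ 2 = ω := by rw [← pow_mul, show 2 * 2 = 3 + 1 from rfl, pow_add, hω3, one_mul, pow_one]
  have hsymm : ∀ u v, h v u = σ (h u v) := by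
    intro u v
    show ω ^ 2 * ι (f v u) - ι (f (T v) u) = σ (ω ^ 2 * ι (f u v) - ι (f (T u) v))
    rw [map_sub, map_mul, map_pow, hσF, hσF, hσω, hfalt u v, hfalt u (T v), hTinv, map_neg, map_neg, map_sub, map_neg, h4]
    linear_combination (-(ι (f u v))) * hω1
  let B : HF σ V := ⟨h, hadd, hsmul, hsymm⟩
  have hBh : ∀ u v, B.h u v = ω ^ 2 * ι (f u v) - ι (f (T u) v) := fun u v => rfl
  have hcoef : ∀ a b : F, ω ^ 2 * ι a = ι b → a = 0 ∧ b = 0 := by
    intro a b hab
    have h1 := congrArg σ hab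
    rw [map_mul, map_pow, hσω, hσF, hσF, h4, ← hab] at h1
    have hne : ω ≠ ω ^ 2 := by
      intro h5
      have hω0 : ω ≠ 0 := by
        intro h0
        rw [h0] at hω3
        norm_num at hω3
      have h7 : ω = 1 := by
        have h8 : ω * ω = ω * 1 := by rw [mul_one, ← sq]; exact h5.symm
        exact mul_left_cancel₀ hω0 h8
      rw [h7] at hω1
      apply no_root hF hq (1 : F)
      apply (AdjoinRoot.of π).injective
      rw [map_add, map_add, map_pow, map_one, map_zero]
      exact hω1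
    have h5 : ι a = 0 := by
      by_contra h0
      exact hne (mul_right_cancel₀ h0 h1)
    have ha : a = 0 := (AdjoinRoot.of π).injective (by rw [h5, map_zero])
    refine ⟨ha, ?_⟩
    rw [ha, map_zero, mul_zero] at hab
    exact (AdjoinRoot.of π).injective (by rw [← hab, map_zero])
  have hND : B.ND := by
    intro u hu
    apply hfnd.1
    intro v
    have h1 := hu v
    rw [hBh, sub_eq_zero] at h1
    exact (hcoef _ _ h1).1
  have hcard := hND.card_iso hKcard hσ hσq hfr
  rw [← hcard]
  apply Nat.card_congr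
  have hglin : ∀ g : V ≃ₗ[F] V, (∀ v, g (T v) = T (g v)) → ∀ (a : AdjoinRoot π) (v : V), g (a • v) = a • g v := by
    intro g hgc a v
    obtain ⟨p, rfl⟩ := AdjoinRoot.mk_surjective a
    rw [hsm, hsm]
    exact RCF.aeval_conj g hgc p v
  let mkK : {g : V ≃ₗ[F] V // (∀ u v, f (g u) (g v) = f u v) ∧ ∀ v, g (T v) = T (g v)} → (V ≃ₗ[AdjoinRoot π] V) := fun g =>
    { toFun := g.1
      map_add' := map_add g.1
      map_smul' := hglin g.1 g.2.2
      invFun := g.1.symm
      left_inv := g.1.left_inv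
      right_inv := g.1.right_inv }
  exact
    { toFun := fun g => ⟨mkK g, by
        intro u v
        rw [hBh, hBh]
        show ω ^ 2 * ι (f (g.1 u) (g.1 v)) - ι (f (T (g.1 u)) (g.1 v)) = _
        rw [← g.2.2, g.2.1, g.2.1]⟩
      invFun := fun k => ⟨k.1.restrictScalars F, by
        intro u v
        have h1 := k.2 u v
        rw [hBh, hBh] at h1
        have h2 : ω ^ 2 * ι (f (k.1 u) (k.1 v) - f u v) = ι (f (T (k.1 u)) (k.1 v) - f (T u) v) := by
          rw [map_sub, map_sub]
          linear_combination h1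
        exact sub_eq_zero.mp (hcoef _ _ h2).1, by
        intro v
        show k.1 (T v) = T (k.1 v)
        rw [← hωv, ← hωv, map_smul]⟩
      left_inv := fun g => rfl
      right_inv := fun k => rfl }

theorem card_cent3 (hF : Fintype.card F = q) (hq : q % 3 = 2) (x : Matrix.symplecticGroup (Fin m) F) (hx3 : x ^ 3 = 1)
    (hfpf : IsUnit ((x : Matrix (Fin m ⊕ Fin m) (Fin m ⊕ Fin m) F) - 1)) :
    Nat.card ↥(Subgroup.centralizer ({x} : Set ↥(Matrix.symplecticGroup (Fin m) F))) = ∏ i ∈ Finset.range m, Nn q (m - i) := by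
  classical
  have hTT : ∀ v, spE m F x (spE m F x v) + spE m F x v + v = 0 := by
    intro v
    have h1 : spE m F x (spE m F x (spE m F x v)) = v := by
      have : (spE m F x) ^ 3 = 1 := by rw [← map_pow, hx3, map_one]
      exact LinearMap.congr_fun this v
    have h2 : ((x : Matrix (Fin m ⊕ Fin m) (Fin m ⊕ Fin m) F) - 1) *ᵥ (spE m F x (spE m F x v) + spE m F x v + v) = 0 := by
      rw [Matrix.sub_mulVec, Matrix.one_mulVec, ← spE_apply x, map_add, map_add, h1]
      abel
    obtain ⟨U, hU⟩ := hfpf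
    have h3 := congrArg (fun z => ((U⁻¹ : (Matrix (Fin m ⊕ Fin m) (Fin m ⊕ Fin m) F)ˣ) : Matrix (Fin m ⊕ Fin m) (Fin m ⊕ Fin m) F) *ᵥ z) h2
    rw [← hU] at h3
    simp only [Matrix.mulVec_mulVec, Units.inv_mul, Matrix.one_mulVec, Matrix.mulVec_zero] at h3
    exact h3
  rw [← card_cent3_aux (V := Fin m ⊕ Fin m → F) hF hq (by rw [Module.finrank_fintype_fun_eq_card, Fintype.card_sum, Fintype.card_fin]; ring)
    (sympBilin_nondegenerate (m := m) (F := F)) (fun u v => Alt.alt_swap sympBilin_isAlt v u) (spE_form x) hTT]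
  have hmem : ∀ g : Matrix.symplecticGroup (Fin m) F, g ∈ Subgroup.centralizer ({x} : Set ↥(Matrix.symplecticGroup (Fin m) F)) ↔
      ∀ v, spE m F g (spE m F x v) = spE m F x (spE m F g v) := by
    intro g
    rw [Subgroup.mem_centralizer_singleton_iff]
    constructor
    · intro h1 v
      have h2 := congrArg (spE m F) h1
      rw [map_mul, map_mul] at h2
      exact LinearMap.congr_fun h2 v
    · intro h1
      apply spE_inj
      rw [map_mul, map_mul]
      apply LinearMap.ext
      intro v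
      exact h1 v
  apply Nat.card_congr
  refine Equiv.ofBijective (fun g => (⟨LinearEquiv.ofLinear (spE m F (g : Matrix.symplecticGroup (Fin m) F)) (spE m F (g : Matrix.symplecticGroup (Fin m) F)⁻¹)
    (by
      have : spE m F (g : Matrix.symplecticGroup (Fin m) F) * spE m F (g : Matrix.symplecticGroup (Fin m) F)⁻¹ = 1 := by rw [← map_mul, mul_inv_cancel, map_one]
      exact this)
    (by
      have : spE m F (g : Matrix.symplecticGroup (Fin m) F)⁻¹ * spE m F (g : Matrix.symplecticGroup (Fin m) F) = 1 := by rw [← map_mul, inv_mul_cancel, map_one]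
      exact this), spE_form _, (hmem _).mp g.2⟩ :
      {g : (Fin m ⊕ Fin m → F) ≃ₗ[F] (Fin m ⊕ Fin m → F) // (∀ u v, sympBilin m F (g u) (g v) = sympBilin m F u v) ∧ ∀ v, g (spE m F x v) = spE m F x (g v)})) ⟨?_, ?_⟩
  · intro g h hgh
    apply Subtype.ext
    apply spE_inj
    apply LinearMap.ext
    intro v
    have h1 := congrArg (fun z : {g : (Fin m ⊕ Fin m → F) ≃ₗ[F] (Fin m ⊕ Fin m → F) // (∀ u v, sympBilin m F (g u) (g v) = sympBilin m F u v) ∧ ∀ v, g (spE m F x v) = spE m F x (g v)} => z.1 v) hgh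
    exact h1
  · rintro ⟨e, he1, he2⟩
    obtain ⟨s, hs⟩ := spE_symplectic he1
    refine ⟨⟨s, ?_⟩, ?_⟩
    · rw [hmem]
      intro v
      rw [spE_apply s, spE_apply s, hs, hs, he2]
    · apply Subtype.ext
      apply LinearEquiv.ext
      intro v
      exact hs v

end O3

end Cfsg.Agent.Lib.BForm
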