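import Mathlib
import Cfsg.Prelude.Def_Classical
import Cfsg.Prelude.Def_ClassicalGeometry
import Cfsg.Agent.Lib.Orth1
import Cfsg.Agent.Lib.Orth2
import Cfsg.Agent.Lib.Orth3
import Cfsg.Agent.Lib.Orth4
import Cfsg.Agent.Lib.Orth5
import Cfsg.Agent.Lib.Orth6
import Cfsg.Agent.Lib.Orth7
import Cfsg.Agent.Lib.Orth8
import Cfsg.Agent.Lib.Orth10
import Cfsg.Agent.Lib.Orth11

/-!
# Siegel transformations as commutators; generation by singular Siegel transformations
-/

set_option autoImplicit false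
set_option linter.all false

namespace Cfsg.Agent.Lib.Orth

open Module QuadraticMap
open scoped commutatorElement

variable {F : Type*} [Field F] {V : Type*} [AddCommGroup V] [Module F V] [FiniteDimensional F V]
  {Q : QuadraticForm F V}

/-- With at least three scalars, every Siegel transformation is a commutator in `O`. -/
theorem sg_mem_commutatorSet (hQ : ND Q) {a : F} (ha : a ≠ 0) (ha1 : a ≠ 1) {w z : V}
    (hw : Q w = 0) (hwz : polar Q w z = 0) : sg Q w z hw hwz ∈ commutatorSet ↥(O Q) := by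
  rw [mem_commutatorSet_iff]
  by_cases hw0 : w = 0
  · exact ⟨1, 1, by rw [sg_eq_one_of_zero hw hwz hw0]; simp [commutatorElement_def]⟩
  obtain ⟨f, h⟩ := exists_hyp hQ hw0 hw
  obtain ⟨z1, hz1, hwz1, heq⟩ := exists_sg_eq hQ h hwz
  obtain ⟨g, hg, g1, g2, g3⟩ := exists_scaling h.he h.hf h.hef ha
  have ha1' : a - 1 ≠ 0 := sub_ne_zero.mpr ha1
  set z2 := (a - 1)⁻¹ • z1 with hz2
  have hwz2 : polar Q w z2 = 0 := by rw [hz2, polar_smul_right, hwz1, smul_zero]
  have hz2m : z2 ∈ hperp Q w f := Submodule.smul_mem _ _ hz1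
  have hgz : g z2 = z2 := g3 z2 (mem_hperp.mp hz2m).1 (mem_hperp.mp hz2m).2
  refine ⟨⟨g, R_le_O Q hg⟩, sg Q w z2 hw hwz2, ?_⟩
  have hQaw : Q (a • w) = 0 := by rw [map_smul', hw, mul_zero]
  have hpaw : polar Q (a • w) z2 = 0 := by rw [polar_smul_left, hwz2, smul_zero]
  rw [commutatorElement_def, conj_sg, sg_inv]
  rw [sg_congr _ _ (g1 : (⟨g, R_le_O Q hg⟩ : ↥(O Q)).1 w = a • w)
    (hgz : (⟨g, R_le_O Q hg⟩ : ↥(O Q)).1 z2 = z2) hQaw hpaw, sg_smul hw hwz2 hQaw hpaw, sg_mul]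
  rw [sg_congr hw hwz rfl rfl hw hwz, heq]
  apply sg_congr
  · rfl
  · rw [hz2, smul_smul]
    have : (a * (a - 1)⁻¹) • z1 + -((a - 1)⁻¹ • z1) = ((a - 1) * (a - 1)⁻¹) • z1 := by module
    rw [this, mul_inv_cancel₀ ha1', one_smul]

/-- Generation of the Siegel group by singular Siegel transformations. -/
theorem sg_mem_closure_singular [Finite F] (hQ : ND Q) (hn : 5 ≤ finrank F V) {w z : V}
    (hw : Q w = 0) (hwz : polar Q w z = 0) :
    sg Q w z hw hwz ∈ Subgroup.closure {g : ↥(O Q) | ∃ (u v : V) (hu : Q u = 0) (hv : Q v = 0)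
      (huv : polar Q u v = 0), g = sg Q u v hu huv} := by
  set K := Subgroup.closure {g : ↥(O Q) | ∃ (u v : V) (hu : Q u = 0) (hv : Q v = 0)
      (huv : polar Q u v = 0), g = sg Q u v hu huv} with hK
  by_cases hw0 : w = 0
  · rw [sg_eq_one_of_zero hw hwz hw0]; exact one_mem _
  obtain ⟨f, h⟩ := exists_hyp hQ hw0 hw
  obtain ⟨z1, hz1, hwz1, heq⟩ := exists_sg_eq hQ h hwz
  rw [heq]
  have hfr := h.finrank_perp
  have hnd := h.nd_perp hQ
  obtain ⟨e', f', h'⟩ := exists_hyp_pair hnd (by omega)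
  have h'' : Hyp Q (e' : V) (f' : V) := ⟨h'.he, h'.hf, h'.hef⟩
  obtain ⟨α, β, w', hw', hz1e⟩ := h'.exists_split ⟨z1, hz1⟩
  have hwperp : ∀ x : hperp Q w f, polar Q w (x : V) = 0 := fun x => by
    rw [polar_comm]; exact (mem_hperp.mp x.2).1
  have key : ∀ x : hperp Q w f, Q (x : V) = 0 → sg Q w (x : V) hw (hwperp x) ∈ K := fun x hx =>
    Subgroup.subset_closure ⟨w, x, hw, hx, hwperp x, rfl⟩
  have hs : res Q (hperp Q w f) ((-Q (w' : V)) • e' + (1 : F) • f' + w') = 0 := by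
    rw [h'.Q_split _ _ hw', res_apply]; ring
  have k1 := key ((-Q (w' : V)) • e' + (1 : F) • f' + w') hs
  have k2 := key ((α + Q (w' : V)) • e') (by
    change Q ((α + Q (w' : V)) • (e' : V)) = 0
    rw [map_smul', h''.he, mul_zero])
  have k3 := key ((β - 1) • f') (by
    change Q ((β - 1) • (f' : V)) = 0
    rw [map_smul', h''.hf, mul_zero])
  have k4 := mul_mem (mul_mem k1 k2) k3
  rw [sg_mul, sg_mul] at k4
  convert k4 using 1
  apply sg_congr
  · rfl
  · have := congrArg Subtype.val hz1e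
    rw [show z1 = _ from this]
    simp only [Submodule.coe_add, Submodule.coe_smul]
    module

end Cfsg.Agent.Lib.Orth
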