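import Mathlib
import Cfsg.Agent.Lib.Orth22

/-! Orthogonal sums of quadratic forms. -/

set_option linter.all false

namespace Cfsg.Agent.Lib.Orth

open Module QuadraticMap

variable {F : Type*} [Field F] {ι κ : Type} [Fintype ι] [DecidableEq ι] [Fintype κ] [DecidableEq κ]

/-- the orthogonal sum -/
def qSum (Q₁ : QuadraticForm F (ι → F)) (Q₂ : QuadraticForm F (κ → F)) :
    QuadraticForm F (ι ⊕ κ → F) :=
  Q₁.comp (LinearMap.funLeft F F Sum.inl) + Q₂.comp (LinearMap.funLeft F F Sum.inr)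

variable {Q₁ : QuadraticForm F (ι → F)} {Q₂ : QuadraticForm F (κ → F)}

theorem qSum_apply (v : ι ⊕ κ → F) : qSum Q₁ Q₂ v = Q₁ (v ∘ Sum.inl) + Q₂ (v ∘ Sum.inr) := rfl

theorem coe_qSum : ⇑(qSum Q₁ Q₂) = fun v : ι ⊕ κ → F => Q₁ (v ∘ Sum.inl) + Q₂ (v ∘ Sum.inr) := rfl

theorem polar_qSum (u v : ι ⊕ κ → F) : polar (qSum Q₁ Q₂) u v
    = polar Q₁ (u ∘ Sum.inl) (v ∘ Sum.inl) + polar Q₂ (u ∘ Sum.inr) (v ∘ Sum.inr) := by
  simp only [polar, qSum_apply]
  have h1 : (u + v) ∘ Sum.inl = u ∘ Sum.inl + v ∘ Sum.inl := rfl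
  have h2 : (u + v) ∘ Sum.inr = u ∘ Sum.inr + v ∘ Sum.inr := rfl
  rw [h1, h2]
  ring

theorem nd_qSum (h₁ : ND Q₁) (h₂ : ND Q₂) : ND (qSum Q₁ Q₂) := by
  refine nd_of_forall (fun x hx => ?_)
  have e1 : x ∘ Sum.inl = 0 := by
    refine h₁.eq_zero (fun y => ?_)
    have := hx (Sum.elim y 0)
    rw [polar_qSum, Sum.elim_comp_inl, Sum.elim_comp_inr] at this
    rw [show polar Q₂ (x ∘ Sum.inr) 0 = 0 by rw [polar, add_zero, QuadraticMap.map_zero]; ring,
      add_zero] at this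
    exact this
  have e2 : x ∘ Sum.inr = 0 := by
    refine h₂.eq_zero (fun y => ?_)
    have := hx (Sum.elim 0 y)
    rw [polar_qSum, Sum.elim_comp_inl, Sum.elim_comp_inr] at this
    rw [show polar Q₁ (x ∘ Sum.inl) 0 = 0 by rw [polar, add_zero, QuadraticMap.map_zero]; ring,
      zero_add] at this
    exact this
  funext i
  rcases i with i | i
  · exact congrFun e1 i
  · exact congrFun e2 i

/-- embed the left summand -/
def inL (v : ι → F) : ι ⊕ κ → F := Sum.elim v 0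
/-- embed the right summand -/
def inR (v : κ → F) : ι ⊕ κ → F := Sum.elim 0 v

theorem Q_inL (v : ι → F) : qSum Q₁ Q₂ (inL v) = Q₁ v := by
  rw [qSum_apply, inL, Sum.elim_comp_inl, Sum.elim_comp_inr, QuadraticMap.map_zero, add_zero]

theorem Q_inR (v : κ → F) : qSum Q₁ Q₂ (inR v) = Q₂ v := by
  rw [qSum_apply, inR, Sum.elim_comp_inl, Sum.elim_comp_inr, QuadraticMap.map_zero, zero_add]

theorem refl_inL (v : ι → F) (x : ι ⊕ κ → F) : refl (qSum Q₁ Q₂) (inL v) x
    = Sum.elim (refl Q₁ v (x ∘ Sum.inl)) (x ∘ Sum.inr) := by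
  rw [refl_apply, Q_inL, polar_qSum]
  have h1 : (inL v : ι ⊕ κ → F) ∘ Sum.inl = v := rfl
  have h2 : (inL v : ι ⊕ κ → F) ∘ Sum.inr = 0 := rfl
  rw [h1, h2, refl_apply, show polar Q₂ (x ∘ Sum.inr) 0 = 0 by
    rw [polar, add_zero, QuadraticMap.map_zero]; ring, add_zero]
  funext i
  rcases i with i | i
  · simp [inL]
  · simp [inL]

theorem refl_inR (v : κ → F) (x : ι ⊕ κ → F) : refl (qSum Q₁ Q₂) (inR v) x
    = Sum.elim (x ∘ Sum.inl) (refl Q₂ v (x ∘ Sum.inr)) := by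
  rw [refl_apply, Q_inR, polar_qSum]
  have h1 : (inR v : ι ⊕ κ → F) ∘ Sum.inr = v := rfl
  have h2 : (inR v : ι ⊕ κ → F) ∘ Sum.inl = 0 := rfl
  rw [h1, h2, refl_apply, show polar Q₁ (x ∘ Sum.inl) 0 = 0 by
    rw [polar, add_zero, QuadraticMap.map_zero]; ring, zero_add]
  funext i
  rcases i with i | i
  · simp [inR]
  · simp [inR]

theorem rprod_inL (vs : List (ι → F)) (x : ι ⊕ κ → F) :
    rprod (qSum Q₁ Q₂) (vs.map inL) x = Sum.elim (rprod Q₁ vs (x ∘ Sum.inl)) (x ∘ Sum.inr) := by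
  induction vs with
  | nil =>
    funext i
    rcases i with i | i <;> rfl
  | cons v vs ih =>
    rw [List.map_cons, rprod_cons, LinearEquiv.mul_apply, ih, refl_inL, rprod_cons,
      LinearEquiv.mul_apply, Sum.elim_comp_inl, Sum.elim_comp_inr]

theorem rprod_inR (vs : List (κ → F)) (x : ι ⊕ κ → F) :
    rprod (qSum Q₁ Q₂) (vs.map inR) x = Sum.elim (x ∘ Sum.inl) (rprod Q₂ vs (x ∘ Sum.inr)) := by
  induction vs with
  | nil =>
    funext i
    rcases i with i | i <;> rfl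
  | cons v vs ih =>
    rw [List.map_cons, rprod_cons, LinearEquiv.mul_apply, ih, refl_inR, rprod_cons,
      LinearEquiv.mul_apply, Sum.elim_comp_inl, Sum.elim_comp_inr]

theorem map_inL_ne {vs : List (ι → F)} (h : ∀ v ∈ vs, Q₁ v ≠ 0) :
    ∀ v ∈ vs.map (inL (κ := κ)), qSum Q₁ Q₂ v ≠ 0 := by
  intro v hv
  obtain ⟨w, hw, rfl⟩ := List.mem_map.mp hv
  rw [Q_inL]
  exact h w hw

theorem map_inR_ne {vs : List (κ → F)} (h : ∀ v ∈ vs, Q₂ v ≠ 0) :
    ∀ v ∈ vs.map (inR (ι := ι)), qSum Q₁ Q₂ v ≠ 0 := by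
  intro v hv
  obtain ⟨w, hw, rfl⟩ := List.mem_map.mp hv
  rw [Q_inR]
  exact h w hw

theorem prod_inL (vs : List (ι → F)) :
    ((vs.map (inL (κ := κ))).map (fun v => qSum Q₁ Q₂ v)).prod
      = (vs.map (fun v => Q₁ v)).prod := by
  rw [List.map_map]
  congr 1
  apply List.map_congr_left
  intro v _
  exact Q_inL v

theorem prod_inR (vs : List (κ → F)) :
    ((vs.map (inR (ι := ι))).map (fun v => qSum Q₁ Q₂ v)).prod
      = (vs.map (fun v => Q₂ v)).prod := by
  rw [List.map_map]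
  congr 1
  apply List.map_congr_left
  intro v _
  exact Q_inR v

/-- `diag(g₁, g₂)` -/
noncomputable def dsum (g₁ : ↥(O Q₁)) (g₂ : ↥(O Q₂)) : ↥(O (qSum Q₁ Q₂)) :=
  ⟨{ toFun := fun x => Sum.elim (g₁.1 (x ∘ Sum.inl)) (g₂.1 (x ∘ Sum.inr))
     invFun := fun x => Sum.elim (g₁.1.symm (x ∘ Sum.inl)) (g₂.1.symm (x ∘ Sum.inr))
     left_inv := fun x => by
       funext i
       rcases i with i | i
       · simp
       · simp
     right_inv := fun x => by
       funext i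
       rcases i with i | i
       · simp
       · simp
     map_add' := fun x y => by
       have h1 : (x + y) ∘ Sum.inl = x ∘ Sum.inl + y ∘ Sum.inl := rfl
       have h2 : (x + y) ∘ Sum.inr = x ∘ Sum.inr + y ∘ Sum.inr := rfl
       rw [h1, h2, map_add, map_add]
       funext i
       rcases i with i | i <;> simp
     map_smul' := fun c x => by
       have h1 : (c • x) ∘ Sum.inl = c • (x ∘ Sum.inl) := rfl
       have h2 : (c • x) ∘ Sum.inr = c • (x ∘ Sum.inr) := rfl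
       rw [h1, h2, map_smul, map_smul]
       funext i
       rcases i with i | i <;> simp }, fun v => by
    show qSum Q₁ Q₂ (Sum.elim (g₁.1 (v ∘ Sum.inl)) (g₂.1 (v ∘ Sum.inr))) = _
    rw [qSum_apply, Sum.elim_comp_inl, Sum.elim_comp_inr, g₁.2, g₂.2]
    rfl⟩

theorem dsum_apply (g₁ : ↥(O Q₁)) (g₂ : ↥(O Q₂)) (x : ι ⊕ κ → F) :
    (dsum g₁ g₂).1 x = Sum.elim (g₁.1 (x ∘ Sum.inl)) (g₂.1 (x ∘ Sum.inr)) := rfl

theorem finrank_fx_dsum (g₁ : ↥(O Q₁)) (g₂ : ↥(O Q₂)) :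
    finrank F (fx (dsum g₁ g₂).1) = finrank F (fx g₁.1) + finrank F (fx g₂.1) := by
  have e : fx (dsum g₁ g₂).1 ≃ₗ[F] (fx g₁.1) × (fx g₂.1) :=
    { toFun := fun x => (⟨x.1 ∘ Sum.inl, by
          have := mem_fx.mp x.2
          rw [dsum_apply] at this
          have h2 := congrArg (fun y => y ∘ Sum.inl) this
          rw [Sum.elim_comp_inl] at h2
          exact mem_fx.mpr h2⟩, ⟨x.1 ∘ Sum.inr, by
          have := mem_fx.mp x.2
          rw [dsum_apply] at this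
          have h2 := congrArg (fun y => y ∘ Sum.inr) this
          rw [Sum.elim_comp_inr] at h2
          exact mem_fx.mpr h2⟩)
      invFun := fun p => ⟨Sum.elim p.1.1 p.2.1, by
        rw [mem_fx, dsum_apply, Sum.elim_comp_inl, Sum.elim_comp_inr, mem_fx.mp p.1.2,
          mem_fx.mp p.2.2]⟩
      left_inv := fun x => by
        apply Subtype.ext
        funext i
        rcases i with i | i <;> rfl
      right_inv := fun p => by
        apply Prod.ext <;> apply Subtype.ext <;> rfl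
      map_add' := fun x y => rfl
      map_smul' := fun c x => rfl }
  rw [e.finrank_eq, finrank_prod]

end Cfsg.Agent.Lib.Orth
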