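import Mathlib

set_option autoImplicit false
set_option linter.all false

namespace Cfsg.Agent.Lib.PSL34

open Matrix

variable {K : Type*} [Field K]

theorem li3 (w u v : Fin 3 → K) (h : ∀ a b c : K, a • w + b • u + c • v = 0 → a = 0 ∧ b = 0 ∧ c = 0) :
    LinearIndependent K ![w, u, v] := by
  rw [Fintype.linearIndependent_iff]
  intro g hg
  rw [Fin.sum_univ_three] at hg
  obtain ⟨h0, h1, h2⟩ := h (g 0) (g 1) (g 2) hg
  intro i
  fin_cases i
  · exact h0
  · exact h1
  · exact h2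

/-- build an element of SL(3) from three independent vectors, with prescribed position for rescaling -/
theorem exists_SL (w u v : Fin 3 → K) (h : LinearIndependent K ![w, u, v]) :
    ∃ (c : K) (P : SpecialLinearGroup (Fin 3) K), c ≠ 0 ∧ (∀ i, P i 0 = w i) ∧ (∀ i, P i 1 = c * u i) ∧ (∀ i, P i 2 = v i) := by
  let M : Matrix (Fin 3) (Fin 3) K := (Matrix.of ![w, u, v])ᵀ
  have hM : IsUnit M := by
    rw [← Matrix.isUnit_transpose, ← Matrix.linearIndependent_rows_iff_isUnit]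
    exact h
  have hdet : M.det ≠ 0 := ((Matrix.isUnit_iff_isUnit_det M).1 hM).ne_zero
  let c := (M.det)⁻¹
  have hc : c ≠ 0 := inv_ne_zero hdet
  let M' : Matrix (Fin 3) (Fin 3) K := (Matrix.of ![w, c • u, v])ᵀ
  have hdet' : M'.det = 1 := by
    have h1 : M'.det = c * M.det := by
      rw [Matrix.det_fin_three, Matrix.det_fin_three]
      simp [M', M, Matrix.transpose_apply]
      ring
    rw [h1]
    exact inv_mul_cancel₀ hdet
  refine ⟨c, ⟨M', hdet'⟩, hc, ?_, ?_, ?_⟩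
  · intro i; rfl
  · intro i; rfl
  · intro i; rfl

theorem exists_indep (N : Matrix (Fin 3) (Fin 3) K) (hN : N ≠ 0) (hNN : N * N = 0) :
    ∃ w u v : Fin 3 → K, LinearIndependent K ![w, u, v] ∧ N *ᵥ w = 0 ∧ N *ᵥ u = 0 ∧ N *ᵥ v = w := by
  classical
  obtain ⟨v, hv⟩ : ∃ v, N *ᵥ v ≠ 0 := by
    by_contra hcon
    push Not at hcon
    apply hN
    ext i j
    have := congrFun (hcon (Pi.single j 1)) i
    simpa using this
  set w := N *ᵥ v with hw
  have hNw : N *ᵥ w = 0 := by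
    rw [hw, Matrix.mulVec_mulVec, hNN, Matrix.zero_mulVec]
  let T := N.mulVecLin
  have h1 : Module.finrank K (LinearMap.range T) + Module.finrank K (LinearMap.ker T) = 3 := by
    rw [LinearMap.finrank_range_add_finrank_ker, Module.finrank_fin_fun]
  have h2 : LinearMap.range T ≤ LinearMap.ker T := by
    rintro _ ⟨x, rfl⟩
    rw [LinearMap.mem_ker]
    show N *ᵥ (N *ᵥ x) = 0
    rw [Matrix.mulVec_mulVec, hNN, Matrix.zero_mulVec]
  have h3 := Submodule.finrank_mono h2
  have h4 : 2 ≤ Module.finrank K (LinearMap.ker T) := by omega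
  obtain ⟨u, hu, hu'⟩ : ∃ u ∈ LinearMap.ker T, u ∉ Submodule.span K {w} := by
    by_contra hcon
    push Not at hcon
    have h5 : LinearMap.ker T ≤ Submodule.span K {w} := hcon
    have h6 := Submodule.finrank_mono h5
    rw [finrank_span_singleton hv] at h6
    omega
  have hNu : N *ᵥ u = 0 := hu
  refine ⟨w, u, v, ?_, hNw, hNu, rfl⟩
  apply li3
  intro a b c habc
  have h7 : N *ᵥ (a • w + b • u + c • v) = c • w := by
    rw [Matrix.mulVec_add, Matrix.mulVec_add, Matrix.mulVec_smul, Matrix.mulVec_smul, Matrix.mulVec_smul, hNw, hNu, smul_zero, smul_zero, zero_add, zero_add]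
  rw [habc, Matrix.mulVec_zero] at h7
  have hc : c = 0 := by
    rcases smul_eq_zero.1 h7.symm with h | h
    · exact h
    · exact absurd h hv
  subst hc
  rw [zero_smul, add_zero] at habc
  have hb : b = 0 := by
    by_contra hb
    apply hu'
    rw [Submodule.mem_span_singleton]
    refine ⟨-(b⁻¹ * a), ?_⟩
    have : b • u = -(a • w) := by
      rw [eq_neg_iff_add_eq_zero, add_comm]; exact habc
    have h8 : u = b⁻¹ • (b • u) := by rw [smul_smul, inv_mul_cancel₀ hb, one_smul]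
    rw [h8, this, smul_neg, smul_smul, neg_smul]
  subst hb
  rw [zero_smul, add_zero] at habc
  rcases smul_eq_zero.1 habc with h | h
  · exact ⟨h, rfl, rfl⟩
  · exact absurd h hv

/-- the elementary matrix -/
def E0 (K : Type*) [Field K] : Matrix (Fin 3) (Fin 3) K := !![1, 0, 1; 0, 1, 0; 0, 0, 1]

def E (K : Type*) [Field K] : SpecialLinearGroup (Fin 3) K := ⟨E0 K, by simp [E0, Matrix.det_fin_three]⟩

theorem transv_conj (N : Matrix (Fin 3) (Fin 3) K) (hN : N ≠ 0) (hNN : N * N = 0) :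
    ∃ P : SpecialLinearGroup (Fin 3) K, (1 + N) * (P : Matrix (Fin 3) (Fin 3) K) = (P : Matrix (Fin 3) (Fin 3) K) * E0 K := by
  obtain ⟨w, u, v, hli, hw, hu, hv⟩ := exists_indep N hN hNN
  obtain ⟨c, P, hc, h0, h1, h2⟩ := exists_SL w u v hli
  refine ⟨P, ?_⟩
  have e0 : (fun i => P i 0) = w := funext h0
  have e1 : (fun i => P i 1) = c • u := funext h1
  have e2 : (fun i => P i 2) = v := funext h2
  have k0 : ∀ i, (N * (P : Matrix (Fin 3) (Fin 3) K)) i 0 = 0 := by
    intro i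
    have := congrFun hw i
    rw [← e0] at this
    exact this
  have k1 : ∀ i, (N * (P : Matrix (Fin 3) (Fin 3) K)) i 1 = 0 := by
    intro i
    have h3 : N *ᵥ (c • u) = 0 := by rw [Matrix.mulVec_smul, hu, smul_zero]
    have := congrFun h3 i
    rw [← e1] at this
    exact this
  have k2 : ∀ i, (N * (P : Matrix (Fin 3) (Fin 3) K)) i 2 = w i := by
    intro i
    have := congrFun hv i
    rw [← e2] at this
    exact this
  rw [add_mul, one_mul]
  ext i j
  rw [Matrix.add_apply]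
  have hr : ∀ j, ((P : Matrix (Fin 3) (Fin 3) K) * E0 K) i j = P i 0 * E0 K 0 j + P i 1 * E0 K 1 j + P i 2 * E0 K 2 j := by
    intro j
    rw [Matrix.mul_apply, Fin.sum_univ_three]
  rw [hr]
  fin_cases j
  · show P i 0 + (N * (P : Matrix (Fin 3) (Fin 3) K)) i 0 = P i 0 * 1 + P i 1 * 0 + P i 2 * 0
    rw [k0]; ring
  · show P i 1 + (N * (P : Matrix (Fin 3) (Fin 3) K)) i 1 = P i 0 * 0 + P i 1 * 1 + P i 2 * 0
    rw [k1]; ring
  · show P i 2 + (N * (P : Matrix (Fin 3) (Fin 3) K)) i 2 = P i 0 * 1 + P i 1 * 0 + P i 2 * 1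
    rw [k2, h0]; ring

section four

variable [Fintype K] (hK : Fintype.card K = 4)

include hK

theorem pow_three_eq (a : K) (ha : a ≠ 0) : a ^ 3 = 1 := by
  have := FiniteField.pow_card_sub_one_eq_one a ha
  rwa [hK] at this

theorem char_two : CharP K 2 := by
  obtain ⟨p, hp⟩ := CharP.exists K
  obtain ⟨n, hpr, hn⟩ := FiniteField.card K p
  rw [hK] at hn
  have h1 : p ∣ 4 := by rw [hn]; exact dvd_pow_self p n.2.ne'
  have h2 : p ∣ 2 ^ 2 := h1
  have h3 := (Nat.prime_dvd_prime_iff_eq hpr Nat.prime_two).1 (hpr.dvd_of_dvd_pow h2)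
  rw [h3] at hp
  exact hp

theorem scalar_mem (d : K) (hd : d ≠ 0) : ∃ D : SpecialLinearGroup (Fin 3) K, D ∈ Subgroup.center (SpecialLinearGroup (Fin 3) K) ∧
    (D : Matrix (Fin 3) (Fin 3) K) = scalar (Fin 3) d := by
  have h3 := pow_three_eq hK d hd
  have hdet : (scalar (Fin 3) d : Matrix (Fin 3) (Fin 3) K).det = 1 := by
    rw [Matrix.scalar_apply, Matrix.det_diagonal, Finset.prod_const, Finset.card_univ, Fintype.card_fin, h3]
  refine ⟨⟨scalar (Fin 3) d, hdet⟩, ?_, rfl⟩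
  exact Matrix.SpecialLinearGroup.mem_center_iff.2 ⟨d, by rw [Fintype.card_fin, h3], rfl⟩

theorem invol (x : ProjectiveSpecialLinearGroup (Fin 3) K) (hx : orderOf x = 2) :
    IsConj (QuotientGroup.mk (E K) : ProjectiveSpecialLinearGroup (Fin 3) K) x := by
  have hch := char_two hK
  obtain ⟨h, rfl⟩ := QuotientGroup.mk_surjective x
  have hx2 : (QuotientGroup.mk (h * h) : ProjectiveSpecialLinearGroup (Fin 3) K) = 1 := by
    rw [QuotientGroup.mk_mul, ← pow_two, ← hx, pow_orderOf_eq_one]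
  have hx1 : (QuotientGroup.mk h : ProjectiveSpecialLinearGroup (Fin 3) K) ≠ 1 := by
    intro h1
    rw [h1, orderOf_one] at hx
    exact absurd hx (by norm_num)
  rw [QuotientGroup.eq_one_iff, Matrix.SpecialLinearGroup.mem_center_iff] at hx2
  obtain ⟨r, hr3, hr⟩ := hx2
  rw [Fintype.card_fin] at hr3
  have hr0 : r ≠ 0 := by
    rintro rfl
    norm_num at hr3
  let d := r ^ 2
  have hd0 : d ≠ 0 := pow_ne_zero 2 hr0
  have hdd : d * d = r := by
    show r ^ 2 * r ^ 2 = r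
    calc r ^ 2 * r ^ 2 = r ^ 3 * r := by ring
      _ = r := by rw [hr3, one_mul]
  obtain ⟨D, hDc, hD⟩ := scalar_mem hK d hd0
  have hhh : (h : Matrix (Fin 3) (Fin 3) K) * h = scalar (Fin 3) r := by
    rw [hr]; rfl
  -- N = d⁻¹ h - 1
  let N : Matrix (Fin 3) (Fin 3) K := d⁻¹ • (h : Matrix (Fin 3) (Fin 3) K) + 1
  have hNN : N * N = 0 := by
    have h2 : (2 : Matrix (Fin 3) (Fin 3) K) = 0 := by
      have : ((2 : ℕ) : Matrix (Fin 3) (Fin 3) K) = 0 := CharP.cast_eq_zero _ 2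
      exact_mod_cast this
    have h3 : (d⁻¹ • (h : Matrix (Fin 3) (Fin 3) K)) * (d⁻¹ • (h : Matrix (Fin 3) (Fin 3) K)) = 1 := by
      rw [Matrix.smul_mul, Matrix.mul_smul, hhh, smul_smul, ← hdd]
      ext i j
      rw [Matrix.smul_apply, Matrix.scalar_apply, Matrix.diagonal_apply, Matrix.one_apply]
      split_ifs
      · rw [smul_eq_mul]; field_simp
      · simp
    show (d⁻¹ • (h : Matrix (Fin 3) (Fin 3) K) + 1) * (d⁻¹ • (h : Matrix (Fin 3) (Fin 3) K) + 1) = 0
    rw [add_mul, mul_add, h3, mul_one, one_mul]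
    have : (1 : Matrix (Fin 3) (Fin 3) K) + d⁻¹ • (h : Matrix (Fin 3) (Fin 3) K) + (d⁻¹ • (h : Matrix (Fin 3) (Fin 3) K) + 1) = 2 * (1 + d⁻¹ • (h : Matrix (Fin 3) (Fin 3) K)) := by
      rw [two_mul]; abel
    rw [this, h2, zero_mul]
  have hh : (h : Matrix (Fin 3) (Fin 3) K) = (D : Matrix (Fin 3) (Fin 3) K) * (1 + N) := by
    have h2 : (1 : Matrix (Fin 3) (Fin 3) K) + 1 = 0 := by
      have : ((2 : ℕ) : Matrix (Fin 3) (Fin 3) K) = 0 := CharP.cast_eq_zero _ 2
      rw [← this]; norm_num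
    have h3 : (1 : Matrix (Fin 3) (Fin 3) K) + N = d⁻¹ • (h : Matrix (Fin 3) (Fin 3) K) := by
      show (1 : Matrix (Fin 3) (Fin 3) K) + (d⁻¹ • (h : Matrix (Fin 3) (Fin 3) K) + 1) = _
      rw [add_comm, add_assoc, h2, add_zero]
    rw [h3, hD]
    ext i j
    simp [Matrix.scalar_apply, Matrix.diagonal_mul, hd0]
  have hN0 : N ≠ 0 := by
    intro h0
    rw [h0, add_zero, mul_one] at hh
    have h4 : h = D := Subtype.ext hh
    apply hx1
    rw [QuotientGroup.eq_one_iff, h4]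
    exact hDc
  obtain ⟨P, hP⟩ := transv_conj N hN0 hNN
  have h5 : h * P = D * (P * E K) := by
    apply Subtype.ext
    show (h : Matrix (Fin 3) (Fin 3) K) * P = (D : Matrix (Fin 3) (Fin 3) K) * ((P : Matrix (Fin 3) (Fin 3) K) * E0 K)
    rw [hh, mul_assoc, hP]
  rw [isConj_iff]
  refine ⟨QuotientGroup.mk P, ?_⟩
  rw [mul_inv_eq_iff_eq_mul]
  have h7 : (QuotientGroup.mk (h * P) : ProjectiveSpecialLinearGroup (Fin 3) K) = QuotientGroup.mk (D * (P * E K)) := by rw [h5]
  have h8 : (QuotientGroup.mk D : ProjectiveSpecialLinearGroup (Fin 3) K) = 1 := (QuotientGroup.eq_one_iff D).2 hDc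
  symm
  calc (QuotientGroup.mk h : ProjectiveSpecialLinearGroup (Fin 3) K) * QuotientGroup.mk P = QuotientGroup.mk (h * P) := rfl
    _ = QuotientGroup.mk (D * (P * E K)) := h7
    _ = QuotientGroup.mk D * (QuotientGroup.mk P * QuotientGroup.mk (E K)) := rfl
    _ = QuotientGroup.mk P * QuotientGroup.mk (E K) := by rw [h8, one_mul]

theorem s0820 (x y : ProjectiveSpecialLinearGroup (Fin 3) K) (hx : orderOf x = 2) (hy : orderOf y = 2) : IsConj x y :=
  (invol hK x hx).symm.trans (invol hK y hy)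

end four

end Cfsg.Agent.Lib.PSL34
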