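import Mathlib
import Cfsg.Agent.Lib.PSL34
import Cfsg.Agent.Lib.GLSL

set_option autoImplicit false
set_option linter.all false

namespace Cfsg.Agent.Lib.PSL34b

open Matrix
open Cfsg.Agent.Lib.PSL34

variable {F : Type*} [Field F]

def M1 (F : Type*) [Field F] : Matrix (Fin 4) (Fin 4) F := !![1, 0, 0, 1; 0, 1, 0, 0; 0, 0, 1, 0; 0, 0, 0, 1]
def M2 (F : Type*) [Field F] : Matrix (Fin 4) (Fin 4) F := !![1, 0, 1, 0; 0, 1, 0, 1; 0, 0, 1, 0; 0, 0, 0, 1]
def N1 (F : Type*) [Field F] : Matrix (Fin 4) (Fin 4) F := !![0, 0, 0, 1; 0, 0, 0, 0; 0, 0, 0, 0; 0, 0, 0, 0]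
def N2 (F : Type*) [Field F] : Matrix (Fin 4) (Fin 4) F := !![0, 0, 1, 0; 0, 0, 0, 1; 0, 0, 0, 0; 0, 0, 0, 0]

theorem M1_eq : M1 F = 1 + N1 F := by
  ext i j
  fin_cases i <;> fin_cases j <;> simp [M1, N1]

theorem M2_eq : M2 F = 1 + N2 F := by
  ext i j
  fin_cases i <;> fin_cases j <;> simp [M2, N2]

theorem N1_sq : N1 F * N1 F = 0 := by
  ext i j
  fin_cases i <;> fin_cases j <;> simp [N1, Matrix.mul_apply, Fin.sum_univ_succ]

theorem N2_sq : N2 F * N2 F = 0 := by
  ext i j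
  fin_cases i <;> fin_cases j <;> simp [N2, Matrix.mul_apply, Fin.sum_univ_succ]

theorem det_M1 : (M1 F).det = 1 := by
  simp [M1, Matrix.det_succ_row_zero, Fin.sum_univ_succ]

theorem det_M2 : (M2 F).det = 1 := by
  simp [M2, Matrix.det_succ_row_zero, Fin.sum_univ_succ]

theorem N1_mul (B : Matrix (Fin 4) (Fin 4) F) : N1 F * B * N1 F = B 3 0 • N1 F := by
  ext i j
  fin_cases i <;> fin_cases j <;> simp [N1, Matrix.mul_apply, Fin.sum_univ_succ, Matrix.vecMul, dotProduct]

theorem not_conj (g : Matrix (Fin 4) (Fin 4) F) (g' : Matrix (Fin 4) (Fin 4) F) (h1 : g * g' = 1) (h2 : g' * g = 1)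
    (h : g * N1 F = N2 F * g) : False := by
  have e1 : N2 F = g * N1 F * g' := by rw [h, mul_assoc, h1, mul_one]
  let A : Matrix (Fin 4) (Fin 4) F := !![0, 0, 0, 0; 0, 0, 0, 0; 1, 0, 0, 0; 0, 0, 0, 0]
  have e2 : N2 F * A * N2 F = (g' * A * g) 3 0 • N2 F := by
    calc N2 F * A * N2 F = g * (N1 F * (g' * A * g) * N1 F) * g' := by
          rw [e1]; simp only [mul_assoc]
      _ = g * ((g' * A * g) 3 0 • N1 F) * g' := by rw [N1_mul]
      _ = (g' * A * g) 3 0 • N2 F := by rw [Matrix.mul_smul, Matrix.smul_mul, ← e1]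
  have e3 : (N2 F * A * N2 F) 0 2 = 1 := by
    simp [N2, A, Matrix.mul_apply, Fin.sum_univ_succ]
  have e4 : (N2 F * A * N2 F) 1 3 = 0 := by
    simp [N2, A, Matrix.mul_apply, Fin.sum_univ_succ]
  rw [e2] at e3 e4
  have e5 : (N2 F) 0 2 = 1 := by simp [N2]
  have e6 : (N2 F) 1 3 = 1 := by simp [N2]
  rw [Matrix.smul_apply, e5, smul_eq_mul, mul_one] at e3
  rw [Matrix.smul_apply, e6, smul_eq_mul, mul_one] at e4
  rw [e3] at e4
  exact one_ne_zero e4

theorem main {F K : Type*} [Field F] [Fintype F] [Field K] [Fintype K] (hF : Fintype.card F = 2) (hK : Fintype.card K = 4) :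
    Nat.card (Matrix.ProjectiveSpecialLinearGroup (Fin 4) F) = Nat.card (Matrix.ProjectiveSpecialLinearGroup (Fin 3) K) ∧
      ¬ Nonempty (Matrix.ProjectiveSpecialLinearGroup (Fin 4) F ≃* Matrix.ProjectiveSpecialLinearGroup (Fin 3) K) := by
  classical
  constructor
  · have h1 := GLSL.card_PSL (F := F) 4 (by norm_num)
    have h2 := GLSL.card_SL (F := F) 4 (by norm_num)
    have h3 := GLSL.card_PSL (F := K) 3 (by norm_num)
    have h4 := GLSL.card_SL (F := K) 3 (by norm_num)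
    rw [hF] at h1 h2
    rw [hK] at h3 h4
    have h5 : (∏ i : Fin 4, (2 ^ 4 - 2 ^ (i : ℕ)) : ℕ) = 20160 := by decide
    have h6 : (∏ i : Fin 3, (4 ^ 3 - 4 ^ (i : ℕ)) : ℕ) = 181440 := by decide
    rw [h5] at h2
    rw [h6] at h4
    have h7 : Nat.gcd 4 (2 - 1) = 1 := by norm_num
    have h8 : Nat.gcd 3 (4 - 1) = 3 := by norm_num
    rw [h7] at h1
    rw [h8] at h3
    omega
  · rintro ⟨e⟩
    have hch : CharP F 2 := by
      obtain ⟨p, hp⟩ := CharP.exists F
      obtain ⟨n, hpr, hn⟩ := FiniteField.card F p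
      rw [hF] at hn
      have h1 : p ∣ 2 := by rw [hn]; exact dvd_pow_self p n.2.ne'
      rw [(Nat.prime_dvd_prime_iff_eq hpr Nat.prime_two).1 h1] at hp
      exact hp
    have hone : ∀ a : F, a ≠ 0 → a = 1 := by
      intro a ha
      have := FiniteField.pow_card_sub_one_eq_one a ha
      rwa [hF, pow_one] at this
    have hcen : ∀ A : SpecialLinearGroup (Fin 4) F, A ∈ Subgroup.center (SpecialLinearGroup (Fin 4) F) → A = 1 := by
      intro A hA
      obtain ⟨r, hr, hrA⟩ := Matrix.SpecialLinearGroup.mem_center_iff.1 hA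
      have hr0 : r ≠ 0 := by
        rintro rfl
        norm_num at hr
      rw [hone r hr0] at hrA
      apply Subtype.ext
      rw [← hrA]
      simp
    have h2 : (2 : Matrix (Fin 4) (Fin 4) F) = 0 := by
      have : ((2 : ℕ) : Matrix (Fin 4) (Fin 4) F) = 0 := CharP.cast_eq_zero _ 2
      exact_mod_cast this
    have hsq : ∀ N : Matrix (Fin 4) (Fin 4) F, N * N = 0 → (1 + N) * (1 + N) = 1 := by
      intro N hN
      rw [add_mul, mul_add, mul_add, hN, one_mul, mul_one, add_zero]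
      have : (1 : Matrix (Fin 4) (Fin 4) F) + N + N = 1 + 2 * N := by rw [two_mul]; abel
      rw [one_mul, this, h2, zero_mul, add_zero]
    let t1 : SpecialLinearGroup (Fin 4) F := ⟨M1 F, det_M1⟩
    let t2 : SpecialLinearGroup (Fin 4) F := ⟨M2 F, det_M2⟩
    have ht1 : t1 * t1 = 1 := by
      apply Subtype.ext
      show M1 F * M1 F = 1
      rw [M1_eq]; exact hsq _ N1_sq
    have ht2 : t2 * t2 = 1 := by
      apply Subtype.ext
      show M2 F * M2 F = 1
      rw [M2_eq]; exact hsq _ N2_sq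
    have hord : ∀ t : SpecialLinearGroup (Fin 4) F, t * t = 1 → t ≠ 1 → orderOf (QuotientGroup.mk t : ProjectiveSpecialLinearGroup (Fin 4) F) = 2 := by
      intro t h3 h4
      apply orderOf_eq_prime
      · have : (QuotientGroup.mk (t * t) : ProjectiveSpecialLinearGroup (Fin 4) F) = 1 := by rw [h3]; rfl
        rw [pow_two]; exact this
      · intro h5
        apply h4
        exact hcen t ((QuotientGroup.eq_one_iff t).1 h5)
    have ht1' : t1 ≠ 1 := by
      intro h
      have h3 : M1 F = 1 := congrArg Subtype.val h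
      have h4 : (M1 F) 0 3 = (1 : Matrix (Fin 4) (Fin 4) F) 0 3 := by rw [h3]
      simp [M1] at h4
    have ht2' : t2 ≠ 1 := by
      intro h
      have h3 : M2 F = 1 := congrArg Subtype.val h
      have h4 : (M2 F) 0 2 = (1 : Matrix (Fin 4) (Fin 4) F) 0 2 := by rw [h3]
      simp [M2] at h4
    have hc := s0820 hK (e (QuotientGroup.mk t1)) (e (QuotientGroup.mk t2)) (by rw [MulEquiv.orderOf_eq]; exact hord t1 ht1 ht1')
      (by rw [MulEquiv.orderOf_eq]; exact hord t2 ht2 ht2')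
    have hc' : IsConj (QuotientGroup.mk t1 : ProjectiveSpecialLinearGroup (Fin 4) F) (QuotientGroup.mk t2) := by
      have h3 := e.symm.toMonoidHom.map_isConj hc
      simpa using h3
    rw [isConj_iff] at hc'
    obtain ⟨q, hq⟩ := hc'
    obtain ⟨g, rfl⟩ := QuotientGroup.mk_surjective q
    rw [mul_inv_eq_iff_eq_mul] at hq
    have h3 : (QuotientGroup.mk (g * t1) : ProjectiveSpecialLinearGroup (Fin 4) F) = QuotientGroup.mk (t2 * g) := hq
    rw [QuotientGroup.eq] at h3
    have h4 := hcen _ h3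
    have h5 : g * t1 = t2 * g := by
      rw [inv_mul_eq_one] at h4; exact h4
    have h6 : (g : Matrix (Fin 4) (Fin 4) F) * M1 F = M2 F * g := congrArg Subtype.val h5
    rw [M1_eq, M2_eq, mul_add, add_mul, mul_one, one_mul] at h6
    have h7 := add_left_cancel h6
    refine not_conj (g : Matrix (Fin 4) (Fin 4) F) ((g⁻¹ : SpecialLinearGroup (Fin 4) F) : Matrix (Fin 4) (Fin 4) F) ?_ ?_ h7
    · have := congrArg Subtype.val (mul_inv_cancel g)
      exact this
    · have := congrArg Subtype.val (inv_mul_cancel g)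
      exact this

end Cfsg.Agent.Lib.PSL34b
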