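import Mathlib
import Cfsg.Agent.Lib.PSL34

set_option autoImplicit false
set_option linter.all false

namespace Cfsg.Agent.Lib.PSL34c

open Matrix
open scoped Pointwise
open Cfsg.Agent.Lib.PSL34

variable {K : Type*} [Field K]

/-- eigenvector columns -/
theorem cols_diag (g P : Matrix (Fin 3) (Fin 3) K) (d : Fin 3 → K) (h : ∀ j, g *ᵥ (fun i => P i j) = d j • (fun i => P i j)) :
    g * P = P * diagonal d := by
  ext i j
  rw [Matrix.mul_diagonal]
  have := congrFun (h j) i
  rw [Pi.smul_apply, smul_eq_mul, mul_comm] at this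
  exact this

theorem caseC (g : Matrix (Fin 3) (Fin 3) K) (hdet : g.det = 1) (b c : K) (hbc : b ≠ c) (hb3 : b ^ 3 = 1)
    (h2 : 2 ≤ Module.finrank K (LinearMap.ker (g - scalar (Fin 3) b).mulVecLin))
    (hnb : g ≠ scalar (Fin 3) b) (him : ∀ x, g *ᵥ ((g - scalar (Fin 3) b) *ᵥ x) = c • ((g - scalar (Fin 3) b) *ᵥ x)) : False := by
  classical
  set T := (g - scalar (Fin 3) b).mulVecLin with hT
  have hker : ∀ x, x ∈ LinearMap.ker T ↔ g *ᵥ x = b • x := by
    intro x
    rw [LinearMap.mem_ker]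
    show (g - scalar (Fin 3) b) *ᵥ x = 0 ↔ _
    rw [Matrix.sub_mulVec, sub_eq_zero, Matrix.scalar_apply, ← Matrix.smul_one_eq_diagonal, Matrix.smul_mulVec, Matrix.one_mulVec]
  obtain ⟨v, hv⟩ : ∃ v, (g - scalar (Fin 3) b) *ᵥ v ≠ 0 := by
    by_contra hcon
    push Not at hcon
    apply hnb
    rw [← sub_eq_zero]
    ext i j
    have := congrFun (hcon (Pi.single j 1)) i
    simpa using this
  set u3 := (g - scalar (Fin 3) b) *ᵥ v with hu3
  have hgu3 : g *ᵥ u3 = c • u3 := him v
  obtain ⟨u1, hu1, hu1'⟩ : ∃ u ∈ LinearMap.ker T, u ≠ 0 := by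
    by_contra hcon
    push Not at hcon
    have h5 : LinearMap.ker T = ⊥ := (Submodule.eq_bot_iff _).2 hcon
    rw [h5, finrank_bot] at h2
    omega
  obtain ⟨u2, hu2, hu2'⟩ : ∃ u ∈ LinearMap.ker T, u ∉ Submodule.span K {u1} := by
    by_contra hcon
    push Not at hcon
    have h5 : LinearMap.ker T ≤ Submodule.span K {u1} := hcon
    have h6 := Submodule.finrank_mono h5
    rw [finrank_span_singleton hu1'] at h6
    omega
  have hg1 := (hker u1).1 hu1
  have hg2 := (hker u2).1 hu2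
  have hli : LinearIndependent K ![u1, u3, u2] := by
    apply li3
    intro a e f hsum
    have h3 : g *ᵥ (a • u1 + e • u3 + f • u2) = b • (a • u1 + e • u3 + f • u2) + (e * (c - b)) • u3 := by
      rw [Matrix.mulVec_add, Matrix.mulVec_add, Matrix.mulVec_smul, Matrix.mulVec_smul, Matrix.mulVec_smul, hg1, hg2, hgu3]
      ext i
      simp only [Pi.add_apply, Pi.smul_apply, smul_eq_mul]
      ring
    rw [hsum, Matrix.mulVec_zero, smul_zero, zero_add] at h3
    have he : e = 0 := by
      rcases smul_eq_zero.1 h3.symm with h | h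
      · rcases mul_eq_zero.1 h with h | h
        · exact h
        · exact absurd (sub_eq_zero.1 h).symm hbc
      · exact absurd h hv
    subst he
    rw [zero_smul, add_zero] at hsum
    have hf : f = 0 := by
      by_contra hf
      apply hu2'
      rw [Submodule.mem_span_singleton]
      refine ⟨-(f⁻¹ * a), ?_⟩
      have h4 : f • u2 = -(a • u1) := by
        rw [eq_neg_iff_add_eq_zero, add_comm]; exact hsum
      have h8 : u2 = f⁻¹ • (f • u2) := by rw [smul_smul, inv_mul_cancel₀ hf, one_smul]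
      rw [h8, h4, smul_neg, smul_smul, neg_smul]
    subst hf
    rw [zero_smul, add_zero] at hsum
    rcases smul_eq_zero.1 hsum with h | h
    · exact ⟨h, rfl, rfl⟩
    · exact absurd h hu1'
  obtain ⟨k, P, hk, h0, h1, h2'⟩ := exists_SL u1 u3 u2 hli
  have e0 : (fun i => P i 0) = u1 := funext h0
  have e1 : (fun i => P i 1) = k • u3 := funext h1
  have e2 : (fun i => P i 2) = u2 := funext h2'
  have hgP : g * (P : Matrix (Fin 3) (Fin 3) K) = (P : Matrix (Fin 3) (Fin 3) K) * diagonal ![b, c, b] := by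
    apply cols_diag
    intro j
    fin_cases j
    · show g *ᵥ (fun i => P i 0) = b • (fun i => P i 0)
      rw [e0, hg1]
    · show g *ᵥ (fun i => P i 1) = c • (fun i => P i 1)
      rw [e1, Matrix.mulVec_smul, hgu3, smul_comm]
    · show g *ᵥ (fun i => P i 2) = b • (fun i => P i 2)
      rw [e2, hg2]
  have hd := congrArg Matrix.det hgP
  rw [Matrix.det_mul, Matrix.det_mul, hdet, P.det_coe, Matrix.det_diagonal, Fin.prod_univ_three] at hd
  simp at hd
  -- hd : b * c * b = 1
  apply hbc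
  have h9 : b * (b * c * b) = c := by
    calc b * (b * c * b) = b ^ 3 * c := by ring
      _ = c := by rw [hb3, one_mul]
  rw [← hd, mul_one] at h9
  exact h9

theorem eig (g : Matrix (Fin 3) (Fin 3) K) (hdet : g.det = 1) (a b c : K) (hbc : b ≠ c) (hb3 : b ^ 3 = 1) (hc3 : c ^ 3 = 1)
    (hnb : g ≠ scalar (Fin 3) b) (hnc : g ≠ scalar (Fin 3) c)
    (hprod : (g - scalar (Fin 3) a) * ((g - scalar (Fin 3) b) * (g - scalar (Fin 3) c)) = 0) : ∃ v, v ≠ 0 ∧ g *ᵥ v = a • v := by
  classical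
  by_contra hcon
  push Not at hcon
  have hsc : ∀ (r : K) (x : Fin 3 → K), (g - scalar (Fin 3) r) *ᵥ x = g *ᵥ x - r • x := by
    intro r x
    rw [Matrix.sub_mulVec, Matrix.scalar_apply, ← Matrix.smul_one_eq_diagonal, Matrix.smul_mulVec, Matrix.one_mulVec]
  have h1 : ∀ x, (g - scalar (Fin 3) b) *ᵥ ((g - scalar (Fin 3) c) *ᵥ x) = 0 := by
    intro x
    by_contra h2
    apply hcon _ h2
    have h3 : ((g - scalar (Fin 3) a) * ((g - scalar (Fin 3) b) * (g - scalar (Fin 3) c))) *ᵥ x = 0 := by rw [hprod, Matrix.zero_mulVec]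
    rw [← Matrix.mulVec_mulVec, ← Matrix.mulVec_mulVec, hsc a, sub_eq_zero] at h3
    exact h3
  have h1' : ∀ x, (g - scalar (Fin 3) c) *ᵥ ((g - scalar (Fin 3) b) *ᵥ x) = 0 := by
    intro x
    rw [← h1 x]
    rw [hsc, hsc, hsc, hsc, Matrix.mulVec_sub, Matrix.mulVec_sub, Matrix.mulVec_smul, Matrix.mulVec_smul, smul_sub, smul_sub, smul_comm]
    abel
  have hb' : ∀ x, g *ᵥ ((g - scalar (Fin 3) b) *ᵥ x) = c • ((g - scalar (Fin 3) b) *ᵥ x) := by
    intro x
    have := h1' x
    rwa [hsc c, sub_eq_zero] at this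
  have hc' : ∀ x, g *ᵥ ((g - scalar (Fin 3) c) *ᵥ x) = b • ((g - scalar (Fin 3) c) *ᵥ x) := by
    intro x
    have := h1 x
    rwa [hsc b, sub_eq_zero] at this
  have hrn : Module.finrank K (LinearMap.range (g - scalar (Fin 3) b).mulVecLin) + Module.finrank K (LinearMap.ker (g - scalar (Fin 3) b).mulVecLin) = 3 := by
    rw [LinearMap.finrank_range_add_finrank_ker, Module.finrank_fin_fun]
  have hle : LinearMap.range (g - scalar (Fin 3) b).mulVecLin ≤ LinearMap.ker (g - scalar (Fin 3) c).mulVecLin := by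
    rintro _ ⟨x, rfl⟩
    exact h1' x
  have hle' := Submodule.finrank_mono hle
  by_cases h5 : 2 ≤ Module.finrank K (LinearMap.ker (g - scalar (Fin 3) b).mulVecLin)
  · exact caseC g hdet b c hbc hb3 h5 hnb hb'
  · exact caseC g hdet c b hbc.symm hc3 (by omega) hnc hc'

section four

variable [Fintype K] (hK : Fintype.card K = 4)

include hK

theorem exists_omega : ∃ w : K, w ≠ 0 ∧ w ≠ 1 ∧ w ^ 3 = 1 ∧ 1 + w + w ^ 2 = 0 ∧ w ^ 2 ≠ 1 ∧ w ^ 2 ≠ w := by
  classical
  have hch := char_two hK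
  have h2 : (2 : K) = 0 := CharTwo.two_eq_zero
  obtain ⟨w, hw⟩ : ∃ w : K, w ∉ ({0, 1} : Finset K) := by
    by_contra hcon
    push Not at hcon
    have h1 : (Finset.univ : Finset K) ⊆ {0, 1} := fun x _ => hcon x
    have h3 := Finset.card_le_card h1
    rw [Finset.card_univ, hK] at h3
    have h4 : ({0, 1} : Finset K).card ≤ 2 := Finset.card_le_two
    omega
  simp only [Finset.mem_insert, Finset.mem_singleton, not_or] at hw
  obtain ⟨h0, h1⟩ := hw
  have h3 := pow_three_eq hK w h0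
  have h4 : 1 + w + w ^ 2 = 0 := by
    have h5 : (w - 1) * (1 + w + w ^ 2) = 0 := by linear_combination h3
    rcases mul_eq_zero.1 h5 with h | h
    · exact absurd (sub_eq_zero.1 h) h1
    · exact h
  refine ⟨w, h0, h1, h3, h4, ?_, ?_⟩
  · intro h5
    apply h1
    have : (w - 1) ^ 2 = 0 := by linear_combination h5 + (1 - w) * h2
    exact sub_eq_zero.1 (pow_eq_zero_iff (two_ne_zero) |>.1 this)
  · intro h5
    have h6 : w * (w - 1) = 0 := by linear_combination h5
    rcases mul_eq_zero.1 h6 with h | h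
    · exact h0 h
    · exact h1 (sub_eq_zero.1 h)

theorem order_three (w : K) (h0 : w ≠ 0) (h1 : w ≠ 1) (hw3 : w ^ 3 = 1) (hw : 1 + w + w ^ 2 = 0) (hw1 : w ^ 2 ≠ 1) (hww : w ^ 2 ≠ w)
    (g : SpecialLinearGroup (Fin 3) K) (hg : orderOf (QuotientGroup.mk g : ProjectiveSpecialLinearGroup (Fin 3) K) = 3) :
    ∃ P : SpecialLinearGroup (Fin 3) K, (g : Matrix (Fin 3) (Fin 3) K) * (P : Matrix (Fin 3) (Fin 3) K) =
      (P : Matrix (Fin 3) (Fin 3) K) * diagonal ![1, w, w ^ 2] := by
  classical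
  have hch := char_two hK
  have h2 : (2 : K) = 0 := CharTwo.two_eq_zero
  have hg3 : (QuotientGroup.mk (g ^ 3) : ProjectiveSpecialLinearGroup (Fin 3) K) = 1 := by
    have := pow_orderOf_eq_one (QuotientGroup.mk g : ProjectiveSpecialLinearGroup (Fin 3) K)
    rw [hg] at this
    exact this
  have hg1 : g ∉ Subgroup.center (SpecialLinearGroup (Fin 3) K) := by
    intro h
    have h3 : (QuotientGroup.mk g : ProjectiveSpecialLinearGroup (Fin 3) K) = 1 := (QuotientGroup.eq_one_iff g).2 h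
    rw [h3, orderOf_one] at hg
    exact absurd hg (by norm_num)
  have hns : ∀ a : K, a ≠ 0 → (g : Matrix (Fin 3) (Fin 3) K) ≠ scalar (Fin 3) a := by
    intro a ha h
    obtain ⟨D, hD, hD'⟩ := scalar_mem hK a ha
    apply hg1
    have : g = D := Subtype.ext (h.trans hD'.symm)
    rw [this]; exact hD
  obtain ⟨r, hr3, hr⟩ := Matrix.SpecialLinearGroup.mem_center_iff.1 ((QuotientGroup.eq_one_iff _).1 hg3)
  rw [Fintype.card_fin] at hr3
  have hr0 : r ≠ 0 := by
    rintro rfl
    norm_num at hr3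
  have hrg : (g : Matrix (Fin 3) (Fin 3) K) ^ 3 = scalar (Fin 3) r := by rw [hr]; rfl
  by_cases hr1 : r = 1
  swap
  · exfalso
    open Polynomial in
    have hirr : Irreducible (X ^ 3 - C r : K[X]) := by
      have hm : (X ^ 3 - C r : K[X]).Monic := monic_X_pow_sub_C r (by norm_num)
      rw [hm.irreducible_iff_roots_eq_zero_of_degree_le_three]
      · rw [Multiset.eq_zero_iff_forall_notMem]
        intro x hx
        rw [mem_roots hm.ne_zero, IsRoot.def, eval_sub, eval_pow, eval_X, eval_C, sub_eq_zero] at hx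
        by_cases hx0 : x = 0
        · rw [hx0] at hx
          apply hr0
          rw [← hx]; norm_num
        · rw [pow_three_eq hK x hx0] at hx
          exact hr1 hx.symm
      · rw [natDegree_X_pow_sub_C]; norm_num
      · rw [natDegree_X_pow_sub_C]
    have haev : Polynomial.aeval (g : Matrix (Fin 3) (Fin 3) K) (Polynomial.X ^ 3 - Polynomial.C r : Polynomial K) = 0 := by
      rw [map_sub, map_pow, Polynomial.aeval_X, Polynomial.aeval_C, hrg, sub_eq_zero]
      rfl
    have hm : (Polynomial.X ^ 3 - Polynomial.C r : Polynomial K).Monic := Polynomial.monic_X_pow_sub_C r (by norm_num)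
    have hmin := minpoly.eq_of_irreducible_of_monic hirr haev hm
    have hdvd := Matrix.minpoly_dvd_charpoly (g : Matrix (Fin 3) (Fin 3) K)
    rw [← hmin] at hdvd
    have hch' : (g : Matrix (Fin 3) (Fin 3) K).charpoly = Polynomial.X ^ 3 - Polynomial.C r := by
      apply Polynomial.eq_of_monic_of_dvd_of_natDegree_le hm (Matrix.charpoly_monic _) hdvd
      rw [Matrix.charpoly_natDegree_eq_dim, Polynomial.natDegree_X_pow_sub_C, Fintype.card_fin]
    have hdet := Matrix.det_eq_sign_charpoly_coeff (g : Matrix (Fin 3) (Fin 3) K)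
    rw [hch', g.det_coe] at hdet
    simp at hdet
    exact hr1 (by linear_combination -hdet)
  · rw [hr1] at hrg
    have hg3' : (g : Matrix (Fin 3) (Fin 3) K) * ((g : Matrix (Fin 3) (Fin 3) K) * (g : Matrix (Fin 3) (Fin 3) K)) = 1 := by
      rw [← pow_two, ← pow_succ', hrg]; simp
    have key : ∀ a b c : K, a + b + c = 0 → a * b + a * c + b * c = 0 → a * b * c = 1 →
        ((g : Matrix (Fin 3) (Fin 3) K) - scalar (Fin 3) a) * (((g : Matrix (Fin 3) (Fin 3) K) - scalar (Fin 3) b) * ((g : Matrix (Fin 3) (Fin 3) K) - scalar (Fin 3) c)) = 0 := by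
      intro a b c k1 k2 k3
      have e : ∀ r : K, (scalar (Fin 3) r : Matrix (Fin 3) (Fin 3) K) = r • 1 := by
        intro r
        rw [Matrix.scalar_apply, Matrix.smul_one_eq_diagonal]
      rw [e, e, e]
      set G := (g : Matrix (Fin 3) (Fin 3) K)
      have h5 : (G - a • 1) * ((G - b • 1) * (G - c • 1)) = G * (G * G) - (a + b + c) • (G * G) + (a * b + a * c + b * c) • G - (a * b * c) • (1 : Matrix (Fin 3) (Fin 3) K) := by
        simp only [sub_mul, mul_sub, Matrix.smul_mul, Matrix.mul_smul, one_mul, mul_one, smul_sub, smul_smul, add_smul]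
        module
      rw [h5, k1, k2, k3, hg3', zero_smul, zero_smul, one_smul]
      simp
    have hw6 : (w ^ 2) ^ 3 = 1 := by rw [← pow_mul, mul_comm, pow_mul, hw3, one_pow]
    obtain ⟨v1, hv1, hgv1⟩ := eig (g : Matrix (Fin 3) (Fin 3) K) g.det_coe 1 w (w ^ 2) hww.symm hw3 hw6
      (hns w h0) (hns _ (pow_ne_zero 2 h0)) (key 1 w (w ^ 2) (by linear_combination hw) (by linear_combination hw3 - 1 + hw) (by linear_combination hw3))
    obtain ⟨v2, hv2, hgv2⟩ := eig (g : Matrix (Fin 3) (Fin 3) K) g.det_coe w 1 (w ^ 2) hw1.symm (one_pow 3) hw6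
      (hns 1 one_ne_zero) (hns _ (pow_ne_zero 2 h0)) (key w 1 (w ^ 2) (by linear_combination hw) (by linear_combination hw3 - 1 + hw) (by linear_combination hw3))
    obtain ⟨v3, hv3, hgv3⟩ := eig (g : Matrix (Fin 3) (Fin 3) K) g.det_coe (w ^ 2) 1 w h1.symm (one_pow 3) hw3
      (hns 1 one_ne_zero) (hns _ h0) (key (w ^ 2) 1 w (by linear_combination hw) (by linear_combination hw3 - 1 + hw) (by linear_combination hw3))
    rw [one_smul] at hgv1
    have hli : LinearIndependent K ![v1, v2, v3] := by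
      apply li3
      intro a b c hsum
      set G := (g : Matrix (Fin 3) (Fin 3) K)
      have e1 : a • v1 + (b * w) • v2 + (c * w ^ 2) • v3 = 0 := by
        have := congrArg (fun x => G *ᵥ x) hsum
        simp only [Matrix.mulVec_add, Matrix.mulVec_smul, hgv1, hgv2, hgv3, Matrix.mulVec_zero, smul_smul] at this
        exact this
      have e2 : a • v1 + (b * w ^ 2) • v2 + (c * w ^ 4) • v3 = 0 := by
        have := congrArg (fun x => G *ᵥ x) e1
        simp only [Matrix.mulVec_add, Matrix.mulVec_smul, hgv1, hgv2, hgv3, Matrix.mulVec_zero, smul_smul] at this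
        rw [show b * w * w = b * w ^ 2 by ring, show c * w ^ 2 * w ^ 2 = c * w ^ 4 by ring] at this
        exact this
      have hch2 := h2
      -- sum: 3 a v1 + b (1 + w + w^2) v2 + c (1 + w^2 + w^4) v3 = 0
      have e3 : a • v1 = 0 := by
        have h5 : (a • v1 + b • v2 + c • v3) + (a • v1 + (b * w) • v2 + (c * w ^ 2) • v3) + (a • v1 + (b * w ^ 2) • v2 + (c * w ^ 4) • v3)
          = (3 * a) • v1 + (b * (1 + w + w ^ 2)) • v2 + (c * (1 + w ^ 2 + w ^ 4)) • v3 := by module
        rw [hsum, e1, e2, hw, show (1 : K) + w ^ 2 + w ^ 4 = 0 by linear_combination w * hw3 + hw] at h5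
        have h6 : (3 : K) * a = a := by linear_combination a * h2
        rw [h6] at h5
        simp only [mul_zero, zero_smul, add_zero] at h5
        exact h5.symm
      have ha : a = 0 := by
        rcases smul_eq_zero.1 e3 with h | h
        · exact h
        · exact absurd h hv1
      subst ha
      rw [zero_smul, zero_add] at hsum e1
      have e4 : (c * (w ^ 2 - w)) • v3 = 0 := by
        have h5 : (c * (w ^ 2 - w)) • v3 = ((b * w) • v2 + (c * w ^ 2) • v3) - w • (b • v2 + c • v3) := by module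
        rw [h5, hsum, e1, smul_zero, sub_zero]
      have hc : c = 0 := by
        rcases smul_eq_zero.1 e4 with h | h
        · rcases mul_eq_zero.1 h with h | h
          · exact h
          · exact absurd (sub_eq_zero.1 h) hww
        · exact absurd h hv3
      subst hc
      rw [zero_smul, add_zero] at hsum
      rcases smul_eq_zero.1 hsum with h | h
      · exact ⟨rfl, h, rfl⟩
      · exact absurd h hv2
    obtain ⟨k, P, hk, q0, q1, q2⟩ := exists_SL v1 v2 v3 hli
    have f0 : (fun i => P i 0) = v1 := funext q0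
    have f1 : (fun i => P i 1) = k • v2 := funext q1
    have f2 : (fun i => P i 2) = v3 := funext q2
    refine ⟨P, ?_⟩
    apply cols_diag
    intro j
    fin_cases j
    · show (g : Matrix (Fin 3) (Fin 3) K) *ᵥ (fun i => P i 0) = (1 : K) • (fun i => P i 0)
      rw [f0, hgv1, one_smul]
    · show (g : Matrix (Fin 3) (Fin 3) K) *ᵥ (fun i => P i 1) = w • (fun i => P i 1)
      rw [f1, Matrix.mulVec_smul, hgv2, smul_comm]
    · show (g : Matrix (Fin 3) (Fin 3) K) *ᵥ (fun i => P i 2) = (w ^ 2) • (fun i => P i 2)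
      rw [f2, hgv3]

/-- no element of order 15 -/
theorem s0819 (x : ProjectiveSpecialLinearGroup (Fin 3) K) : orderOf x ≠ 15 := by
  classical
  intro hx
  obtain ⟨w, h0, h1, hw3, hw, hw1, hww⟩ := exists_omega hK
  obtain ⟨g, rfl⟩ := QuotientGroup.mk_surjective x
  have h5 : orderOf (QuotientGroup.mk (g ^ 5) : ProjectiveSpecialLinearGroup (Fin 3) K) = 3 := by
    have h6 : (QuotientGroup.mk (g ^ 5) : ProjectiveSpecialLinearGroup (Fin 3) K) = (QuotientGroup.mk g) ^ 5 := rfl
    rw [h6, orderOf_pow' _ (by norm_num), hx]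
    norm_num
  obtain ⟨P, hP⟩ := order_three hK w h0 h1 hw3 hw hw1 hww (g ^ 5) h5
  set t : Matrix (Fin 3) (Fin 3) K := diagonal ![1, w, w ^ 2] with ht
  let A : SpecialLinearGroup (Fin 3) K := P⁻¹ * g * P
  have hA : (A : Matrix (Fin 3) (Fin 3) K) * t = t * (A : Matrix (Fin 3) (Fin 3) K) := by
    have hPP : (P : Matrix (Fin 3) (Fin 3) K) * ((P⁻¹ : SpecialLinearGroup (Fin 3) K) : Matrix (Fin 3) (Fin 3) K) = 1 := congrArg Subtype.val (mul_inv_cancel P)
    have hPP' : ((P⁻¹ : SpecialLinearGroup (Fin 3) K) : Matrix (Fin 3) (Fin 3) K) * (P : Matrix (Fin 3) (Fin 3) K) = 1 := congrArg Subtype.val (inv_mul_cancel P)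
    have hA5 : t = ((P⁻¹ * g ^ 5 * P : SpecialLinearGroup (Fin 3) K) : Matrix (Fin 3) (Fin 3) K) := by
      show t = ((P⁻¹ : SpecialLinearGroup (Fin 3) K) : Matrix (Fin 3) (Fin 3) K) * ((g ^ 5 : SpecialLinearGroup (Fin 3) K) : Matrix (Fin 3) (Fin 3) K) * (P : Matrix (Fin 3) (Fin 3) K)
      rw [mul_assoc, hP, ← mul_assoc, hPP', one_mul]
    have hcomm : A * (P⁻¹ * g ^ 5 * P) = (P⁻¹ * g ^ 5 * P) * A := by
      show (P⁻¹ * g * P) * (P⁻¹ * g ^ 5 * P) = (P⁻¹ * g ^ 5 * P) * (P⁻¹ * g * P)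
      have e1 : (P⁻¹ * g * P) * (P⁻¹ * g ^ 5 * P) = P⁻¹ * (g * g ^ 5) * P := by group
      have e2 : (P⁻¹ * g ^ 5 * P) * (P⁻¹ * g * P) = P⁻¹ * (g ^ 5 * g) * P := by group
      rw [e1, e2, ← pow_succ, ← pow_succ']
    rw [hA5]
    exact congrArg Subtype.val hcomm
  -- A is diagonal
  have hoff : ∀ i j, i ≠ j → (A : Matrix (Fin 3) (Fin 3) K) i j = 0 := by
    intro i j hij
    have h6 : ((A : Matrix (Fin 3) (Fin 3) K) * t) i j = (t * (A : Matrix (Fin 3) (Fin 3) K)) i j := by rw [hA]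
    rw [ht, Matrix.mul_diagonal, Matrix.diagonal_mul] at h6
    have h7 : (![1, w, w ^ 2] i - ![1, w, w ^ 2] j) * (A : Matrix (Fin 3) (Fin 3) K) i j = 0 := by
      linear_combination -h6
    rcases mul_eq_zero.1 h7 with h | h
    · exfalso
      fin_cases i <;> fin_cases j <;> simp at h hij
      · exact h1 (sub_eq_zero.1 h).symm
      · exact hw1 (sub_eq_zero.1 h).symm
      · exact h1 (sub_eq_zero.1 h)
      · exact hww (sub_eq_zero.1 h).symm
      · exact hw1 (sub_eq_zero.1 h)
      · exact hww (sub_eq_zero.1 h)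
    · exact h
  have hdiag : (A : Matrix (Fin 3) (Fin 3) K) = diagonal (fun i => (A : Matrix (Fin 3) (Fin 3) K) i i) := by
    ext i j
    rw [Matrix.diagonal_apply]
    split_ifs with h
    · rw [h]
    · exact hoff i j h
  have hne : ∀ i, (A : Matrix (Fin 3) (Fin 3) K) i i ≠ 0 := by
    have h6 := A.det_coe
    rw [hdiag, Matrix.det_diagonal] at h6
    intro i h7
    rw [Finset.prod_eq_zero (f := fun i => (A : Matrix (Fin 3) (Fin 3) K) i i) (Finset.mem_univ i) h7] at h6
    exact zero_ne_one h6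
  have hA3 : A ^ 3 = 1 := by
    apply Subtype.ext
    show (A : Matrix (Fin 3) (Fin 3) K) ^ 3 = 1
    rw [hdiag, Matrix.diagonal_pow]
    rw [← Matrix.diagonal_one]
    congr 1
    funext i
    exact pow_three_eq hK _ (hne i)
  have hg3 : g ^ 3 = 1 := by
    have h6 : g = P * A * P⁻¹ := by
      show g = P * (P⁻¹ * g * P) * P⁻¹
      group
    rw [h6, conj_pow, hA3]; group
  have h7 : (QuotientGroup.mk g : ProjectiveSpecialLinearGroup (Fin 3) K) ^ 3 = 1 := by
    have : (QuotientGroup.mk (g ^ 3) : ProjectiveSpecialLinearGroup (Fin 3) K) = 1 := by rw [hg3]; rfl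
    exact this
  have h8 := orderOf_dvd_of_pow_eq_one h7
  rw [hx] at h8
  norm_num at h8

theorem conj_three (x y : ProjectiveSpecialLinearGroup (Fin 3) K) (hx : orderOf x = 3) (hy : orderOf y = 3) : IsConj x y := by
  classical
  obtain ⟨w, h0, h1, hw3, hw, hw1, hww⟩ := exists_omega hK
  obtain ⟨g, rfl⟩ := QuotientGroup.mk_surjective x
  obtain ⟨h, rfl⟩ := QuotientGroup.mk_surjective y
  obtain ⟨P, hP⟩ := order_three hK w h0 h1 hw3 hw hw1 hww g hx
  obtain ⟨Q, hQ⟩ := order_three hK w h0 h1 hw3 hw hw1 hww h hy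
  have hdet : (diagonal ![1, w, w ^ 2] : Matrix (Fin 3) (Fin 3) K).det = 1 := by
    rw [Matrix.det_diagonal, Fin.prod_univ_three]
    simp
    linear_combination hw3
  let t : SpecialLinearGroup (Fin 3) K := ⟨diagonal ![1, w, w ^ 2], hdet⟩
  have h3 : g * P = P * t := Subtype.ext hP
  have h4 : h * Q = Q * t := Subtype.ext hQ
  have key : ∀ (g P : SpecialLinearGroup (Fin 3) K), g * P = P * t → IsConj (QuotientGroup.mk t : ProjectiveSpecialLinearGroup (Fin 3) K) (QuotientGroup.mk g) := by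
    intro g P h5
    rw [isConj_iff]
    refine ⟨QuotientGroup.mk P, ?_⟩
    rw [mul_inv_eq_iff_eq_mul]
    have h6 : (QuotientGroup.mk (g * P) : ProjectiveSpecialLinearGroup (Fin 3) K) = QuotientGroup.mk (P * t) := by rw [h5]
    exact h6.symm
  exact (key g P h3).symm.trans (key h Q h4)

theorem s2739 (X Y : Subgroup (ProjectiveSpecialLinearGroup (Fin 3) K)) (hX : Nat.card X = 3) (hY : Nat.card Y = 3) :
    ∃ g : ProjectiveSpecialLinearGroup (Fin 3) K, MulAut.conj g • X = Y := by
  have key : ∀ X : Subgroup (ProjectiveSpecialLinearGroup (Fin 3) K), Nat.card X = 3 → ∃ x, orderOf x = 3 ∧ X = Subgroup.zpowers x := by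
    intro X hX
    have : Fact (Nat.Prime 3) := ⟨Nat.prime_three⟩
    have : Finite X := Nat.finite_of_card_ne_zero (by rw [hX]; norm_num)
    obtain ⟨x, hx⟩ := exists_prime_orderOf_dvd_card' (G := X) 3 (by rw [hX])
    refine ⟨x, by rw [Subgroup.orderOf_coe, hx], ?_⟩
    symm
    apply Subgroup.eq_of_le_of_card_ge
    · rw [Subgroup.zpowers_le]; exact x.2
    · rw [Nat.card_zpowers, Subgroup.orderOf_coe, hx, hX]
  obtain ⟨x, hx, rfl⟩ := key X hX
  obtain ⟨y, hy, rfl⟩ := key Y hY
  obtain ⟨g, hg⟩ := isConj_iff.1 (conj_three hK x y hx hy)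
  refine ⟨g, ?_⟩
  have h9 : (Subgroup.zpowers x).map (MulAut.conj g).toMonoidHom = Subgroup.zpowers y := by
    rw [MonoidHom.map_zpowers, ← hg]
    rfl
  exact h9

end four

end Cfsg.Agent.Lib.PSL34c
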