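import Mathlib

/-! Orders of block triangular groups. -/

set_option linter.all false
set_option maxHeartbeats 1000000

namespace Cfsg.Agent.Lib.Pa

open Matrix

variable {F : Type*} [Field F] {n : ℕ}

/-- the data of a block triangular matrix -/
abbrev X (F : Type*) [Field F] (b : Fin n → Fin n) := (∀ k : Fin n, GL {i : Fin n // b i = k} F) × ({p : Fin n × Fin n // b p.1 < b p.2} → F)

/-- block triangular invertible matrices -/
abbrev P (F : Type*) [Field F] (b : Fin n → Fin n) := {g : GL (Fin n) F // (g : Matrix (Fin n) (Fin n) F).BlockTriangular b}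

theorem det_ne (b : Fin n → Fin n) (g : P F b) (k : Fin n) : ((g.1 : Matrix (Fin n) (Fin n) F).toSquareBlock b k).det ≠ 0 := by
  have h1 : (g.1 : Matrix (Fin n) (Fin n) F).det ≠ 0 := by
    have := (Matrix.GeneralLinearGroup.det g.1).ne_zero
    exact this
  rw [g.2.det_fintype] at h1
  exact Finset.prod_ne_zero_iff.mp h1 k (Finset.mem_univ k)

noncomputable def f (b : Fin n → Fin n) (g : P F b) : X F b :=
  (fun k => Matrix.GeneralLinearGroup.mkOfDetNeZero _ (det_ne b g k), fun p => (g.1 : Matrix (Fin n) (Fin n) F) p.1.1 p.1.2)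

theorem f_bij (b : Fin n → Fin n) : Function.Bijective (f (F := F) b) := by
  classical
  constructor
  · intro g h hgh
    apply Subtype.ext
    apply Units.ext
    apply Matrix.ext
    intro i j
    rcases lt_trichotomy (b i) (b j) with hij | hij | hij
    · exact congrFun (congrArg Prod.snd hgh) ⟨(i, j), hij⟩
    · have h1 := congrFun (congrArg Prod.fst hgh) (b j)
      have h2 := congrArg (fun z : GL {a : Fin n // b a = b j} F => (z : Matrix {a : Fin n // b a = b j} {a : Fin n // b a = b j} F) ⟨i, hij⟩ ⟨j, rfl⟩) h1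
      exact h2
    · rw [g.2 hij, h.2 hij]
  · rintro ⟨D, u⟩
    let M : Matrix (Fin n) (Fin n) F := Matrix.of (fun i j => if h : b i < b j then u ⟨(i, j), h⟩ else if h' : b i = b j then (D (b j) : Matrix {a : Fin n // b a = b j} {a : Fin n // b a = b j} F) ⟨i, h'⟩ ⟨j, rfl⟩ else 0)
    have hM : M.BlockTriangular b := by
      intro i j hij
      show (if h : b i < b j then u ⟨(i, j), h⟩ else if h' : b i = b j then (D (b j) : Matrix {a : Fin n // b a = b j} {a : Fin n // b a = b j} F) ⟨i, h'⟩ ⟨j, rfl⟩ else 0) = 0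
      rw [dif_neg (not_lt.mpr hij.le), dif_neg (ne_of_gt hij)]
    have hblk : ∀ k, M.toSquareBlock b k = (D k : Matrix {a : Fin n // b a = k} {a : Fin n // b a = k} F) := by
      intro k
      apply Matrix.ext
      rintro ⟨i, hi⟩ ⟨j, hj⟩
      subst hj
      show (if h : b i < b j then u ⟨(i, j), h⟩ else if h' : b i = b j then (D (b j) : Matrix {a : Fin n // b a = b j} {a : Fin n // b a = b j} F) ⟨i, h'⟩ ⟨j, rfl⟩ else 0) = _
      rw [dif_neg (by rw [hi]; exact lt_irrefl _), dif_pos hi]
    have hdet : M.det ≠ 0 := by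
      rw [hM.det_fintype]
      apply Finset.prod_ne_zero_iff.mpr
      intro k _
      rw [hblk]
      exact (Matrix.GeneralLinearGroup.det (D k)).ne_zero
    refine ⟨⟨Matrix.GeneralLinearGroup.mkOfDetNeZero M hdet, hM⟩, ?_⟩
    apply Prod.ext
    · funext k
      apply Units.ext
      exact hblk k
    · funext p
      obtain ⟨⟨i, j⟩, hij⟩ := p
      show (if h : b i < b j then u ⟨(i, j), h⟩ else if h' : b i = b j then (D (b j) : Matrix {a : Fin n // b a = b j} {a : Fin n // b a = b j} F) ⟨i, h'⟩ ⟨j, rfl⟩ else 0) = _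
      rw [dif_pos hij]

/-- q-factorial -/
def fac (q r : ℕ) : ℕ := ∏ j ∈ Finset.range r, ∑ l ∈ Finset.range (j + 1), q ^ l

theorem card_GL [Fintype F] (r : ℕ) : Nat.card (GL (Fin r) F) = Fintype.card F ^ (∑ i ∈ Finset.range r, i) * (Fintype.card F - 1) ^ r * fac (Fintype.card F) r := by
  obtain ⟨t, ht⟩ : ∃ t, Fintype.card F = t + 1 := ⟨Fintype.card F - 1, by have := Fintype.card_pos (α := F); omega⟩
  rw [Matrix.card_GL_field, ht, Nat.add_sub_cancel, fac]
  rw [Fin.prod_univ_eq_prod_range (fun i => (t + 1) ^ r - (t + 1) ^ i) r]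
  have h1 : ∏ i ∈ Finset.range r, ((t + 1) ^ r - (t + 1) ^ i) = ∏ i ∈ Finset.range r, ((t + 1) ^ i * (t * ∑ l ∈ Finset.range (r - 1 - i + 1), (t + 1) ^ l)) := by
    apply Finset.prod_congr rfl
    intro i hi
    rw [Finset.mem_range] at hi
    have e1 : r - 1 - i + 1 = r - i := by omega
    have e2 := geom_sum_mul_add t (r - i)
    rw [e1]
    have e3 : (t + 1) ^ r = (t + 1) ^ i * (t + 1) ^ (r - i) := by rw [← pow_add]; congr 1; omega
    rw [e3, ← e2, Nat.sub_eq_iff_eq_add (by
      rw [e2]; exact Nat.le_mul_of_pos_right _ (by positivity))]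
    ring
  rw [h1, Finset.prod_mul_distrib, Finset.prod_mul_distrib, Finset.prod_const, Finset.card_range, Finset.prod_pow_eq_pow_sum, mul_assoc]
  congr 2
  exact Finset.prod_range_reflect (fun j => ∑ l ∈ Finset.range (j + 1), (t + 1) ^ l) r

theorem card_GL' [Fintype F] {ι : Type} [Fintype ι] [DecidableEq ι] {r : ℕ} (h : Fintype.card ι = r) : Nat.card (GL ι F) = Nat.card (GL (Fin r) F) := by
  let e : ι ≃ Fin r := Fintype.equivFinOfCardEq h
  exact Nat.card_congr (Units.mapEquiv (Matrix.reindexAlgEquiv F F e).toMulEquiv).toEquiv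

end Cfsg.Agent.Lib.Pa
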