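import Mathlib
import Cfsg.Agent.Lib.Pa1
import Cfsg.Prelude.Def_LinearParabolics

/-! Index of the standard parabolic subgroups. -/

set_option linter.all false
set_option maxHeartbeats 1000000

namespace Cfsg.Agent.Lib.Pa

open Matrix

variable {n : ℕ}

/-- partial sums -/
def S (μ : Fin n → ℕ) (j : ℕ) : ℕ := ∑ k ∈ Finset.univ.filter (fun k : Fin n => k.val < j), μ k

theorem S_mono (μ : Fin n → ℕ) {i j : ℕ} (h : i ≤ j) : S μ i ≤ S μ j := by
  apply Finset.sum_le_sum_of_subset
  intro k hk
  rw [Finset.mem_filter] at hk ⊢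
  exact ⟨hk.1, lt_of_lt_of_le hk.2 h⟩

theorem S_zero (μ : Fin n → ℕ) : S μ 0 = 0 := by
  rw [S, Finset.filter_false_of_mem (fun k _ => Nat.not_lt_zero _), Finset.sum_empty]

theorem S_succ (μ : Fin n → ℕ) (k : Fin n) : S μ (k.val + 1) = S μ k.val + μ k := by
  have h1 : Finset.univ.filter (fun j : Fin n => j.val < k.val + 1) = insert k (Finset.univ.filter (fun j : Fin n => j.val < k.val)) := by
    ext j
    simp only [Finset.mem_filter, Finset.mem_univ, true_and, Finset.mem_insert]
    rw [Nat.lt_succ_iff_lt_or_eq]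
    constructor
    · rintro (h | h)
      · exact Or.inr h
      · exact Or.inl (Fin.ext h)
    · rintro (h | h)
      · exact Or.inr (congrArg Fin.val h)
      · exact Or.inl h
  rw [S, h1, Finset.sum_insert (by simp), add_comm]
  rfl

theorem S_top (μ : Fin n → ℕ) (hμ : ∑ i, μ i = n) : S μ n = n := by
  rw [S, Finset.filter_true_of_mem (fun k _ => k.2), hμ]

theorem label_eq (μ : Fin n → ℕ) (i : Fin n) : Cfsg.compLabel μ i = (Finset.univ.filter (fun j : Fin n => S μ (j.val + 1) ≤ i.val)).card := by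
  rw [Cfsg.compLabel]
  congr 1
  apply Finset.filter_congr
  intro j _
  have : (∑ k ∈ Finset.univ.filter (fun k : Fin n => k ≤ j), μ k) = S μ (j.val + 1) := by
    rw [S]
    congr 1
    apply Finset.filter_congr
    intro k _
    rw [Nat.lt_succ_iff]
    rfl
  rw [this]

theorem label_of_mem (μ : Fin n → ℕ) (i : Fin n) (k : Fin n) (h1 : S μ k.val ≤ i.val) (h2 : i.val < S μ (k.val + 1)) : Cfsg.compLabel μ i = k.val := by
  rw [label_eq]
  have h3 : Finset.univ.filter (fun j : Fin n => S μ (j.val + 1) ≤ i.val) = Finset.univ.filter (fun j : Fin n => j < k) := by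
    apply Finset.filter_congr
    intro j _
    constructor
    · intro h
      by_contra hjk
      push Not at hjk
      have h4 : S μ (k.val + 1) ≤ S μ (j.val + 1) := S_mono μ (by have : k.val ≤ j.val := hjk; omega)
      omega
    · intro h
      have h4 : S μ (j.val + 1) ≤ S μ k.val := S_mono μ (by have : j.val < k.val := h; omega)
      omega
  rw [h3]
  have h4 : (Finset.univ.filter (fun j : Fin n => j < k)) = Finset.Iio k := by
    ext j; simp
  rw [h4, Fin.card_Iio]

theorem exists_block (μ : Fin n → ℕ) (hμ : ∑ i, μ i = n) (i : Fin n) : ∃ k : Fin n, S μ k.val ≤ i.val ∧ i.val < S μ (k.val + 1) := by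
  classical
  have hex : ∃ m, i.val < S μ (m + 1) := ⟨n - 1, by
    have hn : n - 1 + 1 = n := by have := i.2; omega
    rw [hn, S_top μ hμ]; exact i.2⟩
  let m := Nat.find hex
  have hm : i.val < S μ (m + 1) := Nat.find_spec hex
  have hmn : m < n := by
    have h1 : m ≤ n - 1 := Nat.find_min' hex (by
      have hn : n - 1 + 1 = n := by have := i.2; omega
      rw [hn, S_top μ hμ]; exact i.2)
    have := i.2
    omega
  refine ⟨⟨m, hmn⟩, ?_, hm⟩
  show S μ m ≤ i.val
  rcases Nat.eq_zero_or_pos m with h0 | h0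
  · rw [h0, S_zero]; exact Nat.zero_le _
  · by_contra hcon
    push Not at hcon
    have := Nat.find_min hex (m := m - 1) (by omega)
    apply this
    rw [Nat.sub_add_cancel h0]
    exact hcon

theorem label_lt (μ : Fin n → ℕ) (hμ : ∑ i, μ i = n) (i : Fin n) : Cfsg.compLabel μ i < n := by
  obtain ⟨k, h1, h2⟩ := exists_block μ hμ i
  rw [label_of_mem μ i k h1 h2]
  exact k.2

theorem label_iff (μ : Fin n → ℕ) (hμ : ∑ i, μ i = n) (i : Fin n) (k : Fin n) : Cfsg.compLabel μ i = k.val ↔ S μ k.val ≤ i.val ∧ i.val < S μ (k.val + 1) := by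
  constructor
  · intro h
    obtain ⟨k', h1, h2⟩ := exists_block μ hμ i
    have h3 := label_of_mem μ i k' h1 h2
    have h4 : k' = k := Fin.ext (h3.symm.trans h)
    rw [← h4]
    exact ⟨h1, h2⟩
  · rintro ⟨h1, h2⟩
    exact label_of_mem μ i k h1 h2

/-- the label map -/
def lab (μ : Fin n → ℕ) (hμ : ∑ i, μ i = n) (i : Fin n) : Fin n := ⟨Cfsg.compLabel μ i, label_lt μ hμ i⟩

theorem card_fiber (μ : Fin n → ℕ) (hμ : ∑ i, μ i = n) (k : Fin n) : Fintype.card {i : Fin n // lab μ hμ i = k} = μ k := by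
  have hle : S μ (k.val + 1) ≤ n :=
    (S_mono μ (i := k.val + 1) (j := n) (by have := k.2; omega)).trans (S_top μ hμ).le
  have e : {i : Fin n // lab μ hμ i = k} ≃ Fin (μ k) :=
    { toFun := fun i => ⟨i.1.val - S μ k.val, by
        have h := (label_iff μ hμ i.1 k).mp (congrArg Fin.val i.2)
        have h2 := S_succ μ k
        omega⟩
      invFun := fun j => ⟨⟨S μ k.val + j.val, by
        have h2 := S_succ μ k
        have := j.2
        omega⟩, by
        apply Fin.ext
        apply (label_iff μ hμ _ k).mpr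
        have h2 := S_succ μ k
        have := j.2
        constructor
        · show S μ k.val ≤ S μ k.val + j.val
          omega
        · show S μ k.val + j.val < _
          omega⟩
      left_inv := by
        intro i
        apply Subtype.ext
        apply Fin.ext
        have h := (label_iff μ hμ i.1 k).mp (congrArg Fin.val i.2)
        show S μ k.val + (i.1.val - S μ k.val) = i.1.val
        omega
      right_inv := by
        intro j
        apply Fin.ext
        show S μ k.val + j.val - S μ k.val = j.val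
        omega }
  rw [Fintype.card_congr e, Fintype.card_fin]

/-- counting pairs -/
theorem pairs_eq (b : Fin n → Fin n) : 2 * Nat.card {p : Fin n × Fin n // b p.1 < b p.2} + ∑ k, (Fintype.card {i : Fin n // b i = k}) ^ 2 = n ^ 2 := by
  classical
  have h1 : Nat.card {p : Fin n × Fin n // b p.2 < b p.1} = Nat.card {p : Fin n × Fin n // b p.1 < b p.2} :=
    Nat.card_congr { toFun := fun p => ⟨(p.1.2, p.1.1), p.2⟩, invFun := fun p => ⟨(p.1.2, p.1.1), p.2⟩, left_inv := fun p => rfl, right_inv := fun p => rfl }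
  have h2 : Nat.card {p : Fin n × Fin n // b p.1 = b p.2} = ∑ k, (Fintype.card {i : Fin n // b i = k}) ^ 2 := by
    have e : {p : Fin n × Fin n // b p.1 = b p.2} ≃ Σ k : Fin n, {i : Fin n // b i = k} × {i : Fin n // b i = k} :=
      { toFun := fun p => ⟨b p.1.2, ⟨p.1.1, p.2⟩, ⟨p.1.2, rfl⟩⟩
        invFun := fun x => ⟨(x.2.1.1, x.2.2.1), x.2.1.2.trans x.2.2.2.symm⟩
        left_inv := fun p => rfl
        right_inv := by
          rintro ⟨k, ⟨i, hi⟩, ⟨j, hj⟩⟩
          subst hj
          rfl }
    rw [Nat.card_congr e, Nat.card_sigma]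
    exact Finset.sum_congr rfl (fun k _ => by rw [Nat.card_prod, Nat.card_eq_fintype_card, pow_two])
  have h3 : Fintype.card (Fin n × Fin n) = Nat.card {p : Fin n × Fin n // b p.1 < b p.2} + Nat.card {p : Fin n × Fin n // b p.1 = b p.2} + Nat.card {p : Fin n × Fin n // b p.2 < b p.1} := by
    rw [Nat.card_eq_fintype_card, Nat.card_eq_fintype_card, Nat.card_eq_fintype_card, Fintype.card_subtype, Fintype.card_subtype, Fintype.card_subtype, ← Finset.card_univ,
      ← Finset.card_union_of_disjoint, ← Finset.card_union_of_disjoint]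
    · congr 1
      ext p
      simp only [Finset.mem_univ, Finset.mem_union, Finset.mem_filter, true_and, true_iff]
      rcases lt_trichotomy (b p.1) (b p.2) with h | h | h
      · exact Or.inl (Or.inl h)
      · exact Or.inl (Or.inr h)
      · exact Or.inr h
    · rw [Finset.disjoint_left]
      intro p hp hp'
      simp only [Finset.mem_union, Finset.mem_filter, Finset.mem_univ, true_and] at hp hp'
      rcases hp with h | h
      · exact lt_asymm h hp'
      · exact absurd hp' (by rw [h]; exact lt_irrefl _)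
    · rw [Finset.disjoint_left]
      intro p hp hp'
      simp only [Finset.mem_filter, Finset.mem_univ, true_and] at hp hp'
      exact absurd hp (by rw [hp']; exact lt_irrefl _)
  rw [Fintype.card_prod, Fintype.card_fin, h1, h2] at h3
  rw [pow_two n, h3]
  ring

theorem main {F : Type*} [Field F] [Fintype F] {q : ℕ} (hq : Fintype.card F = q) {n : ℕ} (μ : Fin n → ℕ) (hμ : ∑ i, μ i = n) :
    Nat.card (GL (Fin n) F ⧸ Cfsg.parabolicGL n F μ) * ∏ i : Fin n, ∏ j ∈ Finset.range (μ i), ∑ l ∈ Finset.range (j + 1), q ^ l =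
      ∏ j ∈ Finset.range n, ∑ l ∈ Finset.range (j + 1), q ^ l := by
  classical
  subst hq
  have hq1 : 1 < Fintype.card F := Fintype.one_lt_card
  have h1 : Nat.card ↥(Cfsg.parabolicGL n F μ) = Nat.card (P F (lab μ hμ)) :=
    Nat.card_congr (Equiv.subtypeEquivRight (fun g => ⟨fun h i j hij => h hij, fun h i j hij => h hij⟩))
  have h2 : Nat.card (P F (lab μ hμ)) = (∏ k, (Fintype.card F ^ (∑ i ∈ Finset.range (μ k), i) * (Fintype.card F - 1) ^ (μ k) * fac (Fintype.card F) (μ k))) * Fintype.card F ^ (Nat.card {p : Fin n × Fin n // lab μ hμ p.1 < lab μ hμ p.2}) := by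
    rw [Nat.card_congr (Equiv.ofBijective _ (f_bij (F := F) (lab μ hμ))), Nat.card_prod, Nat.card_pi, Nat.card_fun, Nat.card_eq_fintype_card (α := F)]
    congr 1
    apply Finset.prod_congr rfl
    intro k _
    rw [card_GL' (F := F) (card_fiber μ hμ k), card_GL]
  have h3 := (Cfsg.parabolicGL n F μ).card_mul_index
  rw [h1, h2, card_GL, Finset.prod_mul_distrib, Finset.prod_mul_distrib, Finset.prod_pow_eq_pow_sum, Finset.prod_pow_eq_pow_sum, hμ] at h3
  have h4 : (Cfsg.parabolicGL n F μ).index = Nat.card (GL (Fin n) F ⧸ Cfsg.parabolicGL n F μ) := rfl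
  rw [h4] at h3
  -- exponents
  have h5 : (∑ k, ∑ i ∈ Finset.range (μ k), i) + Nat.card {p : Fin n × Fin n // lab μ hμ p.1 < lab μ hμ p.2} = ∑ i ∈ Finset.range n, i := by
    have e1 := pairs_eq (lab μ hμ)
    rw [Finset.sum_congr rfl (fun k _ => by rw [card_fiber μ hμ k])] at e1
    have e2 : ∀ r : ℕ, (∑ i ∈ Finset.range r, i) * 2 + r = r ^ 2 := by
      intro r
      rw [Finset.sum_range_id_mul_two]
      rcases Nat.eq_zero_or_pos r with rfl | h
      · rfl
      · obtain ⟨s, rfl⟩ : ∃ s, r = s + 1 := ⟨r - 1, by omega⟩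
        rw [Nat.add_sub_cancel]; ring
    have e3 := e2 n
    have e4 : (∑ k, ∑ i ∈ Finset.range (μ k), i) * 2 + n = ∑ k, (μ k) ^ 2 := by
      rw [Finset.sum_mul]
      calc (∑ k, (∑ i ∈ Finset.range (μ k), i) * 2) + n = (∑ k, (∑ i ∈ Finset.range (μ k), i) * 2) + ∑ k, μ k := by rw [hμ]
        _ = ∑ k, ((∑ i ∈ Finset.range (μ k), i) * 2 + μ k) := by rw [Finset.sum_add_distrib]
        _ = ∑ k, (μ k) ^ 2 := Finset.sum_congr rfl (fun k _ => e2 _)
    omega
  have h6 : 0 < Fintype.card F ^ (∑ i ∈ Finset.range n, i) * (Fintype.card F - 1) ^ n := by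
    apply Nat.mul_pos
    · exact Nat.pow_pos (by omega)
    · exact Nat.pow_pos (by omega)
  apply Nat.eq_of_mul_eq_mul_left h6
  show _ = Fintype.card F ^ (∑ i ∈ Finset.range n, i) * (Fintype.card F - 1) ^ n * fac (Fintype.card F) n
  rw [← h3, ← h5, pow_add]
  show Fintype.card F ^ _ * Fintype.card F ^ _ * (Fintype.card F - 1) ^ n * (Nat.card (GL (Fin n) F ⧸ Cfsg.parabolicGL n F μ) * ∏ i : Fin n, fac (Fintype.card F) (μ i)) = _
  ring

end Cfsg.Agent.Lib.Pa
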