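import Mathlib
import Cfsg.Agent.Lib.Pa2

/-! Degrees of unipotent characters. -/

set_option linter.all false
set_option maxHeartbeats 1000000

namespace Cfsg.Agent.Lib.Pa

open Matrix Polynomial

/-- q-integer, complex -/
def Qi (q r : ℕ) : ℂ := ((∑ l ∈ Finset.range r, q ^ l : ℕ) : ℂ)

/-- q-factorial, complex -/
def Fc (q r : ℕ) : ℂ := (fac q r : ℂ)

theorem Fc_eq (q r : ℕ) : Fc q r = ∏ j ∈ Finset.range r, ((∑ l ∈ Finset.range (j + 1), q ^ l : ℕ) : ℂ) := by
  rw [Fc, fac, Nat.cast_prod]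

theorem Fc_succ (q r : ℕ) : Fc q (r + 1) = Fc q r * Qi q (r + 1) := by
  rw [Fc_eq, Fc_eq, Finset.prod_range_succ]; rfl

theorem Qi_ne {q : ℕ} (hq : 1 ≤ q) (r : ℕ) : Qi q (r + 1) ≠ 0 := by
  rw [Qi, Nat.cast_ne_zero, Finset.sum_range_succ]
  have : 0 < q ^ r := Nat.pow_pos (by omega)
  omega

theorem Fc_ne {q : ℕ} (hq : 1 ≤ q) (r : ℕ) : Fc q r ≠ 0 := by
  induction r with
  | zero => rw [Fc_eq]; simp
  | succ r ih => rw [Fc_succ]; exact mul_ne_zero ih (Qi_ne hq r)

theorem Qi_sub (q : ℕ) {j l : ℕ} (h : j ≤ l) : (q : ℂ) ^ j * Qi q (l - j) = Qi q l - Qi q j := by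
  have h1 : (∑ i ∈ Finset.range l, q ^ i) = (∑ i ∈ Finset.range j, q ^ i) + q ^ j * ∑ i ∈ Finset.range (l - j), q ^ i := by
    have h2 : l = j + (l - j) := by omega
    conv_lhs => rw [h2, Finset.sum_range_add]
    congr 1
    rw [Finset.mul_sum]
    exact Finset.sum_congr rfl (fun i _ => pow_add q j i)
  rw [Qi, Qi, Qi, h1]
  push_cast
  ring

/-- the ratio -/
noncomputable def Ra (q l j : ℕ) : ℂ := if j ≤ l then Fc q l / Fc q (l - j) else 0

/-- falling polynomial -/
noncomputable def po (q j : ℕ) : ℂ[X] := ∏ k ∈ Finset.range j, (Polynomial.X - C (Qi q k))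

theorem po_monic (q j : ℕ) : (po q j).Monic := monic_prod_of_monic _ _ (fun k _ => monic_X_sub_C _)

theorem po_deg (q j : ℕ) : (po q j).natDegree = j := by
  rw [po, natDegree_prod_of_monic _ _ (fun k _ => monic_X_sub_C _)]
  simp

theorem Ra_mul {q : ℕ} (hq : 1 ≤ q) (l : ℕ) (j : ℕ) : (q : ℂ) ^ (∑ i ∈ Finset.range j, i) * Ra q l j = (po q j).eval (Qi q l) := by
  induction j with
  | zero =>
    rw [Finset.range_zero, Finset.sum_empty, pow_zero, one_mul, Ra, if_pos (Nat.zero_le _), Nat.sub_zero, div_self (Fc_ne hq _), po, Finset.range_zero, Finset.prod_empty, eval_one]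
  | succ j ih =>
    have h1 : (po q (j + 1)).eval (Qi q l) = (po q j).eval (Qi q l) * (Qi q l - Qi q j) := by
      rw [po, Finset.prod_range_succ, eval_mul, eval_sub, eval_X, eval_C]
      rfl
    rw [h1, ← ih, Finset.sum_range_succ, pow_add]
    rcases lt_trichotomy j l with h | h | h
    · rw [← Qi_sub q h.le, Ra, Ra, if_pos h.le, if_pos (by omega : j + 1 ≤ l)]
      have e1 : l - j = (l - (j + 1)) + 1 := by omega
      rw [e1, Fc_succ]
      have n1 := Fc_ne hq (l - (j + 1))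
      have n2 := Qi_ne hq (l - (j + 1))
      field_simp
    · subst h
      rw [sub_self, mul_zero, Ra, if_neg (by omega), mul_zero]
    · rw [Ra, Ra, if_neg (by omega), if_neg (by omega)]
      ring

theorem sum_T (n : ℕ) : ∑ j ∈ Finset.range n, ∑ i ∈ Finset.range j, i = n * (n - 1) * (n - 2) / 6 := by
  have h : ∀ n : ℕ, (∑ j ∈ Finset.range n, ∑ i ∈ Finset.range j, i) * 6 = n * (n - 1) * (n - 2) := by
    intro n
    induction n with
    | zero => rfl
    | succ n ih =>
      rw [Finset.sum_range_succ, add_mul, ih]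
      have h2 := Finset.sum_range_id_mul_two n
      have h3 : (∑ i ∈ Finset.range n, i) * 6 = n * (n - 1) * 3 := by rw [← h2]; ring
      rw [h3]
      match n with
      | 0 => rfl
      | 1 => rfl
      | (n + 2) =>
        have e1 : n + 2 - 1 = n + 1 := rfl
        have e2 : n + 2 - 2 = n := rfl
        have e3 : n + 2 + 1 - 1 = n + 2 := rfl
        have e4 : n + 2 + 1 - 2 = n + 1 := rfl
        rw [e1, e2, e3, e4]
        ring
  have := h n
  omega

theorem s2424 {F : Type*} [Field F] [Fintype F] {q : ℕ} (hq : Fintype.card F = q) {n : ℕ} (ν : Fin n → ℕ) (hmono : Monotone ν) (hsum : ∑ i, ν i = n) :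
    Cfsg.unipotentCharacterGL n F ν 1 * (q : ℂ) ^ (n * (n - 1) * (n - 2) / 6) *
        ∏ i : Fin n, ∏ j ∈ Finset.range (ν i + i.val), ((∑ l ∈ Finset.range (j + 1), q ^ l : ℕ) : ℂ) =
      (∏ j ∈ Finset.range n, ((∑ l ∈ Finset.range (j + 1), q ^ l : ℕ) : ℂ)) *
        ∏ i : Fin n, ∏ j ∈ Finset.univ.filter (fun j : Fin n => i < j),
          (((∑ l ∈ Finset.range (ν j + j.val), q ^ l : ℕ) : ℂ) - ((∑ l ∈ Finset.range (ν i + i.val), q ^ l : ℕ) : ℂ)) := by
  classical
  have hq1 : 1 ≤ q := by rw [← hq]; exact Fintype.card_pos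
  set lam : Fin n → ℕ := fun i => ν i + i.val with hlam
  -- the degree
  have hdeg : Cfsg.unipotentCharacterGL n F ν 1 * ∏ i : Fin n, Fc q (lam i) = Fc q n * (Matrix.of (fun i j : Fin n => Ra q (lam i) j.val)).det := by
    rw [← Matrix.det_transpose, Matrix.det_apply, Cfsg.unipotentCharacterGL, Finset.sum_mul, Finset.mul_sum]
    apply Finset.sum_congr rfl
    intro κ _
    have hprod : ∏ i, (Matrix.of (fun i j : Fin n => Ra q (lam i) j.val))ᵀ (κ i) i = ∏ i, Ra q (lam i) (κ i).val := rfl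
    rw [hprod]
    by_cases hc : ∀ i : Fin n, (κ i).val ≤ ν i + i.val
    · rw [if_pos hc]
      have hμ : ∑ i : Fin n, (ν i + i.val - (κ i).val) = n := by
        have h1 : ∑ i : Fin n, (ν i + i.val - (κ i).val) + ∑ i : Fin n, (κ i).val = ∑ i : Fin n, (ν i + i.val) := by
          rw [← Finset.sum_add_distrib]
          exact Finset.sum_congr rfl (fun i _ => Nat.sub_add_cancel (hc i))
        have h2 : ∑ i : Fin n, (κ i).val = ∑ i : Fin n, i.val := Equiv.sum_comp κ (fun i : Fin n => i.val)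
        rw [h2, Finset.sum_add_distrib, hsum] at h1
        omega
      have h1 := main (F := F) hq (fun i => ν i + i.val - (κ i).val) hμ
      have h2 : Cfsg.fixedPointCharacter (Cfsg.parabolicGL n F fun i => ν i + i.val - (κ i).val) 1 = (Nat.card (GL (Fin n) F ⧸ Cfsg.parabolicGL n F (fun i => ν i + i.val - (κ i).val)) : ℂ) := by
        rw [Cfsg.fixedPointCharacter]
        congr 1
        exact Nat.card_congr (Equiv.subtypeUnivEquiv (fun x => one_smul _ x))
      have h3 : (Nat.card (GL (Fin n) F ⧸ Cfsg.parabolicGL n F (fun i => ν i + i.val - (κ i).val)) : ℂ) * ∏ i : Fin n, Fc q (ν i + i.val - (κ i).val) = Fc q n := by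
        have := congrArg (Nat.cast : ℕ → ℂ) h1
        rw [Nat.cast_mul, Nat.cast_prod] at this
        exact this
      have h4 : ∏ i, Ra q (lam i) (κ i).val = (∏ i, Fc q (lam i)) / ∏ i, Fc q (ν i + i.val - (κ i).val) := by
        rw [← Finset.prod_div_distrib]
        apply Finset.prod_congr rfl
        intro i _
        rw [Ra, if_pos (hc i)]
      have hne : ∏ i : Fin n, Fc q (ν i + i.val - (κ i).val) ≠ 0 := Finset.prod_ne_zero_iff.mpr (fun i _ => Fc_ne hq1 _)
      rw [h2, h4, ← h3, Units.smul_def, zsmul_eq_mul]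
      field_simp
    · rw [if_neg hc, zero_mul]
      push Not at hc
      obtain ⟨i, hi⟩ := hc
      have : ∏ i, Ra q (lam i) (κ i).val = 0 := Finset.prod_eq_zero (Finset.mem_univ i) (by rw [Ra, if_neg (not_le.mpr hi)])
      rw [this, smul_zero, mul_zero]
  -- the determinant
  have hdet : (Matrix.of (fun i j : Fin n => Ra q (lam i) j.val)).det * (q : ℂ) ^ (n * (n - 1) * (n - 2) / 6) = ∏ i : Fin n, ∏ j ∈ Finset.Ioi i, (Qi q (lam j) - Qi q (lam i)) := by
    rw [← Matrix.det_vandermonde, Matrix.det_eval_matrixOfPolynomials_eq_det_vandermonde (fun i => Qi q (lam i)) (fun j => po q j.val) (fun j => po_deg q j.val) (fun j => po_monic q j.val)]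
    have h1 : (Matrix.of (fun i j : Fin n => (po q j.val).eval (Qi q (lam i)))) = Matrix.of (fun i j : Fin n => (q : ℂ) ^ (∑ i ∈ Finset.range j.val, i) * (Matrix.of (fun i j : Fin n => Ra q (lam i) j.val)) i j) := by
      apply Matrix.ext
      intro i j
      exact (Ra_mul hq1 (lam i) j.val).symm
    rw [h1, Matrix.det_mul_row, Finset.prod_pow_eq_pow_sum, Fin.sum_univ_eq_sum_range (fun j => ∑ i ∈ Finset.range j, i) n, sum_T, mul_comm]
  have hfil : ∀ i : Fin n, Finset.univ.filter (fun j : Fin n => i < j) = Finset.Ioi i := by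
    intro i; ext j; simp
  have e1 : ∀ i : Fin n, ∏ j ∈ Finset.range (ν i + i.val), ((∑ l ∈ Finset.range (j + 1), q ^ l : ℕ) : ℂ) = Fc q (lam i) := fun i => (Fc_eq q _).symm
  rw [Finset.prod_congr rfl (fun i _ => e1 i), ← Fc_eq]
  have e2 : ∏ i : Fin n, ∏ j ∈ Finset.univ.filter (fun j : Fin n => i < j), (((∑ l ∈ Finset.range (ν j + j.val), q ^ l : ℕ) : ℂ) - ((∑ l ∈ Finset.range (ν i + i.val), q ^ l : ℕ) : ℂ)) = ∏ i : Fin n, ∏ j ∈ Finset.Ioi i, (Qi q (lam j) - Qi q (lam i)) := by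
    apply Finset.prod_congr rfl
    intro i _
    rw [hfil]
    rfl
  rw [e2, ← hdet, mul_right_comm, hdeg]
  ring

end Cfsg.Agent.Lib.Pa
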