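import Mathlib
import Cfsg.Prelude
import Cfsg.Agent.Lib.SuperE
import Cfsg.Agent.Lib.Hall

/-!
Supersolvable Hall subgroups are conjugate; subgroups of all orders in `G × A`.
-/

set_option autoImplicit false

namespace Cfsg.Agent.Lib.SuperF

open Subgroup Cfsg Cfsg.Agent.Lib.Basic Cfsg.Agent.Lib.SuperA Cfsg.Agent.Lib.SuperB
open scoped commutatorElement Pointwise

universe u v

theorem exists_sylow_of_index {G : Type*} [Group G] [Finite G] {p : ℕ} [hp : Fact p.Prime]
    {P : Subgroup G} (hP : IsPGroup p P) (hi : ¬ p ∣ P.index) : ∃ S : Sylow p G, (S : Subgroup G) = P := by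
  obtain ⟨S, hS⟩ := hP.exists_le_sylow
  refine ⟨S, le_antisymm ?_ hS⟩
  rw [← relIndex_eq_one]
  have h1 : P.relIndex (S : Subgroup G) ∣ P.index := relIndex_dvd_index_of_le hS
  have h2 : P.relIndex (S : Subgroup G) ∣ Nat.card (S : Subgroup G) := relIndex_dvd_card _ _
  obtain ⟨k, hk⟩ := IsPGroup.iff_card.mp S.isPGroup'
  rw [hk] at h2
  obtain ⟨j, -, hj⟩ := (Nat.dvd_prime_pow hp.out).mp h2
  rcases Nat.eq_zero_or_pos j with h0 | h0
  · rw [hj, h0, pow_zero]
  · exfalso
    apply hi
    rw [hj] at h1
    exact (dvd_pow_self p h0.ne').trans h1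

/-- the Sylow subgroup for the largest prime of a supersolvable Hall subgroup -/
theorem exists_sylow_in_hall {G : Type*} [Group G] [Finite G] {H : Subgroup G} (hH : IsSupersolvable H)
    (hHall : (Nat.card H).Coprime H.index) {p : ℕ} [hp : Fact p.Prime] (hpd : p ∣ Nat.card H)
    (hmax : ∀ q : ℕ, q.Prime → q ∣ Nat.card H → q ≤ p) :
    ∃ S : Sylow p G, (S : Subgroup G) ≤ H ∧ H ≤ normalizer ((S : Subgroup G) : Set G) := by
  obtain ⟨P⟩ : Nonempty (Sylow p H) := inferInstance
  have hPn := sylow_normal_of_max (Nat.card H) H le_rfl hH p hmax P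
  have h1 : IsPGroup p ((P : Subgroup H).map H.subtype) := P.isPGroup'.map _
  have h2 : ¬ p ∣ ((P : Subgroup H).map H.subtype).index := by
    rw [index_map_subtype, hp.out.dvd_mul]
    push Not
    refine ⟨P.not_dvd_index, fun h3 => ?_⟩
    have h4 := Nat.dvd_gcd hpd h3
    rw [hHall] at h4
    exact hp.out.one_lt.ne' (Nat.dvd_one.mp h4)
  obtain ⟨S, hS⟩ := exists_sylow_of_index h1 h2
  refine ⟨S, by rw [hS]; exact map_subtype_le _, ?_⟩
  rw [hS]
  exact SchurZas.le_normalizer_map_subtype (P : Subgroup H)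

theorem conj_hall (n : ℕ) : ∀ (G : Type u) [Group G] [Finite G], Nat.card G ≤ n →
    ∀ H K : Subgroup G, IsSupersolvable H → IsSupersolvable K → Nat.card H = Nat.card K →
    (Nat.card H).Coprime H.index → ∃ x : G, MulAut.conj x • H = K := by
  induction n with
  | zero => intro G _ _ h; have := Nat.card_pos (α := G); omega
  | succ n ih =>
    intro G _ _ hn H K hH hK hcard hHall
    by_cases hc1 : Nat.card H = 1
    · rw [hc1] at hcard
      have h1 := card_eq_one.mp hc1
      have h2 := card_eq_one.mp hcard.symm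
      exact ⟨1, by rw [h1, h2, map_one, one_smul]⟩
    have hidx : H.index = K.index := by
      have h1 := H.card_mul_index
      have h2 := K.card_mul_index
      rw [← hcard, ← h1] at h2
      exact (Nat.eq_of_mul_eq_mul_left Nat.card_pos h2).symm
    obtain ⟨p, hp, hpd, hmax⟩ := exists_max_prime Nat.card_pos.ne' hc1
    haveI := Fact.mk hp
    obtain ⟨S, hSH, hHS⟩ := exists_sylow_in_hall hH hHall hpd hmax
    obtain ⟨T, hTK, hKT⟩ := exists_sylow_in_hall (p := p) hK (by rw [← hcard, ← hidx]; exact hHall)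
      (by rw [← hcard]; exact hpd) (by rw [← hcard]; exact hmax)
    obtain ⟨g, hg⟩ := MulAction.exists_smul_eq G S T
    have hg' : MulAut.conj g • (S : Subgroup G) = (T : Subgroup G) := by rw [← hg]; rfl
    obtain ⟨H₁, hH₁⟩ : ∃ H₁, H₁ = MulAut.conj g • H := ⟨_, rfl⟩
    have hTH : (T : Subgroup G) ≤ H₁ := by
      rw [← hg', hH₁]; exact pointwise_smul_le_pointwise_smul_iff.mpr hSH
    have hHT : H₁ ≤ normalizer ((T : Subgroup G) : Set G) := by
      rw [← hg', hH₁]
      intro x hx
      rw [SchurZas.mem_conj_smul_iff] at hx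
      apply Coprime.mem_normalizer_of_conj_smul_eq
      have h1 := Coprime.conj_smul_eq_of_mem_normalizer (hHS hx)
      have h2 : x * g = g * (g⁻¹ * x * g) := by group
      rw [← mul_smul, ← map_mul, h2, map_mul, mul_smul, h1]
    have hH₁s : IsSupersolvable H₁ := by
      rw [hH₁]
      exact of_equiv (equivSMul (MulAut.conj g) H) hH
    have hH₁c : Nat.card H₁ = Nat.card K := by
      rw [hH₁, SchurZas.card_conj_smul, hcard]
    have hH₁i : (Nat.card H₁).Coprime H₁.index := by
      have h1 := H₁.card_mul_index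
      rw [hH₁c, ← hcard, ← H.card_mul_index] at h1
      rw [Nat.eq_of_mul_eq_mul_left Nat.card_pos h1, hH₁c, ← hcard]
      exact hHall
    obtain ⟨L, hL⟩ : ∃ L, L = normalizer ((T : Subgroup G) : Set G) := ⟨_, rfl⟩
    rw [← hL] at hHT hKT
    have hTL : (T : Subgroup G) ≤ L := by rw [hL]; exact le_normalizer
    have hTn : ((T : Subgroup G).subgroupOf L).Normal := by
      rw [normal_subgroupOf_iff_le_normalizer hTL, hL]
    have hT0 : (T : Subgroup G) ≠ ⊥ := T.ne_bot_of_dvd_card (hpd.trans H.card_subgroup_dvd_card)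
    have hTs0 : (T : Subgroup G).subgroupOf L ≠ ⊥ := by
      intro h
      rw [subgroupOf_eq_bot] at h
      exact hT0 (le_bot_iff.mp (h le_rfl hTL))
    have hlt := card_quotient_lt hTs0
    have hle : Nat.card L ≤ Nat.card G := card_le_card_group L
    -- cardinalities of images
    have hmapc : ∀ X : Subgroup G, (T : Subgroup G) ≤ X → X ≤ L →
        Nat.card (T : Subgroup G) * Nat.card ((X.subgroupOf L).map (QuotientGroup.mk' ((T : Subgroup G).subgroupOf L)))
          = Nat.card X := by
      intro X hTX hXL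
      have h1 := Cores.card_comap_eq (QuotientGroup.mk' ((T : Subgroup G).subgroupOf L))
        (QuotientGroup.mk'_surjective _) ((X.subgroupOf L).map (QuotientGroup.mk' ((T : Subgroup G).subgroupOf L)))
      rw [QuotientGroup.comap_map_mk', sup_eq_right.mpr (by
        intro x hx; exact hTX hx), QuotientGroup.ker_mk',
        Nat.card_congr (subgroupOfEquivOfLe hXL).toEquiv,
        Nat.card_congr (subgroupOfEquivOfLe hTL).toEquiv] at h1
      first
        | exact h1.symm
        | (rw [mul_comm]; exact h1.symm)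
    have hcard' : Nat.card ((H₁.subgroupOf L).map (QuotientGroup.mk' ((T : Subgroup G).subgroupOf L))) =
        Nat.card ((K.subgroupOf L).map (QuotientGroup.mk' ((T : Subgroup G).subgroupOf L))) := by
      have h1 := hmapc H₁ hTH hHT
      have h2 := hmapc K hTK hKT
      rw [hH₁c, ← h2] at h1
      exact Nat.eq_of_mul_eq_mul_left Nat.card_pos h1
    obtain ⟨x, hx⟩ := ih (L ⧸ (T : Subgroup G).subgroupOf L) (by omega)
      ((H₁.subgroupOf L).map (QuotientGroup.mk' ((T : Subgroup G).subgroupOf L)))
      ((K.subgroupOf L).map (QuotientGroup.mk' ((T : Subgroup G).subgroupOf L)))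
      (SuperA.map _ (MonoidHom.subgroupMap_surjective _ _) (of_equiv (subgroupOfEquivOfLe hHT).symm hH₁s))
      (SuperA.map _ (MonoidHom.subgroupMap_surjective _ _) (of_equiv (subgroupOfEquivOfLe hKT).symm hK))
      hcard' (by
        have h1 : Nat.card ((H₁.subgroupOf L).map (QuotientGroup.mk' ((T : Subgroup G).subgroupOf L))) ∣
            Nat.card H₁ := ⟨_, by rw [mul_comm]; exact (hmapc H₁ hTH hHT).symm⟩
        have h2 : ((H₁.subgroupOf L).map (QuotientGroup.mk' ((T : Subgroup G).subgroupOf L))).index ∣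
            H₁.index := by
          refine (index_map_dvd _ (QuotientGroup.mk'_surjective _)).trans ?_
          exact relIndex_dvd_index_of_le hHT
        exact Nat.Coprime.coprime_dvd_left h1 (Nat.Coprime.coprime_dvd_right h2 hH₁i))
    obtain ⟨y, rfl⟩ := QuotientGroup.mk'_surjective _ x
    rw [← SchurZas.map_conj_smul] at hx
    have h3 := SchurZas.sup_eq_of_map_mk_eq hx
    have h4 : (T : Subgroup G).subgroupOf L ≤ MulAut.conj y • H₁.subgroupOf L := by
      intro t ht
      rw [SchurZas.mem_conj_smul_iff]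
      exact hTH (by
        have := hTn.conj_mem t ht y⁻¹
        rw [inv_inv] at this
        exact this)
    have h5 : (T : Subgroup G).subgroupOf L ≤ K.subgroupOf L := fun t ht => hTK ht
    rw [sup_eq_right.mpr h4, sup_eq_right.mpr h5] at h3
    have h6 := SchurZas.conj_smul_subgroupOf' y hHT hKT h3
    refine ⟨(y : G) * g, ?_⟩
    rw [map_mul, mul_smul, ← hH₁, h6]

/-- the order trick -/
theorem every_prod {G : Type u} {A : Type v} [Group G] [CommGroup A] [Finite G] [Finite A]
    (hs : Group.IsSolvable G)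
    (hA : ∀ p : ℕ, p.Prime → p ∣ Nat.card A → p ∣ Nat.card G)
    (hexp : ∀ p : ℕ, p.Prime → p ∣ Nat.card G →
      (Nat.card A).factorization p + 1 = (Nat.card G).factorization p) :
    HasSubgroupOfEveryOrder (G × A) := by
  intro d hd
  have hG0 : Nat.card G ≠ 0 := Nat.card_pos.ne'
  have hA0 : Nat.card A ≠ 0 := Nat.card_pos.ne'
  rw [Nat.card_prod] at hd
  have hd0 : d ≠ 0 := by
    rintro rfl
    exact (Nat.mul_ne_zero hG0 hA0) (Nat.eq_zero_of_zero_dvd hd)
  have hdle : ∀ p, d.factorization p ≤ (Nat.card G).factorization p + (Nat.card A).factorization p := by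
    intro p
    have h1 := (Nat.factorization_le_iff_dvd hd0 (Nat.mul_ne_zero hG0 hA0)).mpr hd p
    rwa [Nat.factorization_mul hG0 hA0, Finsupp.add_apply] at h1
  let π : Set ℕ := {p | (Nat.card G).factorization p ≤ d.factorization p}
  obtain ⟨H, hH⟩ := Hall.exists_isHall (π := π) (Hall.sep_of_solvable π hs)
  have hH0 : Nat.card H ≠ 0 := Nat.card_pos.ne'
  have hHf : ∀ p, p.Prime → (Nat.card H).factorization p =
      if p ∈ π then (Nat.card G).factorization p else 0 := by
    intro p hp
    split_ifs with hpπ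
    · have h1 := H.card_mul_index
      rw [← h1, Nat.factorization_mul hH0 index_ne_zero_of_finite, Finsupp.add_apply,
        Nat.factorization_eq_zero_of_not_dvd (hH.2 p hp hpπ), add_zero]
    · apply Nat.factorization_eq_zero_of_not_dvd
      intro h
      exact hpπ (hH.1 p hp h)
  have hnd : ∀ p, p.Prime → ¬ p ∣ Nat.card G → d.factorization p = 0 := by
    intro p hp h
    have h1 := hdle p
    rw [Nat.factorization_eq_zero_of_not_dvd h,
      Nat.factorization_eq_zero_of_not_dvd (fun h' => h (hA p hp h'))] at h1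
    omega
  have hHd : Nat.card H ∣ d := by
    rw [← Nat.factorization_prime_le_iff_dvd hH0 hd0]
    intro p hp
    rw [hHf p hp]
    split_ifs with hpπ
    · exact hpπ
    · exact Nat.zero_le _
  obtain ⟨e, he⟩ := hHd
  have he0 : e ≠ 0 := by
    rintro rfl
    rw [mul_zero] at he
    exact hd0 he
  have heA : e ∣ Nat.card A := by
    rw [← Nat.factorization_prime_le_iff_dvd he0 hA0]
    intro p hp
    have h1 : d.factorization p = (Nat.card H).factorization p + e.factorization p := by
      rw [he, Nat.factorization_mul hH0 he0, Finsupp.add_apply]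
    rw [hHf p hp] at h1
    by_cases hpG : p ∣ Nat.card G
    · have h2 := hexp p hp hpG
      split_ifs at h1 with hpπ
      · have := hdle p
        omega
      · have h3 : ¬ (Nat.card G).factorization p ≤ d.factorization p := hpπ
        omega
    · have h2 := hnd p hp hpG
      split_ifs at h1 <;> omega
  obtain ⟨B, hB⟩ := hasSubgroupOfEveryOrder (Nat.card A) A le_rfl
    (of_comm (Nat.card A) A le_rfl (fun x y => mul_comm x y)) e heA
  refine ⟨H.prod B, ?_⟩
  rw [he, Nat.card_congr (H.prodEquiv B).toEquiv, Nat.card_prod, hB]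

end Cfsg.Agent.Lib.SuperF
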