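import Mathlib
import Cfsg.Prelude
import Cfsg.Agent.Lib.NilpB
import Cfsg.Agent.Lib.MinNil
import Cfsg.Agent.Lib.Resid
import Cfsg.Agent.Lib.SchurZas
import Cfsg.Agent.Lib.Coprime
import Cfsg.Agent.Lib.SuperF

/-!
Miscellaneous results on solvable groups.
-/

set_option autoImplicit false

namespace Cfsg.Agent.Lib.SolvMisc

open Subgroup Cfsg Cfsg.Agent.Lib Cfsg.Agent.Lib.Basic
open scoped commutatorElement Pointwise

universe u v

variable {G : Type*} [Group G]

theorem le_centralizer_of_inf_eq_bot {A B : Subgroup G} [A.Normal] [B.Normal] (h : A ⊓ B = ⊥) :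
    A ≤ centralizer (B : Set G) := by
  have h1 : ⁅A, B⁆ ≤ A ⊓ B := commutator_le_inf A B
  rw [h, le_bot_iff] at h1
  rw [← commutator_eq_bot_iff_le_centralizer]; exact h1

/-- a nilpotent group with abelian Sylow subgroups is abelian -/
theorem comm_of_nilpotent_sylow [Finite G] [hn : Group.IsNilpotent G]
    (h : ∀ q : ℕ, q.Prime → ∀ P : Sylow q G, ∀ x ∈ (P : Subgroup G), ∀ y ∈ (P : Subgroup G), x * y = y * x) :
    ∀ x y : G, x * y = y * x := by
  have hnorm : ∀ q : ℕ, q.Prime → ∀ P : Sylow q G, (P : Subgroup G).Normal := by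
    intro q hq P
    haveI := Fact.mk hq
    exact P.normal_of_normalizerCondition Group.normalizerCondition_of_isNilpotent
  have hcen : ∀ q : ℕ, q.Prime → ∀ P : Sylow q G, (P : Subgroup G) ≤ center G := by
    intro q hq P
    haveI := Fact.mk hq
    have h1 : centralizer ((P : Subgroup G) : Set G) = ⊤ := by
      apply Cores.eq_top_of_sylow_le
      intro r hr
      haveI := Fact.mk hr
      obtain ⟨R⟩ : Nonempty (Sylow r G) := inferInstance
      refine ⟨R, ?_⟩
      by_cases hrq : r = q
      · subst hrq
        intro x hx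
        rw [mem_centralizer_iff]
        intro y hy
        have hRP : (R : Subgroup G) = P := by
          have := hnorm r hr P
          obtain ⟨g, hg⟩ := MulAction.exists_smul_eq G P R
          have h2 : MulAut.conj g • (P : Subgroup G) = (R : Subgroup G) := by rw [← hg]; rfl
          rw [← h2]
          exact (hnorm r hr P).conjAct g
        rw [hRP] at hx
        exact h r hr P y hy x hx
      · have := hnorm q hq P
        have := hnorm r hr R
        apply le_centralizer_of_inf_eq_bot
        have hc := Cores.card_coprime_of_isPGroup_ne hr hq hrq R.isPGroup'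
        obtain ⟨k, hk⟩ := IsPGroup.iff_card.mp P.isPGroup'
        exact inf_eq_bot_of_coprime (by rw [hk]; exact hc.pow_right k)
    intro x hx
    rw [mem_center_iff]
    intro g
    have : g ∈ centralizer ((P : Subgroup G) : Set G) := by rw [h1]; trivial
    exact (mem_centralizer_iff.mp this x hx).symm
  have htop : center G = ⊤ := by
    apply Cores.eq_top_of_sylow_le
    intro r hr
    haveI := Fact.mk hr
    obtain ⟨R⟩ : Nonempty (Sylow r G) := inferInstance
    exact ⟨R, hcen r hr R⟩
  intro x y
  have : y ∈ center G := by rw [htop]; trivial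
  exact mem_center_iff.mp this x

/-- a minimal normal subgroup contained in a normal `p`-subgroup is centralized by it -/
theorem le_centralizer_of_minimal {p : ℕ} [Fact p.Prime] [Finite G] {N L : Subgroup G} [hN : N.Normal]
    [hL : L.Normal] (hLp : IsPGroup p L) (hN0 : N ≠ ⊥) (hNL : N ≤ L)
    (hmin : ∀ K : Subgroup G, K.Normal → K ≤ N → K = ⊥ ∨ K = N) : N ≤ centralizer (L : Set G) := by
  have h3 : ((N ⊓ centralizer (L : Set G) : Subgroup G)).Normal := inferInstance
  have h4 : N ⊓ centralizer (L : Set G) ≠ ⊥ := by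
    have hVs : N.subgroupOf L ≠ ⊥ := by
      intro h
      rw [subgroupOf_eq_bot] at h
      exact hN0 (le_bot_iff.mp (h le_rfl hNL))
    have hnil := hLp.isNilpotent
    have h5 := Nilp.normal_inf_center_ne_bot (G := L) (N.subgroupOf L) hVs
    intro h6
    apply h5
    rw [eq_bot_iff]
    intro x hx
    have h7 : (x : G) ∈ N ⊓ centralizer (L : Set G) :=
      ⟨mem_subgroupOf.mp hx.1, mem_centralizer_iff.mpr fun y hy =>
        congrArg Subtype.val (mem_center_iff.mp hx.2 ⟨y, hy⟩)⟩
    rw [h6] at h7
    exact Subtype.ext (mem_bot.mp h7)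
  rcases hmin _ h3 inf_le_left with h | h
  · exact absurd h h4
  · exact inf_eq_left.mp h

/-- normalizer argument: a subgroup of `L ⊴ G` cut out by a subgroup of `G` -/
theorem le_normalizer_inf_of_normal {L U : Subgroup G} [hL : L.Normal] :
    U ≤ normalizer ((U ⊓ L : Subgroup G) : Set G) := by
  intro u hu
  rw [mem_normalizer_iff]
  intro x
  constructor
  · rintro ⟨h1, h2⟩
    exact mem_inf.mpr ⟨mul_mem (mul_mem hu h1) (inv_mem hu), hL.conj_mem x h2 u⟩
  · intro h
    have h1 := (mem_inf.mp h).1
    have h2 := (mem_inf.mp h).2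
    have e : x = u⁻¹ * (u * x * u⁻¹) * u := by group
    refine mem_inf.mpr ⟨?_, ?_⟩
    · rw [e]; exact mul_mem (mul_mem (inv_mem hu) h1) hu
    · rw [e]
      have := hL.conj_mem _ h2 u⁻¹
      rwa [inv_inv] at this

/-- core-free maximal subgroups of a solvable group are conjugate -/
theorem corefree_conj [Finite G] (hs : Group.IsSolvable G) {U V : Subgroup G} (hU : IsCoatom U)
    (hV : IsCoatom V) (hUc : U.normalCore = ⊥) (hVc : V.normalCore = ⊥) :
    ∃ g : G, MulAut.conj g • U = V := by
  have hnt : Nontrivial G := by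
    by_contra h
    rw [not_nontrivial_iff_subsingleton] at h
    exact hU.1 (Subsingleton.elim _ _)
  obtain ⟨M, hMn, hM0, hmin⟩ := exists_minimal_normal' (G := G)
  obtain ⟨hab, p, hp, hpow⟩ := Nilp.minimal_normal_solvable_elementary (G := G) (N := M) inferInstance
    hM0 hmin
  haveI := Fact.mk hp
  have cU := NilpB.complement_of_corefree hU hUc M hM0 hab
  have cV := NilpB.complement_of_corefree hV hVc M hM0 hab
  have hCM : M = centralizer (M : Set G) := NilpB.eq_centralizer_of_corefree hU hUc M hM0 M hM0
    (le_centralizer_iff_isMulCommutative.mpr hab)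
  have hcUV : Nat.card U = Nat.card V := by
    have h1 := cU.card_mul_card
    have h2 := cV.card_mul_card
    exact Nat.eq_of_mul_eq_mul_left Nat.card_pos (h1.trans h2.symm)
  by_cases hMt : M = ⊤
  · have h1 : Nat.card U = 1 := by
      have h1 := cU.card_mul_card
      rw [hMt, card_top] at h1
      exact Nat.eq_of_mul_eq_mul_left (Nat.card_pos (α := G)) (by rw [h1, mul_one])
    have hU0 := card_eq_one.mp h1
    have hV0 := card_eq_one.mp (hcUV ▸ h1)
    exact ⟨1, by rw [hU0, hV0, map_one, one_smul]⟩
  -- a minimal normal subgroup of `G/M`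
  have hntq : Nontrivial (G ⧸ M) := by
    rw [← Finite.one_lt_card_iff_nontrivial, ← index_eq_card]
    have h1 : M.index ≠ 1 := fun h => hMt (index_eq_one.mp h)
    have h2 : M.index ≠ 0 := index_ne_zero_of_finite
    omega
  obtain ⟨Lb, hLbn, hLb0, hLbmin⟩ := exists_minimal_normal' (G := G ⧸ M)
  obtain ⟨hLab, q, hq, hqpow⟩ := Nilp.minimal_normal_solvable_elementary (G := G ⧸ M) (N := Lb)
    inferInstance hLb0 hLbmin
  haveI := Fact.mk hq
  obtain ⟨L, hL⟩ : ∃ L, L = Lb.comap (QuotientGroup.mk' M) := ⟨_, rfl⟩
  have hLn : L.Normal := by rw [hL]; exact hLbn.comap _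
  have hML : M ≤ L := by
    intro x hx
    rw [hL, mem_comap, QuotientGroup.mk'_apply, (QuotientGroup.eq_one_iff x).mpr hx]
    exact one_mem _
  have hLbp : IsPGroup q Lb := Nilp.isPGroup_of_pow_eq_one hqpow
  have hMp : IsPGroup p M := Nilp.isPGroup_of_pow_eq_one hpow
  obtain ⟨j, hj⟩ := IsPGroup.iff_card.mp hLbp
  obtain ⟨i, hi⟩ := IsPGroup.iff_card.mp hMp
  have hLc : Nat.card L = Nat.card M * Nat.card Lb := by
    rw [hL, Cores.card_comap_eq _ (QuotientGroup.mk'_surjective M), QuotientGroup.ker_mk', mul_comm]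
  have hMLne : M ≠ L := by
    intro h
    rw [← h] at hLc
    have h1 : Nat.card Lb = 1 := by
      have h2 : 0 < Nat.card M := Nat.card_pos
      exact (Nat.eq_of_mul_eq_mul_left h2 (by rw [← hLc, mul_one])).symm
    exact hLb0 (card_eq_one.mp h1)
  have hqp : q ≠ p := by
    rintro rfl
    have hLp : IsPGroup q L := IsPGroup.of_card (n := i + j) (by rw [hLc, hi, hj, pow_add])
    have h1 := le_centralizer_of_minimal hLp hM0 hML (fun K hK hKM => hmin K hK hKM)
    rw [le_centralizer_iff] at h1
    rw [← hCM] at h1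
    exact hMLne (le_antisymm hML h1)
  have hcop : (Nat.card Lb).Coprime (Nat.card M) := by
    rw [hi, hj]
    exact Nat.Coprime.pow _ _ ((Nat.coprime_primes hq hp).mpr hqp)
  -- the complements in `L`
  have hcomp : ∀ W : Subgroup G, IsComplement' M W → M ⊔ (W ⊓ L) = L ∧ Nat.card (W ⊓ L : Subgroup G) = Nat.card Lb := by
    intro W hW
    have h1 : M ⊔ (W ⊓ L) = L := by
      apply le_antisymm (sup_le hML inf_le_right)
      intro x hx
      have hx' : x ∈ M ⊔ W := by rw [hW.sup_eq_top]; trivial
      rw [mem_sup_of_normal_left] at hx'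
      obtain ⟨m, hm, w, hw, rfl⟩ := hx'
      refine mul_mem (mem_sup_left hm) (mem_sup_right (mem_inf.mpr ⟨hw, ?_⟩))
      have := mul_mem (inv_mem (hML hm)) hx
      rwa [inv_mul_cancel_left] at this
    refine ⟨h1, ?_⟩
    have h2 : M ⊓ (W ⊓ L) = ⊥ := by
      rw [eq_bot_iff, ← hW.disjoint.eq_bot]
      exact inf_le_inf_left _ inf_le_left
    have h3 := card_sup_of_inf_eq_bot (N := M) (H := W ⊓ L) (by
      rw [normalizer_eq_top_iff.mpr hMn]; exact le_top) h2
    rw [h1, hLc] at h3
    exact (Nat.eq_of_mul_eq_mul_left Nat.card_pos h3).symm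
  obtain ⟨sU, kU⟩ := hcomp U cU
  obtain ⟨sV, kV⟩ := hcomp V cV
  obtain ⟨n, hn, hconj⟩ := SchurZas.conj_of_coprime' (N := M) (A := U ⊓ L) (B := V ⊓ L) (by
    rw [normalizer_eq_top_iff.mpr hMn]; exact le_top) (by rw [kU]; exact hcop) (by rw [kV]; exact hcop)
    (sU.trans sV.symm) (Or.inl inferInstance)
  -- both are the normalizer
  have hQ0 : V ⊓ L ≠ ⊥ := by
    intro h
    rw [h, card_bot] at kV
    exact hLb0 (card_eq_one.mp kV.symm)
  have hNt : normalizer ((V ⊓ L : Subgroup G) : Set G) ≠ ⊤ := by
    intro h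
    rw [normalizer_eq_top_iff] at h
    apply hQ0
    rw [eq_bot_iff, ← hVc]
    exact normal_le_normalCore.mpr inf_le_left
  have e1 : V = normalizer ((V ⊓ L : Subgroup G) : Set G) := by
    rcases hV.le_iff.mp (le_normalizer_inf_of_normal (U := V) (L := L)) with h | h
    · exact absurd h hNt
    · exact h.symm
  have h2 : MulAut.conj n • U ≤ normalizer ((V ⊓ L : Subgroup G) : Set G) := by
    rw [← hconj]
    intro x hx
    rw [SchurZas.mem_conj_smul_iff] at hx
    apply Coprime.mem_normalizer_of_conj_smul_eq
    have h1 := Coprime.conj_smul_eq_of_mem_normalizer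
      ((le_normalizer_inf_of_normal (U := U) (L := L)) hx)
    have h3 : x * n = n * (n⁻¹ * x * n) := by group
    rw [← mul_smul, ← map_mul, h3, map_mul, mul_smul, h1]
  rw [← e1] at h2
  exact ⟨n, eq_of_le_of_card_ge h2 (by rw [SchurZas.card_conj_smul, hcUV])⟩

/-- groups whose maximal subgroups are Hall subgroups -/
theorem exists_normal_sylow (n : ℕ) : ∀ (G : Type u) [Group G] [Finite G] [Nontrivial G],
    Nat.card G ≤ n → Group.IsSolvable G →
    (∀ M : Subgroup G, IsCoatom M → (Nat.card M).Coprime M.index) →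
    ∃ p : ℕ, p.Prime ∧ p ∣ Nat.card G ∧ ∀ P : Sylow p G, (P : Subgroup G).Normal := by
  induction n with
  | zero => intro G _ _ _ h; have := Nat.card_pos (α := G); omega
  | succ n ih =>
    intro G _ _ hnt hn hs h
    obtain ⟨N, hNn, hN0, hmin⟩ := exists_minimal_normal' (G := G)
    obtain ⟨hab, p, hp, hpow⟩ := Nilp.minimal_normal_solvable_elementary (G := G) (N := N) inferInstance
      hN0 hmin
    haveI := Fact.mk hp
    have hNp : IsPGroup p N := Nilp.isPGroup_of_pow_eq_one hpow
    obtain ⟨i, hi⟩ := IsPGroup.iff_card.mp hNp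
    have hi0 : i ≠ 0 := by
      rintro rfl
      rw [pow_zero] at hi
      exact hN0 (card_eq_one.mp hi)
    have hpG : p ∣ Nat.card G := (dvd_pow_self p hi0).trans (hi ▸ N.card_subgroup_dvd_card)
    have hNS : ∀ P : Sylow p G, N ≤ P := fun P =>
      (Cores.le_pCore hNn hNp).trans (Cores.pCore_le_sylow P)
    by_cases hNt : N = ⊤
    · refine ⟨p, hp, hpG, fun P => ?_⟩
      have : (P : Subgroup G) = ⊤ := by rw [eq_top_iff, ← hNt]; exact hNS P
      rw [this]; infer_instance
    have hntq : Nontrivial (G ⧸ N) := by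
      rw [← Finite.one_lt_card_iff_nontrivial, ← index_eq_card]
      have h1 : N.index ≠ 1 := fun h => hNt (index_eq_one.mp h)
      have h2 : N.index ≠ 0 := index_ne_zero_of_finite
      omega
    have hlt := card_quotient_lt hN0
    have hq : ∀ M : Subgroup (G ⧸ N), IsCoatom M → (Nat.card M).Coprime M.index := by
      intro M hM
      have hco : IsCoatom (M.comap (QuotientGroup.mk' N)) := by
        constructor
        · intro h1
          apply hM.1
          have h3 := congrArg (Subgroup.map (QuotientGroup.mk' N)) h1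
          rw [map_comap_eq_self_of_surjective (QuotientGroup.mk'_surjective N),
            map_top_of_surjective _ (QuotientGroup.mk'_surjective N)] at h3
          exact h3
        · intro K hK
          have hNK : N ≤ K := by
            refine le_trans ?_ hK.le
            intro x hx
            rw [mem_comap, QuotientGroup.mk'_apply, (QuotientGroup.eq_one_iff x).mpr hx]
            exact one_mem _
          have e : (K.map (QuotientGroup.mk' N)).comap (QuotientGroup.mk' N) = K := by
            rw [QuotientGroup.comap_map_mk', sup_eq_right.mpr hNK]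
          rw [← e] at hK
          have h1 := hM.2 _ ((comap_lt_comap_of_surjective (QuotientGroup.mk'_surjective N)).mp hK)
          rw [← e, h1, comap_top]
      have h1 := h _ hco
      rw [index_comap_of_surjective _ (QuotientGroup.mk'_surjective N),
        Cores.card_comap_eq _ (QuotientGroup.mk'_surjective N)] at h1
      first
        | exact Nat.Coprime.coprime_dvd_left (dvd_mul_left _ _) h1
        | exact Nat.Coprime.coprime_dvd_left (dvd_mul_right _ _) h1
    obtain ⟨q, hqp, hqd, hqn⟩ := ih (G ⧸ N) (by omega) inferInstance hq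
    haveI := Fact.mk hqp
    by_cases hpq : q = p
    · subst hpq
      refine ⟨q, hqp, hpG, fun P => ?_⟩
      have h1 := hqn (P.mapSurjective (QuotientGroup.mk'_surjective N))
      rw [Sylow.coe_mapSurjective] at h1
      exact SuperB.normal_of_map_normal P (hNS P) h1
    · by_cases hall : ∀ Q : Sylow q G, (Q : Subgroup G).Normal
      · exact ⟨q, hqp, hqd.trans (card_quotient_dvd_card N), hall⟩
      · push Not at hall
        obtain ⟨Q, hQ⟩ := hall
        have hne : normalizer ((Q : Subgroup G) : Set G) ≠ ⊤ := fun h1 => hQ (normalizer_eq_top_iff.mp h1)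
        obtain ⟨M, hM, hQM⟩ := exists_le_coatom hne
        -- Frattini
        have hX := (hqn (Q.mapSurjective (QuotientGroup.mk'_surjective N))).comap (QuotientGroup.mk' N)
        rw [Sylow.coe_mapSurjective, QuotientGroup.comap_map_mk'] at hX
        have hQX : (Q : Subgroup G) ≤ N ⊔ Q := le_sup_right
        have hfr := Sylow.normalizer_sup_eq_top' (N := N ⊔ Q) Q hQX
        have hNM : N ⊔ M = ⊤ := by
          rw [eq_top_iff, ← hfr]
          refine sup_le (hQM.trans le_sup_right) (sup_le le_sup_left ?_)
          exact (le_normalizer.trans hQM).trans le_sup_right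
        have hidx : M.index ∣ Nat.card N := by
          have h1 := card_sup_mul_card_inf (N := N) (H := M) (by
            rw [normalizer_eq_top_iff.mpr hNn]; exact le_top)
          rw [hNM, card_top, ← M.card_mul_index] at h1
          have h2 : M.index * Nat.card (N ⊓ M : Subgroup G) = Nat.card N := by
            have h3 : Nat.card M * (M.index * Nat.card (N ⊓ M : Subgroup G)) = Nat.card M * Nat.card N := by
              rw [← mul_assoc, h1, mul_comm]
            exact Nat.eq_of_mul_eq_mul_left Nat.card_pos h3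
          exact ⟨_, h2.symm⟩
        have hMp : (Nat.card M).Coprime p := by
          rw [hi] at hidx
          obtain ⟨k, -, hk⟩ := (Nat.dvd_prime_pow hp).mp hidx
          have hk0 : k ≠ 0 := by
            rintro rfl
            rw [pow_zero] at hk
            exact hM.1 (index_eq_one.mp hk)
          have h1 := h M hM
          rw [hk] at h1
          exact Nat.Coprime.coprime_dvd_right (dvd_pow_self p hk0) h1
        refine ⟨p, hp, hpG, fun P => ?_⟩
        have hPN : (P : Subgroup G) = N := by
          symm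
          apply eq_of_le_of_card_ge (hNS P)
          have h1 := card_sup_mul_card_inf (N := N) (H := M) (by
            rw [normalizer_eq_top_iff.mpr hNn]; exact le_top)
          rw [hNM, card_top] at h1
          have h2 : Nat.card (P : Subgroup G) ∣ Nat.card N * Nat.card M := by
            rw [← h1]; exact (card_subgroup_dvd_card _).mul_right _
          obtain ⟨k, hk⟩ := IsPGroup.iff_card.mp P.isPGroup'
          have h3 : (Nat.card (P : Subgroup G)).Coprime (Nat.card M) := by
            rw [hk]; exact Nat.Coprime.pow_left k hMp.symm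
          exact Nat.le_of_dvd Nat.card_pos (h3.dvd_of_dvd_mul_right h2)
        rw [hPN]; exact hNn

/-- fixed points of a `q`-group of operators modulo `q` -/
theorem card_modEq_inf_centralizer [Finite G] {q : ℕ} [Fact q.Prime] {P Q : Subgroup G}
    (hle : Q ≤ normalizer (P : Set G)) (hQ : IsPGroup q Q) :
    Nat.card P ≡ Nat.card (P ⊓ centralizer (Q : Set G) : Subgroup G) [MOD q] := by
  letI act : MulAction Q P :=
    { smul := fun a v => ⟨a * v * (a : G)⁻¹, (mem_normalizer_iff.mp (hle a.2) v).mp v.2⟩
      one_smul := fun v => Subtype.ext (by show (1 : G) * v * (1 : G)⁻¹ = v; simp)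
      mul_smul := fun a b v => Subtype.ext (by
        show ((a : G) * b) * v * ((a : G) * b)⁻¹ = a * (b * v * (b : G)⁻¹) * (a : G)⁻¹; group) }
  have h1 := hQ.card_modEq_card_fixedPoints P
  refine h1.trans ?_
  have h2 : Nat.card (MulAction.fixedPoints Q P) = Nat.card (P ⊓ centralizer (Q : Set G) : Subgroup G) := by
    refine Nat.card_congr ⟨fun v => ⟨(v.1 : G), mem_inf.mpr ⟨v.1.2, mem_centralizer_iff.mpr fun a ha => ?_⟩⟩,
      fun v => ⟨⟨v.1, (mem_inf.mp v.2).1⟩, fun a => ?_⟩, fun v => rfl, fun v => rfl⟩
    · have h3 : (⟨a, ha⟩ : Q) • v.1 = v.1 := v.2 ⟨a, ha⟩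
      have h4 : a * (v.1 : G) * a⁻¹ = v.1 := congrArg Subtype.val h3
      exact mul_inv_eq_iff_eq_mul.mp h4
    · apply Subtype.ext
      show (a : G) * v.1 * (a : G)⁻¹ = v.1
      have h3 := mem_centralizer_iff.mp (mem_inf.mp v.2).2 a a.2
      rw [h3]; group
  rw [h2]

end Cfsg.Agent.Lib.SolvMisc
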