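import Mathlib
import Cfsg.Prelude
import Cfsg.Agent.Lib.NilpB
import Cfsg.Agent.Lib.SchurZas
import Cfsg.Agent.Lib.SolvCrit
import Cfsg.Agent.Lib.SolvMisc

/-!
Permuting subgroups and factorizations.
-/

set_option autoImplicit false

namespace Cfsg.Agent.Lib.Permut

open Subgroup Cfsg Cfsg.Agent.Lib Cfsg.Agent.Lib.Basic
open scoped commutatorElement Pointwise

universe u v

variable {G : Type*} [Group G]

/-- `A` and `B` permute -/
def Perm (A B : Subgroup G) : Prop := (A : Set G) * (B : Set G) = (B : Set G) * (A : Set G)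

theorem perm_of_forall {A B : Subgroup G} (h : ∀ a ∈ A, ∀ b ∈ B, ∃ b' ∈ B, ∃ a' ∈ A, a * b = b' * a') :
    Perm A B := by
  apply Set.Subset.antisymm
  · rintro _ ⟨a, ha, b, hb, rfl⟩
    obtain ⟨b', hb', a', ha', e⟩ := h a ha b hb
    exact ⟨b', hb', a', ha', e.symm⟩
  · rintro _ ⟨b, hb, a, ha, rfl⟩
    obtain ⟨b', hb', a', ha', e⟩ := h a⁻¹ (inv_mem ha) b⁻¹ (inv_mem hb)
    refine ⟨a'⁻¹, inv_mem ha', b'⁻¹, inv_mem hb', ?_⟩
    change a'⁻¹ * b'⁻¹ = b * a
    rw [← mul_inv_rev, ← e]; group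

theorem Perm.forall {A B : Subgroup G} (h : Perm A B) : ∀ a ∈ A, ∀ b ∈ B, ∃ b' ∈ B, ∃ a' ∈ A,
    a * b = b' * a' := by
  intro a ha b hb
  have h1 : a * b ∈ (B : Set G) * (A : Set G) := by
    have : a * b ∈ (A : Set G) * (B : Set G) := ⟨a, ha, b, hb, rfl⟩
    rwa [show (A : Set G) * (B : Set G) = (B : Set G) * (A : Set G) from h] at this
  obtain ⟨b', hb', a', ha', e⟩ := h1
  exact ⟨b', hb', a', ha', e.symm⟩

theorem Perm.symm {A B : Subgroup G} (h : Perm A B) : Perm B A := Eq.symm h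

theorem Perm.coe_sup {A B : Subgroup G} (h : Perm A B) :
    ((A ⊔ B : Subgroup G) : Set G) = (A : Set G) * (B : Set G) := SolvCrit.coe_sup_of_permute h

theorem perm_of_exists {A B : Subgroup G} (h : ∃ S : Subgroup G, (S : Set G) = (A : Set G) * (B : Set G)) :
    Perm A B := by
  obtain ⟨S, hS⟩ := h
  have hA : A ≤ S := by
    intro a ha
    have : a ∈ (S : Set G) := by rw [hS]; exact ⟨a, ha, 1, one_mem _, mul_one a⟩
    exact this
  have hB : B ≤ S := by
    intro a ha
    have : a ∈ (S : Set G) := by rw [hS]; exact ⟨1, one_mem _, a, ha, one_mul a⟩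
    exact this
  apply Perm.symm
  apply perm_of_forall
  intro b hb a ha
  have h1 : b * a ∈ (S : Set G) := mul_mem (hB hb) (hA ha)
  rw [hS] at h1
  obtain ⟨a', ha', b', hb', e⟩ := h1
  exact ⟨a', ha', b', hb', e.symm⟩

theorem Perm.exists {A B : Subgroup G} (h : Perm A B) :
    ∃ S : Subgroup G, (S : Set G) = (A : Set G) * (B : Set G) := ⟨A ⊔ B, h.coe_sup⟩

theorem perm_of_le_normalizer {A B : Subgroup G} (h : A ≤ normalizer (B : Set G)) : Perm A B := by
  apply perm_of_forall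
  intro a ha b hb
  exact ⟨a * b * a⁻¹, (mem_normalizer_iff.mp (h ha) b).mp hb, a, ha, by group⟩

theorem Perm.conj {A B : Subgroup G} (h : Perm A B) (g : G) :
    Perm (MulAut.conj g • A) (MulAut.conj g • B) := by
  apply perm_of_forall
  intro a ha b hb
  rw [SchurZas.mem_conj_smul_iff] at ha hb
  obtain ⟨b', hb', a', ha', e⟩ := h.forall _ ha _ hb
  refine ⟨g * b' * g⁻¹, ?_, g * a' * g⁻¹, ?_, ?_⟩
  · rw [SchurZas.mem_conj_smul_iff]
    have : g⁻¹ * (g * b' * g⁻¹) * g = b' := by group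
    rw [this]; exact hb'
  · rw [SchurZas.mem_conj_smul_iff]
    have : g⁻¹ * (g * a' * g⁻¹) * g = a' := by group
    rw [this]; exact ha'
  · calc a * b = g * ((g⁻¹ * a * g) * (g⁻¹ * b * g)) * g⁻¹ := by group
      _ = g * (b' * a') * g⁻¹ := by rw [e]
      _ = _ := by group

theorem Perm.of_conj {A B : Subgroup G} {g : G} (h : Perm (MulAut.conj g • A) (MulAut.conj g • B)) :
    Perm A B := by
  have := h.conj g⁻¹
  simpa [← mul_smul, ← map_mul] using this

theorem Perm.sup {A₁ A₂ B : Subgroup G} (h1 : Perm A₁ B) (h2 : Perm A₂ B) : Perm (A₁ ⊔ A₂) B := by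
  apply perm_of_forall
  intro w hw
  rw [sup_eq_closure] at hw
  have gen : ∀ x : G, (x ∈ A₁ ∨ x ∈ A₂) → ∀ b ∈ B, ∃ b' ∈ B, ∃ a' ∈ A₁ ⊔ A₂, x * b = b' * a' := by
    rintro x (hx | hx) b hb
    · obtain ⟨b', hb', a', ha', e⟩ := h1.forall x hx b hb
      exact ⟨b', hb', a', mem_sup_left ha', e⟩
    · obtain ⟨b', hb', a', ha', e⟩ := h2.forall x hx b hb
      exact ⟨b', hb', a', mem_sup_right ha', e⟩
  have step : ∀ x : G, (x ∈ A₁ ∨ x ∈ A₂) → ∀ y : G, (∀ b ∈ B, ∃ b' ∈ B, ∃ a' ∈ A₁ ⊔ A₂, y * b = b' * a') →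
      ∀ b ∈ B, ∃ b' ∈ B, ∃ a' ∈ A₁ ⊔ A₂, x * y * b = b' * a' := by
    intro x hx y hy b hb
    obtain ⟨b', hb', a', ha', e⟩ := hy b hb
    obtain ⟨b'', hb'', a'', ha'', e'⟩ := gen x hx b' hb'
    exact ⟨b'', hb'', a'' * a', mul_mem ha'' ha', by rw [mul_assoc, e, ← mul_assoc, e', mul_assoc]⟩
  induction hw using closure_induction_left with
  | one => intro b hb; exact ⟨b, hb, 1, one_mem _, by group⟩
  | mul_left x hx y _ ih => exact step x hx y ih
  | inv_mul_cancel x hx y _ ih =>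
    refine step x⁻¹ ?_ y ih
    rcases hx with hx | hx
    · exact Or.inl (inv_mem hx)
    · exact Or.inr (inv_mem hx)

/-! ### factorizations -/

/-- `G = HK` -/
def Fac (H K : Subgroup G) : Prop := ∀ g : G, ∃ h ∈ H, ∃ k ∈ K, g = h * k

theorem Fac.sim {H K : Subgroup G} (hHK : Fac H K) (x y : G) :
    ∃ g : G, ∃ h ∈ H, ∃ k ∈ K, g = x * h ∧ g = y * k := by
  obtain ⟨h, hh, k, hk, e⟩ := hHK (x⁻¹ * y)
  refine ⟨x * h, h, hh, k⁻¹, inv_mem hk, rfl, ?_⟩
  have h1 : y = x * (h * k) := by rw [← e]; group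
  rw [h1]; group

theorem conj_of_mem {H : Subgroup G} {x h : G} (hh : h ∈ H) :
    MulAut.conj (x * h) • H = MulAut.conj x • H := by
  rw [map_mul, mul_smul]
  congr 1
  exact conj_smul_eq_self_of_mem hh

theorem conj_of_mem_normalizer {H : Subgroup G} {x h : G} (hh : h ∈ normalizer (H : Set G)) :
    MulAut.conj (x * h) • H = MulAut.conj x • H := by
  rw [map_mul, mul_smul, Coprime.conj_smul_eq_of_mem_normalizer hh]

theorem Fac.conj {H K : Subgroup G} (hHK : Fac H K) (x y : G) :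
    Fac (MulAut.conj x • H) (MulAut.conj y • K) := by
  obtain ⟨g, h, hh, k, hk, e1, e2⟩ := hHK.sim x y
  have f1 : MulAut.conj x • H = MulAut.conj g • H := by rw [e1, conj_of_mem hh]
  have f2 : MulAut.conj y • K = MulAut.conj g • K := by rw [e2, conj_of_mem hk]
  intro z
  obtain ⟨a, ha, b, hb, e⟩ := hHK (g⁻¹ * z * g)
  refine ⟨g * a * g⁻¹, ?_, g * b * g⁻¹, ?_, ?_⟩
  · rw [f1]; exact Subgroup.smul_mem_pointwise_smul a (MulAut.conj g) H ha
  · rw [f2]; exact Subgroup.smul_mem_pointwise_smul b (MulAut.conj g) K hb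
  · have h1 : z = g * (a * b) * g⁻¹ := by rw [← e]; group
    rw [h1]; group

theorem Fac.symm {H K : Subgroup G} (hHK : Fac H K) : Fac K H := by
  intro g
  obtain ⟨h, hh, k, hk, e⟩ := hHK g⁻¹
  exact ⟨k⁻¹, inv_mem hk, h⁻¹, inv_mem hh, by rw [← mul_inv_rev, ← e, inv_inv]⟩

theorem Fac.perm {H K : Subgroup G} (hHK : Fac H K) : Perm H K :=
  perm_of_exists ⟨⊤, by
    ext g
    constructor
    · intro _
      obtain ⟨h, hh, k, hk, e⟩ := hHK g
      exact ⟨h, hh, k, hk, e.symm⟩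
    · intro _; trivial⟩

theorem Fac.sup {H K : Subgroup G} (hHK : Fac H K) : H ⊔ K = ⊤ := by
  rw [eq_top_iff]
  intro g _
  obtain ⟨h, hh, k, hk, rfl⟩ := hHK g
  exact mul_mem (mem_sup_left hh) (mem_sup_right hk)

theorem fac_of_perm {H K : Subgroup G} (h : Perm H K) (hs : H ⊔ K = ⊤) : Fac H K := by
  intro g
  have : g ∈ ((H ⊔ K : Subgroup G) : Set G) := by rw [hs]; trivial
  rw [h.coe_sup] at this
  obtain ⟨a, ha, b, hb, e⟩ := this
  exact ⟨a, ha, b, hb, e.symm⟩

theorem Fac.mono {H K H' K' : Subgroup G} (h : Fac H K) (h1 : H ≤ H') (h2 : K ≤ K') : Fac H' K' := by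
  intro g
  obtain ⟨a, ha, b, hb, e⟩ := h g
  exact ⟨a, h1 ha, b, h2 hb, e⟩

theorem Fac.map {H K : Subgroup G} (hHK : Fac H K) {Q : Type*} [Group Q] (f : G →* Q)
    (hf : Function.Surjective f) : Fac (H.map f) (K.map f) := by
  intro q
  obtain ⟨g, rfl⟩ := hf q
  obtain ⟨h, hh, k, hk, rfl⟩ := hHK g
  exact ⟨f h, mem_map_of_mem f hh, f k, mem_map_of_mem f hk, map_mul f h k⟩

/-- subgroups containing one factor are factorized -/
theorem Fac.subgroupOf {H K : Subgroup G} (hHK : Fac H K) {L : Subgroup G} (hL : H ≤ L) :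
    Fac (H.subgroupOf L) (K.subgroupOf L) := by
  rintro ⟨g, hg⟩
  obtain ⟨h, hh, k, hk, e⟩ := hHK g
  have hkL : k ∈ L := by
    have : k = h⁻¹ * g := by rw [e]; group
    rw [this]; exact mul_mem (inv_mem (hL hh)) hg
  exact ⟨⟨h, hL hh⟩, mem_subgroupOf.mpr hh, ⟨k, hkL⟩, mem_subgroupOf.mpr hk, Subtype.ext e⟩

/-- Kegel's lemma -/
theorem kegel_aux {G : Type u} [Group G] [Finite G] (n : ℕ) : ∀ A B : Subgroup G,
    Nat.card G - Nat.card A ≤ n → (∀ x : G, Perm A (MulAut.conj x • B) ∧ A ⊔ MulAut.conj x • B ≠ ⊤) →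
    ∃ N : Subgroup G, N.Normal ∧ N ≠ ⊤ ∧ (A ≤ N ∨ B ≤ N) := by
  induction n with
  | zero =>
    intro A B hn h
    exfalso
    have h1 : Nat.card A ≤ Nat.card G := card_le_card_group A
    have h2 : A = ⊤ := eq_top_of_card_eq A (by omega)
    apply (h 1).2
    rw [h2, top_sup_eq]
  | succ n ih =>
    intro A B hn h
    by_cases hB : normalClosure (B : Set G) = ⊤
    · by_cases hA : A.Normal
      · refine ⟨A, hA, ?_, Or.inl le_rfl⟩
        intro hAt
        apply (h 1).2
        rw [hAt, top_sup_eq]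
      · obtain ⟨x, b, hb, hbA⟩ : ∃ x : G, ∃ b ∈ B, x * b * x⁻¹ ∉ normalizer (A : Set G) := by
          by_contra hcon
          push Not at hcon
          apply hA
          apply normalizer_eq_top_iff.mp
          rw [eq_top_iff, ← hB, normalClosure, Subgroup.closure_le]
          intro y hy
          obtain ⟨b, hb, hby⟩ := Group.mem_conjugatesOfSet_iff.mp hy
          obtain ⟨x, rfl⟩ := isConj_iff.mp hby
          exact hcon x b hb
        obtain ⟨c, hc⟩ : ∃ c, c = x * b * x⁻¹ := ⟨_, rfl⟩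
        rw [← hc] at hbA
        have hcB : c ∈ MulAut.conj x • B := by
          rw [hc]; exact smul_mem_pointwise_smul b (MulAut.conj x) B hb
        obtain ⟨A', hA'⟩ : ∃ A', A' = A ⊔ MulAut.conj c • A := ⟨_, rfl⟩
        have hlt : A < A' := by
          refine lt_of_le_of_ne (by rw [hA']; exact le_sup_left) (fun he => hbA ?_)
          apply Coprime.mem_normalizer_of_conj_smul_eq
          have h1 : MulAut.conj c • A ≤ A := by
            conv_rhs => rw [he, hA']
            exact le_sup_right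
          exact eq_of_le_of_card_ge h1 (by rw [SchurZas.card_conj_smul])
        have hcard := card_lt_card_of_lt hlt
        have hle := card_le_card_group A'
        have hperm : ∀ y : G, Perm A' (MulAut.conj y • B) := by
          intro y
          rw [hA']
          apply Perm.sup (h y).1
          have h1 := (h (c⁻¹ * y)).1.conj c
          rwa [← mul_smul, ← map_mul, mul_inv_cancel_left] at h1
        have hA'le : A' ≤ A ⊔ MulAut.conj x • B := by
          rw [hA']
          apply sup_le le_sup_left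
          intro a ha
          rw [SchurZas.mem_conj_smul_iff] at ha
          have e : a = c * (c⁻¹ * a * c) * c⁻¹ := by group
          rw [e]
          exact mul_mem (mul_mem (mem_sup_right hcB) (mem_sup_left ha)) (inv_mem (mem_sup_right hcB))
        obtain ⟨N, hN, hNt, hNA⟩ := ih A' B (by omega) (fun y => ⟨hperm y, fun ht => by
          apply (h x).2
          have f1 := fac_of_perm (hperm y) ht
          have f2 := f1.conj 1 (x * y⁻¹)
          rw [map_one, one_smul, ← mul_smul, ← map_mul, inv_mul_cancel_right] at f2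
          rw [eq_top_iff, ← f2.sup]
          exact sup_le hA'le le_sup_right⟩)
        exact ⟨N, hN, hNt, hNA.imp_left (fun h' => hlt.le.trans h')⟩
    · exact ⟨normalClosure (B : Set G), inferInstance, hB, Or.inr subset_normalClosure⟩

theorem kegel {G : Type u} [Group G] [Finite G] {A B : Subgroup G}
    (h : ∀ x : G, Perm A (MulAut.conj x • B) ∧ A ⊔ MulAut.conj x • B ≠ ⊤) :
    ∃ N : Subgroup G, N.Normal ∧ N ≠ ⊤ ∧ (A ≤ N ∨ B ≤ N) := kegel_aux _ A B le_rfl h

/-- the Sylow factorization -/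
theorem exists_sylow_fac [Finite G] {H K : Subgroup G} (hHK : Fac H K) (p : ℕ) [hp : Fact p.Prime] :
    ∃ (P : Sylow p H) (Q : Sylow p K) (R : Sylow p G), ((R : Subgroup G) : Set G) =
      (((P : Subgroup H).map H.subtype : Subgroup G) : Set G) *
        (((Q : Subgroup K).map K.subtype : Subgroup G) : Set G) := by
  obtain ⟨P₀⟩ : Nonempty (Sylow p H) := inferInstance
  obtain ⟨Q₀⟩ : Nonempty (Sylow p K) := inferInstance
  obtain ⟨R₁, hR₁⟩ := (P₀.isPGroup'.map H.subtype).exists_le_sylow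
  obtain ⟨R₂, hR₂⟩ := (Q₀.isPGroup'.map K.subtype).exists_le_sylow
  obtain ⟨g, hg⟩ := MulAction.exists_smul_eq G R₁ R₂
  obtain ⟨k, hk, h, hh, hkh⟩ := hHK.symm g
  obtain ⟨R, hR⟩ : ∃ R, R = h • R₁ := ⟨_, rfl⟩
  have hR' : R = k⁻¹ • R₂ := by
    rw [hR, ← hg, hkh, mul_smul, inv_smul_smul]
  refine ⟨(⟨h, hh⟩ : H) • P₀, (⟨k, hk⟩ : K)⁻¹ • Q₀, R, ?_⟩
  obtain ⟨P, hP⟩ : ∃ P, P = (⟨h, hh⟩ : H) • P₀ := ⟨_, rfl⟩
  obtain ⟨Q, hQ⟩ : ∃ Q, Q = (⟨k, hk⟩ : K)⁻¹ • Q₀ := ⟨_, rfl⟩
  rw [← hP, ← hQ]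
  have hPR : (P : Subgroup H).map H.subtype ≤ R := by
    rintro _ ⟨x, hx, rfl⟩
    rw [SetLike.mem_coe, hP, Sylow.coe_subgroup_smul, ← SetLike.mem_coe, SetLike.mem_coe,
      SchurZas.mem_conj_smul_iff] at hx
    rw [hR, Sylow.coe_subgroup_smul, SchurZas.mem_conj_smul_iff]
    exact hR₁ ⟨_, hx, rfl⟩
  have hQR : (Q : Subgroup K).map K.subtype ≤ R := by
    rintro _ ⟨x, hx, rfl⟩
    rw [SetLike.mem_coe, hQ, Sylow.coe_subgroup_smul, ← SetLike.mem_coe, SetLike.mem_coe,
      SchurZas.mem_conj_smul_iff] at hx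
    rw [hR', Sylow.coe_subgroup_smul, SchurZas.mem_conj_smul_iff]
    exact hR₂ ⟨_, hx, rfl⟩
  symm
  have hsub : (((P : Subgroup H).map H.subtype : Subgroup G) : Set G) *
        (((Q : Subgroup K).map K.subtype : Subgroup G) : Set G) ⊆ ((R : Subgroup G) : Set G) := by
    rintro _ ⟨a, ha, b, hb, rfl⟩
    exact mul_mem (hPR ha) (hQR hb)
  apply Set.eq_of_subset_of_ncard_le hsub
  have c1 := card_mul_mul_card_inf ((P : Subgroup H).map H.subtype) ((Q : Subgroup K).map K.subtype)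
  have c2 := card_mul_mul_card_inf H K
  have c3 : (H : Set G) * (K : Set G) = Set.univ := by
    rw [Set.eq_univ_iff_forall]
    intro g
    obtain ⟨a, ha, b, hb, e⟩ := hHK g
    exact ⟨a, ha, b, hb, e.symm⟩
  rw [c3, Nat.card_univ] at c2
  have hPc : Nat.card ((P : Subgroup H).map H.subtype) = p ^ (Nat.card H).factorization p := by
    rw [Nat.card_congr (equivMapOfInjective _ _ (subtype_injective H)).symm.toEquiv,
      P.card_eq_multiplicity]
  have hQc : Nat.card ((Q : Subgroup K).map K.subtype) = p ^ (Nat.card K).factorization p := by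
    rw [Nat.card_congr (equivMapOfInjective _ _ (subtype_injective K)).symm.toEquiv,
      Q.card_eq_multiplicity]
  have hRc : ((R : Subgroup G) : Set G).ncard = p ^ (Nat.card G).factorization p := by
    have := R.card_eq_multiplicity
    rw [← this]; rfl
  have hIle : (P : Subgroup H).map H.subtype ⊓ (Q : Subgroup K).map K.subtype ≤ H ⊓ K :=
    inf_le_inf (map_subtype_le _) (map_subtype_le _)
  obtain ⟨j, hj⟩ := IsPGroup.iff_card.mp ((P.isPGroup'.map H.subtype).to_le
    (inf_le_left : (P : Subgroup H).map H.subtype ⊓ (Q : Subgroup K).map K.subtype ≤ _))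
  have hjle : j ≤ (Nat.card (H ⊓ K : Subgroup G)).factorization p := by
    have h1 := card_dvd_of_le hIle
    rw [hj] at h1
    exact (hp.out.pow_dvd_iff_le_factorization Nat.card_pos.ne').mp h1
  rw [hPc, hQc, hj, ← pow_add] at c1
  have hf := congrArg (fun n => n.factorization p) c2
  rw [Nat.factorization_mul Nat.card_pos.ne' Nat.card_pos.ne',
    Nat.factorization_mul Nat.card_pos.ne' Nat.card_pos.ne', Finsupp.add_apply, Finsupp.add_apply] at hf
  rw [hRc]
  have c1' : ((((P : Subgroup H).map H.subtype : Subgroup G) : Set G) *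
        (((Q : Subgroup K).map K.subtype : Subgroup G) : Set G)).ncard * p ^ j =
      p ^ ((Nat.card H).factorization p + (Nat.card K).factorization p) := c1
  have hle : p ^ (Nat.card G).factorization p * p ^ j ≤
      ((((P : Subgroup H).map H.subtype : Subgroup G) : Set G) *
        (((Q : Subgroup K).map K.subtype : Subgroup G) : Set G)).ncard * p ^ j := by
    rw [c1', ← pow_add]
    exact Nat.pow_le_pow_right hp.out.pos (by omega)
  exact Nat.le_of_mul_le_mul_right hle (pow_pos hp.out.pos j)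

end Cfsg.Agent.Lib.Permut
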