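import Mathlib
import Cfsg.Prelude
import Cfsg.Agent.Lib.Permut

/-!
Products of groups: Hall factors, Itô.
-/

set_option autoImplicit false

namespace Cfsg.Agent.Lib.PermutB

open Subgroup Cfsg Cfsg.Agent.Lib Cfsg.Agent.Lib.Basic Cfsg.Agent.Lib.Permut
open scoped commutatorElement Pointwise

universe u v

theorem le_of_not_dvd_index {G : Type*} [Group G] [Finite G] {p : ℕ} [hp : Fact p.Prime] {M A : Subgroup G}
    (hM : M.Normal) (hMp : IsPGroup p M) (hA : ¬ p ∣ A.index) : M ≤ A := by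
  obtain ⟨P⟩ : Nonempty (Sylow p A) := inferInstance
  have h1 : IsPGroup p ((P : Subgroup A).map A.subtype) := P.isPGroup'.map _
  have h2 : ¬ p ∣ ((P : Subgroup A).map A.subtype).index := by
    rw [index_map_subtype, hp.out.dvd_mul]
    push Not
    exact ⟨P.not_dvd_index, hA⟩
  obtain ⟨S, hS⟩ := SuperF.exists_sylow_of_index h1 h2
  exact ((Cores.le_pCore hM hMp).trans (Cores.pCore_le_sylow S)).trans (hS ▸ map_subtype_le _)

theorem coprime_map {G Q : Type*} [Group G] [Finite G] [Group Q] (f : G →* Q) (hf : Function.Surjective f)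
    {A : Subgroup G} (hA : (Nat.card A).Coprime A.index) :
    (Nat.card (A.map f)).Coprime (A.map f).index :=
  Nat.Coprime.coprime_dvd_left (card_map_dvd A f) (Nat.Coprime.coprime_dvd_right
    (index_map_dvd A hf) hA)

/-- a `p'`-subgroup of `MD`, conjugated into `D` -/
theorem exists_conj_le {G : Type*} [Group G] [Finite G] {M D A : Subgroup G} (hM : M.Normal)
    (hMs : Group.IsSolvable M) (hMD : M ⊓ D = ⊥) (hcD : (Nat.card D).Coprime (Nat.card M))
    (hA : A ≤ M ⊔ D) (hcA : (Nat.card A).Coprime (Nat.card M)) :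
    ∃ n ∈ M, MulAut.conj n • A ≤ D := by
  have hsup : M ⊔ (D ⊓ (M ⊔ A)) = M ⊔ A := by
    apply le_antisymm (sup_le le_sup_left inf_le_right)
    intro x hx
    have hx' : x ∈ M ⊔ D := (sup_le le_sup_left hA) hx
    rw [mem_sup_of_normal_left] at hx'
    obtain ⟨m, hm, d, hd, rfl⟩ := hx'
    refine mul_mem (mem_sup_left hm) (mem_sup_right (mem_inf.mpr ⟨hd, ?_⟩))
    have := mul_mem (inv_mem (mem_sup_left (T := A) hm)) hx
    rwa [inv_mul_cancel_left] at this
  obtain ⟨n, hn, h⟩ := SchurZas.conj_of_coprime' (N := M) (A := A) (B := D ⊓ (M ⊔ A)) (by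
    rw [normalizer_eq_top_iff.mpr hM]; exact le_top) hcA
    (Nat.Coprime.coprime_dvd_left (card_dvd_of_le inf_le_left) hcD) hsup.symm (Or.inr hMs)
  exact ⟨n, hn, by rw [h]; exact inf_le_left⟩

theorem map_conj_of_mem {G : Type*} [Group G] {M A : Subgroup G} [M.Normal] {n : G} (hn : n ∈ M) :
    (MulAut.conj n • A).map (QuotientGroup.mk' M) = A.map (QuotientGroup.mk' M) := by
  rw [SchurZas.map_conj_smul]
  have : QuotientGroup.mk' M n = 1 := (QuotientGroup.eq_one_iff n).mpr hn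
  rw [this, map_one, one_smul]

/-- S0561, central case -/
theorem hall_perm (n : ℕ) : ∀ (G : Type u) [Group G] [Finite G], Nat.card G ≤ n → Group.IsSolvable G →
    ∀ H K A B : Subgroup G, Fac H K → H ≤ normalizer (A : Set G) → K ≤ normalizer (B : Set G) →
    (Nat.card A).Coprime A.index → (Nat.card B).Coprime B.index → Perm A B := by
  induction n with
  | zero => intro G _ _ h; have := Nat.card_pos (α := G); omega
  | succ n ih =>
    intro G _ _ hn hs H K A B hHK hA hB hAh hBh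
    by_cases hnt : Nontrivial G
    · obtain ⟨M, hMn, hM0, hmin⟩ := exists_minimal_normal' (G := G)
      obtain ⟨hab, p, hp, hpow⟩ := Nilp.minimal_normal_solvable_elementary (G := G) (N := M) inferInstance
        hM0 hmin
      haveI := Fact.mk hp
      have hMp : IsPGroup p M := Nilp.isPGroup_of_pow_eq_one hpow
      have hMs : Group.IsSolvable M := inferInstance
      have hlt := card_quotient_lt hM0
      have hsurj := QuotientGroup.mk'_surjective M
      have hnorm : ∀ X Y : Subgroup G, X ≤ normalizer (Y : Set G) → X.map (QuotientGroup.mk' M) ≤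
          normalizer ((Y.map (QuotientGroup.mk' M) : Subgroup (G ⧸ M)) : Set (G ⧸ M)) := by
        rintro X Y h _ ⟨x, hx, rfl⟩
        apply mem_normalizer_fintype
        rintro _ ⟨y, hy, rfl⟩
        exact ⟨x * y * x⁻¹, (mem_normalizer_iff.mp (h hx) y).mp hy, by simp⟩
      have hbar := ih (G ⧸ M) (by omega) inferInstance _ _ _ _ (hHK.map _ hsurj) (hnorm H A hA)
        (hnorm K B hB) (coprime_map _ hsurj hAh) (coprime_map _ hsurj hBh)
      have hlift : ∀ a ∈ A, ∀ b ∈ B, ∃ b' ∈ B, ∃ a' ∈ A, (b' * a')⁻¹ * (a * b) ∈ M := by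
        intro a ha b hb
        obtain ⟨_, ⟨b', hb', rfl⟩, _, ⟨a', ha', rfl⟩, e⟩ := hbar.forall _ (mem_map_of_mem _ ha) _
          (mem_map_of_mem _ hb)
        rw [← map_mul, ← map_mul] at e
        exact ⟨b', hb', a', ha', QuotientGroup.eq.mp e.symm⟩
      obtain ⟨i, hi⟩ := IsPGroup.iff_card.mp hMp
      by_cases hpA : p ∣ Nat.card A
      · have hMA : M ≤ A := le_of_not_dvd_index hMn hMp (fun h => by
          have := Nat.dvd_gcd hpA h
          rw [hAh] at this
          exact hp.one_lt.ne' (Nat.dvd_one.mp this))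
        apply perm_of_forall
        intro a ha b hb
        obtain ⟨b', hb', a', ha', e⟩ := hlift a ha b hb
        exact ⟨b', hb', a' * ((b' * a')⁻¹ * (a * b)), mul_mem ha' (hMA e), by group⟩
      · by_cases hpB : p ∣ Nat.card B
        · have hMB : M ≤ B := le_of_not_dvd_index hMn hMp (fun h => by
            have := Nat.dvd_gcd hpB h
            rw [hBh] at this
            exact hp.one_lt.ne' (Nat.dvd_one.mp this))
          apply perm_of_forall
          intro a ha b hb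
          obtain ⟨b', hb', a', ha', e⟩ := hlift a ha b hb
          have h1 := hMn.conj_mem _ e (b' * a')
          refine ⟨(b' * a') * ((b' * a')⁻¹ * (a * b)) * (b' * a')⁻¹ * b', mul_mem (hMB h1) hb', a', ha', by group⟩
        · -- `p` divides neither
          obtain ⟨W, hW⟩ : ∃ W, W = (A.map (QuotientGroup.mk' M) ⊔ B.map (QuotientGroup.mk' M)).comap
            (QuotientGroup.mk' M) := ⟨_, rfl⟩
          have hMW : M ≤ W := by
            intro x hx
            rw [hW, mem_comap, QuotientGroup.mk'_apply, (QuotientGroup.eq_one_iff x).mpr hx]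
            exact one_mem _
          have hAW : A ≤ W := by
            intro x hx
            rw [hW, mem_comap]; exact mem_sup_left (mem_map_of_mem _ hx)
          have hBW : B ≤ W := by
            intro x hx
            rw [hW, mem_comap]; exact mem_sup_right (mem_map_of_mem _ hx)
          have hWc := Cores.card_comap_eq (QuotientGroup.mk' M) hsurj
            (A.map (QuotientGroup.mk' M) ⊔ B.map (QuotientGroup.mk' M))
          rw [← hW, QuotientGroup.ker_mk'] at hWc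
          have hpbar : ¬ p ∣ Nat.card (A.map (QuotientGroup.mk' M) ⊔ B.map (QuotientGroup.mk' M) :
              Subgroup (G ⧸ M)) := by
            intro hd
            have h1 := SolvCrit.card_sup_of_permute hbar
            have h2 := hd.mul_right (Nat.card (A.map (QuotientGroup.mk' M) ⊓ B.map (QuotientGroup.mk' M) :
              Subgroup (G ⧸ M)))
            rw [h1] at h2
            rcases hp.dvd_mul.mp h2 with h3 | h3
            · exact hpA (h3.trans (card_map_dvd A _))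
            · exact hpB (h3.trans (card_map_dvd B _))
          -- a complement
          have hMWn : (M.subgroupOf W).Normal := hMn.subgroupOf W
          have hidx : (M.subgroupOf W).index = Nat.card (A.map (QuotientGroup.mk' M) ⊔
              B.map (QuotientGroup.mk' M) : Subgroup (G ⧸ M)) := by
            have h1 := (M.subgroupOf W).card_mul_index
            rw [Nat.card_congr (subgroupOfEquivOfLe hMW).toEquiv, hWc] at h1
            first
              | exact Nat.eq_of_mul_eq_mul_left Nat.card_pos h1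
              | exact Nat.eq_of_mul_eq_mul_left Nat.card_pos (h1.trans (mul_comm _ _))
          obtain ⟨D, hD⟩ := exists_right_complement'_of_coprime (N := M.subgroupOf W) (by
            rw [Nat.card_congr (subgroupOfEquivOfLe hMW).toEquiv, hidx, hi]
            exact Nat.Coprime.pow_left i ((Nat.Prime.coprime_iff_not_dvd hp).mpr hpbar))
          obtain ⟨D', hD'⟩ : ∃ D', D' = D.map W.subtype := ⟨_, rfl⟩
          have hMD : M ⊓ D' = ⊥ := by
            rw [eq_bot_iff]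
            rintro x ⟨hx1, hx2⟩
            rw [hD'] at hx2
            obtain ⟨d, hd, rfl⟩ := hx2
            have h1 : d ∈ M.subgroupOf W ⊓ D := ⟨mem_subgroupOf.mpr hx1, hd⟩
            rw [hD.disjoint.eq_bot, mem_bot] at h1
            rw [h1]; exact one_mem _
          have hMDs : W ≤ M ⊔ D' := by
            intro w hw
            have h1 : (⟨w, hw⟩ : W) ∈ M.subgroupOf W ⊔ D := by rw [hD.sup_eq_top]; trivial
            rw [mem_sup_of_normal_left] at h1
            obtain ⟨m, hm, d, hd, e⟩ := h1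
            have e' : (m : G) * (d : G) = w := congrArg Subtype.val e
            rw [← e']
            exact mul_mem (mem_sup_left hm) (mem_sup_right (by rw [hD']; exact ⟨d, hd, rfl⟩))
          have hcD : (Nat.card D').Coprime (Nat.card M) := by
            have h1 := hD.card_mul_card
            have h2 := (M.subgroupOf W).card_mul_index
            rw [← h2] at h1
            have h3 := Nat.eq_of_mul_eq_mul_left Nat.card_pos h1
            rw [hD', Nat.card_congr (equivMapOfInjective D _ (subtype_injective W)).symm.toEquiv, h3, hidx, hi]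
            exact (Nat.Coprime.pow_left i ((Nat.Prime.coprime_iff_not_dvd hp).mpr hpbar)).symm
          have hcop : ∀ X : Subgroup G, ¬ p ∣ Nat.card X → (Nat.card X).Coprime (Nat.card M) := by
            intro X hX
            rw [hi]
            exact ((Nat.Prime.coprime_iff_not_dvd hp).mpr hX).symm.pow_right i
          obtain ⟨n₁, hn₁, h₁⟩ := exists_conj_le hMn hMs hMD hcD (hAW.trans hMDs) (hcop A hpA)
          obtain ⟨n₂, hn₂, h₂⟩ := exists_conj_le hMn hMs hMD hcD (hBW.trans hMDs) (hcop B hpB)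
          have hperm : Perm (MulAut.conj n₁ • A) (MulAut.conj n₂ • B) := by
            have hbar' : Perm ((MulAut.conj n₁ • A).map (QuotientGroup.mk' M))
                ((MulAut.conj n₂ • B).map (QuotientGroup.mk' M)) := by
              rw [map_conj_of_mem hn₁, map_conj_of_mem hn₂]; exact hbar
            apply perm_of_forall
            intro a ha b hb
            obtain ⟨_, ⟨b', hb', rfl⟩, _, ⟨a', ha', rfl⟩, e⟩ := hbar'.forall _ (mem_map_of_mem _ ha) _
              (mem_map_of_mem _ hb)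
            rw [← map_mul, ← map_mul] at e
            have e' := QuotientGroup.eq.mp e.symm
            have e'' : (b' * a')⁻¹ * (a * b) ∈ D' :=
              mul_mem (inv_mem (mul_mem (h₂ hb') (h₁ ha'))) (mul_mem (h₁ ha) (h₂ hb))
            have e3 : (b' * a')⁻¹ * (a * b) ∈ M ⊓ D' := ⟨e', e''⟩
            rw [hMD, mem_bot] at e3
            exact ⟨b', hb', a', ha', (inv_mul_eq_one.mp e3).symm⟩
          obtain ⟨g, h, hh, k, hk, e1, e2⟩ := hHK.sim n₁ n₂
          have f1 : MulAut.conj g • A = MulAut.conj n₁ • A := by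
            rw [e1]; exact conj_of_mem_normalizer (hA hh)
          have f2 : MulAut.conj g • B = MulAut.conj n₂ • B := by
            rw [e2]; exact conj_of_mem_normalizer (hB hk)
          rw [← f1, ← f2] at hperm
          exact hperm.of_conj
    · rw [not_nontrivial_iff_subsingleton] at hnt
      apply perm_of_forall
      intro a ha b hb
      exact ⟨b, hb, a, ha, Subsingleton.elim _ _⟩

/-! ### Itô -/

theorem ito_comm {G : Type*} [Group G] {A B : Subgroup G} (hA : ∀ x ∈ A, ∀ y ∈ A, x * y = y * x)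
    (hB : ∀ x ∈ B, ∀ y ∈ B, x * y = y * x) (hAB : Fac A B) {a a₁ b b₁ : G} (ha : a ∈ A) (ha₁ : a₁ ∈ A)
    (hb : b ∈ B) (hb₁ : b₁ ∈ B) : Commute ⁅a, b⁆ ⁅a₁, b₁⁆ := by
  -- first with `⁅b₁⁻¹, a₁⁻¹⁆`
  have key : ∀ a₁ ∈ A, ∀ b₁ ∈ B, (b₁ * a₁) * ⁅a, b⁆ * (b₁ * a₁)⁻¹ = (a₁ * b₁) * ⁅a, b⁆ * (a₁ * b₁)⁻¹ := by
    intro a₁ ha₁ b₁ hb₁
    obtain ⟨b₂, hb₂, a₂, ha₂, e₂⟩ := hAB.symm (a₁ * b * a₁⁻¹)
    obtain ⟨a₃, ha₃, b₃, hb₃, e₃⟩ := hAB (b₁ * a * b₁⁻¹)
    have c1 : ⁅a, b₂ * a₂⁆ = ⁅a, b₂⁆ := by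
      rw [commutatorElement_def, commutatorElement_def]
      have h1 := hA a₂ ha₂ a⁻¹ (inv_mem ha)
      calc a * (b₂ * a₂) * a⁻¹ * (b₂ * a₂)⁻¹ = a * b₂ * (a₂ * a⁻¹) * a₂⁻¹ * b₂⁻¹ := by group
        _ = _ := by rw [h1]; group
    have c1' : ⁅a₃, b₂ * a₂⁆ = ⁅a₃, b₂⁆ := by
      rw [commutatorElement_def, commutatorElement_def]
      have h1 := hA a₂ ha₂ a₃⁻¹ (inv_mem ha₃)
      calc a₃ * (b₂ * a₂) * a₃⁻¹ * (b₂ * a₂)⁻¹ = a₃ * b₂ * (a₂ * a₃⁻¹) * a₂⁻¹ * b₂⁻¹ := by group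
        _ = _ := by rw [h1]; group
    have c2 : ∀ b₄ ∈ B, ⁅a₃ * b₃, b₄⁆ = ⁅a₃, b₄⁆ := by
      intro b₄ hb₄
      rw [commutatorElement_def, commutatorElement_def]
      have h1 := hB b₃ hb₃ b₄ hb₄
      calc a₃ * b₃ * b₄ * (a₃ * b₃)⁻¹ * b₄⁻¹ = a₃ * (b₃ * b₄) * b₃⁻¹ * a₃⁻¹ * b₄⁻¹ := by group
        _ = _ := by rw [h1]; group
    have l1 : a₁ * ⁅a, b⁆ * a₁⁻¹ = ⁅a, b₂ * a₂⁆ := by
      rw [← e₂, commutatorElement_def, commutatorElement_def]
      have h1 := hA a₁ ha₁ a ha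
      have h2 : a₁ * a * a₁⁻¹ = a := by rw [h1]; group
      calc a₁ * (a * b * a⁻¹ * b⁻¹) * a₁⁻¹ = (a₁ * a * a₁⁻¹) * (a₁ * b * a₁⁻¹) * (a₁ * a * a₁⁻¹)⁻¹ *
          (a₁ * b * a₁⁻¹)⁻¹ := by group
        _ = _ := by rw [h2]
    have l2 : b₁ * ⁅a, b₂⁆ * b₁⁻¹ = ⁅a₃ * b₃, b₂⁆ := by
      rw [← e₃, commutatorElement_def, commutatorElement_def]
      have h1 := hB b₁ hb₁ b₂ hb₂
      have h2 : b₁ * b₂ * b₁⁻¹ = b₂ := by rw [h1]; group
      calc b₁ * (a * b₂ * a⁻¹ * b₂⁻¹) * b₁⁻¹ = (b₁ * a * b₁⁻¹) * (b₁ * b₂ * b₁⁻¹) * (b₁ * a * b₁⁻¹)⁻¹ *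
          (b₁ * b₂ * b₁⁻¹)⁻¹ := by group
        _ = _ := by rw [h2]
    have l3 : b₁ * ⁅a, b⁆ * b₁⁻¹ = ⁅a₃ * b₃, b⁆ := by
      rw [← e₃, commutatorElement_def, commutatorElement_def]
      have h1 := hB b₁ hb₁ b hb
      have h2 : b₁ * b * b₁⁻¹ = b := by rw [h1]; group
      calc b₁ * (a * b * a⁻¹ * b⁻¹) * b₁⁻¹ = (b₁ * a * b₁⁻¹) * (b₁ * b * b₁⁻¹) * (b₁ * a * b₁⁻¹)⁻¹ *
          (b₁ * b * b₁⁻¹)⁻¹ := by group
        _ = _ := by rw [h2]
    have l4 : a₁ * ⁅a₃, b⁆ * a₁⁻¹ = ⁅a₃, b₂ * a₂⁆ := by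
      rw [← e₂, commutatorElement_def, commutatorElement_def]
      have h1 := hA a₁ ha₁ a₃ ha₃
      have h2 : a₁ * a₃ * a₁⁻¹ = a₃ := by rw [h1]; group
      calc a₁ * (a₃ * b * a₃⁻¹ * b⁻¹) * a₁⁻¹ = (a₁ * a₃ * a₁⁻¹) * (a₁ * b * a₁⁻¹) * (a₁ * a₃ * a₁⁻¹)⁻¹ *
          (a₁ * b * a₁⁻¹)⁻¹ := by group
        _ = _ := by rw [h2]
    calc (b₁ * a₁) * ⁅a, b⁆ * (b₁ * a₁)⁻¹ = b₁ * (a₁ * ⁅a, b⁆ * a₁⁻¹) * b₁⁻¹ := by group
      _ = ⁅a₃, b₂⁆ := by rw [l1, c1, l2, c2 b₂ hb₂]
      _ = a₁ * (b₁ * ⁅a, b⁆ * b₁⁻¹) * a₁⁻¹ := by rw [l3, c2 b hb, l4, c1']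
      _ = _ := by group
  have k1 := key a₁⁻¹ (inv_mem ha₁) b₁⁻¹ (inv_mem hb₁)
  change ⁅a, b⁆ * ⁅a₁, b₁⁆ = ⁅a₁, b₁⁆ * ⁅a, b⁆
  have e : ⁅a₁, b₁⁆ = (b₁⁻¹ * a₁⁻¹)⁻¹ * (a₁⁻¹ * b₁⁻¹) := by rw [commutatorElement_def]; group
  rw [e]
  calc ⁅a, b⁆ * ((b₁⁻¹ * a₁⁻¹)⁻¹ * (a₁⁻¹ * b₁⁻¹))
      = (b₁⁻¹ * a₁⁻¹)⁻¹ * ((b₁⁻¹ * a₁⁻¹) * ⁅a, b⁆ * (b₁⁻¹ * a₁⁻¹)⁻¹) * (a₁⁻¹ * b₁⁻¹) := by group
    _ = _ := by rw [k1]; group

theorem commutator_eq_of_fac {G : Type*} [Group G] {A B : Subgroup G}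
    (hA : ∀ x ∈ A, ∀ y ∈ A, x * y = y * x) (hB : ∀ x ∈ B, ∀ y ∈ B, x * y = y * x) (hAB : Fac A B) :
    _root_.commutator G ≤ ⁅A, B⁆ := by
  have hn : (⁅A, B⁆ : Subgroup G).Normal := by
    apply normalizer_eq_top_iff.mp
    rw [eq_top_iff, ← hAB.sup]
    exact sup_le (Coprime.le_normalizer_commutator_left B A) (Coprime.le_normalizer_commutator_right B A)
  have hc : ∀ a ∈ A, ∀ b ∈ B, ((a : G) : G ⧸ ⁅A, B⁆) * (b : G) = (b : G) * (a : G) := by
    intro a ha b hb
    have h1 : ⁅a, b⁆ ∈ ⁅A, B⁆ := commutator_mem_commutator ha hb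
    rw [← QuotientGroup.eq_one_iff] at h1
    exact commutatorElement_eq_one_iff_mul_comm.mp h1
  rw [_root_.commutator_def, commutator_le]
  intro x _ y _
  rw [← QuotientGroup.eq_one_iff]
  have key : Commute ((x : G) : G ⧸ ⁅A, B⁆) (y : G ⧸ ⁅A, B⁆) := by
    obtain ⟨a, ha, b, hb, rfl⟩ := hAB x
    obtain ⟨a', ha', b', hb', rfl⟩ := hAB y
    rw [QuotientGroup.mk_mul, QuotientGroup.mk_mul]
    have c1 : Commute ((a : G) : G ⧸ ⁅A, B⁆) (a' : G) := by
      change _ * _ = _ * _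
      rw [← QuotientGroup.mk_mul, hA a ha a' ha', QuotientGroup.mk_mul]
    have c2 : Commute ((b : G) : G ⧸ ⁅A, B⁆) (b' : G) := by
      change _ * _ = _ * _
      rw [← QuotientGroup.mk_mul, hB b hb b' hb', QuotientGroup.mk_mul]
    exact (c1.mul_right (hc a ha b' hb')).mul_left ((show Commute _ _ from (hc a' ha' b hb).symm).mul_right c2)
  exact commutatorElement_eq_one_iff_mul_comm.mpr key.eq

theorem ito {G : Type*} [Group G] {A B : Subgroup G}
    (hA : ∀ x ∈ A, ∀ y ∈ A, x * y = y * x) (hB : ∀ x ∈ B, ∀ y ∈ B, x * y = y * x) (hAB : Fac A B) :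
    ∀ x ∈ _root_.commutator G, ∀ y ∈ _root_.commutator G, x * y = y * x := by
  have hle := commutator_eq_of_fac hA hB hAB
  have hcomm : ∀ x ∈ (⁅A, B⁆ : Subgroup G), ∀ y ∈ (⁅A, B⁆ : Subgroup G), x * y = y * x := by
    have h1 : ⁅A, B⁆ ≤ centralizer ((⁅A, B⁆ : Subgroup G) : Set G) := by
      rw [commutator_le]
      intro a ha b hb
      rw [mem_centralizer_iff]
      intro y hy
      have h2 : ⁅A, B⁆ ≤ centralizer {⁅a, b⁆} := by
        rw [commutator_le]
        intro a₁ ha₁ b₁ hb₁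
        rw [mem_centralizer_singleton_iff]
        exact (ito_comm hA hB hAB ha ha₁ hb hb₁).eq.symm
      exact mem_centralizer_singleton_iff.mp (h2 hy)
    intro x hx y hy
    exact (mem_centralizer_iff.mp (h1 hx) y hy).symm
  exact fun x hx y hy => hcomm x (hle hx) y (hle hy)

end Cfsg.Agent.Lib.PermutB
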