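import Cfsg.Agent.Lib.QdC

/-!
Two quadratic elements generating a group that is not a `p`-group: sections `SL₂(p)`, homomorphisms to `SL₂(q)`.
-/

set_option autoImplicit false
set_option linter.unusedSectionVars false
set_option linter.unusedVariables false
set_option linter.style.haveILetI false

namespace Cfsg.Agent.Lib.QPairA

open Cfsg Cfsg.Agent.Lib.DickA Cfsg.Agent.Lib.DickB Cfsg.Agent.Lib.DickC Cfsg.Agent.Lib.DickD Cfsg.Agent.Lib.Involve
open Cfsg.Agent.Lib.QdA Cfsg.Agent.Lib.QdB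

universe u v

/-- a group acting on a plane by matrices on generators maps to `SL₂` -/
theorem hom_of_plane {F : Type*} [Field F] {Γ : Type*} [Group Γ] {α : Type*} (r : Γ → α → α)
    (hone : ∀ a, r 1 a = a) (hmul : ∀ g h a, r (g * h) a = r g (r h a)) (e : F × F → α) (he : Function.Injective e)
    (T : Set Γ) (hT : ∀ g ∈ T, ∃ M : S F, ∀ v, r g (e v) = e (ac M v)) :
    ∃ f : Subgroup.closure T →* S F, ∀ (g : Subgroup.closure T) (v : F × F), r (g : Γ) (e v) = e (ac (f g) v) := by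
  have hex : ∀ g ∈ Subgroup.closure T, ∃ M : S F, ∀ v, r g (e v) = e (ac M v) := by
    intro g hg
    induction hg using Subgroup.closure_induction with
    | mem x hx => exact hT x hx
    | one => exact ⟨1, fun v => by rw [ac_one, hone]⟩
    | mul x y hx hy ihx ihy =>
      obtain ⟨M, hM⟩ := ihx
      obtain ⟨N, hN⟩ := ihy
      exact ⟨M * N, fun v => by rw [ac_mul, ← hM, ← hN, hmul]⟩
    | inv x hx ih =>
      obtain ⟨M, hM⟩ := ih
      refine ⟨M⁻¹, fun v => ?_⟩
      have := hM (ac M⁻¹ v)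
      rw [← ac_mul, mul_inv_cancel, ac_one] at this
      rw [← this, ← hmul, inv_mul_cancel, hone]
  have huniq : ∀ (M N : S F), (∀ v, e (ac M v) = e (ac N v)) → M = N := by
    intro M N h
    have h1 := he (h (1, 0))
    have h2 := he (h (0, 1))
    simp only [ac, mul_one, mul_zero, add_zero, zero_add, Prod.mk.injEq] at h1 h2
    exact ext4 h1.1 h2.1 h1.2 h2.2
  have hex' : ∀ g : Subgroup.closure T, ∃ M : S F, ∀ v, r (g : Γ) (e v) = e (ac M v) := fun g => hex g g.2
  choose f hf using hex'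
  refine ⟨MonoidHom.mk' f (fun g h => huniq _ _ (fun v => ?_)), hf⟩
  rw [← hf, ac_mul, ← hf, ← hf, Subgroup.coe_mul, hmul]

section ind

variable {K : Type v} [Field K] {p : ℕ} [Fact p.Prime] [CharP K p] {Γ : Type*} [Group Γ] {x y : Γ} {m : ℕ} {P : Prop}

theorem one_add_pow {W : Type u} [AddCommGroup W] [Module K W] (D : Module.End K W) (hD : D * D = 0) (k : ℕ) :
    (1 + D) ^ k = 1 + (k : Module.End K W) * D := by
  induction k with
  | zero => simp
  | succ k ih =>
    rw [pow_succ, ih]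
    have : (1 + (k : Module.End K W) * D) * (1 + D) = 1 + ((k : Module.End K W) + 1) * D + (k : Module.End K W) * (D * D) := by
      noncomm_ring
    rw [this, hD, mul_zero, add_zero]
    push_cast; rfl

theorem comp_ind
    (h : ∀ (W : Type u) [AddCommGroup W] [Module K W] [FiniteDimensional K W] (ρ : Γ →* Module.End K W),
      (ρ x - 1) * (ρ x - 1) = 0 → (ρ y - 1) * (ρ y - 1) = 0 → ρ ((x * y) ^ m) = 1 →
      (∀ U : Submodule K W, (∀ g, ∀ w ∈ U, ρ g w ∈ U) → U = ⊥ ∨ U = ⊤) → (∃ g, ∀ n, ρ (g ^ p ^ n) ≠ 1) → P) :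
    ∀ (d : ℕ) (W : Type u) [AddCommGroup W] [Module K W] [FiniteDimensional K W] (_ : Module.finrank K W = d)
    (ρ : Γ →* Module.End K W)
    (_ : (ρ x - 1) * (ρ x - 1) = 0) (_ : (ρ y - 1) * (ρ y - 1) = 0) (_ : ρ ((x * y) ^ m) = 1)
    (_ : ∃ g, ∀ n, ρ (g ^ p ^ n) ≠ 1), P := by
  intro d
  induction d using Nat.strong_induction_on with
  | _ d ih =>
  intro W _ _ _ hd ρ hx hy hm hnp
  by_cases hirr : ∀ U : Submodule K W, (∀ g, ∀ w ∈ U, ρ g w ∈ U) → U = ⊥ ∨ U = ⊤
  · exact h W ρ hx hy hm hirr hnp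
  push Not at hirr
  obtain ⟨U, hU, hU0, hU1⟩ := hirr
  let ρ₁ : Γ →* Module.End K U :=
    { toFun := fun g => (ρ g).restrict (hU g)
      map_one' := by ext w; simp [LinearMap.restrict_apply]
      map_mul' := by intro g g'; ext w; simp [LinearMap.restrict_apply] }
  let ρ₂ : Γ →* Module.End K (W ⧸ U) :=
    { toFun := fun g => U.mapQ U (ρ g) (hU g)
      map_one' := by ext w; simp
      map_mul' := by intro g g'; ext w; simp }
  have h1 : ∀ (g : Γ) (w : U), ((ρ₁ g w : U) : W) = ρ g w := fun g w => rfl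
  have h2 : ∀ (g : Γ) (w : W), ρ₂ g (U.mkQ w) = U.mkQ (ρ g w) := fun g w => rfl
  have hxw : ∀ w, ρ x (ρ x w - w) = ρ x w - w := by
    intro w
    have := LinearMap.congr_fun hx w
    change ρ x (ρ x w - w) - (ρ x w - w) = 0 at this
    exact sub_eq_zero.1 this
  have hyw : ∀ w, ρ y (ρ y w - w) = ρ y w - w := by
    intro w
    have := LinearMap.congr_fun hy w
    change ρ y (ρ y w - w) - (ρ y w - w) = 0 at this
    exact sub_eq_zero.1 this
  have hmw : ∀ w, ρ ((x * y) ^ m) w = w := fun w => LinearMap.congr_fun hm w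
  by_contra hP
  have hp1 : ∀ g, ∃ n, ρ₁ (g ^ p ^ n) = 1 := by
    by_contra hcon
    push Not at hcon
    refine hP (ih _ ?_ U rfl ρ₁ ?_ ?_ ?_ hcon)
    · rw [← hd]
      exact Submodule.finrank_lt hU1
    · ext w
      change ρ x (ρ x w - w) - (ρ x w - w) = 0
      rw [hxw, sub_self]
    · ext w
      change ρ y (ρ y w - w) - (ρ y w - w) = 0
      rw [hyw, sub_self]
    · ext w
      rw [h1, hmw]; rfl
  have hp2 : ∀ g, ∃ n, ρ₂ (g ^ p ^ n) = 1 := by
    by_contra hcon
    push Not at hcon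
    refine hP (ih _ ?_ (W ⧸ U) rfl ρ₂ ?_ ?_ ?_ hcon)
    · rw [← hd]
      have h3 := Submodule.finrank_quotient_add_finrank U
      have h4 : 0 < Module.finrank K U := by
        rw [Nat.pos_iff_ne_zero]
        intro h0
        exact hU0 (Submodule.finrank_eq_zero.1 h0)
      omega
    · ext w
      change ρ₂ x (ρ₂ x (U.mkQ w) - U.mkQ w) - (ρ₂ x (U.mkQ w) - U.mkQ w) = 0
      rw [h2, ← map_sub, h2, hxw, sub_self]
    · ext w
      change ρ₂ y (ρ₂ y (U.mkQ w) - U.mkQ w) - (ρ₂ y (U.mkQ w) - U.mkQ w) = 0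
      rw [h2, ← map_sub, h2, hyw, sub_self]
    · ext w
      change ρ₂ _ (U.mkQ w) = U.mkQ w
      rw [h2, hmw]
  obtain ⟨g, hg⟩ := hnp
  obtain ⟨n1, hn1⟩ := hp1 g
  obtain ⟨n2, hn2⟩ := hp2 g
  have hup : ∀ {W' : Type u} [AddCommGroup W'] [Module K W'] (ρ' : Γ →* Module.End K W') (n k : ℕ),
      ρ' (g ^ p ^ n) = 1 → ρ' (g ^ p ^ (n + k)) = 1 := by
    intro W' _ _ ρ' n k hn
    rw [pow_add, pow_mul, map_pow, hn, one_pow]
  have e1 := hup ρ₁ n1 n2 hn1
  have e2 := hup ρ₂ n2 n1 hn2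
  rw [add_comm n2] at e2
  set n := n1 + n2
  set D : Module.End K W := ρ (g ^ p ^ n) - 1 with hDdef
  have hDU : ∀ w, D w ∈ U := by
    intro w
    have h3 := LinearMap.congr_fun e2 (U.mkQ w)
    rw [h2] at h3
    change U.mkQ _ = U.mkQ w at h3
    have h4 : U.mkQ (ρ (g ^ p ^ n) w - w) = 0 := by rw [map_sub, h3, sub_self]
    have h5 : ρ (g ^ p ^ n) w - w ∈ U := by
      rwa [Submodule.mkQ_apply, Submodule.Quotient.mk_eq_zero] at h4
    exact h5
  have hD0 : ∀ w ∈ U, D w = 0 := by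
    intro w hw
    have h3 := congrArg Subtype.val (LinearMap.congr_fun e1 ⟨w, hw⟩)
    rw [h1] at h3
    change ρ (g ^ p ^ n) w = w at h3
    change ρ (g ^ p ^ n) w - w = 0
    rw [h3, sub_self]
  have hDD : D * D = 0 := by
    ext w
    exact hD0 _ (hDU w)
  refine hg (n + 1) ?_
  rw [pow_succ, pow_mul, map_pow]
  have e3 : ρ (g ^ p ^ n) = 1 + D := by rw [hDdef]; abel
  rw [e3, one_add_pow D hDD]
  have e4 : ((p : ℕ) : Module.End K W) * D = 0 := by
    ext w
    change ((p : ℕ) : Module.End K W) (D w) = 0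
    have : ((p : ℕ) : Module.End K W) (D w) = (p : K) • (D w) := by
      rw [Nat.cast_smul_eq_nsmul]
      simp
    rw [this, CharP.cast_eq_zero, zero_smul]
  rw [e4, add_zero]

end ind

end Cfsg.Agent.Lib.QPairA
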