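import Cfsg.Agent.Lib.QPairA

/-!
Two quadratic elements: sections `SL₂(p)`.
-/

set_option autoImplicit false
set_option linter.unusedSectionVars false
set_option linter.unusedVariables false
set_option linter.style.haveILetI false

namespace Cfsg.Agent.Lib.QPairB

open Cfsg Cfsg.Agent.Lib.DickA Cfsg.Agent.Lib.DickB Cfsg.Agent.Lib.DickC Cfsg.Agent.Lib.DickD Cfsg.Agent.Lib.Involve
open Cfsg.Agent.Lib.QdA Cfsg.Agent.Lib.QdB Cfsg.Agent.Lib.QPairA
open scoped commutatorElement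

universe u v

variable {p : ℕ} [Fact p.Prime] {Γ : Type v} [Group Γ]

/-- irreducible modules -/
theorem irr_section (hp : p ≠ 2) {W : Type u} [AddCommGroup W] [Module (ZMod p) W] [Finite W]
    (ρ : Γ →* Module.End (ZMod p) W) {x y : Γ} (hgen : Subgroup.closure {x, y} = ⊤)
    (hx : (ρ x - 1) * (ρ x - 1) = 0) (hy : (ρ y - 1) * (ρ y - 1) = 0)
    (hirr : ∀ U : Submodule (ZMod p) W, (∀ g, ∀ w ∈ U, ρ g w ∈ U) → U = ⊥ ∨ U = ⊤) (hnt : ∃ g, ρ g ≠ 1) :
    ∃ (K : Subgroup Γ) (f : K →* S (ZMod p)), Function.Surjective f := by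
  classical
  let ρ' : Γ →* AddMonoid.End W := ((Module.toAddMonoidEnd (Module.End (ZMod p) W) W : Module.End (ZMod p) W →+* AddMonoid.End W) : Module.End (ZMod p) W →* AddMonoid.End W).comp ρ
  have hρ' : ∀ g w, ρ' g w = ρ g w := fun g w => rfl
  have hquad : ∀ g, (ρ g - 1) * (ρ g - 1) = 0 → (ρ' g - 1) * (ρ' g - 1) = 0 := by
    intro g hg
    ext w
    exact LinearMap.congr_fun hg w
  have hpA : ∀ a : W, p • a = 0 := by
    intro a
    rw [← Nat.cast_smul_eq_nsmul (ZMod p), CharP.cast_eq_zero, zero_smul]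
  have hall : ∀ (B : AddSubgroup W), (∀ b ∈ B, ρ' x b ∈ B) → (∀ b ∈ B, ρ' y b ∈ B) → ∀ g, ∀ b ∈ B, ρ' g b ∈ B := by
    intro B h1 h2 g
    have hg : g ∈ Subgroup.closure {x, y} := by rw [hgen]; trivial
    induction hg using Subgroup.closure_induction with
    | mem z hz =>
      rcases hz with rfl | hz
      · exact h1
      · rw [Set.mem_singleton_iff] at hz; subst hz; exact h2
    | one => intro b hb; rw [map_one]; exact hb
    | mul g h _ _ ihg ihh => intro b hb; rw [map_mul]; exact ihg _ (ihh _ hb)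
    | inv g _ ih =>
      intro b hb
      -- finite: `ρ' g` restricted to `B` is injective hence surjective
      let f : B → B := fun b => ⟨ρ' g b, ih b b.2⟩
      have hf : Function.Injective f := by
        intro b c hbc
        have h3 : ρ' g b = ρ' g c := congrArg Subtype.val hbc
        have h4 : ρ' g⁻¹ (ρ' g b) = ρ' g⁻¹ (ρ' g c) := by rw [h3]
        have h5 : ∀ w, ρ' g⁻¹ (ρ' g w) = w := by
          intro w
          have : (ρ' g⁻¹ * ρ' g) w = w := by rw [← map_mul, inv_mul_cancel, map_one]; rfl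
          exact this
        rw [h5, h5] at h4
        exact Subtype.ext h4
      obtain ⟨c, hc⟩ := Finite.surjective_of_injective hf ⟨b, hb⟩
      have h3 : ρ' g c = b := congrArg Subtype.val hc
      rw [← h3]
      have : (ρ' g⁻¹ * ρ' g) (c : W) = c := by rw [← map_mul, inv_mul_cancel, map_one]; rfl
      change (ρ' g⁻¹ * ρ' g) (c : W) ∈ B
      rw [this]
      exact c.2
  have hirr' : ∀ B : AddSubgroup W, (∀ b ∈ B, ρ' x b ∈ B) → (∀ b ∈ B, ρ' y b ∈ B) → B = ⊥ ∨ B = ⊤ := by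
    intro B h1 h2
    rcases hirr (AddSubgroup.toZModSubmodule p B) (fun g w hw => hall B h1 h2 g w hw) with h | h
    · left
      rw [eq_bot_iff]
      intro b hb
      have : b ∈ AddSubgroup.toZModSubmodule p B := hb
      rw [h] at this
      exact this
    · right
      rw [eq_top_iff]
      intro b _
      have : b ∈ AddSubgroup.toZModSubmodule p B := by rw [h]; trivial
      exact this
  have hnt' : ρ' x ≠ 1 ∨ ρ' y ≠ 1 := by
    by_contra hcon
    push Not at hcon
    obtain ⟨h1, h2⟩ := hcon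
    have h3 : ∀ g, ρ' g = 1 := by
      intro g
      have hg : g ∈ Subgroup.closure {x, y} := by rw [hgen]; trivial
      have h4 : Subgroup.closure {x, y} ≤ ρ'.toHomUnits.ker := by
        rw [Subgroup.closure_le]
        rintro z (rfl | hz)
        · exact MonoidHom.mem_ker.2 (Units.ext h1)
        · rw [Set.mem_singleton_iff] at hz; subst hz; exact MonoidHom.mem_ker.2 (Units.ext h2)
      have h5 := MonoidHom.mem_ker.1 (h4 hg)
      exact congrArg Units.val h5
    obtain ⟨g, hg⟩ := hnt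
    refine hg ?_
    ext w
    exact DFunLike.congr_fun (h3 g) w
  obtain ⟨ε, h₁, h₂, -, -, hadd, hinj, e1, e2⟩ := exists_pair hp hpA ρ' hirr' (hquad x hx) (hquad y hy) hnt'
  let e : ZMod p × ZMod p → W := fun v => ε v.1 v.2
  have he : Function.Injective e := by
    intro v w hvw
    have h0 : ε 0 0 = 0 := by
      have := hadd 0 0 0 0
      rw [add_zero] at this
      exact left_eq_add.1 this
    have h1 : ε (v.1 + -w.1) (v.2 + -w.2) = 0 := by
      have h3 : ε w.1 w.2 + ε (-w.1) (-w.2) = 0 := by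
        rw [← hadd, add_neg_cancel, add_neg_cancel, h0]
      have h4 : ε v.1 v.2 = ε w.1 w.2 := hvw
      rw [hadd, h4, h3]
    obtain ⟨h2, h3⟩ := hinj _ _ h1
    exact Prod.ext (by linear_combination h2) (by linear_combination h3)
  obtain ⟨f, hf⟩ := hom_of_plane (fun g w => ρ' g w) (fun a => by rw [map_one]; rfl) (fun g h a => by rw [map_mul]; rfl) e he {h₁, h₂} (by
    rintro g (rfl | hg)
    · refine ⟨SL2.t 1, fun v => ?_⟩
      change ρ' g (ε v.1 v.2) = _
      rw [e1]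
      simp [e, ac, ga, gb, gc, gd]
    · rw [Set.mem_singleton_iff] at hg
      subst hg
      refine ⟨SL2.s 1, fun v => ?_⟩
      change ρ' g (ε v.1 v.2) = _
      rw [e2]
      simp [e, ac, ga, gb, gc, gd])
  have huniq : ∀ (M N : S (ZMod p)), (∀ v, e (ac M v) = e (ac N v)) → M = N := by
    intro M N h
    have h1 := he (h (1, 0))
    have h2 := he (h (0, 1))
    simp only [ac, mul_one, mul_zero, add_zero, zero_add, Prod.mk.injEq] at h1 h2
    exact ext4 h1.1 h2.1 h1.2 h2.2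
  refine ⟨_, f, MonoidHom.range_eq_top.1 (gen_zmod _ ?_ ?_)⟩
  · refine ⟨⟨h₁, Subgroup.subset_closure (by simp)⟩, huniq _ _ (fun v => ?_)⟩
    rw [← hf]
    change ρ' h₁ (ε v.1 v.2) = _
    rw [e1]
    simp [e, ac, ga, gb, gc, gd]
  · refine ⟨⟨h₂, Subgroup.subset_closure (by simp)⟩, huniq _ _ (fun v => ?_)⟩
    rw [← hf]
    change ρ' h₂ (ε v.1 v.2) = _
    rw [e2]
    simp [e, ac, ga, gb, gc, gd]

theorem lin_section (hp : p ≠ 2) {W : Type u} [AddCommGroup W] [Module (ZMod p) W] [Finite W]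
    (ρ : Γ →* Module.End (ZMod p) W) {x y : Γ} (hgen : Subgroup.closure {x, y} = ⊤)
    (hx : (ρ x - 1) * (ρ x - 1) = 0) (hy : (ρ y - 1) * (ρ y - 1) = 0) (hnt : ∃ g, ∀ n, ρ (g ^ p ^ n) ≠ 1) :
    ∃ (K : Subgroup Γ) (f : K →* S (ZMod p)), Function.Surjective f := by
  haveI : FiniteDimensional (ZMod p) W := inferInstance
  refine comp_ind (K := ZMod p) (p := p) (x := x) (y := y) (m := 0) ?_ _ W rfl ρ hx hy (by simp) hnt
  intro W' _ _ _ ρ' hx' hy' _ hirr' hnt'
  haveI : Finite W' := Module.finite_of_finite (ZMod p)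
  obtain ⟨g, hg⟩ := hnt'
  refine irr_section hp ρ' hgen hx' hy' hirr' ⟨g, fun h => hg 0 ?_⟩
  rw [pow_zero, pow_one, h]

/-- additive endomorphisms are `ZMod p`-linear -/
def zl (p : ℕ) (A : Type*) [AddCommGroup A] [Module (ZMod p) A] : AddMonoid.End A →* Module.End (ZMod p) A where
  toFun f := { toFun := fun a => f a, map_add' := fun a b => map_add f a b, map_smul' := fun c a => ZMod.map_smul f c a }
  map_one' := rfl
  map_mul' _ _ := rfl

theorem exists_rep_end {A : Type v} [AddCommGroup A] [Finite A] (hA : ∀ a : A, p • a = 0) {H : Type*} [Group H] (φ : H →* AddMonoid.End A) :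
    ∃ (_ : Module (ZMod p) A) (ρ : H →* Module.End (ZMod p) A), ∀ h a, ρ h a = φ h a := by
  obtain ⟨i⟩ : Nonempty (Module (ZMod p) A) := ⟨AddCommGroup.zmodModule hA⟩
  exact ⟨i, (zl p A).comp φ, fun h a => rfl⟩

theorem exists_rep_aut {A : Type v} [CommGroup A] [Finite A] (hA : ∀ a : A, a ^ p = 1) {H : Type*} [Group H] (φ : H →* MulAut A) :
    ∃ (W : Type v) (_ : AddCommGroup W) (_ : Module (ZMod p) W) (_ : Finite W) (ρ : H →* Module.End (ZMod p) W)
      (j : A → W), Function.Bijective j ∧ (∀ v w : A, j (v * w) = j v + j w) ∧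
      ∀ (h : H) (v : A), ρ h (j v) = j (φ h v) := by
  obtain ⟨i, ρ, hρ⟩ := exists_rep_end (p := p) (A := Additive A) (by
    intro v
    have h1 : v.toMul ^ p = 1 := hA _
    have : Additive.ofMul (v.toMul ^ p) = 0 := by rw [h1]; rfl
    exact this) ((Cfsg.Agent.Lib.Quadratic.toEnd A).comp φ)
  exact ⟨Additive A, inferInstance, i, inferInstance, ρ,
    Additive.ofMul, Additive.ofMul.bijective, fun v w => rfl, fun h v => hρ h _⟩

/-- conjugation action of a group on an elementary abelian `p`-group, as a `ZMod p`-representation -/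
theorem exists_rep {G : Type v} [Group G] [Finite G] {V : Subgroup G} (hV : Cfsg.IsElementaryAbelian p V)
    {H : Subgroup G} (hH : H ≤ Subgroup.normalizer (V : Set G)) :
    ∃ (W : Type v) (_ : AddCommGroup W) (_ : Module (ZMod p) W) (_ : Finite W) (ρ : H →* Module.End (ZMod p) W)
      (j : V → W), Function.Bijective j ∧ (∀ v w : V, j (v * w) = j v + j w) ∧
      ∀ (h : H) (v v' : V), (v' : G) = (h : G) * v * (h : G)⁻¹ → ρ h (j v) = j v' := by
  obtain ⟨hV1, hV2⟩ := hV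
  letI iC : CommGroup V := { mul_comm := fun x y => (hV1.is_comm.comm x y) }
  obtain ⟨W, _, _, _, ρ, j, h1, h2, h3⟩ := exists_rep_aut (p := p) (A := V) (fun a => Subtype.ext (hV2 _ a.2))
    (V.normalizerMonoidHom.comp (Subgroup.inclusion hH))
  refine ⟨W, inferInstance, inferInstance, inferInstance, ρ, j, h1, h2, ?_⟩
  intro h v v' hvv'
  rw [h3]
  congr 1
  exact Subtype.ext hvv'.symm

/-- the group version -/
theorem pair_section (hp : p ≠ 2) {G : Type v} [Group G] [Finite G] {V : Subgroup G} (hV : Cfsg.IsElementaryAbelian p V)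
    {a b : G} (haV : a ∈ Subgroup.normalizer (V : Set G)) (hbV : b ∈ Subgroup.normalizer (V : Set G))
    (ha : ⁅⁅V, Subgroup.zpowers a⁆, Subgroup.zpowers a⁆ = ⊥) (hb : ⁅⁅V, Subgroup.zpowers b⁆, Subgroup.zpowers b⁆ = ⊥)
    (hnp : ∃ g ∈ Subgroup.closure {a, b}, ∀ n, g ^ p ^ n ∉ Subgroup.centralizer (V : Set G)) :
    ∃ (K : Subgroup G) (f : K →* S (ZMod p)), K ≤ Subgroup.closure {a, b} ∧ Function.Surjective f := by
  classical
  set H := Subgroup.closure {a, b} with hHdef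
  have hH : H ≤ Subgroup.normalizer (V : Set G) := by
    rw [hHdef, Subgroup.closure_le]
    rintro z (rfl | hz)
    · exact haV
    · rw [Set.mem_singleton_iff] at hz; subst hz; exact hbV
  have haH : a ∈ H := Subgroup.subset_closure (by simp)
  have hbH : b ∈ H := Subgroup.subset_closure (by simp)
  obtain ⟨W, _, _, _, ρ, j, hj, hadd, hρ⟩ := exists_rep hV hH
  have hconj : ∀ (h : H) (v : V), (h : G) * v * (h : G)⁻¹ ∈ V := fun h v => (Subgroup.mem_normalizer_iff.1 (hH h.2) v).1 v.2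
  have hρ' : ∀ (h : H) (v : V), ρ h (j v) = j ⟨(h : G) * v * (h : G)⁻¹, hconj h v⟩ := fun h v => hρ h v _ rfl
  have hj0 : j 1 = 0 := by
    have := hadd 1 1
    rw [mul_one] at this
    exact left_eq_add.1 this
  have hneg : ∀ v : V, j v⁻¹ = - j v := by
    intro v
    have := hadd v v⁻¹
    rw [mul_inv_cancel, hj0] at this
    exact (neg_eq_of_add_eq_zero_right this.symm).symm
  have hquad : ∀ (g : G) (hg : g ∈ H), ⁅⁅V, Subgroup.zpowers g⁆, Subgroup.zpowers g⁆ = ⊥ →
      (ρ ⟨g, hg⟩ - 1) * (ρ ⟨g, hg⟩ - 1) = 0 := by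
    intro g hg hq
    ext w
    obtain ⟨v, rfl⟩ := hj.2 w
    have h1 : ∀ v : V, (ρ ⟨g, hg⟩ - 1) (j v) = j (⟨g * v * g⁻¹, hconj ⟨g, hg⟩ v⟩ * v⁻¹) := by
      intro v
      change ρ ⟨g, hg⟩ (j v) - j v = _
      rw [hρ', hadd, hneg, sub_eq_add_neg]
    change (ρ ⟨g, hg⟩ - 1) ((ρ ⟨g, hg⟩ - 1) (j v)) = 0
    rw [h1, h1, ← hj0]
    congr 1
    refine Subtype.ext ?_
    change g * (g * v * g⁻¹ * (v : G)⁻¹) * g⁻¹ * (g * v * g⁻¹ * (v : G)⁻¹)⁻¹ = 1
    have h3 : ⁅(v : G), g⁆ ∈ ⁅V, Subgroup.zpowers g⁆ := Subgroup.commutator_mem_commutator v.2 (Subgroup.mem_zpowers g)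
    have h4 : ⁅⁅(v : G), g⁆, g⁆ ∈ (⊥ : Subgroup G) := by
      rw [← hq]; exact Subgroup.commutator_mem_commutator h3 (Subgroup.mem_zpowers g)
    rw [Subgroup.mem_bot, commutatorElement_eq_one_iff_mul_comm] at h4
    have h5 : g * v * g⁻¹ * (v : G)⁻¹ = ⁅(v : G), g⁆⁻¹ := by rw [_root_.commutatorElement_def]; group
    rw [h5, inv_inv]
    have h6 : ⁅(v : G), g⁆⁻¹ * g⁻¹ = g⁻¹ * ⁅(v : G), g⁆⁻¹ := by
      rw [← mul_inv_rev, ← mul_inv_rev, h4]
    rw [mul_assoc g, h6]; group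
  have hgen : Subgroup.closure {(⟨a, haH⟩ : H), ⟨b, hbH⟩} = ⊤ := by
    rw [eq_top_iff]
    intro z _
    have h1 : (Subgroup.closure {(⟨a, haH⟩ : H), ⟨b, hbH⟩}).map H.subtype = H := by
      rw [MonoidHom.map_closure, Set.image_pair]
      rfl
    have h2 : (z : G) ∈ (Subgroup.closure {(⟨a, haH⟩ : H), ⟨b, hbH⟩}).map H.subtype := by rw [h1]; exact z.2
    obtain ⟨w, hw, hw'⟩ := h2
    have : w = z := Subtype.ext hw'
    rw [← this]; exact hw
  obtain ⟨g, hg, hgn⟩ := hnp
  obtain ⟨K, f, hf⟩ := lin_section hp ρ hgen (hquad a haH ha) (hquad b hbH hb) ⟨⟨g, hg⟩, fun n h => by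
    refine hgn n ?_
    rw [Subgroup.mem_centralizer_iff]
    intro v hv
    have h1 := LinearMap.congr_fun h (j ⟨v, hv⟩)
    rw [hρ'] at h1
    have h2 := congrArg Subtype.val (hj.1 h1)
    change g ^ p ^ n * v * (g ^ p ^ n)⁻¹ = v at h2
    rw [mul_inv_eq_iff_eq_mul] at h2
    exact h2.symm⟩
  refine ⟨K.map H.subtype, f.comp (K.equivMapOfInjective _ H.subtype_injective).symm.toMonoidHom, ?_, ?_⟩
  · rintro _ ⟨z, -, rfl⟩
    exact z.2
  · exact hf.comp (K.equivMapOfInjective _ H.subtype_injective).symm.surjective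

/-- `SL₂` as a section -/
theorem section_of {G : Type v} [Group G] {X : Type u} [Group X] {H K : Subgroup G} (hK : K ≤ H) (f : K →* X) (hf : Function.Surjective f) :
    ∃ (K L : Subgroup G) (_ : (L.subgroupOf K).Normal), K ≤ H ∧ Nonempty ((K ⧸ L.subgroupOf K) ≃* X) := by
  have e : (f.ker.map K.subtype).subgroupOf K = f.ker := Subgroup.comap_map_eq_self_of_injective K.subtype_injective _
  have hn : ((f.ker.map K.subtype).subgroupOf K).Normal := by rw [e]; exact MonoidHom.normal_ker f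
  refine ⟨K, f.ker.map K.subtype, hn, hK, ⟨?_⟩⟩
  exact (QuotientGroup.quotientMulEquivOfEq e).trans (QuotientGroup.quotientKerEquivOfSurjective f hf)

/-- a single quadratic element outside `O_p` -/
theorem single_section (hp : p ≠ 2) {G : Type v} [Group G] [Finite G] {V H : Subgroup G} (hV : Cfsg.IsElementaryAbelian p V)
    (hHV : H ≤ Subgroup.normalizer (V : Set G)) (hf : H ⊓ Subgroup.centralizer (V : Set G) = ⊥) {a : G} (haH : a ∈ H)
    (hq : ⁅⁅V, Subgroup.zpowers a⁆, Subgroup.zpowers a⁆ = ⊥) (hna : a ∉ (Cfsg.pCore p H).map H.subtype) :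
    ∃ (K : Subgroup G) (f : K →* S (ZMod p)), K ≤ H ∧ Function.Surjective f := by
  classical
  have h1 : ∃ n : H, ¬ IsPGroup p (Subgroup.closure {(⟨a, haH⟩ : H), n * ⟨a, haH⟩ * n⁻¹}) := by
    by_contra hcon
    push Not at hcon
    exact hna ⟨⟨a, haH⟩, Cfsg.Agent.Lib.BaerSuzuki.mem_pCore hcon, rfl⟩
  obtain ⟨n, hn⟩ := h1
  have hb : ⁅⁅V, Subgroup.zpowers ((n : G) * a * (n : G)⁻¹)⁆, Subgroup.zpowers ((n : G) * a * (n : G)⁻¹)⁆ = ⊥ := by
    have e1 : Subgroup.zpowers ((n : G) * a * (n : G)⁻¹) = (Subgroup.zpowers a).map (MulAut.conj (n : G)).toMonoidHom := by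
      rw [MonoidHom.map_zpowers]; rfl
    have e2 : V.map (MulAut.conj (n : G)).toMonoidHom = V := by
      ext v
      constructor
      · rintro ⟨w, hw, rfl⟩
        exact (Subgroup.mem_normalizer_iff.1 (hHV n.2) w).1 hw
      · intro hv
        refine ⟨(n : G)⁻¹ * v * n, ?_, ?_⟩
        · have := (Subgroup.mem_normalizer_iff.1 (hHV (H.inv_mem n.2)) v).1 hv
          rwa [inv_inv] at this
        · change (n : G) * ((n : G)⁻¹ * v * n) * (n : G)⁻¹ = v
          group
    rw [e1]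
    nth_rewrite 1 [← e2]
    rw [← Subgroup.map_commutator, ← Subgroup.map_commutator, hq, Subgroup.map_bot]
  have hle : Subgroup.closure {a, (n : G) * a * (n : G)⁻¹} ≤ H := by
    rw [Subgroup.closure_le]
    rintro z (rfl | hz)
    · exact haH
    · rw [Set.mem_singleton_iff] at hz; subst hz; exact H.mul_mem (H.mul_mem n.2 haH) (H.inv_mem n.2)
  obtain ⟨K, f, hK, hf'⟩ := pair_section hp hV (hHV haH) (hHV (H.mul_mem (H.mul_mem n.2 haH) (H.inv_mem n.2))) hq hb (by
    by_contra hcon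
    push Not at hcon
    refine hn ?_
    rintro ⟨g, hg⟩
    have h2 : (g : G) ∈ Subgroup.closure {a, (n : G) * a * (n : G)⁻¹} := by
      have h3 : (Subgroup.closure {(⟨a, haH⟩ : H), n * ⟨a, haH⟩ * n⁻¹}).map H.subtype = Subgroup.closure {a, (n : G) * a * (n : G)⁻¹} := by
        rw [MonoidHom.map_closure, Set.image_pair]; rfl
      rw [← h3]
      exact ⟨g, hg, rfl⟩
    obtain ⟨k, hk⟩ := hcon _ h2
    refine ⟨k, Subtype.ext (Subtype.ext ?_)⟩
    have h3 : (g : G) ^ p ^ k ∈ H ⊓ Subgroup.centralizer (V : Set G) := Subgroup.mem_inf.2 ⟨H.pow_mem g.2 _, hk⟩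
    rw [hf] at h3
    exact Subgroup.mem_bot.1 h3)
  exact ⟨K, f, hK.trans hle, hf'⟩

end Cfsg.Agent.Lib.QPairB
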