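import Cfsg.Agent.Lib.QPairB
import Cfsg.Agent.Lib.PSol

/-!
`SL₂(p)`: non-abelian Sylow `2`-subgroups, not `p`-solvable for `p ≥ 5`.
-/

set_option autoImplicit false
set_option linter.unusedSectionVars false
set_option linter.unusedVariables false
set_option linter.style.haveILetI false

namespace Cfsg.Agent.Lib.QPairC

open Cfsg Cfsg.Agent.Lib.DickA Cfsg.Agent.Lib.DickB Cfsg.Agent.Lib.DickC Cfsg.Agent.Lib.DickD Cfsg.Agent.Lib.Involve
open Cfsg.Agent.Lib.QdA Cfsg.Agent.Lib.QdB Cfsg.Agent.Lib.QPairA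
open scoped commutatorElement

universe u v

variable {p : ℕ} [Fact p.Prime]

/-- a nonabelian `2`-subgroup of `SL₂(p)` -/
theorem exists_nonabelian (hp : p ≠ 2) : ∃ (Q : Subgroup (S (ZMod p))), IsPGroup 2 Q ∧ ∃ x ∈ Q, ∃ y ∈ Q, x * y ≠ y * x := by
  classical
  obtain ⟨a, b, hab⟩ := ZMod.sq_add_sq p (-1)
  have h2 : (2 : ZMod p) ≠ 0 := by
    intro h
    have h1 : ((2 : ℕ) : ZMod p) = 0 := by exact_mod_cast h
    rw [ZMod.natCast_eq_zero_iff] at h1
    exact hp ((Nat.prime_dvd_prime_iff_eq Fact.out Nat.prime_two).1 h1)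
  let i : S (ZMod p) := DickD.mk 0 1 (-1) 0 (by ring)
  let j : S (ZMod p) := DickD.mk a b b (-a) (by linear_combination -hab)
  have hii : i ^ 4 = 1 := by
    have : i ^ 2 = DickD.mk (-1) 0 0 (-1) (by ring) := by
      rw [pow_two]
      ext <;> simp [i]
    rw [show (4 : ℕ) = 2 * 2 from rfl, pow_mul, this, pow_two]
    ext <;> simp
  have hjj : j ^ 4 = 1 := by
    have : j ^ 2 = DickD.mk (-1) 0 0 (-1) (by ring) := by
      rw [pow_two]
      ext
      · simp [j]; linear_combination hab
      · simp [j]; ring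
      · simp [j]; ring
      · simp [j]; linear_combination hab
    rw [show (4 : ℕ) = 2 * 2 from rfl, pow_mul, this, pow_two]
    ext <;> simp
  have hconj : j * i * j⁻¹ = i⁻¹ := by
    ext
    · simp [i, j]; ring
    · simp [i, j]; linear_combination hab
    · simp [i, j]; linear_combination -hab
    · simp [i, j]; ring
  have hne : i * j ≠ j * i := by
    intro h
    have h3 : i = i⁻¹ := by
      rw [← hconj, ← h]; group
    have h4 := congrArg gb h3
    simp [i] at h4
    have : (2 : ZMod p) = 0 := by linear_combination h4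
    exact h2 this
  have hpi : IsPGroup 2 (Subgroup.zpowers i) := by
    refine IsPGroup.of_card_dvd_pow (n := 2) ?_
    rw [Nat.card_zpowers]
    exact orderOf_dvd_of_pow_eq_one hii
  have hpj : IsPGroup 2 (Subgroup.zpowers j) := by
    refine IsPGroup.of_card_dvd_pow (n := 2) ?_
    rw [Nat.card_zpowers]
    exact orderOf_dvd_of_pow_eq_one hjj
  have hnorm : Subgroup.zpowers j ≤ Subgroup.normalizer (Subgroup.zpowers i : Set (S (ZMod p))) := by
    rw [Subgroup.zpowers_le]
    refine Cfsg.Agent.Lib.CFunA.mem_normalizer_of_le ?_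
    rw [MonoidHom.map_zpowers]
    change Subgroup.zpowers (j * i * j⁻¹) ≤ _
    rw [hconj, Subgroup.zpowers_inv]
  refine ⟨Subgroup.zpowers i ⊔ Subgroup.zpowers j, ?_, i, Subgroup.mem_sup_left (Subgroup.mem_zpowers i), j,
    Subgroup.mem_sup_right (Subgroup.mem_zpowers j), hne⟩
  exact hpi.to_sup_of_normal_left' hpj hnorm

/-- `SL₂(p)` involved forces nonabelian Sylow `2`-subgroups -/
theorem sylow_nonabelian (hp : p ≠ 2) {G : Type v} [Group G] [Finite G] {K : Subgroup G} (f : K →* S (ZMod p))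
    (hf : Function.Surjective f) {H : Subgroup G} (hKH : K ≤ H) (T : Sylow 2 H) : ¬ IsMulCommutative T := by
  intro hT
  obtain ⟨Q, hQ, x, hx, y, hy, hxy⟩ := exists_nonabelian (p := p) hp
  have h1 : Involves (S (ZMod p)) H := by
    refine involves_iff.2 ⟨K.subgroupOf H, f.comp (Subgroup.subgroupOfEquivOfLe hKH).toMonoidHom, ?_⟩
    exact hf.comp (Subgroup.subgroupOfEquivOfLe hKH).surjective
  have h2 : Involves Q H := involves_trans (involves_subgroup Q) h1
  have h3 := involves_sylow hQ h2 T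
  obtain ⟨R, g, hg⟩ := involves_iff.1 h3
  obtain ⟨r, hr⟩ := hg ⟨x, hx⟩
  obtain ⟨s, hs⟩ := hg ⟨y, hy⟩
  have h4 : r * s = s * r := Subtype.ext (hT.is_comm.comm _ _)
  have h5 := congrArg g h4
  rw [map_mul, map_mul, hr, hs] at h5
  exact hxy (congrArg Subtype.val h5)

/-- normal subgroups of prime-power or `p'`-index -/
theorem top_of_normal (hp : 5 ≤ p) (N : Subgroup (S (ZMod p))) [hN : N.Normal]
    (h : (∃ m : ℕ, N.index = p ^ m) ∨ N.index.Coprime p) : N = ⊤ := by
  classical
  have hpp : p.Prime := Fact.out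
  -- transvections are commutators
  have hcomm : ∀ b : ZMod p, SL2.t b ∈ _root_.commutator (S (ZMod p)) := by
    intro b
    have h3 : (3 : ZMod p) ≠ 0 := by
      intro h
      have h1 : ((3 : ℕ) : ZMod p) = 0 := by exact_mod_cast h
      rw [ZMod.natCast_eq_zero_iff] at h1
      have := Nat.le_of_dvd (by norm_num) h1
      omega
    have h2 : (2 : ZMod p) ≠ 0 := by
      intro h
      have h1 : ((2 : ℕ) : ZMod p) = 0 := by exact_mod_cast h
      rw [ZMod.natCast_eq_zero_iff] at h1
      have := Nat.le_of_dvd (by norm_num) h1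
      omega
    set g : S (ZMod p) := SL2.bMk (Units.mk0 2 h2) 0 with hg
    have h4 := SL2.conj_t_of_mem_B (SL2.bMk_mem (Units.mk0 (2 : ZMod p) h2) 0) (b / 3)
    have h5 : ⁅g, SL2.t (b / 3)⁆ = SL2.t b := by
      rw [_root_.commutatorElement_def, hg, h4, ← SL2.t_neg, ← SL2.t_add]
      congr 1
      simp
      field_simp
      ring
    rw [← h5, _root_.commutator_def]
    exact Subgroup.commutator_mem_commutator (Subgroup.mem_top _) (Subgroup.mem_top _)
  have hperf : _root_.commutator (S (ZMod p)) = ⊤ := by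
    refine SL2.closure_t_s hcomm (fun b => ?_)
    have h1 := SL2.w_conj_t (-b)
    rw [neg_neg] at h1
    rw [← h1]
    exact (inferInstance : (_root_.commutator (S (ZMod p))).Normal).conj_mem _ (hcomm _) _
  rcases h with ⟨m, hm⟩ | h
  · -- `p`-group quotient
    by_contra hne
    have h1 : IsPGroup p (S (ZMod p) ⧸ N) := IsPGroup.of_card (n := m) (by rw [← hm]; rfl)
    haveI : Nontrivial (S (ZMod p) ⧸ N) := QuotientGroup.nontrivial_iff.2 hne
    haveI := h1.isNilpotent
    have h2 : _root_.commutator (S (ZMod p) ⧸ N) < ⊤ := IsSolvable.commutator_lt_top_of_nontrivial _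
    have h3 : (_root_.commutator (S (ZMod p))).map (QuotientGroup.mk' N) = _root_.commutator (S (ZMod p) ⧸ N) := by
      rw [_root_.commutator_def, _root_.commutator_def, Subgroup.map_commutator, Subgroup.map_top_of_surjective _ (QuotientGroup.mk'_surjective N)]
    rw [hperf, Subgroup.map_top_of_surjective _ (QuotientGroup.mk'_surjective N)] at h3
    rw [← h3] at h2
    exact lt_irrefl _ h2
  · have hmem : ∀ g : S (ZMod p), g ^ p = 1 → g ∈ N := by
      intro g hg
      have h1 : (QuotientGroup.mk' N g) ^ p = 1 := by rw [← map_pow, hg, map_one]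
      have h2 : (QuotientGroup.mk' N g) ^ N.index = 1 := by
        rw [← map_pow]
        exact (QuotientGroup.eq_one_iff _).2 (Subgroup.pow_index_mem N g)
      have h3 : orderOf (QuotientGroup.mk' N g) ∣ Nat.gcd N.index p := Nat.dvd_gcd (orderOf_dvd_of_pow_eq_one h2) (orderOf_dvd_of_pow_eq_one h1)
      rw [h, Nat.dvd_one, orderOf_eq_one_iff] at h3
      exact (QuotientGroup.eq_one_iff _).1 h3
    refine SL2.closure_t_s (fun b => hmem _ ?_) (fun b => ?_)
    · rw [SL2.t_pow, CharP.cast_eq_zero, zero_mul, SL2.t_zero]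
    · have h1 := SL2.w_conj_t (-b)
      rw [neg_neg] at h1
      rw [← h1]
      exact hN.conj_mem _ (hmem _ (by rw [SL2.t_pow, CharP.cast_eq_zero, zero_mul, SL2.t_zero])) _

theorem not_pSolvable (hp : 5 ≤ p) : ¬ IsPSolvable p (S (ZMod p)) := by
  rintro ⟨n, H, h0, h1, -, hn, hfac⟩
  have key : ∀ k : ℕ, ∀ hk : k ≤ n, H ⟨n - k, by omega⟩ = ⊤ := by
    intro k
    induction k with
    | zero => intro hk; exact h1
    | succ k ih =>
      intro hk
      have h2 := ih (by omega)
      have h3 := hfac ⟨n - (k + 1), by omega⟩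
      have e1 : (⟨n - (k + 1), by omega⟩ : Fin n).castSucc = (⟨n - (k + 1), by omega⟩ : Fin (n + 1)) := rfl
      have e2 : (⟨n - (k + 1), by omega⟩ : Fin n).succ = (⟨n - k, by omega⟩ : Fin (n + 1)) := by
        ext
        simp; omega
      rw [e1, e2, h2, Subgroup.relIndex_top_right] at h3
      haveI := hn ⟨n - (k + 1), by omega⟩
      exact top_of_normal hp _ h3
  have h2 := key n le_rfl
  have e : (⟨n - n, by omega⟩ : Fin (n + 1)) = 0 := by ext; simp
  rw [e, h0] at h2
  have h3 : (SL2.t (1 : ZMod p)) ∈ (⊥ : Subgroup (S (ZMod p))) := by rw [h2]; trivial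
  rw [Subgroup.mem_bot, ← SL2.t_zero] at h3
  exact one_ne_zero (SL2.t_injective h3)

/-- a `p`-solvable group involving `SL₂(p)`, `p` odd -/
theorem three_of_pSolvable (hp : p ≠ 2) {G : Type v} [Group G] [Finite G] {K H : Subgroup G} (hKH : K ≤ H) (f : K →* S (ZMod p))
    (hf : Function.Surjective f) (hH : IsPSolvable p H) : p = 3 := by
  have hpp : p.Prime := Fact.out
  have h1 : ¬ 5 ≤ p := fun h => not_pSolvable h (PSol.of_surjective (PSol.of_le hH hKH) f hf)
  have h2 := hpp.two_le
  have h4 : p ≠ 4 := by rintro rfl; exact absurd hpp (by decide)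
  omega

/-- `p'` by cyclic `p` is `p`-solvable -/
theorem pSolvable_of {X : Type v} [Group X] [Finite X] (Q : Subgroup X) [hQ : Q.Normal] (hQc : (Nat.card Q).Coprime p)
    (hi : ∃ m : ℕ, Q.index = p ^ m) : IsPSolvable p X := by
  refine ⟨2, ![⊥, Q, ⊤], rfl, rfl, ?_, ?_, ?_⟩
  · intro i j hij
    fin_cases i <;> fin_cases j <;> simp_all
  · intro i
    fin_cases i
    · exact (inferInstance : (⊥ : Subgroup X).Normal)
    · exact hQ
    · exact (inferInstance : (⊤ : Subgroup X).Normal)
  · intro i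
    fin_cases i
    · right
      change ((⊥ : Subgroup X).relIndex Q).Coprime p
      rw [Subgroup.relIndex_bot_left]; exact hQc
    · left
      change ∃ m, Q.relIndex ⊤ = p ^ m
      rw [Subgroup.relIndex_top_right]; exact hi

end Cfsg.Agent.Lib.QPairC
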