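import Cfsg.Agent.Lib.QPairA

/-!
Two quadratic elements over a finite field: homomorphism to `SL₂(q)`.
-/

set_option autoImplicit false
set_option linter.unusedSectionVars false
set_option linter.unusedVariables false
set_option linter.style.haveILetI false

namespace Cfsg.Agent.Lib.QPairE

open Cfsg Cfsg.Agent.Lib.DickA Cfsg.Agent.Lib.DickB Cfsg.Agent.Lib.DickC Cfsg.Agent.Lib.DickD
open Cfsg.Agent.Lib.QdA Cfsg.Agent.Lib.QdB Cfsg.Agent.Lib.QPairA
open Polynomial

universe u v

variable {K : Type v} [Field K] {W : Type u} [AddCommGroup W] [Module K W]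

theorem exists_eigen (T : Module.End K W) (s : Finset K) : ∀ w : W, w ≠ 0 → (aeval T (∏ a ∈ s, (X - C a))) w = 0 →
    ∃ (a : K) (v : W), v ≠ 0 ∧ T v = a • v := by
  classical
  induction s using Finset.induction_on with
  | empty => intro w hw h; simp at h; exact absurd h hw
  | insert a s ha ih =>
    intro w hw h
    rw [Finset.prod_insert ha, mul_comm, map_mul] at h
    by_cases h1 : (aeval T (X - C a)) w = 0
    · refine ⟨a, w, hw, ?_⟩
      simp at h1
      exact sub_eq_zero.1 h1
    · exact ih _ h1 h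

theorem exists_eigen_of_pow [Fintype K] {p : ℕ} [Fact p.Prime] [CharP K p] [Nontrivial W] (T : Module.End K W) {e k : ℕ}
    (hT : T ^ (p ^ e * k) = 1) (hk : k ∣ Fintype.card K - 1) : ∃ (a : K) (v : W), v ≠ 0 ∧ T v = a • v := by
  classical
  -- a fixed vector of `T ^ k`
  have h1 : ∃ w : W, w ≠ 0 ∧ (T ^ k) w = w := by
    have h2 : (T ^ k - 1) ^ p ^ e = 0 := by
      haveI : CharP (Module.End K W) p := by
        exact charP_of_injective_algebraMap (algebraMap K (Module.End K W)).injective p
      rw [sub_pow_char_pow_of_commute _ _ (Commute.one_right _), ← pow_mul, one_pow, mul_comm k, hT, sub_self]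
    by_contra hcon
    push Not at hcon
    have hinj : Function.Injective (T ^ k - 1 : Module.End K W) := by
      rw [injective_iff_map_eq_zero]
      intro w hw
      by_contra h0
      exact hcon w h0 (sub_eq_zero.1 hw)
    have h3 : ∀ n : ℕ, Function.Injective (((T ^ k - 1) ^ n : Module.End K W)) := by
      intro n
      rw [Module.End.coe_pow]
      exact hinj.iterate n
    obtain ⟨w, hw⟩ := exists_ne (0 : W)
    refine hw (h3 (p ^ e) ?_)
    rw [h2, map_zero]; rfl
  obtain ⟨w, hw, hw1⟩ := h1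
  have h2 : (T ^ (Fintype.card K - 1)) w = w := by
    obtain ⟨m, hm⟩ := hk
    rw [hm, pow_mul, Module.End.coe_pow]
    exact Function.iterate_fixed hw1 m
  have h3 : (T ^ (Fintype.card K)) w = T w := by
    have hc : Fintype.card K = (Fintype.card K - 1) + 1 := by
      have := Fintype.card_pos (α := K)
      omega
    rw [hc, pow_succ', Module.End.mul_apply, h2]
  refine exists_eigen T Finset.univ w hw ?_
  have h4 : (∏ a : K, (X - C a)) = X ^ Fintype.card K - X := by
    have h5 := prod_multiset_X_sub_C_of_monic_of_roots_card_eq (p := (X ^ Fintype.card K - X : K[X])) (by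
      refine monic_X_pow_sub ?_
      rw [degree_X]
      exact_mod_cast Fintype.one_lt_card) (by
      rw [FiniteField.roots_X_pow_card_sub_X, FiniteField.X_pow_card_sub_X_natDegree_eq K Fintype.one_lt_card]
      rfl)
    rw [FiniteField.roots_X_pow_card_sub_X] at h5
    exact h5
  rw [h4]
  simp [h3]

variable {Γ : Type*} [Group Γ]

theorem exists_hom [Fintype K] {p : ℕ} [Fact p.Prime] [CharP K p] [FiniteDimensional K W] (ρ : Γ →* Module.End K W) {x y : Γ}
    (hgen : Subgroup.closure {x, y} = ⊤) (hx : (ρ x - 1) * (ρ x - 1) = 0) (hy : (ρ y - 1) * (ρ y - 1) = 0) {e k : ℕ}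
    (hm : ρ ((x * y) ^ (p ^ e * k)) = 1) (hk : k ∣ Fintype.card K - 1)
    (hirr : ∀ U : Submodule K W, (∀ g, ∀ w ∈ U, ρ g w ∈ U) → U = ⊥ ∨ U = ⊤) (hnp : ∃ g, ∀ n, ρ (g ^ p ^ n) ≠ 1) :
    ∃ φ : Γ →* S K, ¬ IsPGroup p φ.range := by
  classical
  obtain ⟨g₀, hg₀⟩ := hnp
  haveI : Nontrivial W := by
    rcases subsingleton_or_nontrivial W with h | h
    · exact absurd (LinearMap.ext fun w => Subsingleton.elim _ _) (hg₀ 0)
    · exact h
  set N := ρ x - 1 with hN
  set M := ρ y - 1 with hM
  have hρx : ρ x = 1 + N := by rw [hN]; abel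
  have hρy : ρ y = 1 + M := by rw [hM]; abel
  have hNN : ∀ w, N (N w) = 0 := fun w => LinearMap.congr_fun hx w
  have hMM : ∀ w, M (M w) = 0 := fun w => LinearMap.congr_fun hy w
  set z := N * M + M * N with hz
  obtain ⟨μ, w₀, hw₀, hμ⟩ := exists_eigen_of_pow (p := p) (ρ (x * y)) (by rw [← map_pow]; exact hm) hk
  set T' : Module.End K W := (1 - M) * (1 - N) with hT'
  have hT'T : T' * ρ (x * y) = 1 := by
    rw [map_mul, hρx, hρy, hT']
    have e1 : (1 - N) * (1 + N) = 1 := by
      have : (1 - N) * (1 + N) = 1 - N * N := by noncomm_ring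
      rw [this, hx, sub_zero]
    have e2 : (1 - M) * (1 + M) = 1 := by
      have : (1 - M) * (1 + M) = 1 - M * M := by noncomm_ring
      rw [this, hy, sub_zero]
    calc (1 - M) * (1 - N) * ((1 + N) * (1 + M)) = (1 - M) * ((1 - N) * (1 + N)) * (1 + M) := by noncomm_ring
      _ = 1 := by rw [e1, mul_one, e2]
  have hμT : w₀ = μ • T' w₀ := by
    have := LinearMap.congr_fun hT'T w₀
    rw [Module.End.mul_apply, hμ, map_smul] at this
    exact this.symm
  have hμ0 : μ ≠ 0 := by
    rintro rfl
    rw [zero_smul] at hμT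
    exact hw₀ hμT
  have hsum : ρ (x * y) + T' = 1 + 1 + z := by
    rw [map_mul, hρx, hρy, hT', hz]
    noncomm_ring
  set c : K := μ + μ⁻¹ - 2 with hc
  have hzw : z w₀ = c • w₀ := by
    have h1 := LinearMap.congr_fun hsum w₀
    have h2 : T' w₀ = μ⁻¹ • w₀ := by
      rw [eq_inv_smul_iff₀ hμ0]; exact hμT.symm
    rw [LinearMap.add_apply, LinearMap.add_apply, LinearMap.add_apply, hμ, h2] at h1
    change μ • w₀ + μ⁻¹ • w₀ = w₀ + w₀ + z w₀ at h1
    rw [hc, sub_smul, add_smul, h1, two_smul]; abel
  -- `z` commutes with everything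
  have hzN : z * N = N * z := by
    have h1 : z * N = N * M * N + M * (N * N) := by rw [hz]; noncomm_ring
    have h2 : N * z = (N * N) * M + N * M * N := by rw [hz]; noncomm_ring
    rw [h1, h2, hx, mul_zero, zero_mul, add_zero, zero_add]
  have hzM : z * M = M * z := by
    have h1 : z * M = N * (M * M) + M * N * M := by rw [hz]; noncomm_ring
    have h2 : M * z = M * N * M + (M * M) * N := by rw [hz]; noncomm_ring
    rw [h1, h2, hy, mul_zero, zero_mul, add_zero, zero_add]
  clear_value z
  have hzg : ∀ g, z * ρ g = ρ g * z := by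
    intro g
    have hg : g ∈ Subgroup.closure {x, y} := by rw [hgen]; trivial
    induction hg using Subgroup.closure_induction with
    | mem u hu =>
      rcases hu with rfl | hu
      · rw [hρx, mul_add, add_mul, hzN, mul_one, one_mul]
      · rw [Set.mem_singleton_iff] at hu; subst hu
        rw [hρy, mul_add, add_mul, hzM, mul_one, one_mul]
    | one => rw [map_one, mul_one, one_mul]
    | mul a b _ _ iha ihb => rw [map_mul, ← mul_assoc, iha, mul_assoc, ihb, mul_assoc]
    | inv a _ ih =>
      have h1 : ρ a * ρ a⁻¹ = 1 := by rw [← map_mul, mul_inv_cancel, map_one]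
      have h2 : ρ a⁻¹ * ρ a = 1 := by rw [← map_mul, inv_mul_cancel, map_one]
      calc z * ρ a⁻¹ = ρ a⁻¹ * (ρ a * z) * ρ a⁻¹ := by rw [← mul_assoc, h2, one_mul]
        _ = ρ a⁻¹ * z * (ρ a * ρ a⁻¹) := by rw [← ih]; noncomm_ring
        _ = ρ a⁻¹ * z := by rw [h1, mul_one]
  have hzc : ∀ w, z w = c • w := by
    rcases hirr (LinearMap.ker (z - c • (1 : Module.End K W))) (fun g w hw => by
      rw [LinearMap.mem_ker] at hw ⊢
      have h1 : z w = c • w := sub_eq_zero.1 hw
      change z (ρ g w) - c • ρ g w = 0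
      have h2 : z (ρ g w) = ρ g (z w) := LinearMap.congr_fun (hzg g) w
      rw [h2, h1, map_smul, sub_self]) with h | h
    · exfalso
      have : w₀ ∈ LinearMap.ker (z - c • (1 : Module.End K W)) := by
        rw [LinearMap.mem_ker]
        change z w₀ - c • w₀ = 0
        rw [hzw, sub_self]
      rw [h] at this
      exact hw₀ this
    · intro w
      have : w ∈ LinearMap.ker (z - c • (1 : Module.End K W)) := by rw [h]; trivial
      rw [LinearMap.mem_ker] at this
      exact sub_eq_zero.1 this
  obtain ⟨w, hw, hNw⟩ : ∃ w : W, w ≠ 0 ∧ N w = 0 := by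
    by_cases h0 : N = 0
    · obtain ⟨w, hw⟩ := exists_ne (0 : W)
      exact ⟨w, hw, by rw [h0]; rfl⟩
    · obtain ⟨w, hw⟩ : ∃ w, N w ≠ 0 := by
        by_contra hcon
        push Not at hcon
        exact h0 (by ext w; exact hcon w)
      exact ⟨N w, hw, hNN w⟩
  set v := M w with hv
  have hMv : M v = 0 := hMM w
  have hNv : N v = c • w := by
    have h1 := hzc w
    rw [hz, LinearMap.add_apply, Module.End.mul_apply, Module.End.mul_apply, hNw, map_zero, add_zero] at h1
    exact h1
  have hρxw : ∀ u, ρ x u = u + N u := fun u => by rw [hρx]; rfl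
  have hρyw : ∀ u, ρ y u = u + M u := fun u => by rw [hρy]; rfl
  -- submodules invariant under `x`, `y`
  have hinv : ∀ U : Submodule K W, (∀ u ∈ U, N u ∈ U) → (∀ u ∈ U, M u ∈ U) → ∀ g, ∀ u ∈ U, ρ g u ∈ U := by
    intro U h1 h2 g
    have hg : g ∈ Subgroup.closure {x, y} := by rw [hgen]; trivial
    induction hg using Subgroup.closure_induction with
    | mem z hz =>
      rcases hz with rfl | hz
      · intro u hu; rw [hρxw]; exact U.add_mem hu (h1 u hu)
      · rw [Set.mem_singleton_iff] at hz; subst hz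
        intro u hu; rw [hρyw]; exact U.add_mem hu (h2 u hu)
    | one => intro b hb; rw [map_one]; exact hb
    | mul g h _ _ ihg ihh => intro b hb; rw [map_mul]; exact ihg _ (ihh _ hb)
    | inv g _ ih =>
      intro b hb
      let f : U →ₗ[K] U := (ρ g).restrict ih
      have hf : Function.Injective f := by
        intro b c hbc
        have h3 : ρ g b = ρ g c := congrArg Subtype.val hbc
        have h4 : ρ g⁻¹ (ρ g b) = ρ g⁻¹ (ρ g c) := by rw [h3]
        have h5 : ∀ w, ρ g⁻¹ (ρ g w) = w := by
          intro w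
          have : (ρ g⁻¹ * ρ g) w = w := by rw [← map_mul, inv_mul_cancel, map_one]; rfl
          exact this
        rw [h5, h5] at h4
        exact Subtype.ext h4
      obtain ⟨c, hc⟩ := (LinearMap.injective_iff_surjective.1 hf) ⟨b, hb⟩
      have h3 : ρ g c = b := congrArg Subtype.val hc
      rw [← h3]
      have : (ρ g⁻¹ * ρ g) (c : W) = c := by rw [← map_mul, inv_mul_cancel, map_one]; rfl
      change (ρ g⁻¹ * ρ g) (c : W) ∈ U
      rw [this]
      exact c.2
  let ε : K × K → W := fun d => d.1 • w + d.2 • v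
  have hNε : ∀ d, N (ε d) = (c * d.2) • w := by
    intro d
    change N (d.1 • w + d.2 • v) = _
    rw [map_add, map_smul, map_smul, hNw, smul_zero, zero_add, hNv, smul_smul, mul_comm]
  have hMε : ∀ d, M (ε d) = d.1 • v := by
    intro d
    change M (d.1 • w + d.2 • v) = _
    rw [map_add, map_smul, map_smul, hMv, smul_zero, add_zero]
  have hsurj : Function.Surjective ε := by
    let U : Submodule K W :=
      { carrier := Set.range ε
        add_mem' := by
          rintro _ _ ⟨d, rfl⟩ ⟨d', rfl⟩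
          exact ⟨d + d', by simp only [ε, Prod.fst_add, Prod.snd_add, add_smul]; abel⟩
        zero_mem' := ⟨0, by simp [ε]⟩
        smul_mem' := by
          rintro r _ ⟨d, rfl⟩
          exact ⟨r • d, by simp [ε, smul_smul]⟩ }
    rcases hirr U (hinv U (by
      rintro _ ⟨d, rfl⟩
      exact ⟨(c * d.2, 0), by rw [hNε]; simp [ε]⟩) (by
      rintro _ ⟨d, rfl⟩
      exact ⟨(0, d.1), by rw [hMε]; simp [ε]⟩)) with h | h
    · exfalso
      have : w ∈ U := ⟨(1, 0), by simp [ε]⟩
      rw [h] at this
      exact hw this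
    · intro u
      have : u ∈ U := by rw [h]; trivial
      exact this
  have hntN : ¬ (N = 0 ∧ M = 0) := by
    rintro ⟨h1, h2⟩
    have h3 : ∀ g, ρ g = 1 := by
      intro g
      have hg : g ∈ Subgroup.closure {x, y} := by rw [hgen]; trivial
      have h4 : Subgroup.closure {x, y} ≤ ρ.toHomUnits.ker := by
        rw [Subgroup.closure_le]
        rintro z (rfl | hz)
        · exact MonoidHom.mem_ker.2 (Units.ext (by rw [MonoidHom.coe_toHomUnits, hρx, h1, add_zero]; rfl))
        · rw [Set.mem_singleton_iff] at hz; subst hz; exact MonoidHom.mem_ker.2 (Units.ext (by rw [MonoidHom.coe_toHomUnits, hρy, h2, add_zero]; rfl))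
      have h5 := MonoidHom.mem_ker.1 (h4 hg)
      exact congrArg Units.val h5
    exact hg₀ 0 (h3 _)
  have hinj : ∀ d, ε d = 0 → d = 0 := by
    intro d hd
    have hd2 : d.2 = 0 := by
      by_contra h2
      -- `v` is a multiple of `w`
      have h3 : v = (-(d.2)⁻¹ * d.1) • w := by
        have h4 : d.1 • w + d.2 • v = 0 := hd
        have h5 : d.2 • v = -(d.1 • w) := eq_neg_of_add_eq_zero_right h4
        have h6 : v = (d.2)⁻¹ • (d.2 • v) := by rw [smul_smul, inv_mul_cancel₀ h2, one_smul]
        rw [h6, h5, smul_neg, smul_smul, neg_mul, neg_smul]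
      have h4 : ∀ u, ∃ r : K, u = r • w := by
        intro u
        obtain ⟨d', rfl⟩ := hsurj u
        refine ⟨d'.1 + d'.2 * (-(d.2)⁻¹ * d.1), ?_⟩
        change d'.1 • w + d'.2 • v = _
        rw [h3, smul_smul, ← add_smul]
      have h5 : N = 0 := by
        ext u
        obtain ⟨r, rfl⟩ := h4 u
        rw [map_smul, hNw, smul_zero]; rfl
      have h6 : M w = 0 := by
        obtain ⟨r, hr⟩ := h4 (M w)
        have h7 := hMM w
        rw [hr, map_smul, hr, smul_smul] at h7
        have h8 : r * r = 0 := (smul_eq_zero.1 h7).resolve_right hw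
        have h9 : r = 0 := mul_self_eq_zero.1 h8
        rw [hr, h9, zero_smul]
      have h7 : M = 0 := by
        ext u
        obtain ⟨r, rfl⟩ := h4 u
        rw [map_smul, h6, smul_zero]; rfl
      exact hntN ⟨h5, h7⟩
    have hd1 : d.1 = 0 := by
      have h4 : d.1 • w + d.2 • v = 0 := hd
      rw [hd2, zero_smul, add_zero] at h4
      exact (smul_eq_zero.1 h4).resolve_right hw
    exact Prod.ext hd1 hd2
  have hεinj : Function.Injective ε := by
    intro d d' h
    have h1 : ε (d - d') = 0 := by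
      have h2 : ε (d - d') = ε d - ε d' := by
        simp only [ε, Prod.fst_sub, Prod.snd_sub, sub_smul]; abel
      rw [h2, h, sub_self]
    exact sub_eq_zero.1 (hinj _ h1)
  obtain ⟨f, hf⟩ := hom_of_plane (fun g u => ρ g u) (fun a => by rw [map_one]; rfl) (fun g h a => by rw [map_mul]; rfl) ε hεinj {x, y} (by
    rintro g (rfl | hg)
    · refine ⟨DickD.mk 1 c 0 1 (by ring), fun d => ?_⟩
      change ρ g (ε d) = _
      rw [hρxw, hNε]
      simp only [ε, ac, ga_mk, gb_mk, gc_mk, gd_mk, one_mul, zero_mul, zero_add, add_smul]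
      abel
    · rw [Set.mem_singleton_iff] at hg
      subst hg
      refine ⟨DickD.mk 1 0 1 1 (by ring), fun d => ?_⟩
      change ρ g (ε d) = _
      rw [hρyw, hMε]
      simp only [ε, ac, ga_mk, gb_mk, gc_mk, gd_mk, one_mul, zero_mul, add_zero, add_smul]
      abel)
  have hmem : ∀ g : Γ, g ∈ Subgroup.closure {x, y} := fun g => by rw [hgen]; trivial
  let ι : Γ →* Subgroup.closure {x, y} := (MonoidHom.id Γ).codRestrict _ hmem
  refine ⟨f.comp ι, fun hP => ?_⟩
  obtain ⟨n, hn⟩ := hP ⟨f (ι g₀), g₀, rfl⟩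
  have hn' : f (ι g₀) ^ p ^ n = 1 := congrArg Subtype.val hn
  rw [← map_pow, ← map_pow] at hn'
  refine hg₀ n ?_
  ext u
  obtain ⟨d, rfl⟩ := hsurj u
  have h1 := hf (ι (g₀ ^ p ^ n)) d
  rw [hn', ac_one] at h1
  exact h1

end Cfsg.Agent.Lib.QPairE
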