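import Mathlib
import Cfsg.Agent.Lib.Tor13
import Cfsg.Agent.Lib.PGrpD

/-! Sylow subgroups of `SL_2(q)` and of its subgroups. -/

set_option linter.all false
set_option maxHeartbeats 400000

namespace Cfsg.Agent.Lib.Qu

open Matrix Module Cfsg Cfsg.Agent.Lib.Tw Cfsg.Agent.Lib.Tor
open scoped MatrixGroups

variable {F : Type*} [Field F] [Fintype F] [DecidableEq F]

/-- 2-groups inside `SL_2` -/
theorem quat_of_not_cyclic (h2 : (2 : F) ≠ 0) {S : Type*} [Group S] [Finite S] (hS : IsPGroup 2 S) (f : S →* SL(2, F)) (hf : Function.Injective f)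
    (hc : ¬ IsCyclic S) : ∃ k : ℕ, 1 ≤ k ∧ Nonempty (S ≃* QuaternionGroup (2 ^ k)) := by
  have key : ∀ x : S, orderOf x = 2 → f x = -1 := by
    intro x hx
    have hx2 : x * x = 1 := by
      have := pow_orderOf_eq_one x
      rwa [hx, pow_two] at this
    have h1 : f x * f x = 1 := by
      rw [← map_mul, hx2, map_one]
    rcases (sq_eq_one h2).mp h1 with h | h
    · exfalso
      have : x = 1 := hf (by rw [h, map_one])
      rw [this, orderOf_one] at hx
      norm_num at hx
    · exact h
  rcases PGrpD.cyclic_or_quaternion hS (fun x y hx hy => hf ((key x hx).trans (key y hy).symm)) with h | ⟨m, a, b, hm, ha, hb, h1, hba, hcard⟩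
  · exact absurd h hc
  · exact ⟨m, hm, PGrpD.quaternion_iso ha hb h1 hba hcard⟩

/-- Sylow 2-subgroups of `SL_2(q)` are not cyclic -/
theorem not_cyclic (hodd : Odd (Fintype.card F)) (P : Sylow 2 SL(2, F)) : ¬ IsCyclic (P : Subgroup SL(2, F)) := by
  intro hc
  obtain ⟨A, a, r, hA, ha, hr, hcd, hS, hN, _⟩ := syl2_main hodd P
  obtain ⟨n, hnS, hn2, hmem, hT⟩ := syl2_shape hA ha hr hcd hS hN
  obtain ⟨w, hw, hwo, hwr, hwC⟩ := syl2_gen hA ha hT
  have hcomm : n * w = w * n := by
    letI : CommGroup (P : Subgroup SL(2, F)) := IsCyclic.commGroup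
    have := mul_comm (⟨n, hnS⟩ : (P : Subgroup SL(2, F))) ⟨w, hw.1⟩
    exact congrArg Subtype.val this
  have h1 : n * w * n⁻¹ = w⁻¹ := inverts_all hA hn2 hw.2
  rw [hcomm, mul_inv_cancel_right] at h1
  exact hwr.ne_inv h1

theorem not_cyclic_of_embed {p : ℕ} [Fact p.Prime] (hp : p ≠ 2) {H : Type*} [Group H] [Finite H] {K : Subgroup H}
    (e : SL(2, ZMod p) ≃* K) (S : Sylow 2 H) : ¬ IsCyclic (S : Subgroup H) := by
  intro hc
  have hodd : Odd (Fintype.card (ZMod p)) := by
    rw [ZMod.card]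
    exact (Fact.out : p.Prime).odd_of_ne_two hp
  let P₀ : Sylow 2 SL(2, ZMod p) := default
  apply not_cyclic hodd P₀
  let f : SL(2, ZMod p) →* H := K.subtype.comp e.toMonoidHom
  have hf : Function.Injective f := K.subtype_injective.comp e.injective
  have hPg : IsPGroup 2 ((P₀ : Subgroup SL(2, ZMod p)).map f) := P₀.isPGroup'.map f
  obtain ⟨Q, hQ⟩ := hPg.exists_le_sylow
  have e2 : (Q : Subgroup H) ≃* (S : Subgroup H) := Q.equiv S
  haveI : IsCyclic (Q : Subgroup H) := isCyclic_of_injective e2.toMonoidHom e2.injective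
  have g : (P₀ : Subgroup SL(2, ZMod p)) →* (Q : Subgroup H) := (Subgroup.inclusion hQ).comp (f.subgroupMap _)
  let g' : (P₀ : Subgroup SL(2, ZMod p)) →* (Q : Subgroup H) := (Subgroup.inclusion hQ).comp (f.subgroupMap _)
  have hg : Function.Injective g' := by
    intro a b h
    have h' : f a = f b := congrArg (fun q : (Q : Subgroup H) => (q : H)) h
    exact Subtype.ext (hf h')
  exact isCyclic_of_injective g' hg

theorem s0276 (hq : Fintype.card F % 8 = 3 ∨ Fintype.card F % 8 = 5) (P : Sylow 2 (Matrix.ProjectiveSpecialLinearGroup (Fin 2) F)) :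
    IsKleinFour (P : Subgroup (Matrix.ProjectiveSpecialLinearGroup (Fin 2) F)) := by
  classical
  have hodd : Odd (Fintype.card F) := by rw [Nat.odd_iff]; omega
  have h2 := two_ne_zero_of_odd hodd
  obtain ⟨S, rfl⟩ := Sylow.mapSurjective_surjective (mk_surj (F := F)) 2 P
  obtain ⟨A, a, r, hA, ha, hr, hcd, hS, hN, _, h8⟩ := syl2_main hodd S
  have ha2 := h8 hq
  subst ha2
  have hcS : Nat.card S = 8 := hS.trans (by norm_num)
  have hexp : ∀ s ∈ S, Tor.mk F s * Tor.mk F s = 1 := by
    intro s hs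
    have h1 : orderOf (⟨s, hs⟩ : S) ∣ 8 := by rw [← hcS]; exact orderOf_dvd_natCard _
    have h3 : orderOf (⟨s, hs⟩ : S) ≠ 8 := by
      intro h
      apply not_cyclic hodd S
      exact isCyclic_of_orderOf_eq_card _ (h.trans hcS.symm)
    have h4 : orderOf (⟨s, hs⟩ : S) ∣ 4 := by
      obtain ⟨k, hk, h5⟩ := (Nat.dvd_prime_pow Nat.prime_two (m := 3)).mp (by simpa using h1)
      rw [h5] at h3 ⊢
      have : k ≠ 3 := by rintro rfl; norm_num at h3
      exact pow_dvd_pow 2 (by omega : k ≤ 2)
    have h5 : s ^ 4 = 1 := by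
      have := orderOf_dvd_iff_pow_eq_one.mp h4
      exact congrArg Subtype.val this
    have h6 : (s * s) * (s * s) = 1 := by rw [← h5]; simp only [pow_succ, pow_zero, one_mul, mul_assoc]
    rw [← map_mul, mk_eq_one]
    exact (sq_eq_one h2).mp h6
  have hcPSL : Nat.card (Matrix.ProjectiveSpecialLinearGroup (Fin 2) F) * 2 = Nat.card SL(2, F) := by
    have h1 := Subgroup.card_mul_index (Tor.mk F).ker
    have h3 : Nat.card (Tor.mk F).ker = 2 := by
      have h4 : (Tor.mk F).ker = Subgroup.center SL(2, F) := QuotientGroup.ker_mk' _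
      have hne : (1 : SL(2, F)) ≠ -1 := by
        intro h
        have h3 := congrArg (fun g : SL(2, F) => (g : Matrix (Fin 2) (Fin 2) F) 0 0) h
        have h4 : (1 : F) = -1 := by
          simpa using h3
        apply h2
        linear_combination h4
      have h5 : ((Subgroup.center SL(2, F) : Subgroup SL(2, F)) : Set SL(2, F)) = ({1, -1} : Finset SL(2, F)) := by
        ext g
        rw [SetLike.mem_coe, mem_center]
        simp
      rw [h4]
      have h6 : Nat.card (Subgroup.center SL(2, F)) = Nat.card (({1, -1} : Finset SL(2, F)) : Set SL(2, F)) := by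
        rw [← h5]; rfl
      rw [h6]
      simp [hne]
    have h4 : (Tor.mk F).ker.index = Nat.card (Matrix.ProjectiveSpecialLinearGroup (Fin 2) F) := by
      rw [Subgroup.index_ker, MonoidHom.range_eq_top.mpr (mk_surj (F := F)), Subgroup.card_top]
    rw [h3, h4] at h1
    rw [mul_comm]
    exact h1
  have hfS := S.card_eq_multiplicity
  have hfP := (Sylow.mapSurjective (mk_surj (F := F)) S).card_eq_multiplicity
  have hcP : Nat.card (Sylow.mapSurjective (mk_surj (F := F)) S) = 4 := by
    rw [hfP]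
    rw [hcS, ← hcPSL, Nat.factorization_mul Nat.card_pos.ne' two_ne_zero, Finsupp.add_apply, Nat.Prime.factorization_self Nat.prime_two, pow_succ] at hfS
    omega
  refine ⟨hcP, ?_⟩
  have hdvd : Monoid.exponent (Sylow.mapSurjective (mk_surj (F := F)) S : Subgroup (Matrix.ProjectiveSpecialLinearGroup (Fin 2) F)) ∣ 2 := by
    apply Monoid.exponent_dvd_of_forall_pow_eq_one
    rintro ⟨_, s, hs, rfl⟩
    rw [pow_two]
    exact Subtype.ext (hexp s hs)
  rcases (Nat.dvd_prime Nat.prime_two).mp hdvd with h | h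
  · exfalso
    have := Monoid.exp_eq_one_iff.mp h
    have h1 : Nat.card (Sylow.mapSurjective (mk_surj (F := F)) S) = 1 := by
      rw [Nat.card_eq_one_iff_unique]
      exact ⟨this, ⟨1⟩⟩
    rw [hcP] at h1
    norm_num at h1
  · exact h

end Cfsg.Agent.Lib.Qu
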