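import Cfsg.Agent.Lib.Invol
import Cfsg.Agent.Lib.IsoInv
import Cfsg.Agent.Lib.CoprimeB
import Cfsg.Agent.Lib.Cores
import Cfsg.Prelude.Def_LieRecognition

/-!
# Rank-one set-ups: basics

Doubly transitive groups whose point stabilisers are `Q D` with `Q` regular off the point, `|Q|` even
and `|D|` odd.
-/

set_option autoImplicit false

namespace Cfsg.Agent.Lib.RankOne

open MulAction
open Cfsg.Agent.Lib.Basic

variable {G Ω : Type*} [Group G] [MulAction G Ω] {a : Ω} {t : G} {Q : Subgroup G}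

theorem exists_two (h : IsRankOneSetup G Ω a t Q) {b b' c c' : Ω} (hb : b ≠ b') (hc : c ≠ c') :
    ∃ g : G, g • b = c ∧ g • b' = c' :=
  is_two_pretransitive_iff.mp h.two_transitive hb hc

theorem ta_ne (h : IsRankOneSetup G Ω a t Q) : t • a ≠ a := fun e => h.not_mem (mem_stabilizer_iff.mpr e)

theorem exists_one (h : IsRankOneSetup G Ω a t Q) (b c : Ω) : ∃ g : G, g • b = c := by
  by_cases hbc : b = c
  · exact ⟨1, by rw [one_smul, hbc]⟩
  · obtain ⟨g, hg, -⟩ := exists_two h hbc (Ne.symm hbc)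
    exact ⟨g, hg⟩

theorem finiteΩ [Finite G] (h : IsRankOneSetup G Ω a t Q) : Finite Ω :=
  Finite.of_surjective (fun g : G => g • a) (fun c => exists_one h a c)

theorem tt_smul (h : IsRankOneSetup G Ω a t Q) (b : Ω) : t • t • b = b := by
  rw [smul_smul, h.mul_self, one_smul]

theorem t_inv (h : IsRankOneSetup G Ω a t Q) : t⁻¹ = t := inv_eq_of_mul_eq_one_left h.mul_self

/-- the two-point stabiliser -/
abbrev D2 (G : Type*) {Ω : Type*} [Group G] [MulAction G Ω] (a : Ω) (t : G) : Subgroup G :=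
  MulAction.stabilizer G a ⊓ MulAction.stabilizer G (t • a)

theorem mem_D {x : G} : x ∈ D2 G a t ↔ x • a = a ∧ x • (t • a) = t • a := by
  rw [Subgroup.mem_inf, mem_stabilizer_iff, mem_stabilizer_iff]

theorem le_normalizer (h : IsRankOneSetup G Ω a t Q) :
    stabilizer G a ≤ Subgroup.normalizer (Q : Set G) := by
  intro g hg
  rw [Subgroup.mem_normalizer_iff]
  intro x
  constructor
  · intro hx
    exact h.conj_mem g hg x hx
  · intro hx
    have := h.conj_mem g⁻¹ (Subgroup.inv_mem _ hg) _ hx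
    rwa [show g⁻¹ * (g * x * g⁻¹) * g⁻¹⁻¹ = x by group] at this

theorem exists_mul (h : IsRankOneSetup G Ω a t Q) {x : G} (hx : x • a = a) :
    ∃ q ∈ Q, ∃ d ∈ D2 G a t, q * d = x := by
  have hx' : x ∈ Q ⊔ D2 G a t := by rw [h.sup_eq]; exact hx
  exact (mem_sup_iff_left ((inf_le_left).trans (le_normalizer h))).mp hx'

theorem Q_smul (h : IsRankOneSetup G Ω a t Q) {q : G} (hq : q ∈ Q) : q • a = a := h.le hq

theorem exists_Q (h : IsRankOneSetup G Ω a t Q) {b : Ω} (hb : b ≠ a) : ∃ q ∈ Q, q • (t • a) = b := by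
  obtain ⟨g, hg1, hg2⟩ := exists_two h (b := a) (b' := t • a) (c := a) (c' := b) (Ne.symm (ta_ne h)) (Ne.symm hb)
  obtain ⟨q, hq, d, hd, rfl⟩ := exists_mul h hg1
  refine ⟨q, hq, ?_⟩
  rw [mul_smul, (mem_D.mp hd).2] at hg2
  exact hg2

theorem eq_one_of_ta (h : IsRankOneSetup G Ω a t Q) {q : G} (hq : q ∈ Q) (e : q • (t • a) = t • a) : q = 1 := by
  have : q ∈ Q ⊓ stabilizer G (t • a) := ⟨hq, e⟩
  rw [h.inf_eq_bot] at this
  exact Subgroup.mem_bot.mp this

theorem eq_one_of_fix (h : IsRankOneSetup G Ω a t Q) {q : G} (hq : q ∈ Q) {b : Ω} (hb : b ≠ a)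
    (e : q • b = b) : q = 1 := by
  obtain ⟨r, hr, rfl⟩ := exists_Q h hb
  have h1 : r⁻¹ * q * r = 1 := by
    apply eq_one_of_ta h (Q.mul_mem (Q.mul_mem (Q.inv_mem hr) hq) hr)
    rw [mul_smul, mul_smul, e, inv_smul_smul]
  have h2 : q = r * (r⁻¹ * q * r) * r⁻¹ := by group
  rw [h2, h1]; group

theorem eq_of_smul (h : IsRankOneSetup G Ω a t Q) {q q' : G} (hq : q ∈ Q) (hq' : q' ∈ Q) {b : Ω} (hb : b ≠ a)
    (e : q • b = q' • b) : q = q' := by
  have : q'⁻¹ * q = 1 := by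
    apply eq_one_of_fix h (Q.mul_mem (Q.inv_mem hq') hq) hb
    rw [mul_smul, e, inv_smul_smul]
  exact (inv_mul_eq_one.mp this).symm

theorem exists_Q' (h : IsRankOneSetup G Ω a t Q) {b c : Ω} (hb : b ≠ a) (hc : c ≠ a) :
    ∃ q ∈ Q, q • b = c := by
  obtain ⟨r, hr, rfl⟩ := exists_Q h hb
  obtain ⟨s, hs, rfl⟩ := exists_Q h hc
  exact ⟨s * r⁻¹, Q.mul_mem hs (Q.inv_mem hr), by rw [mul_smul, inv_smul_smul]⟩

theorem D_inf (h : IsRankOneSetup G Ω a t Q) {x : G} (hx : x ∈ Q) (hd : x ∈ D2 G a t) : x = 1 :=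
  eq_one_of_ta h hx (mem_D.mp hd).2

theorem odd_orderOf_D [Finite G] (h : IsRankOneSetup G Ω a t Q) {x : G} (hx : x ∈ D2 G a t) :
    Odd (orderOf x) :=
  Odd.of_dvd_nat h.odd_card (Subgroup.orderOf_dvd_natCard _ hx)

theorem D_sq [Finite G] (h : IsRankOneSetup G Ω a t Q) {x : G} (hx : x ∈ D2 G a t) (e : x * x = 1) : x = 1 := by
  have h1 := odd_orderOf_D h hx
  have h2 : orderOf x ∣ 2 := orderOf_dvd_of_pow_eq_one (by rw [pow_two, e])
  rcases (Nat.dvd_prime Nat.prime_two).mp h2 with h3 | h3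
  · exact orderOf_eq_one_iff.mp h3
  · rw [h3] at h1; exact absurd h1 (by decide)

/-- involutions fixing `a` are in `Q` -/
theorem mem_Q_of_sq [Finite G] (h : IsRankOneSetup G Ω a t Q) {x : G} (hx : x • a = a) (e : x * x = 1) :
    x ∈ Q := by
  obtain ⟨q, hq, d, hd, rfl⟩ := exists_mul h hx
  have hd1 : d = 1 := by
    apply D_sq h hd
    apply D_inf h _ (Subgroup.mul_mem _ hd hd)
    have e1 : d * d = (q * (d * q * d⁻¹))⁻¹ * (q * d * (q * d)) := by group
    rw [e1, e, mul_one]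
    exact Q.inv_mem (Q.mul_mem hq (h.conj_mem d (mem_D.mp hd).1 q hq))
  rw [hd1, mul_one]
  exact hq

theorem conj_smul_fix (g x : G) (b : Ω) : (g * x * g⁻¹) • (g • b) = g • b ↔ x • b = b := by
  rw [mul_smul, mul_smul, inv_smul_smul, smul_left_cancel_iff]

/-- an involution fixes at most one point -/
theorem fix_unique [Finite G] (h : IsRankOneSetup G Ω a t Q) {u : G} (hu1 : u ≠ 1) (hu2 : u * u = 1)
    {b c : Ω} (hb : u • b = b) (hc : u • c = c) : b = c := by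
  by_contra hbc
  obtain ⟨g, hg1, hg2⟩ := exists_two h (c := a) (c' := t • a) hbc (Ne.symm (ta_ne h))
  apply hu1
  have h1 : g * u * g⁻¹ = 1 := by
    apply D_sq h
    · rw [mem_D]
      constructor
      · rw [← hg1, conj_smul_fix, hb]
      · rw [← hg2, conj_smul_fix, hc]
    · rw [show g * u * g⁻¹ * (g * u * g⁻¹) = g * (u * u) * g⁻¹ by group, hu2]; group
  have h2 : u = g⁻¹ * (g * u * g⁻¹) * g := by group
  rw [h2, h1]; group

theorem exists_inv_Q [Finite G] (h : IsRankOneSetup G Ω a t Q) : ∃ q ∈ Q, q ≠ 1 ∧ q * q = 1 := by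
  haveI : Fact (Nat.Prime 2) := ⟨Nat.prime_two⟩
  obtain ⟨x, hx⟩ := exists_prime_orderOf_dvd_card' (G := Q) 2 (even_iff_two_dvd.mp h.even_card)
  refine ⟨x, x.2, ?_, ?_⟩
  · intro e
    have : x = 1 := Subtype.ext e
    rw [this, orderOf_one] at hx
    exact absurd hx (by decide)
  · have := pow_orderOf_eq_one x
    rw [hx, pow_two] at this
    exact_mod_cast congrArg Subtype.val this

theorem card_Ω [Finite G] (h : IsRankOneSetup G Ω a t Q) : Nat.card Ω = Nat.card Q + 1 := by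
  haveI := finiteΩ h
  classical
  have e1 : Nat.card Q = Nat.card {b : Ω // b ≠ a} := by
    refine Nat.card_congr (Equiv.ofBijective (fun q : Q => ⟨(q : G) • (t • a), ?_⟩) ⟨?_, ?_⟩)
    · intro e
      apply ta_ne h
      have := congrArg (fun x => (q : G)⁻¹ • x) e
      simp only [inv_smul_smul] at this
      rw [this]
      exact Q_smul h (Q.inv_mem q.2)
    · intro q q' e
      have := congrArg Subtype.val e
      exact Subtype.ext (eq_of_smul h q.2 q'.2 (ta_ne h) this)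
    · rintro ⟨b, hb⟩
      obtain ⟨q, hq, e⟩ := exists_Q h hb
      exact ⟨⟨q, hq⟩, Subtype.ext e⟩
  rw [e1, ← Finite.card_option]
  exact (Nat.card_congr (Equiv.optionSubtypeNe a)).symm

theorem card_stab [Finite G] (h : IsRankOneSetup G Ω a t Q) :
    Nat.card (stabilizer G a) = Nat.card Q * Nat.card (D2 G a t) := by
  have e1 : Nat.card (Q × D2 G a t) = Nat.card (stabilizer G a) := by
    refine Nat.card_congr (Equiv.ofBijective
      (fun p : Q × D2 G a t => ⟨(p.1 : G) * p.2, Subgroup.mul_mem _ (h.le p.1.2) p.2.2.1⟩) ⟨?_, ?_⟩)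
    · rintro ⟨q, d⟩ ⟨q', d'⟩ e
      have e2 : (q : G) * d = q' * d' := congrArg Subtype.val e
      have e3 : ((q' : G))⁻¹ * q = d' * (d : G)⁻¹ := by
        rw [inv_mul_eq_iff_eq_mul, ← mul_assoc, ← e2]; group
      have e4 : (q' : G)⁻¹ * q = 1 := by
        apply D_inf h (Q.mul_mem (Q.inv_mem q'.2) q.2)
        rw [e3]
        exact Subgroup.mul_mem _ d'.2 (Subgroup.inv_mem _ d.2)
      have e5 : q = q' := Subtype.ext (inv_mul_eq_one.mp e4).symm
      have e6 : d = d' := by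
        rw [e4] at e3
        exact Subtype.ext (mul_inv_eq_one.mp e3.symm).symm
      rw [e5, e6]
    · rintro ⟨x, hx⟩
      obtain ⟨q, hq, d, hd, e⟩ := exists_mul h hx
      exact ⟨(⟨q, hq⟩, ⟨d, hd⟩), Subtype.ext e⟩
  rw [← e1, Nat.card_prod]

theorem card_G [Finite G] (h : IsRankOneSetup G Ω a t Q) :
    Nat.card G = Nat.card Q * Nat.card (D2 G a t) * (Nat.card Q + 1) := by
  haveI := finiteΩ h
  rw [← card_stab h, ← card_Ω h, ← Subgroup.card_mul_index (stabilizer G a), index_stabilizer]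
  congr 1
  have : orbit G a = Set.univ := by
    ext c
    simp only [Set.mem_univ, iff_true]
    obtain ⟨g, hg⟩ := exists_one h a c
    exact ⟨g, hg⟩
  rw [this, Set.ncard_univ]

theorem exists_sylow [Finite G] (h : IsRankOneSetup G Ω a t Q) : ∃ P : Sylow 2 G, (P : Subgroup G) ≤ Q := by
  haveI : Fact (Nat.Prime 2) := ⟨Nat.prime_two⟩
  obtain ⟨P₀⟩ : Nonempty (Sylow 2 Q) := inferInstance
  have hc : Nat.card ((P₀ : Subgroup Q).map Q.subtype) = 2 ^ (Nat.card G).factorization 2 := by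
    have e1 : Nat.card ((P₀ : Subgroup Q).map Q.subtype) = Nat.card (P₀ : Subgroup Q) :=
      Nat.card_congr ((P₀ : Subgroup Q).equivMapOfInjective _ Q.subtype_injective).symm.toEquiv
    rw [e1, P₀.card_eq_multiplicity, card_G h]
    congr 1
    have hQ0 : Nat.card Q ≠ 0 := Nat.card_pos.ne'
    have hD0 : Nat.card (D2 G a t) ≠ 0 := Nat.card_pos.ne'
    rw [Nat.factorization_mul (mul_ne_zero hQ0 hD0) (Nat.succ_ne_zero _), Nat.factorization_mul hQ0 hD0]
    simp only [Finsupp.coe_add, Pi.add_apply]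
    have h1 : (Nat.card (D2 G a t)).factorization 2 = 0 := by
      apply Nat.factorization_eq_zero_of_not_dvd
      intro h2
      exact Nat.not_even_iff_odd.mpr h.odd_card (even_iff_two_dvd.mpr h2)
    have h2 : (Nat.card Q + 1).factorization 2 = 0 := by
      apply Nat.factorization_eq_zero_of_not_dvd
      intro h2
      have h3 := h.even_card
      rw [even_iff_two_dvd] at h3
      omega
    rw [h1, h2]; rfl
  exact ⟨Sylow.ofCard _ hc, Subgroup.map_subtype_le _⟩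

/-- parity: an involution acting on an invariant subset of odd cardinality has a fixed point in it -/
theorem exists_fix_of_odd {Ω' : Type*} [Finite Ω'] (hodd : Odd (Nat.card Ω')) (σ : Equiv.Perm Ω')
    (hσ : σ * σ = 1) : ∃ b, σ b = b := by
  classical
  haveI := Fintype.ofFinite Ω'
  haveI : Fact (Nat.Prime 2) := ⟨Nat.prime_two⟩
  have h1 : ¬ 2 ∣ Fintype.card Ω' := by
    rw [Nat.card_eq_fintype_card] at hodd
    rwa [← even_iff_two_dvd, Nat.not_even_iff_odd]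
  exact Equiv.Perm.exists_fixed_point_of_prime h1 (n := 1) (σ := σ) (by rw [pow_one, pow_two, hσ])

/-- every involution fixes a point -/
theorem exists_fix [Finite G] (h : IsRankOneSetup G Ω a t Q) {u : G} (hu2 : u * u = 1) :
    ∃ b : Ω, u • b = b := by
  haveI := finiteΩ h
  have h1 : Odd (Nat.card Ω) := by
    rw [card_Ω h]
    exact h.even_card.add_one
  obtain ⟨b, hb⟩ := exists_fix_of_odd h1 (MulAction.toPerm u) (by
    ext x
    simp [smul_smul, hu2])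
  exact ⟨b, hb⟩

/-- canonical form -/
theorem canon (h : IsRankOneSetup G Ω a t Q) {g : G} (hg : g • a ≠ a) :
    ∃ x y : G, x • a = a ∧ y ∈ Q ∧ g = x * t * y := by
  have h1 : g⁻¹ • a ≠ a := fun e => hg (by rw [← inv_smul_eq_iff.mp e] )
  obtain ⟨q, hq, e⟩ := exists_Q h h1
  refine ⟨g * q * t, q⁻¹, ?_, Q.inv_mem hq, ?_⟩
  · rw [mul_smul, mul_smul, e, smul_inv_smul]
  · rw [mul_assoc (g * q) t t, h.mul_self]; group

theorem canon_unique (h : IsRankOneSetup G Ω a t Q) {x y x' y' : G} (hx : x • a = a) (hx' : x' • a = a)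
    (hy : y ∈ Q) (hy' : y' ∈ Q) (e : x * t * y = x' * t * y') : x = x' ∧ y = y' := by
  have h1 : y⁻¹ • (t • a) = y'⁻¹ • (t • a) := by
    have e1 : (x * t * y) • (y⁻¹ • (t • a)) = a := by
      rw [mul_smul, mul_smul, smul_inv_smul, tt_smul h, hx]
    have e2 : (x' * t * y') • (y'⁻¹ • (t • a)) = a := by
      rw [mul_smul, mul_smul, smul_inv_smul, tt_smul h, hx']
    rw [← e] at e2
    exact smul_left_cancel _ (e1.trans e2.symm)
  have h2 := eq_of_smul h (Q.inv_mem hy) (Q.inv_mem hy') (ta_ne h) h1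
  have h3 : y = y' := inv_injective h2
  rw [h3] at e
  exact ⟨mul_right_cancel (mul_right_cancel e), h3⟩

/-- a non-identity element of `Q` conjugate into `Q` -/
theorem mem_stab_of_conj (h : IsRankOneSetup G Ω a t Q) {x g : G} (hx : x ∈ Q) (hx1 : x ≠ 1)
    (hg : g * x * g⁻¹ ∈ Q) : g • a = a := by
  by_contra hc
  have h1 : g * x * g⁻¹ = 1 := by
    apply eq_one_of_fix h hg hc
    rw [conj_smul_fix, Q_smul h hx]
  apply hx1
  have h2 : x = g⁻¹ * (g * x * g⁻¹) * g := by group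
  rw [h2, h1]; group

theorem Q_ne [Finite G] (h : IsRankOneSetup G Ω a t Q) : ∃ x ∈ Q, x ≠ 1 := by
  obtain ⟨q, hq, h1, -⟩ := exists_inv_Q h
  exact ⟨q, hq, h1⟩

theorem normalizer_le (h : IsRankOneSetup G Ω a t Q) {X : Set G} (hX : X ⊆ (Q : Set G))
    (h1 : ∃ x ∈ X, x ≠ 1) : Subgroup.normalizer X ≤ stabilizer G a := by
  obtain ⟨x, hx, hx1⟩ := h1
  intro g hg
  exact mem_stab_of_conj h (hX hx) hx1 (hX ((Subgroup.mem_set_normalizer_iff.mp hg x).mp hx))

theorem normalizer_Q [Finite G] (h : IsRankOneSetup G Ω a t Q) :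
    Subgroup.normalizer (Q : Set G) = stabilizer G a :=
  le_antisymm (normalizer_le h subset_rfl (Q_ne h)) (le_normalizer h)

theorem normalizer_stab [Finite G] (h : IsRankOneSetup G Ω a t Q) :
    Subgroup.normalizer (stabilizer G a : Set G) = stabilizer G a := by
  apply le_antisymm _ Subgroup.le_normalizer
  intro g hg
  obtain ⟨x, hx, hx1⟩ := Q_ne h
  by_contra hc
  apply hx1
  apply eq_one_of_fix h hx (b := g • a) hc
  have h1 := (Subgroup.mem_normalizer_iff.mp (Subgroup.inv_mem _ hg) x).mp (h.le hx)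
  have h2 : (g⁻¹ * x * g⁻¹⁻¹) • a = a := h1
  rw [inv_inv, mul_smul, mul_smul, inv_smul_eq_iff] at h2
  exact h2

/-! ### involutions -/

theorem smul_fix_of_comm {x u : G} {b : Ω} (hc : x * u = u * x) (hu : u • b = b) : u • (x • b) = x • b := by
  rw [smul_smul, ← hc, mul_smul, hu]

/-- an element commuting with an involution fixes its fixed point -/
theorem fix_of_comm [Finite G] (h : IsRankOneSetup G Ω a t Q) {u x : G} (hu1 : u ≠ 1) (hu2 : u * u = 1)
    {b : Ω} (hb : u • b = b) (hc : x * u = u * x) : x • b = b :=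
  fix_unique h hu1 hu2 (smul_fix_of_comm hc hb) hb

theorem odd_of_fix [Finite G] (h : IsRankOneSetup G Ω a t Q) {s u : G} (hs1 : s ≠ 1) (hs2 : s * s = 1)
    (_hu1 : u ≠ 1) (hu2 : u * u = 1) {b : Ω} (hs : s • b = b) (hu : u • b ≠ b) : Odd (orderOf (s * u)) := by
  by_contra hcon
  rw [Nat.not_odd_iff_even] at hcon
  have h1 := Invol.orderOf_half hcon
  have h2 := Invol.commute_half_left hs2 hu2 hcon
  have h3 := Invol.commute_half_right hs2 hu2 hcon
  have h4 := fix_of_comm h hs1 hs2 hs h2.eq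
  have h5 : (s * u) ^ (orderOf (s * u) / 2) ≠ 1 := by
    intro e
    rw [e, orderOf_one] at h1
    exact absurd h1 (by decide)
  exact hu (fix_of_comm h h5 (Invol.mul_self h1) h4 h3.symm.eq)

theorem conj_of_fix [Finite G] (h : IsRankOneSetup G Ω a t Q) {s u : G} (hs1 : s ≠ 1) (hs2 : s * s = 1)
    (hu1 : u ≠ 1) (hu2 : u * u = 1) {b : Ω} (hs : s • b = b) (hu : u • b ≠ b) :
    ∃ g : G, g * s * g⁻¹ = u := by
  obtain ⟨k, hk⟩ := Invol.conj_of_odd hs2 hu2 (odd_of_fix h hs1 hs2 hu1 hu2 hs hu)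
  exact ⟨_, hk⟩

theorem conj_ne_one {u g : G} (hu1 : u ≠ 1) : g * u * g⁻¹ ≠ 1 := by
  intro e
  apply hu1
  have h2 : u = g⁻¹ * (g * u * g⁻¹) * g := by group
  rw [h2, e]; group

theorem conj_sq {u g : G} (hu2 : u * u = 1) : g * u * g⁻¹ * (g * u * g⁻¹) = 1 := by
  rw [show g * u * g⁻¹ * (g * u * g⁻¹) = g * (u * u) * g⁻¹ by group, hu2]; group

theorem conj_all [Finite G] (h : IsRankOneSetup G Ω a t Q) {u v : G} (hu1 : u ≠ 1) (hu2 : u * u = 1)
    (hv1 : v ≠ 1) (hv2 : v * v = 1) : ∃ g : G, g * u * g⁻¹ = v := by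
  obtain ⟨b, hb⟩ := exists_fix h hu2
  classical
  by_cases hvb : v • b = b
  · -- a third involution
    obtain ⟨g, hg⟩ := exists_one h b (if b = a then t • a else a)
    have hgb : g • b ≠ b := by
      rw [hg]
      split_ifs with hba
      · rw [hba]; exact ta_ne h
      · exact Ne.symm hba
    have hw1 := conj_ne_one (g := g) hu1
    have hw2 := conj_sq (g := g) hu2
    have hwb : (g * u * g⁻¹) • b ≠ b := by
      intro e
      have e2 : (g * u * g⁻¹) • (g • b) = g • b := (conj_smul_fix _ _ _).mpr hb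
      exact hgb (fix_unique h hw1 hw2 e2 e)
    obtain ⟨k, hk⟩ := conj_of_fix h hv1 hv2 hw1 hw2 hvb hwb
    refine ⟨k⁻¹ * g, ?_⟩
    have : (k⁻¹ * g) * u * (k⁻¹ * g)⁻¹ = k⁻¹ * (g * u * g⁻¹) * k := by group
    rw [this, ← hk]; group
  · exact conj_of_fix h hu1 hu2 hv1 hv2 hb hvb

/-! ### the set `K` -/

theorem K_conj (h : IsRankOneSetup G Ω a t Q) {k : G} (hk : k ∈ invertedBy (D2 G a t) t) :
    t * k * t = k⁻¹ := by
  have := hk.2
  rwa [t_inv h] at this

theorem K_mem (h : IsRankOneSetup G Ω a t Q) {k : G} (hk : k ∈ D2 G a t) (e : t * k * t = k⁻¹) :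
    k ∈ invertedBy (D2 G a t) t := ⟨hk, by rw [t_inv h]; exact e⟩

theorem K_zpow [Finite G] {k : G} (hk : k ∈ invertedBy (D2 G a t) t) (n : ℤ) :
    k ^ n ∈ invertedBy (D2 G a t) t :=
  ⟨Subgroup.zpow_mem _ hk.1 n, IsoInv.inv_zpow_of hk.2 n⟩

theorem K_inv [Finite G] {k : G} (hk : k ∈ invertedBy (D2 G a t) t) : k⁻¹ ∈ invertedBy (D2 G a t) t := by
  have := K_zpow hk (-1)
  rwa [zpow_neg_one] at this

theorem K_sqrt [Finite G] (h : IsRankOneSetup G Ω a t Q) {d : G} (hd : d ∈ invertedBy (D2 G a t) t) :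
    ∃ k ∈ invertedBy (D2 G a t) t, k * k = d := by
  obtain ⟨n, hn⟩ := IsoInv.sqrt_odd (odd_orderOf_D h hd.1)
  exact ⟨_, K_zpow hd n, hn⟩

theorem K_sq [Finite G] (h : IsRankOneSetup G Ω a t Q) {k k' : G} (hk : k ∈ invertedBy (D2 G a t) t)
    (hk' : k' ∈ invertedBy (D2 G a t) t) (e : k * k = k' * k') : k = k' :=
  IsoInv.sqrt_unique (odd_orderOf_D h hk.1) (odd_orderOf_D h hk'.1) e

theorem K_mul [Finite G] (h : IsRankOneSetup G Ω a t Q) {k : G} (hk : k ∈ invertedBy (D2 G a t) t) :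
    k * t * k⁻¹ = k * k * t := IsoInv.conj_eq_of_inv h.mul_self hk.2

theorem sq_mem_K [Finite G] {k : G} (hk : k ∈ invertedBy (D2 G a t) t) : k * k ∈ invertedBy (D2 G a t) t := by
  have := K_zpow hk 2
  rwa [zpow_two] at this

/-- an involution swapping `a` and `t • a` -/
theorem swap_mem (h : IsRankOneSetup G Ω a t Q) {u : G} (hu2 : u * u = 1) (hu : u • a = t • a) :
    u * t ∈ invertedBy (D2 G a t) t := by
  apply K_mem h
  · rw [mem_D]
    constructor
    · rw [mul_smul, ← hu, smul_smul, hu2, one_smul]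
    · rw [mul_smul, tt_smul h, hu]
  · rw [mul_inv_rev, t_inv h, show t * (u * t) * t = t * u * (t * t) by group, h.mul_self, mul_one,
      inv_eq_of_mul_eq_one_left hu2]

theorem swap_conj [Finite G] (h : IsRankOneSetup G Ω a t Q) {u : G} (hu2 : u * u = 1) (hu : u • a = t • a) :
    ∃ k ∈ invertedBy (D2 G a t) t, (k * t * k⁻¹ = u) ∧ k * k = u * t ∧ ∃ n : ℤ, k = (u * t) ^ n := by
  obtain ⟨n, hn⟩ := IsoInv.sqrt_odd (odd_orderOf_D h (swap_mem h hu2 hu).1)
  have hk := K_zpow (swap_mem h hu2 hu) n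
  refine ⟨_, hk, ?_, hn, n, rfl⟩
  rw [K_mul h hk, hn, mul_assoc, h.mul_self, mul_one]

theorem D_smul_ta {d : G} (hd : d ∈ D2 G a t) : d • (t • a) = t • a := (mem_D.mp hd).2

theorem D_smul_a {d : G} (hd : d ∈ D2 G a t) : d • a = a := (mem_D.mp hd).1

theorem t_conj_D (h : IsRankOneSetup G Ω a t Q) {d : G} (hd : d ∈ D2 G a t) : t * d * t ∈ D2 G a t := by
  rw [mem_D] at hd ⊢
  constructor
  · rw [mul_smul, mul_smul, hd.2, tt_smul h]
  · rw [mul_smul, mul_smul, tt_smul h, hd.1]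

/-- the involutions moving `a` -/
theorem moved_conj (h : IsRankOneSetup G Ω a t Q) {u : G} (hu2 : u * u = 1) (hu : u • a ≠ a) :
    ∃ d ∈ invertedBy (D2 G a t) t, ∃ y ∈ Q, u = y⁻¹ * (d * t) * y := by
  obtain ⟨y, hy, e⟩ := exists_Q' h hu (ta_ne h)
  have h1 := conj_sq (g := y) hu2
  have h2 : (y * u * y⁻¹) • a = t • a := by
    rw [mul_smul, mul_smul, Q_smul h (Q.inv_mem hy), e]
  refine ⟨y * u * y⁻¹ * t, swap_mem h h1 h2, y, hy, ?_⟩
  rw [mul_assoc (y * u * y⁻¹) t t, h.mul_self]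
  group

theorem moved_unique (h : IsRankOneSetup G Ω a t Q) {d d' y y' : G} (hd : d ∈ D2 G a t)
    (hd' : d' ∈ D2 G a t) (hy : y ∈ Q) (hy' : y' ∈ Q)
    (e : y⁻¹ * (d * t) * y = y'⁻¹ * (d' * t) * y') : d = d' ∧ y = y' := by
  obtain ⟨h1, h2⟩ := canon_unique h (x := y⁻¹ * d) (x' := y'⁻¹ * d') (y := y) (y' := y')
    (by rw [mul_smul, D_smul_a hd, Q_smul h (Q.inv_mem hy)])
    (by rw [mul_smul, D_smul_a hd', Q_smul h (Q.inv_mem hy')]) hy hy'
    (by rw [mul_assoc y⁻¹ d t, mul_assoc y'⁻¹ d' t]; exact e)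
  rw [h2] at h1
  exact ⟨mul_left_cancel h1, h2⟩

theorem inv_facts (h : IsRankOneSetup G Ω a t Q) {s : G}
    (hs : s ∈ involutionsIn (stabilizer G a : Set G)) :
    (t * s * t) * (t * s * t) = 1 ∧ t * s * t ≠ 1 ∧ (t * s * t) • (t • a) = t • a := by
  obtain ⟨hsa, hs1, hs2⟩ := hs
  have hsa : s • a = a := hsa
  have h0 : t * s * t = t * s * t⁻¹ := by rw [t_inv h]
  refine ⟨?_, ?_, ?_⟩
  · rw [h0]; exact conj_sq hs2
  · rw [h0]; exact conj_ne_one hs1
  · rw [h0]; exact (conj_smul_fix _ _ _).mpr hsa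

theorem tst_moves [Finite G] (h : IsRankOneSetup G Ω a t Q) {s : G}
    (hs : s ∈ involutionsIn (stabilizer G a : Set G)) : (t * s * t) • a ≠ a := by
  obtain ⟨h1, h2, h3⟩ := inv_facts h hs
  exact fun e => ta_ne h (fix_unique h h2 h1 h3 e)

theorem exists_f [Finite G] (h : IsRankOneSetup G Ω a t Q) {s : G}
    (hs : s ∈ involutionsIn (stabilizer G a : Set G)) :
    ∃ d ∈ invertedBy (D2 G a t) t, ∃ y ∈ Q, t * s * t = y⁻¹ * (d * t) * y :=
  moved_conj h (inv_facts h hs).1 (tst_moves h hs)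

theorem dt_facts (h : IsRankOneSetup G Ω a t Q) {d : G} (hd : d ∈ invertedBy (D2 G a t) t) :
    (d * t) * (d * t) = 1 ∧ (d * t) • a = t • a := by
  constructor
  · rw [show d * t * (d * t) = d * (t * d * t) by group, K_conj h hd, mul_inv_cancel]
  · rw [mul_smul, D_smul_ta hd.1]

theorem card_KQ [Finite G] (h : IsRankOneSetup G Ω a t Q) :
    Nat.card (invertedBy (D2 G a t) t) * Nat.card Q = Nat.card {u : G // u * u = 1 ∧ u • a ≠ a} := by
  rw [← Nat.card_prod]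
  refine Nat.card_congr (Equiv.ofBijective (fun p : invertedBy (D2 G a t) t × Q =>
    ⟨(p.2 : G)⁻¹ * ((p.1 : G) * t) * p.2, ?_, ?_⟩) ⟨?_, ?_⟩)
  · have := conj_sq (g := (p.2 : G)⁻¹) (dt_facts h p.1.2).1
    rwa [inv_inv] at this
  · intro e
    rw [mul_smul, Q_smul h p.2.2, mul_smul, (dt_facts h p.1.2).2] at e
    rw [inv_smul_eq_iff, Q_smul h p.2.2] at e
    exact ta_ne h e
  · rintro ⟨d, y⟩ ⟨d', y'⟩ e
    obtain ⟨h1, h2⟩ := moved_unique h d.2.1 d'.2.1 y.2 y'.2 (congrArg Subtype.val e)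
    rw [Subtype.ext h1, Subtype.ext h2]
  · rintro ⟨u, hu2, hu⟩
    obtain ⟨d, hd, y, hy, e⟩ := moved_conj h hu2 hu
    exact ⟨(⟨d, hd⟩, ⟨y, hy⟩), Subtype.ext e.symm⟩

theorem card_IQ [Finite G] (h : IsRankOneSetup G Ω a t Q) :
    Nat.card (involutionsIn (stabilizer G a : Set G)) * Nat.card Q =
      Nat.card {u : G // u * u = 1 ∧ u • a ≠ a} := by
  rw [← Nat.card_prod]
  have key : ∀ (s : G) (_ : s ∈ involutionsIn (stabilizer G a : Set G)) (q : G) (_ : q ∈ Q),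
      (q⁻¹ * (t * s * t) * q) * (q⁻¹ * (t * s * t) * q) = 1 ∧ q⁻¹ * (t * s * t) * q ≠ 1 ∧
      (q⁻¹ * (t * s * t) * q) • (q⁻¹ • (t • a)) = q⁻¹ • (t • a) := by
    intro s hs q hq
    obtain ⟨h1, h2, h3⟩ := inv_facts h hs
    have e0 : q⁻¹ * (t * s * t) * q = q⁻¹ * (t * s * t) * q⁻¹⁻¹ := by rw [inv_inv]
    refine ⟨?_, ?_, ?_⟩
    · rw [e0]; exact conj_sq h1
    · rw [e0]; exact conj_ne_one h2
    · rw [e0]; exact (conj_smul_fix _ _ _).mpr h3
  have key2 : ∀ (q : G) (_ : q ∈ Q), q⁻¹ • (t • a) ≠ a := by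
    intro q hq e
    rw [inv_smul_eq_iff, Q_smul h hq] at e
    exact ta_ne h e
  refine Nat.card_congr (Equiv.ofBijective (fun p : involutionsIn (stabilizer G a : Set G) × Q =>
    ⟨(p.2 : G)⁻¹ * (t * p.1 * t) * p.2, (key _ p.1.2 _ p.2.2).1, ?_⟩) ⟨?_, ?_⟩)
  · intro e
    obtain ⟨h1, h2, h3⟩ := key _ p.1.2 _ p.2.2
    exact key2 _ p.2.2 (fix_unique h h2 h1 h3 e)
  · rintro ⟨s, y⟩ ⟨s', y'⟩ e
    have e : (y : G)⁻¹ * (t * s * t) * y = (y' : G)⁻¹ * (t * s' * t) * y' := congrArg Subtype.val e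
    obtain ⟨h1, h2, h3⟩ := key _ s.2 _ y.2
    obtain ⟨-, -, h3'⟩ := key _ s'.2 _ y'.2
    rw [← e] at h3'
    have h4 := fix_unique h h2 h1 h3 h3'
    have h5 := inv_injective (eq_of_smul h (Q.inv_mem y.2) (Q.inv_mem y'.2) (ta_ne h) h4)
    rw [h5] at e
    have h6 : (s : G) = s' := mul_left_cancel (mul_right_cancel (mul_left_cancel (mul_right_cancel e)))
    rw [Subtype.ext h5, Subtype.ext h6]
  · rintro ⟨u, hu2, hu⟩
    obtain ⟨c, hc⟩ := exists_fix h hu2
    have hca : c ≠ a := by rintro rfl; exact hu hc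
    obtain ⟨q, hq, e⟩ := exists_Q h hca
    have hu1 : u ≠ 1 := by rintro rfl; exact hu (one_smul _ _)
    have hs2 := conj_sq (g := (q * t)⁻¹) hu2
    have hs1 := conj_ne_one (g := (q * t)⁻¹) hu1
    have hsa : ((q * t)⁻¹ * u * (q * t)⁻¹⁻¹) • a = a := by
      rw [inv_inv, mul_smul, mul_smul, mul_smul, e, hc, inv_smul_eq_iff, mul_smul, e]
    refine ⟨(⟨(q * t)⁻¹ * u * (q * t)⁻¹⁻¹, hsa, hs1, hs2⟩, ⟨q⁻¹, Q.inv_mem hq⟩), Subtype.ext ?_⟩
    simp only [inv_inv, mul_inv_rev, t_inv h]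
    rw [show q * (t * (t * q⁻¹ * u * (q * t)) * t) * q⁻¹ = q * (t * t) * q⁻¹ * u * q * (t * t) * q⁻¹ by group,
      h.mul_self]
    group

theorem card_K [Finite G] (h : IsRankOneSetup G Ω a t Q) :
    Nat.card (invertedBy (D2 G a t) t) = Nat.card (involutionsIn (stabilizer G a : Set G)) := by
  have h1 := (card_KQ h).trans (card_IQ h).symm
  exact Nat.eq_of_mul_eq_mul_right Nat.card_pos h1

/-! ### the distinguished pair `(s, r)` -/

theorem conj_mem_II (h : IsRankOneSetup G Ω a t Q) {s g : G}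
    (hs : s ∈ involutionsIn (stabilizer G a : Set G)) (hg : g • a = a) :
    g * s * g⁻¹ ∈ involutionsIn (stabilizer G a : Set G) := by
  obtain ⟨hsa, hs1, hs2⟩ := hs
  have hsa : s • a = a := hsa
  refine ⟨?_, conj_ne_one hs1, conj_sq hs2⟩
  have := (conj_smul_fix g s a).mpr hsa
  rw [hg] at this
  exact this

theorem conj_mem_II' (h : IsRankOneSetup G Ω a t Q) {s g : G}
    (hs : s ∈ involutionsIn (stabilizer G a : Set G)) (hg : g • a = a) :
    g⁻¹ * s * g ∈ involutionsIn (stabilizer G a : Set G) := by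
  have := conj_mem_II h hs (g := g⁻¹) (by rw [inv_smul_eq_iff, hg])
  rwa [inv_inv] at this

theorem conj_mem_Q (h : IsRankOneSetup G Ω a t Q) {r g : G} (hr : r ∈ Q) (hg : g • a = a) :
    g * r * g⁻¹ ∈ Q := h.conj_mem g hg r hr

theorem conj_mem_Q' (h : IsRankOneSetup G Ω a t Q) {r g : G} (hr : r ∈ Q) (hg : g • a = a) :
    g⁻¹ * r * g ∈ Q := by
  have := conj_mem_Q h hr (g := g⁻¹) (by rw [inv_smul_eq_iff, hg])
  rwa [inv_inv] at this

theorem K_tk (h : IsRankOneSetup G Ω a t Q) {k : G} (hk : k ∈ invertedBy (D2 G a t) t) :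
    t * k = k⁻¹ * t := by
  have := K_conj h hk
  rw [← this, mul_assoc, h.mul_self, mul_one]

theorem K_tk' (h : IsRankOneSetup G Ω a t Q) {k : G} (hk : k ∈ invertedBy (D2 G a t) t) :
    t * k⁻¹ = k * t := by
  have := K_tk h hk
  rw [mul_inv_eq_iff_eq_mul, mul_assoc, this, mul_inv_cancel_left]

theorem exists_sol [Finite G] (h : IsRankOneSetup G Ω a t Q) :
    ∃ s ∈ involutionsIn (stabilizer G a : Set G), ∃ r ∈ Q, t * s * t = r⁻¹ * t * r := by
  obtain ⟨s', hs'Q, hs'1, hs'2⟩ := exists_inv_Q h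
  have hs' : s' ∈ involutionsIn (stabilizer G a : Set G) := ⟨h.le hs'Q, hs'1, hs'2⟩
  obtain ⟨d, hd, y, hy, e⟩ := exists_f h hs'
  obtain ⟨k, hk, hkd⟩ := K_sqrt h hd
  have hka : k • a = a := D_smul_a hk.1
  refine ⟨k * s' * k⁻¹, conj_mem_II h hs' hka, k⁻¹ * y * k, conj_mem_Q' h hy hka, ?_⟩
  calc t * (k * s' * k⁻¹) * t = (t * k) * s' * (k⁻¹ * t) := by group
    _ = (k⁻¹ * t) * s' * (t * k) := by rw [K_tk h hk]
    _ = k⁻¹ * (t * s' * t) * k := by group
    _ = k⁻¹ * (y⁻¹ * (k * t * k⁻¹) * y) * k := by rw [e, K_mul h hk, hkd]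
    _ = (k⁻¹ * y * k)⁻¹ * t * (k⁻¹ * y * k) := by group

theorem sol_conj [Finite G] (h : IsRankOneSetup G Ω a t Q) {s r k : G} (e : t * s * t = r⁻¹ * t * r)
    (hk : k ∈ invertedBy (D2 G a t) t) :
    t * (k⁻¹ * s * k) * t = (k * r * k⁻¹)⁻¹ * (k * k * t) * (k * r * k⁻¹) := by
  calc t * (k⁻¹ * s * k) * t = (t * k⁻¹) * s * (k * t) := by group
    _ = (k * t) * s * (t * k⁻¹) := by rw [K_tk' h hk]
    _ = k * (t * s * t) * k⁻¹ := by group
    _ = k * (r⁻¹ * t * r) * k⁻¹ := by rw [e]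
    _ = (k * r * k⁻¹)⁻¹ * (k * t * k⁻¹) * (k * r * k⁻¹) := by group
    _ = _ := by rw [K_mul h hk]

theorem f_inj [Finite G] (h : IsRankOneSetup G Ω a t Q) {s s' d y y' : G}
    (hs : s ∈ involutionsIn (stabilizer G a : Set G)) (hs' : s' ∈ involutionsIn (stabilizer G a : Set G))
    (hd : d ∈ D2 G a t) (hy : y ∈ Q) (hy' : y' ∈ Q)
    (e : t * s * t = y⁻¹ * (d * t) * y) (e' : t * s' * t = y'⁻¹ * (d * t) * y') : s = s' := by
  let F : involutionsIn (stabilizer G a : Set G) → invertedBy (D2 G a t) t :=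
    fun x => ⟨(exists_f h x.2).choose, (exists_f h x.2).choose_spec.1⟩
  have hF : ∀ x : involutionsIn (stabilizer G a : Set G), ∀ d ∈ D2 G a t, ∀ y ∈ Q,
      t * x * t = y⁻¹ * (d * t) * y → (F x : G) = d := by
    intro x d hd y hy e
    obtain ⟨h1, y', hy', h2⟩ := (exists_f h x.2).choose_spec
    rw [h2] at e
    exact (moved_unique h h1.1 hd hy' hy e).1
  obtain ⟨s₀, hs₀, r, hr, e₀⟩ := exists_sol h
  have hsurj : Function.Surjective F := by
    rintro ⟨d, hd⟩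
    obtain ⟨k, hk, hkd⟩ := K_sqrt h hd
    have hka : k • a = a := D_smul_a hk.1
    refine ⟨⟨k⁻¹ * s₀ * k, conj_mem_II' h hs₀ hka⟩, Subtype.ext ?_⟩
    apply hF _ d hd.1 _ (conj_mem_Q h hr hka)
    rw [← hkd]
    exact sol_conj h e₀ hk
  have hbij := hsurj.bijective_of_nat_card_le (by rw [card_K h])
  have h1 : F ⟨s, hs⟩ = F ⟨s', hs'⟩ := by
    apply Subtype.ext
    rw [hF ⟨s, hs⟩ d hd y hy e, hF ⟨s', hs'⟩ d hd y' hy' e']
  exact congrArg Subtype.val (hbij.1 h1)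

theorem sol_unique [Finite G] (h : IsRankOneSetup G Ω a t Q) {s s' r r' : G}
    (hs : s ∈ involutionsIn (stabilizer G a : Set G)) (hs' : s' ∈ involutionsIn (stabilizer G a : Set G))
    (hr : r ∈ Q) (hr' : r' ∈ Q) (e : t * s * t = r⁻¹ * t * r) (e' : t * s' * t = r'⁻¹ * t * r') :
    s = s' ∧ r = r' := by
  have h1 : s = s' := f_inj h hs hs' (Subgroup.one_mem _) hr hr' (by rw [one_mul]; exact e)
    (by rw [one_mul]; exact e')
  refine ⟨h1, ?_⟩
  rw [← h1, e] at e'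
  exact (moved_unique h (d := 1) (d' := 1) (Subgroup.one_mem _) (Subgroup.one_mem _) hr hr'
    (by rw [one_mul]; exact e')).2

theorem K_conj_inj [Finite G] (h : IsRankOneSetup G Ω a t Q) {s r k k' : G}
    (hr : r ∈ Q) (e : t * s * t = r⁻¹ * t * r) (hk : k ∈ invertedBy (D2 G a t) t)
    (hk' : k' ∈ invertedBy (D2 G a t) t) (ek : k⁻¹ * s * k = k'⁻¹ * s * k') : k = k' := by
  have h1 := sol_conj h e hk
  have h2 := sol_conj h e hk'
  rw [ek, h2] at h1
  have h3 := moved_unique h (sq_mem_K hk').1 (sq_mem_K hk).1 (conj_mem_Q h hr (D_smul_a hk'.1))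
    (conj_mem_Q h hr (D_smul_a hk.1)) h1
  exact K_sq h hk hk' h3.1.symm

theorem K_conj_surj [Finite G] (h : IsRankOneSetup G Ω a t Q) {s r : G}
    (hs : s ∈ involutionsIn (stabilizer G a : Set G))
    (hr : r ∈ Q) (e : t * s * t = r⁻¹ * t * r) {s' : G}
    (hs' : s' ∈ involutionsIn (stabilizer G a : Set G)) :
    ∃ k ∈ invertedBy (D2 G a t) t, k⁻¹ * s * k = s' := by
  let F : invertedBy (D2 G a t) t → involutionsIn (stabilizer G a : Set G) :=
    fun k => ⟨(k : G)⁻¹ * s * k, conj_mem_II' h hs (D_smul_a k.2.1)⟩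
  have hinj : Function.Injective F := by
    intro k k' ek
    exact Subtype.ext (K_conj_inj h hr e k.2 k'.2 (congrArg Subtype.val ek))
  have hbij := hinj.bijective_of_nat_card_le (by rw [card_K h])
  obtain ⟨k, hk⟩ := hbij.2 ⟨s', hs'⟩
  exact ⟨k, k.2, congrArg Subtype.val hk⟩

theorem conj_ta (h : IsRankOneSetup G Ω a t Q) {d : G} (hd : d ∈ D2 G a t) :
    (d * t * d⁻¹) • a = t • a := by
  rw [mul_smul, mul_smul, D_smul_a (Subgroup.inv_mem _ hd), D_smul_ta hd]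

theorem conj_setup (h : IsRankOneSetup G Ω a t Q) {d : G} (hd : d ∈ D2 G a t) :
    IsRankOneSetup G Ω a (d * t * d⁻¹) Q where
  two_transitive := h.two_transitive
  mul_self := conj_sq h.mul_self
  ne_one := conj_ne_one h.ne_one
  not_mem := by
    rw [mem_stabilizer_iff, conj_ta h hd]
    exact ta_ne h
  le := h.le
  conj_mem := h.conj_mem
  inf_eq_bot := by rw [conj_ta h hd]; exact h.inf_eq_bot
  sup_eq := by rw [conj_ta h hd]; exact h.sup_eq
  even_card := h.even_card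
  odd_card := by rw [conj_ta h hd]; exact h.odd_card

theorem K_transitive [Finite G] (h : IsRankOneSetup G Ω a t Q) {s₁ s' : G}
    (hs₁ : s₁ ∈ involutionsIn (stabilizer G a : Set G))
    (hs' : s' ∈ involutionsIn (stabilizer G a : Set G)) :
    ∃ k ∈ invertedBy (D2 G a t) t, k⁻¹ * s₁ * k = s' := by
  obtain ⟨s, hs, r, hr, e⟩ := exists_sol h
  obtain ⟨k₁, hk₁, rfl⟩ := K_conj_surj h hs hr e hs₁
  have hka := D_smul_a hk₁.1
  have h' := conj_setup h hk₁.1
  have hD : D2 G a (k₁ * t * k₁⁻¹) = D2 G a t := by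
    show stabilizer G a ⊓ stabilizer G ((k₁ * t * k₁⁻¹) • a) = _
    rw [conj_ta h hk₁.1]
  obtain ⟨x, hx, ex⟩ := K_conj_surj h' (s := k₁ * s * k₁⁻¹) (r := k₁ * r * k₁⁻¹) (conj_mem_II h hs hka)
    (conj_mem_Q h hr hka) (by
      calc k₁ * t * k₁⁻¹ * (k₁ * s * k₁⁻¹) * (k₁ * t * k₁⁻¹) = k₁ * (t * s * t) * k₁⁻¹ := by group
        _ = k₁ * (r⁻¹ * t * r) * k₁⁻¹ := by rw [e]
        _ = _ := by group) hs'
  have hxD : x ∈ D2 G a t := by rw [← hD]; exact hx.1
  have hx2 := K_conj h' hx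
  refine ⟨(k₁ * k₁)⁻¹ * x, K_mem h (Subgroup.mul_mem _ (Subgroup.inv_mem _ (Subgroup.mul_mem _ hk₁.1 hk₁.1)) hxD) ?_, ?_⟩
  · rw [K_mul h hk₁] at hx2
    have e1 := K_tk h (sq_mem_K hk₁)
    -- t * (k₁²)⁻¹ x * t = x⁻¹ k₁²
    have e2 := K_tk' h (sq_mem_K hk₁)
    calc t * ((k₁ * k₁)⁻¹ * x) * t = (t * (k₁ * k₁)⁻¹) * x * t := by group
      _ = (k₁ * k₁ * t) * x * ((k₁ * k₁)⁻¹ * (k₁ * k₁)) * t := by rw [e2]; group
      _ = k₁ * k₁ * t * x * ((k₁ * k₁)⁻¹ * ((k₁ * k₁) * t)) := by group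
      _ = k₁ * k₁ * t * x * (k₁ * k₁ * t * (k₁ * k₁)) := by
          rw [show k₁ * k₁ * t * (k₁ * k₁) = k₁ * k₁ * (t * (k₁ * k₁)) by group, e1]; group
      _ = k₁ * k₁ * t * x * (k₁ * k₁ * t) * (k₁ * k₁) := by group
      _ = x⁻¹ * (k₁ * k₁) := by rw [hx2]
      _ = _ := by rw [mul_inv_rev, inv_inv]
  · rw [← ex]
    group

end Cfsg.Agent.Lib.RankOne
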