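import Cfsg.Agent.Lib.RankOne
import Cfsg.Agent.Lib.FpfNilp

/-!
# Rank-one set-ups: centralisers and the nilpotency of `Q`
-/

set_option autoImplicit false

namespace Cfsg.Agent.Lib.RankOne

open MulAction
open Cfsg.Agent.Lib.Basic

variable {G Ω : Type*} [Group G] [MulAction G Ω] {a : Ω} {t : G} {Q : Subgroup G}

/-! ### S1124 -/

section Inverted

variable {M : Type*} [Group M] [Finite M] {u : M} {X : Subgroup M}

theorem inv_pow_mem (hu : u * u = 1) {z : M} (hz : z ∈ invertedBy X u) (n : ℤ) : z ^ n ∈ invertedBy X u :=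
  ⟨X.zpow_mem hz.1 n, IsoInv.inv_zpow_of hz.2 n⟩

theorem exists_yz (hu : u * u = 1) (hodd : Odd (Nat.card X)) (hn : ∀ x ∈ X, u * x * u⁻¹ ∈ X) {x : M}
    (hx : x ∈ X) : ∃ y ∈ X ⊓ Subgroup.centralizer {u}, ∃ z ∈ invertedBy X u, x = y * z := by
  have hui : u⁻¹ = u := inv_eq_of_mul_eq_one_left hu
  set w := (u * x * u⁻¹)⁻¹ * x with hw
  have hwX : w ∈ X := X.mul_mem (X.inv_mem (hn x hx)) hx
  have hwi : w ∈ invertedBy X u := by
    refine ⟨hwX, ?_⟩
    rw [hw, hui]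
    calc u * ((u * x * u)⁻¹ * x) * u = (u * u⁻¹) * x⁻¹ * u⁻¹ * x * u := by group
      _ = x⁻¹ * (u * x * u) := by rw [hui, hu]; group
      _ = _ := by group
  obtain ⟨n, hn'⟩ := IsoInv.sqrt_odd (Odd.of_dvd_nat hodd (Subgroup.orderOf_dvd_natCard _ hwX))
  have hz := inv_pow_mem hu hwi n
  refine ⟨x * (w ^ n)⁻¹, ⟨X.mul_mem hx (X.inv_mem hz.1), ?_⟩, w ^ n, hz, by group⟩
  refine Subgroup.mem_centralizer_singleton_iff.mpr ?_
  have h1 : u * (w ^ n)⁻¹ * u⁻¹ = w ^ n := by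
    have := hz.2
    rw [← inv_inj, inv_inv] at this
    calc u * (w ^ n)⁻¹ * u⁻¹ = (u * w ^ n * u⁻¹)⁻¹ := by group
      _ = w ^ n := this
  have h2 : u * x * u⁻¹ = x * w⁻¹ := by rw [hw]; group
  have h3 : u * (x * (w ^ n)⁻¹) * u⁻¹ = x * (w ^ n)⁻¹ := by
    calc u * (x * (w ^ n)⁻¹) * u⁻¹ = (u * x * u⁻¹) * (u * (w ^ n)⁻¹ * u⁻¹) := by group
      _ = x * (w ^ n * w ^ n)⁻¹ * w ^ n := by rw [h1, h2, hn']
      _ = _ := by group
  rw [mul_inv_eq_iff_eq_mul] at h3
  exact h3.symm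

theorem yz_unique (hu : u * u = 1) (hodd : Odd (Nat.card X)) {y y' z z' : M}
    (hy : y ∈ X ⊓ Subgroup.centralizer {u}) (hy' : y' ∈ X ⊓ Subgroup.centralizer {u})
    (hz : z ∈ invertedBy X u) (hz' : z' ∈ invertedBy X u) (e : y * z = y' * z') : y = y' ∧ z = z' := by
  have key : ∀ y z : M, y ∈ X ⊓ Subgroup.centralizer {u} → z ∈ invertedBy X u →
      (u * (y * z) * u⁻¹)⁻¹ * (y * z) = z * z := by
    intro y z hy hz
    have h1 : u * y * u⁻¹ = y := by
      rw [mul_inv_eq_iff_eq_mul]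
      exact (Subgroup.mem_centralizer_singleton_iff.mp hy.2).symm
    calc (u * (y * z) * u⁻¹)⁻¹ * (y * z) = ((u * y * u⁻¹) * (u * z * u⁻¹))⁻¹ * (y * z) := by group
      _ = (y * z⁻¹)⁻¹ * (y * z) := by rw [h1, hz.2]
      _ = _ := by group
  have h1 : z * z = z' * z' := by rw [← key y z hy hz, ← key y' z' hy' hz', e]
  have h2 : z = z' := IsoInv.sqrt_unique (Odd.of_dvd_nat hodd (Subgroup.orderOf_dvd_natCard _ hz.1))
    (Odd.of_dvd_nat hodd (Subgroup.orderOf_dvd_natCard _ hz'.1)) h1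
  rw [h2] at e
  exact ⟨mul_right_cancel e, h2⟩

theorem card_yz (hu : u * u = 1) (hodd : Odd (Nat.card X)) (hn : ∀ x ∈ X, u * x * u⁻¹ ∈ X) :
    Nat.card X = Nat.card ↥(X ⊓ Subgroup.centralizer {u}) * Nat.card (invertedBy X u) := by
  rw [← Nat.card_prod]
  symm
  refine Nat.card_congr (Equiv.ofBijective
    (fun p : ↥(X ⊓ Subgroup.centralizer {u}) × invertedBy X u =>
      ⟨(p.1 : M) * p.2, X.mul_mem p.1.2.1 p.2.2.1⟩) ⟨?_, ?_⟩)
  · rintro ⟨y, z⟩ ⟨y', z'⟩ e
    obtain ⟨h1, h2⟩ := yz_unique hu hodd y.2 y'.2 z.2 z'.2 (congrArg Subtype.val e)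
    rw [Subtype.ext h1, Subtype.ext h2]
  · rintro ⟨x, hx⟩
    obtain ⟨y, hy, z, hz, e⟩ := exists_yz hu hodd hn hx
    exact ⟨(⟨y, hy⟩, ⟨z, hz⟩), Subtype.ext e.symm⟩

theorem conj_closure_le (hu : u * u = 1) (hodd : Odd (Nat.card X)) (hn : ∀ x ∈ X, u * x * u⁻¹ ∈ X)
    {x : M} (hx : x ∈ X) {c : M} (hc : c ∈ Subgroup.closure (invertedBy X u)) :
    x * c * x⁻¹ ∈ Subgroup.closure (invertedBy X u) := by
  obtain ⟨y, hy, z, hz, rfl⟩ := exists_yz hu hodd hn hx
  have h1 : z * c * z⁻¹ ∈ Subgroup.closure (invertedBy X u) :=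
    Subgroup.mul_mem _ (Subgroup.mul_mem _ (Subgroup.subset_closure hz) hc)
      (Subgroup.inv_mem _ (Subgroup.subset_closure hz))
  have h2 : y * (z * c * z⁻¹) * y⁻¹ ∈ Subgroup.closure (invertedBy X u) := by
    have h3 : ∀ c ∈ Subgroup.closure (invertedBy X u), y * c * y⁻¹ ∈ Subgroup.closure (invertedBy X u) := by
      intro c hc
      have h4 : Subgroup.closure (invertedBy X u) ≤
          (Subgroup.closure (invertedBy X u)).comap (MulAut.conj y).toMonoidHom := by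
        rw [Subgroup.closure_le]
        intro z hz
        apply Subgroup.subset_closure
        have hc1 : u * y * u⁻¹ = y := by
          rw [mul_inv_eq_iff_eq_mul]
          exact (Subgroup.mem_centralizer_singleton_iff.mp hy.2).symm
        refine ⟨X.mul_mem (X.mul_mem hy.1 hz.1) (X.inv_mem hy.1), ?_⟩
        show u * (y * z * y⁻¹) * u⁻¹ = (y * z * y⁻¹)⁻¹
        calc u * (y * z * y⁻¹) * u⁻¹ = (u * y * u⁻¹) * (u * z * u⁻¹) * (u * y * u⁻¹)⁻¹ := by group
          _ = y * z⁻¹ * y⁻¹ := by rw [hc1, hz.2]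
          _ = _ := by group
      exact h4 hc
    exact h3 _ h1
  rwa [show y * z * c * (y * z)⁻¹ = y * (z * c * z⁻¹) * y⁻¹ by group]

end Inverted

theorem exists_four {x y : G} (hx1 : x ≠ 1) (hy1 : y ≠ 1) (hxy : x ≠ y) (hx2 : x * x = 1) (hy2 : y * y = 1)
    (hc : x * y = y * x) : ∃ E : Subgroup G, Nat.card E = 4 ∧ ∀ e, e ∈ E ↔ (e = 1 ∨ e = x ∨ e = y ∨ e = x * y) := by
  classical
  have hxi : x⁻¹ = x := inv_eq_of_mul_eq_one_left hx2
  have hyi : y⁻¹ = y := inv_eq_of_mul_eq_one_left hy2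
  have e1 : x * (x * y) = y := by rw [← mul_assoc, hx2, one_mul]
  have e2 : y * (x * y) = x := by rw [hc, ← mul_assoc, hy2, one_mul]
  have e3 : x * y * x = y := by rw [hc, mul_assoc, hx2, mul_one]
  have e4 : x * y * y = x := by rw [mul_assoc, hy2, mul_one]
  have e5 : x * y * (x * y) = 1 := by rw [← mul_assoc, e3, hy2]
  let E : Subgroup G :=
    { carrier := {e | e = 1 ∨ e = x ∨ e = y ∨ e = x * y}
      mul_mem' := by
        rintro p q (rfl | rfl | rfl | rfl) (rfl | rfl | rfl | rfl) <;>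
          simp only [Set.mem_setOf_eq, one_mul, mul_one, hx2, hy2, e1, e2, e3, e4, e5, true_or, or_true]
        simp only [hc, or_true]
      one_mem' := Or.inl rfl
      inv_mem' := by
        rintro p (rfl | rfl | rfl | rfl)
        · left; exact inv_one
        · right; left; exact hxi
        · right; right; left; exact hyi
        · right; right; right
          rw [mul_inv_rev, hxi, hyi, hc] }
  refine ⟨E, ?_, fun e => Iff.rfl⟩
  have h1 : (1 : G) ≠ x * y := fun e => hxy (by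
    have : y = x⁻¹ := (inv_eq_of_mul_eq_one_right e.symm).symm
    rw [this, hxi])
  have h2 : x ≠ x * y := fun e => hy1 (by
    have : x * 1 = x * y := by rw [mul_one]; exact e
    exact (mul_left_cancel this).symm)
  have h3 : y ≠ x * y := fun e => hx1 (by
    have : 1 * y = x * y := by rw [one_mul]; exact e
    exact (mul_right_cancel this).symm)
  have h4 : ((E : Set G)) = (({1, x, y, x * y} : Finset G) : Set G) := by
    ext e
    simp only [Finset.coe_insert, Finset.coe_singleton, Set.mem_insert_iff, Set.mem_singleton_iff]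
    rfl
  have h5 : Nat.card E = Nat.card (E : Set G) := rfl
  rw [h5, Nat.card_coe_set_eq, h4, Set.ncard_coe_finset, Finset.card_insert_of_notMem,
    Finset.card_insert_of_notMem, Finset.card_insert_of_notMem, Finset.card_singleton]
  · simpa using h3
  · simp only [Finset.mem_insert, Finset.mem_singleton, not_or]; exact ⟨hxy, h2⟩
  · simp only [Finset.mem_insert, Finset.mem_singleton, not_or]
    exact ⟨Ne.symm hx1, Ne.symm hy1, h1⟩

/-- S1120 -/
theorem core_eq [Finite G] (h : IsRankOneSetup G Ω a t Q)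
    (h2 : ∃ x y : G, x ≠ 1 ∧ y ≠ 1 ∧ x ≠ y ∧ x * x = 1 ∧ y * y = 1 ∧ x * y = y * x) :
    pPrimeCore 2 G = (stabilizer G a).normalCore := by
  obtain ⟨x, y, hx1, hy1, hxy, hx2, hy2, hc⟩ := h2
  haveI : Fact (Nat.Prime 2) := ⟨Nat.prime_two⟩
  apply le_antisymm
  · -- the odd core lies in a point stabiliser
    obtain ⟨b, hb⟩ := exists_fix h hx2
    have hyb : y • b = b := fix_of_comm h hx1 hx2 hb hc.symm
    have hxyb : (x * y) • b = b := by rw [mul_smul, hyb, hb]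
    obtain ⟨E, hE, hmem⟩ := exists_four hx1 hy1 hxy hx2 hy2 hc
    have hn := Cores.pPrimeCore_normal (G := G) 2
    have hle : ∀ e ∈ E, e * e = 1 := by
      intro e he
      rcases (hmem e).mp he with rfl | rfl | rfl | rfl
      · exact one_mul _
      · exact hx2
      · exact hy2
      · rw [show x * y * (x * y) = x * (y * x) * y by group, ← hc, ← mul_assoc, hx2, one_mul, hy2]
    have hfix : ∀ e ∈ E, e • b = b := by
      intro e he
      rcases (hmem e).mp he with rfl | rfl | rfl | rfl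
      · exact one_smul _ _
      · exact hb
      · exact hyb
      · exact hxyb
    have hgen := CoprimeB.gen_of_elementary (E := E) (K := pPrimeCore 2 G) Nat.prime_two
      (by rw [hE]; norm_num) (fun e he => by rw [pow_two]; exact hle e he)
      (by rw [Subgroup.normalizer_eq_top]; exact le_top) (Cores.pPrimeCore_coprime 2)
    have h3 : pPrimeCore 2 G ≤ stabilizer G b := by
      rw [← hgen, ← CoprimeB.iSup_inf_centralizer_eq_genCent]
      refine iSup_le fun e => iSup_le fun he => ?_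
      intro c hc
      have hc2 := Subgroup.mem_centralizer_singleton_iff.mp hc.2
      exact fix_of_comm h he.2 (hle e he.1) (hfix e he.1) hc2
    obtain ⟨g, hg⟩ := exists_one h a b
    have h4 : pPrimeCore 2 G ≤ stabilizer G a := by
      intro z hz
      have h5 := h3 (hn.conj_mem z hz g)
      have h6 : (g * z * g⁻¹) • b = b := h5
      rw [← hg, conj_smul_fix] at h6
      exact h6
    intro z hz g'
    exact h4 (hn.conj_mem z hz g')
  · have hnc := (stabilizer G a).normalCore_normal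
    apply Cores.le_pPrimeCore hnc
    rw [Nat.coprime_two_right]
    by_contra hcon
    rw [Nat.not_odd_iff_even] at hcon
    obtain ⟨w, hw⟩ := exists_prime_orderOf_dvd_card' (G := (stabilizer G a).normalCore) 2
      (even_iff_two_dvd.mp hcon)
    have hw' : orderOf (w : G) = 2 := by rw [Subgroup.orderOf_coe]; exact hw
    have hw1 : (w : G) ≠ 1 := by
      intro e
      rw [e, orderOf_one] at hw'
      exact absurd hw' (by decide)
    obtain ⟨g, hg⟩ := conj_all h hw1 (Invol.mul_self hw') h.ne_one h.mul_self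
    apply h.not_mem
    apply Subgroup.normalCore_le
    rw [← hg]
    exact hnc.conj_mem _ w.2 g

/-! ### centralisers of subsets of `D` -/

theorem comm_of_conj {x q : G} (e : x * q * x⁻¹ = q) : x * q = q * x := mul_inv_eq_iff_eq_mul.mp e

/-- `C_{Q_e}(X)` is transitive on the fixed points of `X` other than `e` -/
theorem cent_move (h : IsRankOneSetup G Ω a t Q) {X : Set G} {e b c : Ω}
    (he : ∀ x ∈ X, x • e = e) (hb : ∀ x ∈ X, x • b = b) (hc : ∀ x ∈ X, x • c = c)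
    (hbe : b ≠ e) (hce : c ≠ e) : ∃ g ∈ Subgroup.centralizer X, g • e = e ∧ g • b = c := by
  obtain ⟨g, hg⟩ := exists_one h a e
  have hb' : g⁻¹ • b ≠ a := fun e' => hbe (by rw [← hg, inv_smul_eq_iff.mp e'])
  have hc' : g⁻¹ • c ≠ a := fun e' => hce (by rw [← hg, inv_smul_eq_iff.mp e'])
  obtain ⟨q, hq, eq⟩ := exists_Q' h hb' hc'
  refine ⟨g * q * g⁻¹, ?_, ?_, ?_⟩
  · rw [Subgroup.mem_centralizer_iff]
    intro x hx
    have hxa : (g⁻¹ * x * g) • a = a := by
      rw [mul_smul, mul_smul, hg, he x hx, ← hg, inv_smul_smul]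
    have hxb : (g⁻¹ * x * g)⁻¹ • (g⁻¹ • b) = g⁻¹ • b := by
      rw [inv_smul_eq_iff, mul_smul, mul_smul, smul_inv_smul, hb x hx]
    have hxc : (g⁻¹ * x * g) • (g⁻¹ • c) = g⁻¹ • c := by
      rw [mul_smul, mul_smul, smul_inv_smul, hc x hx]
    have h1 : (g⁻¹ * x * g) * q * (g⁻¹ * x * g)⁻¹ = q := by
      apply eq_of_smul h (conj_mem_Q h hq hxa) hq hb'
      rw [mul_smul, mul_smul, hxb, eq, hxc]
    have h2 := comm_of_conj h1
    calc x * (g * q * g⁻¹) = g * ((g⁻¹ * x * g) * q) * g⁻¹ := by group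
      _ = g * (q * (g⁻¹ * x * g)) * g⁻¹ := by rw [h2]
      _ = _ := by group
  · have : g⁻¹ • e = a := by rw [← hg, inv_smul_smul]
    rw [mul_smul, mul_smul, this, Q_smul h hq, hg]
  · rw [mul_smul, mul_smul, eq, smul_inv_smul]

/-- the element moving `ta` to a given point lies in `C_Q(X)` -/
theorem cent_Q (h : IsRankOneSetup G Ω a t Q) {X : Set G} {b c : Ω}
    (he : ∀ x ∈ X, x • a = a) (hb : ∀ x ∈ X, x • b = b) (hc : ∀ x ∈ X, x • c = c)
    (hbe : b ≠ a) (hce : c ≠ a) : ∃ q ∈ Subgroup.centralizer X ⊓ Q, q • b = c := by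
  obtain ⟨q, hq, eq⟩ := exists_Q' h hbe hce
  refine ⟨q, ⟨?_, hq⟩, eq⟩
  apply Subgroup.mem_centralizer_iff.mpr
  intro x hx
  apply comm_of_conj
  apply eq_of_smul h (conj_mem_Q h hq (he x hx)) hq hbe
  have : x⁻¹ • b = b := by rw [inv_smul_eq_iff, hb x hx]
  rw [mul_smul, mul_smul, this, eq, hc x hx]

theorem cent_fix {X : Set G} {g : G} (hg : g ∈ Subgroup.centralizer X) {b : Ω} (hb : ∀ x ∈ X, x • b = b) :
    ∀ x ∈ X, x • (g • b) = g • b := by
  intro x hx
  rw [smul_smul, Subgroup.mem_centralizer_iff.mp hg x hx, mul_smul, hb x hx]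

/-- the fixed-point set has at least three points -/
def Three (X : Set G) (Ω : Type*) [MulAction G Ω] : Prop :=
  ∃ b c d : Ω, b ≠ c ∧ b ≠ d ∧ c ≠ d ∧ ∀ x ∈ X, x • b = b ∧ x • c = c ∧ x • d = d

theorem exists_third {X : Set G} (h3 : Three X Ω) (b c : Ω) : ∃ d, (∀ x ∈ X, x • d = d) ∧ d ≠ b ∧ d ≠ c := by
  obtain ⟨u, v, w, huv, huw, hvw, hX⟩ := h3
  by_cases h1 : u = b ∨ u = c
  · by_cases h2 : v = b ∨ v = c
    · refine ⟨w, fun x hx => (hX x hx).2.2, ?_, ?_⟩
      · rintro rfl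
        rcases h1 with rfl | rfl
        · exact huw rfl
        · rcases h2 with rfl | rfl
          · exact hvw rfl
          · exact huv rfl
      · rintro rfl
        rcases h1 with rfl | rfl
        · rcases h2 with rfl | rfl
          · exact huv rfl
          · exact hvw rfl
        · exact huw rfl
    · rw [not_or] at h2
      exact ⟨v, fun x hx => (hX x hx).2.1, h2.1, h2.2⟩
  · rw [not_or] at h1
    exact ⟨u, fun x hx => (hX x hx).1, h1.1, h1.2⟩

theorem cent_trans (h : IsRankOneSetup G Ω a t Q) {X : Set G} (h3 : Three X Ω) {b c : Ω}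
    (hb : ∀ x ∈ X, x • b = b) (hc : ∀ x ∈ X, x • c = c) : ∃ g ∈ Subgroup.centralizer X, g • b = c := by
  obtain ⟨d, hd, hdb, hdc⟩ := exists_third h3 b c
  obtain ⟨g, hg, -, e⟩ := cent_move h hd hb hc (Ne.symm hdb) (Ne.symm hdc)
  exact ⟨g, hg, e⟩

theorem cent_two (h : IsRankOneSetup G Ω a t Q) {X : Set G} (h3 : Three X Ω) {b₁ b₂ c₁ c₂ : Ω}
    (hb₁ : ∀ x ∈ X, x • b₁ = b₁) (hb₂ : ∀ x ∈ X, x • b₂ = b₂) (hc₁ : ∀ x ∈ X, x • c₁ = c₁)
    (hc₂ : ∀ x ∈ X, x • c₂ = c₂) (hb : b₁ ≠ b₂) (hc : c₁ ≠ c₂) :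
    ∃ g ∈ Subgroup.centralizer X, g • b₁ = c₁ ∧ g • b₂ = c₂ := by
  obtain ⟨g, hg, e⟩ := cent_trans h h3 hb₁ hc₁
  have h1 : g • b₂ ≠ c₁ := fun e' => hb (smul_left_cancel g (e.trans e'.symm))
  obtain ⟨g', hg', e1, e2⟩ := cent_move h hc₁ (cent_fix hg hb₂) hc₂ h1 (Ne.symm hc)
  exact ⟨g' * g, Subgroup.mul_mem _ hg' hg, by rw [mul_smul, e, e1], by rw [mul_smul, e2]⟩

/-- an involution of `C(X)` swapping `a` and `t • a` -/
theorem cent_swap [Finite G] (h : IsRankOneSetup G Ω a t Q) {X : Set G} (hX : X ⊆ (D2 G a t : Set G))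
    (h3 : Three X Ω) : ∃ u ∈ Subgroup.centralizer X, u * u = 1 ∧ u • a = t • a := by
  have ha : ∀ x ∈ X, x • a = a := fun x hx => D_smul_a (hX hx)
  have hta : ∀ x ∈ X, x • (t • a) = t • a := fun x hx => D_smul_ta (hX hx)
  obtain ⟨g, hg, e1, e2⟩ := cent_two h h3 ha hta hta ha (Ne.symm (ta_ne h)) (ta_ne h)
  have hgD : g * g ∈ D2 G a t := by
    rw [mem_D]
    constructor
    · rw [mul_smul, e1, e2]
    · rw [mul_smul, e2, e1]
  obtain ⟨m, hm⟩ := odd_orderOf_D h hgD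
  refine ⟨(g * g) ^ m * g, Subgroup.mul_mem _ (Subgroup.pow_mem _ (Subgroup.mul_mem _ hg hg) _) hg, ?_, ?_⟩
  · have hc : Commute ((g * g) ^ m) g := ((Commute.refl g).mul_left (Commute.refl g)).pow_left m
    calc (g * g) ^ m * g * ((g * g) ^ m * g) = (g * g) ^ m * (g * (g * g) ^ m) * g := by group
      _ = (g * g) ^ m * ((g * g) ^ m * g) * g := by rw [hc.eq]
      _ = (g * g) ^ (2 * m + 1) := by rw [pow_succ, two_mul, pow_add]; simp only [mul_assoc]
      _ = 1 := by rw [← hm, pow_orderOf_eq_one]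
  · rw [mul_smul, e1]
    exact D_smul_ta (Subgroup.pow_mem _ hgD m)

/-- `|C_Q(X)|` is even -/
theorem cent_even [Finite G] (h : IsRankOneSetup G Ω a t Q) {X : Set G} (hX : X ⊆ (D2 G a t : Set G))
    (h3 : Three X Ω) : ∃ s ∈ Subgroup.centralizer X ⊓ Q, s ≠ 1 ∧ s * s = 1 := by
  obtain ⟨u, hu, hu2, hua⟩ := cent_swap h hX h3
  have hu1 : u ≠ 1 := by
    rintro rfl
    rw [one_smul] at hua
    exact ta_ne h hua.symm
  obtain ⟨b, hb⟩ := exists_fix h hu2
  have hXb : ∀ x ∈ X, x • b = b := fun x hx => fix_of_comm h hu1 hu2 hb (Subgroup.mem_centralizer_iff.mp hu x hx)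
  obtain ⟨g, hg, e⟩ := cent_trans h h3 hXb (fun x hx => D_smul_a (hX hx))
  refine ⟨g * u * g⁻¹, ⟨Subgroup.mul_mem _ (Subgroup.mul_mem _ hg hu) (Subgroup.inv_mem _ hg), ?_⟩,
    conj_ne_one hu1, conj_sq hu2⟩
  apply mem_Q_of_sq h _ (conj_sq hu2)
  rw [← e, conj_smul_fix, hb]

theorem even_of_inv {H : Subgroup G} [Finite G] {s : G} (hs : s ∈ H) (h1 : s ≠ 1) (h2 : s * s = 1) :
    Even (Nat.card H) := by
  have h3 := Subgroup.orderOf_dvd_natCard _ hs
  rw [Invol.orderOf_eq_two h2 h1] at h3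
  exact even_iff_two_dvd.mpr h3

theorem cent_sup (h : IsRankOneSetup G Ω a t Q) {X : Set G} (hX : X ⊆ (D2 G a t : Set G)) :
    (Subgroup.centralizer X ⊓ Q) ⊔ (Subgroup.centralizer X ⊓ D2 G a t) =
      Subgroup.centralizer X ⊓ stabilizer G a := by
  apply le_antisymm
  · exact sup_le (inf_le_inf le_rfl h.le) (inf_le_inf le_rfl inf_le_left)
  · intro x hx
    have hxa : x • a = a := hx.2
    have h1 : x • (t • a) ≠ a := by
      intro e
      exact ta_ne h (smul_left_cancel x (e.trans hxa.symm))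
    obtain ⟨q, hq, e⟩ := cent_Q h (X := X) (b := t • a) (c := x • (t • a)) (fun x hx => D_smul_a (hX hx))
      (fun x hx => D_smul_ta (hX hx)) (cent_fix hx.1 (fun x hx => D_smul_ta (hX hx))) (ta_ne h) h1
    have h2 : x = q * (q⁻¹ * x) := by group
    rw [h2]
    apply Subgroup.mul_mem
    · exact (le_sup_left : _ ≤ (Subgroup.centralizer X ⊓ Q) ⊔ _) hq
    · apply (le_sup_right : _ ≤ (Subgroup.centralizer X ⊓ Q) ⊔ _)
      refine ⟨Subgroup.mul_mem _ (Subgroup.inv_mem _ hq.1) hx.1, ?_⟩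
      apply mem_D.mpr
      constructor
      · rw [mul_smul, hxa, inv_smul_eq_iff, Q_smul h hq.2]
      · rw [mul_smul, ← e, inv_smul_smul]

/-- S1126 -/
theorem conj_into_V [Finite G] (h : IsRankOneSetup G Ω a t Q) {X : Set G} (hX : X ⊆ (D2 G a t : Set G))
    (h3 : Three X Ω) : ∃ k ∈ D2 G a t, ∀ x ∈ X, (k * x * k⁻¹) * t = t * (k * x * k⁻¹) := by
  obtain ⟨u, hu, hu2, hua⟩ := cent_swap h hX h3
  obtain ⟨k, hk, e, -⟩ := swap_conj h hu2 hua
  refine ⟨k⁻¹, Subgroup.inv_mem _ hk.1, ?_⟩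
  intro x hx
  have h1 := Subgroup.mem_centralizer_iff.mp hu x hx
  rw [← e] at h1
  calc k⁻¹ * x * k⁻¹⁻¹ * t = k⁻¹ * (x * (k * t * k⁻¹)) * k := by group
    _ = k⁻¹ * (k * t * k⁻¹ * x) * k := by rw [h1]
    _ = _ := by group

end Cfsg.Agent.Lib.RankOne
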