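import Cfsg.Agent.Lib.RankOneB
import Cfsg.Agent.Lib.InvolB
import Cfsg.Agent.Lib.Nilp

/-!
# Rank-one set-ups: `K` acts fixed-point-freely, `Q` is nilpotent, fusion
-/

set_option autoImplicit false

namespace Cfsg.Agent.Lib.RankOne

open MulAction
open Cfsg.Agent.Lib.Basic

variable {G Ω : Type*} [Group G] [MulAction G Ω] {a : Ω} {t : G} {Q : Subgroup G}

theorem one_mem_K (h : IsRankOneSetup G Ω a t Q) : (1 : G) ∈ invertedBy (D2 G a t) t :=
  ⟨Subgroup.one_mem _, by group⟩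

/-- S1127, first part -/
theorem sol_cent [Finite G] (h : IsRankOneSetup G Ω a t Q) {s r : G}
    (hs : s ∈ involutionsIn (stabilizer G a : Set G)) (hr : r ∈ Q) (e : t * s * t = r⁻¹ * t * r) :
    D2 G a t ⊓ Subgroup.centralizer {t} = D2 G a t ⊓ Subgroup.centralizer {s} := by
  have h1 : ∀ d ∈ D2 G a t, d * t = t * d → d * s = s * d := by
    intro d hd hdt
    have hda := D_smul_a hd
    have e1 : t * (d * s * d⁻¹) * t = (d * r * d⁻¹)⁻¹ * t * (d * r * d⁻¹) := by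
      have hdt' : d⁻¹ * t = t * d⁻¹ := by
        rw [inv_mul_eq_iff_eq_mul, ← mul_assoc, hdt, mul_inv_cancel_right]
      calc t * (d * s * d⁻¹) * t = (t * d) * s * (d⁻¹ * t) := by group
        _ = (d * t) * s * (t * d⁻¹) := by rw [hdt, hdt']
        _ = d * (t * s * t) * d⁻¹ := by group
        _ = d * (r⁻¹ * t * r) * d⁻¹ := by rw [e]
        _ = (d * r⁻¹) * t * (r * d⁻¹) := by group
        _ = (d * r * d⁻¹)⁻¹ * ((d * t) * d⁻¹) * (d * r * d⁻¹) := by group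
        _ = _ := by rw [hdt]; group
    have h2 := sol_unique h (conj_mem_II h hs hda) hs (conj_mem_Q h hr hda) hr e1 e
    exact comm_of_conj h2.1
  apply le_antisymm
  · intro d hd
    refine ⟨hd.1, ?_⟩
    exact Subgroup.mem_centralizer_singleton_iff.mpr
      (h1 d hd.1 (Subgroup.mem_centralizer_singleton_iff.mp hd.2))
  · intro d hd
    refine ⟨hd.1, ?_⟩
    apply Subgroup.mem_centralizer_singleton_iff.mpr
    have hds := Subgroup.mem_centralizer_singleton_iff.mp hd.2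
    obtain ⟨κ, hκ, e1, -⟩ := swap_conj h (conj_sq (g := d) h.mul_self) (conj_ta h hd.1)
    have hv : κ⁻¹ * d ∈ D2 G a t := Subgroup.mul_mem _ (Subgroup.inv_mem _ hκ.1) hd.1
    have hvt : (κ⁻¹ * d) * t = t * (κ⁻¹ * d) := by
      calc (κ⁻¹ * d) * t = κ⁻¹ * (d * t * d⁻¹) * d := by group
        _ = κ⁻¹ * (κ * t * κ⁻¹) * d := by rw [e1]
        _ = _ := by group
    have hvs := h1 _ hv hvt
    have hκs : κ⁻¹ * s * κ = s := by
      have h2 : κ⁻¹ * s * κ = (κ⁻¹ * d) * (d⁻¹ * (s * d)) * (κ⁻¹ * d)⁻¹ := by group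
      rw [h2, ← hds, inv_mul_cancel_left, hvs]
      group
    have hκ1 : κ = 1 := K_conj_inj h hr e hκ (one_mem_K h) (by rw [hκs]; group)
    rw [hκ1] at hvt
    simpa using hvt

/-- S1127, second part -/
theorem cent_K_eq [Finite G] (h : IsRankOneSetup G Ω a t Q) :
    D2 G a t ⊓ Subgroup.centralizer {t} ⊓ Subgroup.centralizer (invertedBy (D2 G a t) t) =
      D2 G a t ⊓ Subgroup.centralizer (involutionsIn (stabilizer G a : Set G)) := by
  obtain ⟨s, hs, r, hr, e⟩ := exists_sol h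
  have hcent := sol_cent h hs hr e
  apply le_antisymm
  · intro x hx
    refine ⟨hx.1.1, ?_⟩
    apply Subgroup.mem_centralizer_iff.mpr
    intro s' hs'
    obtain ⟨k, hk, rfl⟩ := K_conj_surj h hs hr e hs'
    have h1 : x ∈ D2 G a t ⊓ Subgroup.centralizer {s} := by rw [← hcent]; exact hx.1
    have h2 := Subgroup.mem_centralizer_singleton_iff.mp h1.2
    have h3 := Subgroup.mem_centralizer_iff.mp hx.2 k hk
    have c1 : Commute x s := h2
    have c2 : Commute x k := h3.symm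
    exact ((c2.inv_right.mul_right c1).mul_right c2).eq.symm
  · intro x hx
    have hxI := Subgroup.mem_centralizer_iff.mp hx.2
    have h1 : x ∈ D2 G a t ⊓ Subgroup.centralizer {t} := by
      rw [hcent]
      exact ⟨hx.1, Subgroup.mem_centralizer_singleton_iff.mpr (hxI s hs).symm⟩
    have hxt : Commute x t := Subgroup.mem_centralizer_singleton_iff.mp h1.2
    have hxs : Commute x s := (hxI s hs).symm
    refine ⟨h1, ?_⟩
    apply Subgroup.mem_centralizer_iff.mpr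
    intro k hk
    have hk' : x * k * x⁻¹ ∈ invertedBy (D2 G a t) t := by
      apply K_mem h (Subgroup.mul_mem _ (Subgroup.mul_mem _ hx.1 hk.1) (Subgroup.inv_mem _ hx.1))
      calc t * (x * k * x⁻¹) * t = (t * x) * k * (x⁻¹ * t) := by group
        _ = (x * t) * k * (t * x⁻¹) := by rw [hxt.eq, hxt.inv_left.eq]
        _ = x * (t * k * t) * x⁻¹ := by group
        _ = x * k⁻¹ * x⁻¹ := by rw [K_conj h hk]
        _ = _ := by group
    have hxk : Commute x (k⁻¹ * s * k) := (hxI _ (conj_mem_II' h hs (D_smul_a hk.1))).symm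
    have h2 : (x * k * x⁻¹)⁻¹ * s * (x * k * x⁻¹) = k⁻¹ * s * k := by
      calc (x * k * x⁻¹)⁻¹ * s * (x * k * x⁻¹) = x * k⁻¹ * x⁻¹ * (s * x) * k * x⁻¹ := by group
        _ = x * k⁻¹ * x⁻¹ * (x * s) * k * x⁻¹ := by rw [hxs.eq]
        _ = x * (k⁻¹ * s * k) * x⁻¹ := by group
        _ = _ := by rw [hxk.eq, mul_inv_cancel_right]
    have h3 := K_conj_inj h hr e hk' hk h2
    exact (comm_of_conj h3).symm

/-! ### S1128 -/

theorem card_fix [Finite G] (h : IsRankOneSetup G Ω a t Q) {X : Set G} (hX : X ⊆ (D2 G a t : Set G)) :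
    Nat.card {b : Ω // ∀ x ∈ X, x • b = b} = Nat.card ↥(Subgroup.centralizer X ⊓ Q) + 1 := by
  haveI := finiteΩ h
  classical
  have ha : ∀ x ∈ X, x • a = a := fun x hx => D_smul_a (hX hx)
  have hta : ∀ x ∈ X, x • (t • a) = t • a := fun x hx => D_smul_ta (hX hx)
  have e1 : Nat.card ↥(Subgroup.centralizer X ⊓ Q) =
      Nat.card {b : {b : Ω // ∀ x ∈ X, x • b = b} // b ≠ ⟨a, ha⟩} := by
    refine Nat.card_congr (Equiv.ofBijective (fun q : ↥(Subgroup.centralizer X ⊓ Q) =>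
      ⟨⟨(q : G) • (t • a), cent_fix q.2.1 hta⟩, ?_⟩) ⟨?_, ?_⟩)
    · intro e
      apply ta_ne h
      have := congrArg (fun x => (q : G)⁻¹ • x) (congrArg Subtype.val e)
      simp only [inv_smul_smul] at this
      rw [this]
      exact Q_smul h (Q.inv_mem q.2.2)
    · intro q q' e
      have := congrArg Subtype.val (congrArg Subtype.val e)
      exact Subtype.ext (eq_of_smul h q.2.2 q'.2.2 (ta_ne h) this)
    · rintro ⟨⟨b, hXb⟩, hb⟩
      have hb' : b ≠ a := fun e => hb (Subtype.ext e)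
      obtain ⟨q, hq, e⟩ := cent_Q h ha hta hXb (ta_ne h) hb'
      exact ⟨⟨q, hq⟩, Subtype.ext (Subtype.ext e)⟩
  rw [e1, ← Finite.card_option]
  exact (Nat.card_congr (Equiv.optionSubtypeNe (⟨a, ha⟩ : {b : Ω // ∀ x ∈ X, x • b = b}))).symm

theorem Q_move (h : IsRankOneSetup G Ω a t Q) {q : G} (hq : q ∈ Q) {b : Ω} (hb : b ≠ a) : q • b ≠ a :=
  fun e => hb (smul_left_cancel q (e.trans (Q_smul h hq).symm))

theorem fpf [Finite G] (h : IsRankOneSetup G Ω a t Q) {x : G} (hx : x ∈ invertedBy (D2 G a t) t)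
    (hx1 : x ≠ 1) {q : G} (hq : q ∈ Q) (hqx : q * x = x * q) : q = 1 := by
  by_contra hq1
  haveI := finiteΩ h
  have hX : ({x} : Set G) ⊆ (D2 G a t : Set G) := by
    intro y hy
    rw [Set.mem_singleton_iff.mp hy]
    exact hx.1
  have hqa : q • (t • a) ≠ a := Q_move h hq (ta_ne h)
  have hqta : q • (t • a) ≠ t • a := fun e => hq1 (eq_one_of_ta h hq e)
  have hxq : x • (q • (t • a)) = q • (t • a) := by
    rw [smul_smul, ← hqx, mul_smul, D_smul_ta hx.1]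
  have h3 : Three ({x} : Set G) Ω := by
    refine ⟨a, t • a, q • (t • a), Ne.symm (ta_ne h), Ne.symm hqa, Ne.symm hqta, ?_⟩
    intro y hy
    rw [Set.mem_singleton_iff.mp hy]
    exact ⟨D_smul_a hx.1, D_smul_ta hx.1, hxq⟩
  -- the number of fixed points is odd
  obtain ⟨s, hs, hs1, hs2⟩ := cent_even h hX h3
  have hodd : Odd (Nat.card {b : Ω // ∀ y ∈ ({x} : Set G), y • b = b}) := by
    rw [card_fix h hX]
    exact (even_of_inv hs hs1 hs2).add_one
  have htx : x * t = t * x⁻¹ := (K_tk' h hx).symm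
  have htF : ∀ b : Ω, (∀ y ∈ ({x} : Set G), y • b = b) → ∀ y ∈ ({x} : Set G), y • (t • b) = t • b := by
    intro b hb y hy
    rw [Set.mem_singleton_iff.mp hy]
    have h1 : x⁻¹ • b = b := by rw [inv_smul_eq_iff, hb x (Set.mem_singleton _)]
    rw [smul_smul, htx, mul_smul, h1]
  let σ : Equiv.Perm {b : Ω // ∀ y ∈ ({x} : Set G), y • b = b} :=
    { toFun := fun b => ⟨t • b.1, htF b.1 b.2⟩
      invFun := fun b => ⟨t • b.1, htF b.1 b.2⟩
      left_inv := fun b => Subtype.ext (tt_smul h _)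
      right_inv := fun b => Subtype.ext (tt_smul h _) }
  obtain ⟨⟨b, hb⟩, hσb⟩ := exists_fix_of_odd hodd σ (by
    ext b
    exact tt_smul h b.1)
  have htb : t • b = b := congrArg Subtype.val hσb
  have hxb : x • b = b := hb x (Set.mem_singleton _)
  have hba : b ≠ a := by
    rintro rfl
    exact ta_ne h htb
  -- conjugate `b` to `a`
  obtain ⟨g, hg⟩ := exists_one h a b
  have hga : g⁻¹ • a ≠ a := by
    intro e
    rw [inv_smul_eq_iff] at e
    exact hba (hg.symm.trans e.symm)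
  have ht' : (g⁻¹ * t * g) ∈ Q := by
    have h1 := conj_sq (g := g⁻¹) h.mul_self
    rw [inv_inv] at h1
    apply mem_Q_of_sq h _ h1
    rw [mul_smul, mul_smul, hg, htb, ← hg, inv_smul_smul]
  have hx' : (g⁻¹ * x * g) • a = a := by
    rw [mul_smul, mul_smul, hg, hxb, ← hg, inv_smul_smul]
  have hcomm : (g⁻¹ * t * g) * ((g⁻¹ * x * g) * (g⁻¹ * t * g)⁻¹ * (g⁻¹ * x * g)⁻¹) ∈ Q :=
    Q.mul_mem ht' (conj_mem_Q h (Q.inv_mem ht') hx')
  have e1 : (g⁻¹ * t * g) * ((g⁻¹ * x * g) * (g⁻¹ * t * g)⁻¹ * (g⁻¹ * x * g)⁻¹) =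
      g⁻¹ * (x⁻¹ * x⁻¹) * g := by
    calc (g⁻¹ * t * g) * ((g⁻¹ * x * g) * (g⁻¹ * t * g)⁻¹ * (g⁻¹ * x * g)⁻¹)
        = g⁻¹ * ((t * x * t⁻¹) * x⁻¹) * g := by group
      _ = _ := by rw [hx.2]
  rw [e1] at hcomm
  have h1 : g⁻¹ * (x⁻¹ * x⁻¹) * g = 1 := by
    apply eq_one_of_fix h hcomm hga
    have h2 : x⁻¹ • a = a := by rw [inv_smul_eq_iff, D_smul_a hx.1]
    rw [mul_smul, mul_smul, smul_inv_smul, mul_smul, h2, h2]
  apply hx1
  apply D_sq h hx.1
  have h2 : (x * x)⁻¹ = g * (g⁻¹ * (x⁻¹ * x⁻¹) * g) * g⁻¹ := by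
    rw [mul_inv_rev]; group
  rw [h1, mul_one, mul_inv_cancel, inv_eq_one] at h2
  exact h2

theorem exists_two_II [Finite G] (h : IsRankOneSetup G Ω a t Q)
    (h2 : ∃ x y : G, x ≠ 1 ∧ y ≠ 1 ∧ x ≠ y ∧ x * x = 1 ∧ y * y = 1 ∧ x * y = y * x) :
    ∃ x y : G, x ∈ involutionsIn (stabilizer G a : Set G) ∧ y ∈ involutionsIn (stabilizer G a : Set G) ∧
      x ≠ y := by
  obtain ⟨x, y, hx1, hy1, hxy, hx2, hy2, hc⟩ := h2
  obtain ⟨b, hb⟩ := exists_fix h hx2
  have hyb : y • b = b := fix_of_comm h hx1 hx2 hb hc.symm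
  obtain ⟨g, hg⟩ := exists_one h b a
  refine ⟨g * x * g⁻¹, g * y * g⁻¹, ⟨?_, conj_ne_one hx1, conj_sq hx2⟩,
    ⟨?_, conj_ne_one hy1, conj_sq hy2⟩, ?_⟩
  · show (g * x * g⁻¹) • a = a
    rw [← hg, conj_smul_fix, hb]
  · show (g * y * g⁻¹) • a = a
    rw [← hg, conj_smul_fix, hyb]
  · intro e
    exact hxy (mul_left_cancel (mul_right_cancel e))

theorem exists_K [Finite G] (h : IsRankOneSetup G Ω a t Q)
    (h2 : ∃ x y : G, x ≠ 1 ∧ y ≠ 1 ∧ x ≠ y ∧ x * x = 1 ∧ y * y = 1 ∧ x * y = y * x) :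
    ∃ k ∈ invertedBy (D2 G a t) t, k ≠ 1 := by
  obtain ⟨x, y, hx, hy, hxy⟩ := exists_two_II h h2
  obtain ⟨k, hk, e⟩ := K_transitive h hx hy
  refine ⟨k, hk, ?_⟩
  rintro rfl
  apply hxy
  rw [← e]; group

/-- S1129 -/
theorem nilpotent [Finite G] (h : IsRankOneSetup G Ω a t Q)
    (h2 : ∃ x y : G, x ≠ 1 ∧ y ≠ 1 ∧ x ≠ y ∧ x * x = 1 ∧ y * y = 1 ∧ x * y = y * x) :
    Group.IsNilpotent Q := by
  obtain ⟨k, hk, hk1⟩ := exists_K h h2
  have hord : orderOf k ≠ 1 := fun e => hk1 (orderOf_eq_one_iff.mp e)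
  obtain ⟨p, hp, hpd⟩ := Nat.exists_prime_and_dvd hord
  haveI : Fact p.Prime := ⟨hp⟩
  obtain ⟨m, hm⟩ := hpd
  have hm0 : m ≠ 0 := by
    rintro rfl
    rw [mul_zero] at hm
    exact (orderOf_pos k).ne' hm
  have hxK : k ^ (m : ℤ) ∈ invertedBy (D2 G a t) t := K_zpow hk m
  have hxo : orderOf (k ^ (m : ℤ)) = p := by
    rw [zpow_natCast, orderOf_pow_of_dvd hm0 (Dvd.intro_left p hm.symm), hm]
    exact Nat.mul_div_cancel _ (Nat.pos_of_ne_zero hm0)
  set x := k ^ (m : ℤ) with hxdef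
  have hx1 : x ≠ 1 := by
    intro e
    rw [e, orderOf_one] at hxo
    exact hp.one_lt.ne hxo
  have hle : stabilizer G a ≤ Subgroup.normalizer (Q : Set G) := le_normalizer h
  let φ : MulAut Q := CoprimeB.act hle ⟨x, hxK.1.1⟩
  have hφ : ∀ q : Q, φ q = q → q = 1 := by
    intro q e
    have e1 : x * (q : G) * x⁻¹ = q := congrArg Subtype.val e
    exact Subtype.ext (fpf h hxK hx1 q.2 (comm_of_conj e1).symm)
  refine FpfNilp.isNilpotent_of_fpf (p := p) φ ?_ hφ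
  apply orderOf_eq_prime
  · have h3 : (⟨x, hxK.1.1⟩ : stabilizer G a) ^ p = 1 := by
      apply Subtype.ext
      show x ^ p = 1
      rw [← hxo]; exact pow_orderOf_eq_one x
    show (CoprimeB.act hle ⟨x, hxK.1.1⟩) ^ p = 1
    rw [← map_pow, h3, map_one]
  · intro e
    obtain ⟨q, hq, hq1⟩ := Q_ne h
    apply hq1
    have := hφ ⟨q, hq⟩ (by rw [e]; rfl)
    exact congrArg Subtype.val this

theorem exists_center_inv [Finite G] (h : IsRankOneSetup G Ω a t Q)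
    (h2 : ∃ x y : G, x ≠ 1 ∧ y ≠ 1 ∧ x ≠ y ∧ x * x = 1 ∧ y * y = 1 ∧ x * y = y * x) :
    ∃ z ∈ Q, z ≠ 1 ∧ z * z = 1 ∧ ∀ q ∈ Q, z * q = q * z := by
  haveI := nilpotent h h2
  haveI : Fact (Nat.Prime 2) := ⟨Nat.prime_two⟩
  obtain ⟨P⟩ : Nonempty (Sylow 2 Q) := inferInstance
  haveI hPn : (P : Subgroup Q).Normal := by
    have h0 := (Group.isNilpotent_of_finite_tfae (G := Q)).out 0 3
    exact h0.mp (nilpotent h h2) 2 inferInstance P
  have hP1 : (P : Subgroup Q) ≠ ⊥ := P.ne_bot_of_dvd_card (even_iff_two_dvd.mp h.even_card)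
  have h3 := Nilp.normal_inf_center_ne_bot (P : Subgroup Q) hP1
  have h4 : IsPGroup 2 ↥((P : Subgroup Q) ⊓ Subgroup.center Q) := P.isPGroup'.to_le inf_le_left
  haveI : Nontrivial ↥((P : Subgroup Q) ⊓ Subgroup.center Q) :=
    (Subgroup.nontrivial_iff_ne_bot _).mpr h3
  have h5 : 2 ∣ Nat.card ↥((P : Subgroup Q) ⊓ Subgroup.center Q) := by
    obtain ⟨n, hn, e⟩ := (IsPGroup.nontrivial_iff_card h4).mp inferInstance
    rw [e]
    exact dvd_pow_self 2 hn.ne'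
  obtain ⟨w, hw⟩ := exists_prime_orderOf_dvd_card' 2 h5
  have hw' : orderOf ((w : Q) : G) = 2 := by rw [Subgroup.orderOf_coe, Subgroup.orderOf_coe]; exact hw
  refine ⟨((w : Q) : G), (w : Q).2, ?_, Invol.mul_self hw', ?_⟩
  · intro e
    rw [e, orderOf_one] at hw'
    exact absurd hw' (by decide)
  · intro q hq
    have := Subgroup.mem_center_iff.mp w.2.2 ⟨q, hq⟩
    exact (congrArg Subtype.val this).symm

/-- S1130 -/
theorem II_center [Finite G] (h : IsRankOneSetup G Ω a t Q)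
    (h2 : ∃ x y : G, x ≠ 1 ∧ y ≠ 1 ∧ x ≠ y ∧ x * x = 1 ∧ y * y = 1 ∧ x * y = y * x) {s : G}
    (hs : s ∈ involutionsIn (stabilizer G a : Set G)) : s ∈ Q ∧ ∀ x ∈ Q, s * x = x * s := by
  refine ⟨mem_Q_of_sq h hs.1 hs.2.2, ?_⟩
  intro x hx
  obtain ⟨z, hz, hz1, hz2, hzc⟩ := exists_center_inv h h2
  obtain ⟨k, hk, e⟩ := K_transitive h (s₁ := z) ⟨h.le hz, hz1, hz2⟩ hs
  rw [← e]
  have h3 := hzc _ (conj_mem_Q h hx (D_smul_a hk.1))
  calc k⁻¹ * z * k * x = k⁻¹ * (z * (k * x * k⁻¹)) * k := by group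
    _ = k⁻¹ * (k * x * k⁻¹ * z) * k := by rw [h3]
    _ = _ := by group

theorem II_mul [Finite G] (h : IsRankOneSetup G Ω a t Q)
    (h2 : ∃ x y : G, x ≠ 1 ∧ y ≠ 1 ∧ x ≠ y ∧ x * x = 1 ∧ y * y = 1 ∧ x * y = y * x) {s s' : G}
    (hs : s ∈ involutionsIn (stabilizer G a : Set G)) (hs' : s' ∈ involutionsIn (stabilizer G a : Set G)) :
    s * s' = 1 ∨ s * s' ∈ involutionsIn (stabilizer G a : Set G) := by
  by_cases h1 : s * s' = 1
  · exact Or.inl h1
  · right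
    refine ⟨Subgroup.mul_mem _ hs.1 hs'.1, h1, ?_⟩
    have h3 := (II_center h h2 hs).2 s' (II_center h h2 hs').1
    calc s * s' * (s * s') = s * (s' * s) * s' := by group
      _ = (s * s) * (s' * s') := by rw [← h3]; group
      _ = 1 := by rw [hs.2.2, hs'.2.2, one_mul]

/-! ### S1134 -/

theorem conj_in_V [Finite G] (h : IsRankOneSetup G Ω a t Q) {X : Set G}
    (hX : X ⊆ ((D2 G a t ⊓ Subgroup.centralizer {t} : Subgroup G) : Set G)) {g : G}
    (hY : (fun x => g * x * g⁻¹) '' X ⊆ ((D2 G a t ⊓ Subgroup.centralizer {t} : Subgroup G) : Set G)) :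
    ∃ v ∈ D2 G a t ⊓ Subgroup.centralizer {t}, ∀ x ∈ X, v * x * v⁻¹ = g * x * g⁻¹ := by
  obtain ⟨b₀, hb₀⟩ := exists_fix h h.mul_self
  have hXD : X ⊆ (D2 G a t : Set G) := fun x hx => (hX hx).1
  have hXt : ∀ x ∈ X, x * t = t * x := fun x hx => Subgroup.mem_centralizer_singleton_iff.mp (hX hx).2
  have hYD : ∀ x ∈ X, g * x * g⁻¹ ∈ D2 G a t := fun x hx => (hY ⟨x, hx, rfl⟩).1
  have hYt : ∀ x ∈ X, (g * x * g⁻¹) * t = t * (g * x * g⁻¹) :=
    fun x hx => Subgroup.mem_centralizer_singleton_iff.mp (hY ⟨x, hx, rfl⟩).2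
  have ha : ∀ x ∈ X, x • a = a := fun x hx => D_smul_a (hXD hx)
  have hta : ∀ x ∈ X, x • (t • a) = t • a := fun x hx => D_smul_ta (hXD hx)
  have hXb : ∀ x ∈ X, x • b₀ = b₀ := fun x hx => fix_of_comm h h.ne_one h.mul_self hb₀ (hXt x hx)
  have h3 : Three X Ω := by
    refine ⟨a, t • a, b₀, Ne.symm (ta_ne h), ?_, ?_, fun x hx => ⟨ha x hx, hta x hx, hXb x hx⟩⟩
    · rintro rfl; exact ta_ne h hb₀
    · intro e
      rw [← e, tt_smul h] at hb₀
      exact ta_ne h hb₀.symm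
  have hga : ∀ x ∈ X, x • (g⁻¹ • a) = g⁻¹ • a := by
    intro x hx
    have := D_smul_a (hYD x hx)
    rw [mul_smul, mul_smul] at this
    rw [eq_inv_smul_iff, this]
  have hgta : ∀ x ∈ X, x • (g⁻¹ • (t • a)) = g⁻¹ • (t • a) := by
    intro x hx
    have := D_smul_ta (hYD x hx)
    rw [mul_smul, mul_smul] at this
    rw [eq_inv_smul_iff, this]
  obtain ⟨c, hc, hc1, hc2⟩ := cent_two h h3 ha hta hga hgta (Ne.symm (ta_ne h))
    (fun e => ta_ne h (smul_left_cancel g⁻¹ e).symm)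
  have hcX := Subgroup.mem_centralizer_iff.mp hc
  -- `k = g c` lies in `D`
  have hkD : g * c ∈ D2 G a t := by
    rw [mem_D]
    exact ⟨by rw [mul_smul, hc1, smul_inv_smul], by rw [mul_smul, hc2, smul_inv_smul]⟩
  have hk : ∀ x ∈ X, (g * c) * x * (g * c)⁻¹ = g * x * g⁻¹ := by
    intro x hx
    calc (g * c) * x * (g * c)⁻¹ = g * (c * x) * c⁻¹ * g⁻¹ := by group
      _ = g * (x * c) * c⁻¹ * g⁻¹ := by rw [hcX x hx]
      _ = _ := by group
  set k := g * c with hkdef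
  have hua : (k⁻¹ * t * k⁻¹⁻¹) • a = t • a := conj_ta h (Subgroup.inv_mem _ hkD)
  obtain ⟨l, hl, e1, e2, n, hn⟩ := swap_conj h (conj_sq (g := k⁻¹) h.mul_self) hua
  -- `l` centralises `X`
  have hXu : ∀ x ∈ X, Commute x (k⁻¹ * t * k⁻¹⁻¹) := by
    intro x hx
    have h4 := hYt x hx
    rw [← hk x hx] at h4
    show x * (k⁻¹ * t * k⁻¹⁻¹) = (k⁻¹ * t * k⁻¹⁻¹) * x
    calc x * (k⁻¹ * t * k⁻¹⁻¹) = k⁻¹ * ((k * x * k⁻¹) * t) * k := by group
      _ = k⁻¹ * (t * (k * x * k⁻¹)) * k := by rw [h4]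
      _ = _ := by group
  have hlX : ∀ x ∈ X, Commute x l := by
    intro x hx
    rw [hn]
    exact ((hXu x hx).mul_right (show Commute x t from hXt x hx)).zpow_right n
  refine ⟨k * l, ⟨Subgroup.mul_mem _ hkD hl.1, ?_⟩, ?_⟩
  · apply Subgroup.mem_centralizer_singleton_iff.mpr
    calc k * l * t = k * (l * t * l⁻¹) * l := by group
      _ = k * (k⁻¹ * t * k⁻¹⁻¹) * l := by rw [e1]
      _ = _ := by group
  · intro x hx
    rw [← hk x hx]
    calc (k * l) * x * (k * l)⁻¹ = k * (l * x) * l⁻¹ * k⁻¹ := by group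
      _ = k * (x * l) * l⁻¹ * k⁻¹ := by rw [(hlX x hx).eq]
      _ = _ := by group

/-! ### S1135 -/

theorem prod_conj [Finite G] (h : IsRankOneSetup G Ω a t Q)
    (h2 : ∃ x y : G, x ≠ 1 ∧ y ≠ 1 ∧ x ≠ y ∧ x * x = 1 ∧ y * y = 1 ∧ x * y = y * x) {u v : G}
    (hu1 : u ≠ 1) (hu2 : u * u = 1) (hv1 : v ≠ 1) (hv2 : v * v = 1) (hx : (u * v) * (u * v) ≠ 1) :
    ∃ g : G, g * u * g⁻¹ ∈ involutionsIn (stabilizer G a : Set G) ∧ g * v * g⁻¹ = t := by
  obtain ⟨b, hb⟩ := exists_fix h hu2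
  obtain ⟨g, hg⟩ := exists_one h b a
  have hu' : g * u * g⁻¹ ∈ involutionsIn (stabilizer G a : Set G) := by
    refine ⟨?_, conj_ne_one hu1, conj_sq hu2⟩
    show (g * u * g⁻¹) • a = a
    rw [← hg, conj_smul_fix, hb]
  have hv' : (g * v * g⁻¹) • a ≠ a := by
    intro e
    have hv'' : g * v * g⁻¹ ∈ involutionsIn (stabilizer G a : Set G) := ⟨e, conj_ne_one hv1, conj_sq hv2⟩
    have h3 := (II_center h h2 hu').2 _ (II_center h h2 hv'').1
    apply hx
    have h4 : u * v = v * u := by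
      have h5 : g * (u * v) * g⁻¹ = g * (v * u) * g⁻¹ := by
        calc g * (u * v) * g⁻¹ = (g * u * g⁻¹) * (g * v * g⁻¹) := by group
          _ = (g * v * g⁻¹) * (g * u * g⁻¹) := h3
          _ = _ := by group
      exact mul_left_cancel (mul_right_cancel h5)
    calc u * v * (u * v) = u * (v * u) * v := by group
      _ = (u * u) * (v * v) := by rw [← h4]; group
      _ = 1 := by rw [hu2, hv2, one_mul]
  obtain ⟨d, hd, y, hy, e⟩ := moved_conj h (conj_sq (g := g) hv2) hv'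
  obtain ⟨k, hk, hkd⟩ := K_sqrt h hd
  have hya := Q_smul h hy
  have hka := D_smul_a hk.1
  refine ⟨k⁻¹ * y * g, ?_, ?_⟩
  · have h3 := conj_mem_II' h (conj_mem_II h hu' hya) hka
    rwa [show k⁻¹ * (y * (g * u * g⁻¹) * y⁻¹) * k = (k⁻¹ * y * g) * u * (k⁻¹ * y * g)⁻¹ by group] at h3
  · calc (k⁻¹ * y * g) * v * (k⁻¹ * y * g)⁻¹ = k⁻¹ * y * (g * v * g⁻¹) * y⁻¹ * k := by group
      _ = k⁻¹ * y * (y⁻¹ * (k * t * k⁻¹) * y) * y⁻¹ * k := by rw [e, K_mul h hk, hkd]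
      _ = t := by group

theorem odd_cent_aux [Finite G] (h : IsRankOneSetup G Ω a t Q) {u : G}
    (hu : u ∈ involutionsIn (stabilizer G a : Set G)) :
    Odd (Nat.card ↥(Subgroup.centralizer {u * t})) := by
  by_contra hcon
  rw [Nat.not_odd_iff_even] at hcon
  have h1 := InvolB.odd_card_involutions hcon
  have hui : u⁻¹ = u := inv_eq_of_mul_eq_one_left hu.2.2
  have hti := t_inv h
  have hC : ∀ c ∈ Subgroup.centralizer {u * t}, t * c * t⁻¹ ∈ Subgroup.centralizer {u * t} := by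
    intro c hc
    have hc1 : Commute c (u * t) := Subgroup.mem_centralizer_singleton_iff.mp hc
    apply Subgroup.mem_centralizer_singleton_iff.mpr
    have hc2 : Commute c (u * t)⁻¹ := hc1.inv_right
    rw [mul_inv_rev, hui, hti] at hc2
    show t * c * t⁻¹ * (u * t) = u * t * (t * c * t⁻¹)
    rw [hti]
    calc t * c * t * (u * t) = t * (c * (t * u)) * t := by group
      _ = t * (t * u * c) * t := by rw [hc2.eq]
      _ = (t * t) * u * c * t := by group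
      _ = u * (t * t) * c * t := by rw [h.mul_self]; group
      _ = _ := by group
  have hinv : ∀ c : ↥(Subgroup.centralizer {u * t}), orderOf c = 2 →
      orderOf (⟨t * c * t⁻¹, hC c c.2⟩ : ↥(Subgroup.centralizer {u * t})) = 2 := by
    intro c hc
    rw [← Subgroup.orderOf_coe]
    show orderOf (t * (c : G) * t⁻¹) = 2
    rw [IsoInv.orderOf_conj, Subgroup.orderOf_coe, hc]
  have htt : ∀ c : G, t * (t * c * t⁻¹) * t⁻¹ = c := by
    intro c
    rw [hti]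
    calc t * (t * c * t) * t = (t * t) * c * (t * t) := by group
      _ = c := by rw [h.mul_self, one_mul, mul_one]
  let σ : Equiv.Perm {c : ↥(Subgroup.centralizer {u * t}) // orderOf c = 2} :=
    { toFun := fun c => ⟨⟨t * c.1 * t⁻¹, hC _ c.1.2⟩, hinv _ c.2⟩
      invFun := fun c => ⟨⟨t * c.1 * t⁻¹, hC _ c.1.2⟩, hinv _ c.2⟩
      left_inv := fun c => Subtype.ext (Subtype.ext (htt _))
      right_inv := fun c => Subtype.ext (Subtype.ext (htt _)) }
  obtain ⟨⟨c, hc⟩, hσ⟩ := exists_fix_of_odd h1 σ (by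
    ext c
    exact htt _)
  have hct : t * (c : G) * t⁻¹ = c := congrArg Subtype.val (congrArg Subtype.val hσ)
  have hct' : Commute (c : G) t := (comm_of_conj hct).symm
  have hcut : Commute (c : G) (u * t) := Subgroup.mem_centralizer_singleton_iff.mp c.2
  have hcu : Commute (c : G) u := by
    have h3 := hcut.mul_right hct'
    rwa [mul_assoc, h.mul_self, mul_one] at h3
  have hc' : orderOf (c : G) = 2 := by rw [Subgroup.orderOf_coe]; exact hc
  have hc1 : (c : G) ≠ 1 := by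
    intro e
    rw [e, orderOf_one] at hc'
    exact absurd hc' (by decide)
  have hca : (c : G) • a = a := fix_of_comm h hu.2.1 hu.2.2 hu.1 hcu.eq
  exact ta_ne h (fix_of_comm h hc1 (Invol.mul_self hc') hca hct'.symm.eq)

theorem odd_cent [Finite G] (h : IsRankOneSetup G Ω a t Q)
    (h2 : ∃ x y : G, x ≠ 1 ∧ y ≠ 1 ∧ x ≠ y ∧ x * x = 1 ∧ y * y = 1 ∧ x * y = y * x) {u v : G}
    (hu1 : u ≠ 1) (hu2 : u * u = 1) (hv1 : v ≠ 1) (hv2 : v * v = 1) (hx : (u * v) * (u * v) ≠ 1) :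
    Odd (Nat.card ↥(Subgroup.centralizer {u * v})) := by
  obtain ⟨g, hg1, hg2⟩ := prod_conj h h2 hu1 hu2 hv1 hv2 hx
  have h3 := odd_cent_aux h hg1
  rw [← hg2] at h3
  have e : Nat.card ↥(Subgroup.centralizer {u * v}) =
      Nat.card ↥(Subgroup.centralizer {g * u * g⁻¹ * (g * v * g⁻¹)}) := by
    refine Nat.card_congr
      { toFun := fun c => ⟨g * c * g⁻¹, ?_⟩
        invFun := fun c => ⟨g⁻¹ * c * g, ?_⟩
        left_inv := fun c => Subtype.ext (by simp only; group)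
        right_inv := fun c => Subtype.ext (by simp only; group) }
    · apply Subgroup.mem_centralizer_singleton_iff.mpr
      have h4 := Subgroup.mem_centralizer_singleton_iff.mp c.2
      calc g * (c : G) * g⁻¹ * (g * u * g⁻¹ * (g * v * g⁻¹)) = g * (c * (u * v)) * g⁻¹ := by group
        _ = g * (u * v * c) * g⁻¹ := by rw [h4]
        _ = _ := by group
    · apply Subgroup.mem_centralizer_singleton_iff.mpr
      have h4 := Subgroup.mem_centralizer_singleton_iff.mp c.2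
      calc g⁻¹ * (c : G) * g * (u * v) = g⁻¹ * (c * (g * u * g⁻¹ * (g * v * g⁻¹))) * g := by group
        _ = g⁻¹ * (g * u * g⁻¹ * (g * v * g⁻¹) * c) * g := by rw [h4]
        _ = _ := by group
  rw [e]
  exact h3

end Cfsg.Agent.Lib.RankOne
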