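import Mathlib
import Cfsg.Prelude.Def_Transfer
import Cfsg.Prelude.Def_PLocal
import Cfsg.Agent.Lib.ClThree
import Cfsg.Agent.Lib.PGrpE
import Cfsg.Agent.Lib.PGrpI
import Cfsg.Agent.Lib.CoprimeB
import Cfsg.Agent.Lib.ThompsonJ

/-!
`p`-groups of rank two, `p > 3`.
-/

set_option autoImplicit false
set_option linter.unusedSectionVars false
set_option linter.unusedVariables false

namespace Cfsg.Agent.Lib.RankTwo

open Subgroup Cfsg.Agent.Lib Cfsg.Agent.Lib.PGrpA Cfsg.Agent.Lib.PGrpB Cfsg.Agent.Lib.PGrpE Cfsg.Agent.Lib.ClThree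
open scoped commutatorElement

universe u v

variable {G : Type u} [Group G]

/-- exponent `p` and rank at most two -/
theorem card_le_cube [Finite G] {p : ℕ} [hp : Fact p.Prime] (hp2 : p ≠ 2) (hG : IsPGroup p G) (hexp : ∀ x : G, x ^ p = 1)
    (hrk : ∀ E : Subgroup G, Cfsg.IsElementaryAbelian p E → Nat.card E ≤ p ^ 2) : Nat.card G ≤ p ^ 3 := by
  obtain ⟨A, hAn, -, hAc, hAe, hA⟩ := exists_max_normal_elementary p hG hp2 ⊤
  have hAea : Cfsg.IsElementaryAbelian p A := ⟨⟨⟨fun x y => Subtype.ext (hAc x x.2 y y.2)⟩⟩, hAe⟩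
  have hA2 := hrk A hAea
  obtain ⟨a, ha⟩ := IsPGroup.iff_card.mp (hG.to_subgroup A)
  have hcen : centralizer (A : Set G) ≤ A := fun x hx => hA x (mem_top x) (fun b hb => mem_centralizer_iff.mp hx b hb) (hexp x)
  have h1 := index_centralizer_le hG a A hAn ha
  have h2 : A.index ≤ p ^ (a * (a - 1) / 2) := (Nat.le_of_dvd (Nat.pos_of_ne_zero (index_ne_zero_of_finite)) (index_dvd_of_le hcen)).trans h1
  have ha2 : a ≤ 2 := by
    rw [ha] at hA2
    exact (Nat.pow_le_pow_iff_right hp.out.one_lt).mp hA2
  rw [← A.card_mul_index, ha]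
  have hpp := hp.out.pos
  interval_cases a
  · simp at h2
    rw [pow_zero, one_mul]
    exact h2.trans (Nat.one_le_pow _ _ hpp)
  · simp at h2
    calc p ^ 1 * A.index ≤ p ^ 1 * 1 := Nat.mul_le_mul_left _ h2
      _ ≤ p ^ 3 := by rw [mul_one]; exact Nat.pow_le_pow_right hpp (by norm_num)
  · have h3 : 2 * (2 - 1) / 2 = 1 := by norm_num
    rw [h3] at h2
    calc p ^ 2 * A.index ≤ p ^ 2 * p ^ 1 := Nat.mul_le_mul_left _ h2
      _ = p ^ 3 := by rw [← pow_add]

/-- groups of order at most `p⁴` have class at most three -/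
theorem cl3_of_card [Finite G] {p : ℕ} [hp : Fact p.Prime] (hG : IsPGroup p G) (h : Nat.card G ≤ p ^ 4) : Cl3 G := by
  have hpp := hp.out
  obtain ⟨n, hn⟩ := IsPGroup.iff_card.mp hG
  have hn4 : n ≤ 4 := by rw [hn] at h; exact (Nat.pow_le_pow_iff_right hpp.one_lt).mp h
  -- `|G'| ≤ p²`
  have hc : Nat.card (_root_.commutator G) ≤ p ^ 2 := by
    by_cases hn2 : n < 2
    · refine (Subgroup.card_le_card_group _).trans ?_
      rw [hn]; exact Nat.pow_le_pow_right hpp.pos hn2.le
    push Not at hn2
    obtain ⟨C, hC, -, -, hcC⟩ := exists_normal_card hG (bot_le : (⊥ : Subgroup G) ≤ ⊤) 2 (by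
      rw [card_bot, one_mul, card_top, hn]; exact Nat.pow_le_pow_right hpp.pos hn2)
    rw [card_bot, one_mul] at hcC
    have hi : Nat.card (G ⧸ C) = p ^ (n - 2) := by
      have h1 := C.card_mul_index
      rw [hcC, hn] at h1
      have h2 : p ^ n = p ^ 2 * p ^ (n - 2) := by rw [← pow_add]; congr 1; omega
      rw [h2] at h1
      exact Nat.eq_of_mul_eq_mul_left (pow_pos hpp.pos 2) h1
    have hcomm : ∀ x y : G ⧸ C, x * y = y * x := by
      have h3 : n - 2 = 0 ∨ n - 2 = 1 ∨ n - 2 = 2 := by omega
      rcases h3 with h3 | h3 | h3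
      · rw [h3, pow_zero] at hi
        have := (Nat.card_eq_one_iff_unique.mp hi).1
        intro x y; exact Subsingleton.elim _ _
      · rw [h3, pow_one] at hi
        haveI : IsCyclic (G ⧸ C) := isCyclic_of_prime_card hi
        intro x y
        exact (Cyc.isMulCommutative_of_isCyclic (G := G ⧸ C) inferInstance).is_comm.comm x y
      · rw [h3] at hi
        exact IsPGroup.commutative_of_card_eq_prime_sq hi
    have hle : _root_.commutator G ≤ C := by
      rw [_root_.commutator_def, commutator_le]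
      intro x _ y _
      rw [← QuotientGroup.ker_mk' C, MonoidHom.mem_ker, map_commutatorElement, commutatorElement_eq_one_iff_mul_comm]
      exact hcomm _ _
    rw [← hcC]
    exact Subgroup.card_le_of_le hle
  have step : ∀ (N : Subgroup G) [N.Normal], Nat.card (⁅N, (⊤ : Subgroup G)⁆ : Subgroup G) * p ≤ Nat.card N ∨ ⁅N, (⊤ : Subgroup G)⁆ = ⊥ := by
    intro N _
    by_cases hN : N = ⊥
    · right
      rw [hN]; exact commutator_bot_left _
    · left
      have h1 := CoprimeB.commutator_lt_of_pgroup (hG.to_subgroup N) (hG.to_subgroup (⊤ : Subgroup G)) (by rw [normalizer_eq_top]) hN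
      obtain ⟨k, hk⟩ := IsPGroup.iff_card.mp (hG.to_subgroup N)
      obtain ⟨l, hl⟩ := IsPGroup.iff_card.mp (hG.to_subgroup ⁅N, (⊤ : Subgroup G)⁆)
      have h2 := Basic.card_lt_card_of_lt h1
      rw [hk, hl] at h2
      rw [hk, hl, ← pow_succ]
      exact Nat.pow_le_pow_right hpp.pos ((Nat.pow_lt_pow_iff_right hpp.one_lt).mp h2)
  apply cl3_of
  rcases step (_root_.commutator G) with h1 | h1
  · rcases step ⁅_root_.commutator G, (⊤ : Subgroup G)⁆ with h2 | h2
    · have h3 : Nat.card (⁅⁅_root_.commutator G, (⊤ : Subgroup G)⁆, (⊤ : Subgroup G)⁆ : Subgroup G) * p * p ≤ p ^ 2 :=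
        (Nat.mul_le_mul_right p h2).trans (h1.trans hc)
      have h4 : Nat.card (⁅⁅_root_.commutator G, (⊤ : Subgroup G)⁆, (⊤ : Subgroup G)⁆ : Subgroup G) ≤ 1 := by
        have h5 : 0 < p * p := Nat.mul_pos hpp.pos hpp.pos
        refine Nat.le_of_mul_le_mul_right ?_ h5
        rw [one_mul, ← mul_assoc, ← pow_two]; exact h3
      exact card_eq_one.mp (le_antisymm h4 Nat.card_pos)
    · exact h2
  · rw [h1, commutator_bot_left]

/-- S0128 -/
theorem mul_pow_eq_one {p : ℕ} [hp : Fact p.Prime] (h3 : 3 < p) (n : ℕ) : ∀ (R : Type u) [Group R] [Finite R], Nat.card R ≤ n →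
    IsPGroup p R → (∀ E : Subgroup R, Cfsg.IsElementaryAbelian p E → Nat.card E ≤ p ^ 2) → ∀ x y : R, x ^ p = 1 → y ^ p = 1 →
      (x * y) ^ p = 1 := by
  have hpp := hp.out
  have hp2 : p ≠ 2 := by omega
  induction n with
  | zero => intro R _ _ h; have : 0 < Nat.card R := Nat.card_pos; omega
  | succ n ih =>
    intro R _ _ hcard hR hrk x y hx hy
    have hrkH : ∀ H : Subgroup R, ∀ E : Subgroup H, Cfsg.IsElementaryAbelian p E → Nat.card E ≤ p ^ 2 := by
      intro H E hE
      have h1 := hrk _ (ThompsonJ.ea_map hE H.subtype)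
      rwa [ThompsonJ.card_map_inj _ H.subtype_injective] at h1
    have hsub : ∀ H : Subgroup R, H ≠ ⊤ → Nat.card H ≤ n := by
      intro H hH
      have := Basic.card_lt_card_of_lt (lt_top_iff_ne_top.mpr hH)
      rw [card_top] at this
      omega
    by_cases hH : closure {x, y} = (⊤ : Subgroup R)
    · by_cases hcyc : zpowers x = (⊤ : Subgroup R)
      · have hc : Commute x y := by
          have : y ∈ zpowers x := by rw [hcyc]; trivial
          obtain ⟨k, rfl⟩ := this
          exact Commute.self_zpow x k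
        rw [hc.mul_pow, hx, hy, one_mul]
      · obtain ⟨M, hM, hxM⟩ := Basic.exists_le_coatom hcyc
        haveI := hR.isNilpotent
        haveI hMn : M.Normal := Nilp.coatom_normal_of_nilpotent hM
        have hMexp : ∀ g ∈ closure {g : M | g ^ p = 1}, g ^ p = 1 := by
          intro g hg
          induction hg using closure_induction with
          | mem x hx => exact hx
          | one => exact one_pow p
          | mul a b _ _ ha hb => exact ih M (hsub M hM.1) (hR.to_subgroup M) (hrkH M) a b ha hb
          | inv a _ ha => rw [inv_pow, ha, inv_one]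
        set N₀ : Subgroup M := closure {g : M | g ^ p = 1} with hN₀
        haveI hN₀c : N₀.Characteristic := by
          rw [characteristic_iff_map_le]
          intro φ
          rw [hN₀, MonoidHom.map_closure, closure_le]
          rintro _ ⟨g, hg, rfl⟩
          apply Subgroup.subset_closure
          change (φ g) ^ p = 1
          rw [← map_pow, show g ^ p = 1 from hg, map_one]
        set N : Subgroup R := N₀.map M.subtype with hN
        haveI hNn : N.Normal := inferInstance
        have hNexp : ∀ g : N, g ^ p = 1 := by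
          rintro ⟨_, g, hg, rfl⟩
          exact Subtype.ext (show ((g : M) : R) ^ p = 1 from congrArg Subtype.val (hMexp g hg))
        have hxN : x ∈ N := ⟨⟨x, hxM (mem_zpowers x)⟩, Subgroup.subset_closure (Subtype.ext hx), rfl⟩
        have hNc := card_le_cube hp2 (hR.to_subgroup N) hNexp (hrkH N)
        have hsup : N ⊔ zpowers y = ⊤ := by
          rw [eq_top_iff, ← hH, closure_le]
          rintro z (rfl | hz)
          · exact mem_sup_left hxN
          · rw [Set.mem_singleton_iff] at hz; subst hz; exact mem_sup_right (mem_zpowers z)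
        have hNi : N.index ≤ p := by
          rw [← relIndex_top_right, ← hsup, relIndex_sup_left]
          refine (Nat.le_of_dvd Nat.card_pos (relIndex_dvd_card _ _)).trans ?_
          rw [Nat.card_zpowers]
          exact orderOf_le_of_pow_eq_one hpp.pos hy
        have hcl : Cl3 R := by
          refine cl3_of_card hR ?_
          rw [← N.card_mul_index]
          calc Nat.card N * N.index ≤ p ^ 3 * p := Nat.mul_le_mul hNc hNi
            _ = p ^ 4 := by rw [← pow_succ]
        refine hcl.omega hpp h3 (mul_mem (Subgroup.subset_closure hx) (Subgroup.subset_closure hy))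
    · have h1 := ih (closure {x, y}) (hsub _ hH) (hR.to_subgroup _) (hrkH _) ⟨x, Subgroup.subset_closure (by simp)⟩ ⟨y, Subgroup.subset_closure (by simp)⟩
        (Subtype.ext hx) (Subtype.ext hy)
      exact congrArg Subtype.val h1

theorem omega_exp [Finite G] {p : ℕ} [hp : Fact p.Prime] (h3 : 3 < p) (hG : IsPGroup p G)
    (hrk : ∀ E : Subgroup G, Cfsg.IsElementaryAbelian p E → Nat.card E ≤ p ^ 2) {g : G} (hg : g ∈ closure {x : G | x ^ p = 1}) :
    g ^ p = 1 := by
  induction hg using closure_induction with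
  | mem x hx => exact hx
  | one => exact one_pow p
  | mul a b _ _ ha hb => exact mul_pow_eq_one h3 _ G le_rfl hG hrk a b ha hb
  | inv a _ ha => rw [inv_pow, ha, inv_one]

end Cfsg.Agent.Lib.RankTwo
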