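import Cfsg.Agent.Lib.RankTwo
import Cfsg.Prelude.Def_OddOrderLocal
import Cfsg.Prelude.Def_CaseTheorems

/-!
`|Ω₁(R)| ≤ p²`, `p > 3`: quotients, metacyclic groups.
-/

set_option autoImplicit false
set_option linter.unusedSectionVars false
set_option linter.unusedVariables false

namespace Cfsg.Agent.Lib.RankTwoB

open Subgroup Cfsg.Agent.Lib Cfsg.Agent.Lib.PGrpA Cfsg.Agent.Lib.PGrpB Cfsg.Agent.Lib.PGrpE Cfsg.Agent.Lib.ClThree
  Cfsg.Agent.Lib.RankTwo
open scoped commutatorElement

universe u v

variable {G : Type u} [Group G]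

theorem omega_top {p : ℕ} : Cfsg.omegaOne p (⊤ : Subgroup G) = closure {x : G | x ^ p = 1} := by
  unfold Cfsg.omegaOne
  congr 1
  ext x
  simp

/-- `|Ω₁| ≤ p²` -/
def Om (p : ℕ) (G : Type*) [Group G] : Prop := Nat.card (closure {x : G | x ^ p = 1}) ≤ p ^ 2

theorem om_iff {p : ℕ} : Om p G ↔ Nat.card ↥(Cfsg.omegaOne p (⊤ : Subgroup G)) ≤ p ^ 2 := by
  unfold Om; rw [omega_top]

/-- subgroups with `p`-th powers in a central subgroup of order `p` -/
theorem card_le_of_pow [Finite G] {p : ℕ} [hp : Fact p.Prime] (h3 : 3 < p) (hO : Om p G) {T X : Subgroup G} (hT : Nat.card T = p)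
    (hTc : T ≤ center G) (hX : Cl3 X) (hpow : ∀ x ∈ X, x ^ p ∈ T) : Nat.card X ≤ p ^ 3 := by
  let f : X →* T :=
    { toFun := fun x => ⟨(x : G) ^ p, hpow x x.2⟩
      map_one' := by ext; simp
      map_mul' := by
        intro x y
        have hc : ∀ z : X, ∀ g : X, Commute (z ^ p) g := by
          intro z g
          have h1 := mem_center_iff.mp (hTc (hpow z z.2)) (g : G)
          exact Subtype.ext h1.symm
        have h1 := hX.mul_pow_of_central hp.out h3 (hc x) (hc y)
        have h2 : (((x * y : X) : G)) ^ p = (x : G) ^ p * (y : G) ^ p := congrArg Subtype.val h1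
        exact Subtype.ext h2 }
  have h1 : Nat.card f.ker ≤ p ^ 2 := by
    refine le_trans ?_ hO
    rw [← ThompsonJ.card_map_inj X.subtype X.subtype_injective f.ker]
    refine Subgroup.card_le_of_le ?_
    rintro _ ⟨x, hx, rfl⟩
    apply Subgroup.subset_closure
    exact congrArg Subtype.val (MonoidHom.mem_ker.mp hx)
  have h2 : Nat.card f.range ≤ p := by
    rw [← hT]; exact Subgroup.card_le_card_group _
  have h4 : Nat.card X = Nat.card f.ker * Nat.card f.range := by
    rw [← f.ker.card_mul_index, index_ker]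
  rw [h4]
  calc Nat.card f.ker * Nat.card f.range ≤ p ^ 2 * p := Nat.mul_le_mul h1 h2
    _ = p ^ 3 := by rw [← pow_succ]

theorem om_quotient [Finite G] {p : ℕ} [hp : Fact p.Prime] (h3 : 3 < p) (hG : IsPGroup p G) (hO : Om p G) {T : Subgroup G} [T.Normal]
    (hT : Nat.card T = p) (hTc : T ≤ center G) : Om p (G ⧸ T) := by
  have hpp := hp.out
  set π := QuotientGroup.mk' T with hπ
  have hπs : Function.Surjective π := QuotientGroup.mk'_surjective T
  have hcard : ∀ X : Subgroup (G ⧸ T), Nat.card (X.comap π) = Nat.card X * p := by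
    intro X
    rw [Cores.card_comap_eq π hπs X, QuotientGroup.ker_mk', hT, mul_comm]
  have hpow : ∀ X : Subgroup (G ⧸ T), (∀ x ∈ X, x ^ p = 1) → ∀ x ∈ X.comap π, x ^ p ∈ T := by
    intro X hX x hx
    have h1 := hX _ hx
    rw [← map_pow] at h1
    exact (QuotientGroup.eq_one_iff _).mp h1
  have hrk : ∀ E : Subgroup (G ⧸ T), Cfsg.IsElementaryAbelian p E → Nat.card E ≤ p ^ 2 := by
    intro E hE
    rw [ThompsonJ.ea_iff] at hE
    have hcl : Cl3 (E.comap π) := by
      intro x y z
      have h1 : ∀ a b : E.comap π, ⁅a, b⁆ ∈ center (E.comap π) := by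
        intro a b
        rw [mem_center_iff]
        intro w
        have h2 : ⁅(a : G), (b : G)⁆ ∈ T := by
          refine (QuotientGroup.eq_one_iff _).mp ?_
          change π ⁅(a : G), (b : G)⁆ = 1
          rw [map_commutatorElement, commutatorElement_eq_one_iff_mul_comm]
          exact hE.1 _ a.2 _ b.2
        exact Subtype.ext (mem_center_iff.mp (hTc h2) (w : G))
      exact h1 _ _
    have h1 := card_le_of_pow h3 hO hT hTc hcl (hpow E hE.2)
    rw [hcard, pow_succ] at h1
    exact Nat.le_of_mul_le_mul_right h1 hpp.pos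
  have hGq : IsPGroup p (G ⧸ T) := hG.to_quotient T
  set Y : Subgroup (G ⧸ T) := closure {x | x ^ p = 1} with hY
  have hYexp : ∀ y ∈ Y, y ^ p = 1 := fun y hy => omega_exp h3 hGq hrk hy
  have h1 : Nat.card Y ≤ p ^ 3 := by
    refine card_le_cube (by omega) (hGq.to_subgroup Y) (fun x => Subtype.ext (hYexp x x.2)) (fun E hE => ?_)
    have h2 := hrk _ (ThompsonJ.ea_map hE Y.subtype)
    rwa [ThompsonJ.card_map_inj _ Y.subtype_injective] at h2
  have hcl : Cl3 (Y.comap π) := by
    refine cl3_of_card (hG.to_subgroup _) ?_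
    rw [hcard]
    calc Nat.card Y * p ≤ p ^ 3 * p := Nat.mul_le_mul_right _ h1
      _ = p ^ 4 := by rw [← pow_succ]
  have h2 := card_le_of_pow h3 hO hT hTc hcl (hpow Y hYexp)
  rw [hcard, pow_succ] at h2
  exact Nat.le_of_mul_le_mul_right h2 hpp.pos

theorem om_of_injective {H : Type v} [Group H] [Finite H] {p : ℕ} (f : G →* H) (hf : Function.Injective f) (h : Om p H) : Om p G := by
  refine le_trans ?_ h
  rw [← ThompsonJ.card_map_inj f hf (closure {x : G | x ^ p = 1})]
  refine Subgroup.card_le_of_le ?_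
  rw [MonoidHom.map_closure]
  apply Subgroup.closure_mono
  rintro _ ⟨x, hx, rfl⟩
  change f x ^ p = 1
  rw [← map_pow, show x ^ p = 1 from hx, map_one]

/-- S0637 -/
theorem om_of_surjective {p : ℕ} [hp : Fact p.Prime] (h3 : 3 < p) (n : ℕ) : ∀ (G : Type u) [Group G] [Finite G] (H : Type u) [Group H]
    (_ : Nat.card G ≤ n) (_ : IsPGroup p G) (_ : Om p G) (f : G →* H) (_ : Function.Surjective f), Om p H := by
  induction n with
  | zero => intro G _ _ H _ h; have : 0 < Nat.card G := Nat.card_pos; omega
  | succ n ih =>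
    intro G _ _ H _ hcard hG hO f hf
    haveI : Finite H := Finite.of_surjective f hf
    by_cases hk : f.ker = ⊥
    · have hfi : Function.Injective f := (MonoidHom.ker_eq_bot_iff f).mp hk
      let e := MulEquiv.ofBijective f ⟨hfi, hf⟩
      exact om_of_injective e.symm.toMonoidHom e.symm.injective hO
    · haveI := hG.isNilpotent
      have h1 := Nilp.normal_inf_center_ne_bot f.ker hk
      haveI : Nontrivial (f.ker ⊓ center G : Subgroup G) := (nontrivial_iff_ne_bot _).mpr h1
      obtain ⟨k, hk0, hk1⟩ := (IsPGroup.nontrivial_iff_card (hG.to_subgroup (f.ker ⊓ center G))).mp inferInstance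
      obtain ⟨x, hx⟩ := exists_prime_orderOf_dvd_card' (G := (f.ker ⊓ center G : Subgroup G)) p (by rw [hk1]; exact dvd_pow_self p hk0.ne')
      set T := zpowers (x : G) with hT
      have hTle : T ≤ f.ker ⊓ center G := zpowers_le.mpr x.2
      have hTc : T ≤ center G := hTle.trans inf_le_right
      have hTp : Nat.card T = p := by rw [hT, Nat.card_zpowers, orderOf_coe, hx]
      haveI hTn : T.Normal := normal_of_center_card hTc
      have h2 := om_quotient h3 hG hO hTp hTc
      have hlt : Nat.card (G ⧸ T) ≤ n := by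
        have h4 := T.card_mul_index
        rw [hTp, index_eq_card] at h4
        have h5 : 0 < Nat.card (G ⧸ T) := Nat.card_pos
        have h6 : 1 < p := hp.out.one_lt
        nlinarith
      exact ih (G ⧸ T) H hlt (hG.to_quotient T) h2 (QuotientGroup.lift T f (hTle.trans inf_le_left)) (QuotientGroup.lift_surjective_of_surjective _ _ hf _)

/-- a `p`-group with Frattini subgroup of index at most `p` is cyclic -/
theorem isCyclic_of_index [Finite G] {p : ℕ} [hp : Fact p.Prime] (hG : IsPGroup p G) {M : Subgroup G} (hM : ∀ x : G, x ∈ M → x ∈ frattini G)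
    (hi : M.index ≤ p) : IsCyclic G := by
  by_cases htop : M = ⊤
  · have h1 : zpowers (1 : G) ⊔ frattini G = ⊤ := by
      rw [eq_top_iff]
      intro x _
      exact mem_sup_right (hM x (by rw [htop]; trivial))
    have h2 := frattini_nongenerating h1
    exact ⟨1, fun y => by
      have : y ∈ zpowers (1 : G) := by rw [h2]; trivial
      exact this⟩
  · obtain ⟨x, hx⟩ : ∃ x, x ∉ M := by
      by_contra hcon
      push Not at hcon
      exact htop (by rw [eq_top_iff]; exact fun x _ => hcon x)
    have h1 : zpowers x ⊔ M = ⊤ := by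
      have h2 : M < zpowers x ⊔ M := by
        refine lt_of_le_of_ne le_sup_right ?_
        intro h
        apply hx
        rw [h]; exact mem_sup_left (mem_zpowers x)
      -- index
      have h4 : M.relIndex (zpowers x ⊔ M) * (zpowers x ⊔ M).index = M.index := relIndex_mul_index h2.le
      obtain ⟨k, hk⟩ := hG.index (H := M)
      have h5 : M.index ∣ p := by
        rw [hk] at hi ⊢
        have : k ≤ 1 := (Nat.pow_le_pow_iff_right hp.out.one_lt).mp (by rw [pow_one]; exact hi)
        exact (pow_dvd_pow p this).trans (by rw [pow_one])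
      have h6 : M.relIndex (zpowers x ⊔ M) ∣ p := (Dvd.intro _ h4).trans h5
      have h7 : M.relIndex (zpowers x ⊔ M) ≠ 1 := by
        intro h
        exact absurd (relIndex_eq_one.mp h) (not_le_of_gt h2)
      have h8 := (Nat.Prime.eq_one_or_self_of_dvd hp.out _ h6).resolve_left h7
      have h9 : (zpowers x ⊔ M).index ≤ 1 := by
        rw [h8] at h4
        have : p * (zpowers x ⊔ M).index ≤ p * 1 := by rw [h4, mul_one]; exact hi
        exact Nat.le_of_mul_le_mul_left this hp.out.pos
      have h10 : 0 < (zpowers x ⊔ M).index := Nat.pos_of_ne_zero index_ne_zero_of_finite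
      exact index_eq_one.mp (by omega)
    have h2 : zpowers x ⊔ frattini G = ⊤ := by
      rw [eq_top_iff, ← h1]
      exact sup_le_sup_left (fun y hy => hM y hy) _
    have h3 := frattini_nongenerating h2
    exact ⟨x, fun y => by
      have : y ∈ zpowers x := by rw [h3]; trivial
      exact this⟩

end Cfsg.Agent.Lib.RankTwoB
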