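import Cfsg.Agent.Lib.RankTwo
import Cfsg.Agent.Lib.PGrpB
import Cfsg.Prelude.Def_CaseTheorems

/-!
# Automorphisms of `p`-groups of rank at most two

* `dvd_of_aut` : `S0640`.
-/

open Subgroup
open scoped commutatorElement Pointwise

namespace Cfsg.Agent.Lib.RankTwoD

open Cfsg.Agent.Lib.PGrpA Cfsg.Agent.Lib.PGrpB Cfsg.Agent.Lib.RankTwo

variable {G : Type*} [Group G]

theorem fix_mod [Finite G] {q : ℕ} [hq : Fact q.Prime] {a : MulAut G} (ha : a ^ q = 1) (X : Subgroup G)
    (hX : ∀ x ∈ X, a x ∈ X) :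
    ∃ Y : Subgroup G, (∀ x, x ∈ Y ↔ x ∈ X ∧ a x = x) ∧ Nat.card X ≡ Nat.card Y [MOD q] := by
  classical
  refine ⟨X ⊓ MonoidHom.eqLocus (a : G ≃* G).toMonoidHom (MonoidHom.id G), fun x => Iff.rfl, ?_⟩
  set Y := X ⊓ MonoidHom.eqLocus (a : G ≃* G).toMonoidHom (MonoidHom.id G) with hY
  haveI := Fintype.ofFinite X
  let f : Function.End X := fun x => ⟨a x, hX x x.2⟩
  have hfn : ∀ n : ℕ, ∀ x : X, ((f ^ n) x : G) = (a ^ n) x := by
    intro n
    induction n with
    | zero => intro x; rfl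
    | succ n ih =>
      intro x
      rw [pow_succ, pow_succ]
      change ((f ^ n) (f x) : G) = (a ^ n) (a x)
      rw [ih]
  have hf : f ^ q ^ 1 = 1 := by
    rw [pow_one]
    funext x
    apply Subtype.ext
    rw [hfn, ha]
    rfl
  have h1 := Equiv.Perm.card_fixedPoints_modEq hf
  have e : (Function.fixedPoints f) ≃ Y :=
    { toFun := fun x => ⟨x.1, x.1.2, congrArg Subtype.val x.2⟩
      invFun := fun x => ⟨⟨x, x.2.1⟩, Subtype.ext x.2.2⟩
      left_inv := fun x => rfl
      right_inv := fun x => rfl }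
  rw [← Nat.card_eq_fintype_card, ← Nat.card_eq_fintype_card, Nat.card_congr e] at h1
  exact h1

/-- arithmetic of the congruence -/
theorem dvd_pow_sub {p q : ℕ} (hp : p.Prime) (hq : q.Prime) (hqp : q ≠ p) {k j : ℕ} (hjk : j < k)
    (h : p ^ k ≡ p ^ j [MOD q]) : q ∣ p ^ (k - j) - 1 := by
  have h1 := (Nat.modEq_iff_dvd' (Nat.pow_le_pow_right hp.pos hjk.le)).mp h.symm
  have h2 : p ^ k - p ^ j = p ^ j * (p ^ (k - j) - 1) := by
    rw [Nat.mul_sub, mul_one, ← pow_add]
    congr 2
    omega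
  rw [h2] at h1
  refine (Nat.Coprime.dvd_mul_left ?_).mp h1
  exact Nat.Coprime.pow_right _ ((Nat.coprime_primes hq hp).mpr hqp)

/-- S0640 -/
theorem dvd_of_aut [Finite G] {p : ℕ} [hp : Fact p.Prime] (hp2 : p ≠ 2) (hG : IsPGroup p G)
    (hrk : Cfsg.PRankLE p 2 G) {q : ℕ} (hq : q.Prime) (hqp : q ≠ p) (hdvd : q ∣ Nat.card (MulAut G)) :
    q ∣ p ^ 2 - 1 ∧ q < p := by
  have hpp : p.Prime := hp.out
  haveI : Fact q.Prime := ⟨hq⟩
  obtain ⟨a, ha⟩ := exists_prime_orderOf_dvd_card' q hdvd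
  have haq : a ^ q = 1 := by rw [← ha]; exact pow_orderOf_eq_one a
  have hcop : (orderOf a).Coprime p := by rw [ha]; exact (Nat.coprime_primes hq hpp).mpr hqp
  -- enough: `q` divides `p² - 1`
  suffices hmain : q ∣ p ^ 2 - 1 by
    refine ⟨hmain, ?_⟩
    have h1 : p ^ 2 - 1 = (p + 1) * (p - 1) := by
      have := Nat.sq_sub_sq p 1
      rwa [one_pow] at this
    rw [h1] at hmain
    have hp3 : 3 ≤ p := by
      have := hpp.two_le
      omega
    rcases (Nat.Prime.dvd_mul hq).mp hmain with h2 | h2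
    · have h3 := Nat.le_of_dvd (by omega) h2
      have h4 : q ≠ p + 1 := by
        intro h4
        have h5 : 2 ∣ q := by
          rw [h4]
          have := (hpp.odd_of_ne_two hp2)
          exact (Odd.add_one this).two_dvd
        have h6 := (Nat.prime_dvd_prime_iff_eq Nat.prime_two hq).mp h5
        omega
      omega
    · have h3 := Nat.le_of_dvd (by omega) h2
      omega
  obtain ⟨H, hHc, hHC, hH1, hH2⟩ := exists_critical hG
  have hcl := class2_of_critical hH1
  have haH : ∀ x, a x ∈ H ↔ x ∈ H := fun x => map_mem_of_char hHc a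
  -- the subgroup `D` of elements of order dividing `p` in `H`
  obtain ⟨D, hD⟩ : ∃ D : Subgroup G, ∀ x, x ∈ D ↔ x ∈ H ∧ x ^ p = 1 := by
    refine ⟨(hcl.omega hpp hp2).map H.subtype, fun x => ?_⟩
    rw [mem_map]
    constructor
    · rintro ⟨y, hy, rfl⟩
      exact ⟨y.2, congrArg Subtype.val ((hcl.mem_omega hpp hp2).mp hy)⟩
    · rintro ⟨h1, h2⟩
      exact ⟨⟨x, h1⟩, (hcl.mem_omega hpp hp2).mpr (Subtype.ext h2), rfl⟩
  have haD : ∀ x ∈ D, a x ∈ D := by
    intro x hx
    rw [hD] at hx ⊢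
    exact ⟨(haH x).mpr hx.1, by rw [← map_pow, hx.2, map_one]⟩
  -- `a` acts non-trivially on `D`
  have hnt : ¬ ∀ x ∈ D, a x = x := by
    intro hall
    have ha1 : a = 1 := by
      haveI : H.Characteristic := hHc
      refine aut_eq_one_of_critical hG hHC hcop ?_
      let b : MulAut H :=
        { toFun := fun x => ⟨a x, (haH x).mpr x.2⟩
          invFun := fun x => ⟨a⁻¹ x, by
            have := (haH (a⁻¹ (x : G))).mp
            rw [MulAut.apply_inv_self] at this
            exact this x.2⟩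
          left_inv := fun x => Subtype.ext (MulAut.inv_apply_self _ _ _)
          right_inv := fun x => Subtype.ext (MulAut.apply_inv_self _ _ _)
          map_mul' := fun x y => Subtype.ext (map_mul a _ _) }
      have hbn : ∀ n : ℕ, ∀ x : H, (((b ^ n) x : H) : G) = (a ^ n) x := by
        intro n
        induction n with
        | zero => intro x; rfl
        | succ n ih =>
          intro x
          rw [pow_succ, pow_succ]
          change (((b ^ n) (b x) : H) : G) = (a ^ n) (a x)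
          rw [ih]
          rfl
      have hbq : b ^ q = 1 := by
        ext x
        rw [hbn, haq]
        rfl
      have hbo : (orderOf b).Coprime p :=
        Nat.Coprime.coprime_dvd_left (orderOf_dvd_of_pow_eq_one hbq) ((Nat.coprime_primes hq hpp).mpr hqp)
      have hb1 : b = 1 := by
        refine aut_eq_one_of_omega hp2 (hG.to_subgroup H) hbo ?_
        intro x hx
        apply Subtype.ext
        exact hall x ((hD x).mpr ⟨x.2, congrArg Subtype.val hx⟩)
      intro x hx
      have : b ⟨x, hx⟩ = ⟨x, hx⟩ := by rw [hb1]; rfl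
      exact congrArg Subtype.val this
    rw [ha1, orderOf_one] at ha
    exact hq.one_lt.ne ha
  -- the order of `D`
  have hDle : Nat.card D ≤ p ^ 3 := by
    refine card_le_cube hp2 (hG.to_subgroup D) (fun x => Subtype.ext ((hD x).mp x.2).2) ?_
    intro E hE
    have h1 := hrk (E.map D.subtype) ?_ ?_
    · rwa [Nat.card_congr (E.equivMapOfInjective _ D.subtype_injective).toEquiv.symm] at h1
    · haveI : IsMulCommutative E := hE.1
      infer_instance
    · rintro _ ⟨x, -, rfl⟩
      exact ((hD x).mp x.2).2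
  obtain ⟨Y, hY, hYc⟩ := fix_mod haq D haD
  obtain ⟨k, hk⟩ := (hG.to_subgroup D).exists_card_eq
  obtain ⟨j, hj⟩ := (hG.to_subgroup Y).exists_card_eq
  have hYD : Y ≤ D := fun x hx => ((hY x).mp hx).1
  have hjk : j < k := by
    have h1 : Nat.card Y < Nat.card D := by
      refine lt_of_le_of_ne (card_le_of_le hYD) fun h => hnt ?_
      have h2 := eq_of_le_of_card_ge hYD h.ge
      intro x hx
      rw [← h2] at hx
      exact ((hY x).mp hx).2
    rw [hk, hj] at h1
    exact (Nat.pow_lt_pow_iff_right hpp.one_lt).mp h1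
  have hk3 : k ≤ 3 := by
    rw [hk] at hDle
    exact (Nat.pow_le_pow_iff_right hpp.one_lt).mp hDle
  rw [hk, hj] at hYc
  have hdiv := dvd_pow_sub hpp hq hqp hjk hYc
  have hone : q ∣ p ^ 1 - 1 → q ∣ p ^ 2 - 1 := by
    intro h
    rw [pow_one] at h
    have h1 : p ^ 2 - 1 = (p + 1) * (p - 1) := by
      have := Nat.sq_sub_sq p 1
      rwa [one_pow] at this
    rw [h1]
    exact h.mul_left _
  by_cases h1 : k - j = 1
  · rw [h1] at hdiv; exact hone hdiv
  by_cases h2 : k - j = 2
  · rw [h2] at hdiv; exact hdiv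
  have hk' : k = 3 := by omega
  have hj' : j = 0 := by omega
  -- fixed point free on the centre of `D`
  obtain ⟨Z, hZ⟩ : ∃ Z : Subgroup G, ∀ x, x ∈ Z ↔ x ∈ D ∧ ∀ y ∈ D, y * x = x * y :=
    ⟨D ⊓ centralizer (D : Set G), fun x => by rw [mem_inf, mem_centralizer_iff]; rfl⟩
  have haZ : ∀ x ∈ Z, a x ∈ Z := by
    intro x hx
    rw [hZ] at hx ⊢
    refine ⟨haD x hx.1, fun y hy => ?_⟩
    have haDi : a.symm y ∈ D := by
      have h3 : ∀ n : ℕ, (a ^ n) y ∈ D := by
        intro n
        induction n with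
        | zero => exact hy
        | succ n ih => rw [pow_succ']; exact haD _ ih
      have h4 : a.symm y = (a ^ (q - 1)) y := by
        rw [MulEquiv.symm_apply_eq]
        change y = (a * a ^ (q - 1)) y
        rw [mul_pow_sub_one hq.ne_zero, haq]
        rfl
      rw [h4]; exact h3 _
    have h5 := congrArg a (hx.2 _ haDi)
    rw [map_mul, map_mul, MulEquiv.apply_symm_apply] at h5
    exact h5
  obtain ⟨W, hW, hWc⟩ := fix_mod haq Z haZ
  have hW1 : Nat.card W = 1 := by
    rw [hj', pow_zero] at hj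
    have h3 : W ≤ Y := fun x hx => (hY x).mpr ⟨((hZ x).mp ((hW x).mp hx).1).1, ((hW x).mp hx).2⟩
    have h4 := card_dvd_of_le h3
    rw [hj] at h4
    exact Nat.dvd_one.mp h4
  obtain ⟨m, hm⟩ := (hG.to_subgroup Z).exists_card_eq
  have hm2 : m ≤ 2 := by
    have h3 := hrk Z ?_ ?_
    · rw [hm] at h3
      exact (Nat.pow_le_pow_iff_right hpp.one_lt).mp h3
    · refine ⟨⟨fun x y => ?_⟩⟩
      apply Subtype.ext
      exact ((hZ y).mp y.2).2 x ((hZ x).mp x.2).1
    · intro x hx
      exact ((hD x).mp ((hZ x).mp hx).1).2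
  have hm0 : m ≠ 0 := by
    intro h0
    rw [h0, pow_zero] at hm
    haveI : Nontrivial D := by
      rw [← Finite.one_lt_card_iff_nontrivial, hk, hk']
      exact Nat.one_lt_pow (by norm_num) hpp.one_lt
    have h3 := (hG.to_subgroup D).center_nontrivial
    obtain ⟨z, hz⟩ := exists_ne (1 : center D)
    have h4 : ((z : D) : G) ∈ Z := by
      rw [hZ]
      exact ⟨(z : D).2, fun y hy => congrArg Subtype.val (mem_center_iff.mp z.2 ⟨y, hy⟩)⟩
    have h5 : Z = ⊥ := card_eq_one.mp hm
    rw [h5, mem_bot] at h4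
    exact hz (Subtype.ext (Subtype.ext h4))
  rw [hm, hW1] at hWc
  have h6 := dvd_pow_sub hpp hq hqp (j := 0) (Nat.pos_of_ne_zero hm0) (by rw [pow_zero]; exact hWc)
  rw [Nat.sub_zero] at h6
  have h7 : m = 1 ∨ m = 2 := by omega
  rcases h7 with h7 | h7
  · rw [h7] at h6; exact hone h6
  · rw [h7] at h6; exact h6

end Cfsg.Agent.Lib.RankTwoD
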