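import Mathlib
import Cfsg.Agent.Lib.Sc2

/-! Centralisers of involutions of symplectic groups in characteristic two. -/

set_option linter.all false
set_option maxHeartbeats 1000000

namespace Cfsg.Agent.Lib.Sc

open Matrix Module Cfsg.Agent.Lib.Symp Cfsg.Agent.Lib.Tis Cfsg.Agent.Lib.BForm

section

variable {F V : Type*} [Field F] [AddCommGroup V] [Module F V] [FiniteDimensional F V]

/-- isometries -/
abbrev Iso (D : LinearMap.BilinForm F V) := {ψ : V ≃ₗ[F] V // ∀ x y, D (ψ x) (ψ y) = D x y}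

theorem card_Iso_alt [Fintype F] {D : LinearMap.BilinForm F V} (hD : D.Nondegenerate) (hA : D.IsAlt) {r : ℕ} (hr : finrank F V = 2 * r) :
    Nat.card (Iso D) = Fintype.card F ^ (r ^ 2) * ∏ i ∈ Finset.range r, (Fintype.card F ^ (2 * (i + 1)) - 1) := by
  classical
  rw [← card_symplecticGroup (F := F) (m := r)]
  obtain ⟨k, hk⟩ := alt_iso hD (sympBilin_nondegenerate (m := r) (F := F)) hA sympBilin_isAlt (by
    rw [hr, Module.finrank_fintype_fun_eq_card, Fintype.card_sum, Fintype.card_fin]; ring)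
  let E : Matrix.symplecticGroup (Fin r) F → ((Fin r ⊕ Fin r → F) ≃ₗ[F] (Fin r ⊕ Fin r → F)) := fun A =>
    LinearEquiv.ofInjectiveEndo (Matrix.mulVecLin (A : Matrix (Fin r ⊕ Fin r) (Fin r ⊕ Fin r) F)) (mulVec_injective A)
  have hE : ∀ A x, E A x = (A : Matrix (Fin r ⊕ Fin r) (Fin r ⊕ Fin r) F) *ᵥ x := fun A x => rfl
  have hk' : ∀ x y, D (k.symm x) (k.symm y) = Cfsg.sympForm r F x y := by
    intro x y
    rw [← hk, LinearEquiv.apply_symm_apply, LinearEquiv.apply_symm_apply]; rfl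
  refine (Nat.card_congr (Equiv.ofBijective (fun A : Matrix.symplecticGroup (Fin r) F =>
    (⟨(k.trans (E A)).trans k.symm, fun x y => ?_⟩ : Iso D)) ⟨?_, ?_⟩)).symm
  · show D (k.symm (E A (k x))) (k.symm (E A (k y))) = D x y
    rw [hk', hE, hE, preserves]
    exact hk x y
  · intro A B h
    apply Subtype.ext
    apply Matrix.mulVec_injective
    funext x
    have h1 : (k.trans (E A)).trans k.symm = (k.trans (E B)).trans k.symm := congrArg Subtype.val h
    have h2 : k.symm (E A (k (k.symm x))) = k.symm (E B (k (k.symm x))) := congrArg (fun z : V ≃ₗ[F] V => z (k.symm x)) h1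
    rw [LinearEquiv.apply_symm_apply] at h2
    exact k.symm.injective h2
  · rintro ⟨ψ, hψ⟩
    let T : (Fin r ⊕ Fin r → F) →ₗ[F] (Fin r ⊕ Fin r → F) := ((k.symm.trans ψ).trans k : (Fin r ⊕ Fin r → F) ≃ₗ[F] (Fin r ⊕ Fin r → F))
    have hT : ∀ x, T x = k (ψ (k.symm x)) := fun x => rfl
    have hTA : ∀ x, (LinearMap.toMatrix' T) *ᵥ x = T x := fun x => LinearMap.toMatrix'_mulVec T x
    refine ⟨⟨LinearMap.toMatrix' T, (mem_iff_preserves _).mpr (fun u v => ?_)⟩, ?_⟩
    · rw [hTA, hTA, hT, hT]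
      have := hk (ψ (k.symm u)) (ψ (k.symm v))
      rw [sympBilin_apply] at this
      rw [this, hψ, hk']
    · apply Subtype.ext
      apply LinearEquiv.ext
      intro x
      show k.symm ((LinearMap.toMatrix' T) *ᵥ (k x)) = ψ x
      rw [hTA, hT, LinearEquiv.symm_apply_apply, LinearEquiv.symm_apply_apply]

theorem fix_card [Fintype F] {ι : Type*} [Fintype ι] [DecidableEq ι] {D : LinearMap.BilinForm F V} (hD : D.Nondegenerate)
    (hDs : ∀ x y, D x y = D y x) (p : ι → V)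
    (hnd : ∀ c : ι → F, (∀ j, ∑ i, c i * D (p i) (p j) = 0) → c = 0) (halt : ∀ x, (∀ i, D (p i) x = 0) → D x x = 0) {r : ℕ}
    (hr : finrank F V = Fintype.card ι + 2 * r) :
    Nat.card {ψ : V ≃ₗ[F] V // (∀ x y, D (ψ x) (ψ y) = D x y) ∧ ∀ i, ψ (p i) = p i} =
      Fintype.card F ^ (r ^ 2) * ∏ i ∈ Finset.range r, (Fintype.card F ^ (2 * (i + 1)) - 1) := by
  classical
  obtain ⟨hl, hc, hn⟩ := key hD hDs p hnd
  set P := Submodule.span F (Set.range p) with hP
  have hY : (D.restrict (D.orthogonal P)).IsAlt := by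
    rintro ⟨x, hx⟩
    exact halt x (fun i => hx _ (Submodule.subset_span ⟨i, rfl⟩))
  have hd : finrank F (D.orthogonal P) = 2 * r := by
    have e1 := Submodule.finrank_add_eq_of_isCompl hc
    have e3 : finrank F P = Fintype.card ι := finrank_span_eq_card hl
    omega
  rw [← card_Iso_alt hn hY hd]
  have hfix : ∀ ψ : V ≃ₗ[F] V, (∀ i, ψ (p i) = p i) → ∀ x ∈ P, ψ x = x := by
    intro ψ h x hx
    induction hx using Submodule.span_induction with
    | mem y hy => obtain ⟨i, rfl⟩ := hy; exact h i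
    | zero => exact map_zero _
    | add a b _ _ ha hb => rw [map_add, ha, hb]
    | smul c a _ ha => rw [map_smul, ha]
  have hst : ∀ ψ : V ≃ₗ[F] V, (∀ x y, D (ψ x) (ψ y) = D x y) → (∀ i, ψ (p i) = p i) → ∀ x ∈ D.orthogonal P, ψ x ∈ D.orthogonal P := by
    intro ψ h1 h2 x hx a ha
    show D a (ψ x) = 0
    rw [← hfix ψ h2 a ha, h1]
    exact hx a ha
  refine Nat.card_congr (Equiv.ofBijective (fun ψ => (⟨LinearEquiv.ofInjectiveEndo (((ψ.1 : V →ₗ[F] V)).restrict (hst ψ.1 ψ.2.1 ψ.2.2)) ?_, ?_⟩ : Iso (D.restrict (D.orthogonal P)))) ⟨?_, ?_⟩)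
  · intro x y hxy
    apply Subtype.ext
    exact ψ.1.injective (congrArg Subtype.val hxy)
  · intro x y
    exact ψ.2.1 _ _
  · rintro ⟨ψ, h1, h2⟩ ⟨ψ', h1', h2'⟩ h
    apply Subtype.ext
    apply LinearEquiv.ext
    intro x
    have hx : x ∈ P ⊔ D.orthogonal P := by rw [hc.sup_eq_top]; trivial
    obtain ⟨a, ha, b, hb, rfl⟩ := Submodule.mem_sup.mp hx
    have e1 : ψ b = ψ' b := by
      have := congrArg (fun z : Iso (D.restrict (D.orthogonal P)) => ((z.1 ⟨b, hb⟩ : D.orthogonal P) : V)) h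
      exact this
    rw [map_add, map_add, hfix ψ h2 a ha, hfix ψ' h2' a ha, e1]
  · rintro ⟨χ, hχ⟩
    let k : V ≃ₗ[F] V := (Submodule.prodEquivOfIsCompl _ _ hc).symm.trans (((LinearEquiv.refl F P).prodCongr χ).trans (Submodule.prodEquivOfIsCompl _ _ hc))
    have hk : ∀ (x : P) (y : D.orthogonal P), k ((x : V) + (y : V)) = (x : V) + (χ y : V) := by
      intro x y
      show (Submodule.prodEquivOfIsCompl _ _ hc) (((LinearEquiv.refl F P).prodCongr χ) ((Submodule.prodEquivOfIsCompl _ _ hc).symm ((x : V) + (y : V)))) = _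
      have h1 : (Submodule.prodEquivOfIsCompl _ _ hc).symm ((x : V) + (y : V)) = (x, y) := by
        rw [LinearEquiv.symm_apply_eq]; rfl
      rw [h1]
      rfl
    refine ⟨⟨k, ?_, ?_⟩, ?_⟩
    · intro x y
      have hx : x ∈ P ⊔ D.orthogonal P := by rw [hc.sup_eq_top]; trivial
      have hy : y ∈ P ⊔ D.orthogonal P := by rw [hc.sup_eq_top]; trivial
      obtain ⟨a, ha, b, hb, rfl⟩ := Submodule.mem_sup.mp hx
      obtain ⟨a', ha', b', hb', rfl⟩ := Submodule.mem_sup.mp hy
      have e1 := hk ⟨a, ha⟩ ⟨b, hb⟩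
      have e2 := hk ⟨a', ha'⟩ ⟨b', hb'⟩
      dsimp only at e1 e2
      rw [e1, e2]
      simp only [map_add, LinearMap.add_apply]
      have e3 : D (χ ⟨b, hb⟩ : V) (χ ⟨b', hb'⟩ : V) = D b b' := hχ ⟨b, hb⟩ ⟨b', hb'⟩
      have e4 : D a (χ ⟨b', hb'⟩ : V) = 0 := (χ ⟨b', hb'⟩).2 _ ha
      have e5 : D (χ ⟨b, hb⟩ : V) a' = 0 := (hDs _ _).trans ((χ ⟨b, hb⟩).2 _ ha')
      have e6 : D a b' = 0 := hb' _ ha
      have e7 : D b a' = 0 := (hDs _ _).trans (hb _ ha')
      rw [e3, e4, e5, e6, e7]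
    · intro i
      have h1 : p i ∈ P := Submodule.subset_span ⟨i, rfl⟩
      have h2 := hk ⟨p i, h1⟩ 0
      rw [map_zero, ZeroMemClass.coe_zero, add_zero] at h2
      exact h2
    · apply Subtype.ext
      apply LinearEquiv.ext
      rintro ⟨y, hy⟩
      apply Subtype.ext
      show k y = (χ ⟨y, hy⟩ : V)
      have h2 := hk 0 ⟨y, hy⟩
      rw [ZeroMemClass.coe_zero, zero_add, zero_add] at h2
      exact h2

theorem iso_fix_z {D : LinearMap.BilinForm F V} (hD : D.Nondegenerate) [CharP F 2] (hDs : ∀ x y, D x y = D y x) {z : V} (hz : ∀ x, D z x ^ 2 = D x x)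
    {ψ : V ≃ₗ[F] V} (hψ : ∀ x y, D (ψ x) (ψ y) = D x y) : ψ z = z := by
  have h1 : ∀ x, D z (ψ x) = D z x := by
    intro x
    have h2 : D z (ψ x) ^ 2 = D z x ^ 2 := by rw [hz, hz, hψ]
    have h3 : frobenius F 2 (D z (ψ x)) = frobenius F 2 (D z x) := h2
    exact frobenius_inj F 2 h3
  have h4 : ∀ y, D (ψ z - z) y = 0 := by
    intro y
    rw [map_sub, LinearMap.sub_apply]
    have h5 : D (ψ z) y = D z y := by
      have h6 := hψ z (ψ.symm y)
      rw [LinearEquiv.apply_symm_apply] at h6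
      rw [h6]
      have h7 := h1 (ψ.symm y)
      rw [LinearEquiv.apply_symm_apply] at h7
      exact h7.symm
    rw [h5, sub_self]
  exact sub_eq_zero.mp (hD.1 _ h4)

theorem card_Iso_one [Fintype F] [CharP F 2] {D : LinearMap.BilinForm F V} (hD : D.Nondegenerate) (hDs : ∀ x y, D x y = D y x) {z : V} (hz : ∀ x, D z x ^ 2 = D x x)
    (h1 : D z z = 1) {r : ℕ} (hr : finrank F V = 1 + 2 * r) :
    Nat.card (Iso D) = Fintype.card F ^ (r ^ 2) * ∏ i ∈ Finset.range r, (Fintype.card F ^ (2 * (i + 1)) - 1) := by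
  rw [← fix_card hD hDs ![z] (nd_one h1) (fun x hx => by
    have : D z x = 0 := hx 0
    rw [← hz, this]; ring) (r := r) (by rw [hr, Fintype.card_fin])]
  apply Nat.card_congr
  apply Equiv.subtypeEquivRight
  intro ψ
  constructor
  · intro h
    refine ⟨h, fun i => ?_⟩
    fin_cases i
    exact iso_fix_z hD hDs hz h
  · intro h
    exact h.1

theorem card_Iso_two [Fintype F] [CharP F 2] {D : LinearMap.BilinForm F V} (hD : D.Nondegenerate) (hDs : ∀ x y, D x y = D y x) {z : V} (hz : ∀ x, D z x ^ 2 = D x x)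
    (h0 : D z z = 0) {y : V} (hy : D z y = 1) {r : ℕ} (hr : finrank F V = 2 + 2 * r) :
    Nat.card (Iso D) = Fintype.card F ^ (2 * r + 1) * (Fintype.card F ^ (r ^ 2) * ∏ i ∈ Finset.range r, (Fintype.card F ^ (2 * (i + 1)) - 1)) := by
  classical
  haveI : Finite V := Module.finite_of_finite F
  haveI : Finite (V ≃ₗ[F] V) := Finite.of_injective (fun g : V ≃ₗ[F] V => (g : V → V)) DFunLike.coe_injective
  have hyy : ∀ y, D z y = 1 → D y y = 1 := fun y hy => by rw [← hz, hy]; ring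
  have halt : ∀ y x, (∀ i, D ((![z, y] : Fin 2 → V) i) x = 0) → D x x = 0 := fun y x hx => by
    have : D z x = 0 := hx 0
    rw [← hz, this]; ring
  rw [← fix_card hD hDs ![z, y] (nd_two hDs h0 hy (hyy y hy)) (halt y) (r := r) (by rw [hr, Fintype.card_fin])]
  let H : Subgroup (V ≃ₗ[F] V) :=
    { carrier := {ψ | ∀ x y, D (ψ x) (ψ y) = D x y}
      mul_mem' := fun {a b} ha hb x y => by
        show D (a (b x)) (a (b y)) = _
        rw [ha, hb]
      one_mem' := fun x y => rfl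
      inv_mem' := fun {a} ha x y => by
        have h1 := ha (a⁻¹ x) (a⁻¹ y)
        have e1 : ∀ x, a (a⁻¹ x) = x := fun x => a.apply_symm_apply x
        rw [e1, e1] at h1
        exact h1.symm }
  let K : Subgroup H :=
    { carrier := {ψ | ψ.1 y = y}
      mul_mem' := fun {a b} ha hb => by
        show a.1 (b.1 y) = y
        rw [(hb : b.1 y = y), (ha : a.1 y = y)]
      one_mem' := rfl
      inv_mem' := fun {a} ha => by
        show a.1.symm y = y
        rw [LinearEquiv.symm_apply_eq]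
        exact (ha : a.1 y = y).symm }
  have hcount := orbit_count (fun ψ : H => ψ.1 y) K (by
    intro a b
    constructor
    · intro h
      show a.1.symm (b.1 y) = y
      rw [← (h : a.1 y = b.1 y)]
      exact a.1.symm_apply_apply y
    · intro h
      have h' : a.1.symm (b.1 y) = y := h
      rw [LinearEquiv.symm_apply_eq] at h'
      exact h'.symm) (fun v => D z v = 1) (by
    intro v
    constructor
    · intro hv
      obtain ⟨k, hk, hk2⟩ := iso_of_fam hD hD hDs hDs ![z, y] ![z, v] (by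
        intro i j
        fin_cases i <;> fin_cases j
        · rfl
        · exact hv.trans hy.symm
        · exact ((hDs _ _).trans hv).trans ((hDs _ _).trans hy).symm
        · exact (hyy v hv).trans (hyy y hy).symm) (nd_two hDs h0 hy (hyy y hy)) (halt y) (halt v) rfl
      exact ⟨⟨k, hk⟩, hk2 1⟩
    · rintro ⟨ψ, rfl⟩
      have h1 : ψ.1 z = z := iso_fix_z hD hDs hz ψ.2
      show D z (ψ.1 y) = 1
      conv_lhs => rw [← h1]
      rw [ψ.2, hy])
  have e1 : Nat.card (Iso D) = Nat.card H := rfl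
  have e2 : Nat.card {v : V // D z v = 1} = Fintype.card F ^ (2 * r + 1) := by
    have h1 := (D z).finrank_range_add_finrank_ker
    have h2 : LinearMap.range (D z) = ⊤ := LinearMap.range_eq_top.mpr (LinearMap.surjective (by
      intro h
      rw [h] at hy
      exact zero_ne_one hy))
    rw [h2, finrank_top, Module.finrank_self, hr] at h1
    have h3 : finrank F (LinearMap.ker (D z)) = 2 * r + 1 := by omega
    rw [← h3, ← Nat.card_eq_fintype_card (α := F), ← Module.natCard_eq_pow_finrank (K := F) (V := LinearMap.ker (D z))]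
    refine Nat.card_congr
      { toFun := fun v => ⟨v.1 - y, by rw [LinearMap.mem_ker, map_sub, v.2, hy, sub_self]⟩
        invFun := fun w => ⟨w.1 + y, by rw [map_add, (w.2 : D z w.1 = 0), hy, zero_add]⟩
        left_inv := fun v => Subtype.ext (sub_add_cancel _ _)
        right_inv := fun w => Subtype.ext (add_sub_cancel_right _ _) }
  rw [e1, hcount, e2]
  congr 1
  refine Nat.card_congr
    { toFun := fun ψ => ⟨ψ.1.1, ψ.1.2, fun i => by
        fin_cases i
        · exact iso_fix_z hD hDs hz ψ.1.2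
        · exact ψ.2⟩
      invFun := fun ψ => ⟨⟨ψ.1, ψ.2.1⟩, ψ.2.2 1⟩
      left_inv := fun ψ => rfl
      right_inv := fun ψ => rfl }

end

section

variable {F : Type*} [Field F] {m : ℕ}

/-- pointwise stabiliser of a frame -/
def Kf {k : ℕ} (b : Fin k → (Fin m ⊕ Fin m → F)) : Subgroup (Matrix.symplecticGroup (Fin m) F) where
  carrier := {g | ∀ i, (g : Matrix (Fin m ⊕ Fin m) (Fin m ⊕ Fin m) F) *ᵥ b i = b i}
  mul_mem' := by
    intro g h hg hh i
    rw [mul_mulVec, hh i, hg i]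
  one_mem' := fun i => one_mulVec' _
  inv_mem' := by
    intro g hg i
    have := hg i
    conv_lhs => rw [← this]
    exact inv_mulVec_mulVec g _

theorem Kf_iff {k : ℕ} (b : Fin k → (Fin m ⊕ Fin m → F)) (g h : Matrix.symplecticGroup (Fin m) F) :
    (fun i => (g : Matrix (Fin m ⊕ Fin m) (Fin m ⊕ Fin m) F) *ᵥ b i) = (fun i => (h : Matrix (Fin m ⊕ Fin m) (Fin m ⊕ Fin m) F) *ᵥ b i) ↔ g⁻¹ * h ∈ Kf b := by
  constructor
  · intro hgh i
    have h1 : (g : Matrix (Fin m ⊕ Fin m) (Fin m ⊕ Fin m) F) *ᵥ b i = (h : Matrix (Fin m ⊕ Fin m) (Fin m ⊕ Fin m) F) *ᵥ b i := congrFun hgh i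
    rw [mul_mulVec, ← h1, inv_mulVec_mulVec]
  · intro hgh
    funext i
    have h1 := hgh i
    rw [mul_mulVec] at h1
    show (g : Matrix (Fin m ⊕ Fin m) (Fin m ⊕ Fin m) F) *ᵥ b i = (h : Matrix (Fin m ⊕ Fin m) (Fin m ⊕ Fin m) F) *ᵥ b i
    conv_lhs => rw [← h1]
    exact mulVec_inv_mulVec g _

theorem card_Kf [Fintype F] {k : ℕ} (hk : k ≤ m) (b : Fin k → (Fin m ⊕ Fin m → F)) (hb : LinearIndependent F b)
    (hbb : ∀ i j, Cfsg.sympForm m F (b i) (b j) = 0) : Nat.card (Kf b) =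
      Fintype.card F ^ (k * (k + 1) / 2 + 2 * k * (m - k)) * (Fintype.card F ^ ((m - k) ^ 2) * ∏ i ∈ Finset.range (m - k), (Fintype.card F ^ (2 * (i + 1)) - 1)) := by
  classical
  have hG := orbit_count (fun (g : Matrix.symplecticGroup (Fin m) F) (i : Fin k) => (g : Matrix (Fin m ⊕ Fin m) (Fin m ⊕ Fin m) F) *ᵥ b i) (Kf b) (Kf_iff b) (fun v => LinearIndependent F v ∧ ∀ i j, Cfsg.sympForm m F (v i) (v j) = 0) (by
    intro x
    constructor
    · rintro ⟨hx1, hx2⟩
      obtain ⟨g, hg⟩ := frames k b x hb hx1 hbb hx2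
      exact ⟨g, funext hg⟩
    · rintro ⟨g, rfl⟩
      exact ⟨li_map g hb, fun i j => (preserves g _ _).trans (hbb i j)⟩)
  have hcF : Nat.card {v : Fin k → (Fin m ⊕ Fin m → F) // LinearIndependent F v ∧ ∀ i j, Cfsg.sympForm m F (v i) (v j) = 0} = _ := card_Fr (m := m) (F := F) k
  rw [hcF, card_symplecticGroup, ← arith (Fintype.card F) m Fintype.card_pos k hk] at hG
  have hpos : 0 < ∏ i ∈ Finset.range k, (Fintype.card F ^ (2 * m - i) - Fintype.card F ^ i) := by
    rw [← hcF]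
    exact Nat.card_pos_iff.mpr ⟨⟨⟨b, hb, hbb⟩⟩, inferInstance⟩
  exact (Nat.eq_of_mul_eq_mul_left hpos hG).symm

end

end Cfsg.Agent.Lib.Sc
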