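import Mathlib
import Cfsg.Agent.Lib.Sc3

/-! Centralisers of involutions of symplectic groups in characteristic two: orders. -/

set_option linter.all false
set_option maxHeartbeats 1000000

namespace Cfsg.Agent.Lib.Sc

open Matrix Module Cfsg.Agent.Lib.Symp Cfsg.Agent.Lib.Tis Cfsg.Agent.Lib.BForm

variable {F : Type*} [Field F] {m : ℕ} [CharP F 2]

theorem exists_g {t : Matrix.symplecticGroup (Fin m) F} (ht : t * t = 1) {U : Submodule F (Fin m ⊕ Fin m → F)}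
    (hU : IsCompl (LinearMap.ker (Nt t)) U) (φ : U ≃ₗ[F] U)
    (hφ : ∀ x y : U, bt t (φ x : Fin m ⊕ Fin m → F) (φ y : Fin m ⊕ Fin m → F) = bt t (x : Fin m ⊕ Fin m → F) (y : Fin m ⊕ Fin m → F)) :
    ∃ g : Matrix.symplecticGroup (Fin m) F, g * t = t * g ∧
      ∀ x : U, (g : Matrix (Fin m ⊕ Fin m) (Fin m ⊕ Fin m) F) *ᵥ (Nt t (x : Fin m ⊕ Fin m → F)) = Nt t (φ x : Fin m ⊕ Fin m → F) := by
  classical
  let b := Module.finBasis F U
  have hli : ∀ (c : Fin (finrank F U) → U) (hc : LinearIndependent F c), LinearIndependent F (fun i => Nt t (c i : Fin m ⊕ Fin m → F)) := by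
    intro c hc
    have h1 : LinearMap.ker ((Nt t).comp U.subtype) = ⊥ := by
      rw [LinearMap.ker_eq_bot']
      rintro ⟨x, hx⟩ h
      have h3 : x ∈ LinearMap.ker (Nt t) ⊓ U := ⟨h, hx⟩
      rw [hU.inf_eq_bot] at h3
      exact Subtype.ext h3
    exact hc.map' _ h1
  have hl1 := hli b b.linearIndependent
  have hl2 := hli (fun i => φ (b i)) (b.linearIndependent.map' (φ : U →ₗ[F] U) (LinearEquiv.ker φ))
  have hiso : ∀ (x y : Fin m ⊕ Fin m → F), Cfsg.sympForm m F (Nt t x) (Nt t y) = 0 := by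
    intro x y
    rw [adj ht, NN ht]
    have := sympForm_smul_right (0 : F) x (0 : Fin m ⊕ Fin m → F)
    simpa using this
  obtain ⟨g, hg⟩ := frames _ _ _ hl1 hl2 (fun i j => hiso _ _) (fun i j => hiso _ _)
  have hgN : ∀ x : U, (g : Matrix (Fin m ⊕ Fin m) (Fin m ⊕ Fin m) F) *ᵥ (Nt t (x : Fin m ⊕ Fin m → F)) = Nt t (φ x : Fin m ⊕ Fin m → F) := by
    have h1 : (Matrix.mulVecLin (g : Matrix (Fin m ⊕ Fin m) (Fin m ⊕ Fin m) F)).comp ((Nt t).comp U.subtype) =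
        (Nt t).comp (U.subtype.comp (φ : U →ₗ[F] U)) := by
      apply b.ext
      intro i
      exact hg i
    intro x
    exact congrArg (fun z : U →ₗ[F] (Fin m ⊕ Fin m → F) => z x) h1
  have hdec : ∀ v : Fin m ⊕ Fin m → F, ∃ u : U, Nt t v = Nt t (u : Fin m ⊕ Fin m → F) := by
    intro v
    have hy : v ∈ LinearMap.ker (Nt t) ⊔ U := by rw [hU.sup_eq_top]; trivial
    obtain ⟨a, ha, b, hb, rfl⟩ := Submodule.mem_sup.mp hy
    exact ⟨⟨b, hb⟩, by rw [map_add, (ha : Nt t a = 0), zero_add]⟩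
  have hdec' : ∀ v : Fin m ⊕ Fin m → F, ∃ u : U, Nt t v = Nt t (φ u : Fin m ⊕ Fin m → F) := by
    intro v
    obtain ⟨u, hu⟩ := hdec v
    exact ⟨φ.symm u, by rw [LinearEquiv.apply_symm_apply, hu]⟩
  have key : ∀ v, Nt t ((g : Matrix (Fin m ⊕ Fin m) (Fin m ⊕ Fin m) F) *ᵥ v) = (g : Matrix (Fin m ⊕ Fin m) (Fin m ⊕ Fin m) F) *ᵥ (Nt t v) := by
    intro v
    obtain ⟨u, hu⟩ := hdec v
    rw [hu, hgN]
    apply f_ext
    intro x
    obtain ⟨w, hw⟩ := hdec' x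
    rw [adj ht, adj ht, hw, ← hgN w, preserves, ← adj ht v, hu, adj ht, hgN w]
    exact (hφ u w).symm
  refine ⟨g, ?_, hgN⟩
  apply Subtype.ext
  apply Matrix.mulVec_injective
  funext v
  show ((g * t : Matrix.symplecticGroup (Fin m) F) : Matrix (Fin m ⊕ Fin m) (Fin m ⊕ Fin m) F) *ᵥ v = ((t * g : Matrix.symplecticGroup (Fin m) F) : Matrix (Fin m ⊕ Fin m) (Fin m ⊕ Fin m) F) *ᵥ v
  rw [mul_mulVec, mul_mulVec]
  have h1 := key v
  rw [Nt_apply, Nt_apply, Matrix.mulVec_sub] at h1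
  exact (sub_left_injective h1).symm

omit [CharP F 2] in
theorem comm_N {g t : Matrix.symplecticGroup (Fin m) F} (h : g * t = t * g) (v : Fin m ⊕ Fin m → F) :
    Nt t ((g : Matrix (Fin m ⊕ Fin m) (Fin m ⊕ Fin m) F) *ᵥ v) = (g : Matrix (Fin m ⊕ Fin m) (Fin m ⊕ Fin m) F) *ᵥ (Nt t v) := by
  rw [Nt_apply, Nt_apply, Matrix.mulVec_sub, ← mul_mulVec, ← mul_mulVec, h]

theorem le_m {t : Matrix.symplecticGroup (Fin m) F} (ht : t * t = 1) : ((t : Matrix (Fin m ⊕ Fin m) (Fin m ⊕ Fin m) F) - 1).rank ≤ m := by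
  have h1 : LinearMap.range (Nt t) ≤ LinearMap.ker (Nt t) := by
    rintro _ ⟨x, rfl⟩
    exact NN ht x
  have h2 := Submodule.finrank_mono h1
  have h3 := (Nt t).finrank_range_add_finrank_ker
  rw [Module.finrank_fintype_fun_eq_card, Fintype.card_sum, Fintype.card_fin] at h3
  show finrank F (LinearMap.range (Nt t)) ≤ m
  omega

theorem cent_card [Fintype F] {t : Matrix.symplecticGroup (Fin m) F} (ht : t * t = 1) {U : Submodule F (Fin m ⊕ Fin m → F)}
    (hU : IsCompl (LinearMap.ker (Nt t)) U) {k : ℕ} (hk : ((t : Matrix (Fin m ⊕ Fin m) (Fin m ⊕ Fin m) F) - 1).rank = k) :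
    Nat.card (Subgroup.centralizer ({t} : Set (Matrix.symplecticGroup (Fin m) F))) = Nat.card (Iso ((bt t).restrict U)) *
      (Fintype.card F ^ (k * (k + 1) / 2 + 2 * k * (m - k)) * (Fintype.card F ^ ((m - k) ^ 2) * ∏ i ∈ Finset.range (m - k), (Fintype.card F ^ (2 * (i + 1)) - 1))) := by
  classical
  have hkm : k ≤ m := hk ▸ le_m ht
  have hUk : finrank F U = k := (finrank_U hU).trans hk
  subst hUk
  let b := Module.finBasis F U
  let w : Fin (finrank F U) → (Fin m ⊕ Fin m → F) := fun i => Nt t (b i : Fin m ⊕ Fin m → F)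
  have hinj : ∀ x y : U, Nt t (x : Fin m ⊕ Fin m → F) = Nt t (y : Fin m ⊕ Fin m → F) → x = y := by
    intro x y h
    have h3 : (x - y : Fin m ⊕ Fin m → F) ∈ LinearMap.ker (Nt t) ⊓ U := ⟨by show Nt t ((x : Fin m ⊕ Fin m → F) - y) = 0; rw [map_sub, h, sub_self], U.sub_mem x.2 y.2⟩
    rw [hU.inf_eq_bot] at h3
    exact Subtype.ext (sub_eq_zero.mp h3)
  have hw : LinearIndependent F w := by
    have h1 : LinearMap.ker ((Nt t).comp U.subtype) = ⊥ := by
      rw [LinearMap.ker_eq_bot']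
      intro x h
      apply hinj
      rw [ZeroMemClass.coe_zero, map_zero]
      exact h
    exact b.linearIndependent.map' _ h1
  have hiso : ∀ (x y : Fin m ⊕ Fin m → F), Cfsg.sympForm m F (Nt t x) (Nt t y) = 0 := by
    intro x y
    rw [adj ht, NN ht]
    have := sympForm_smul_right (0 : F) x (0 : Fin m ⊕ Fin m → F)
    simpa using this
  set C := Subgroup.centralizer ({t} : Set (Matrix.symplecticGroup (Fin m) F)) with hC
  have hmemC : ∀ g, g ∈ C ↔ g * t = t * g := fun g => Subgroup.mem_centralizer_singleton_iff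
  have hdec : ∀ v : Fin m ⊕ Fin m → F, ∃ u : U, Nt t v = Nt t (u : Fin m ⊕ Fin m → F) := by
    intro v
    have hy : v ∈ LinearMap.ker (Nt t) ⊔ U := by rw [hU.sup_eq_top]; trivial
    obtain ⟨a, ha, b, hb, rfl⟩ := Submodule.mem_sup.mp hy
    exact ⟨⟨b, hb⟩, by rw [map_add, (ha : Nt t a = 0), zero_add]⟩
  have hKC : Kf w ≤ C := by
    intro g hg
    have h1 : ∀ x : U, (g : Matrix (Fin m ⊕ Fin m) (Fin m ⊕ Fin m) F) *ᵥ (Nt t (x : Fin m ⊕ Fin m → F)) = Nt t (x : Fin m ⊕ Fin m → F) := by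
      have h1 : (Matrix.mulVecLin (g : Matrix (Fin m ⊕ Fin m) (Fin m ⊕ Fin m) F)).comp ((Nt t).comp U.subtype) =
          (Nt t).comp U.subtype := by
        apply b.ext
        intro i
        exact hg i
      intro x
      exact congrArg (fun z : U →ₗ[F] (Fin m ⊕ Fin m → F) => z x) h1
    have h2 : ∀ x, (g : Matrix (Fin m ⊕ Fin m) (Fin m ⊕ Fin m) F) *ᵥ (Nt t x) = Nt t x := by
      intro x
      obtain ⟨u, hu⟩ := hdec x
      rw [hu, h1]
    have h3 : ∀ v, Nt t ((g : Matrix (Fin m ⊕ Fin m) (Fin m ⊕ Fin m) F) *ᵥ v) = Nt t v := by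
      intro v
      apply f_ext
      intro x
      rw [adj ht, adj ht]
      conv_lhs => rw [← h2 x]
      exact preserves g _ _
    rw [hmemC]
    apply Subtype.ext
    apply Matrix.mulVec_injective
    funext v
    show ((g * t : Matrix.symplecticGroup (Fin m) F) : Matrix (Fin m ⊕ Fin m) (Fin m ⊕ Fin m) F) *ᵥ v = ((t * g : Matrix.symplecticGroup (Fin m) F) : Matrix (Fin m ⊕ Fin m) (Fin m ⊕ Fin m) F) *ᵥ v
    rw [mul_mulVec, mul_mulVec]
    have h4 := (h3 v).trans (h2 v).symm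
    rw [Nt_apply, Nt_apply, Matrix.mulVec_sub] at h4
    exact (sub_left_injective h4).symm
  have hcount := orbit_count (fun (g : C) (i : Fin (finrank F U)) => (g.1 : Matrix (Fin m ⊕ Fin m) (Fin m ⊕ Fin m) F) *ᵥ w i) ((Kf w).subgroupOf C)
    (by
      intro g h
      rw [Kf_iff, Subgroup.mem_subgroupOf]
      rfl) (fun x => ∃ ψ : Iso ((bt t).restrict U), (fun i => Nt t ((ψ.1 (b i) : U) : Fin m ⊕ Fin m → F)) = x) (by
      intro x
      constructor
      · rintro ⟨ψ, rfl⟩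
        obtain ⟨g, hg, hg2⟩ := exists_g ht hU ψ.1 ψ.2
        exact ⟨⟨g, (hmemC g).mpr hg⟩, funext fun i => hg2 (b i)⟩
      · rintro ⟨⟨g, hg⟩, rfl⟩
        rw [hmemC] at hg
        let e := Submodule.prodEquivOfIsCompl _ _ hU
        let T : U →ₗ[F] U := (LinearMap.snd F (LinearMap.ker (Nt t)) U).comp (e.symm.toLinearMap.comp ((Matrix.mulVecLin (g : Matrix (Fin m ⊕ Fin m) (Fin m ⊕ Fin m) F)).comp U.subtype))
        have hTd : ∀ u : U, ∃ a ∈ LinearMap.ker (Nt t), (g : Matrix (Fin m ⊕ Fin m) (Fin m ⊕ Fin m) F) *ᵥ (u : Fin m ⊕ Fin m → F) = a + (T u : Fin m ⊕ Fin m → F) := by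
          intro u
          refine ⟨_, (e.symm ((g : Matrix (Fin m ⊕ Fin m) (Fin m ⊕ Fin m) F) *ᵥ (u : Fin m ⊕ Fin m → F))).1.2, ?_⟩
          have h1 := e.apply_symm_apply ((g : Matrix (Fin m ⊕ Fin m) (Fin m ⊕ Fin m) F) *ᵥ (u : Fin m ⊕ Fin m → F))
          exact h1.symm
        have hTN : ∀ u : U, Nt t (T u : Fin m ⊕ Fin m → F) = (g : Matrix (Fin m ⊕ Fin m) (Fin m ⊕ Fin m) F) *ᵥ (Nt t (u : Fin m ⊕ Fin m → F)) := by
          intro u
          obtain ⟨a, ha, hau⟩ := hTd u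
          rw [← comm_N hg, hau, map_add, (ha : Nt t a = 0), zero_add]
        have hTi : Function.Injective T := by
          intro u v huv
          apply hinj
          apply mulVec_injective g
          show (g : Matrix (Fin m ⊕ Fin m) (Fin m ⊕ Fin m) F) *ᵥ _ = (g : Matrix (Fin m ⊕ Fin m) (Fin m ⊕ Fin m) F) *ᵥ _
          rw [← hTN, ← hTN, huv]
        refine ⟨⟨LinearEquiv.ofInjectiveEndo T hTi, ?_⟩, ?_⟩
        · intro x y
          show bt t (T x : Fin m ⊕ Fin m → F) (T y : Fin m ⊕ Fin m → F) = bt t (x : Fin m ⊕ Fin m → F) (y : Fin m ⊕ Fin m → F)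
          rw [bt_apply, bt_apply, hTN]
          obtain ⟨a, ha, hau⟩ := hTd x
          rw [← preserves g (x : Fin m ⊕ Fin m → F), hau, sympForm_add_left, ← comm_N hg, ← adj ht a, (ha : Nt t a = 0)]
          have := sympForm_smul_left (0 : F) (0 : Fin m ⊕ Fin m → F) ((g : Matrix (Fin m ⊕ Fin m) (Fin m ⊕ Fin m) F) *ᵥ (y : Fin m ⊕ Fin m → F))
          rw [zero_smul, zero_mul] at this
          rw [this, zero_add]
        · funext i
          exact hTN (b i))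
  rw [Nat.card_congr (Subgroup.subgroupOfEquivOfLe hKC).toEquiv, card_Kf hkm w hw (fun i j => hiso _ _)] at hcount
  rw [hcount]
  congr 1
  refine (Nat.card_congr (Equiv.ofBijective (fun ψ : Iso ((bt t).restrict U) => (⟨fun i => Nt t ((ψ.1 (b i) : U) : Fin m ⊕ Fin m → F), ⟨ψ, rfl⟩⟩ :
    {x // ∃ ψ : Iso ((bt t).restrict U), (fun i => Nt t ((ψ.1 (b i) : U) : Fin m ⊕ Fin m → F)) = x})) ⟨?_, ?_⟩)).symm
  · intro ψ ψ' h
    apply Subtype.ext
    apply LinearEquiv.toLinearMap_injective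
    apply b.ext
    intro i
    exact hinj _ _ (congrFun (congrArg Subtype.val h) i)
  · rintro ⟨x, ψ, hψ⟩
    exact ⟨ψ, Subtype.ext hψ⟩

theorem exp_arith {m s : ℕ} (h : s ≤ m) : 2 * m * s - (3 * s ^ 2 - s) / 2 = s * (s + 1) / 2 + 2 * s * (m - s) := by
  obtain ⟨d, rfl⟩ : ∃ d, m = s + d := ⟨m - s, by omega⟩
  obtain ⟨c, hc⟩ : ∃ c, s * (s + 1) = c + c := Nat.even_mul_succ_self s
  have h1 : s * (s + 1) = s ^ 2 + s := by ring
  have h2 : 2 * (s + d) * s = 2 * s ^ 2 + 2 * (s * d) := by ring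
  have h3 : s + d - s = d := by omega
  have h4 : 2 * s * d = 2 * (s * d) := by ring
  have h5 : s ≤ s ^ 2 := by nlinarith [Nat.zero_le s, Nat.le_self_pow (n := 2) (by norm_num) s]
  rw [h3, h4, h2]
  rw [h1] at hc ⊢
  obtain ⟨f, hf⟩ : ∃ f, s ^ 2 = s + f := ⟨s ^ 2 - s, by omega⟩
  rw [hf] at hc ⊢
  generalize s * d = e
  have h6 : 3 * (s + f) - s = 2 * s + 3 * f := by omega
  rw [h6]
  omega

theorem exp_arith2 {m s : ℕ} (h : s ≤ m) (hs : 1 ≤ s) : 2 * m * s - (3 * s ^ 2 - 3 * s) / 2 - 1 = s * (s + 1) / 2 + 2 * s * (m - s) + (s - 1) := by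
  obtain ⟨d, rfl⟩ : ∃ d, m = s + d := ⟨m - s, by omega⟩
  obtain ⟨c, hc⟩ : ∃ c, s * (s + 1) = c + c := Nat.even_mul_succ_self s
  have h1 : s * (s + 1) = s ^ 2 + s := by ring
  have h2 : 2 * (s + d) * s = 2 * s ^ 2 + 2 * (s * d) := by ring
  have h3 : s + d - s = d := by omega
  have h4 : 2 * s * d = 2 * (s * d) := by ring
  have h5 : s ≤ s ^ 2 := by nlinarith
  rw [h3, h4, h2]
  rw [h1] at hc ⊢
  obtain ⟨f, hf⟩ : ∃ f, s ^ 2 = s + f := ⟨s ^ 2 - s, by omega⟩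
  rw [hf] at hc ⊢
  generalize s * d = e
  have h6 : 3 * (s + f) - 3 * s = 3 * f := by omega
  rw [h6]
  omega

theorem s2680 [Fintype F] {q : ℕ} (hF : Fintype.card F = q) {s : ℕ} (t : Matrix.symplecticGroup (Fin m) F) (ht : t ^ 2 = 1) (hs : ((t : Matrix (Fin m ⊕ Fin m) (Fin m ⊕ Fin m) F) - 1).rank = s) (hodd : Odd s) : Nat.card ↥(Subgroup.centralizer ({t} : Set ↥(Matrix.symplecticGroup (Fin m) F))) = q ^ (2 * m * s - (3 * s ^ 2 - s) / 2) * ((q : ℕ) ^ (((s - 1) / 2) ^ 2) * ∏ i : Fin ((s - 1) / 2), (q ^ (2 * ((i : ℕ) + 1)) - 1)) * ((q : ℕ) ^ ((m - s) ^ 2) * ∏ i : Fin (m - s), (q ^ (2 * ((i : ℕ) + 1)) - 1)) := by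
  subst hF
  have ht' : t * t = 1 := by rw [← pow_two, ht]
  have hsm : s ≤ m := hs ▸ le_m ht'
  obtain ⟨U, hU⟩ := Submodule.exists_isCompl (LinearMap.ker (Nt t))
  have hUs : finrank F U = s := (finrank_U hU).trans hs
  have hnd := restrict_nd ht' hU
  have hsym : ∀ x y : U, (bt t).restrict U x y = (bt t).restrict U y x := fun x y => bt_symm ht' _ _
  have hna : ∃ x : U, (bt t).restrict U x x ≠ 0 := by
    by_contra hcon
    push Not at hcon
    have := even_of_alt hnd hcon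
    rw [hUs] at this
    exact (Nat.not_even_iff_odd.mpr hodd) this
  obtain ⟨z, hz, hzc⟩ := exists_fam hnd hsym hna
  have alt1 : ∀ x, (bt t).restrict U z x = 0 → (bt t).restrict U x x = 0 := fun x h => by rw [← hz, h]; ring
  have h1 : (bt t).restrict U z z = 1 := by
    rcases hzc with h1 | ⟨h1, y, hy⟩
    · exact h1
    · exfalso
      obtain ⟨e, he, hee⟩ := fam_parity hnd hsym ![z, y] (nd_two hsym h1 hy (by rw [← hz, hy]; ring)) (fun x hx => alt1 x (hx 0))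
      rw [Fintype.card_fin, hUs] at hee
      obtain ⟨a, ha⟩ := he
      obtain ⟨b, hb⟩ := hodd
      omega
  have hr : finrank F U = 1 + 2 * ((s - 1) / 2) := by
    obtain ⟨b, hb⟩ := hodd
    omega
  rw [cent_card ht' hU hs, card_Iso_one hnd hsym hz h1 hr, exp_arith hsm,
    Fin.prod_univ_eq_prod_range (fun i => Fintype.card F ^ (2 * (i + 1)) - 1), Fin.prod_univ_eq_prod_range (fun i => Fintype.card F ^ (2 * (i + 1)) - 1)]
  ring

theorem s2681 [Fintype F] {q : ℕ} (hF : Fintype.card F = q) {s : ℕ} (t : Matrix.symplecticGroup (Fin m) F) (ht : t ^ 2 = 1) (ht1 : t ≠ 1) (hs : ((t : Matrix (Fin m ⊕ Fin m) (Fin m ⊕ Fin m) F) - 1).rank = s) (heven : Even s) (halt : ∀ v : Fin m ⊕ Fin m → F, Cfsg.sympForm m F v ((t : Matrix (Fin m ⊕ Fin m) (Fin m ⊕ Fin m) F).mulVec v) = 0) : Nat.card ↥(Subgroup.centralizer ({t} : Set ↥(Matrix.symplecticGroup (Fin m) F))) = q ^ (2 * m * s - (3 * s ^ 2 - s) / 2) * ((q : ℕ) ^ ((s /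 2) ^ 2) * ∏ i : Fin (s / 2), (q ^ (2 * ((i : ℕ) + 1)) - 1)) * ((q : ℕ) ^ ((m - s) ^ 2) * ∏ i : Fin (m - s), (q ^ (2 * ((i : ℕ) + 1)) - 1)) := by
  subst hF
  have ht' : t * t = 1 := by rw [← pow_two, ht]
  have hsm : s ≤ m := hs ▸ le_m ht'
  obtain ⟨U, hU⟩ := Submodule.exists_isCompl (LinearMap.ker (Nt t))
  have hUs : finrank F U = s := (finrank_U hU).trans hs
  have hnd := restrict_nd ht' hU
  have hA : ((bt t).restrict U).IsAlt := (alt_iff ht' hU).mpr halt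
  have hr : finrank F U = 2 * (s / 2) := by
    obtain ⟨b, hb⟩ := heven
    omega
  rw [cent_card ht' hU hs, card_Iso_alt hnd hA hr, exp_arith hsm,
    Fin.prod_univ_eq_prod_range (fun i => Fintype.card F ^ (2 * (i + 1)) - 1), Fin.prod_univ_eq_prod_range (fun i => Fintype.card F ^ (2 * (i + 1)) - 1)]
  ring

theorem s2682 [Fintype F] {q : ℕ} (hF : Fintype.card F = q) {s : ℕ} (t : Matrix.symplecticGroup (Fin m) F) (ht : t ^ 2 = 1) (hs : ((t : Matrix (Fin m ⊕ Fin m) (Fin m ⊕ Fin m) F) - 1).rank = s) (heven : Even s) (hna : ∃ v : Fin m ⊕ Fin m → F, Cfsg.sympForm m F v ((t : Matrix (Fin m ⊕ Fin m) (Fin m ⊕ Fin m) F).mulVec v) ≠ 0) : Nat.card ↥(Subgroup.centralizer ({t} : Set ↥(Matrix.symplecticGroup (Fin m) F))) = q ^ (2 * m * s - (3 * s ^ 2 - 3 * s) / 2 - 1) * ((q : ℕ) ^ (((s - 2) / 2) ^ 2) * ∏ i : Fin ((s - 2) / 2), (q ^ (2 * ((i : ℕ) + 1)) - 1)) * ((q : ℕ) ^ ((m - s) ^ 2) * ∏ i : Fin (m - s), (q ^ (2 * ((i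 : ℕ) + 1)) - 1)) := by
  subst hF
  have ht' : t * t = 1 := by rw [← pow_two, ht]
  have hsm : s ≤ m := hs ▸ le_m ht'
  obtain ⟨U, hU⟩ := Submodule.exists_isCompl (LinearMap.ker (Nt t))
  have hUs : finrank F U = s := (finrank_U hU).trans hs
  have hnd := restrict_nd ht' hU
  have hsym : ∀ x y : U, (bt t).restrict U x y = (bt t).restrict U y x := fun x y => bt_symm ht' _ _
  have hna' : ∃ x : U, (bt t).restrict U x x ≠ 0 := by
    by_contra hcon
    push Not at hcon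
    obtain ⟨v, hv⟩ := hna
    exact hv ((alt_iff ht' hU).mp hcon v)
  obtain ⟨z, hz, hzc⟩ := exists_fam hnd hsym hna'
  have alt1 : ∀ x, (bt t).restrict U z x = 0 → (bt t).restrict U x x = 0 := fun x h => by rw [← hz, h]; ring
  rcases hzc with h1 | ⟨h1, y, hy⟩
  · exfalso
    obtain ⟨e, he, hee⟩ := fam_parity hnd hsym ![z] (nd_one h1) (fun x hx => alt1 x (hx 0))
    rw [Fintype.card_fin, hUs] at hee
    obtain ⟨a, ha⟩ := he
    obtain ⟨b, hb⟩ := heven
    omega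
  · obtain ⟨e, he, hee⟩ := fam_parity hnd hsym ![z, y] (nd_two hsym h1 hy (by rw [← hz, hy]; ring)) (fun x hx => alt1 x (hx 0))
    rw [Fintype.card_fin, hUs] at hee
    have hs2 : 2 ≤ s := by omega
    have hr : finrank F U = 2 + 2 * ((s - 2) / 2) := by
      obtain ⟨b, hb⟩ := heven
      omega
    have hr' : 2 * ((s - 2) / 2) + 1 = s - 1 := by
      obtain ⟨b, hb⟩ := heven
      omega
    rw [cent_card ht' hU hs, card_Iso_two hnd hsym hz h1 hy hr, exp_arith2 hsm (by omega), hr',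
      Fin.prod_univ_eq_prod_range (fun i => Fintype.card F ^ (2 * (i + 1)) - 1), Fin.prod_univ_eq_prod_range (fun i => Fintype.card F ^ (2 * (i + 1)) - 1),
      pow_add _ (s * (s + 1) / 2 + 2 * s * (m - s)) (s - 1)]
    ring

end Cfsg.Agent.Lib.Sc
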