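import Mathlib
import Cfsg.Agent.Lib.Sc2

/-! The number of classes of involutions of symplectic groups in characteristic two. -/

set_option linter.all false
set_option maxHeartbeats 1000000

namespace Cfsg.Agent.Lib.Sc

open Matrix Module Cfsg.Agent.Lib.Symp Cfsg.Agent.Lib.Tis

variable {F : Type*} [Field F] {m : ℕ}

/-- matrix of `t - 1` -/
def Dm (d : Fin m → F) (τ : Equiv.Perm (Fin m)) : Matrix (Fin m ⊕ Fin m) (Fin m ⊕ Fin m) F :=
  (Matrix.diagonal (Sum.elim d (fun _ => 0))).submatrix (Equiv.refl _) ((Equiv.sumComm _ _).trans (Equiv.sumCongr τ (Equiv.refl _)))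

theorem Dm_mulVec (d : Fin m → F) (τ : Equiv.Perm (Fin m)) (hτ : ∀ i, τ (τ i) = i) (x : Fin m ⊕ Fin m → F) :
    Dm d τ *ᵥ x = Sum.elim (fun i => d i * x (Sum.inr (τ i))) (fun _ => 0) := by
  funext i
  rcases i with i | i
  · show ∑ j, Dm d τ (Sum.inl i) j * x j = d i * x (Sum.inr (τ i))
    rw [Fintype.sum_sum_type]
    have h1 : ∀ j : Fin m, Dm d τ (Sum.inl i) (Sum.inl j) * x (Sum.inl j) = 0 := by
      intro j
      have : Dm d τ (Sum.inl i) (Sum.inl j) = 0 := by
        show Matrix.diagonal (Sum.elim d (fun _ => 0)) (Sum.inl i) (Sum.inr j) = 0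
        exact Matrix.diagonal_apply_ne _ (by simp)
      rw [this, zero_mul]
    rw [Finset.sum_congr rfl (fun j _ => h1 j), Finset.sum_const_zero, zero_add, Finset.sum_eq_single (τ i)]
    · have : Dm d τ (Sum.inl i) (Sum.inr (τ i)) = d i := by
        show Matrix.diagonal (Sum.elim d (fun _ => 0)) (Sum.inl i) (Sum.inl (τ (τ i))) = d i
        rw [hτ, Matrix.diagonal_apply_eq]; rfl
      rw [this]
    · intro j _ hj
      have : Dm d τ (Sum.inl i) (Sum.inr j) = 0 := by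
        show Matrix.diagonal (Sum.elim d (fun _ => 0)) (Sum.inl i) (Sum.inl (τ j)) = 0
        apply Matrix.diagonal_apply_ne
        intro h
        apply hj
        rw [Sum.inl.inj h, hτ]
      rw [this, zero_mul]
    · intro h; exact absurd (Finset.mem_univ _) h
  · show ∑ j, Dm d τ (Sum.inr i) j * x j = 0
    apply Finset.sum_eq_zero
    intro j _
    have : Dm d τ (Sum.inr i) j = 0 := by
      show Matrix.diagonal (Sum.elim d (fun _ => 0)) (Sum.inr i) _ = 0
      rw [Matrix.diagonal_apply]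
      split_ifs <;> rfl
    rw [this, zero_mul]

theorem Dm_rank (d : Fin m → F) (τ : Equiv.Perm (Fin m)) : (Dm d τ).rank = Nat.card {i // d i ≠ 0} := by
  classical
  unfold Dm
  rw [Matrix.rank_submatrix, Matrix.rank_diagonal, ← Nat.card_eq_fintype_card]
  refine Nat.card_congr
    { toFun := fun x => ⟨match x with | ⟨Sum.inl i, _⟩ => i | ⟨Sum.inr i, h⟩ => i, ?_⟩
      invFun := fun i => ⟨Sum.inl i.1, i.2⟩
      left_inv := ?_
      right_inv := fun i => rfl }
  · rcases x with ⟨x | x, hx⟩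
    · exact hx
    · exact absurd rfl hx
  · rintro ⟨x | x, hx⟩
    · rfl
    · exact absurd rfl hx

theorem exists_inv (d : Fin m → F) (τ : Equiv.Perm (Fin m)) (hτ : ∀ i, τ (τ i) = i) (hd : ∀ i, d (τ i) = d i) [CharP F 2] :
    ∃ t : Matrix.symplecticGroup (Fin m) F, t * t = 1 ∧ ((t : Matrix (Fin m ⊕ Fin m) (Fin m ⊕ Fin m) F) - 1).rank = Nat.card {i // d i ≠ 0} ∧
      ∀ v, Cfsg.sympForm m F v ((t : Matrix (Fin m ⊕ Fin m) (Fin m ⊕ Fin m) F) *ᵥ v) = ∑ i, d i * (v (Sum.inr i) * v (Sum.inr (τ i))) := by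
  classical
  have hf : ∀ u v, Cfsg.sympForm m F u (Dm d τ *ᵥ v) = ∑ i, d i * (u (Sum.inr i) * v (Sum.inr (τ i))) := by
    intro u v
    rw [Dm_mulVec d τ hτ, sympForm_eq]
    apply Finset.sum_congr rfl
    intro i _
    simp only [Sum.elim_inl, Sum.elim_inr]
    ring
  have hsym : ∀ u v, Cfsg.sympForm m F u (Dm d τ *ᵥ v) = Cfsg.sympForm m F v (Dm d τ *ᵥ u) := by
    intro u v
    rw [hf, hf, ← Equiv.sum_comp τ]
    apply Finset.sum_congr rfl
    intro i _
    rw [hd, hτ]; ring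
  have hNN : ∀ u v, Cfsg.sympForm m F (Dm d τ *ᵥ u) (Dm d τ *ᵥ v) = 0 := by
    intro u v
    rw [hf]
    apply Finset.sum_eq_zero
    intro i _
    rw [Dm_mulVec d τ hτ]
    simp
  have hNx : ∀ x, Dm d τ *ᵥ (Dm d τ *ᵥ x) = 0 := by
    intro x
    rw [Dm_mulVec d τ hτ, Dm_mulVec d τ hτ]
    funext i
    rcases i with i | i
    · simp
    · rfl
  have happ : ∀ x, (1 + Dm d τ) *ᵥ x = x + Dm d τ *ᵥ x := fun x => by rw [Matrix.add_mulVec, Matrix.one_mulVec]
  have hmem : 1 + Dm d τ ∈ Matrix.symplecticGroup (Fin m) F := by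
    rw [mem_iff_preserves]
    intro u v
    rw [happ, happ, sympForm_add_left, sympForm_add_right, sympForm_add_right, hNN, hsym u v, sympForm_swap v (Dm d τ *ᵥ u)]
    ring
  refine ⟨⟨1 + Dm d τ, hmem⟩, ?_, ?_, ?_⟩
  · apply Subtype.ext
    apply Matrix.mulVec_injective
    funext x
    show ((1 + Dm d τ) * (1 + Dm d τ)) *ᵥ x = (1 : Matrix _ _ F) *ᵥ x
    rw [← Matrix.mulVec_mulVec, happ, happ, Matrix.mulVec_add, hNx, add_zero, Matrix.one_mulVec, add_assoc]
    have : Dm d τ *ᵥ x + Dm d τ *ᵥ x = 0 := funext fun i => CharTwo.add_self_eq_zero _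
    rw [this, add_zero]
  · show (1 + Dm d τ - 1).rank = _
    rw [add_sub_cancel_left, Dm_rank]
  · intro v
    show Cfsg.sympForm m F v ((1 + Dm d τ) *ᵥ v) = _
    rw [happ, sympForm_add_right, sympForm_self, zero_add, hf]

/-- pairing of the first `2r` indices -/
def tau (r : ℕ) (h : 2 * r ≤ m) (i : Fin m) : Fin m :=
  if h1 : i.1 < 2 * r then (if h2 : i.1 % 2 = 0 then ⟨i.1 + 1, by omega⟩ else ⟨i.1 - 1, by omega⟩) else i

theorem tau_tau (r : ℕ) (h : 2 * r ≤ m) (i : Fin m) : tau r h (tau r h i) = i := by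
  apply Fin.ext
  unfold tau
  by_cases h1 : i.1 < 2 * r
  · by_cases h2 : i.1 % 2 = 0
    · rw [dif_pos h1, dif_pos h2, dif_pos (by show i.1 + 1 < 2 * r; omega), dif_neg (by show ¬ (i.1 + 1) % 2 = 0; omega)]
      show i.1 + 1 - 1 = i.1
      omega
    · rw [dif_pos h1, dif_neg h2, dif_pos (by show i.1 - 1 < 2 * r; omega), dif_pos (by show (i.1 - 1) % 2 = 0; omega)]
      show i.1 - 1 + 1 = i.1
      omega
  · rw [dif_neg h1, dif_neg h1]

theorem tau_lt (r : ℕ) (h : 2 * r ≤ m) (i : Fin m) : (tau r h i).1 < 2 * r ↔ i.1 < 2 * r := by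
  unfold tau
  by_cases h1 : i.1 < 2 * r
  · by_cases h2 : i.1 % 2 = 0
    · rw [dif_pos h1, dif_pos h2]
      show i.1 + 1 < 2 * r ↔ _
      omega
    · rw [dif_pos h1, dif_neg h2]
      show i.1 - 1 < 2 * r ↔ _
      omega
  · rw [dif_neg h1]

theorem tau_ne (r : ℕ) (h : 2 * r ≤ m) (i : Fin m) (h1 : i.1 < 2 * r) : tau r h i ≠ i := by
  unfold tau
  intro he
  have := congrArg Fin.val he
  by_cases h2 : i.1 % 2 = 0
  · rw [dif_pos h1, dif_pos h2] at this
    change i.1 + 1 = i.1 at this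
    omega
  · rw [dif_pos h1, dif_neg h2] at this
    change i.1 - 1 = i.1 at this
    omega

theorem card_lt (F : Type*) [Field F] {k : ℕ} (h : k ≤ m) : Nat.card {i : Fin m // (if i.1 < k then (1 : F) else 0) ≠ 0} = k := by
  have h1 : Nat.card {i : Fin m // (if i.1 < k then (1 : F) else 0) ≠ 0} = Nat.card (Fin k) := by
    refine Nat.card_congr
      { toFun := fun i => ⟨i.1.1, by
          by_contra hc
          apply i.2
          rw [if_neg hc]⟩
        invFun := fun j => ⟨⟨j.1, by omega⟩, by rw [if_pos j.2]; exact one_ne_zero⟩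
        left_inv := fun i => rfl
        right_inv := fun j => rfl }
  rw [h1, Nat.card_fin]

theorem exists_nonalt (F : Type*) [Field F] [CharP F 2] {k : ℕ} (hk : 1 ≤ k) (hkm : k ≤ m) :
    ∃ t : Matrix.symplecticGroup (Fin m) F, t * t = 1 ∧ ((t : Matrix (Fin m ⊕ Fin m) (Fin m ⊕ Fin m) F) - 1).rank = k ∧
      ¬ ∀ v, Cfsg.sympForm m F v ((t : Matrix (Fin m ⊕ Fin m) (Fin m ⊕ Fin m) F) *ᵥ v) = 0 := by
  obtain ⟨t, h1, h2, h3⟩ := exists_inv (fun i : Fin m => if i.1 < k then (1 : F) else 0) (Equiv.refl _) (fun i => rfl) (fun i => rfl)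
  refine ⟨t, h1, h2.trans (card_lt F hkm), ?_⟩
  intro h
  have h4 := h (Pi.single (Sum.inr ⟨0, by omega⟩) 1)
  rw [h3, Finset.sum_eq_single (⟨0, by omega⟩ : Fin m)] at h4
  · rw [if_pos (by show 0 < k; omega)] at h4
    simp at h4
  · intro j _ hj
    have : (Pi.single (Sum.inr ⟨0, by omega⟩) (1 : F) : Fin m ⊕ Fin m → F) (Sum.inr j) = 0 := by
      rw [Pi.single_apply, if_neg]
      intro h; exact hj (Sum.inr.inj h)
    rw [this, zero_mul, mul_zero]
  · intro h; exact absurd (Finset.mem_univ _) h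

theorem exists_alt (F : Type*) [Field F] [CharP F 2] {r : ℕ} (hr : 2 * r ≤ m) :
    ∃ t : Matrix.symplecticGroup (Fin m) F, t * t = 1 ∧ ((t : Matrix (Fin m ⊕ Fin m) (Fin m ⊕ Fin m) F) - 1).rank = 2 * r ∧
      ∀ v, Cfsg.sympForm m F v ((t : Matrix (Fin m ⊕ Fin m) (Fin m ⊕ Fin m) F) *ᵥ v) = 0 := by
  let τ : Equiv.Perm (Fin m) := ⟨tau r hr, tau r hr, tau_tau r hr, tau_tau r hr⟩
  have hτ : ∀ i, τ i = tau r hr i := fun i => rfl
  obtain ⟨t, h1, h2, h3⟩ := exists_inv (fun i : Fin m => if i.1 < 2 * r then (1 : F) else 0) τ (tau_tau r hr) (fun i => by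
    simp only [hτ, tau_lt])
  refine ⟨t, h1, h2.trans (card_lt F hr), ?_⟩
  intro v
  rw [h3]
  apply Finset.sum_involution (fun i _ => τ i)
  · intro i _
    simp only [hτ, tau_lt, tau_tau]
    rw [mul_comm (v (Sum.inr (tau r hr i)))]
    exact CharTwo.add_self_eq_zero _
  · intro i _ hne
    rw [hτ]
    apply tau_ne
    by_contra hc
    apply hne
    rw [if_neg hc, zero_mul]
  · intro i _
    exact Finset.mem_univ _
  · intro i _
    exact tau_tau r hr i

theorem s2593 [Fintype F] [CharP F 2] (hm : 1 ≤ m) : Nat.card {C : ConjClasses ↥(Matrix.symplecticGroup (Fin m) F) // ∃ g : Matrix.symplecticGroup (Fin m) F, ConjClasses.mk g = C ∧ orderOf g = 2} = m + m / 2 := by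
  classical
  have hA : ∀ i : Fin m, ∃ t : Matrix.symplecticGroup (Fin m) F, t * t = 1 ∧ ((t : Matrix (Fin m ⊕ Fin m) (Fin m ⊕ Fin m) F) - 1).rank = i.1 + 1 ∧
      ¬ ∀ v, Cfsg.sympForm m F v ((t : Matrix (Fin m ⊕ Fin m) (Fin m ⊕ Fin m) F) *ᵥ v) = 0 := fun i => exists_nonalt F (by omega) (by omega)
  have hB : ∀ j : Fin (m / 2), ∃ t : Matrix.symplecticGroup (Fin m) F, t * t = 1 ∧ ((t : Matrix (Fin m ⊕ Fin m) (Fin m ⊕ Fin m) F) - 1).rank = 2 * (j.1 + 1) ∧
      ∀ v, Cfsg.sympForm m F v ((t : Matrix (Fin m ⊕ Fin m) (Fin m ⊕ Fin m) F) *ᵥ v) = 0 := fun j => exists_alt F (by omega)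
  choose a ha1 ha2 ha3 using hA
  choose b hb1 hb2 hb3 using hB
  have hrank1 : (((1 : Matrix.symplecticGroup (Fin m) F) : Matrix (Fin m ⊕ Fin m) (Fin m ⊕ Fin m) F) - 1).rank = 0 := by
    have : ((1 : Matrix.symplecticGroup (Fin m) F) : Matrix (Fin m ⊕ Fin m) (Fin m ⊕ Fin m) F) - 1 = 0 := sub_self _
    rw [this, Matrix.rank_zero]
  have hord : ∀ t : Matrix.symplecticGroup (Fin m) F, t * t = 1 → ((t : Matrix (Fin m ⊕ Fin m) (Fin m ⊕ Fin m) F) - 1).rank ≠ 0 → orderOf t = 2 := by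
    intro t h1 h2
    apply orderOf_eq_prime
    · rw [pow_two, h1]
    · intro h
      apply h2
      rw [h, hrank1]
  have hconjT : ∀ x y : Matrix.symplecticGroup (Fin m) F, IsConj x y → (∀ v, Cfsg.sympForm m F v ((x : Matrix (Fin m ⊕ Fin m) (Fin m ⊕ Fin m) F) *ᵥ v) = 0) →
      ∀ v, Cfsg.sympForm m F v ((y : Matrix (Fin m ⊕ Fin m) (Fin m ⊕ Fin m) F) *ᵥ v) = 0 := by
    intro x y h hx v
    obtain ⟨g, rfl⟩ := isConj_iff.mp h
    have := hx (((g⁻¹ : Matrix.symplecticGroup (Fin m) F) : Matrix (Fin m ⊕ Fin m) (Fin m ⊕ Fin m) F) *ᵥ v)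
    rw [← preserves g, mulVec_inv_mulVec, ← mul_mulVec, ← mul_mulVec] at this
    exact this
  have e : (Fin m ⊕ Fin (m / 2)) ≃ {C : ConjClasses ↥(Matrix.symplecticGroup (Fin m) F) // ∃ g : Matrix.symplecticGroup (Fin m) F, ConjClasses.mk g = C ∧ orderOf g = 2} := by
    refine Equiv.ofBijective (Sum.elim (fun i => ⟨ConjClasses.mk (a i), a i, rfl, hord _ (ha1 i) (by rw [ha2]; omega)⟩)
      (fun j => ⟨ConjClasses.mk (b j), b j, rfl, hord _ (hb1 j) (by rw [hb2]; omega)⟩)) ⟨?_, ?_⟩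
    · rintro (i | j) (i' | j') h
      · have h1 := ConjClasses.mk_eq_mk_iff_isConj.mp (congrArg Subtype.val h)
        have h2 := conj_rank h1
        rw [ha2, ha2] at h2
        congr 1
        apply Fin.ext
        omega
      · exfalso
        have h1 := ConjClasses.mk_eq_mk_iff_isConj.mp (congrArg Subtype.val h)
        exact ha3 i (hconjT _ _ h1.symm (hb3 j'))
      · exfalso
        have h1 := ConjClasses.mk_eq_mk_iff_isConj.mp (congrArg Subtype.val h)
        exact ha3 i' (hconjT _ _ h1 (hb3 j))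
      · have h1 := ConjClasses.mk_eq_mk_iff_isConj.mp (congrArg Subtype.val h)
        have h2 := conj_rank h1
        rw [hb2, hb2] at h2
        congr 1
        apply Fin.ext
        omega
    · rintro ⟨C, g, rfl, hg⟩
      have hgg : g * g = 1 := by rw [← pow_two, ← hg, pow_orderOf_eq_one]
      have hle : ((g : Matrix (Fin m ⊕ Fin m) (Fin m ⊕ Fin m) F) - 1).rank ≤ m := by
        have h1 : LinearMap.range (Nt g) ≤ LinearMap.ker (Nt g) := by
          rintro _ ⟨x, rfl⟩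
          exact NN hgg x
        have h2 := Submodule.finrank_mono h1
        have h3 := (Nt g).finrank_range_add_finrank_ker
        rw [Module.finrank_fintype_fun_eq_card, Fintype.card_sum, Fintype.card_fin] at h3
        show finrank F (LinearMap.range (Nt g)) ≤ m
        omega
      have hne : ((g : Matrix (Fin m ⊕ Fin m) (Fin m ⊕ Fin m) F) - 1).rank ≠ 0 := by
        intro h
        have h1 : ((g : Matrix (Fin m ⊕ Fin m) (Fin m ⊕ Fin m) F) - 1) = 0 := by
          apply Matrix.mulVec_injective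
          funext x
          have h2 : finrank F (LinearMap.range (Nt g)) = 0 := h
          have h3 : LinearMap.range (Nt g) = ⊥ := Submodule.finrank_eq_zero.mp h2
          have h4 : Nt g x ∈ LinearMap.range (Nt g) := ⟨x, rfl⟩
          rw [h3] at h4
          rw [Matrix.zero_mulVec]
          exact h4
        have h2 : g = 1 := Subtype.ext (sub_eq_zero.mp h1)
        rw [h2, orderOf_one] at hg
        omega
      by_cases hT : ∀ v, Cfsg.sympForm m F v ((g : Matrix (Fin m ⊕ Fin m) (Fin m ⊕ Fin m) F) *ᵥ v) = 0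
      · obtain ⟨r, hr⟩ := even_rank hgg hT
        refine ⟨Sum.inr ⟨r - 1, by omega⟩, Subtype.ext ?_⟩
        show ConjClasses.mk (b _) = ConjClasses.mk g
        rw [ConjClasses.mk_eq_mk_iff_isConj]
        refine conj_of_type (hb1 _) hgg ?_ ⟨fun _ => hT, fun _ => hb3 _⟩
        rw [hb2, hr]
        show 2 * (r - 1 + 1) = r + r
        omega
      · refine ⟨Sum.inl ⟨((g : Matrix (Fin m ⊕ Fin m) (Fin m ⊕ Fin m) F) - 1).rank - 1, by omega⟩, Subtype.ext ?_⟩
        show ConjClasses.mk (a _) = ConjClasses.mk g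
        rw [ConjClasses.mk_eq_mk_iff_isConj]
        refine conj_of_type (ha1 _) hgg ?_ ⟨fun h => absurd h (ha3 _), fun h => absurd h hT⟩
        rw [ha2]
        show ((g : Matrix (Fin m ⊕ Fin m) (Fin m ⊕ Fin m) F) - 1).rank - 1 + 1 = _
        omega
  rw [← Nat.card_congr e, Nat.card_sum, Nat.card_fin, Nat.card_fin]

end Cfsg.Agent.Lib.Sc
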