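import Mathlib
import Cfsg.Agent.Lib.SchurMult
set_option autoImplicit false

open scoped commutatorElement IsMulCommutative
open Cfsg.Agent.Lib.SchurMult

namespace Cfsg.Agent.Lib.SchurRes

universe u v w

section Transfer
open Subgroup MonoidHom

theorem transfer_of_conj_mem {G : Type*} [Group G] {H : Subgroup G} [H.FiniteIndex]
    {A : Type*} [CommGroup A] (ϕ : H →* A) (r : G) (hr : ∀ g : G, g⁻¹ * r * g ∈ H)
    [Fintype (G ⧸ H)] :
    transfer ϕ r = ∏ q : G ⧸ H, ϕ ⟨q.out⁻¹ * r * q.out, hr _⟩ := by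
  let T : H.LeftTransversal := ⟨Set.range Quotient.out, isComplement_range_left
    (fun q => Quotient.out_eq' q)⟩
  have hT : ∀ q : G ⧸ H, ((T.2.leftQuotientEquiv q : T.1) : G) = q.out := fun q =>
    IsComplement.leftQuotientEquiv_apply (fun q => Quotient.out_eq' q) q
  have hfix : ∀ q : G ⧸ H, r⁻¹ • q = q := by
    intro q
    obtain ⟨g, rfl⟩ := QuotientGroup.mk_surjective q
    change (QuotientGroup.mk (r⁻¹ * g) : G ⧸ H) = QuotientGroup.mk g
    rw [QuotientGroup.eq]
    have := hr g
    have h2 : (r⁻¹ * g)⁻¹ * g = g⁻¹ * r * g := by group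
    rw [h2]; exact this
  have hrT : ∀ q : G ⧸ H, (((r • T).2.leftQuotientEquiv q : (r • T).1) : G) = r * q.out := by
    intro q
    rw [smul_apply_eq_smul_apply_inv_smul, smul_eq_mul, hfix, hT]
  rw [transfer_def ϕ T]
  unfold leftTransversals.diff
  simp only
  have hinst : (H.fintypeQuotientOfFiniteIndex : Fintype (G ⧸ H)) = ‹_› := Subsingleton.elim _ _
  rw [hinst]
  refine Finset.prod_congr rfl fun q _ => ?_
  congr 1
  apply Subtype.ext
  change ((T.2.leftQuotientEquiv q : T.1) : G)⁻¹ * (((r • T).2.leftQuotientEquiv q : (r • T).1) : G) = _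
  rw [hT, hrT]
  simp only [mul_assoc]

end Transfer

section ResCores
variable {F : Type u} {G : Type v} [Group F] [Group G] (π : F →* G) (U : Subgroup G)

/-- the restricted presentation -/
abbrev resPres : (U.comap π) →* U := π.subgroupComap U

theorem resPres_surjective (hπ : Function.Surjective π) : Function.Surjective (resPres π U) :=
  π.subgroupComap_surjective_of_surjective U hπ

theorem mem_ker_resPres (x : U.comap π) : x ∈ (resPres π U).ker ↔ π (x : F) = 1 := by
  rw [MonoidHom.mem_ker]
  constructor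
  · intro h; exact congrArg Subtype.val h
  · intro h; exact Subtype.ext h

/-- corestriction on the level of covers -/
def coresCov : Cov (resPres π U) →* Cov π :=
  QuotientGroup.lift _ ((QuotientGroup.mk' _).comp (U.comap π).subtype) (by
    rw [Subgroup.commutator_le]
    intro g _ r hr
    rw [MonoidHom.mem_ker, MonoidHom.comp_apply, map_commutatorElement]
    refine (QuotientGroup.eq_one_iff _).mpr ?_
    exact Subgroup.commutator_mem_commutator (Subgroup.mem_top _) ((mem_ker_resPres π U r).mp hr))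

theorem coresCov_mk (x : U.comap π) : coresCov π U (QuotientGroup.mk x) = QuotientGroup.mk (x : F) :=
  rfl

theorem covHom_coresCov (x : Cov (resPres π U)) :
    covHom π (coresCov π U x) = (covHom (resPres π U) x : G) := by
  obtain ⟨x, rfl⟩ := QuotientGroup.mk_surjective x
  rfl

theorem coresCov_mem_mult (x : Mult (resPres π U)) : coresCov π U x ∈ Mult π := by
  obtain ⟨x, hx⟩ := x
  obtain ⟨h1, h2⟩ := Subgroup.mem_inf.mp hx
  refine Subgroup.mem_inf.mpr ⟨?_, ?_⟩
  · rw [MonoidHom.mem_ker, covHom_coresCov, MonoidHom.mem_ker.mp h1]; rfl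
  · have : (commutator (Cov (resPres π U))).map (coresCov π U) ≤ commutator (Cov π) := by
      rw [commutator_def, Subgroup.map_commutator]
      exact Subgroup.commutator_mono le_top le_top
    exact this ⟨x, h2, rfl⟩

/-- corestriction -/
def cores : Mult (resPres π U) →* Mult π :=
  ((coresCov π U).comp (Subgroup.subtype _)).codRestrict _ (coresCov_mem_mult π U)

instance ker_covHom_comm {F' : Type*} {G' : Type*} [Group F'] [Group G'] (π' : F' →* G') :
    IsMulCommutative (covHom π').ker := isMulCommutative_of_le_center (ker_covHom_le π')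

/-- the conjugate of a relator, in the restricted cover -/
def cj (t : F) : π.ker →* (covHom (resPres π U)).ker where
  toFun r := ⟨QuotientGroup.mk ⟨t⁻¹ * r * t, by
      rw [Subgroup.mem_comap, map_mul, map_mul, MonoidHom.mem_ker.mp r.2, mul_one, map_inv,
        inv_mul_cancel]; exact one_mem _⟩, by
      rw [MonoidHom.mem_ker, covHom_mk]
      apply Subtype.ext
      change π (t⁻¹ * r * t) = 1
      rw [map_mul, map_mul, MonoidHom.mem_ker.mp r.2, mul_one, map_inv, inv_mul_cancel]⟩
  map_one' := by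
    apply Subtype.ext
    change (QuotientGroup.mk _ : Cov (resPres π U)) = 1
    rw [QuotientGroup.eq_one_iff]
    have : (⟨t⁻¹ * (1 : F) * t, by
      rw [Subgroup.mem_comap, map_mul, map_mul, map_one, mul_one, map_inv,
        inv_mul_cancel]; exact one_mem _⟩ : U.comap π) = 1 := Subtype.ext (by
          change t⁻¹ * 1 * t = 1
          group)
    change (⟨t⁻¹ * (1 : F) * t, _⟩ : U.comap π) ∈ _
    rw [this]; exact one_mem _
  map_mul' a b := by
    apply Subtype.ext
    change (QuotientGroup.mk _ : Cov (resPres π U)) = QuotientGroup.mk _ * QuotientGroup.mk _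
    rw [← QuotientGroup.mk_mul]
    congr 1
    apply Subtype.ext
    change t⁻¹ * ((a : F) * b) * t = (t⁻¹ * a * t) * (t⁻¹ * b * t)
    group

theorem cj_mul_right (t : F) (h : U.comap π) (r : π.ker) :
    cj π U (t * h) r = cj π U t r := by
  have hc := ker_covHom_le (resPres π U) (cj π U t r).2
  apply Subtype.ext
  have h1 : ((cj π U (t * h) r : (covHom (resPres π U)).ker) : Cov (resPres π U)) =
      (QuotientGroup.mk h : Cov (resPres π U))⁻¹ * (cj π U t r : (covHom (resPres π U)).ker) *
        (QuotientGroup.mk h : Cov (resPres π U)) := by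
    change (QuotientGroup.mk _ : Cov (resPres π U)) = (QuotientGroup.mk h : Cov (resPres π U))⁻¹ *
      (QuotientGroup.mk _ : Cov (resPres π U)) * (QuotientGroup.mk h : Cov (resPres π U))
    rw [← QuotientGroup.mk_inv, ← QuotientGroup.mk_mul, ← QuotientGroup.mk_mul]
    congr 1
    apply Subtype.ext
    change (t * (h : F))⁻¹ * r * (t * h) = (h : F)⁻¹ * (t⁻¹ * r * t) * h
    group
  rw [h1, Subgroup.mem_center_iff.mp hc, mul_assoc, inv_mul_cancel, mul_one]

theorem cj_out (t : F) (r : π.ker) :
    cj π U (QuotientGroup.mk t : F ⧸ U.comap π).out r = cj π U t r := by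
  obtain ⟨h, hh⟩ := QuotientGroup.mk_out_eq_mul (U.comap π) t
  rw [hh, cj_mul_right]

theorem coresCov_cj (t : F) (r : π.ker) :
    coresCov π U (cj π U t r : (covHom (resPres π U)).ker) = QuotientGroup.mk (r : F) := by
  change (QuotientGroup.mk (t⁻¹ * (r : F) * t) : Cov π) = QuotientGroup.mk (r : F)
  have hr : (QuotientGroup.mk (r : F) : Cov π) ∈ Subgroup.center (Cov π) :=
    ker_covHom_le π (show covHom π (QuotientGroup.mk (r : F)) = 1 from r.2)
  rw [QuotientGroup.mk_mul, QuotientGroup.mk_mul, Subgroup.mem_center_iff.mp hr, mul_assoc,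
    ← QuotientGroup.mk_mul, inv_mul_cancel, QuotientGroup.mk_one, mul_one]

variable [Fintype (F ⧸ U.comap π)]

/-- the norm map on relators -/
noncomputable def normR : π.ker →* (covHom (resPres π U)).ker :=
  ∏ q : F ⧸ U.comap π, cj π U q.out

theorem normR_apply (r : π.ker) : normR π U r = ∏ q : F ⧸ U.comap π, cj π U q.out r := by
  rw [normR, MonoidHom.finsetProd_apply]

theorem normR_conj (f : F) (r : π.ker) (hr : f * r * f⁻¹ ∈ π.ker) :
    normR π U ⟨f * r * f⁻¹, hr⟩ = normR π U r := by
  rw [normR_apply, normR_apply]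
  have h1 : ∀ t : F, cj π U t ⟨f * r * f⁻¹, hr⟩ = cj π U (f⁻¹ * t) r := by
    intro t
    apply Subtype.ext
    change (QuotientGroup.mk _ : Cov (resPres π U)) = QuotientGroup.mk _
    congr 1
    apply Subtype.ext
    change t⁻¹ * (f * r * f⁻¹) * t = (f⁻¹ * t)⁻¹ * r * (f⁻¹ * t)
    group
  apply Fintype.prod_equiv (MulAction.toPerm f⁻¹)
  intro q
  obtain ⟨t, rfl⟩ := QuotientGroup.mk_surjective q
  rw [cj_out, h1]
  change _ = cj π U (QuotientGroup.mk (f⁻¹ * t) : F ⧸ U.comap π).out r
  rw [cj_out]

theorem commutator_le_ker_normR (x : F) (hx : x ∈ ⁅(⊤ : Subgroup F), π.ker⁆) :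
    normR π U ⟨x, comm_le_ker π hx⟩ = 1 := by
  have h1 : ⁅(⊤ : Subgroup F), π.ker⁆ ≤ ((normR π U).ker).map π.ker.subtype := by
    rw [Subgroup.commutator_le]
    intro f _ r hr
    have hfr : f * r * f⁻¹ ∈ π.ker := (MonoidHom.normal_ker π).conj_mem r hr f
    refine ⟨⟨f * r * f⁻¹, hfr⟩ * ⟨r, hr⟩⁻¹, ?_, ?_⟩
    · change normR π U _ = 1
      rw [map_mul, map_inv, normR_conj π U f ⟨r, hr⟩ hfr, mul_inv_cancel]
    · rfl
  obtain ⟨y, hy, hyx⟩ := h1 hx
  have : (⟨x, comm_le_ker π hx⟩ : π.ker) = y := Subtype.ext hyx.symm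
  rw [this]; exact hy

theorem coresCov_normR (r : π.ker) :
    coresCov π U (normR π U r : (covHom (resPres π U)).ker) =
      (QuotientGroup.mk (r : F) : Cov π) ^ (U.comap π).index := by
  rw [normR_apply]
  let g : (covHom (resPres π U)).ker →* Cov π := (coresCov π U).comp (Subgroup.subtype _)
  let g' : (covHom (resPres π U)).ker →* (covHom π).ker := g.codRestrict _ (by
    intro x
    rw [MonoidHom.mem_ker]
    change covHom π (coresCov π U x) = 1
    rw [covHom_coresCov, MonoidHom.mem_ker.mp x.2]; rfl)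
  have hrk : (QuotientGroup.mk (r : F) : Cov π) ∈ (covHom π).ker := r.2
  have h1 : ∀ q : F ⧸ U.comap π, g' (cj π U q.out r) = ⟨QuotientGroup.mk (r : F), hrk⟩ := by
    intro q
    apply Subtype.ext
    exact coresCov_cj π U q.out r
  have h2 : g' (∏ q : F ⧸ U.comap π, cj π U q.out r) =
      ⟨QuotientGroup.mk (r : F), hrk⟩ ^ (U.comap π).index := by
    rw [map_prod, Finset.prod_congr rfl (fun q _ => h1 q), Finset.prod_const, Finset.card_univ,
      Subgroup.index, Nat.card_eq_fintype_card]
  exact congrArg Subtype.val h2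

theorem normR_mem_commutator [(U.comap π).FiniteIndex] (r : π.ker) (hr : (r : F) ∈ commutator F) :
    ((normR π U r : (covHom (resPres π U)).ker) : Cov (resPres π U)) ∈
      commutator (Cov (resPres π U)) := by
  let ϕ : U.comap π →* Abelianization (Cov (resPres π U)) :=
    Abelianization.of.comp (QuotientGroup.mk' _)
  have h0 : ∀ g : F, g⁻¹ * r * g ∈ U.comap π := by
    intro g
    rw [Subgroup.mem_comap, map_mul, map_mul, MonoidHom.mem_ker.mp r.2, mul_one, map_inv,
        inv_mul_cancel]; exact one_mem _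
  have h1 := transfer_of_conj_mem ϕ (r : F) h0
  have h2 : MonoidHom.transfer ϕ (r : F) = 1 :=
    Abelianization.commutator_subset_ker (MonoidHom.transfer ϕ) hr
  rw [h2] at h1
  rw [← Abelianization.ker_of, MonoidHom.mem_ker, normR_apply]
  let g : (covHom (resPres π U)).ker →* Abelianization (Cov (resPres π U)) :=
    Abelianization.of.comp (Subgroup.subtype _)
  change g (∏ q : F ⧸ U.comap π, cj π U q.out r) = 1
  rw [map_prod]
  exact h1.symm

/-- the restriction map on `ker (covHom π)` -/
noncomputable def resKer : (covHom π).ker →* (covHom (resPres π U)).ker :=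
  MonoidHom.mk' (fun x => normR π U ⟨x.1.out, by
      have h := x.2
      rw [MonoidHom.mem_ker, ← QuotientGroup.out_eq' x.1] at h
      exact h⟩) (by
    intro a b
    rw [← map_mul, ← mul_inv_eq_one, ← map_inv, ← map_mul]
    have h1 : ((a * b : (covHom π).ker).1.out)⁻¹⁻¹ = ((a * b : (covHom π).ker).1.out) := inv_inv _
    have hx : ((a * b : (covHom π).ker).1.out) * (a.1.out * b.1.out)⁻¹ ∈
        ⁅(⊤ : Subgroup F), π.ker⁆ := by
      rw [← QuotientGroup.eq_one_iff, QuotientGroup.mk_mul, QuotientGroup.mk_inv,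
        QuotientGroup.mk_mul, QuotientGroup.out_eq', QuotientGroup.out_eq', QuotientGroup.out_eq']
      exact mul_inv_cancel _
    exact commutator_le_ker_normR π U _ hx)

theorem resKer_mk (r : π.ker) (h : (QuotientGroup.mk (r : F) : Cov π) ∈ (covHom π).ker) :
    resKer π U ⟨QuotientGroup.mk (r : F), h⟩ = normR π U r := by
  have h0 : (QuotientGroup.mk (r : F) : Cov π).out ∈ π.ker := by
    have h1 := h
    rw [MonoidHom.mem_ker, ← QuotientGroup.out_eq' (QuotientGroup.mk (r : F) : Cov π)] at h1
    exact h1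
  change normR π U ⟨_, h0⟩ = normR π U r
  rw [← mul_inv_eq_one, ← map_inv, ← map_mul]
  have hx : (QuotientGroup.mk (r : F) : Cov π).out * (r : F)⁻¹ ∈ ⁅(⊤ : Subgroup F), π.ker⁆ := by
    rw [← QuotientGroup.eq_one_iff, QuotientGroup.mk_mul, QuotientGroup.mk_inv,
      QuotientGroup.out_eq']
    exact mul_inv_cancel _
  exact commutator_le_ker_normR π U _ hx

theorem coresCov_resKer (x : (covHom π).ker) :
    coresCov π U (resKer π U x : (covHom (resPres π U)).ker) = (x : Cov π) ^ (U.comap π).index := by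
  obtain ⟨x, hx⟩ := x
  obtain ⟨r, rfl⟩ := QuotientGroup.mk_surjective x
  have hr : r ∈ π.ker := hx
  rw [resKer_mk π U ⟨r, hr⟩, coresCov_normR]

theorem resKer_mem_commutator [(U.comap π).FiniteIndex] (x : (covHom π).ker)
    (hx : (x : Cov π) ∈ commutator (Cov π)) :
    ((resKer π U x : (covHom (resPres π U)).ker) : Cov (resPres π U)) ∈
      commutator (Cov (resPres π U)) := by
  obtain ⟨x, hxk⟩ := x
  rw [commutator_quotient] at hx
  obtain ⟨f, hf, hfx⟩ := hx
  change QuotientGroup.mk f = x at hfx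
  subst hfx
  have hr : f ∈ π.ker := hxk
  rw [resKer_mk π U ⟨f, hr⟩]
  exact normR_mem_commutator π U ⟨f, hr⟩ hf

/-- the restriction (transfer) map `M(G) → M(U)` -/
noncomputable def res [(U.comap π).FiniteIndex] : Mult π →* Mult (resPres π U) :=
  MonoidHom.mk' (fun x => ⟨(resKer π U ⟨x.1, (Subgroup.mem_inf.mp x.2).1⟩ :
      (covHom (resPres π U)).ker), Subgroup.mem_inf.mpr ⟨Subtype.property _,
        resKer_mem_commutator π U _ (Subgroup.mem_inf.mp x.2).2⟩⟩) (by
    intro a b
    apply Subtype.ext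
    change ((resKer π U (⟨a.1, (Subgroup.mem_inf.mp a.2).1⟩ *
      ⟨b.1, (Subgroup.mem_inf.mp b.2).1⟩) : (covHom (resPres π U)).ker) : Cov (resPres π U)) = _
    rw [map_mul]; rfl)

theorem cores_res [(U.comap π).FiniteIndex] (x : Mult π) :
    cores π U (res π U x) = x ^ (U.comap π).index := by
  apply Subtype.ext
  exact coresCov_resKer π U ⟨x.1, (Subgroup.mem_inf.mp x.2).1⟩

end ResCores

/-- restriction and corestriction for the multipliers of `G` and of a subgroup `U` -/
theorem exists_res_cores {G : Type u} [Group G] (U : Subgroup G) {A : Type v} {B : Type w}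
    [CommGroup A] [CommGroup B] (hA : Cfsg.HasSchurMultiplier G A)
    (hB : Cfsg.HasSchurMultiplier U B) :
    ∃ (r : A →* B) (c : B →* A), ∀ a, c (r a) = a ^ U.index := by
  have hfin := finite_group_of_hasSchurMultiplier hA
  have hs := stdPres_surjective G
  have hidx : (U.comap (stdPres G)).index = U.index := Subgroup.index_comap_of_surjective U hs
  have hfi : (U.comap (stdPres G)).FiniteIndex := ⟨by rw [hidx]; exact Subgroup.FiniteIndex.index_ne_zero⟩
  have : Fintype (FreeGroup G ⧸ U.comap (stdPres G)) := Subgroup.fintypeQuotientOfFiniteIndex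
  obtain ⟨eA⟩ := (hasSchurMultiplier_iff hs).mp hA
  obtain ⟨eB⟩ := (hasSchurMultiplier_iff (resPres_surjective (stdPres G) U hs)).mp hB
  refine ⟨(eB.symm.toMonoidHom.comp (res (stdPres G) U)).comp eA.toMonoidHom,
    (eA.symm.toMonoidHom.comp (cores (stdPres G) U)).comp eB.toMonoidHom, ?_⟩
  intro a
  change eA.symm (cores _ U (eB (eB.symm (res _ U (eA a))))) = _
  rw [MulEquiv.apply_symm_apply, cores_res, map_pow, MulEquiv.symm_apply_apply, hidx]

/-- a quotient of a finite abelian group embeds in it -/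
theorem exists_injective_of_surjective {B C : Type*} [CommGroup B] [CommGroup C] [Finite B]
    (f : B →* C) (hf : Function.Surjective f) : ∃ g : C →* B, Function.Injective g := by
  have hC : Finite C := Finite.of_surjective f hf
  obtain ⟨eB⟩ := CommGroup.monoidHom_mulEquiv_of_hasEnoughRootsOfUnity B ℂ
  obtain ⟨eC⟩ := CommGroup.monoidHom_mulEquiv_of_hasEnoughRootsOfUnity C ℂ
  let h : (C →* ℂˣ) →* (B →* ℂˣ) := f.compHom'
  have hh : Function.Injective h := by
    intro a b hab
    refine MonoidHom.ext fun c => ?_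
    obtain ⟨x, rfl⟩ := hf c
    exact DFunLike.congr_fun hab x
  exact ⟨(eB.toMonoidHom.comp h).comp eC.symm.toMonoidHom,
    (eB.injective.comp hh).comp eC.symm.injective⟩

end Cfsg.Agent.Lib.SchurRes
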