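import Mathlib

/-! No sharply two-transitive set of collineations. -/

set_option linter.all false
set_option maxHeartbeats 1000000

namespace Cfsg.Agent.Lib.Sh

open scoped LinearAlgebra.Projectivization

variable {F : Type*} [Field F] {n : ℕ}

theorem rep_mem_iff (U : Submodule F (Fin n → F)) {v : Fin n → F} (hv : v ≠ 0) : (Projectivization.mk F v hv).rep ∈ U ↔ v ∈ U := by
  obtain ⟨a, ha⟩ := Projectivization.exists_smul_eq_mk_rep F v hv
  rw [← ha]
  constructor
  · intro h
    have := U.smul_mem ((a⁻¹ : Fˣ) : F) h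
    rwa [← Units.smul_def, inv_smul_smul] at this
  · intro h
    exact U.smul_mem (a : F) h

theorem card_pts [Finite F] (U : Submodule F (Fin n → F)) (hU : U ≠ ⊥) : ((Nat.card {x : ℙ F (Fin n → F) // x.rep ∈ U} : ℕ) : ZMod (Nat.card F)) = 1 := by
  classical
  have e : ℙ F U ≃ {x : ℙ F (Fin n → F) // x.rep ∈ U} := by
    refine Equiv.ofBijective (fun y => ⟨Projectivization.map U.subtype U.injective_subtype y, ?_⟩) ⟨?_, ?_⟩
    · induction y using Projectivization.ind with | h v hv => ?_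
      rw [Projectivization.map_mk, rep_mem_iff]
      exact v.2
    · intro y z hyz
      exact Projectivization.map_injective (τ := RingHom.id F) U.subtype U.injective_subtype (congrArg Subtype.val hyz)
    · rintro ⟨x, hx⟩
      refine ⟨Projectivization.mk F (⟨x.rep, hx⟩ : U) (fun h => x.rep_nonzero (congrArg Subtype.val h)), ?_⟩
      apply Subtype.ext
      exact x.mk_rep
  rw [← Nat.card_congr e]
  have h1 := Projectivization.card' F U
  haveI : Nontrivial U := Submodule.nontrivial_iff_ne_bot.mpr hU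
  have h2 : Nat.card F ∣ Nat.card U := by
    rw [Module.natCard_eq_pow_finrank (K := F) (V := U)]
    exact dvd_pow_self _ (Module.finrank_pos (R := F) (M := U)).ne'
  have hq : 1 < Nat.card F := Finite.one_lt_card
  have h3 : ((Nat.card U : ℕ) : ZMod (Nat.card F)) = 0 := (ZMod.natCast_eq_zero_iff _ _).mpr h2
  rw [h1, Nat.cast_add, Nat.cast_mul, Nat.cast_sub hq.le, ZMod.natCast_self, Nat.cast_one, zero_sub] at h3
  linear_combination -h3

/-- Result. -/
theorem main [Finite F] (hn : 3 ≤ n) (S : Set (Equiv.Perm (ℙ F (Fin n → F))))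
    (hS : ∀ s ∈ S, ∃ (σ : F ≃+* F) (f : (Fin n → F) →ₛₗ[(σ : F →+* F)] (Fin n → F)) (hf : Function.Injective f),
      ∀ x, s x = Projectivization.map f hf x) :
    ¬ (∀ a b c d : ℙ F (Fin n → F), a ≠ b → c ≠ d → ∃! s, s ∈ S ∧ s a = c ∧ s b = d) := by
  classical
  intro h2
  haveI : Fintype F := Fintype.ofFinite F
  haveI : Finite (ℙ F (Fin n → F)) := inferInstance
  have hq : 1 < Nat.card F := Finite.one_lt_card
  let i0 : Fin n := ⟨0, by omega⟩
  let i1 : Fin n := ⟨1, by omega⟩
  have h01 : i0 ≠ i1 := by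
    intro h
    have := congrArg Fin.val h
    simp [i0, i1] at this
  let W : Submodule F (Fin n → F) := LinearMap.ker (LinearMap.proj i0 : (Fin n → F) →ₗ[F] F)
  have hW : ∀ v : Fin n → F, v ∈ W ↔ v i0 = 0 := fun v => Iff.rfl
  have he0 : (Pi.single i0 1 : Fin n → F) ≠ 0 := by
    intro h
    have := congrFun h i0
    rw [Pi.single_eq_same] at this
    exact one_ne_zero this
  have he1 : (Pi.single i1 1 : Fin n → F) ≠ 0 := by
    intro h
    have := congrFun h i1
    rw [Pi.single_eq_same] at this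
    exact one_ne_zero this
  have hW0 : (Pi.single i0 1 : Fin n → F) ∉ W := by
    rw [hW, Pi.single_eq_same]
    exact one_ne_zero
  have hW1 : (Pi.single i1 1 : Fin n → F) ∈ W := by
    rw [hW, Pi.single_eq_of_ne h01]
  have hWne : W ≠ ⊥ := by
    intro h
    rw [h, Submodule.mem_bot] at hW1
    exact he1 hW1
  let P : ℙ F (Fin n → F) := Projectivization.mk F (Pi.single i0 1) he0
  let b : ℙ F (Fin n → F) := Projectivization.mk F (Pi.single i1 1) he1
  have hP : P.rep ∉ W := by rw [rep_mem_iff]; exact hW0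
  have hb : b.rep ∈ W := by rw [rep_mem_iff]; exact hW1
  have hPb : P ≠ b := fun h => hP (h ▸ hb)
  have hne : ∀ x : ℙ F (Fin n → F), x.rep ∈ W → P ≠ x := fun x hx h => hP (h ▸ hx)
  -- the stabilizer part
  let SP := {s : Equiv.Perm (ℙ F (Fin n → F)) // s ∈ S ∧ s P = P}
  have hSPcard : ((Nat.card SP : ℕ) : ZMod (Nat.card F)) = 0 := by
    have e : SP ≃ {d : ℙ F (Fin n → F) // d ≠ P} := by
      refine Equiv.ofBijective (fun s => ⟨s.1 b, fun h => hPb (s.1.injective (s.2.2.trans h.symm))⟩) ⟨?_, ?_⟩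
      · intro s t hst
        have hst' : s.1 b = t.1 b := congrArg Subtype.val hst
        have hd : P ≠ s.1 b := fun h => hPb (s.1.injective (s.2.2.trans h))
        apply Subtype.ext
        exact (h2 P b P (s.1 b) hPb hd).unique ⟨s.2.1, s.2.2, rfl⟩ ⟨t.2.1, t.2.2, hst'.symm⟩
      · intro d
        obtain ⟨s, hs, _⟩ := h2 P b P d.1 hPb d.2.symm
        exact ⟨⟨s, hs.1, hs.2.1⟩, Subtype.ext hs.2.2⟩
    rw [Nat.card_congr e]
    have h3 : Nat.card {d : ℙ F (Fin n → F) // d ≠ P} = (({P} : Set (ℙ F (Fin n → F)))ᶜ).ncard := rfl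
    have h4 : Nat.card (ℙ F (Fin n → F)) = Nat.card {x : ℙ F (Fin n → F) // x.rep ∈ (⊤ : Submodule F (Fin n → F))} :=
      Nat.card_congr (Equiv.subtypeUnivEquiv (fun x => Submodule.mem_top)).symm
    have h5 : ((Nat.card (ℙ F (Fin n → F)) : ℕ) : ZMod (Nat.card F)) = 1 := by
      rw [h4]
      apply card_pts
      intro h
      have : (Pi.single i0 1 : Fin n → F) ∈ (⊤ : Submodule F (Fin n → F)) := Submodule.mem_top
      rw [h, Submodule.mem_bot] at this
      exact he0 this
    have h6 : 1 ≤ Nat.card (ℙ F (Fin n → F)) := by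
      haveI : Nonempty (ℙ F (Fin n → F)) := ⟨P⟩
      exact Nat.card_pos
    rw [h3, Set.ncard_compl, Set.ncard_singleton, Nat.cast_sub h6, h5, Nat.cast_one, sub_self]
  -- double counting
  let X := Σ s : SP, {h : ℙ F (Fin n → F) // h.rep ∈ W ∧ (s.1 h).rep ∈ W}
  let Y := {h : ℙ F (Fin n → F) // h.rep ∈ W} × {h : ℙ F (Fin n → F) // h.rep ∈ W}
  have e : X ≃ Y := by
    refine Equiv.ofBijective (fun x => (⟨x.2.1, x.2.2.1⟩, ⟨x.1.1 x.2.1, x.2.2.2⟩)) ⟨?_, ?_⟩
    · rintro ⟨s, h, hh1, hh2⟩ ⟨t, k, hk1, hk2⟩ hxy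
      have e1 : h = k := congrArg (fun y : Y => y.1.1) hxy
      subst e1
      have e2 : s.1 h = t.1 h := congrArg (fun y : Y => y.2.1) hxy
      have e3 : s = t := by
        apply Subtype.ext
        exact (h2 P h P (s.1 h) (hne h hh1) (hne _ hh2)).unique ⟨s.2.1, s.2.2, rfl⟩ ⟨t.2.1, t.2.2, e2.symm⟩
      subst e3
      rfl
    · rintro ⟨⟨h, hh⟩, ⟨k, hk⟩⟩
      obtain ⟨s, hs, _⟩ := h2 P h P k (hne h hh) (hne k hk)
      refine ⟨⟨⟨s, hs.1, hs.2.1⟩, ⟨h, hh, ?_⟩⟩, ?_⟩
      · show (s h).rep ∈ W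
        rw [hs.2.2]; exact hk
      · apply Prod.ext
        · rfl
        · exact Subtype.ext hs.2.2
  haveI : Finite SP := inferInstance
  haveI : Fintype SP := Fintype.ofFinite SP
  have hX : Nat.card X = ∑ s : SP, Nat.card {h : ℙ F (Fin n → F) // h.rep ∈ W ∧ (s.1 h).rep ∈ W} := Nat.card_sigma
  have hterm : ∀ s : SP, ((Nat.card {h : ℙ F (Fin n → F) // h.rep ∈ W ∧ (s.1 h).rep ∈ W} : ℕ) : ZMod (Nat.card F)) = 1 := by
    intro s
    obtain ⟨σ, f, hf, hsf⟩ := hS s.1 s.2.1
    let U : Submodule F (Fin n → F) := W ⊓ W.comap f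
    have hU : U ≠ ⊥ := by
      -- pigeonhole
      have hcard : Nat.card (Fin n → F) < Nat.card (W × W) := by
        rw [Nat.card_prod, Module.natCard_eq_pow_finrank (K := F) (V := Fin n → F), Module.natCard_eq_pow_finrank (K := F) (V := W), Module.finrank_fin_fun, ← pow_add]
        have h3 := (LinearMap.proj i0 : (Fin n → F) →ₗ[F] F).finrank_range_add_finrank_ker
        have h4 : LinearMap.range (LinearMap.proj i0 : (Fin n → F) →ₗ[F] F) = ⊤ := LinearMap.range_eq_top.mpr (LinearMap.proj_surjective i0)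
        rw [h4, finrank_top, Module.finrank_self, Module.finrank_fin_fun] at h3
        have h5 : Module.finrank F W = n - 1 := by
          show Module.finrank F (LinearMap.ker (LinearMap.proj i0 : (Fin n → F) →ₗ[F] F)) = n - 1
          omega
        rw [h5]
        exact Nat.pow_lt_pow_right hq (by omega)
      let g : W × W → (Fin n → F) := fun p => p.1.1 - f p.2.1
      have hg : ¬ Function.Injective g := fun h => absurd (Nat.card_le_card_of_injective g h) (by omega)
      rw [Function.Injective] at hg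
      push Not at hg
      obtain ⟨p, r, hpr, hne'⟩ := hg
      have h3 : p.1.1 - r.1.1 = f (p.2.1 - r.2.1) := by
        rw [map_sub]
        have : p.1.1 - f p.2.1 = r.1.1 - f r.2.1 := hpr
        linear_combination this
      intro hbot
      have h4 : p.2.1 - r.2.1 ∈ U := by
        refine ⟨W.sub_mem p.2.2 r.2.2, ?_⟩
        show f (p.2.1 - r.2.1) ∈ W
        rw [← h3]
        exact W.sub_mem p.1.2 r.1.2
      rw [hbot, Submodule.mem_bot] at h4
      rw [h4, map_zero] at h3
      apply hne'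
      exact Prod.ext (Subtype.ext (sub_eq_zero.mp h3)) (Subtype.ext (sub_eq_zero.mp h4))
    have hiff : ∀ h : ℙ F (Fin n → F), (h.rep ∈ W ∧ (s.1 h).rep ∈ W) ↔ h.rep ∈ U := by
      intro h
      have h3 : (s.1 h).rep ∈ W ↔ f h.rep ∈ W := by
        rw [hsf h]
        conv_lhs => rw [← h.mk_rep]
        rw [Projectivization.map_mk, rep_mem_iff]
      rw [h3]
      rfl
    rw [Nat.card_congr (Equiv.subtypeEquivRight hiff)]
    exact card_pts U hU
  have h3 : ((Nat.card X : ℕ) : ZMod (Nat.card F)) = ((Nat.card SP : ℕ) : ZMod (Nat.card F)) := by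
    rw [hX, Nat.cast_sum, Finset.sum_congr rfl (fun s _ => hterm s), Finset.sum_const, Finset.card_univ, nsmul_eq_mul, mul_one, Nat.card_eq_fintype_card (α := SP)]
  rw [hSPcard, Nat.card_congr e, Nat.card_prod, Nat.cast_mul, card_pts W hWne, mul_one] at h3
  haveI : Fact (1 < Nat.card F) := ⟨hq⟩
  exact one_ne_zero h3

end Cfsg.Agent.Lib.Sh
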