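import Mathlib

/-! Abstract Shintani descent. -/

set_option linter.all false
set_option maxHeartbeats 400000

namespace Cfsg.Agent.Lib.ShinD

variable {X : Type*} [Group X] (σ : MulAut X)

theorem pow_fix {x : X} (h : σ x = x) (e : ℕ) : (σ ^ e) x = x := by
  induction e with
  | zero => rfl
  | succ e ih => rw [pow_succ, MulAut.mul_apply, h, ih]

theorem norm_eq (g a : X) (ha : g = a * (σ a)⁻¹) (d : ℕ) :
    ((List.range d).map (fun i => (σ ^ i) g)).prod = a * ((σ ^ d) a)⁻¹ := by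
  induction d with
  | zero => simp
  | succ d ih =>
    rw [List.range_succ, List.map_append, List.prod_append, ih]
    simp only [List.map_cons, List.map_nil, List.prod_cons, List.prod_nil, mul_one]
    rw [ha, map_mul, map_inv, ← MulAut.mul_apply, ← pow_succ]
    group

theorem x_fix {g a : X} {e : ℕ} (hg : (σ ^ e) g = g) (ha : g = a * (σ a)⁻¹) :
    σ (((σ ^ e) a)⁻¹ * a) = ((σ ^ e) a)⁻¹ * a := by
  have h1 : (σ ^ e) (σ a) = σ ((σ ^ e) a) := by
    rw [← MulAut.mul_apply, ← MulAut.mul_apply, ← pow_succ, ← pow_succ']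
  have h2 : (σ ^ e) a * (σ ((σ ^ e) a))⁻¹ = a * (σ a)⁻¹ := by
    rw [← h1, ← map_inv, ← map_mul, ← ha, hg]
  rw [map_mul, map_inv]
  set b := (σ ^ e) a
  calc (σ b)⁻¹ * σ a = b⁻¹ * (b * (σ b)⁻¹) * σ a := by group
    _ = b⁻¹ * a := by rw [h2]; group

theorem pow_apply_a {a : X} {e : ℕ} (hx : σ (((σ ^ e) a)⁻¹ * a) = ((σ ^ e) a)⁻¹ * a) (d : ℕ) :
    ((σ ^ d) ^ e) a = a * ((((σ ^ e) a)⁻¹ * a) ^ d)⁻¹ := by
  set x := ((σ ^ e) a)⁻¹ * a with hxd
  have h1 : (σ ^ e) a = a * x⁻¹ := by rw [hxd]; group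
  have h2 : (σ ^ d) ^ e = (σ ^ e) ^ d := by rw [← pow_mul, ← pow_mul, mul_comm]
  rw [h2]
  induction d with
  | zero => simp
  | succ d ih =>
    have h3 : (σ ^ e) x = x := pow_fix σ hx e
    rw [pow_succ', MulAut.mul_apply, ih (by rw [← pow_mul, ← pow_mul, mul_comm]), map_mul, map_inv,
      map_pow, h3, h1, pow_succ]
    group

end Cfsg.Agent.Lib.ShinD
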