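import Mathlib
import Cfsg.Agent.Lib.Sm1

/-! Simple groups of order 60. -/

set_option linter.all false
set_option maxHeartbeats 400000

namespace Cfsg.Agent.Lib.Sm

open Matrix Module Cfsg Cfsg.Agent.Lib.Tor
open scoped MatrixGroups Nat LinearAlgebra.Projectivization

section simple
variable {G : Type*} [Group G] [Finite G] [IsSimpleGroup G]

theorem coset_inj {H : Subgroup G} (hH : H ≠ ⊤) : Function.Injective (MulAction.toPermHom G (G ⧸ H)) := by
  rw [← MonoidHom.ker_eq_bot_iff, ← Subgroup.normalCore_eq_ker]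
  rcases (inferInstance : H.normalCore.Normal).eq_bot_or_eq_top with h | h
  · exact h
  · exact absurd (top_le_iff.mp (h ▸ H.normalCore_le)) hH

theorem dvd_fact {H : Subgroup G} (hH : H ≠ ⊤) : Nat.card G ∣ (H.index) ! := by
  classical
  haveI : Fintype (G ⧸ H) := Fintype.ofFinite _
  have h1 := Subgroup.card_dvd_of_injective _ (coset_inj hH)
  rw [Nat.card_eq_fintype_card (α := Equiv.Perm (G ⧸ H)), Fintype.card_perm, ← Nat.card_eq_fintype_card] at h1
  exact h1

theorem sylow_ne_one {p : ℕ} [Fact p.Prime] (hp : p ∣ Nat.card G) (hp2 : Nat.card G ≠ p ^ (Nat.card G).factorization p) : Nat.card (Sylow p G) ≠ 1 := by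
  intro h
  haveI : Subsingleton (Sylow p G) := (Nat.card_eq_one_iff_unique.mp h).1
  let P : Sylow p G := default
  haveI hn : (P : Subgroup G).Normal := Sylow.normal_of_subsingleton P
  have hc := P.card_eq_multiplicity
  rcases hn.eq_bot_or_eq_top with h1 | h1
  · have h2 : Nat.card (P : Subgroup G) = 1 := by rw [h1]; exact Subgroup.card_bot
    have h3 : p ∣ Nat.card (P : Subgroup G) := P.dvd_card_of_dvd_card hp
    rw [h2] at h3
    exact (Fact.out : p.Prime).one_lt.ne' (Nat.dvd_one.mp h3)
  · apply hp2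
    rw [← hc, h1, Subgroup.card_top]

end simple

/-- counting elements of TI Sylow subgroups -/
theorem ti_count {G : Type*} [Group G] [Finite G] {p : ℕ} [Fact p.Prime]
    (hTI : ∀ P Q : Sylow p G, ∀ x, x ∈ P → x ∈ Q → x ≠ 1 → P = Q) {m : ℕ} (hm : ∀ P : Sylow p G, Nat.card P = m) :
    Nat.card (Sylow p G) * (m - 1) ≤ Nat.card {g : G // g ≠ 1 ∧ g ^ m = 1} := by
  classical
  let f : (Σ P : Sylow p G, {x : (P : Subgroup G) // x ≠ 1}) → {g : G // g ≠ 1 ∧ g ^ m = 1} := fun a =>
    ⟨a.2.1.1, fun h => a.2.2 (Subtype.ext h), by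
      have := pow_card_eq_one' (x := a.2.1)
      have hma : Nat.card (a.1 : Subgroup G) = m := hm a.1
      rw [hma] at this
      exact congrArg Subtype.val this⟩
  have hf : Function.Injective f := by
    rintro ⟨P, x, hx⟩ ⟨Q, y, hy⟩ h
    have h1 : (x : G) = y := congrArg (fun z : {g : G // g ≠ 1 ∧ g ^ m = 1} => z.1) h
    have h2 : P = Q := hTI P Q x x.2 (h1 ▸ y.2) (fun h => hx (Subtype.ext h))
    subst h2
    have h3 : x = y := Subtype.ext h1
    subst h3
    rfl
  have h1 := Nat.card_le_card_of_injective f hf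
  refine le_trans (le_of_eq ?_) h1
  haveI : Fintype (Sylow p G) := Fintype.ofFinite _
  haveI : ∀ P : Sylow p G, Fintype (P : Subgroup G) := fun P => Fintype.ofFinite _
  rw [Nat.card_sigma]
  have h2 : ∀ P : Sylow p G, Nat.card {x : (P : Subgroup G) // x ≠ 1} = m - 1 := by
    intro P
    have hma : Nat.card (P : Subgroup G) = m := hm P
    rw [Nat.card_eq_fintype_card, Fintype.card_subtype_compl, Fintype.card_subtype_eq, ← Nat.card_eq_fintype_card, hma]
  rw [Finset.sum_congr rfl (fun P _ => h2 P), Finset.sum_const, Finset.card_univ, smul_eq_mul, ← Nat.card_eq_fintype_card]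

theorem ti_prime {G : Type*} [Group G] [Finite G] {p : ℕ} [Fact p.Prime] (hm : ∀ P : Sylow p G, Nat.card P = p)
    (P Q : Sylow p G) (x : G) (hx : x ∈ P) (hx' : x ∈ Q) (h1 : x ≠ 1) : P = Q := by
  have key : ∀ P : Sylow p G, x ∈ P → Subgroup.zpowers x = P := by
    intro P hx
    apply Subgroup.eq_of_le_of_card_ge (Subgroup.zpowers_le.mpr hx)
    rw [Nat.card_zpowers]
    have h2 : orderOf x ∣ p := by
      have := orderOf_dvd_natCard (⟨x, hx⟩ : (P : Subgroup G))
      have hma : Nat.card (P : Subgroup G) = p := hm P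
      rw [hma, Subgroup.orderOf_mk] at this
      exact this
    rcases (Nat.dvd_prime (Fact.out : p.Prime)).mp h2 with h3 | h3
    · exact absurd (orderOf_eq_one_iff.mp h3) h1
    · rw [h3]
      exact (hm P).le
  exact Sylow.ext ((key P hx).symm.trans (key Q hx'))

theorem two_counts {G : Type*} [Group G] [Finite G] {a b : ℕ} (hab : Nat.Coprime a b) :
    Nat.card {g : G // g ≠ 1 ∧ g ^ a = 1} + Nat.card {g : G // g ≠ 1 ∧ g ^ b = 1} + 1 ≤ Nat.card G := by
  classical
  let f : ({g : G // g ≠ 1 ∧ g ^ a = 1} ⊕ {g : G // g ≠ 1 ∧ g ^ b = 1}) ⊕ Unit → G := fun x => match x with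
    | .inl (.inl g) => g.1
    | .inl (.inr g) => g.1
    | .inr _ => 1
  have hf : Function.Injective f := by
    have key : ∀ g : G, g ≠ 1 → g ^ a = 1 → g ^ b = 1 → False := by
      intro g h1 h2 h3
      apply h1
      rw [← orderOf_eq_one_iff]
      have := Nat.dvd_gcd (orderOf_dvd_of_pow_eq_one h2) (orderOf_dvd_of_pow_eq_one h3)
      rw [hab.gcd_eq_one] at this
      exact Nat.dvd_one.mp this
    rintro ((⟨x, hx⟩ | ⟨x, hx⟩) | x) ((⟨y, hy⟩ | ⟨y, hy⟩) | y) h
    · have h1 : x = y := h
      subst h1; rfl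
    · have h1 : x = y := h
      subst h1
      exact (key x hx.1 hx.2 hy.2).elim
    · have h1 : x = 1 := h
      exact absurd h1 hx.1
    · have h1 : x = y := h
      subst h1
      exact (key x hx.1 hy.2 hx.2).elim
    · have h1 : x = y := h
      subst h1; rfl
    · have h1 : x = 1 := h
      exact absurd h1 hx.1
    · have h1 : 1 = y := h
      exact absurd h1.symm hy.1
    · have h1 : 1 = y := h
      exact absurd h1.symm hy.1
    · rfl
  have := Nat.card_le_card_of_injective f hf
  rwa [Nat.card_sum, Nat.card_sum, Nat.card_eq_fintype_card (α := Unit), Fintype.card_unit] at this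

section sixty
variable {G : Type*} [Group G] [Finite G] [IsSimpleGroup G]

theorem index_five (h : Nat.card G = 60) {H : Subgroup G} (hH : H.index = 5) : Nonempty (G ≃* alternatingGroup (Fin 5)) := by
  have hne : H ≠ ⊤ := by
    rintro rfl
    rw [Subgroup.index_top] at hH
    norm_num at hH
  refine alt_of_hom (by norm_num) (α := G ⧸ H) hH _ (coset_inj hne) ?_
  rw [h]
  norm_num [Nat.factorial]

theorem index_ge (h : Nat.card G = 60) {H : Subgroup G} (hH : H ≠ ⊤) : 5 ≤ H.index := by
  by_contra hcon
  have h1 := dvd_fact hH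
  rw [h] at h1
  have h2 : H.index ≤ 4 := by omega
  have h3 := Nat.factorial_le h2
  have h4 := Nat.le_of_dvd (Nat.factorial_pos _) h1
  have h5 : (4 : ℕ) ! = 24 := by norm_num [Nat.factorial]
  omega

theorem sixty (h : Nat.card G = 60) : Nonempty (G ≃* alternatingGroup (Fin 5)) := by
  classical
  haveI : Fact (Nat.Prime 5) := ⟨by norm_num⟩
  haveI : Fact (Nat.Prime 2) := ⟨by norm_num⟩
  by_contra hcon
  have hno : ∀ H : Subgroup G, H.index ≠ 5 := fun H hH => hcon (index_five h hH)
  have hf5 : (60 : ℕ).factorization 5 = 1 := by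
    rw [show (60 : ℕ) = 5 ^ 1 * 12 by norm_num, Nat.factorization_mul (by norm_num) (by norm_num), Finsupp.add_apply, Nat.Prime.factorization_pow (by norm_num),
      Finsupp.single_eq_same, Nat.factorization_eq_zero_of_not_dvd (by norm_num)]
  have hf2 : (60 : ℕ).factorization 2 = 2 := by
    rw [show (60 : ℕ) = 2 ^ 2 * 15 by norm_num, Nat.factorization_mul (by norm_num) (by norm_num), Finsupp.add_apply, Nat.Prime.factorization_pow (by norm_num),
      Finsupp.single_eq_same, Nat.factorization_eq_zero_of_not_dvd (by norm_num)]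
  have h5 : ∀ P : Sylow 5 G, Nat.card P = 5 := by
    intro P
    rw [P.card_eq_multiplicity, h, hf5, pow_one]
  have h2 : ∀ P : Sylow 2 G, Nat.card P = 4 := by
    intro P
    rw [P.card_eq_multiplicity, h, hf2]
    norm_num
  -- Sylow 5
  have hn5 : 6 ≤ Nat.card (Sylow 5 G) := by
    have h3 := card_sylow_modEq_one 5 G
    have h4 := sylow_ne_one (G := G) (p := 5) (by rw [h]; norm_num) (by rw [h, hf5]; norm_num)
    have h6 : 0 < Nat.card (Sylow 5 G) := Nat.card_pos
    unfold Nat.ModEq at h3
    omega
  have hc5 := ti_count (ti_prime h5) h5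
  -- Sylow 2
  have hidx : ∀ P : Sylow 2 G, Nat.card (Sylow 2 G) = (Subgroup.normalizer ((P : Subgroup G) : Set G)).index := fun P => Sylow.card_eq_index_normalizer P
  have hn2 : Nat.card (Sylow 2 G) = 15 := by
    let P : Sylow 2 G := default
    have h3 : Nat.card (Sylow 2 G) ∣ (P : Subgroup G).index := Sylow.card_dvd_index P
    have h4 : (P : Subgroup G).index = 15 := by
      have := (P : Subgroup G).card_mul_index
      have h5' : Nat.card (P : Subgroup G) = 4 := h2 P
      rw [h5', h] at this
      omega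
    rw [h4] at h3
    have h6 := sylow_ne_one (G := G) (p := 2) (by rw [h]; norm_num) (by rw [h, hf2]; norm_num)
    have h7 : Nat.card (Sylow 2 G) ≠ 5 := by rw [hidx P]; exact hno _
    have h8 : 5 ≤ Nat.card (Sylow 2 G) := by
      rw [hidx P]
      apply index_ge h
      intro h9
      apply h6
      rw [hidx P, h9, Subgroup.index_top]
    have h9 : Nat.card (Sylow 2 G) ∈ Nat.divisors 15 := Nat.mem_divisors.mpr ⟨h3, by norm_num⟩
    have h10 : Nat.divisors 15 = {1, 3, 5, 15} := by decide
    rw [h10] at h9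
    simp only [Finset.mem_insert, Finset.mem_singleton] at h9
    omega
  have hTI : ∀ P Q : Sylow 2 G, ∀ x, x ∈ P → x ∈ Q → x ≠ 1 → P = Q := by
    intro P Q x hP hQ hx
    by_contra hne
    have hab : ∀ R : Sylow 2 G, ∀ a ∈ R, ∀ b ∈ R, a * b = b * a := by
      intro R a ha b hb
      have hc : Nat.card (R : Subgroup G) = 2 ^ 2 := (h2 R).trans (by norm_num)
      letI : CommGroup (R : Subgroup G) := IsPGroup.commGroupOfCardEqPrimeSq hc
      exact congrArg Subtype.val (mul_comm (⟨a, ha⟩ : (R : Subgroup G)) ⟨b, hb⟩)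
    have hle : ∀ R : Sylow 2 G, x ∈ R → (R : Subgroup G) ≤ Subgroup.centralizer {x} := by
      intro R hR a ha
      rw [Subgroup.mem_centralizer_singleton_iff]
      exact hab R a ha x hR
    have hlP := hle P hP
    have hlQ := hle Q hQ
    set C := Subgroup.centralizer ({x} : Set G) with hC
    have hCtop : C ≠ ⊤ := by
      intro h3
      have h4 : x ∈ Subgroup.center G := by
        rw [Subgroup.mem_center_iff]
        intro g
        have : g ∈ C := by rw [h3]; trivial
        exact Subgroup.mem_centralizer_singleton_iff.mp this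
      rcases (inferInstance : (Subgroup.center G).Normal).eq_bot_or_eq_top with h5' | h5'
      · rw [h5', Subgroup.mem_bot] at h4
        exact hx h4
      · have hcomm : ∀ a b : G, a * b = b * a := fun a b => (Subgroup.mem_center_iff.mp (by rw [h5']; trivial : b ∈ Subgroup.center G) a)
        letI : CommGroup G := { (inferInstance : Group G) with mul_comm := hcomm }
        have := (IsSimpleGroup.prime_card (α := G))
        rw [h] at this
        norm_num at this
    have h3 := index_ge h hCtop
    have h4 : 4 ∣ Nat.card C := by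
      have := Subgroup.card_dvd_of_le hlP
      have h5' : Nat.card (P : Subgroup G) = 4 := h2 P
      rwa [h5'] at this
    have h6 := C.card_mul_index
    rw [h] at h6
    have h7 := hno C
    -- card C is 4, then P = C = Q
    have h8 : Nat.card C ≠ 4 := by
      intro h9
      apply hne
      apply Sylow.ext
      have e1 : (P : Subgroup G) = C := Subgroup.eq_of_le_of_card_ge hlP (by rw [h9]; exact (h2 P).ge)
      have e2 : (Q : Subgroup G) = C := Subgroup.eq_of_le_of_card_ge hlQ (by rw [h9]; exact (h2 Q).ge)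
      rw [e1, e2]
    obtain ⟨k, hk⟩ := h4
    rw [hk] at h6 h8
    have h9 : k * C.index = 15 := by
      have : 4 * (k * C.index) = 4 * 15 := by rw [← mul_assoc, h6]
      omega
    have h10 : C.index ∈ Nat.divisors 15 := Nat.mem_divisors.mpr ⟨⟨k, by rw [← h9, mul_comm]⟩, by norm_num⟩
    have h11 : Nat.divisors 15 = {1, 3, 5, 15} := by decide
    rw [h11] at h10
    simp only [Finset.mem_insert, Finset.mem_singleton] at h10
    rcases h10 with h12 | h12 | h12 | h12
    · omega
    · omega
    · exact h7 h12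
    · rw [h12] at h9
      omega
  have hc2 := ti_count hTI h2
  have htot := two_counts (G := G) (show Nat.Coprime 5 4 by norm_num)
  rw [h] at htot
  rw [hn2] at hc2
  have : 6 * (5 - 1) ≤ Nat.card (Sylow 5 G) * (5 - 1) := Nat.mul_le_mul_right _ hn5
  omega

end sixty

end Cfsg.Agent.Lib.Sm
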