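import Mathlib
import Cfsg.Agent.Lib.Sm2
import Cfsg.Agent.Lib.Qu1
import Cfsg.Agent.Lib.Tw23

/-! `SL_2(3)`. -/

set_option linter.all false
set_option maxHeartbeats 400000

namespace Cfsg.Agent.Lib.Sm

open Matrix Module Cfsg Cfsg.Agent.Lib.Tor Cfsg.Agent.Lib.Tw
open scoped MatrixGroups commutatorElement

section
variable {F : Type*} [Field F] [Fintype F] [DecidableEq F]

theorem sl_three_card (h : Fintype.card F = 3) : Nat.card SL(2, F) = 24 := by
  have h1 := SL2.card_SL2 (F := F)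
  rw [h] at h1
  rw [h1]

theorem center_card (hodd : Odd (Fintype.card F)) : Nat.card (Subgroup.center SL(2, F)) = 2 := by
  have h2 := two_ne_zero_of_odd hodd
  have hne : (1 : SL(2, F)) ≠ -1 := by
    intro h
    have h3 := congrArg (fun g : SL(2, F) => (g : Matrix (Fin 2) (Fin 2) F) 0 0) h
    have h4 : (1 : F) = -1 := by
      simpa using h3
    apply h2
    linear_combination h4
  have h5 : ((Subgroup.center SL(2, F) : Subgroup SL(2, F)) : Set SL(2, F)) = ({1, -1} : Finset SL(2, F)) := by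
    ext g
    rw [SetLike.mem_coe, mem_center]
    simp
  have h6 : Nat.card (Subgroup.center SL(2, F)) = Nat.card (({1, -1} : Finset SL(2, F)) : Set SL(2, F)) := by
    rw [← h5]; rfl
  rw [h6]
  simp [hne]

theorem quat_eight {S : Type*} [Group S] [Finite S] (hc : Nat.card S = 8) {k : ℕ} (h : Nonempty (S ≃* QuaternionGroup (2 ^ k))) :
    Nonempty (S ≃* QuaternionGroup 2) := by
  obtain ⟨e⟩ := h
  haveI : NeZero (2 ^ k) := ⟨by positivity⟩
  have h1 := Nat.card_congr e.toEquiv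
  rw [hc, Nat.card_eq_fintype_card, QuaternionGroup.card] at h1
  have h2 : k = 1 := by
    have h3 : 2 ^ k = 2 ^ 1 := by omega
    exact Nat.pow_right_injective le_rfl h3
  subst h2
  exact ⟨e⟩

/-- the normal Sylow 2-subgroup of `SL_2(3)` -/
theorem sl_three_main (h : Fintype.card F = 3) (S : Sylow 2 SL(2, F)) :
    (S : Subgroup SL(2, F)).Normal ∧ Nat.card (S : Subgroup SL(2, F)) = 8 ∧ (S : Subgroup SL(2, F)).index = 3 ∧ Nonempty ((S : Subgroup SL(2, F)) ≃* QuaternionGroup 2) := by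
  have hodd : Odd (Fintype.card F) := by rw [h]; decide
  have h2 := two_ne_zero_of_odd hodd
  obtain ⟨A, a, r, hA, ha, hr, hcd, hS, hN, _, h8⟩ := syl2_main hodd S
  have ha2 := h8 (by rw [h]; norm_num)
  subst ha2
  have hc : Nat.card (S : Subgroup SL(2, F)) = 8 := hS.trans (by norm_num)
  have hn := syl2_norm_small h2 hA rfl hr hcd hS hN
  have hG := sl_three_card h
  have htop : Subgroup.normalizer ((S : Subgroup SL(2, F)) : Set SL(2, F)) = ⊤ := by
    apply Subgroup.eq_top_of_card_eq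
    rw [hn, hG]
    have : Nat.card (S : Subgroup SL(2, F)) = 8 := hc
    omega
  obtain ⟨k, hk, hq⟩ := Qu.quat_of_not_cyclic h2 S.isPGroup' (S : Subgroup SL(2, F)).subtype (S : Subgroup SL(2, F)).subtype_injective (Qu.not_cyclic hodd S)
  refine ⟨Subgroup.normalizer_eq_top_iff.mp htop, hc, ?_, quat_eight hc hq⟩
  have := (S : Subgroup SL(2, F)).card_mul_index
  rw [hc, hG] at this
  omega

end

/-- `SL_2(3)`: noncentral elements produce elements of trace zero -/
theorem tr_decide : ∀ a b c d : ZMod 3, a * d - b * c = 1 → ¬ (b = 0 ∧ c = 0 ∧ a = d) → a + d ≠ 0 →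
    ∃ e f g h : ZMod 3, e * h - f * g = 1 ∧
      (a * e + b * g) * (d * h + b * g) + (a * f + b * h) * (-(c * h) - a * g) + (c * e + d * g) * (-(d * f) - b * e) + (c * f + d * h) * (c * f + a * e) = 0 := by
  decide

/-- normal subgroups contain all elements of trace zero -/
theorem exists_tr {N : Subgroup SL(2, ZMod 3)} (hN : N.Normal) {g : SL(2, ZMod 3)} (hg : g ∈ N) (hns : NS (g : Matrix (Fin 2) (Fin 2) (ZMod 3))) :
    ∃ x ∈ N, (x : Matrix (Fin 2) (Fin 2) (ZMod 3)).trace = 0 := by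
  by_cases ht : (g : Matrix (Fin 2) (Fin 2) (ZMod 3)).trace = 0
  · exact ⟨g, hg, ht⟩
  · have hd := g.det_coe
    rw [Matrix.det_fin_two] at hd
    rw [Matrix.trace_fin_two] at ht
    obtain ⟨e, f, k, h, h1, h2⟩ := tr_decide _ _ _ _ hd (fun h => hns ⟨h.1, h.2.1, h.2.2⟩) ht
    let X : SL(2, ZMod 3) := ⟨!![e, f; k, h], by rw [Matrix.det_fin_two_of]; exact h1⟩
    refine ⟨g * (X * g⁻¹ * X⁻¹), N.mul_mem hg (hN.conj_mem _ (N.inv_mem hg) _), ?_⟩
    have e1 : g * (X * g⁻¹ * X⁻¹) = (g * X) * (g⁻¹ * X⁻¹) := by group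
    rw [e1]
    have e2 : ((g * X * (g⁻¹ * X⁻¹) : SL(2, ZMod 3)) : Matrix (Fin 2) (Fin 2) (ZMod 3)) =
      ((g : Matrix (Fin 2) (Fin 2) (ZMod 3)) * !![e, f; k, h]) * (!![(g : Matrix (Fin 2) (Fin 2) (ZMod 3)) 1 1, -(g : Matrix (Fin 2) (Fin 2) (ZMod 3)) 0 1; -(g : Matrix (Fin 2) (Fin 2) (ZMod 3)) 1 0, (g : Matrix (Fin 2) (Fin 2) (ZMod 3)) 0 0] * !![h, -f; -k, e]) := by
      rw [Matrix.SpecialLinearGroup.coe_mul, Matrix.SpecialLinearGroup.coe_mul, Matrix.SpecialLinearGroup.coe_mul, Matrix.SpecialLinearGroup.coe_inv, Matrix.SpecialLinearGroup.coe_inv,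
        Matrix.adjugate_fin_two, Matrix.adjugate_fin_two]
      rfl
    rw [e2, Matrix.trace_fin_two]
    simp only [Matrix.mul_apply, Fin.sum_univ_two, Matrix.of_apply, Matrix.cons_val', Matrix.cons_val_zero, Matrix.cons_val_one, Matrix.empty_val', Matrix.cons_val_fin_one]
    linear_combination h2

theorem tr_mem {N : Subgroup SL(2, ZMod 3)} (hN : N.Normal) {g : SL(2, ZMod 3)} (hg : g ∈ N) (hns : NS (g : Matrix (Fin 2) (Fin 2) (ZMod 3)))
    {y : SL(2, ZMod 3)} (hy : (y : Matrix (Fin 2) (Fin 2) (ZMod 3)).trace = 0) : y ∈ N := by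
  obtain ⟨x, hx, hx0⟩ := exists_tr hN hg hns
  have hne : NE (x : Matrix (Fin 2) (Fin 2) (ZMod 3)) := by
    rw [ne_iff, hx0, x.det_coe]
    decide
  obtain ⟨c, hc⟩ := isConj_iff.mp (isConj_of_ne hne (hx0.trans hy.symm))
  rw [← hc]
  exact hN.conj_mem _ hx _

theorem sylow_le {N : Subgroup SL(2, ZMod 3)} (hN : N.Normal) {g : SL(2, ZMod 3)} (hg : g ∈ N) (hns : NS (g : Matrix (Fin 2) (Fin 2) (ZMod 3)))
    (S : Sylow 2 SL(2, ZMod 3)) : (S : Subgroup SL(2, ZMod 3)) ≤ N := by
  have hodd : Odd (Fintype.card (ZMod 3)) := by rw [ZMod.card]; decide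
  have h2 := two_ne_zero_of_odd hodd
  obtain ⟨_, hc, _, _⟩ := sl_three_main (F := ZMod 3) (ZMod.card 3) S
  intro y hy
  by_cases hyns : NS (y : Matrix (Fin 2) (Fin 2) (ZMod 3))
  · -- order divides 8, not 8
    have h1 : orderOf (⟨y, hy⟩ : (S : Subgroup SL(2, ZMod 3))) ∣ 8 := by rw [← hc]; exact orderOf_dvd_natCard _
    have h3 : orderOf (⟨y, hy⟩ : (S : Subgroup SL(2, ZMod 3))) ≠ 8 := by
      intro h
      apply Qu.not_cyclic hodd S
      exact isCyclic_of_orderOf_eq_card _ (h.trans hc.symm)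
    have h4 : orderOf (⟨y, hy⟩ : (S : Subgroup SL(2, ZMod 3))) ∣ 4 := by
      obtain ⟨k, hk, h5⟩ := (Nat.dvd_prime_pow Nat.prime_two (m := 3)).mp (h1.trans (by norm_num : (8 : ℕ) ∣ 2 ^ 3))
      rw [h5] at h3 ⊢
      have : k ≠ 3 := by rintro rfl; norm_num at h3
      exact pow_dvd_pow 2 (by omega : k ≤ 2)
    have h5 : y ^ 4 = 1 := by
      have := orderOf_dvd_iff_pow_eq_one.mp h4
      exact congrArg Subtype.val this
    have h6 : (y * y) * (y * y) = 1 := by rw [← h5]; simp only [pow_succ, pow_zero, one_mul, mul_assoc]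
    have h7 : y * y = -1 := by
      rcases (sq_eq_one h2).mp h6 with h | h
      · exfalso
        rcases (sq_eq_one h2).mp h with h' | h'
        · rw [h'] at hyns; exact not_ns_one hyns
        · rw [h'] at hyns; exact not_ns_neg_one hyns
      · exact h
    apply tr_mem hN hg hns
    -- y^2 = -1 gives trace zero
    have h8 : (y : Matrix (Fin 2) (Fin 2) (ZMod 3)) * y = -1 := congrArg Subtype.val h7
    have hd := y.det_coe
    have e00 := congrFun (congrFun h8 0) 0
    have e01 := congrFun (congrFun h8 0) 1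
    have e10 := congrFun (congrFun h8 1) 0
    have e11 := congrFun (congrFun h8 1) 1
    rw [Matrix.det_fin_two] at hd
    simp only [Matrix.mul_apply, Fin.sum_univ_two, Matrix.neg_apply, Matrix.one_apply_eq] at e00 e01 e10 e11
    have z1 : (1 : Matrix (Fin 2) (Fin 2) (ZMod 3)) 0 1 = 0 := rfl
    have z2 : (1 : Matrix (Fin 2) (Fin 2) (ZMod 3)) 1 0 = 0 := rfl
    rw [z1] at e01
    rw [z2] at e10
    rw [Matrix.trace_fin_two]
    by_contra ht
    have h9 : ((y : Matrix (Fin 2) (Fin 2) (ZMod 3)) 0 0 + (y : Matrix (Fin 2) (Fin 2) (ZMod 3)) 1 1) * (y : Matrix (Fin 2) (Fin 2) (ZMod 3)) 0 1 = 0 := by linear_combination e01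
    have h10 : ((y : Matrix (Fin 2) (Fin 2) (ZMod 3)) 0 0 + (y : Matrix (Fin 2) (Fin 2) (ZMod 3)) 1 1) * (y : Matrix (Fin 2) (Fin 2) (ZMod 3)) 1 0 = 0 := by linear_combination e10
    have h11 := (mul_eq_zero.mp h9).resolve_left ht
    have h12 := (mul_eq_zero.mp h10).resolve_left ht
    have h13 : ((y : Matrix (Fin 2) (Fin 2) (ZMod 3)) 0 0 + (y : Matrix (Fin 2) (Fin 2) (ZMod 3)) 1 1) * ((y : Matrix (Fin 2) (Fin 2) (ZMod 3)) 0 0 - (y : Matrix (Fin 2) (Fin 2) (ZMod 3)) 1 1) = 0 := by linear_combination e00 - e11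
    have h14 := sub_eq_zero.mp ((mul_eq_zero.mp h13).resolve_left ht)
    exact hyns ⟨h11, h12, h14⟩
  · -- central
    rcases not_ns_SL hyns with h | h
    · rw [h]; exact N.one_mem
    · obtain ⟨x, hx, hx0⟩ := exists_tr hN hg hns
      have h1 : x * x = -1 := by
        apply Subtype.ext
        have hcay := x.det_coe
        rw [Matrix.det_fin_two] at hcay
        rw [Matrix.trace_fin_two] at hx0
        show (x : Matrix (Fin 2) (Fin 2) (ZMod 3)) * x = -1
        ext i j
        fin_cases i <;> fin_cases j <;> simp only [Matrix.mul_apply, Fin.sum_univ_two, Matrix.neg_apply, Fin.mk_zero, Fin.mk_one, Fin.zero_eta, Fin.isValue]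
        · rw [Matrix.one_apply_eq]; linear_combination (x : Matrix (Fin 2) (Fin 2) (ZMod 3)) 0 0 * hx0 - hcay
        · rw [show (1 : Matrix (Fin 2) (Fin 2) (ZMod 3)) 0 1 = 0 from rfl]; linear_combination (x : Matrix (Fin 2) (Fin 2) (ZMod 3)) 0 1 * hx0
        · rw [show (1 : Matrix (Fin 2) (Fin 2) (ZMod 3)) 1 0 = 0 from rfl]; linear_combination (x : Matrix (Fin 2) (Fin 2) (ZMod 3)) 1 0 * hx0
        · rw [Matrix.one_apply_eq]; linear_combination (x : Matrix (Fin 2) (Fin 2) (ZMod 3)) 1 1 * hx0 - hcay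
      rw [h, ← h1]
      exact N.mul_mem hx hx

theorem s2427 :
    Nat.card (Matrix.SpecialLinearGroup (Fin 2) (ZMod 3)) = 24 ∧
    Nat.card (Subgroup.center (Matrix.SpecialLinearGroup (Fin 2) (ZMod 3))) = 2 ∧
    Nat.card (commutator (Matrix.SpecialLinearGroup (Fin 2) (ZMod 3))) = 8 ∧
    Nonempty (commutator (Matrix.SpecialLinearGroup (Fin 2) (ZMod 3)) ≃* QuaternionGroup 2) ∧
    (∀ P : Sylow 3 (Matrix.SpecialLinearGroup (Fin 2) (ZMod 3)),
      Subgroup.IsComplement' (commutator (Matrix.SpecialLinearGroup (Fin 2) (ZMod 3)))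
        (P : Subgroup (Matrix.SpecialLinearGroup (Fin 2) (ZMod 3)))) ∧
    ∀ N : Subgroup (Matrix.SpecialLinearGroup (Fin 2) (ZMod 3)), N.Normal →
      N = ⊥ ∨ N = ⊤ ∨ N = Subgroup.center (Matrix.SpecialLinearGroup (Fin 2) (ZMod 3)) ∨
        N = commutator (Matrix.SpecialLinearGroup (Fin 2) (ZMod 3)) := by
  classical
  have hodd : Odd (Fintype.card (ZMod 3)) := by rw [ZMod.card]; decide
  have h2 := two_ne_zero_of_odd hodd
  have hG : Nat.card SL(2, ZMod 3) = 24 := sl_three_card (ZMod.card 3)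
  let S : Sylow 2 SL(2, ZMod 3) := default
  obtain ⟨hSn, hSc, hSi, hSq⟩ := sl_three_main (F := ZMod 3) (ZMod.card 3) S
  haveI := hSn
  -- the commutator subgroup
  have hle : commutator SL(2, ZMod 3) ≤ (S : Subgroup SL(2, ZMod 3)) := by
    have h3 : Nat.card (SL(2, ZMod 3) ⧸ (S : Subgroup SL(2, ZMod 3))) = 3 := hSi
    haveI : Fact (Nat.Prime 3) := ⟨by norm_num⟩
    haveI : IsCyclic (SL(2, ZMod 3) ⧸ (S : Subgroup SL(2, ZMod 3))) := isCyclic_of_prime_card h3
    letI : CommGroup (SL(2, ZMod 3) ⧸ (S : Subgroup SL(2, ZMod 3))) := IsCyclic.commGroup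
    rw [commutator_def, Subgroup.commutator_le]
    intro a _ b _
    rw [← QuotientGroup.eq_one_iff]
    have : ((⁅a, b⁆ : SL(2, ZMod 3)) : SL(2, ZMod 3) ⧸ (S : Subgroup SL(2, ZMod 3))) = ⁅(a : SL(2, ZMod 3) ⧸ (S : Subgroup SL(2, ZMod 3))), (b : SL(2, ZMod 3) ⧸ (S : Subgroup SL(2, ZMod 3)))⁆ := rfl
    rw [this, commutatorElement_eq_one_iff_mul_comm]
    exact mul_comm _ _
  have hcomm : commutator SL(2, ZMod 3) = (S : Subgroup SL(2, ZMod 3)) := by
    apply le_antisymm hle
    -- a noncentral commutator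
    have hx : NS ((⁅SL2.t (1 : ZMod 3), SL2.s (1 : ZMod 3)⁆ : SL(2, ZMod 3)) : Matrix (Fin 2) (Fin 2) (ZMod 3)) := by
      rw [commutatorElement_def, Matrix.SpecialLinearGroup.coe_mul, Matrix.SpecialLinearGroup.coe_mul, Matrix.SpecialLinearGroup.coe_mul, Matrix.SpecialLinearGroup.coe_inv, Matrix.SpecialLinearGroup.coe_inv]
      unfold SL2.t SL2.s NS
      simp only
      decide
    exact sylow_le (inferInstance : (commutator SL(2, ZMod 3)).Normal) (Subgroup.commutator_mem_commutator (Subgroup.mem_top _) (Subgroup.mem_top _)) hx S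
  rw [hcomm]
  refine ⟨hG, center_card hodd, hSc, hSq, ?_, ?_⟩
  · intro P
    haveI : Fact (Nat.Prime 3) := ⟨by norm_num⟩
    have hP : Nat.card (P : Subgroup SL(2, ZMod 3)) = 3 := by
      rw [P.card_eq_multiplicity, hG]
      have : (24 : ℕ).factorization 3 = 1 := by
        rw [show (24 : ℕ) = 3 ^ 1 * 8 by norm_num, Nat.factorization_mul (by norm_num) (by norm_num), Finsupp.add_apply, Nat.Prime.factorization_pow (by norm_num),
          Finsupp.single_eq_same, Nat.factorization_eq_zero_of_not_dvd (by norm_num)]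
      rw [this]; norm_num
    apply Subgroup.isComplement'_of_coprime
    · rw [hSc, hP, hG]
    · rw [hSc, hP]; norm_num
  · intro N hN
    by_cases h : ∀ g ∈ N, ¬ NS (g : Matrix (Fin 2) (Fin 2) (ZMod 3))
    · -- central
      have hle : N ≤ Subgroup.center SL(2, ZMod 3) := fun g hg => mem_center.mpr (not_ns_SL (h g hg))
      by_cases h1 : (-1 : SL(2, ZMod 3)) ∈ N
      · right; right; left
        apply le_antisymm hle
        intro g hg
        rcases mem_center.mp hg with rfl | rfl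
        · exact N.one_mem
        · exact h1
      · left
        rw [Subgroup.eq_bot_iff_forall]
        intro g hg
        rcases mem_center.mp (hle hg) with h3 | h3
        · exact h3
        · rw [h3] at hg; exact absurd hg h1
    · push Not at h
      obtain ⟨g, hg, hns⟩ := h
      have hSN := sylow_le hN hg hns S
      have hi : N.index ∣ 3 := (Subgroup.index_dvd_of_le hSN).trans (dvd_of_eq hSi)
      rcases (Nat.dvd_prime (by norm_num)).mp hi with h3 | h3
      · right; left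
        exact Subgroup.index_eq_one.mp h3
      · right; right; right
        symm
        apply Subgroup.eq_of_le_of_card_ge hSN
        have := N.card_mul_index
        rw [h3, hG] at this
        rw [hSc]
        omega

end Cfsg.Agent.Lib.Sm
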