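import Mathlib
import Cfsg.Prelude.Def_ClassicalGeometry
import Cfsg.Agent.S0286

/-! `SO_3(3)` is `S_4`. -/

set_option linter.all false
set_option maxHeartbeats 1000000

namespace Cfsg.Agent.Lib.So3

open Matrix

variable {F : Type*} [Field F]

def mkv (a b c : F) : Unit ⊕ (Fin 1 ⊕ Fin 1) → F := Sum.elim (fun _ => a) (Sum.elim (fun _ => b) (fun _ => c))

theorem mkv_eta (v : Unit ⊕ (Fin 1 ⊕ Fin 1) → F) : v = mkv (v (Sum.inl ())) (v (Sum.inr (Sum.inl 0))) (v (Sum.inr (Sum.inr 0))) := by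
  funext i
  rcases i with i | i | i
  · rfl
  · rw [Subsingleton.elim i 0]; rfl
  · rw [Subsingleton.elim i 0]; rfl

theorem mkv_inj {a b c a' b' c' : F} (h : mkv a b c = mkv a' b' c') : a = a' ∧ b = b' ∧ c = c' :=
  ⟨congrFun h (Sum.inl ()), congrFun h (Sum.inr (Sum.inl 0)), congrFun h (Sum.inr (Sum.inr 0))⟩

theorem Q_mkv (a b c : F) : Cfsg.quadFormOdd 1 F (mkv a b c) = a ^ 2 + b * c := by
  unfold Cfsg.quadFormOdd
  rw [Fin.sum_univ_one]; rfl

theorem smul_mkv (e a b c : F) : e • mkv a b c = mkv (e * a) (e * b) (e * c) := by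
  funext i
  rcases i with i | i | i <;> rfl

theorem add_mkv (a b c a' b' c' : F) : mkv a b c + mkv a' b' c' = mkv (a + a') (b + b') (c + c') := by
  funext i
  rcases i with i | i | i <;> rfl

def vv (F : Type*) [Field F] : Fin 4 → (Unit ⊕ (Fin 1 ⊕ Fin 1) → F) := ![mkv 0 1 0, mkv 0 0 1, mkv 1 1 (-1), mkv 1 (-1) 1]

theorem vv0 : vv F 0 = mkv 0 1 0 := rfl
theorem vv1 : vv F 1 = mkv 0 0 1 := rfl
theorem vv2 : vv F 2 = mkv 1 1 (-1) := rfl
theorem vv3 : vv F 3 = mkv 1 (-1) 1 := rfl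

theorem Q_vv (i : Fin 4) : Cfsg.quadFormOdd 1 F (vv F i) = 0 := by
  fin_cases i
  · exact (Q_mkv _ _ _).trans (by ring)
  · exact (Q_mkv _ _ _).trans (by ring)
  · exact (Q_mkv _ _ _).trans (by ring)
  · exact (Q_mkv _ _ _).trans (by ring)

variable (h3 : ∀ a : F, a = 0 ∨ a = 1 ∨ a = -1) (hn : (1 : F) ≠ -1)

include h3 hn in
theorem L1 (v : Unit ⊕ (Fin 1 ⊕ Fin 1) → F) (hQ : Cfsg.quadFormOdd 1 F v = 0) (hv : v ≠ 0) :
    ∃ (i : Fin 4) (e : F), (e = 1 ∨ e = -1) ∧ v = e • vv F i := by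
  have h10 : (1 : F) ≠ 0 := one_ne_zero
  have h20 : (1 : F) + 1 ≠ 0 := fun h => hn (by linear_combination h)
  rw [mkv_eta v] at hQ hv ⊢
  generalize v (Sum.inl ()) = a at *
  generalize v (Sum.inr (Sum.inl 0)) = b at *
  generalize v (Sum.inr (Sum.inr 0)) = c at *
  rw [Q_mkv] at hQ
  have key : ∀ (i : Fin 4) (e a' b' c' : F), (e = 1 ∨ e = -1) → vv F i = mkv a' b' c' → a = e * a' → b = e * b' → c = e * c' →
      ∃ (i : Fin 4) (e : F), (e = 1 ∨ e = -1) ∧ mkv a b c = e • vv F i := by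
    intro i e a' b' c' he hi ha hb hc
    exact ⟨i, e, he, by rw [hi, smul_mkv, ha, hb, hc]⟩
  rcases h3 a with ha | ha | ha <;> rcases h3 b with hb | hb | hb <;> rcases h3 c with hc | hc | hc
  · exfalso; apply hv; rw [ha, hb, hc]; funext i; rcases i with i | i | i <;> rfl
  · exact key 1 1 0 0 1 (Or.inl rfl) vv1 (by rw [ha]; ring) (by rw [hb]; ring) (by rw [hc]; ring)
  · exact key 1 (-1) 0 0 1 (Or.inr rfl) vv1 (by rw [ha]; ring) (by rw [hb]; ring) (by rw [hc]; ring)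
  · exact key 0 1 0 1 0 (Or.inl rfl) vv0 (by rw [ha]; ring) (by rw [hb]; ring) (by rw [hc]; ring)
  · exfalso; rw [ha, hb, hc] at hQ; apply h10; linear_combination hQ
  · exfalso; rw [ha, hb, hc] at hQ; apply h10; linear_combination -hQ
  · exact key 0 (-1) 0 1 0 (Or.inr rfl) vv0 (by rw [ha]; ring) (by rw [hb]; ring) (by rw [hc]; ring)
  · exfalso; rw [ha, hb, hc] at hQ; apply h10; linear_combination -hQ
  · exfalso; rw [ha, hb, hc] at hQ; apply h10; linear_combination hQ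
  · exfalso; rw [ha, hb, hc] at hQ; apply h10; linear_combination hQ
  · exfalso; rw [ha, hb, hc] at hQ; apply h10; linear_combination hQ
  · exfalso; rw [ha, hb, hc] at hQ; apply h10; linear_combination hQ
  · exfalso; rw [ha, hb, hc] at hQ; apply h10; linear_combination hQ
  · exfalso; rw [ha, hb, hc] at hQ; apply h20; linear_combination hQ
  · exact key 2 1 1 1 (-1) (Or.inl rfl) vv2 (by rw [ha]; ring) (by rw [hb]; ring) (by rw [hc]; ring)
  · exfalso; rw [ha, hb, hc] at hQ; apply h10; linear_combination hQ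
  · exact key 3 1 1 (-1) 1 (Or.inl rfl) vv3 (by rw [ha]; ring) (by rw [hb]; ring) (by rw [hc]; ring)
  · exfalso; rw [ha, hb, hc] at hQ; apply h20; linear_combination hQ
  · exfalso; rw [ha, hb, hc] at hQ; apply h10; linear_combination hQ
  · exfalso; rw [ha, hb, hc] at hQ; apply h10; linear_combination hQ
  · exfalso; rw [ha, hb, hc] at hQ; apply h10; linear_combination hQ
  · exfalso; rw [ha, hb, hc] at hQ; apply h10; linear_combination hQ
  · exfalso; rw [ha, hb, hc] at hQ; apply h20; linear_combination hQ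
  · exact key 3 (-1) 1 (-1) 1 (Or.inr rfl) vv3 (by rw [ha]; ring) (by rw [hb]; ring) (by rw [hc]; ring)
  · exfalso; rw [ha, hb, hc] at hQ; apply h10; linear_combination hQ
  · exact key 2 (-1) 1 1 (-1) (Or.inr rfl) vv2 (by rw [ha]; ring) (by rw [hb]; ring) (by rw [hc]; ring)
  · exfalso; rw [ha, hb, hc] at hQ; apply h20; linear_combination hQ

include hn in
theorem L2 {i j : Fin 4} {e : F} (he : e = 1 ∨ e = -1) (h : vv F i = e • vv F j) : i = j := by
  have h10 : (1 : F) ≠ 0 := one_ne_zero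
  have hm0 : (-1 : F) ≠ 0 := neg_ne_zero.mpr one_ne_zero
  have he0 : e ≠ 0 := by rcases he with rfl | rfl; exacts [h10, hm0]
  have key : ∀ (a b c a' b' c' : F), mkv a b c = e • mkv a' b' c' → a = e * a' ∧ b = e * b' ∧ c = e * c' := by
    intro a b c a' b' c' h
    rw [smul_mkv] at h
    exact mkv_inj h
  have k1 : ∀ (a b c a' b' c' : F), mkv a b c = e • mkv a' b' c' → (a = 0 ↔ a' = 0) ∧ (b = 0 ↔ b' = 0) ∧ (c = 0 ↔ c' = 0) := by
    intro a b c a' b' c' h
    obtain ⟨h1, h2, h3⟩ := key _ _ _ _ _ _ h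
    rw [h1, h2, h3]
    simp [he0]
  fin_cases i <;> fin_cases j
  · rfl
  · exfalso; exact h10 ((k1 0 1 0 0 0 1 h).2.1.mpr rfl)
  · exfalso; exact h10 ((k1 0 1 0 1 1 (-1) h).1.mp rfl)
  · exfalso; exact h10 ((k1 0 1 0 1 (-1) 1 h).1.mp rfl)
  · exfalso; exact h10 ((k1 0 0 1 0 1 0 h).2.2.mpr rfl)
  · rfl
  · exfalso; exact h10 ((k1 0 0 1 1 1 (-1) h).1.mp rfl)
  · exfalso; exact h10 ((k1 0 0 1 1 (-1) 1 h).1.mp rfl)
  · exfalso; exact h10 ((k1 1 1 (-1) 0 1 0 h).1.mpr rfl)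
  · exfalso; exact h10 ((k1 1 1 (-1) 0 0 1 h).1.mpr rfl)
  · rfl
  · exfalso
    obtain ⟨h1, h2, _⟩ := key 1 1 (-1) 1 (-1) 1 h
    apply hn
    linear_combination h1 + h2
  · exfalso; exact h10 ((k1 1 (-1) 1 0 1 0 h).1.mpr rfl)
  · exfalso; exact h10 ((k1 1 (-1) 1 0 0 1 h).1.mpr rfl)
  · exfalso
    obtain ⟨h1, h2, _⟩ := key 1 (-1) 1 1 1 (-1) h
    apply hn
    linear_combination h1 - h2
  · rfl

theorem s0823 {F : Type*} [Field F] [Fintype F] (hF : Fintype.card F = 3) : Nonempty (↥(Cfsg.specialIsometryGroup F (Cfsg.quadFormOdd 1 F)) ≃* Equiv.Perm (Fin 4)) := by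
  classical
  have hodd : Odd (3 : ℕ) := by decide
  have hn : (1 : F) ≠ -1 := by
    intro h
    have h2 : (2 : F) = 0 := by linear_combination h
    have h3 : ringChar F = 2 := by
      haveI : CharP F 2 := CharTwo.of_one_ne_zero_of_two_eq_zero one_ne_zero h2
      exact ringChar.eq F 2 |>.symm ▸ rfl
    have := FiniteField.even_card_of_char_two h3
    rw [hF] at this
    omega
  have h10 : (1 : F) ≠ 0 := one_ne_zero
  have hm0 : (-1 : F) ≠ 0 := neg_ne_zero.mpr one_ne_zero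
  have h3 : ∀ a : F, a = 0 ∨ a = 1 ∨ a = -1 := by
    intro a
    have h1 : ({0, 1, -1} : Finset F) = Finset.univ := by
      rw [← Finset.card_eq_iff_eq_univ, hF]
      rw [Finset.card_insert_of_notMem, Finset.card_insert_of_notMem, Finset.card_singleton]
      · simpa using hn
      · simp only [Finset.mem_insert, Finset.mem_singleton, not_or]
        exact ⟨h10.symm, hm0.symm⟩
    have h2 : a ∈ ({0, 1, -1} : Finset F) := by rw [h1]; exact Finset.mem_univ a
    simpa using h2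
  set O := Cfsg.isometryGroup F (Cfsg.quadFormOdd 1 F) with hO
  set S := Cfsg.specialIsometryGroup F (Cfsg.quadFormOdd 1 F) with hS
  let M : S → Matrix (Unit ⊕ (Fin 1 ⊕ Fin 1)) (Unit ⊕ (Fin 1 ⊕ Fin 1)) F := fun g => ((g.1.1 : GL (Unit ⊕ (Fin 1 ⊕ Fin 1)) F) : Matrix _ _ F)
  have hM : ∀ g h, M (g * h) = M g * M h := fun g h => rfl
  have hM1 : M 1 = 1 := rfl
  have hinv : ∀ (g : S) v, M g⁻¹ *ᵥ (M g *ᵥ v) = v := by
    intro g v
    rw [Matrix.mulVec_mulVec, ← hM, inv_mul_cancel, hM1, Matrix.one_mulVec]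
  have hQ : ∀ (g : S) v, Cfsg.quadFormOdd 1 F (M g *ᵥ v) = Cfsg.quadFormOdd 1 F v := fun g v => g.1.2 v v
  have hvv0 : ∀ i, vv F i ≠ 0 := by
    intro i h
    have := L2 (F := F) hn (i := i) (j := if i = 0 then 1 else 0) (e := 1) (Or.inl rfl)
    have k : ∀ (a b c : F), mkv a b c = 0 → a = 0 ∧ b = 0 ∧ c = 0 := fun a b c h => ⟨congrFun h (Sum.inl ()), congrFun h (Sum.inr (Sum.inl 0)), congrFun h (Sum.inr (Sum.inr 0))⟩
    fin_cases i
    · exact h10 (k 0 1 0 h).2.1
    · exact h10 (k 0 0 1 h).2.2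
    · exact h10 (k 1 1 (-1) h).1
    · exact h10 (k 1 (-1) 1 h).1
  have hex : ∀ (g : S) (i : Fin 4), ∃ (j : Fin 4) (e : F), (e = 1 ∨ e = -1) ∧ M g *ᵥ vv F i = e • vv F j := by
    intro g i
    apply L1 h3 hn
    · rw [hQ, Q_vv]
    · intro h
      apply hvv0 i
      rw [← hinv g (vv F i), h, Matrix.mulVec_zero]
  choose π ε hε hπ using hex
  have hee : ∀ {a b : F}, (a = 1 ∨ a = -1) → (b = 1 ∨ b = -1) → (a * b = 1 ∨ a * b = -1) := by
    intro a b ha hb
    rcases ha with rfl | rfl <;> rcases hb with rfl | rfl <;> simp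
  have huniq : ∀ {i j : Fin 4} {a b : F}, (a = 1 ∨ a = -1) → (b = 1 ∨ b = -1) → a • vv F i = b • vv F j → i = j := by
    intro i j a b ha hb h
    apply L2 hn (hee ha hb)
    have haa : a * a = 1 := by rcases ha with rfl | rfl <;> ring
    rw [mul_smul, ← h, smul_smul, haa, one_smul]
  have hπ1 : ∀ i, π 1 i = i := by
    intro i
    have h := hπ 1 i
    rw [hM1, Matrix.one_mulVec] at h
    exact (L2 hn (hε 1 i) h).symm
  have hπm : ∀ g h i, π (g * h) i = π g (π h i) := by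
    intro g h i
    have e1 := hπ (g * h) i
    rw [hM, ← Matrix.mulVec_mulVec, hπ h i, Matrix.mulVec_smul, hπ g, smul_smul] at e1
    exact (huniq (hee (hε _ _) (hε _ _)) (hε _ _) e1).symm
  let PP : S →* Equiv.Perm (Fin 4) :=
    { toFun := fun g => ⟨π g, π g⁻¹, fun i => by rw [← hπm, inv_mul_cancel, hπ1], fun i => by rw [← hπm, mul_inv_cancel, hπ1]⟩
      map_one' := Equiv.ext hπ1
      map_mul' := fun g h => Equiv.ext (hπm g h) }
  have hker : ∀ g : S, PP g = 1 → g = 1 := by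
    intro g hg
    have h1 : ∀ i, π g i = i := fun i => congrArg (fun z : Equiv.Perm (Fin 4) => z i) hg
    have h2 : ∀ i, M g *ᵥ vv F i = ε g i • vv F i := by
      intro i
      have := hπ g i
      rwa [h1] at this
    have hd : M g *ᵥ mkv 1 0 0 = mkv (ε g 2) (ε g 2 - ε g 0) (ε g 1 - ε g 2) := by
      have e1 : (mkv 1 0 0 : Unit ⊕ (Fin 1 ⊕ Fin 1) → F) = vv F 2 + ((-1 : F) • vv F 0 + vv F 1) := by
        rw [vv0, vv1, vv2, smul_mkv, add_mkv, add_mkv]; congr 1 <;> ring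
      rw [e1, Matrix.mulVec_add, Matrix.mulVec_add, Matrix.mulVec_smul, h2, h2, h2, vv0, vv1, vv2, smul_mkv, smul_mkv, smul_mkv, smul_mkv, add_mkv, add_mkv]
      congr 1 <;> ring
    have hq1 := hQ g (mkv 1 0 0)
    rw [hd, Q_mkv, Q_mkv] at hq1
    have hef : M g *ᵥ mkv 0 1 1 = mkv 0 (ε g 0) (ε g 1) := by
      have e1 : (mkv 0 1 1 : Unit ⊕ (Fin 1 ⊕ Fin 1) → F) = vv F 0 + vv F 1 := by
        rw [vv0, vv1, add_mkv]; congr 1 <;> ring
      rw [e1, Matrix.mulVec_add, h2, h2, vv0, vv1, smul_mkv, smul_mkv, add_mkv]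
      congr 1 <;> ring
    have hq2 := hQ g (mkv 0 1 1)
    rw [hef, Q_mkv, Q_mkv] at hq2
    have hs0 : ε g 0 * ε g 0 = 1 := by rcases hε g 0 with h | h <;> rw [h] <;> ring
    have hs2 : ε g 2 * ε g 2 = 1 := by rcases hε g 2 with h | h <;> rw [h] <;> ring
    have h01 : ε g 1 = ε g 0 := by
      have : ε g 0 * ε g 1 = 1 := by linear_combination hq2
      calc ε g 1 = (ε g 0 * ε g 0) * ε g 1 := by rw [hs0, one_mul]
        _ = ε g 0 * (ε g 0 * ε g 1) := by ring
        _ = ε g 0 := by rw [this, mul_one]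
    have h20 : ε g 2 = ε g 0 := by
      rw [h01] at hq1
      have h5 : (ε g 2 - ε g 0) * (ε g 2 - ε g 0) = 0 := by linear_combination hs2 - hq1
      exact sub_eq_zero.mp (mul_self_eq_zero.mp h5)
    have hall : M g = (ε g 0) • (1 : Matrix _ _ F) := by
      apply Matrix.mulVec_injective
      funext v
      rw [Matrix.smul_mulVec, Matrix.one_mulVec]
      have hv : v = v (Sum.inl ()) • mkv 1 0 0 + (v (Sum.inr (Sum.inl 0)) • vv F 0 + v (Sum.inr (Sum.inr 0)) • vv F 1) := by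
        conv_lhs => rw [mkv_eta v]
        rw [vv0, vv1, smul_mkv, smul_mkv, smul_mkv, add_mkv, add_mkv]
        congr 1 <;> ring
      rw [hv, Matrix.mulVec_add, Matrix.mulVec_add, Matrix.mulVec_smul, Matrix.mulVec_smul, Matrix.mulVec_smul, hd, h2, h2, h01, h20, vv0, vv1]
      simp only [smul_mkv, add_mkv]
      congr 1 <;> ring
    have hdet : (M g).det = 1 := by
      have := g.2
      have h6 : Matrix.GeneralLinearGroup.det (g.1.1 : GL (Unit ⊕ (Fin 1 ⊕ Fin 1)) F) = 1 := this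
      exact congrArg Units.val h6
    rw [hall, Matrix.det_smul, Matrix.det_one, mul_one] at hdet
    have hc : Fintype.card (Unit ⊕ (Fin 1 ⊕ Fin 1)) = 3 := rfl
    rw [hc] at hdet
    have he1 : ε g 0 = 1 := by
      calc ε g 0 = (ε g 0 * ε g 0) * ε g 0 := by rw [hs0, one_mul]
        _ = ε g 0 ^ 3 := by ring
        _ = 1 := hdet
    rw [he1, one_smul] at hall
    apply Subtype.ext
    apply Subtype.ext
    apply Units.ext
    exact hall
  have hinj : Function.Injective PP := (injective_iff_map_eq_one PP).mpr hker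
  have hcO : Nat.card O = 48 := by
    have := Cfsg.Agent.S0286.result (F := F) (q := 3) hF hodd 1
    rw [this]
    simp
  have hcS : Nat.card S = 24 := by
    let δ : O →* Fˣ := Matrix.GeneralLinearGroup.det.comp O.subtype
    have hk : δ.ker = S := rfl
    have h1 := Subgroup.card_mul_index δ.ker
    rw [Subgroup.index_ker, hk, hcO] at h1
    have hu : Nat.card Fˣ = 2 := by rw [Nat.card_units, Nat.card_eq_fintype_card, hF]
    have h5 : Nat.card δ.range = 2 := by
      have h6 : Nat.card δ.range ∣ 2 := by rw [← hu]; exact Subgroup.card_subgroup_dvd_card _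
      rcases (Nat.dvd_prime Nat.prime_two).mp h6 with h7 | h7
      · exfalso
        have h8 : δ.range = ⊥ := Subgroup.card_eq_one.mp h7
        have hmem : (-1 : GL (Unit ⊕ (Fin 1 ⊕ Fin 1)) F) ∈ O := by
          intro v w
          show Cfsg.quadFormOdd 1 F (((-1 : GL (Unit ⊕ (Fin 1 ⊕ Fin 1)) F) : Matrix _ _ F) *ᵥ v) = Cfsg.quadFormOdd 1 F v
          have e1 : ((-1 : GL (Unit ⊕ (Fin 1 ⊕ Fin 1)) F) : Matrix _ _ F) *ᵥ v = -v := by
            rw [Units.val_neg, Units.val_one, Matrix.neg_mulVec, Matrix.one_mulVec]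
          rw [e1]
          unfold Cfsg.quadFormOdd
          simp
        have h9 : δ ⟨-1, hmem⟩ ∈ δ.range := ⟨_, rfl⟩
        rw [h8, Subgroup.mem_bot] at h9
        have h11 : (Matrix.GeneralLinearGroup.det (-1 : GL (Unit ⊕ (Fin 1 ⊕ Fin 1)) F) : Fˣ) = 1 := h9
        have h12 := congrArg Units.val h11
        have h13 : (-1 : Matrix (Unit ⊕ (Fin 1 ⊕ Fin 1)) (Unit ⊕ (Fin 1 ⊕ Fin 1)) F).det = 1 := h12
        rw [Matrix.det_neg, Matrix.det_one, mul_one] at h13
        have hc : Fintype.card (Unit ⊕ (Fin 1 ⊕ Fin 1)) = 3 := rfl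
        rw [hc] at h13
        apply hn
        linear_combination -h13
      · exact h7
    rw [h5] at h1
    have h1' : Nat.card S * 2 = 48 := h1
    exact Nat.eq_of_mul_eq_mul_right (by norm_num : 0 < 2) (h1'.trans (by norm_num))
  haveI : Finite S := Nat.finite_of_card_ne_zero (by rw [hcS]; norm_num)
  have hbij : Function.Bijective PP := by
    rw [Nat.bijective_iff_injective_and_card]
    refine ⟨hinj, ?_⟩
    rw [hcS, Nat.card_perm, Nat.card_fin]
    rfl
  exact ⟨MulEquiv.ofBijective PP hbij⟩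

end Cfsg.Agent.Lib.So3
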