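import Mathlib
import Cfsg.Prelude
import Cfsg.Agent.Lib.SolvMisc
import Cfsg.Agent.Lib.MinNil
import Cfsg.Agent.S0042

/-!
Minimal non-abelian groups, abelian maximal subgroups.
-/

set_option autoImplicit false

namespace Cfsg.Agent.Lib.SolvMiscB

open Subgroup Cfsg Cfsg.Agent.Lib Cfsg.Agent.Lib.Basic
open scoped commutatorElement Pointwise

universe u v

theorem comm_of_isMulCommutative {G : Type*} [Group G] (h : IsMulCommutative G) (x y : G) :
    x * y = y * x := h.is_comm.comm x y

theorem isMulCommutative_of {G : Type*} [Group G] (h : ∀ x y : G, x * y = y * x) : IsMulCommutative G :=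
  ⟨⟨h⟩⟩

/-- Miller-Moreno -/
theorem miller_moreno {G : Type*} [Group G] [Finite G] (hna : ¬ IsMulCommutative G)
    (h : ∀ H : Subgroup G, H ≠ ⊤ → IsMulCommutative H) :
    (∃ p : ℕ, p.Prime ∧ IsPGroup p G) ∨ ∃ p q : ℕ, p.Prime ∧ q.Prime ∧ p ≠ q ∧
      ∃ (P : Sylow p G) (Q : Sylow q G), IsCyclic P ∧ (Q : Subgroup G).Normal ∧
        Cfsg.IsElementaryAbelian q (Q : Subgroup G) ∧ (P : Subgroup G) ⊔ Q = ⊤ := by
  by_cases hnil : Group.IsNilpotent G
  · left
    by_contra hcon
    push Not at hcon
    apply hna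
    apply isMulCommutative_of
    apply SolvMisc.comm_of_nilpotent_sylow
    intro q hq P x hx y hy
    have hP : (P : Subgroup G) ≠ ⊤ := by
      intro hP
      apply hcon q hq
      have h1 := P.isPGroup'
      rw [hP] at h1
      exact h1.of_equiv topEquiv
    exact congrArg Subtype.val (comm_of_isMulCommutative (h _ hP) ⟨x, hx⟩ ⟨y, hy⟩)
  · right
    have h2 : ∀ H : Subgroup G, H ≠ ⊤ → Group.IsNilpotent H := by
      intro H hH
      have h3 := comm_of_isMulCommutative (h H hH)
      letI : CommGroup H := { (inferInstance : Group H) with mul_comm := h3 }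
      infer_instance
    obtain ⟨p, hp, P, hPn, q, hq, hqp, x, hx, hxC, htop⟩ :=
      MinNil.minimal_non_nilpotent_structure hnil h2
    haveI := Fact.mk hp
    haveI := Fact.mk hq
    obtain ⟨hxq, hxi⟩ := MinNil.zpowers_sylow hqp P.isPGroup' hx htop
    obtain ⟨X, hX⟩ := SuperF.exists_sylow_of_index hxq hxi
    refine ⟨q, p, hq, hp, hqp, X, P, ?_, hPn, ?_, by rw [hX, sup_comm]; exact htop⟩
    · rw [hX]; infer_instance
    -- `P` is elementary abelian
    have hPt : (P : Subgroup G) ≠ ⊤ := by
      intro hP
      apply hnil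
      have h1 := P.isPGroup'
      rw [hP] at h1
      exact (h1.of_equiv topEquiv).isNilpotent
    have hPc : ∀ a ∈ (P : Subgroup G), ∀ b ∈ (P : Subgroup G), a * b = b * a := fun a ha b hb =>
      congrArg Subtype.val (comm_of_isMulCommutative (h _ hPt) ⟨a, ha⟩ ⟨b, hb⟩)
    have hxP : zpowers x ≤ normalizer ((P : Subgroup G) : Set G) := by
      rw [normalizer_eq_top_iff.mpr hPn]; exact le_top
    have hcop : (Nat.card (zpowers x)).Coprime (Nat.card (P : Subgroup G)) := by
      obtain ⟨k, hk⟩ := IsPGroup.iff_card.mp P.isPGroup'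
      obtain ⟨j, hj⟩ := IsPGroup.iff_card.mp hxq
      rw [hk, hj]
      exact Nat.Coprime.pow _ _ ((Nat.coprime_primes hq hp).mpr hqp)
    have hxs : Group.IsSolvable (zpowers x) := CoprimeB.isSolvable_of_isPGroup hxq
    have hPx : (P : Subgroup G) ⊓ zpowers x = ⊥ := inf_eq_bot_of_coprime hcop.symm
    -- a proper `x`-invariant subgroup of `P` is centralized by `x`
    have key : ∀ R : Subgroup G, R ≤ P → R ≠ P → zpowers x ≤ normalizer (R : Set G) →
        zpowers x ≤ centralizer (R : Set G) := by
      intro R hRP hRne hxR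
      have hne : R ⊔ zpowers x ≠ ⊤ := by
        intro ht
        apply hRne
        apply le_antisymm hRP
        intro y hy
        have h1 : y ∈ R ⊔ zpowers x := by rw [ht]; trivial
        rw [mem_sup_iff_left hxR] at h1
        obtain ⟨r, hr, z, hz, rfl⟩ := h1
        have h3 : z ∈ (P : Subgroup G) ⊓ zpowers x := by
          refine mem_inf.mpr ⟨?_, hz⟩
          have := mul_mem (inv_mem (hRP hr)) hy
          rwa [inv_mul_cancel_left] at this
        rw [hPx, mem_bot] at h3
        rw [h3, mul_one]; exact hr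
      intro z hz
      rw [mem_centralizer_iff]
      intro r hr
      exact congrArg Subtype.val (comm_of_isMulCommutative (h _ hne) ⟨r, mem_sup_left hr⟩
        ⟨z, mem_sup_right hz⟩)
    -- `[P, x] = P`
    have hcomm : ⁅(P : Subgroup G), zpowers x⁆ = P := by
      by_contra hne
      have hle : ⁅(P : Subgroup G), zpowers x⁆ ≤ P := Coprime.commutator_le_of_normalizes hxP
      have h1 := key _ hle hne (Coprime.le_normalizer_commutator_right _ _)
      rw [← Coprime.commutator_eq_bot_iff_le_centralizer',
        Coprime.commutator_commutator_eq hxP hcop (Or.inl hxs),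
        Coprime.commutator_eq_bot_iff_le_centralizer'] at h1
      exact hxC (h1 (mem_zpowers x))
    have hP0 : (P : Subgroup G) ≠ ⊥ := by
      intro h0
      apply hxC
      rw [h0, mem_centralizer_iff]
      intro y hy
      rw [mem_bot.mp hy, one_mul, mul_one]
    -- the p-th powers
    let Pp : Subgroup G :=
      { carrier := {y | ∃ z ∈ (P : Subgroup G), y = z ^ p}
        one_mem' := ⟨1, one_mem _, (one_pow p).symm⟩
        mul_mem' := by
          rintro _ _ ⟨a, ha, rfl⟩ ⟨b, hb, rfl⟩
          exact ⟨a * b, mul_mem ha hb, ((show Commute a b from hPc a ha b hb).mul_pow p).symm⟩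
        inv_mem' := by
          rintro _ ⟨a, ha, rfl⟩
          exact ⟨a⁻¹, inv_mem ha, (inv_pow a p).symm⟩ }
    have hPple : Pp ≤ P := by
      rintro _ ⟨a, ha, rfl⟩
      exact pow_mem ha p
    have hPpne : Pp ≠ P := by
      intro he
      -- the power map is surjective, hence injective on `P`
      have hsurj : Function.Surjective (fun y : (P : Subgroup G) => y ^ p) := by
        intro y
        have : (y : G) ∈ Pp := by rw [he]; exact y.2
        obtain ⟨z, hz, e⟩ := this
        exact ⟨⟨z, hz⟩, Subtype.ext e.symm⟩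
      have hinj := Finite.injective_iff_surjective.mpr hsurj
      have hd : p ∣ Nat.card (P : Subgroup G) := by
        obtain ⟨k, hk⟩ := IsPGroup.iff_card.mp P.isPGroup'
        have hk0 : k ≠ 0 := by
          rintro rfl
          rw [pow_zero] at hk
          exact hP0 (card_eq_one.mp hk)
        rw [hk]; exact dvd_pow_self p hk0
      obtain ⟨y, hy⟩ := exists_prime_orderOf_dvd_card' p hd
      have h1 : y = 1 := hinj (by
        change y ^ p = 1 ^ p
        rw [one_pow]
        exact orderOf_dvd_iff_pow_eq_one.mp (by rw [hy]))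
      rw [h1, orderOf_one] at hy
      exact hp.one_lt.ne hy
    have hPpx : zpowers x ≤ normalizer (Pp : Set G) := by
      intro g hg
      apply mem_normalizer_fintype
      rintro _ ⟨a, ha, rfl⟩
      exact ⟨g * a * g⁻¹, hPn.conj_mem a ha g, (conj_pow).symm⟩
    have hPpc := key Pp hPple hPpne hPpx
    refine ⟨Nilp.isMulCommutative_iff_forall.mpr hPc, ?_⟩
    have hle : ⁅(P : Subgroup G), zpowers x⁆ ≤ {
        carrier := {y | y ∈ (P : Subgroup G) ∧ y ^ p = 1}
        one_mem' := ⟨one_mem _, one_pow p⟩
        mul_mem' := by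
          rintro a b ⟨ha, ha'⟩ ⟨hb, hb'⟩
          exact ⟨mul_mem ha hb, by rw [(show Commute a b from hPc a ha b hb).mul_pow, ha', hb', one_mul]⟩
        inv_mem' := by
          rintro a ⟨ha, ha'⟩
          exact ⟨inv_mem ha, by rw [inv_pow, ha', inv_one]⟩ : Subgroup G } := by
      rw [commutator_le]
      intro y hy z hz
      have h1 : z * y⁻¹ * z⁻¹ ∈ (P : Subgroup G) := hPn.conj_mem _ (inv_mem hy) z
      have e : ⁅y, z⁆ = y * (z * y⁻¹ * z⁻¹) := by rw [commutatorElement_def]; group
      refine ⟨by rw [e]; exact mul_mem hy h1, ?_⟩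
      rw [e, (show Commute y (z * y⁻¹ * z⁻¹) from hPc y hy _ h1).mul_pow, conj_pow, inv_pow]
      have h2 : y ^ p ∈ Pp := ⟨y, hy, rfl⟩
      have h3 := mem_centralizer_iff.mp (hPpc hz) _ (inv_mem h2)
      rw [← h3]; group
    intro y hy
    have h1 : y ∈ ⁅(P : Subgroup G), zpowers x⁆ := by rw [hcomm]; exact hy
    exact (hle h1).2

/-- quotient of a minimal non-nilpotent group by the derived group of its normal Sylow subgroup -/
theorem min_non_nilpotent_quotient {G : Type*} [Group G] [Finite G] (hG : IsMinimalNonNilpotent G)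
    (q : ℕ) [hq' : Fact q.Prime] (hq : q ∣ Nat.card G) (Q : Sylow q G) (hQ : (Q : Subgroup G).Normal)
    (D : Subgroup G) [D.Normal]
    (hD : D = (_root_.commutator ↥(Q : Subgroup G)).map (Q : Subgroup G).subtype) :
    ¬ IsMulCommutative (G ⧸ D) ∧ ∀ K : Subgroup (G ⧸ D), K ≠ ⊤ → IsMulCommutative K := by
  obtain ⟨p, hp, P, hPn, r, hr, hrp, x, hx, hxC, htop⟩ :=
    MinNil.minimal_non_nilpotent_structure hG.1 hG.2
  haveI := Fact.mk hp
  haveI := Fact.mk hr
  obtain ⟨hxr, hxi⟩ := MinNil.zpowers_sylow hrp P.isPGroup' hx htop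
  have huniq : ∀ (s : ℕ) [Fact s.Prime] (S T : Sylow s G), (S : Subgroup G).Normal →
      (T : Subgroup G) = S := by
    intro s _ S T hS
    obtain ⟨g, hg⟩ := MulAction.exists_smul_eq G S T
    have h2 : MulAut.conj g • (S : Subgroup G) = (T : Subgroup G) := by rw [← hg]; rfl
    rw [← h2]
    exact hS.conjAct g
  have hqp : q = p := by
    by_contra hne
    have hqr : q = r := by
      have h1 := card_sup_mul_card_inf (N := (P : Subgroup G)) (H := zpowers x) (by
        rw [normalizer_eq_top_iff.mpr hPn]; exact le_top)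
      rw [htop, card_top] at h1
      have h2 : q ∣ Nat.card (P : Subgroup G) * Nat.card (zpowers x) := by
        rw [← h1]; exact hq.mul_right _
      rcases hq'.out.dvd_mul.mp h2 with h3 | h3
      · obtain ⟨k, hk⟩ := IsPGroup.iff_card.mp P.isPGroup'
        rw [hk] at h3
        exact absurd ((Nat.prime_dvd_prime_iff_eq hq'.out hp).mp (hq'.out.dvd_of_dvd_pow h3)) hne
      · obtain ⟨k, hk⟩ := IsPGroup.iff_card.mp hxr
        rw [hk] at h3
        exact (Nat.prime_dvd_prime_iff_eq hq'.out hr).mp (hq'.out.dvd_of_dvd_pow h3)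
    subst hqr
    obtain ⟨X, hX⟩ := SuperF.exists_sylow_of_index hxr hxi
    have hXQ := huniq q Q X hQ
    apply hxC
    have h1 : (Q : Subgroup G) ≤ centralizer ((P : Subgroup G) : Set G) := by
      apply SolvMisc.le_centralizer_of_inf_eq_bot
      obtain ⟨k, hk⟩ := IsPGroup.iff_card.mp P.isPGroup'
      obtain ⟨j, hj⟩ := IsPGroup.iff_card.mp Q.isPGroup'
      exact inf_eq_bot_of_coprime (by
        rw [hk, hj]; exact Nat.Coprime.pow _ _ ((Nat.coprime_primes hr hp).mpr hrp))
    apply h1
    rw [← hXQ, hX]; exact mem_zpowers x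
  subst hqp
  have hQP : (Q : Subgroup G) = P := huniq q P Q hPn
  have hDle : D ≤ (P : Subgroup G) := by rw [hD, ← hQP]; exact map_subtype_le _
  have hPab : ∀ a ∈ (P : Subgroup G), ∀ b ∈ (P : Subgroup G), ((a : G) : G ⧸ D) * (b : G) = (b : G) * (a : G) := by
    intro a ha b hb
    rw [← hQP] at ha hb
    have h1 : ⁅a, b⁆ ∈ D := by
      rw [hD]
      refine ⟨⁅(⟨a, ha⟩ : (Q : Subgroup G)), ⟨b, hb⟩⁆, ?_, rfl⟩
      rw [_root_.commutator_def]
      exact commutator_mem_commutator trivial trivial
    rw [← QuotientGroup.eq_one_iff] at h1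
    exact commutatorElement_eq_one_iff_mul_comm.mp h1
  constructor
  · intro hab
    apply hxC
    have h2 := Coprime.le_centralizer_of_frattini (A := zpowers x) (K := (P : Subgroup G)) (by
      rw [normalizer_eq_top_iff.mpr hPn]; exact le_top) (by
      obtain ⟨j, hj⟩ := IsPGroup.iff_card.mp hxr
      obtain ⟨m, hm⟩ := IsPGroup.iff_card.mp (P.isPGroup'.to_subgroup (frattini (P : Subgroup G)))
      rw [hm, hj]; exact Nat.Coprime.pow _ _ ((Nat.coprime_primes hr hp).mpr hrp)) (by
      intro a ha k hk
      have h3 : a * k * a⁻¹ * k⁻¹ ∈ D := by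
        rw [← QuotientGroup.eq_one_iff]
        have h4 := comm_of_isMulCommutative hab (a : G ⧸ D) (k : G ⧸ D)
        exact commutatorElement_eq_one_iff_mul_comm.mpr h4
      rw [hD] at h3
      have h5 : (_root_.commutator ↥(Q : Subgroup G)).map (Q : Subgroup G).subtype =
          (_root_.commutator ↥(P : Subgroup G)).map (P : Subgroup G).subtype := by rw [hQP]
      rw [h5] at h3
      exact map_mono (Nilp.commutator_le_frattini P.isPGroup') h3)
    exact h2 (mem_zpowers x)
  · intro K hK
    have hKp : K.comap (QuotientGroup.mk' D) ≠ ⊤ := by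
      intro h1
      apply hK
      have h2 := congrArg (Subgroup.map (QuotientGroup.mk' D)) h1
      rwa [map_comap_eq_self_of_surjective (QuotientGroup.mk'_surjective D),
        map_top_of_surjective _ (QuotientGroup.mk'_surjective D)] at h2
    have hnil := hG.2 _ hKp
    have hKnil : Group.IsNilpotent K := by
      have h1 : K = (K.comap (QuotientGroup.mk' D)).map (QuotientGroup.mk' D) :=
        (map_comap_eq_self_of_surjective (QuotientGroup.mk'_surjective D) K).symm
      rw [h1]
      exact Cores.isNilpotent_map _ hnil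
    apply isMulCommutative_of
    apply SolvMisc.comm_of_nilpotent_sylow
    intro s hs S a ha b hb
    haveI := Fact.mk hs
    by_cases hsq : s = q
    · subst hsq
      -- `S ≤ P/D`
      have hPD : ((P : Subgroup G).map (QuotientGroup.mk' D)).Normal :=
        hPn.map _ (QuotientGroup.mk'_surjective D)
      have hSle : ∀ c ∈ (S : Subgroup K), ((c : K) : G ⧸ D) ∈ (P : Subgroup G).map (QuotientGroup.mk' D) := by
        intro c hc
        have h1 : IsPGroup s ((S : Subgroup K).map K.subtype) := S.isPGroup'.map _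
        obtain ⟨T, hT⟩ := h1.exists_le_sylow
        have h2 := (P.mapSurjective (QuotientGroup.mk'_surjective D))
        have h3 : (T : Subgroup (G ⧸ D)) = (P : Subgroup G).map (QuotientGroup.mk' D) := by
          obtain ⟨g, hg⟩ := MulAction.exists_smul_eq (G ⧸ D) (P.mapSurjective (QuotientGroup.mk'_surjective D)) T
          have h4 : MulAut.conj g • ((P : Subgroup G).map (QuotientGroup.mk' D)) = (T : Subgroup (G ⧸ D)) := by
            rw [← hg]; rfl
          rw [← h4]
          exact hPD.conjAct g
        rw [← h3]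
        exact hT ⟨c, hc, rfl⟩
      obtain ⟨a', ha', ea⟩ := hSle a ha
      obtain ⟨b', hb', eb⟩ := hSle b hb
      apply Subtype.ext
      change (a : G ⧸ D) * (b : G ⧸ D) = (b : G ⧸ D) * (a : G ⧸ D)
      rw [← ea, ← eb]
      exact hPab a' ha' b' hb'
    · -- `S` embeds in the cyclic group `G/P`
      have hcop : (Nat.card (S : Subgroup K)).Coprime q := Cores.card_coprime_of_isPGroup_ne hs hp hsq S.isPGroup'
      let φ : G ⧸ D →* G ⧸ (P : Subgroup G) := QuotientGroup.map D (P : Subgroup G) (MonoidHom.id G) hDle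
      have hφ : ∀ g : G, φ (g : G ⧸ D) = (g : G ⧸ (P : Subgroup G)) := fun g => rfl
      have hcyc : IsCyclic (G ⧸ (P : Subgroup G)) := by
        refine ⟨(x : G ⧸ (P : Subgroup G)), fun y => ?_⟩
        obtain ⟨y, rfl⟩ := QuotientGroup.mk'_surjective _ y
        have h1 : y ∈ (P : Subgroup G) ⊔ zpowers x := by rw [htop]; trivial
        rw [mem_sup_of_normal_left] at h1
        obtain ⟨u, hu, v, hv, rfl⟩ := h1
        obtain ⟨k, rfl⟩ := mem_zpowers_iff.mp hv
        refine mem_zpowers_iff.mpr ⟨k, ?_⟩
        rw [map_mul]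
        have : QuotientGroup.mk' (P : Subgroup G) u = 1 := (QuotientGroup.eq_one_iff u).mpr hu
        rw [this, one_mul]; rfl
      have hinj : ∀ c ∈ (S : Subgroup K), φ ((c : K) : G ⧸ D) = 1 → c = 1 := by
        intro c hc h1
        obtain ⟨g, hg⟩ := QuotientGroup.mk'_surjective D ((c : K) : G ⧸ D)
        rw [← hg] at h1
        have h2 : g ∈ (P : Subgroup G) := (QuotientGroup.eq_one_iff g).mp h1
        obtain ⟨m, hm⟩ := P.isPGroup' ⟨g, h2⟩
        have h3 : g ^ q ^ m = 1 := congrArg Subtype.val hm
        have h4 : c ^ q ^ m = 1 := by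
          apply Subtype.ext
          change ((c : K) : G ⧸ D) ^ q ^ m = 1
          rw [← hg, ← map_pow, h3, map_one]
        have h5 := orderOf_dvd_of_pow_eq_one h4
        have h6 : orderOf c ∣ Nat.card (S : Subgroup K) := by
          have := orderOf_dvd_natCard (⟨c, hc⟩ : (S : Subgroup K))
          rwa [orderOf_mk] at this
        exact orderOf_eq_one_iff.mp (Nat.eq_one_of_dvd_coprimes (hcop.pow_right m) h6 h5)
      have h7 : a * b * (b * a)⁻¹ = 1 := by
        apply hinj _ (mul_mem (mul_mem ha hb) (inv_mem (mul_mem hb ha)))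
        have h8 := comm_of_isMulCommutative (Cyc.isMulCommutative_of_isCyclic hcyc) (φ ((a : K) : G ⧸ D)) (φ ((b : K) : G ⧸ D))
        have h9 : φ (((a * b * (b * a)⁻¹ : K)) : G ⧸ D) = φ ((a : K) : G ⧸ D) * φ ((b : K) : G ⧸ D) *
            (φ ((b : K) : G ⧸ D) * φ ((a : K) : G ⧸ D))⁻¹ := by
          rw [coe_mul, coe_mul, coe_inv, coe_mul, map_mul, map_mul, map_inv, map_mul]
        rw [h9, h8, mul_inv_cancel]
      exact mul_inv_eq_one.mp h7

/-- abelian maximal subgroups -/
theorem abelian_maximal {G : Type*} [Group G] [Finite G] {A : Subgroup G} (hA : IsCoatom A)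
    (hAc : ∀ x ∈ A, ∀ y ∈ A, x * y = y * x) : derivedSeries G 3 = ⊥ := by
  have hd : ∀ N Z : Subgroup G, _root_.commutator G ≤ N → ⁅N, N⁆ ≤ Z → ⁅Z, Z⁆ = ⊥ →
      derivedSeries G 3 = ⊥ := by
    intro N Z h1 h2 h3
    rw [eq_bot_iff, ← h3]
    change ⁅⁅⁅(⊤ : Subgroup G), ⊤⁆, ⁅(⊤ : Subgroup G), ⊤⁆⁆, ⁅⁅(⊤ : Subgroup G), ⊤⁆, ⁅(⊤ : Subgroup G), ⊤⁆⁆⁆ ≤ _
    rw [_root_.commutator_def] at h1
    have h4 := (commutator_mono h1 h1).trans h2
    exact commutator_mono h4 h4
  have hAA : ⁅A, A⁆ = ⊥ := by
    rw [commutator_eq_bot_iff_le_centralizer]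
    intro x hx
    rw [mem_centralizer_iff]
    intro y hy
    exact hAc y hy x hx
  by_cases hAn : A.Normal
  · -- `G/A` has prime order
    have hcyc : IsCyclic (G ⧸ A) := by
      have hnt : Nontrivial (G ⧸ A) := by
        rw [← Finite.one_lt_card_iff_nontrivial, ← index_eq_card]
        have h1 : A.index ≠ 1 := fun h => hA.1 (index_eq_one.mp h)
        have h2 : A.index ≠ 0 := index_ne_zero_of_finite
        omega
      obtain ⟨y, hy⟩ := exists_ne (1 : G ⧸ A)
      obtain ⟨g, rfl⟩ := QuotientGroup.mk'_surjective A y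
      have hg : g ∉ A := fun h => hy ((QuotientGroup.eq_one_iff g).mpr h)
      have h1 : A ⊔ zpowers g = ⊤ := hA.2 _ (lt_of_le_of_ne le_sup_left (fun h => hg (by
        rw [h]; exact mem_sup_right (mem_zpowers g))))
      refine ⟨QuotientGroup.mk' A g, fun z => ?_⟩
      obtain ⟨z, rfl⟩ := QuotientGroup.mk'_surjective A z
      have h2 : z ∈ A ⊔ zpowers g := by rw [h1]; trivial
      rw [mem_sup_of_normal_left] at h2
      obtain ⟨u, hu, v, hv, rfl⟩ := h2
      obtain ⟨k, rfl⟩ := mem_zpowers_iff.mp hv
      refine mem_zpowers_iff.mpr ⟨k, ?_⟩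
      rw [map_mul]
      have : QuotientGroup.mk' A u = 1 := (QuotientGroup.eq_one_iff u).mpr hu
      rw [this, one_mul, map_zpow]
    refine hd A A ?_ (by rw [hAA]; exact bot_le) hAA
    rw [_root_.commutator_def, commutator_le]
    intro x _ y _
    rw [← QuotientGroup.eq_one_iff]
    exact commutatorElement_eq_one_iff_mul_comm.mpr
      (comm_of_isMulCommutative (Cyc.isMulCommutative_of_isCyclic hcyc) (x : G ⧸ A) (y : G ⧸ A))
  · have hZA : center G ≤ A := by
      by_contra hle
      apply hAn
      have h1 : A ⊔ center G = ⊤ := hA.2 _ (lt_of_le_of_ne le_sup_left (fun h => hle (by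
        conv_rhs => rw [h]
        exact le_sup_right)))
      apply normalizer_eq_top_iff.mp
      rw [eq_top_iff, ← h1]
      refine sup_le le_normalizer ?_
      refine (center_le_centralizer (A : Set G)).trans (centralizer_le_normalizer _)
    have hconj : ∀ g : G, g ∉ A → A ⊓ MulAut.conj g • A ≤ center G := by
      intro g hg
      have hne : MulAut.conj g • A ≠ A := by
        intro h
        have h1 := Coprime.mem_normalizer_of_conj_smul_eq h
        have h2 : normalizer (A : Set G) = A := by
          rcases hA.le_iff.mp (le_normalizer (H := A)) with h3 | h3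
          · exact absurd (normalizer_eq_top_iff.mp h3) hAn
          · exact h3
        rw [h2] at h1
        exact hg h1
      have hsup : A ⊔ MulAut.conj g • A = ⊤ := hA.2 _ (lt_of_le_of_ne le_sup_left (fun h => hne (by
        apply eq_of_le_of_card_ge
        · conv_rhs => rw [h]
          exact le_sup_right
        · rw [SchurZas.card_conj_smul])))
      intro x hx
      have hx1 := (mem_inf.mp hx).1
      have hx2 := (mem_inf.mp hx).2
      have h1 : centralizer {x} = ⊤ := by
        rw [eq_top_iff, ← hsup]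
        apply sup_le
        · intro y hy
          rw [mem_centralizer_singleton_iff]
          exact hAc y hy x hx1
        · intro y hy
          rw [mem_centralizer_singleton_iff]
          rw [SchurZas.mem_conj_smul_iff] at hy hx2
          have := hAc _ hy _ hx2
          calc y * x = g * ((g⁻¹ * y * g) * (g⁻¹ * x * g)) * g⁻¹ := by group
            _ = _ := by rw [this]; group
      rw [mem_center_iff]
      intro y
      have : y ∈ centralizer {x} := by rw [h1]; trivial
      exact mem_centralizer_singleton_iff.mp this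
    have hsurj := QuotientGroup.mk'_surjective (center G)
    have hcm : (A.map (QuotientGroup.mk' (center G))).comap (QuotientGroup.mk' (center G)) = A := by
      rw [QuotientGroup.comap_map_mk', sup_eq_right.mpr hZA]
    have hco : IsCoatom (A.map (QuotientGroup.mk' (center G))) := NilpB.isCoatom_map_mk hA hZA
    have hFr : IsFrobeniusComplement (A.map (QuotientGroup.mk' (center G))) := by
      refine ⟨?_, hco.1, ?_⟩
      · intro h
        rw [Subgroup.map_eq_bot_iff, QuotientGroup.ker_mk'] at h
        apply hAn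
        have : A = center G := le_antisymm h hZA
        rw [this]; infer_instance
      · intro g hg
        obtain ⟨g, rfl⟩ := hsurj g
        have hg' : g ∉ A := fun h => hg (mem_map_of_mem _ h)
        rw [eq_bot_iff, ← SchurZas.map_conj_smul]
        rintro _ ⟨⟨a, ha, rfl⟩, ⟨b, hb, e⟩⟩
        have h1 : a⁻¹ * b ∈ center G := QuotientGroup.eq.mp e.symm
        have h2 : a ∈ MulAut.conj g • A := by
          have h3 : center G ≤ MulAut.conj g • A := by
            intro z hz
            rw [SchurZas.mem_conj_smul_iff]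
            apply hZA
            have := (inferInstance : (center G).Normal).conj_mem z hz g⁻¹
            rwa [inv_inv] at this
          have h4 : a = b * (a⁻¹ * b)⁻¹ := by group
          rw [h4]
          exact mul_mem hb (inv_mem (h3 h1))
        rw [mem_bot]
        exact (QuotientGroup.eq_one_iff a).mpr (hconj g hg' (mem_inf.mpr ⟨ha, h2⟩))
    obtain ⟨N, hN, hNn, hNnil⟩ := Cfsg.Agent.S0042.result _ hFr
    have hNc := FrobGrp.kernel_isComplement' hFr hN.symm
    have hN0 := FrobGrp.kernel_ne_bot hFr hN.symm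
    -- `N` is abelian
    have hNN : ⁅N, N⁆ = ⊥ := by
      have hsol : Group.IsSolvable N := inferInstance
      have hlt := SchurZas.commutator_lt_of_solvable hsol hN0
      by_contra hne
      have hle : A.map (QuotientGroup.mk' (center G)) ≤ ⁅N, N⁆ ⊔ A.map (QuotientGroup.mk' (center G)) :=
        le_sup_right
      rcases hco.le_iff.mp hle with h | h
      · have h1 := card_sup_mul_card_inf (N := ⁅N, N⁆) (H := A.map (QuotientGroup.mk' (center G))) (by
          rw [normalizer_eq_top_iff.mpr inferInstance]; exact le_top)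
        rw [h, card_top, ← hNc.card_mul_card] at h1
        have h2 := card_lt_card_of_lt hlt
        have h3 : 0 < Nat.card (⁅N, N⁆ ⊓ A.map (QuotientGroup.mk' (center G)) : Subgroup _) := Nat.card_pos
        have h4 : 0 < Nat.card (A.map (QuotientGroup.mk' (center G))) := Nat.card_pos
        have h5 : Nat.card (⁅N, N⁆ : Subgroup _) * Nat.card (A.map (QuotientGroup.mk' (center G))) <
            Nat.card N * Nat.card (A.map (QuotientGroup.mk' (center G))) :=
          Nat.mul_lt_mul_of_pos_right h2 h4
        have h6 := Nat.le_mul_of_pos_right (Nat.card N * Nat.card (A.map (QuotientGroup.mk' (center G)))) h3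
        omega
      · have h1 : ⁅N, N⁆ ≤ N ⊓ A.map (QuotientGroup.mk' (center G)) :=
          le_inf hlt.le (by conv_rhs => rw [← h]
                            exact le_sup_left)
        rw [hNc.disjoint.eq_bot, le_bot_iff] at h1
        exact hne h1
    have hAbar : ∀ x ∈ A.map (QuotientGroup.mk' (center G)), ∀ y ∈ A.map (QuotientGroup.mk' (center G)),
        x * y = y * x := by
      rintro _ ⟨x, hx, rfl⟩ _ ⟨y, hy, rfl⟩
      rw [← map_mul, hAc x hx y hy, map_mul]
    refine hd (N.comap (QuotientGroup.mk' (center G))) (center G) ?_ ?_ ?_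
    · rw [_root_.commutator_def, commutator_le]
      intro x _ y _
      rw [mem_comap, map_commutatorElement]
      have hdec : ∀ z : G ⧸ center G, ∃ n ∈ N, ∃ a ∈ A.map (QuotientGroup.mk' (center G)), z = n * a := by
        intro z
        have : z ∈ N ⊔ A.map (QuotientGroup.mk' (center G)) := by rw [hNc.sup_eq_top]; trivial
        rw [mem_sup_of_normal_left] at this
        obtain ⟨n, hn, a, ha, e⟩ := this
        exact ⟨n, hn, a, ha, e.symm⟩
      obtain ⟨n, hn, a, ha, e1⟩ := hdec (QuotientGroup.mk' (center G) x)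
      obtain ⟨m, hm, b, hb, e2⟩ := hdec (QuotientGroup.mk' (center G) y)
      rw [e1, e2, ← QuotientGroup.eq_one_iff]
      have n1 : ((n : G ⧸ center G) : (G ⧸ center G) ⧸ N) = 1 := (QuotientGroup.eq_one_iff n).mpr hn
      have m1 : ((m : G ⧸ center G) : (G ⧸ center G) ⧸ N) = 1 := (QuotientGroup.eq_one_iff m).mpr hm
      rw [commutatorElement_def]
      simp only [QuotientGroup.mk_mul, QuotientGroup.mk_inv, n1, m1, one_mul]
      have h5 := congrArg (QuotientGroup.mk (s := N)) (hAbar a ha b hb)
      simp only [QuotientGroup.mk_mul] at h5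
      rw [h5]; group
    · rw [commutator_le]
      intro x hx y hy
      rw [← QuotientGroup.eq_one_iff]
      have h1 : ⁅QuotientGroup.mk' (center G) x, QuotientGroup.mk' (center G) y⁆ ∈ ⁅N, N⁆ :=
        commutator_mem_commutator hx hy
      rw [hNN, mem_bot] at h1
      exact h1
    · rw [commutator_eq_bot_iff_le_centralizer]
      exact center_le_centralizer _

end Cfsg.Agent.Lib.SolvMiscB
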