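import Mathlib
import Cfsg.Agent.Lib.BForm4
import Cfsg.Agent.Lib.Symp3

/-! The stabilizer of a nondegenerate subspace in the symplectic group. -/

set_option autoImplicit false
set_option maxHeartbeats 800000

namespace Cfsg.Agent.Lib.SpSplit

open Cfsg.Agent.Lib.Symp Cfsg.Agent.Lib.BForm Matrix Module

variable {F : Type*} [Field F] {m a b : ℕ}

/-- the block embedding -/
noncomputable def blk (e : ((Fin a ⊕ Fin a → F) × (Fin b ⊕ Fin b → F)) ≃ₗ[F] (Fin m ⊕ Fin m → F))
    (p : Matrix.symplecticGroup (Fin a) F × Matrix.symplecticGroup (Fin b) F) :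
    (Fin m ⊕ Fin m → F) →ₗ[F] (Fin m ⊕ Fin m → F) :=
  e.toLinearMap ∘ₗ ((spE a F p.1).prodMap (spE b F p.2)) ∘ₗ e.symm.toLinearMap

theorem blk_apply (e : ((Fin a ⊕ Fin a → F) × (Fin b ⊕ Fin b → F)) ≃ₗ[F] (Fin m ⊕ Fin m → F))
    (p : Matrix.symplecticGroup (Fin a) F × Matrix.symplecticGroup (Fin b) F) (x : Fin m ⊕ Fin m → F) :
    blk e p x = e (p.1.1 *ᵥ (e.symm x).1, p.2.1 *ᵥ (e.symm x).2) := rfl

theorem split (e : ((Fin a ⊕ Fin a → F) × (Fin b ⊕ Fin b → F)) ≃ₗ[F] (Fin m ⊕ Fin m → F))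
    (he : ∀ u v u' v', Cfsg.sympForm m F (e (u, v)) (e (u', v')) = Cfsg.sympForm a F u u' + Cfsg.sympForm b F v v')
    (W : Submodule F (Fin m ⊕ Fin m → F)) (hW : ∀ x, x ∈ W ↔ (e.symm x).2 = 0) :
    Nonempty (↥(Cfsg.stabilizing (Cfsg.spToMat m F) (W : Set (Fin m ⊕ Fin m → F))) ≃*
      Matrix.symplecticGroup (Fin a) F × Matrix.symplecticGroup (Fin b) F) := by
  classical
  have he' : ∀ x y, Cfsg.sympForm m F x y = Cfsg.sympForm a F (e.symm x).1 (e.symm y).1 +
      Cfsg.sympForm b F (e.symm x).2 (e.symm y).2 := by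
    intro x y
    rw [← he]
    congr 1
    · exact (e.apply_symm_apply x).symm
    · exact (e.apply_symm_apply y).symm
  have hform1 : ∀ (g : Matrix.symplecticGroup (Fin a) F) (u v), Cfsg.sympForm a F ((g : Matrix _ _ F) *ᵥ u) ((g : Matrix _ _ F) *ᵥ v) = Cfsg.sympForm a F u v :=
    fun g u v => (mem_iff_preserves _).1 g.2 u v
  have hform2 : ∀ (g : Matrix.symplecticGroup (Fin b) F) (u v), Cfsg.sympForm b F ((g : Matrix _ _ F) *ᵥ u) ((g : Matrix _ _ F) *ᵥ v) = Cfsg.sympForm b F u v :=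
    fun g u v => (mem_iff_preserves _).1 g.2 u v
  have hformm : ∀ (g : Matrix.symplecticGroup (Fin m) F) (u v), Cfsg.sympForm m F ((g : Matrix _ _ F) *ᵥ u) ((g : Matrix _ _ F) *ᵥ v) = Cfsg.sympForm m F u v :=
    fun g u v => (mem_iff_preserves _).1 g.2 u v
  have hmat : ∀ (p : Matrix.symplecticGroup (Fin a) F × Matrix.symplecticGroup (Fin b) F) x,
      (LinearMap.toMatrix' (blk e p)) *ᵥ x = blk e p x := by
    intro p x
    rw [← Matrix.toLin'_apply, Matrix.toLin'_toMatrix']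
  have hmem : ∀ p, LinearMap.toMatrix' (blk e p) ∈ Matrix.symplecticGroup (Fin m) F := by
    intro p
    rw [mem_iff_preserves]
    intro u v
    rw [hmat, hmat, blk_apply, blk_apply, he, hform1, hform2, ← he']
  let ψ : Matrix.symplecticGroup (Fin a) F × Matrix.symplecticGroup (Fin b) F →* Matrix.symplecticGroup (Fin m) F :=
    { toFun := fun p => ⟨LinearMap.toMatrix' (blk e p), hmem p⟩
      map_one' := by
        apply Subtype.ext
        apply ext_mulVec
        intro x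
        show (LinearMap.toMatrix' (blk e 1)) *ᵥ x = (1 : Matrix _ _ F) *ᵥ x
        rw [hmat, blk_apply, Matrix.one_mulVec]
        show e ((1 : Matrix _ _ F) *ᵥ (e.symm x).1, (1 : Matrix _ _ F) *ᵥ (e.symm x).2) = x
        rw [Matrix.one_mulVec, Matrix.one_mulVec]
        exact e.apply_symm_apply x
      map_mul' := by
        intro p q
        apply Subtype.ext
        apply ext_mulVec
        intro x
        show (LinearMap.toMatrix' (blk e (p * q))) *ᵥ x = ((LinearMap.toMatrix' (blk e p)) * (LinearMap.toMatrix' (blk e q))) *ᵥ x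
        rw [← Matrix.mulVec_mulVec, hmat, hmat, hmat, blk_apply, blk_apply, blk_apply, e.symm_apply_apply]
        show e ((p.1.1 * q.1.1) *ᵥ _, (p.2.1 * q.2.1) *ᵥ _) = _
        rw [← Matrix.mulVec_mulVec, ← Matrix.mulVec_mulVec] }
  have hψ : ∀ p x, ((ψ p : Matrix.symplecticGroup (Fin m) F) : Matrix _ _ F) *ᵥ x =
      e (p.1.1 *ᵥ (e.symm x).1, p.2.1 *ᵥ (e.symm x).2) := fun p x => hmat p x
  have hstab : ∀ p, ψ p ∈ Cfsg.stabilizing (Cfsg.spToMat m F) (W : Set (Fin m ⊕ Fin m → F)) := by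
    intro p v
    show v ∈ W ↔ ((ψ p : Matrix.symplecticGroup (Fin m) F) : Matrix _ _ F) *ᵥ v ∈ W
    rw [hW, hW, hψ, e.symm_apply_apply]
    constructor
    · intro h
      show p.2.1 *ᵥ (e.symm v).2 = 0
      rw [h, Matrix.mulVec_zero]
    · intro h
      have h' : p.2.1 *ᵥ (e.symm v).2 = 0 := h
      apply mulVec_injective p.2
      show p.2.1 *ᵥ (e.symm v).2 = p.2.1 *ᵥ 0
      rw [h', Matrix.mulVec_zero]
  let ψ' := ψ.codRestrict _ hstab
  refine ⟨(MulEquiv.ofBijective ψ' ⟨?_, ?_⟩).symm⟩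
  · intro p q hpq
    have h1 : ψ p = ψ q := congrArg Subtype.val hpq
    have h2 : ∀ u v, (p.1.1 *ᵥ u, p.2.1 *ᵥ v) = (q.1.1 *ᵥ u, q.2.1 *ᵥ v) := by
      intro u v
      have h3 := hψ p (e (u, v))
      rw [h1, hψ, e.symm_apply_apply] at h3
      exact (e.injective h3).symm
    apply Prod.ext
    · apply Subtype.ext
      apply ext_mulVec
      intro u
      exact congrArg Prod.fst (h2 u 0)
    · apply Subtype.ext
      apply ext_mulVec
      intro v
      exact congrArg Prod.snd (h2 0 v)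
  · rintro ⟨g, hg⟩
    have hgW : ∀ v, v ∈ W ↔ (g : Matrix _ _ F) *ᵥ v ∈ W := hg
    have hgi : ∀ v, v ∈ W → ∃ w ∈ W, (g : Matrix _ _ F) *ᵥ w = v := by
      intro v hv
      refine ⟨((g⁻¹ : Matrix.symplecticGroup (Fin m) F) : Matrix _ _ F) *ᵥ v, ?_, mulVec_inv_mulVec g v⟩
      rw [hgW]
      rw [mulVec_inv_mulVec g v]
      exact hv
    let gl : (Fin m ⊕ Fin m → F) →ₗ[F] (Fin m ⊕ Fin m → F) := Matrix.mulVecLin (g : Matrix _ _ F)
    let A : (Fin a ⊕ Fin a → F) →ₗ[F] (Fin a ⊕ Fin a → F) :=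
      LinearMap.fst F _ _ ∘ₗ e.symm.toLinearMap ∘ₗ gl ∘ₗ e.toLinearMap ∘ₗ LinearMap.inl F _ _
    let B : (Fin b ⊕ Fin b → F) →ₗ[F] (Fin b ⊕ Fin b → F) :=
      LinearMap.snd F _ _ ∘ₗ e.symm.toLinearMap ∘ₗ gl ∘ₗ e.toLinearMap ∘ₗ LinearMap.inr F _ _
    have hA : ∀ u, e.symm ((g : Matrix _ _ F) *ᵥ e (u, 0)) = (A u, 0) := by
      intro u
      apply Prod.ext
      · rfl
      · have h1 : e (u, 0) ∈ W := by rw [hW, e.symm_apply_apply]
        exact (hW _).1 ((hgW _).1 h1)
    have hB : ∀ v, e.symm ((g : Matrix _ _ F) *ᵥ e (0, v)) = (0, B v) := by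
      intro v
      apply Prod.ext
      · show (e.symm ((g : Matrix _ _ F) *ᵥ e (0, v))).1 = 0
        apply eq_zero_of_forall_sympForm
        intro u
        have h1 : e (u, 0) ∈ W := by rw [hW, e.symm_apply_apply]
        obtain ⟨w, hw, hgw⟩ := hgi _ h1
        have h2 : Cfsg.sympForm m F ((g : Matrix _ _ F) *ᵥ e (0, v)) (e (u, 0)) = 0 := by
          rw [← hgw, hformm, he', e.symm_apply_apply, (hW w).1 hw, sympForm_zero_left, sympForm_zero_right, add_zero]
        rw [he', e.symm_apply_apply, sympForm_zero_right, add_zero] at h2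
        have h3 : Cfsg.sympForm a F u (e.symm ((g : Matrix _ _ F) *ᵥ e (0, v))).1 = 0 := by
          rw [sympForm_swap, neg_eq_zero]
          exact h2
        exact h3
      · rfl
    have hA' : ∀ x, (LinearMap.toMatrix' A) *ᵥ x = A x := by
      intro x
      rw [← Matrix.toLin'_apply, Matrix.toLin'_toMatrix']
    have hB' : ∀ x, (LinearMap.toMatrix' B) *ᵥ x = B x := by
      intro x
      rw [← Matrix.toLin'_apply, Matrix.toLin'_toMatrix']
    have hAm : LinearMap.toMatrix' A ∈ Matrix.symplecticGroup (Fin a) F := by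
      rw [mem_iff_preserves]
      intro u v
      rw [hA', hA']
      have h1 := hformm g (e (u, 0)) (e (v, 0))
      rw [he', he', hA, hA, e.symm_apply_apply, e.symm_apply_apply, sympForm_zero_left, add_zero, add_zero] at h1
      exact h1
    have hBm : LinearMap.toMatrix' B ∈ Matrix.symplecticGroup (Fin b) F := by
      rw [mem_iff_preserves]
      intro u v
      rw [hB', hB']
      have h1 := hformm g (e (0, u)) (e (0, v))
      rw [he', he', hB, hB, e.symm_apply_apply, e.symm_apply_apply, sympForm_zero_left, zero_add, zero_add] at h1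
      exact h1
    refine ⟨(⟨_, hAm⟩, ⟨_, hBm⟩), ?_⟩
    apply Subtype.ext
    show ψ (⟨_, hAm⟩, ⟨_, hBm⟩) = g
    apply Subtype.ext
    apply ext_mulVec
    intro x
    rw [hψ]
    show e ((LinearMap.toMatrix' A) *ᵥ (e.symm x).1, (LinearMap.toMatrix' B) *ᵥ (e.symm x).2) = _
    rw [hA', hB']
    apply e.symm.injective
    rw [e.symm_apply_apply]
    have hx : x = e ((e.symm x).1, 0) + e (0, (e.symm x).2) := by
      rw [← map_add, Prod.mk_add_mk, add_zero, zero_add]
      exact (e.apply_symm_apply x).symm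
    conv_rhs => rw [hx, Matrix.mulVec_add, map_add, hA, hB, Prod.mk_add_mk, add_zero, zero_add]

end Cfsg.Agent.Lib.SpSplit
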