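import Mathlib
import Cfsg.Agent.Lib.Spc2

/-! Split extensions, diagonal involutions. -/

set_option linter.all false
set_option maxHeartbeats 400000

namespace Cfsg.Agent.Lib.Spc

theorem v2_dec {n : ℕ} (hn : n ≠ 0) : ∃ m, n = 2 ^ padicValNat 2 n * m ∧ Odd m := by
  obtain ⟨m, hm⟩ := pow_padicValNat_dvd (p := 2) (n := n)
  refine ⟨m, hm, ?_⟩
  rw [← Nat.not_even_iff_odd, even_iff_two_dvd]
  rintro ⟨k, rfl⟩
  have h1 : 2 ^ (padicValNat 2 n + 1) ∣ n := by
    rw [pow_succ]
    exact ⟨k, by rw [mul_assoc]; exact hm⟩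
  exact pow_succ_padicValNat_not_dvd hn h1

theorem sq_eq_one_iff_cases {F : Type*} [Field F] {x : F} (h : x ^ 2 = 1) : x = 1 ∨ x = -1 := by
  rw [pow_two] at h
  exact mul_self_eq_one_iff.mp h

theorem s2575 {F : Type*} [Field F] [Fintype F] {q : ℕ} (hF : Fintype.card F = q) (hq : Odd q) {n : ℕ} (hn : 1 ≤ n) (i : ℕ) (hi : i ≤ n) :
    (∃ c : F, c ≠ 0 ∧ (c • Matrix.diagonal (fun j : Fin n => if (j : ℕ) < i then (-1 : F) else 1)).det = 1) ↔ (Even i ∨ padicValNat 2 n < padicValNat 2 (q - 1)) := by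
  classical
  have hne := neg_one_ne hF hq
  have hq1 : 1 < q := by rw [← hF]; exact Fintype.one_lt_card
  have hdet : ∀ c : F, (c • Matrix.diagonal (fun j : Fin n => if (j : ℕ) < i then (-1 : F) else 1)).det = c ^ n * (-1) ^ i := by
    intro c
    rw [Matrix.det_smul, Fintype.card_fin, Matrix.det_diagonal, Finset.prod_ite, Finset.prod_const_one, mul_one, Finset.prod_const]
    congr 2
    have h1 : (Finset.univ.filter (fun j : Fin n => (j : ℕ) < i)).card = (Finset.range i).card := by
      rw [← Finset.card_map Fin.valEmbedding]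
      congr 1
      ext k
      simp only [Finset.mem_map, Finset.mem_filter, Finset.mem_univ, true_and, Finset.mem_range, Fin.valEmbedding_apply]
      constructor
      · rintro ⟨a, ha, rfl⟩; exact ha
      · intro h
        exact ⟨⟨k, by omega⟩, h, rfl⟩
    rw [h1, Finset.card_range]
  simp only [hdet]
  obtain ⟨n', hn', hno⟩ := v2_dec (n := n) (by omega)
  obtain ⟨o, ho, hoo⟩ := v2_dec (n := q - 1) (by omega)
  set b := padicValNat 2 n
  set a := padicValNat 2 (q - 1)
  constructor
  · rintro ⟨c, hc, h⟩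
    by_contra hcon
    push Not at hcon
    obtain ⟨h1, h2⟩ := hcon
    rw [Nat.not_even_iff_odd] at h1
    rw [h1.neg_one_pow] at h
    have h3 : c ^ n = -1 := by linear_combination -h
    have h4 : c ^ (n * o) = 1 := by
      have : n * o = (q - 1) * (2 ^ (b - a) * n') := by
        rw [ho]
        nth_rewrite 1 [hn']
        have : 2 ^ b = 2 ^ a * 2 ^ (b - a) := by rw [← pow_add]; congr 1; omega
        rw [this]; ring
      rw [this, pow_mul, ← hF, FiniteField.pow_card_sub_one_eq_one c hc, one_pow]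
    rw [pow_mul, h3, hoo.neg_one_pow] at h4
    exact hne h4
  · rintro (h | h)
    · exact ⟨1, one_ne_zero, by rw [one_pow, one_mul, h.neg_one_pow]⟩
    · rcases Nat.even_or_odd i with hi' | hi'
      · exact ⟨1, one_ne_zero, by rw [one_pow, one_mul, hi'.neg_one_pow]⟩
      · obtain ⟨u, hu⟩ := IsCyclic.exists_ofOrder_eq_natCard (α := Fˣ)
        have hu' : orderOf u = q - 1 := by rw [hu, Nat.card_eq_fintype_card, Fintype.card_units, hF]
        have hqe : 2 * ((q - 1) / 2) = q - 1 := by
          have := Nat.odd_iff.mp hq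
          omega
        have h5 : (u : F) ^ ((q - 1) / 2) = -1 := by
          have h6 : ((u : F) ^ ((q - 1) / 2)) ^ 2 = 1 := by
            rw [← pow_mul, mul_comm, hqe, ← Units.val_pow_eq_pow_val, ← hu', pow_orderOf_eq_one, Units.val_one]
          rcases (sq_eq_one_iff_cases h6) with h7 | h7
          · exfalso
            have h8 : u ^ ((q - 1) / 2) = 1 := Units.ext (by rw [Units.val_pow_eq_pow_val, h7, Units.val_one])
            have h9 := orderOf_dvd_of_pow_eq_one h8
            rw [hu'] at h9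
            have := Nat.le_of_dvd (by omega) h9
            omega
          · exact h7
        have h6 : (q - 1) / 2 = 2 ^ b * (2 ^ (a - 1 - b) * o) := by
          have : 2 ^ a = 2 * (2 ^ b * 2 ^ (a - 1 - b)) := by
            rw [← pow_add, ← pow_succ']; congr 1; omega
          rw [ho, this]
          rw [mul_assoc, Nat.mul_div_cancel_left _ (by norm_num : 0 < 2), mul_assoc]
        refine ⟨(u : F) ^ (2 ^ (a - 1 - b) * o), pow_ne_zero _ u.ne_zero, ?_⟩
        rw [hi'.neg_one_pow]
        have h7 : ((u : F) ^ (2 ^ (a - 1 - b) * o)) ^ n = -1 := by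
          rw [hn', ← pow_mul, show 2 ^ (a - 1 - b) * o * (2 ^ b * n') = (2 ^ b * (2 ^ (a - 1 - b) * o)) * n' by ring, ← h6, pow_mul, h5, hno.neg_one_pow]
        rw [h7]; ring

theorem s2576 {F : Type*} [Field F] [Fintype F] {q : ℕ} (hF : Fintype.card F = q) (hq : Odd q) {m : ℕ} (hm : 1 ≤ m) (μ : F) (hμ : orderOf μ = 2 ^ padicValNat 2 (q - 1)) :
    (∃ c : F, c ≠ 0 ∧ (c • Matrix.blockDiagonal (fun _ : Fin m => !![(0 : F), 1; μ, 0])).det = 1) ↔ (q % 4 = 3 ∨ padicValNat 2 (q - 1) < padicValNat 2 (2 * m)) := by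
  classical
  have hne := neg_one_ne hF hq
  have hq1 : 1 < q := by rw [← hF]; exact Fintype.one_lt_card
  have hq2 := Nat.odd_iff.mp hq
  have hdet : ∀ c : F, (c • Matrix.blockDiagonal (fun _ : Fin m => !![(0 : F), 1; μ, 0])).det = c ^ (2 * m) * (-μ) ^ m := by
    intro c
    rw [Matrix.det_smul, Fintype.card_prod, Fintype.card_fin, Fintype.card_fin, Matrix.det_blockDiagonal, Finset.prod_const, Finset.card_univ, Fintype.card_fin,
      Matrix.det_fin_two_of]
    congr 2
    ring
  simp only [hdet]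
  obtain ⟨m', hm', hmo⟩ := v2_dec (n := m) (by omega)
  obtain ⟨o, ho, hoo⟩ := v2_dec (n := q - 1) (by omega)
  have hv : padicValNat 2 (2 * m) = padicValNat 2 m + 1 := by
    rw [padicValNat.mul (by norm_num) (by omega), padicValNat.self (by norm_num), add_comm]
  rw [hv]
  set b := padicValNat 2 m
  set a := padicValNat 2 (q - 1)
  have ha1 : 1 ≤ a := by
    by_contra h
    have h0 : a = 0 := by omega
    rw [h0, pow_zero, one_mul] at ho
    have := Nat.odd_iff.mp hoo
    omega
  have hμa : μ ^ 2 ^ a = 1 := by rw [← hμ, pow_orderOf_eq_one]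
  have hμ1 : μ ^ 2 ^ (a - 1) = -1 := by
    have h6 : (μ ^ 2 ^ (a - 1)) ^ 2 = 1 := by
      rw [← pow_mul, ← pow_succ, Nat.sub_add_cancel ha1, hμa]
    rcases (sq_eq_one_iff_cases h6) with h7 | h7
    · exfalso
      have h9 := orderOf_dvd_of_pow_eq_one h7
      rw [hμ] at h9
      have := Nat.le_of_dvd (by positivity) h9
      have h10 : 2 ^ (a - 1) < 2 ^ a := Nat.pow_lt_pow_right (by norm_num) (by omega)
      omega
    · exact h7
  constructor
  · rintro ⟨c, hc, h⟩
    by_contra hcon
    push Not at hcon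
    obtain ⟨h1, h2⟩ := hcon
    have ha2 : 2 ≤ a := by
      by_contra h
      have h0 : a = 1 := by omega
      rw [h0, pow_one] at ho
      have := Nat.odd_iff.mp hoo
      omega
    have h3 : (c ^ (2 * m) * (-μ) ^ m) ^ (o * 2 ^ (a - 1 - b)) = 1 := by rw [h, one_pow]
    rw [mul_pow, ← pow_mul, ← pow_mul] at h3
    have h4 : 2 * m * (o * 2 ^ (a - 1 - b)) = (q - 1) * m' := by
      rw [ho]
      nth_rewrite 1 [hm']
      have : 2 ^ a = 2 * (2 ^ b * 2 ^ (a - 1 - b)) := by
        rw [← pow_add, ← pow_succ']; congr 1; omega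
      rw [this]; ring
    have h5 : m * (o * 2 ^ (a - 1 - b)) = 2 ^ (a - 1) * (m' * o) := by
      nth_rewrite 1 [hm']
      have : 2 ^ (a - 1) = 2 ^ b * 2 ^ (a - 1 - b) := by
        rw [← pow_add]; congr 1; omega
      rw [this]; ring
    rw [h4, h5, pow_mul, ← hF, FiniteField.pow_card_sub_one_eq_one c hc, one_pow, one_mul, pow_mul] at h3
    have h6 : Even (2 ^ (a - 1)) := (Nat.even_pow.mpr ⟨even_two, by omega⟩)
    rw [h6.neg_pow, hμ1, (hmo.mul hoo).neg_one_pow] at h3
    exact hne h3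
  · rintro (h | h)
    · have h0 : a = 1 := by
        by_contra h1
        have h2 : 2 ≤ a := by omega
        have h3 : 4 ∣ q - 1 := by
          rw [ho]
          exact Dvd.dvd.mul_right ((by norm_num : 4 = 2 ^ 2) ▸ pow_dvd_pow 2 h2) _
        omega
      rw [h0, Nat.sub_self, pow_zero, pow_one] at hμ1
      exact ⟨1, one_ne_zero, by rw [hμ1, neg_neg, one_pow, one_pow, one_mul]⟩
    · refine ⟨1, one_ne_zero, ?_⟩
      rw [one_pow, one_mul]
      have h1 : m = 2 ^ a * (2 ^ (b - a) * m') := by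
        nth_rewrite 1 [hm']
        have : 2 ^ b = 2 ^ a * 2 ^ (b - a) := by rw [← pow_add]; congr 1; omega
        rw [this]; ring
      have h6 : Even (2 ^ a) := (Nat.even_pow.mpr ⟨even_two, by omega⟩)
      rw [h1, pow_mul, h6.neg_pow, hμa, one_pow]

end Cfsg.Agent.Lib.Spc
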