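import Cfsg.Agent.Lib.Resid
import Cfsg.Agent.Lib.SchurZas

/-!
# Splitting over `O^p(G)` when its Sylow `p`-subgroups are abelian
-/

open Subgroup Cfsg
open scoped commutatorElement Pointwise

namespace Cfsg.Agent.Lib.SplitR

open Cfsg.Agent.Lib.Resid Cfsg.Agent.Lib.PNilp

variable {G : Type*} [Group G]

theorem mem_normalizer_map {N : Subgroup G} {P : Subgroup N} {x : N} :
    (x : G) ∈ normalizer ((P.map N.subtype : Subgroup G) : Set G) ↔ x ∈ normalizer (P : Set N) := by
  rw [mem_normalizer_iff, mem_normalizer_iff]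
  constructor
  · intro h y
    have h1 := h (y : G)
    have h2 : ∀ z : N, (z : G) ∈ P.map N.subtype ↔ z ∈ P := fun z =>
      ⟨fun ⟨w, hw, hwz⟩ => by rwa [← Subtype.ext hwz], fun hz => ⟨z, hz, rfl⟩⟩
    rw [h2] at h1
    rw [h1]
    exact h2 (x * y * x⁻¹)
  · intro h y
    constructor
    · rintro ⟨w, hw, rfl⟩
      exact ⟨x * w * x⁻¹, (h w).mp hw, rfl⟩
    · rintro ⟨w, hw, hwy⟩
      refine ⟨x⁻¹ * w * x, (h _).mpr ?_, ?_⟩
      · have : x * (x⁻¹ * w * x) * x⁻¹ = w := by group
        rw [this]; exact hw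
      · change (x : G)⁻¹ * w * x = y
        change (w : G) = _ at hwy
        rw [hwy]; group

theorem exists_data [Finite G] {p : ℕ} [hp : Fact p.Prime] (h : ∀ Q : Sylow p (pResidual p G), IsMulCommutative Q) :
    ∃ A B : Subgroup G, A ≤ pResidual p G ∧ IsPGroup p A ∧ B ≤ pResidual p G ∧ (Nat.card B).Coprime p ∧
      A ⊓ B = ⊥ ∧ A ⊔ B = pResidual p G ⊓ normalizer (A : Set G) ∧
      (∀ a ∈ A, (∀ b ∈ B, a * b = b * a) → a = 1) ∧ normalizer (A : Set G) ⊔ pResidual p G = ⊤ := by
  have hpp : p.Prime := hp.out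
  set N := pResidual p G with hN
  haveI hNn : N.Normal := pResidual_normal p
  let P₀ : Sylow p N := default
  obtain ⟨Q₀, hQ1, hQ2, hQ3, hQ4⟩ := exists_complement_normalizer P₀
  have hcom := h P₀
  have htop : pResidual p N = ⊤ := by
    have h1 := pResidual_idem (G := G) (p := p)
    apply map_injective (subtype_injective N)
    rw [h1, ← MonoidHom.range_eq_map, range_subtype]
  have hfoc := inf_pResidual_abelian P₀ hcom
  rw [htop, inf_top_eq] at hfoc
  have hdec := (abelian_sylow_decomp P₀ hcom).1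
  rw [← hfoc] at hdec
  refine ⟨(P₀ : Subgroup N).map N.subtype, Q₀.map N.subtype, map_subtype_le _, P₀.isPGroup'.map _,
    map_subtype_le _, ?_, ?_, ?_, ?_, Sylow.normalizer_sup_eq_top P₀⟩
  · rw [card_map_of_injective (subtype_injective N)]; exact hQ2
  · rw [← Subgroup.map_inf _ _ _ (subtype_injective N), hQ3, Subgroup.map_bot]
  · rw [← Subgroup.map_sup, hQ4]
    ext x
    constructor
    · rintro ⟨y, hy, rfl⟩
      exact ⟨y.2, mem_normalizer_map.mpr hy⟩
    · rintro ⟨hx1, hx2⟩
      exact ⟨⟨x, hx1⟩, mem_normalizer_map.mp hx2, rfl⟩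
  · rintro _ ⟨a, ha, rfl⟩ hb
    have h1 : a ∈ (P₀ : Subgroup N) ⊓ centralizer (normalizer (P₀ : Set N) : Set N) ⊓ P₀ := by
      refine ⟨⟨ha, ?_⟩, ha⟩
      have h2 : normalizer (P₀ : Set N) ≤ centralizer {a} := by
        have h3 : (P₀ : Subgroup N) ⊔ Q₀ ≤ centralizer {a} := by
          refine sup_le ?_ ?_
          · intro y hy
            rw [mem_centralizer_singleton_iff]
            exact congrArg Subtype.val (hcom.is_comm.comm (⟨y, hy⟩ : (P₀ : Subgroup N)) ⟨a, ha⟩)
          · intro y hy
            rw [mem_centralizer_singleton_iff]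
            exact Subtype.ext (hb y ⟨y, hy, rfl⟩).symm
        exact (hQ4 ▸ h3 :)
      refine mem_centralizer_iff.mpr fun y hy => ?_
      exact mem_centralizer_singleton_iff.mp (h2 hy)
    rw [hdec, mem_bot] at h1
    rw [h1]; rfl

/-- S0092 -/
theorem split [Finite G] {p : ℕ} [hp : Fact p.Prime] (h : ∀ Q : Sylow p (pResidual p G), IsMulCommutative Q) :
    ∃ K : Subgroup G, K.IsComplement' (pResidual p G) := by
  have hpp : p.Prime := hp.out
  obtain ⟨A, B, hAN, hAp, hBN, hBp, hAB, hsup, hfix, hfrat⟩ := exists_data h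
  set N := pResidual p G with hN
  haveI hNn : N.Normal := pResidual_normal p
  set M : Subgroup G := normalizer (A : Set G) ⊓ normalizer (B : Set G) with hM
  have hBA : B ≤ normalizer (A : Set G) := by
    have : B ≤ A ⊔ B := le_sup_right
    rw [hsup] at this
    exact this.trans inf_le_right
  have hcardcop : (Nat.card B).Coprime (Nat.card A) := by
    obtain ⟨k, hk⟩ := hAp.exists_card_eq
    rw [hk]; exact Nat.Coprime.pow_right k hBp
  -- `G = N M`
  have hNM : N ⊔ M = ⊤ := by
    rw [eq_top_iff]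
    intro g _
    have hg : g ∈ normalizer (A : Set G) ⊔ N := by rw [hfrat]; trivial
    obtain ⟨x, hx, n, hn, rfl⟩ := mem_sup_of_normal_right.mp hg
    refine mul_mem ?_ (mem_sup_left hn)
    -- `x` normalizes `A`
    have hcA : MulAut.conj x • A = A := by
      have := mem_normalizer_iff.mp hx
      ext y
      constructor
      · rintro ⟨z, hz, rfl⟩
        exact (this z).mp hz
      · intro hy
        refine ⟨x⁻¹ * y * x, (this _).mpr ?_, ?_⟩
        · have : x * (x⁻¹ * y * x) * x⁻¹ = y := by group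
          rw [this]; exact hy
        · change x * (x⁻¹ * y * x) * x⁻¹ = y
          group
    have hle : ∀ y, y ∈ N ⊓ normalizer (A : Set G) → x * y * x⁻¹ ∈ N ⊓ normalizer (A : Set G) := fun y hy =>
      mem_inf.mpr ⟨hNn.conj_mem y hy.1 x, (normalizer (A : Set G)).mul_mem ((normalizer (A : Set G)).mul_mem hx hy.2)
        ((normalizer (A : Set G)).inv_mem hx)⟩
    have hsup2 : A ⊔ B = A ⊔ MulAut.conj x • B := by
      symm
      refine eq_of_le_of_card_ge ?_ ?_
      · refine sup_le le_sup_left ?_
        rintro _ ⟨y, hy, rfl⟩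
        rw [hsup]
        exact hle y (hsup ▸ mem_sup_right hy)
      · have h1 : A ⊔ MulAut.conj x • B = MulAut.conj x • (A ⊔ B) := by rw [smul_sup, hcA]
        rw [h1, SchurZas.card_conj_smul]
    obtain ⟨a, ha, hconj⟩ := SchurZas.conj_of_coprime' (N := A) (A := MulAut.conj x • B) (B := B) (by
      rintro _ ⟨y, hy, rfl⟩
      exact mul_mem (mul_mem hx (hBA hy)) (inv_mem hx)) (by rw [SchurZas.card_conj_smul]; exact hcardcop) hcardcop
      hsup2.symm (Or.inr (by
        haveI := hAp.isNilpotent
        infer_instance))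
    rw [smul_smul, ← map_mul] at hconj
    have h2 : a * x ∈ M := by
      refine mem_inf.mpr ⟨mul_mem (le_normalizer ha) hx, ?_⟩
      rw [mem_normalizer_iff]
      intro y
      constructor
      · intro hy
        rw [← hconj]
        exact ⟨y, hy, rfl⟩
      · intro hy
        rw [← hconj] at hy
        obtain ⟨z, hz, hzy⟩ := hy
        have h3 : z = y := (MulAut.conj (a * x)).injective hzy
        rwa [← h3]
    have h3 : x = a⁻¹ * (a * x) := by group
    rw [h3]
    exact mul_mem (mem_sup_left (inv_mem (hAN ha))) (mem_sup_right h2)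
  -- `M ∩ N = B`
  have hMN : M ⊓ N = B := by
    apply le_antisymm
    · intro x hx
      have h1 : x ∈ A ⊔ B := by rw [hsup]; exact ⟨hx.2, hx.1.1⟩
      obtain ⟨a, ha, b, hb, rfl⟩ := (Cfsg.Agent.Lib.Basic.mem_sup_iff_left hBA).mp h1
      have haM : a ∈ normalizer (B : Set G) := by
        have h2 : a = (a * b) * b⁻¹ := by group
        rw [h2]
        exact mul_mem hx.1.2 (inv_mem (le_normalizer hb))
      have h3 : a = 1 := by
        refine hfix a ha fun b' hb' => ?_
        have h4 : ⁅a, b'⁆ ∈ A ⊓ B := by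
          constructor
          · have h5 : a * (b' * a⁻¹ * b'⁻¹) ∈ A :=
              mul_mem ha ((mem_normalizer_iff.mp (hBA hb') _).mp (inv_mem ha))
            have h6 : ⁅a, b'⁆ = a * (b' * a⁻¹ * b'⁻¹) := by rw [_root_.commutatorElement_def]; group
            rw [h6]; exact h5
          · have h5 : (a * b' * a⁻¹) * b'⁻¹ ∈ B :=
              mul_mem ((mem_normalizer_iff.mp haM _).mp hb') (inv_mem hb')
            exact h5
        rw [hAB, mem_bot, commutatorElement_eq_one_iff_mul_comm] at h4
        exact h4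
      rw [h3, one_mul]; exact hb
    · exact le_inf (le_inf hBA le_normalizer) hBN
  -- a Sylow `p`-subgroup of `M`
  let X : Sylow p M := default
  have hBM : B ≤ M := le_inf hBA le_normalizer
  refine ⟨(X : Subgroup M).map M.subtype, (SchurZas.isComplement'_of_inf_sup (N := N) ?_ ?_).symm⟩
  · have h1 : N ⊓ (X : Subgroup M).map M.subtype ≤ B := by
      rw [← hMN]
      exact fun x hx => ⟨map_subtype_le _ hx.2, hx.1⟩
    have h2 : IsPGroup p (N ⊓ (X : Subgroup M).map M.subtype : Subgroup G) :=
      (X.isPGroup'.map _).to_le inf_le_right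
    obtain ⟨k, hk⟩ := h2.exists_card_eq
    rw [← card_eq_one]
    refine Nat.eq_one_of_dvd_coprimes (Nat.Coprime.pow_right k hBp) (card_dvd_of_le h1) (by rw [hk])
  · have h1 : B.subgroupOf M ⊔ (X : Subgroup M) = ⊤ := by
      rw [← index_eq_one]
      have h2 : (B.subgroupOf M ⊔ (X : Subgroup M)).index ∣ (B.subgroupOf M).index := index_dvd_of_le le_sup_left
      have h3 : (B.subgroupOf M ⊔ (X : Subgroup M)).index ∣ (X : Subgroup M).index := index_dvd_of_le le_sup_right
      have h4 : (B.subgroupOf M).index = N.index := by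
        have h5 : B.subgroupOf M = N.subgroupOf M := by
          rw [← hMN, inf_comm, inf_subgroupOf_right]
        rw [h5]
        change N.relIndex M = N.index
        rw [← relIndex_sup_right, sup_comm, hNM, relIndex_top_right]
      obtain ⟨n, hn⟩ := (quotient_pResidual (G := G) (p := p)).exists_card_eq
      rw [← index_eq_card] at hn
      rw [h4, hn] at h2
      obtain ⟨m, -, hm⟩ := (Nat.dvd_prime_pow hpp).mp h2
      rw [hm] at h3 ⊢
      rcases Nat.eq_zero_or_pos m with rfl | hm0
      · exact pow_zero p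
      · exact absurd ((dvd_pow_self p hm0.ne').trans h3) X.not_dvd_index
    rw [eq_top_iff, ← hNM]
    refine sup_le le_sup_left ?_
    have h2 := congrArg (Subgroup.map M.subtype) h1
    rw [Subgroup.map_sup, map_subgroupOf_eq_of_le hBM, ← MonoidHom.range_eq_map, range_subtype] at h2
    exact h2.symm.le.trans (sup_le_sup_right hBN _)

end Cfsg.Agent.Lib.SplitR
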