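import Cfsg.Agent.Lib.QuadD
import Cfsg.Agent.Lib.QuadB
import Cfsg.Agent.Lib.ThompsonP
import Cfsg.Agent.Lib.ZJ

/-!
The stable normal closure of `Ω₁(Z(S))`.
-/

set_option autoImplicit false
set_option linter.unusedSectionVars false
set_option linter.unusedVariables false

namespace Cfsg.Agent.Lib.StabCl

open Subgroup Cfsg.Agent.Lib Cfsg.Agent.Lib.QuadD
open scoped commutatorElement Pointwise

universe u v

variable {S : Type u} [Group S]

theorem mem_oct [Finite S] {p : ℕ} {x : S} : x ∈ Cfsg.omegaCenterThompson p S ↔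
    x ∈ Cfsg.thompsonSubgroup p S ∧ x ∈ centralizer (Cfsg.thompsonSubgroup p S : Set S) ∧ x ^ p = 1 := by
  unfold Cfsg.omegaCenterThompson
  rw [mem_omega_of_comm (comm_inf_centralizer _), mem_inf, and_assoc]

theorem ea_oct [Finite S] {p : ℕ} : Cfsg.IsElementaryAbelian p (Cfsg.omegaCenterThompson p S) :=
  ea_omega (comm_inf_centralizer _)

theorem omega_center_le [Finite S] {p : ℕ} : Cfsg.omegaOne p (Subgroup.center S) ≤ Cfsg.omegaCenterThompson p S := by
  rw [(sInf_max_eq (G := S) (p := p)).2]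
  refine Subgroup.closure_mono ?_
  rintro x ⟨hx, hxp⟩
  exact ⟨mem_centralizer_iff.mpr fun y _ => (mem_center_iff.mp hx y), hxp⟩

theorem oct_normal [Finite S] {p : ℕ} {H : Type u} [Group H] {τ : S →* H} (hτ : Cfsg.IsStableEmbedding p τ) :
    ((Cfsg.omegaCenterThompson p S).map τ).Normal := by
  obtain ⟨hinj, -, -, -, hJ, -⟩ := hτ
  refine ⟨?_⟩
  rintro _ ⟨x, hx, rfl⟩ h
  rw [SetLike.mem_coe, mem_oct] at hx
  obtain ⟨hxJ, hxC, hxp⟩ := hx
  obtain ⟨y, hy, hyx⟩ := hJ.conj_mem _ (mem_map_of_mem τ hxJ) h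
  refine ⟨y, ?_, hyx⟩
  rw [SetLike.mem_coe, mem_oct]
  refine ⟨hy, mem_centralizer_iff.mpr fun j hj => ?_, ?_⟩
  · apply hinj
    obtain ⟨j', hj', hjj⟩ := hJ.conj_mem _ (mem_map_of_mem τ hj) h⁻¹
    have h1 := mem_centralizer_iff.mp hxC j' hj'
    have h2 : τ j' * τ x = τ x * τ j' := by rw [← map_mul, h1, map_mul]
    rw [map_mul, map_mul, hyx]
    have h3 : τ j = h * τ j' * h⁻¹ := by rw [hjj]; group
    rw [h3]
    calc h * τ j' * h⁻¹ * (h * τ x * h⁻¹) = h * (τ j' * τ x) * h⁻¹ := by group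
      _ = h * (τ x * τ j') * h⁻¹ := by rw [h2]
      _ = h * τ x * h⁻¹ * (h * τ j' * h⁻¹) := by group
  · apply hinj
    rw [map_pow, hyx, conj_pow, ← map_pow, hxp, map_one, mul_one, mul_inv_cancel]

/-- membership in the defining family -/
def InFam (p : ℕ) (W : Subgroup S) : Prop :=
  Cfsg.omegaOne p (Subgroup.center S) ≤ W ∧
    ∀ (H : Type u) [Group H] (τ : S →* H), Cfsg.IsStableEmbedding p τ → (W.map τ).Normal

theorem oct_inFam [Finite S] (p : ℕ) : InFam p (Cfsg.omegaCenterThompson p S) :=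
  ⟨omega_center_le, fun H _ τ hτ => oct_normal hτ⟩

theorem le_of_inFam {p : ℕ} {W : Subgroup S} (h : InFam p W) : Cfsg.stableNormalClosure p S ≤ W := sInf_le h

theorem le_oct [Finite S] (p : ℕ) : Cfsg.stableNormalClosure p S ≤ Cfsg.omegaCenterThompson p S := le_of_inFam (oct_inFam p)

theorem omega_le (p : ℕ) : Cfsg.omegaOne p (Subgroup.center S) ≤ Cfsg.stableNormalClosure p S :=
  le_sInf fun W hW => hW.1

theorem normal_of_stable [Finite S] {p : ℕ} {H : Type u} [Group H] {τ : S →* H} (hτ : Cfsg.IsStableEmbedding p τ) :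
    ((Cfsg.stableNormalClosure p S).map τ).Normal := by
  refine ⟨?_⟩
  rintro _ ⟨x, hx, rfl⟩ h
  have key : ∀ W : Subgroup S, InFam p W → ∃ y ∈ W, τ y = h * τ x * h⁻¹ := by
    intro W hW
    exact (hW.2 H τ hτ).conj_mem _ (mem_map_of_mem τ (le_of_inFam hW hx)) h
  obtain ⟨y, hy, hyx⟩ := key _ (oct_inFam p)
  refine ⟨y, ?_, hyx⟩
  rw [SetLike.mem_coe]
  unfold Cfsg.stableNormalClosure
  rw [mem_sInf]
  intro W hW
  obtain ⟨z, hz, hzx⟩ := key W hW
  have : z = y := hτ.1 (hzx.trans hyx.symm)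
  rwa [this] at hz

theorem inFam_self [Finite S] (p : ℕ) : InFam p (Cfsg.stableNormalClosure p S) :=
  ⟨omega_le p, fun H _ τ hτ => normal_of_stable hτ⟩

/-- transport of stable embeddings -/
theorem stable_comp [Finite S] {S' : Type u} [Group S'] {p : ℕ} (η : S ≃* S') {H : Type u} [Group H] {τ : S' →* H}
    (hτ : Cfsg.IsStableEmbedding p τ) : Cfsg.IsStableEmbedding p (τ.comp η.toMonoidHom) := by
  haveI : Finite S' := Finite.of_equiv _ η.toEquiv
  obtain ⟨h1, h2, ⟨P, hP⟩, h4, h5, h6⟩ := hτ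
  have hJ : (Cfsg.thompsonSubgroup p S).map η.toMonoidHom = Cfsg.thompsonSubgroup p S' := by
    rw [QuadC.thompson_eq_of_top, QuadC.thompson_eq_of_top]
    have := ThompsonP.map_J p (f := η.toMonoidHom) (X := (⊤ : Subgroup S)) (fun x _ hx => η.injective (hx.trans (map_one η).symm))
    rw [this, map_top_of_surjective _ η.surjective]
  have hO : (Cfsg.omegaCenterThompson p S).map η.toMonoidHom = Cfsg.omegaCenterThompson p S' := by
    ext y
    rw [mem_oct]
    constructor
    · rintro ⟨x, hx, rfl⟩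
      rw [SetLike.mem_coe, mem_oct] at hx
      refine ⟨by rw [← hJ]; exact mem_map_of_mem _ hx.1, mem_centralizer_iff.mpr fun z hz => ?_, ?_⟩
      · rw [← hJ] at hz
        obtain ⟨z', hz', rfl⟩ := hz
        rw [← map_mul, mem_centralizer_iff.mp hx.2.1 z' hz', map_mul]
      · rw [← map_pow, hx.2.2, map_one]
    · rintro ⟨hy1, hy2, hy3⟩
      rw [← hJ] at hy1
      obtain ⟨x, hx, rfl⟩ := hy1
      refine ⟨x, ?_, rfl⟩
      rw [SetLike.mem_coe, mem_oct]
      refine ⟨hx, mem_centralizer_iff.mpr fun z hz => ?_, ?_⟩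
      · apply η.injective
        have h3 := mem_centralizer_iff.mp hy2 (η z) (by rw [SetLike.mem_coe, ← hJ]; exact mem_map_of_mem η.toMonoidHom hz)
        rw [map_mul, map_mul]; exact h3
      · apply η.injective
        rw [map_pow, map_one]; exact hy3
  refine ⟨h1.comp η.injective, h2, ⟨P, ?_⟩, h4, ?_, ?_⟩
  · rw [hP]
    ext x
    constructor
    · rintro ⟨y, rfl⟩
      exact ⟨η.symm y, by simp⟩
    · rintro ⟨y, rfl⟩
      exact ⟨η y, rfl⟩
  · rw [← Subgroup.map_map, hJ]; exact h5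
  · intro V _ hV
    apply h6 V
    rwa [← Subgroup.map_map, hO] at hV

theorem map_le_of_equiv [Finite S] {S' : Type u} [Group S'] (p : ℕ) (η : S ≃* S') :
    Cfsg.stableNormalClosure p S ≤ (Cfsg.stableNormalClosure p S').comap η.toMonoidHom := by
  haveI : Finite S' := Finite.of_equiv _ η.toEquiv
  apply le_of_inFam
  refine ⟨?_, fun H _ τ hτ => ?_⟩
  · refine le_trans ?_ (comap_mono (omega_le p))
    rw [← map_le_iff_le_comap]
    unfold Cfsg.omegaOne
    rw [MonoidHom.map_closure]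
    refine Subgroup.closure_mono ?_
    rintro _ ⟨x, ⟨hx, hxp⟩, rfl⟩
    refine ⟨mem_center_iff.mpr fun y => ?_, ?_⟩
    · obtain ⟨z, rfl⟩ := η.surjective y
      have := mem_center_iff.mp hx z
      show η z * η x = η x * η z
      rw [← map_mul, this, map_mul]
    · rw [← map_pow, hxp, map_one]
  · have h1 : Cfsg.IsStableEmbedding p (τ.comp η.symm.toMonoidHom) := stable_comp η.symm hτ
    have h2 := normal_of_stable h1
    have h3 : ((Cfsg.stableNormalClosure p S').comap η.toMonoidHom).map τ =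
        (Cfsg.stableNormalClosure p S').map (τ.comp η.symm.toMonoidHom) := by
      ext y
      constructor
      · rintro ⟨x, hx, rfl⟩
        exact ⟨η x, hx, by simp⟩
      · rintro ⟨x, hx, rfl⟩
        refine ⟨η.symm x, ?_, rfl⟩
        show η (η.symm x) ∈ Cfsg.stableNormalClosure p S'
        rw [η.apply_symm_apply]; exact hx
    rw [h3]; exact h2

theorem map_equiv [Finite S] {S' : Type u} [Group S'] (p : ℕ) (η : S ≃* S') :
    (Cfsg.stableNormalClosure p S).map η.toMonoidHom = Cfsg.stableNormalClosure p S' := by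
  haveI : Finite S' := Finite.of_equiv _ η.toEquiv
  apply le_antisymm
  · rw [map_le_iff_le_comap]; exact map_le_of_equiv p η
  · have h1 := map_le_of_equiv p η.symm
    intro x hx
    exact ⟨η.symm x, h1 hx, by simp⟩

theorem char [Finite S] (p : ℕ) : (Cfsg.stableNormalClosure p S).Characteristic := by
  rw [characteristic_iff_map_eq]
  intro φ
  exact map_equiv p φ

theorem ne_bot [Finite S] {p : ℕ} [hp : Fact p.Prime] (hS : IsPGroup p S) [Nontrivial S] : Cfsg.stableNormalClosure p S ≠ ⊥ := by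
  haveI : Nontrivial (Subgroup.center S) := hS.center_nontrivial
  have hz : IsPGroup p (Subgroup.center S) := hS.to_subgroup _
  obtain ⟨k, hk, hk1⟩ := (IsPGroup.nontrivial_iff_card hz).mp this
  obtain ⟨x, hx⟩ := exists_prime_orderOf_dvd_card' (G := Subgroup.center S) p (by rw [hk1]; exact dvd_pow_self p hk.ne')
  intro h
  have h2 : (x : S) ∈ Cfsg.stableNormalClosure p S := omega_le p (Subgroup.subset_closure ⟨x.2, by
    have := pow_orderOf_eq_one x
    rw [hx] at this
    exact congrArg Subtype.val this⟩)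
  rw [h, mem_bot] at h2
  have h3 : x = 1 := Subtype.ext h2
  rw [h3, orderOf_one] at hx
  exact hp.out.one_lt.ne hx

theorem ea_snc [Finite S] (p : ℕ) : Cfsg.IsElementaryAbelian p (Cfsg.stableNormalClosure p S) := by
  rw [ThompsonJ.ea_iff]
  have h := ThompsonJ.ea_iff.mp (ea_oct (S := S) (p := p))
  exact ⟨fun x hx y hy => h.1 x (le_oct p hx) y (le_oct p hy), fun x hx => h.2 x (le_oct p hx)⟩

/-- a `p`-element in the preimage of `O_p(H/C(V))` is conjugate under `C(V)` into a given Sylow subgroup -/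
theorem exists_conj_mem {H : Type u} [Group H] [Finite H] {p : ℕ} [hp : Fact p.Prime] {V : Subgroup H} [V.Normal] (P : Sylow p H)
    {x : H} (hx : ∃ k : ℕ, x ^ p ^ k = 1)
    (h : (QuotientGroup.mk x : H ⧸ centralizer (V : Set H)) ∈ Cfsg.pCore p (H ⧸ centralizer (V : Set H))) :
    ∃ c ∈ centralizer (V : Set H), c * x * c⁻¹ ∈ P := by
  set C := centralizer (V : Set H) with hC
  haveI hCn : C.Normal := by rw [hC]; infer_instance
  set L := (Cfsg.pCore p (H ⧸ C)).comap (QuotientGroup.mk' C) with hL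
  haveI : (Cfsg.pCore p (H ⧸ C)).Normal := Cores.pCore_normal p
  haveI hLn : L.Normal := by rw [hL]; infer_instance
  have hxL : x ∈ L := h
  have hCL : C ≤ L := by
    intro c hc
    show (QuotientGroup.mk c : H ⧸ C) ∈ Cfsg.pCore p (H ⧸ C)
    rw [(QuotientGroup.eq_one_iff c).2 hc]; exact one_mem _
  -- `L = C (P ∩ L)`
  have hrel : ∃ k : ℕ, C.relIndex L = p ^ k := ZJ.relIndex_comap_pCore
  have h1 := QuadB.le_sup_sylow hCL hrel P
  -- `x` lies in a Sylow subgroup of `L`
  obtain ⟨Q, hQ⟩ := exists_sylow_inf L P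
  obtain ⟨k, hk⟩ := hx
  have hxp : IsPGroup p (zpowers (⟨x, hxL⟩ : L)) := by
    rw [IsPGroup.iff_card] 
    have h2 : orderOf (⟨x, hxL⟩ : L) ∣ p ^ k := by
      rw [orderOf_dvd_iff_pow_eq_one]; exact Subtype.ext hk
    obtain ⟨j, -, hj⟩ := (Nat.dvd_prime_pow hp.out).mp h2
    exact ⟨j, by rw [Nat.card_zpowers, hj]⟩
  obtain ⟨R, hR⟩ := hxp.exists_le_sylow
  obtain ⟨l, hl⟩ := MulAction.exists_smul_eq L R Q
  have h3 : l * (⟨x, hxL⟩ : L) * l⁻¹ ∈ Q := by
    rw [← hl]
    have := Subgroup.smul_mem_pointwise_smul _ (MulAut.conj l) (R : Subgroup L) (hR (mem_zpowers (⟨x, hxL⟩ : L)))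
    exact this
  have h4 : (l : H) * x * (l : H)⁻¹ ∈ (P : Subgroup H) := by
    have : l * (⟨x, hxL⟩ : L) * l⁻¹ ∈ (Q : Subgroup L) := h3
    rw [hQ] at this
    exact this
  -- write `l = s c`
  have h5 := h1 l.2
  rw [Basic.mem_sup_iff_right (N := C) (H := (P : Subgroup H) ⊓ L) (by rw [normalizer_eq_top]; exact le_top)] at h5
  obtain ⟨s, hs, c, hc, hsc⟩ := h5
  refine ⟨c, hc, ?_⟩
  have h6 : c * x * c⁻¹ = s⁻¹ * ((l : H) * x * (l : H)⁻¹) * s := by rw [← hsc]; group
  rw [h6]
  exact mul_mem (mul_mem (inv_mem hs.1) h4) hs.1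

theorem map_quad {G : Type v} [Group G] {H : Type u} [Group H] (f : G →* H) (W : Subgroup G) (x : G) :
    (⁅⁅W, zpowers x⁆, zpowers x⁆).map f = ⁅⁅W.map f, zpowers (f x)⁆, zpowers (f x)⁆ := by
  rw [map_commutator, map_commutator, MonoidHom.map_zpowers]

theorem quad_mono {G : Type v} [Group G] {V W : Subgroup G} {x : G} (h : V ≤ W) (hq : ⁅⁅W, zpowers x⁆, zpowers x⁆ = ⊥) :
    ⁅⁅V, zpowers x⁆, zpowers x⁆ = ⊥ :=
  le_bot_iff.mp (hq ▸ commutator_mono (commutator_mono h le_rfl) le_rfl)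

/-- no nontrivial quadratic action on the stable normal closure -/
theorem no_quad [Finite S] {p : ℕ} [hp : Fact p.Prime] (hS : IsPGroup p S) :
    ∀ x : S, ⁅⁅Cfsg.stableNormalClosure p S, zpowers x⁆, zpowers x⁆ = ⊥ → Cfsg.stableNormalClosure p S ≤ centralizer {x} := by
  set W := Cfsg.stableNormalClosure p S with hW
  set Q : Set S := {x : S | ⁅⁅W, zpowers x⁆, zpowers x⁆ = ⊥} with hQ
  have hfam : InFam p (W ⊓ centralizer Q) := by
    refine ⟨le_inf (omega_le p) ?_, fun H _ τ hτ => ?_⟩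
    · rw [Cfsg.omegaOne, Subgroup.closure_le]
      rintro x ⟨hx, -⟩
      exact mem_centralizer_iff.mpr fun y _ => mem_center_iff.mp hx y
    · have hWn := normal_of_stable hτ
      obtain ⟨hinj, hfin, ⟨P, hP⟩, -, -, hst⟩ := hτ
      haveI := hfin
      set V := Subgroup.normalClosure ((W ⊓ centralizer Q).map τ : Set H) with hV
      have hVW : V ≤ W.map τ := Subgroup.normalClosure_le_normal (map_mono inf_le_left)
      have hVst := hst V (hVW.trans (map_mono (le_oct p)))
      have hsub : (W ⊓ centralizer Q).map τ ≤ V := Subgroup.subset_normalClosure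
      have key : ∀ x ∈ Q, V ≤ centralizer {τ x} := by
        intro x hx
        have hxq : ⁅⁅V, zpowers (τ x)⁆, zpowers (τ x)⁆ = ⊥ := by
          apply quad_mono hVW
          rw [← map_quad, show ⁅⁅W, zpowers x⁆, zpowers x⁆ = ⊥ from hx, Subgroup.map_bot]
        have hxC := hVst (τ x) hxq
        haveI : (Cfsg.pCore p (H ⧸ centralizer (V : Set H))).Normal := Cores.pCore_normal p
        have hcn : ∀ h : H, ∀ w ∈ (W ⊓ centralizer Q).map τ, (h * w * h⁻¹) * τ x = τ x * (h * w * h⁻¹) := by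
          rintro h _ ⟨w, hw, rfl⟩
          obtain ⟨c, hc, hcP⟩ := exists_conj_mem (V := V) P (x := h⁻¹ * τ x * h) (by
            obtain ⟨k, hk⟩ := hS x
            refine ⟨k, ?_⟩
            have : (h⁻¹ * τ x * h) = h⁻¹ * τ x * (h⁻¹)⁻¹ := by rw [inv_inv]
            rw [this, conj_pow, ← map_pow, hk, map_one, mul_one, mul_inv_cancel]) (by
            have h1 := this.conj_mem _ hxC (QuotientGroup.mk h⁻¹)
            rw [← QuotientGroup.mk_mul, ← QuotientGroup.mk_inv, ← QuotientGroup.mk_mul, inv_inv] at h1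
            exact h1)
          have hcP' : c * (h⁻¹ * τ x * h) * c⁻¹ ∈ (P : Subgroup H) := hcP
          rw [hP] at hcP'
          obtain ⟨y, hy⟩ := hcP'
          have hyQ : y ∈ Q := by
            show ⁅⁅W, zpowers y⁆, zpowers y⁆ = ⊥
            rw [← Subgroup.map_eq_bot_iff_of_injective _ hinj, map_quad]
            have e1 : τ y = MulAut.conj (c * h⁻¹) (τ x) := by rw [hy, MulAut.conj_apply]; group
            have e2 : (W.map τ).map (MulAut.conj (c * h⁻¹)).toMonoidHom = W.map τ := Subgroup.Normal.map_conj_eq _ _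
            rw [e1]
            have e3 := map_quad (MulAut.conj (c * h⁻¹)).toMonoidHom (W.map τ) (τ x)
            rw [e2] at e3
            rw [show (MulAut.conj (c * h⁻¹)) (τ x) = (MulAut.conj (c * h⁻¹)).toMonoidHom (τ x) from rfl, ← e3, ← map_quad,
              show ⁅⁅W, zpowers x⁆, zpowers x⁆ = ⊥ from hx, Subgroup.map_bot, Subgroup.map_bot]
          have h1 : τ y * τ w = τ w * τ y := by
            rw [← map_mul, ← map_mul, mem_centralizer_iff.mp hw.2 y hyQ]
          have h2 : τ w * c = c * τ w := mem_centralizer_iff.mp hc _ (hsub (mem_map_of_mem τ hw))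
          have h3 : τ x = h * (c⁻¹ * τ y * c) * h⁻¹ := by rw [hy]; group
          have h4 : c⁻¹ * τ y * c * τ w = τ w * (c⁻¹ * τ y * c) := by
            calc c⁻¹ * τ y * c * τ w = c⁻¹ * τ y * (c * τ w) := by group
              _ = c⁻¹ * τ y * (τ w * c) := by rw [h2]
              _ = c⁻¹ * (τ y * τ w) * c := by group
              _ = c⁻¹ * (τ w * τ y) * c := by rw [h1]
              _ = c⁻¹ * τ w * (τ y * c) := by group
              _ = c⁻¹ * (τ w * c) * (c⁻¹ * τ y * c) := by group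
              _ = c⁻¹ * (c * τ w) * (c⁻¹ * τ y * c) := by rw [h2]
              _ = τ w * (c⁻¹ * τ y * c) := by group
          rw [h3]
          calc h * τ w * h⁻¹ * (h * (c⁻¹ * τ y * c) * h⁻¹) = h * (τ w * (c⁻¹ * τ y * c)) * h⁻¹ := by group
            _ = h * (c⁻¹ * τ y * c * τ w) * h⁻¹ := by rw [h4]
            _ = h * (c⁻¹ * τ y * c) * h⁻¹ * (h * τ w * h⁻¹) := by group
        rw [hV, Subgroup.normalClosure, Subgroup.closure_le]
        intro v hv
        rw [Group.mem_conjugatesOfSet_iff] at hv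
        obtain ⟨w, hw, hwv⟩ := hv
        rw [isConj_iff] at hwv
        obtain ⟨h, rfl⟩ := hwv
        rw [SetLike.mem_coe, mem_centralizer_singleton_iff]
        exact hcn h w hw
      have hVle : V ≤ (W ⊓ centralizer Q).map τ := by
        intro v hv
        obtain ⟨w, hw, rfl⟩ := hVW hv
        refine ⟨w, ⟨hw, mem_centralizer_iff.mpr fun x hx => ?_⟩, rfl⟩
        apply hinj
        have := key x hx hv
        rw [mem_centralizer_singleton_iff] at this
        rw [map_mul, map_mul]; exact this.symm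
      have : (W ⊓ centralizer Q).map τ = V := le_antisymm hsub hVle
      rw [this]; infer_instance
  intro x hx w hw
  have h1 := le_of_inFam hfam hw
  rw [mem_centralizer_singleton_iff]
  exact (mem_centralizer_iff.mp h1.2 x hx).symm

end Cfsg.Agent.Lib.StabCl
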