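import Cfsg.Agent.Lib.StabClB
import Cfsg.Agent.Lib.ZPN

/-!
Thompson's normal `p`-complement theorem with the stable normal closure.
-/

set_option autoImplicit false
set_option linter.unusedSectionVars false
set_option linter.unusedVariables false

namespace Cfsg.Agent.Lib.StabClC

open Subgroup Cfsg.Agent.Lib Cfsg.Agent.Lib.QuadD Cfsg.Agent.Lib.StabCl Cfsg.Agent.Lib.StabClB
open scoped commutatorElement Pointwise

universe u v

variable {G : Type u} [Group G]

theorem isPStableOn_of_equiv {H : Type u} [Group H] {p : ℕ} (e : G ≃* H) (V : Subgroup G) [V.Normal]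
    [(V.map e.toMonoidHom).Normal] (h : Cfsg.IsPStableOn p (V.map e.toMonoidHom)) : Cfsg.IsPStableOn p V := by
  intro a ha
  have h1 : ⁅⁅V.map e.toMonoidHom, zpowers (e a)⁆, zpowers (e a)⁆ = ⊥ := by
    have : (⁅⁅V, zpowers a⁆, zpowers a⁆).map e.toMonoidHom = ⁅⁅V.map e.toMonoidHom, zpowers (e a)⁆, zpowers (e a)⁆ := by
      rw [map_commutator, map_commutator, MonoidHom.map_zpowers]; rfl
    rw [← this, ha, Subgroup.map_bot]
  have h2 := h (e a) h1
  set φ : G →* H ⧸ centralizer ((V.map e.toMonoidHom : Subgroup H) : Set H) :=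
    (QuotientGroup.mk' (centralizer ((V.map e.toMonoidHom : Subgroup H) : Set H))).comp e.toMonoidHom with hφ
  have hφs : Function.Surjective φ := (QuotientGroup.mk'_surjective _).comp e.surjective
  refine (PStabZ.mem_pCore_iff_of_surj (p := p) φ hφs ?_ a).mpr h2
  ext x
  rw [MonoidHom.mem_ker, MonoidHom.comp_apply]
  have h3 : (QuotientGroup.mk' (centralizer ((V.map e.toMonoidHom : Subgroup H) : Set H))) (e.toMonoidHom x) = 1 ↔
      e x ∈ centralizer ((V.map e.toMonoidHom : Subgroup H) : Set H) := QuotientGroup.eq_one_iff _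
  rw [h3, mem_centralizer_iff, mem_centralizer_iff]
  constructor
  · intro h4 y hy
    have := h4 (e y) (mem_map_of_mem e.toMonoidHom hy)
    rw [← map_mul, ← map_mul] at this
    exact e.injective this
  · rintro h4 _ ⟨y, hy, rfl⟩
    show e y * e x = e x * e y
    rw [← map_mul, h4 y hy, map_mul]

theorem isPStableOn_of_isPGroup [Finite G] {p : ℕ} [Fact p.Prime] (h : IsPGroup p G) (V : Subgroup G) [V.Normal] :
    Cfsg.IsPStableOn p V := by
  intro a _
  have h1 : (⊤ : Subgroup (G ⧸ centralizer (V : Set G))) ≤ Cfsg.pCore p (G ⧸ centralizer (V : Set G)) :=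
    Cores.le_pCore inferInstance ((h.to_quotient _).to_subgroup _)
  exact h1 (mem_top _)

/-- the minimal situation of a maximal Sylow subgroup -/
structure Sit (p : ℕ) (S : Subgroup G) (K : Subgroup G) : Prop where
  coatom : IsCoatom S
  normal : K.Normal
  le : Cfsg.pCore p G ≤ K
  rel : ((Cfsg.pCore p G).relIndex K).Coprime p
  idx : ∃ k, K.index = p ^ k

theorem coatom_map {H : Type v} [Group H] {S : Subgroup G} (h : IsCoatom S) (f : G →* H) (hf : Function.Surjective f)
    (hk : f.ker ≤ S) : IsCoatom (S.map f) := by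
  have hc : (S.map f).comap f = S := by rw [comap_map_eq, sup_eq_left.mpr hk]
  constructor
  · intro h1
    apply h.1
    rw [← hc, h1, comap_top]
  · intro T hT
    have h1 : S < T.comap f := by
      refine lt_of_le_of_ne (map_le_iff_le_comap.mp hT.le) ?_
      intro h
      apply hT.ne
      rw [h, map_comap_eq_self_of_surjective hf]
    have h2 := h.2 _ h1
    rw [← map_comap_eq_self_of_surjective hf T, h2, map_top_of_surjective _ hf]

theorem Sit.quotient [Finite G] {p : ℕ} [Fact p.Prime] {S : Sylow p G} {K : Subgroup G} (h : Sit p (S : Subgroup G) K)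
    (N : Subgroup G) [N.Normal] (hN : IsPGroup p N) :
    Sit p ((S : Subgroup G).map (QuotientGroup.mk' N)) (K.map (QuotientGroup.mk' N)) := by
  have hNO : N ≤ Cfsg.pCore p G := Cores.le_pCore inferInstance hN
  have hNS : N ≤ (S : Subgroup G) := hNO.trans (Cores.pCore_le_sylow S)
  have hfs := QuotientGroup.mk'_surjective N
  have hfk : (QuotientGroup.mk' N).ker = N := QuotientGroup.ker_mk' N
  have hK := h.normal
  have hO : Cfsg.pCore p (G ⧸ N) = (Cfsg.pCore p G).map (QuotientGroup.mk' N) := Cores.pCore_quotient_eq_map hN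
  refine ⟨coatom_map h.coatom _ hfs (hfk.le.trans hNS), hK.map _ hfs, ?_, ?_, ?_⟩
  · rw [hO]; exact map_mono h.le
  · rw [hO, ← Subgroup.relIndex_comap, comap_map_eq, hfk, sup_eq_left.mpr hNO]
    exact h.rel
  · obtain ⟨k, hk⟩ := h.idx
    refine ⟨k, ?_⟩
    rw [Subgroup.index_map, hfk, sup_eq_left.mpr (hNO.trans h.le), hk, MonoidHom.range_eq_top.mpr hfs, index_top, mul_one]

theorem Sit.stable [Finite G] {p : ℕ} [hp : Fact p.Prime] (hp2 : p ≠ 2) {S : Sylow p G} {K : Subgroup G}
    (h : Sit p (S : Subgroup G) K) (V : Subgroup G) [V.Normal] (hV : IsPGroup p V) : Cfsg.IsPStableOn p V := by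
  haveI := h.normal
  exact ZPN.stable_of_max hp2 S h.coatom h.le h.rel h.idx V hV

theorem Sit.action [Finite G] {p : ℕ} [hp : Fact p.Prime] (hp2 : p ≠ 2) {S : Sylow p G} {K : Subgroup G}
    (h : Sit p (S : Subgroup G) K) : Cfsg.IsActionPStable p G := by
  refine ⟨fun V _ hV => h.stable hp2 V (QuadC.isPGroup_of_ea hV), ?_, ?_⟩
  · -- the section
    set O := Cfsg.pCore p G with hO
    have hOp : IsPGroup p O := Cores.pCore_isPGroup p
    set Φ := (frattini ↥O).map O.subtype with hΦ
    have hΦp : IsPGroup p Φ := (hOp.to_subgroup _).map _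
    haveI hΦn : Φ.Normal := by rw [hΦ, hO]; infer_instance
    intro a ha
    have h1 := h.quotient Φ hΦp
    set S' : Sylow p (G ⧸ Φ) := S.mapSurjective (QuotientGroup.mk'_surjective Φ) with hS'
    have hS'e : (S' : Subgroup (G ⧸ Φ)) = (S : Subgroup G).map (QuotientGroup.mk' Φ) := rfl
    rw [← hS'e] at h1
    haveI hOn : O.Normal := Cores.pCore_normal p
    haveI : (O.map (QuotientGroup.mk' Φ)).Normal := hOn.map _ (QuotientGroup.mk'_surjective Φ)
    have h2 := h1.stable hp2 (O.map (QuotientGroup.mk' Φ)) (hOp.map _)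
    have h3 := h2 (QuotientGroup.mk' Φ a) (by
      have : (⁅⁅O, zpowers a⁆, zpowers a⁆).map (QuotientGroup.mk' Φ) =
        ⁅⁅O.map (QuotientGroup.mk' Φ), zpowers (QuotientGroup.mk' Φ a)⁆, zpowers (QuotientGroup.mk' Φ a)⁆ := by
        rw [map_commutator, map_commutator, MonoidHom.map_zpowers]
      rw [← this, Subgroup.map_eq_bot_iff, QuotientGroup.ker_mk']
      exact ha)
    set C := centralizer ((O.map (QuotientGroup.mk' Φ) : Subgroup (G ⧸ Φ)) : Set (G ⧸ Φ)) with hC
    haveI : (Cfsg.pCore p ((G ⧸ Φ) ⧸ C)).Normal := Cores.pCore_normal p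
    set D' := (Cfsg.pCore p ((G ⧸ Φ) ⧸ C)).comap (QuotientGroup.mk' C) with hD'
    refine ⟨D'.comap (QuotientGroup.mk' Φ), inferInstance, ?_, ?_, h3⟩
    · exact comap_mono ZJ.le_comap_pCore
    · obtain ⟨k, hk⟩ := ZJ.relIndex_comap_pCore (p := p) (C := C)
      refine ⟨k, ?_⟩
      show (C.comap (QuotientGroup.mk' Φ)).relIndex (D'.comap (QuotientGroup.mk' Φ)) = p ^ k
      rw [Subgroup.relIndex_comap, map_comap_eq_self_of_surjective (QuotientGroup.mk'_surjective Φ), hk]
  · intro T V _ hV
    by_cases hT : Subgroup.normalizer (Cfsg.thompsonSubgroupOf p (T : Subgroup G) : Set G) = ⊤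
    · set e : ↥(Subgroup.normalizer (Cfsg.thompsonSubgroupOf p (T : Subgroup G) : Set G)) ≃* G :=
        (MulEquiv.subgroupCongr hT).trans topEquiv with he
      haveI : (V.map e.toMonoidHom).Normal := (inferInstance : V.Normal).map _ e.surjective
      apply isPStableOn_of_equiv e
      apply h.stable hp2
      -- `V` is a `p`-group
      have h1 : IsPGroup p (V.map (Subgroup.normalizer (Cfsg.thompsonSubgroupOf p (T : Subgroup G) : Set G)).subtype) :=
        (T.2.to_le (map_subtype_le _)).to_le hV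
      have h2 : IsPGroup p V := by
        have h3 := h1.comap_of_injective (Subgroup.normalizer (Cfsg.thompsonSubgroupOf p (T : Subgroup G) : Set G)).subtype
          (Subgroup.subtype_injective _)
        rwa [comap_map_eq_self_of_injective (Subgroup.subtype_injective _)] at h3
      exact h2.map _
    · have hTS : IsCoatom (T : Subgroup G) := by
        obtain ⟨g, hg⟩ := MulAction.exists_smul_eq G S T
        have h1 := coatom_map h.coatom (MulAut.conj g).toMonoidHom (MulAut.conj g).surjective (by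
          rw [(MonoidHom.ker_eq_bot_iff _).mpr (MulAut.conj g).injective]; exact bot_le)
        have h2 : (T : Subgroup G) = (S : Subgroup G).map (MulAut.conj g).toMonoidHom := by
          rw [← hg]; rfl
        rw [h2]; exact h1
      have h1 : (T : Subgroup G) ≤ Subgroup.normalizer (Cfsg.thompsonSubgroupOf p (T : Subgroup G) : Set G) :=
        le_normalizer.trans (ThompsonP.normalizer_le_J p _)
      have h2 : Subgroup.normalizer (Cfsg.thompsonSubgroupOf p (T : Subgroup G) : Set G) = (T : Subgroup G) := by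
        by_contra hne
        exact hT (hTS.2 _ (lt_of_le_of_ne h1 (Ne.symm hne)))
      exact isPStableOn_of_isPGroup (T.2.to_le h2.le) V

theorem isCharPFunctor (p : ℕ) [Fact p.Prime] : Cfsg.IsCharPFunctor.{u} p (fun Q _ => Cfsg.stableNormalClosure p Q) := by
  refine ⟨fun Q _ _ hQ hn => StabCl.ne_bot hQ, fun Q R _ _ _ hQ φ => ?_⟩
  exact StabCl.map_equiv p φ

/-- Thompson's normal `p`-complement theorem, `p` odd, with `W(S)` -/
theorem pNil_of_Wc [Finite G] {p : ℕ} [hp : Fact p.Prime] (hp2 : p ≠ 2) (P : Sylow p G)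
    (h : PNilp.PNil p (normalizer (Wc p (P : Subgroup G) : Set G))) : PNilp.PNil p G := by
  refine PNInd.PN_ind (isCharPFunctor.{u} p) KThm.closed_true (fun X _ _ _ hc hq S hS hmax => ?_) G trivial P
    (SylRel.sylIn_of_sylow P) h
  show (Wc p S).Normal
  obtain ⟨Kb, hKbn, hKbc, k, hk⟩ := hq
  haveI := Cores.pCore_normal (G := X) p
  haveI := hKbn
  set f := QuotientGroup.mk' (Cfsg.pCore p X) with hf
  have hfs : Function.Surjective f := QuotientGroup.mk'_surjective _
  have hfk : f.ker = Cfsg.pCore p X := QuotientGroup.ker_mk' _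
  have hi : ¬ p ∣ S.index := by
    have := hS.not_dvd
    rwa [relIndex_top_right] at this
  have hrel : ((Cfsg.pCore p X).relIndex (Kb.comap f)).Coprime p := by
    have h := Subgroup.relIndex_comap (f := f) ⊥ (Kb.comap f)
    rw [MonoidHom.comap_bot, map_comap_eq_self_of_surjective hfs, relIndex_bot_left] at h
    have h2 : (Cfsg.pCore p X).relIndex (Kb.comap f) = Nat.card Kb := by
      rw [← h]; exact congrArg (fun z => Subgroup.relIndex z (Kb.comap f)) hfk.symm
    rw [h2]; exact hKbc
  have hsit : Sit p ((hS.isPGroup.toSylow hi : Sylow p X) : Subgroup X) (Kb.comap f) :=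
    ⟨hmax, inferInstance, hfk.ge.trans (ker_le_comap f Kb), hrel, k, by rw [index_comap_of_surjective _ hfs, hk]⟩
  exact Wc_normal (hsit.action hp2) hc (hS.isPGroup.toSylow hi)

end Cfsg.Agent.Lib.StabClC
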