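import Mathlib
import Cfsg.Prelude.Def_LieRecognition

set_option autoImplicit false

namespace Cfsg.Agent.Lib.SuzTwoA

open Cfsg Module

noncomputable section

section field

variable {F : Type*} [Field F] [Fintype F] [CharP F 2]

/-- automorphisms of a finite field of characteristic two over the prime field -/
def autEquiv [Algebra (ZMod 2) F] : (F ≃ₐ[ZMod 2] F) ≃ (F ≃+* F) where
  toFun σ := σ.toRingEquiv
  invFun τ := AlgEquiv.ofRingEquiv (f := τ) (fun r => by
    have h : ((τ : F →+* F).comp (algebraMap (ZMod 2) F)) = algebraMap (ZMod 2) F := Subsingleton.elim _ _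
    exact RingHom.congr_fun h r)
  left_inv σ := by ext x; rfl
  right_inv τ := by ext x; rfl

theorem lin_ind : LinearIndependent F (fun σ : F ≃+* F => ((σ : F →+* F) : F → F)) := by
  have h := (linearIndependent_monoidHom F F).comp (fun σ : F ≃+* F => ((σ : F →+* F) : F →* F)) (by
    intro σ τ h
    ext x
    exact DFunLike.congr_fun h x)
  exact h

/-- the basis of additive maps given by the automorphisms -/
theorem exists_basis [Algebra (ZMod 2) F] : ∃ b : Basis (F ≃ₐ[ZMod 2] F) F (F →ₗ[ZMod 2] F), ∀ σ x, b σ x = σ x := by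
  classical
  have hli : LinearIndependent F (fun σ : F ≃ₐ[ZMod 2] F => (σ : F →ₐ[ZMod 2] F).toLinearMap) :=
    (linearIndependent_toLinearMap (ZMod 2) F F).comp (fun σ : F ≃ₐ[ZMod 2] F => (σ : F →ₐ[ZMod 2] F)) (by
      intro σ τ h
      ext x
      exact DFunLike.congr_fun h x)
  have hcard : Fintype.card (F ≃ₐ[ZMod 2] F) = finrank F (F →ₗ[ZMod 2] F) := by
    rw [← Nat.card_eq_fintype_card, IsGalois.card_aut_eq_finrank, Module.finrank_linearMap_self]
  haveI : Nonempty (F ≃ₐ[ZMod 2] F) := ⟨AlgEquiv.refl⟩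
  refine ⟨basisOfLinearIndependentOfCardEqFinrank hli hcard, fun σ x => ?_⟩
  rw [coe_basisOfLinearIndependentOfCardEqFinrank]
  rfl

theorem quad_split {Q : F → F} (hmul : ∀ x y, Q (x * y) = Q x * Q y) (h1 : Q 1 = 1) (h0 : Q 0 = 0)
    (B : F →+ F →+ F) (hB : ∀ x y, Q (x + y) = Q x + Q y + B x y) (hB0 : ∃ x y, B x y ≠ 0) :
    ∃ τ ψ : F ≃+* F, ∀ x, Q x = τ x * ψ x := by
  classical
  letI : Algebra (ZMod 2) F := ZMod.algebra F 2
  obtain ⟨b, hb⟩ := exists_basis (F := F)
  have hsym : ∀ x y, B x y = B y x := by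
    intro x y
    have h2 := hB x y
    have h3 := hB y x
    rw [add_comm y x] at h3
    linear_combination h3 - h2
  -- coordinates
  let c : (F ≃ₐ[ZMod 2] F) → F →+ F := fun σ =>
    { toFun := fun y => b.repr (AddMonoidHom.toZModLinearMap 2 (B y)) σ
      map_zero' := by
        have : AddMonoidHom.toZModLinearMap 2 (B 0) = 0 := by ext x; simp
        rw [this]; simp
      map_add' := fun y y' => by
        have : AddMonoidHom.toZModLinearMap 2 (B (y + y')) =
            AddMonoidHom.toZModLinearMap 2 (B y) + AddMonoidHom.toZModLinearMap 2 (B y') := by ext x; simp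
        rw [this]; simp }
  have hc : ∀ y x, B y x = ∑ σ : F ≃ₐ[ZMod 2] F, c σ y * σ x := by
    intro y x
    have h2 := b.sum_repr (AddMonoidHom.toZModLinearMap 2 (B y))
    have h3 := congrArg (fun f : F →ₗ[ZMod 2] F => f x) h2
    simp only [LinearMap.sum_apply, LinearMap.smul_apply, smul_eq_mul, hb] at h3
    rw [show B y x = (AddMonoidHom.toZModLinearMap 2 (B y)) x from rfl, ← h3]
    rfl
  have hQ0 : ∀ x, x ≠ 0 → Q x ≠ 0 := by
    intro x hx h
    have h2 : Q (x * x⁻¹) = 1 := by rw [mul_inv_cancel₀ hx, h1]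
    rw [hmul, h, zero_mul] at h2
    exact zero_ne_one h2
  have hBm : ∀ k x y, B (k * y) (k * x) = Q k * B y x := by
    intro k x y
    have h2 := hB (k * y) (k * x)
    rw [← mul_add, hmul, hmul, hmul, hB y x] at h2
    linear_combination -h2
  have hcy : ∀ y, y ≠ 0 → ∀ σ, c σ y = c σ 1 * (Q y / σ y) := by
    intro y hy σ
    have h2 : AddMonoidHom.toZModLinearMap 2 (B y) = ∑ τ : F ≃ₐ[ZMod 2] F, (c τ 1 * (Q y / τ y)) • b τ := by
      ext x
      simp only [LinearMap.sum_apply, LinearMap.smul_apply, smul_eq_mul, hb]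
      have h3 : B y x = Q y * B 1 (y⁻¹ * x) := by
        rw [← hBm y (y⁻¹ * x) 1, mul_one, ← mul_assoc, mul_inv_cancel₀ hy, one_mul]
      rw [show (AddMonoidHom.toZModLinearMap 2 (B y)) x = B y x from rfl, h3, hc, Finset.mul_sum]
      refine Finset.sum_congr rfl fun τ _ => ?_
      rw [map_mul, map_inv₀]
      have : τ y ≠ 0 := by
        intro h; exact hy ((map_eq_zero_iff τ τ.injective).mp h)
      field_simp
    show b.repr (AddMonoidHom.toZModLinearMap 2 (B y)) σ = _
    rw [h2, map_sum, Finsupp.finset_sum_apply, Finset.sum_eq_single σ]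
    · rw [map_smul, Basis.repr_self, Finsupp.smul_apply, Finsupp.single_eq_same, smul_eq_mul, mul_one]
    · intro τ _ hτ
      rw [map_smul, Basis.repr_self, Finsupp.smul_apply, Finsupp.single_eq_of_ne (Ne.symm hτ), smul_zero]
    · intro h; exact absurd (Finset.mem_univ _) h
  obtain ⟨σ, hσ⟩ : ∃ σ, c σ 1 ≠ 0 := by
    by_contra h
    push Not at h
    obtain ⟨x, y, hxy⟩ := hB0
    apply hxy
    by_cases hx : x = 0
    · rw [hx]; simp
    · rw [hc]
      apply Finset.sum_eq_zero
      intro σ _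
      rw [hcy x hx σ, h σ, zero_mul, zero_mul]
  have hψ : ∀ y, Q y / σ y = c σ y / c σ 1 := by
    intro y
    by_cases hy : y = 0
    · rw [hy, h0, map_zero, map_zero, zero_div, zero_div]
    · rw [hcy y hy σ, mul_div_cancel_left₀ _ hσ]
  let ψ : F →+* F :=
    { toFun := fun y => Q y / σ y
      map_one' := by rw [h1, map_one, div_one]
      map_mul' := fun x y => by rw [hmul, map_mul, mul_div_mul_comm]
      map_zero' := by rw [h0, zero_div]
      map_add' := fun x y => by rw [hψ, hψ, hψ, map_add, add_div] }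
  have hbij : Function.Bijective ψ := (Finite.injective_iff_bijective).mp ψ.injective
  refine ⟨σ.toRingEquiv, RingEquiv.ofBijective ψ hbij, fun x => ?_⟩
  show Q x = σ x * (Q x / σ x)
  by_cases hx : x = 0
  · rw [hx, h0]; simp
  · have : σ x ≠ 0 := by
      intro h; exact hx ((map_eq_zero_iff σ σ.injective).mp h)
    field_simp

end field
section field2

variable {F : Type*} [Field F] [Fintype F] [CharP F 2]

theorem add_decomp : ∃ s : Finset (F ≃+* F), ∀ f : F →+ F, ∃ c : (F ≃+* F) → F, ∀ x : F, f x = ∑ σ ∈ s, c σ * σ x := by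
  classical
  letI : Algebra (ZMod 2) F := ZMod.algebra F 2
  obtain ⟨b, hb⟩ := exists_basis (F := F)
  refine ⟨Finset.univ.map (autEquiv (F := F)).toEmbedding, fun f =>
    ⟨fun σ => b.repr (AddMonoidHom.toZModLinearMap 2 f) (autEquiv.symm σ), fun x => ?_⟩⟩
  rw [Finset.sum_map]
  have h2 := b.sum_repr (AddMonoidHom.toZModLinearMap 2 f)
  have h3 := congrArg (fun f : F →ₗ[ZMod 2] F => f x) h2
  simp only [LinearMap.sum_apply, LinearMap.smul_apply, smul_eq_mul, hb] at h3
  rw [show f x = (AddMonoidHom.toZModLinearMap 2 f) x from rfl, ← h3]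
  refine Finset.sum_congr rfl fun σ _ => ?_
  simp only [Equiv.coe_toEmbedding, Equiv.symm_apply_apply]
  rfl

theorem biadd_decomp (B : F →+ F →+ F) : ∃ (s : Finset ((F ≃+* F) × (F ≃+* F))) (c : (F ≃+* F) × (F ≃+* F) → F),
    ∀ x y : F, B x y = ∑ p ∈ s, c p * (p.1 x * p.2 y) := by
  classical
  letI : Algebra (ZMod 2) F := ZMod.algebra F 2
  obtain ⟨b, hb⟩ := exists_basis (F := F)
  let c : (F ≃ₐ[ZMod 2] F) → F →+ F := fun σ =>
    { toFun := fun y => b.repr (AddMonoidHom.toZModLinearMap 2 (B y)) σ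
      map_zero' := by
        have : AddMonoidHom.toZModLinearMap 2 (B 0) = 0 := by ext x; simp
        rw [this]; simp
      map_add' := fun y y' => by
        have : AddMonoidHom.toZModLinearMap 2 (B (y + y')) =
            AddMonoidHom.toZModLinearMap 2 (B y) + AddMonoidHom.toZModLinearMap 2 (B y') := by ext x; simp
        rw [this]; simp }
  have hc : ∀ y x, B y x = ∑ σ : F ≃ₐ[ZMod 2] F, c σ y * σ x := by
    intro y x
    have h2 := b.sum_repr (AddMonoidHom.toZModLinearMap 2 (B y))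
    have h3 := congrArg (fun f : F →ₗ[ZMod 2] F => f x) h2
    simp only [LinearMap.sum_apply, LinearMap.smul_apply, smul_eq_mul, hb] at h3
    rw [show B y x = (AddMonoidHom.toZModLinearMap 2 (B y)) x from rfl, ← h3]
    rfl
  obtain ⟨s, hs⟩ := add_decomp (F := F)
  choose d hd using fun σ : F ≃ₐ[ZMod 2] F => hs (c σ)
  refine ⟨s ×ˢ (Finset.univ.map (autEquiv (F := F)).toEmbedding), fun p => d (autEquiv.symm p.2) p.1, fun x y => ?_⟩
  rw [hc x y, Finset.sum_product_right, Finset.sum_map]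
  refine Finset.sum_congr rfl fun σ _ => ?_
  rw [hd σ x, Finset.sum_mul]
  refine Finset.sum_congr rfl fun τ _ => ?_
  simp only [Equiv.coe_toEmbedding, Equiv.symm_apply_apply]
  rw [mul_assoc]
  rfl

end field2

section iso

/-- central extensions of elementary abelian 2-groups with the same squaring map are isomorphic -/
theorem iso_of_sq {P M X Y : Type*} [Group P] [Group M] [Finite P] [Finite M] [Group X] [Group Y]
    (πP : P →* X) (πM : M →* X) (hπP : Function.Surjective πP) (hπM : Function.Surjective πM)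
    (vP : Y →* P) (vM : Y →* M) (hvP : Function.Injective vP) (hvM : Function.Injective vM)
    (hkP : ∀ g, πP g = 1 ↔ ∃ y, vP y = g) (hkM : ∀ g, πM g = 1 ↔ ∃ y, vM y = g)
    (hcP : ∀ y g, vP y * g = g * vP y) (hcM : ∀ y g, vM y * g = g * vM y)
    (Q : X → Y) (hQP : ∀ g, g * g = vP (Q (πP g))) (hQM : ∀ g, g * g = vM (Q (πM g))) : Nonempty (P ≃* M) := by
  classical
  -- admissible subgroups
  let Good : Subgroup (P × M) → Prop := fun W => (∀ t ∈ W, πP t.1 = πM t.2) ∧ (∀ y, (vP y, vM y) ∈ W) ∧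
    ∀ y, (vP y, (1 : M)) ∈ W → y = 1
  have hker1 : ∀ y, πP (vP y) = 1 := fun y => (hkP _).mpr ⟨y, rfl⟩
  have hker2 : ∀ y, πM (vM y) = 1 := fun y => (hkM _).mpr ⟨y, rfl⟩
  have hG0 : Good ((vP.prod vM).range) := by
    refine ⟨?_, ?_, ?_⟩
    · rintro _ ⟨y, rfl⟩
      show πP (vP y) = πM (vM y)
      rw [hker1, hker2]
    · intro y; exact ⟨y, rfl⟩
    · rintro y ⟨y', hy'⟩
      have h1 : vP y' = vP y := congrArg Prod.fst hy'
      have h2 : vM y' = 1 := congrArg Prod.snd hy'
      rw [← hvP h1]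
      exact hvM (h2.trans (map_one vM).symm)
  haveI : Finite (Subgroup (P × M)) := inferInstance
  obtain ⟨W, hW, hmax⟩ : ∃ W, Good W ∧ ∀ W', Good W' → W ≤ W' → W' = W := by
    obtain ⟨W, hW⟩ := (Set.toFinite {W | Good W}).exists_maximal ⟨_, hG0⟩
    exact ⟨W, hW.1, fun W' hW' hle => le_antisymm (hW.2 hW' hle) hle⟩
  obtain ⟨hW1, hW2, hW3⟩ := hW
  -- squares
  have hsq : ∀ t : P × M, πP t.1 = πM t.2 → t * t = (vP (Q (πP t.1)), vM (Q (πP t.1))) := by
    intro t ht
    refine Prod.ext (hQP t.1) ?_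
    show t.2 * t.2 = _
    rw [hQM, ht]
  have hcen : ∀ (y : Y) (t : P × M), (vP y, vM y) * t = t * (vP y, vM y) := by
    intro y t
    exact Prod.ext (hcP y t.1) (hcM y t.2)
  have hsqW : ∀ t : P × M, πP t.1 = πM t.2 → t * t ∈ W := by
    intro t ht
    rw [hsq t ht]; exact hW2 _
  -- almost commuting
  have hcomm : ∀ t w : P × M, πP t.1 = πM t.2 → πP w.1 = πM w.2 → ∃ d ∈ W, w * t = t * w * d := by
    intro t w ht hw
    have htw : πP (t * w).1 = πM (t * w).2 := by
      show πP (t.1 * w.1) = πM (t.2 * w.2)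
      rw [map_mul, map_mul, ht, hw]
    have h1 := hsq (t * w) htw
    have h2 := hsq t ht
    have h3 := hsq w hw
    obtain ⟨y1, hy1⟩ : ∃ y, (t * w) * (t * w) = (vP y, vM y) := ⟨_, h1⟩
    obtain ⟨y2, hy2⟩ : ∃ y, t * t = (vP y, vM y) := ⟨_, h2⟩
    obtain ⟨y3, hy3⟩ : ∃ y, w * w = (vP y, vM y) := ⟨_, h3⟩
    refine ⟨(w * w)⁻¹ * ((t * w) * (t * w)) * (t * t)⁻¹, ?_, ?_⟩
    · rw [hy1, hy2, hy3]
      exact W.mul_mem (W.mul_mem (W.inv_mem (hW2 _)) (hW2 _)) (W.inv_mem (hW2 _))
    · have e1 : ∀ x : P × M, (t * t)⁻¹ * x = x * (t * t)⁻¹ := by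
        intro x
        rw [hy2, inv_mul_eq_iff_eq_mul, ← mul_assoc, hcen, mul_inv_cancel_right]
      have e3 : ∀ x : P × M, (w * w)⁻¹ * x = x * (w * w)⁻¹ := by
        intro x
        rw [hy3, inv_mul_eq_iff_eq_mul, ← mul_assoc, hcen, mul_inv_cancel_right]
      calc w * t = t⁻¹ * ((t * w) * (t * w)) * w⁻¹ := by group
        _ = t⁻¹ * ((t * w) * (t * w)) * (w * (w * w)⁻¹) := by group
        _ = t * ((t * t)⁻¹ * ((t * w) * (t * w))) * (w * (w * w)⁻¹) := by group
        _ = t * (((t * w) * (t * w)) * (t * t)⁻¹) * (w * (w * w)⁻¹) := by rw [e1 ((t * w) * (t * w))]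
        _ = t * ((t * w) * (t * w)) * ((t * t)⁻¹ * (w * (w * w)⁻¹)) := by group
        _ = t * ((t * w) * (t * w)) * ((w * (w * w)⁻¹) * (t * t)⁻¹) := by rw [e1 (w * (w * w)⁻¹)]
        _ = t * (((t * w) * (t * w)) * w) * ((w * w)⁻¹ * (t * t)⁻¹) := by group
        _ = t * (w * ((t * w) * (t * w))) * ((w * w)⁻¹ * (t * t)⁻¹) := by rw [hy1, hcen]
        _ = t * w * (((t * w) * (t * w)) * (w * w)⁻¹) * (t * t)⁻¹ := by group
        _ = t * w * ((w * w)⁻¹ * ((t * w) * (t * w))) * (t * t)⁻¹ := by rw [e3 ((t * w) * (t * w))]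
        _ = t * w * ((w * w)⁻¹ * ((t * w) * (t * w)) * (t * t)⁻¹) := by group
  -- both projections are onto
  have hext : ∀ t : P × M, πP t.1 = πM t.2 → (∀ y, (vP y, (1 : M)) * t ∉ W) → False := by
    intro t ht hnot
    have hadd : Good
        { carrier := {x | x ∈ W ∨ t⁻¹ * x ∈ W}
          one_mem' := Or.inl W.one_mem
          mul_mem' := by
            rintro x y (hx | hx) (hy | hy)
            · exact Or.inl (W.mul_mem hx hy)
            · right
              obtain ⟨d, hd, hd2⟩ := hcomm t x ht (hW1 x hx)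
              have h4 : t⁻¹ * (x * y) = x * d * (t⁻¹ * y) := by
                have h5 : t⁻¹ * (x * t) = x * d := by rw [hd2]; group
                calc t⁻¹ * (x * y) = t⁻¹ * (x * t) * (t⁻¹ * y) := by group
                  _ = _ := by rw [h5]
              rw [h4]
              exact W.mul_mem (W.mul_mem hx hd) hy
            · right
              rw [← mul_assoc]
              exact W.mul_mem hx hy
            · left
              obtain ⟨d, hd, hd2⟩ := hcomm t (t⁻¹ * x) ht (hW1 _ hx)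
              have h4 : x * y = (t * t) * ((t⁻¹ * x) * d) * (t⁻¹ * y) := by
                have h5 : t⁻¹ * x * t = t * (t⁻¹ * x) * d := hd2
                calc x * y = t * (t⁻¹ * x * t) * (t⁻¹ * y) := by group
                  _ = t * (t * (t⁻¹ * x) * d) * (t⁻¹ * y) := by rw [h5]
                  _ = _ := by group
              rw [h4]
              exact W.mul_mem (W.mul_mem (hsqW t ht) (W.mul_mem hx hd)) hy
          inv_mem' := by
            rintro x (hx | hx)
            · exact Or.inl (W.inv_mem hx)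
            · right
              obtain ⟨d, hd, hd2⟩ := hcomm t (t⁻¹ * x) ht (hW1 _ hx)
              have h4 : t⁻¹ * x⁻¹ = ((t * t) * ((t⁻¹ * x) * d))⁻¹ := by
                have h5 : t⁻¹ * x * t = t * (t⁻¹ * x) * d := hd2
                calc t⁻¹ * x⁻¹ = (t * (t⁻¹ * x * t))⁻¹ := by group
                  _ = (t * (t * (t⁻¹ * x) * d))⁻¹ := by rw [h5]
                  _ = _ := by group
              rw [h4]
              exact W.inv_mem (W.mul_mem (hsqW t ht) (W.mul_mem hx hd)) } := by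
      refine ⟨?_, fun y => Or.inl (hW2 y), ?_⟩
      · rintro x (hx | hx)
        · exact hW1 x hx
        · have h4 := hW1 _ hx
          have h5 : πP (t.1⁻¹ * x.1) = πM (t.2⁻¹ * x.2) := h4
          rw [map_mul, map_mul, map_inv, map_inv, ht] at h5
          exact mul_left_cancel h5
      · rintro y (hy | hy)
        · exact hW3 y hy
        · exfalso
          apply hnot y⁻¹
          have h4 : (vP y⁻¹, (1 : M)) * t = (t⁻¹ * (vP y, (1 : M)))⁻¹ := by
            rw [mul_inv_rev, inv_inv]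
            congr 1
            exact Prod.ext (by show vP y⁻¹ = (vP y)⁻¹; rw [map_inv]) (by show (1 : M) = 1⁻¹; rw [inv_one])
          rw [h4]
          exact W.inv_mem hy
    have h4 := hmax _ hadd (fun x hx => Or.inl hx)
    have h5 : t ∈ W := by
      rw [← h4]
      right
      show t⁻¹ * t ∈ W
      rw [inv_mul_cancel]; exact W.one_mem
    apply hnot 1
    rw [map_one]
    have : ((1 : P), (1 : M)) * t = t := by
      exact Prod.ext (one_mul _) (one_mul _)
    rw [this]; exact h5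
  have hsurjP : ∀ g : P, ∃ m : M, (g, m) ∈ W := by
    intro g
    by_contra hno
    push Not at hno
    obtain ⟨m, hm⟩ := hπM (πP g)
    refine hext (g, m) hm.symm (fun y hy => ?_)
    apply hno (vM y⁻¹ * m)
    have h4 : (g, vM y⁻¹ * m) = (vP y⁻¹, vM y⁻¹) * ((vP y, (1 : M)) * (g, m)) := by
      refine Prod.ext ?_ ?_
      · show g = vP y⁻¹ * (vP y * g)
        rw [map_inv, inv_mul_cancel_left]
      · show vM y⁻¹ * m = vM y⁻¹ * (1 * m)
        rw [one_mul]
    rw [h4]
    exact W.mul_mem (hW2 _) hy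
  have hsurjM : ∀ m : M, ∃ g : P, (g, m) ∈ W := by
    intro m
    by_contra hno
    push Not at hno
    obtain ⟨g, hg⟩ := hπP (πM m)
    refine hext (g, m) hg (fun y hy => ?_)
    apply hno (vP y * g)
    have h4 : (vP y * g, m) = (vP y, (1 : M)) * (g, m) := by
      refine Prod.ext rfl ?_
      show m = 1 * m
      rw [one_mul]
    rw [h4]; exact hy
  have huniqM : ∀ g m m', (g, m) ∈ W → (g, m') ∈ W → m = m' := by
    intro g m m' h h'
    have h4 : ((1 : P), m⁻¹ * m') ∈ W := by
      have := W.mul_mem (W.inv_mem h) h'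
      have e : (g, m)⁻¹ * (g, m') = ((1 : P), m⁻¹ * m') := by
        refine Prod.ext ?_ rfl
        show g⁻¹ * g = 1
        rw [inv_mul_cancel]
      rwa [e] at this
    have h5 := hW1 _ h4
    have h6 : πM (m⁻¹ * m') = 1 := by
      have : πP (1 : P) = πM (m⁻¹ * m') := h5
      rw [← this, map_one]
    obtain ⟨y, hy⟩ := (hkM _).mp h6
    rw [← hy] at h4
    have h7 : (vP y, (1 : M)) ∈ W := by
      have h8 := W.mul_mem (hW2 y) (W.inv_mem h4)
      have e : (vP y, vM y) * ((1 : P), vM y)⁻¹ = (vP y, (1 : M)) := by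
        refine Prod.ext ?_ ?_
        · show vP y * 1⁻¹ = vP y
          rw [inv_one, mul_one]
        · show vM y * (vM y)⁻¹ = 1
          rw [mul_inv_cancel]
      rwa [e] at h8
    rw [hW3 y h7, map_one] at hy
    exact (inv_mul_eq_one.mp hy.symm)
  have huniqP : ∀ g g' m, (g, m) ∈ W → (g', m) ∈ W → g = g' := by
    intro g g' m h h'
    have h4 : (g⁻¹ * g', (1 : M)) ∈ W := by
      have := W.mul_mem (W.inv_mem h) h'
      have e : (g, m)⁻¹ * (g', m) = (g⁻¹ * g', (1 : M)) := by
        refine Prod.ext rfl ?_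
        show m⁻¹ * m = 1
        rw [inv_mul_cancel]
      rwa [e] at this
    have h5 := hW1 _ h4
    have h6 : πP (g⁻¹ * g') = 1 := by
      have : πP (g⁻¹ * g') = πM (1 : M) := h5
      rw [this, map_one]
    obtain ⟨y, hy⟩ := (hkP _).mp h6
    rw [← hy] at h4
    rw [hW3 y h4, map_one] at hy
    exact (inv_mul_eq_one.mp hy.symm)
  choose f hf using hsurjP
  let F : P →* M := MonoidHom.mk' f (fun g g' => huniqM _ _ _ (hf (g * g')) (W.mul_mem (hf g) (hf g')))
  exact ⟨MulEquiv.ofBijective F ⟨fun g g' h => huniqP g g' (f g) (hf g) (by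
    have : f g = f g' := h
    rw [this]; exact hf g'), fun m => by
      obtain ⟨g, hg⟩ := hsurjM m
      exact ⟨g, huniqM g _ _ (hf g) hg⟩⟩⟩

end iso
section model

open Matrix

variable {F : Type*} [Field F]

/-- the matrices of the group of type A -/
def mA (φ : F →+* F) (x y : F) : Matrix (Fin 3) (Fin 3) F := !![1, 0, 0; x, 1, 0; y, φ x, 1]

theorem mA_mul (φ : F →+* F) (x y x' y' : F) : mA φ x y * mA φ x' y' = mA φ (x + x') (y + y' + φ x * x') := by
  ext i j
  fin_cases i <;> fin_cases j <;> simp [mA, Matrix.mul_apply, Fin.sum_univ_three] <;> ring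

theorem mA_zero (φ : F →+* F) : mA φ 0 0 = 1 := by
  ext i j
  fin_cases i <;> fin_cases j <;> simp [mA]

theorem mA_inj (φ : F →+* F) {x y x' y' : F} (h : mA φ x y = mA φ x' y') : x = x' ∧ y = y' := by
  refine ⟨?_, ?_⟩
  · have := congrFun (congrFun h 1) 0
    simpa [mA] using this
  · have := congrFun (congrFun h 2) 0
    simpa [mA] using this

/-- the elements of the group of type A -/
def gA (φ : F →+* F) (x y : F) : GL (Fin 3) F where
  val := mA φ x y
  inv := mA φ (-x) (-y + φ x * x)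
  val_inv := by rw [mA_mul, ← mA_zero φ]; congr 1 <;> ring
  inv_val := by
    rw [mA_mul, ← mA_zero φ]
    congr 1
    · ring
    · rw [map_neg]; ring

theorem gA_mul (φ : F →+* F) (x y x' y' : F) : gA φ x y * gA φ x' y' = gA φ (x + x') (y + y' + φ x * x') :=
  Units.ext (mA_mul φ x y x' y')

theorem gA_zero (φ : F →+* F) : gA φ 0 0 = 1 := Units.ext (mA_zero φ)

theorem gA_inj (φ : F →+* F) {x y x' y' : F} (h : gA φ x y = gA φ x' y') : x = x' ∧ y = y' :=
  mA_inj φ (congrArg Units.val h)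

theorem gA_inv (φ : F →+* F) (x y : F) : (gA φ x y)⁻¹ = gA φ (-x) (-y + φ x * x) := by
  rw [inv_eq_iff_mul_eq_one, gA_mul, ← gA_zero φ]
  congr 1 <;> ring

/-- the explicit group -/
def MA (φ : F →+* F) : Subgroup (GL (Fin 3) F) where
  carrier := {g | ∃ x y, g = gA φ x y}
  one_mem' := ⟨0, 0, (gA_zero φ).symm⟩
  mul_mem' := by
    rintro _ _ ⟨x, y, rfl⟩ ⟨x', y', rfl⟩
    exact ⟨_, _, gA_mul φ x y x' y'⟩
  inv_mem' := by
    rintro _ ⟨x, y, rfl⟩
    exact ⟨_, _, gA_inv φ x y⟩

theorem typeA_eq (φ : F →+* F) : suzukiTypeA F φ = MA φ := by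
  apply le_antisymm
  · unfold suzukiTypeA
    rw [Subgroup.closure_le]
    rintro g ⟨x, y, hg⟩
    exact ⟨x, y, Units.ext hg⟩
  · rintro _ ⟨x, y, rfl⟩
    exact Subgroup.subset_closure ⟨x, y, rfl⟩

theorem MA_mem (φ : F →+* F) (g : MA φ) : ∃ x y, (g : GL (Fin 3) F) = gA φ x y := g.2

/-- first coordinate -/
def cx (φ : F →+* F) (g : MA φ) : F := (g : GL (Fin 3) F).val 1 0

/-- second coordinate -/
def cy (φ : F →+* F) (g : MA φ) : F := (g : GL (Fin 3) F).val 2 0

theorem MA_eta (φ : F →+* F) (g : MA φ) : (g : GL (Fin 3) F) = gA φ (cx φ g) (cy φ g) := by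
  obtain ⟨x, y, h⟩ := g.2
  have h1 : cx φ g = x := by unfold cx; rw [h]; simp [gA, mA]
  have h2 : cy φ g = y := by unfold cy; rw [h]; simp [gA, mA]
  rw [h1, h2]; exact h

theorem cx_mk (φ : F →+* F) (x y : F) (h : gA φ x y ∈ MA φ) : cx φ ⟨gA φ x y, h⟩ = x := by
  simp [cx, gA, mA]

theorem cy_mk (φ : F →+* F) (x y : F) (h : gA φ x y ∈ MA φ) : cy φ ⟨gA φ x y, h⟩ = y := by
  simp [cy, gA, mA]

/-- projection to the first coordinate -/
def piA (φ : F →+* F) : MA φ →* Multiplicative F where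
  toFun g := Multiplicative.ofAdd (cx φ g)
  map_one' := by
    have : cx φ 1 = 0 := by simp [cx]
    rw [this]; rfl
  map_mul' g h := by
    have h1 : cx φ (g * h) = cx φ g + cx φ h := by
      have h2 := MA_eta φ g
      have h3 := MA_eta φ h
      unfold cx
      rw [Subgroup.coe_mul, h2, h3, gA_mul]
      simp [gA, mA]
    rw [h1]; rfl

/-- embedding of the second coordinate -/
def vA (φ : F →+* F) : Multiplicative F →* MA φ where
  toFun y := ⟨gA φ 0 (Multiplicative.toAdd y), ⟨_, _, rfl⟩⟩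
  map_one' := Subtype.ext (by show gA φ 0 0 = 1; exact gA_zero φ)
  map_mul' y y' := Subtype.ext (by
    show gA φ 0 _ = gA φ 0 _ * gA φ 0 _
    rw [gA_mul]
    congr 1
    · ring
    · rw [toAdd_mul, map_zero]; ring)

end model

end

end Cfsg.Agent.Lib.SuzTwoA
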