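import Cfsg.Agent.Lib.ZassAb

/-!
# Zassenhaus groups with two-point stabilizers of odd order `n - 1` or `(n - 1) / 2`
-/

set_option autoImplicit false

namespace Cfsg.Agent.Lib.ZassOdd

open Cfsg MulAction Cfsg.Agent.Lib.Zass Cfsg.Agent.Lib.ZassChar Cfsg.Agent.Lib.ZassInv Cfsg.Agent.Lib.ZassNorm
open Cfsg.Agent.Lib.ZassEven Cfsg.Agent.Lib.ZassEvenB Cfsg.Agent.Lib.ZassField Cfsg.Agent.Lib.ZassAb

noncomputable section

section field

/-- an abelian group of automorphisms of order `(|V| - 1) / 2` acting freely on nonzero vectors comes from a field -/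
theorem exists_field' {V : Type*} [AddCommGroup V] [Finite V] {A : Type*} [Group A]
    (hcomm : ∀ a b : A, a * b = b * a) (ρ : A →* AddMonoid.End V)
    (hfpf : ∀ (a : A) (v : V), v ≠ 0 → ρ a v = v → a = 1) (hcard : Nat.card V ≤ 2 * Nat.card A + 1)
    (v₀ : V) (hv₀ : v₀ ≠ 0) :
    ∃ (K : Type) (_ : Field K) (_ : Fintype K) (φ : K ≃+ V) (ε : A →* Kˣ),
      φ 1 = v₀ ∧ ∀ a x, φ ((ε a : K) * x) = ρ a (φ x) := by
  classical
  have hinj : ∀ w : V, w ≠ 0 → ∀ a b : A, ρ a w = ρ b w → a = b := by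
    intro w hw a b hab
    have h1 : ρ (b⁻¹ * a) w = w := by
      rw [map_mul, mul_ap, hab, ← mul_ap, ← map_mul, inv_mul_cancel, map_one]
      rfl
    have h2 := hfpf _ w hw h1
    rw [inv_mul_eq_one] at h2
    exact h2.symm
  haveI : Finite A := Finite.of_injective (fun a => ρ a v₀) (fun a b h => hinj v₀ hv₀ a b h)
  have hinv : ∀ W : AddSubgroup V, (∀ a, ∀ v ∈ W, ρ a v ∈ W) → ∀ w ∈ W, w ≠ 0 → W = ⊤ := by
    intro W hW w hw hw0
    have hne : ∀ a, ρ a w ≠ 0 := by
      intro a h
      apply hw0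
      have h1 : ρ (a⁻¹ * a) w = 0 := by
        rw [map_mul, mul_ap, h, map_zero]
      rw [inv_mul_cancel, map_one] at h1
      exact h1
    let f : A → {x : W // True ∧ x ≠ 0} := fun a => ⟨⟨ρ a w, hW a w hw⟩, trivial, fun h => hne a (congrArg Subtype.val h)⟩
    have hf : Function.Injective f := fun a b h => hinj w hw0 a b (congrArg (fun x : {x : W // True ∧ x ≠ 0} => (x.1 : V)) h)
    have h1 := Nat.card_le_card_of_injective f hf
    have h2 := card_ne_add_one (A := W) (P := fun _ => True) (y := 0) trivial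
    have h3 : Nat.card {x : W // True} = Nat.card W := Nat.card_congr (Equiv.subtypeUnivEquiv (fun _ => trivial))
    have h4 : Nat.card W ∣ Nat.card V := AddSubgroup.card_addSubgroup_dvd_card W
    apply AddSubgroup.eq_top_of_card_eq
    obtain ⟨k, hk⟩ := h4
    have hk0 : k ≠ 0 := by
      rintro rfl
      have : 0 < Nat.card V := Nat.card_pos
      omega
    have hk2 : k < 2 := by
      by_contra h
      push Not at h
      have : Nat.card W * 2 ≤ Nat.card V := by rw [hk]; exact Nat.mul_le_mul_left _ h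
      omega
    have : k = 1 := by omega
    rw [hk, this, mul_one]
  -- the ring
  obtain ⟨R, hR⟩ : ∃ R : Subring (AddMonoid.End V), R = Subring.closure (Set.range ρ) := ⟨_, rfl⟩
  have hρR : ∀ a, ρ a ∈ R := fun a => by rw [hR]; exact Subring.subset_closure ⟨a, rfl⟩
  have hRcomm : ∀ r ∈ R, ∀ s ∈ R, r * s = s * r := by
    have hc : ∀ x ∈ Set.range ρ, ∀ y ∈ Set.range ρ, x * y = y * x := by
      rintro _ ⟨a, rfl⟩ _ ⟨b, rfl⟩
      rw [← map_mul, ← map_mul, hcomm]
    letI := Subring.closureCommRingOfComm hc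
    intro r hr s hs
    rw [hR] at hr hs
    exact congrArg Subtype.val (mul_comm (⟨r, hr⟩ : Subring.closure (Set.range ρ)) ⟨s, hs⟩)
  letI : CommRing R := { (inferInstance : Ring R) with mul_comm := fun r s => Subtype.ext (hRcomm r r.2 s s.2) }
  have hker : ∀ r ∈ R, r ≠ 0 → ∀ v : V, r v = 0 → v = 0 := by
    intro r hr hr0 v hv
    by_contra hv0
    apply hr0
    let W : AddSubgroup V :=
      { carrier := {w | r w = 0}
        zero_mem' := map_zero r
        add_mem' := fun {x y} hx hy => by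
          show r (x + y) = 0
          rw [map_add, show r x = 0 from hx, show r y = 0 from hy, add_zero]
        neg_mem' := fun {x} hx => by
          show r (-x) = 0
          rw [map_neg, show r x = 0 from hx, neg_zero] }
    have h1 := hinv W (fun a w hw => by
      have h2 : (r * ρ a) w = (ρ a * r) w := by rw [hRcomm r hr _ (hρR a)]
      rw [mul_ap, mul_ap] at h2
      have h3 : r w = 0 := hw
      rw [h3, map_zero] at h2
      exact h2) v hv hv0
    ext w
    have h2 : w ∈ W := by rw [h1]; exact AddSubgroup.mem_top w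
    exact h2
  let ev : R →+ V :=
    { toFun := fun r => (r : AddMonoid.End V) v₀
      map_zero' := rfl
      map_add' := fun _ _ => rfl }
  have hevinj : Function.Injective ev := by
    rw [injective_iff_map_eq_zero]
    intro r hr
    by_contra hr0
    exact hv₀ (hker r r.2 (fun h => hr0 (Subtype.ext h)) v₀ hr)
  have hevsurj : Function.Surjective ev := by
    rw [← AddMonoidHom.range_eq_top]
    apply hinv _ _ v₀ _ hv₀
    · rintro a _ ⟨r, rfl⟩
      exact ⟨⟨ρ a, hρR a⟩ * r, rfl⟩
    · exact ⟨1, rfl⟩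
  haveI : Finite R := Finite.of_injective ev hevinj
  letI : Fintype R := Fintype.ofFinite R
  haveI : Nontrivial R := ⟨⟨1, 0, fun h => hv₀ (by
    have h1 : ev 1 = ev 0 := by rw [h]
    exact h1)⟩⟩
  haveI : NoZeroDivisors R := ⟨fun {r s} hrs => by
    by_contra h
    push Not at h
    apply hv₀
    have h1 : (r : AddMonoid.End V) ((s : AddMonoid.End V) v₀) = 0 := by
      have : ev (r * s) = ev 0 := by rw [hrs]
      exact this
    exact hker s s.2 (fun h' => h.2 (Subtype.ext h')) _ (hker r r.2 (fun h' => h.1 (Subtype.ext h')) _ h1)⟩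
  haveI : IsDomain R := NoZeroDivisors.to_isDomain R
  letI hRf : Field R := Fintype.fieldOfDomain R
  obtain ⟨K, ⟨e⟩⟩ : ∃ K : Type, Nonempty (K ≃ R) := ⟨Fin (Nat.card R), ⟨(Finite.equivFin R).symm⟩⟩
  letI : Field K := e.field
  letI : Fintype K := Fintype.ofEquiv R e.symm
  let er : K ≃+* R := e.ringEquiv
  refine ⟨K, inferInstance, inferInstance, er.toAddEquiv.trans (AddEquiv.ofBijective ev ⟨hevinj, hevsurj⟩), ?_, ?_, ?_⟩
  · exact (Units.map (er.symm : R →* K)).comp (MonoidHom.toHomUnits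
      { toFun := fun a => (⟨ρ a, hρR a⟩ : R)
        map_one' := Subtype.ext (map_one ρ)
        map_mul' := fun a b => Subtype.ext (map_mul ρ a b) })
  · show ev (er 1) = v₀
    rw [map_one]
    rfl
  · intro a x
    show ev (er (er.symm ⟨ρ a, hρR a⟩ * x)) = ρ a (ev (er x))
    rw [map_mul, RingEquiv.apply_symm_apply]
    rfl

end field

section coord

variable {G Ω : Type*} [Group G] [Finite G] [MulAction G Ω] [Fintype Ω]

theorem exists_coord' (hZ : IsZassenhausGroup G Ω) {a b : Ω} (hab : a ≠ b)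
    (hE : ∀ x ∈ (stabilizer G a ⊓ stabilizer G b : Subgroup G), ∀ y ∈ (stabilizer G a ⊓ stabilizer G b : Subgroup G), x * y = y * x)
    (hd : Fintype.card Ω - 2 ≤ 2 * Nat.card (stabilizer G a ⊓ stabilizer G b : Subgroup G)) :
    ∃ (K : Type) (_ : Field K) (_ : Fintype K) (_ : Coord G Ω K a b), Fintype.card K + 1 = Fintype.card Ω := by
  classical
  obtain ⟨H, hHa, hHcard, hHfix⟩ := exists_H hZ hab
  have hHc := (elementary hZ hab H hHa hHcard hHfix hd).1
  letI : CommGroup H := { (inferInstance : Group H) with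
    mul_comm := fun x y => Subtype.ext (hHc x x.2 y y.2) }
  have hn := two_lt hZ hab
  let ρ : (stabilizer G a ⊓ stabilizer G b : Subgroup G) →* AddMonoid.End (Additive H) :=
    { toFun := fun e =>
        { toFun := fun v => Additive.ofMul ⟨(e : G) * (Additive.toMul v : H) * (e : G)⁻¹,
            H_conj hZ hab H hHa hHcard hHfix (mem_two.mp e.2).1 (Additive.toMul v : H).2⟩
          map_zero' := by
            apply Additive.toMul.injective
            apply Subtype.ext
            show (e : G) * 1 * (e : G)⁻¹ = 1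
            group
          map_add' := fun x y => by
            apply Additive.toMul.injective
            apply Subtype.ext
            show (e : G) * ((Additive.toMul x : H) * (Additive.toMul y : H)) * (e : G)⁻¹ =
              ((e : G) * (Additive.toMul x : H) * (e : G)⁻¹) * ((e : G) * (Additive.toMul y : H) * (e : G)⁻¹)
            group }
      map_one' := by
        refine AddMonoidHom.ext fun v => ?_
        apply Additive.toMul.injective
        apply Subtype.ext
        show (1 : G) * (Additive.toMul v : H) * (1 : G)⁻¹ = (Additive.toMul v : H)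
        group
      map_mul' := fun e f => by
        refine AddMonoidHom.ext fun v => ?_
        apply Additive.toMul.injective
        apply Subtype.ext
        show ((e : G) * (f : G)) * (Additive.toMul v : H) * ((e : G) * (f : G))⁻¹ =
          (e : G) * ((f : G) * (Additive.toMul v : H) * (f : G)⁻¹) * (e : G)⁻¹
        group }
  have hρ : ∀ e v, ((Additive.toMul (ρ e v) : H) : G) = (e : G) * (Additive.toMul v : H) * (e : G)⁻¹ := fun _ _ => rfl
  haveI : Nontrivial H := Finite.one_lt_card_iff_nontrivial.mp (by omega)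
  obtain ⟨u, hu⟩ := exists_ne (1 : H)
  haveI : Finite (Additive H) := inferInstanceAs (Finite H)
  obtain ⟨K, hKf, hKt, φ, ε, -, hε⟩ := exists_field' (V := Additive H)
    (fun e f => Subtype.ext (hE e e.2 f f.2)) ρ (by
      intro e v hv hev
      by_contra he
      apply hv
      have he' : (e : G) ≠ 1 := fun h => he (Subtype.ext h)
      have h1 : (e : G) * (Additive.toMul v : H) * (e : G)⁻¹ = (Additive.toMul v : H) := by rw [← hρ, hev]
      have h2 := comm_eq_one hZ hab H hHa hHfix he' (mem_two.mp e.2).1 (mem_two.mp e.2).2 (Additive.toMul v : H).2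
        (by rw [mul_inv_eq_iff_eq_mul] at h1; exact h1)
      apply Additive.toMul.injective
      exact Subtype.ext h2) (by
      have : Nat.card (Additive H) = Nat.card H := rfl
      rw [this]
      omega) (Additive.ofMul u) (fun h => hu (Additive.ofMul.injective h))
  let hx : K → G := fun x => ((Additive.toMul (φ x) : H) : G)
  have hxH : ∀ x, hx x ∈ H := fun x => (Additive.toMul (φ x) : H).2
  have hx_add : ∀ x y, hx (x + y) = hx x * hx y := by
    intro x y
    show ((Additive.toMul (φ (x + y)) : H) : G) = ((Additive.toMul (φ x) : H) : G) * ((Additive.toMul (φ y) : H) : G)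
    rw [map_add, toMul_add]
    rfl
  have hxinj : ∀ x y, hx x = hx y → x = y := by
    intro x y h
    apply φ.injective
    apply Additive.toMul.injective
    exact Subtype.ext h
  have hfree : ∀ u ∈ H, ∀ v ∈ H, u • b = v • b → u = v := by
    intro u hu v hv huv
    by_contra hne
    have h1 : v⁻¹ * u ≠ 1 := by
      intro h
      rw [inv_mul_eq_one] at h
      exact hne h.symm
    have h2 := hHfix (v⁻¹ * u) (mul_mem (inv_mem hv) hu) h1 b (by rw [mul_smul, huv, inv_smul_smul])
    exact hab h2.symm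
  refine ⟨K, hKf, hKt,
    { hx := hx
      m := ε
      hx_add := hx_add
      hx_a := fun x => hHa (hxH x)
      pt_inj := fun x y h => hxinj x y (hfree _ (hxH x) _ (hxH y) h)
      pt_surj := fun c hc => by
        obtain ⟨u, hu, huc⟩ := H_trans H hHa hHcard hHfix hab.symm hc
        refine ⟨φ.symm (Additive.ofMul ⟨u, hu⟩), ?_⟩
        show ((Additive.toMul (φ (φ.symm (Additive.ofMul (⟨u, hu⟩ : H)))) : H) : G) • b = c
        rw [AddEquiv.apply_symm_apply]
        exact huc
      conj := fun e x => by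
        show (e : G) * ((Additive.toMul (φ x) : H) : G) * (e : G)⁻¹ = ((Additive.toMul (φ ((ε e : K) * x)) : H) : G)
        rw [hε, hρ] }, ?_⟩
  have h1 : Nat.card K = Nat.card H := Nat.card_congr (φ.toEquiv.trans Additive.toMul)
  rw [Nat.card_eq_fintype_card] at h1
  omega

end coord

section ident

open Matrix OnePoint

variable {G Ω K : Type*} [Group G] [Finite G] [MulAction G Ω] [Fintype Ω] [Field K] [Fintype K] [DecidableEq K] {a b : Ω}

/-- identification with `PSL(2, K)` -/
theorem ident' (C : Coord G Ω K a b) (hZ : IsZassenhausGroup G Ω) (hab : a ≠ b)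
    (hGc : Nat.gcd 2 (Fintype.card K - 1) * Nat.card G = Nat.card (SpecialLinearGroup (Fin 2) K)) {n : G} (hna : n • a = b) (hnb : n • b = a)
    (hn : ∀ x : K, x ≠ 0 → n • C.hx x • b = C.hx (-x⁻¹) • b) :
    Nonempty (G ≃* ProjectiveSpecialLinearGroup (Fin 2) K) := by
  classical
  have hex : ∀ A : SpecialLinearGroup (Fin 2) K, ∃ g : G, RelA C g A := by
    let S : Subgroup (SpecialLinearGroup (Fin 2) K) :=
      { carrier := {A | ∃ g : G, RelA C g A}
        mul_mem' := by
          rintro A B ⟨g, hg⟩ ⟨h, hh⟩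
          exact ⟨g * h, relA_mul C hg hh⟩
        one_mem' := ⟨1, relA_one C⟩
        inv_mem' := by
          rintro A ⟨g, hg⟩
          exact ⟨g⁻¹, relA_inv C hg⟩ }
    have hS := Cfsg.Agent.Lib.SL2Hom.closure_eq_top S (fun y => ⟨C.hx y, relA_U C y⟩) ⟨n, relA_W C hna hnb hn⟩
    intro A
    have : A ∈ S := by rw [hS]; exact Subgroup.mem_top A
    exact this
  choose f hf using hex
  let φ : SpecialLinearGroup (Fin 2) K →* G :=
    { toFun := f
      map_one' := relA_unique C hZ (hf 1) (relA_one C)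
      map_mul' := fun A B => relA_unique C hZ (hf (A * B)) (relA_mul C (hf A) (hf B)) }
  have hker : φ.ker = Subgroup.center (SpecialLinearGroup (Fin 2) K) := by
    ext A
    rw [← relA_center C hab, MonoidHom.mem_ker]
    constructor
    · intro h
      have h1 := hf A
      have h2 : f A = 1 := h
      rwa [h2] at h1
    · intro h
      exact relA_unique C hZ (hf A) h
  have hcardZ := Cfsg.Agent.Lib.GLSL.card_center_SL (F := K) 2 (by norm_num)
  have hrange : Nat.card φ.range = Nat.card G := by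
    have h1 := φ.ker.card_mul_index
    rw [Subgroup.index_ker, hker, hcardZ, ← hGc] at h1
    exact Nat.eq_of_mul_eq_mul_left (Nat.gcd_pos_of_pos_left _ (by norm_num)) h1
  have hsurj : Function.Surjective φ := by
    rw [← MonoidHom.range_eq_top]
    exact Subgroup.eq_top_of_card_eq _ hrange
  exact ⟨((QuotientGroup.quotientMulEquivOfEq hker.symm).trans (QuotientGroup.quotientKerEquivOfSurjective φ hsurj)).symm⟩

end ident

section swap

variable {G Ω K : Type*} [Group G] [Finite G] [MulAction G Ω] [Fintype Ω] [Field K] [Fintype K] {a b : Ω}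

theorem tau_smul (C : Coord G Ω K a b) {t : G} 
    (hinv : ∀ x ∈ (stabilizer G a ⊓ stabilizer G b : Subgroup G), t * x * t⁻¹ = x⁻¹)
    {τ : K → K} (hτ : ∀ x, x ≠ 0 → t • C.hx x • b = C.hx (τ x) • b)
    (e : (stabilizer G a ⊓ stabilizer G b : Subgroup G)) (x : K) (hx : x ≠ 0) :
    τ ((C.m e : K) * x) = (C.m e : K)⁻¹ * τ x := by
  apply C.pt_inj
  have hmx : (C.m e : K) * x ≠ 0 := mul_ne_zero (Units.ne_zero _) hx
  have h1 := hinv e e.2
  have h2 : ((e⁻¹ : (stabilizer G a ⊓ stabilizer G b : Subgroup G)) : G) = (e : G)⁻¹ := rfl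
  have h3 : t * (e : G) = (e : G)⁻¹ * t := by rw [← h1]; group
  rw [← hτ _ hmx, ← e_pt, ← mul_smul, h3, mul_smul, hτ x hx, ← h2, e_pt, map_inv, Units.val_inv_eq_inv_val]

/-- rescale the swap so that `1 ↦ -1` -/
theorem exists_norm (C : Coord G Ω K a b) (hab : a ≠ b) {t : G} (hta : t • a = b) (htb : t • b = a)
    {τ : K → K} (hτ : ∀ x, x ≠ 0 → t • C.hx x • b = C.hx (τ x) • b)
    (hinv : ∀ x ∈ (stabilizer G a ⊓ stabilizer G b : Subgroup G), t * x * t⁻¹ = x⁻¹)
    {e : (stabilizer G a ⊓ stabilizer G b : Subgroup G)} (he : (C.m e : K) = -τ 1) :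
    (t * (e : G)) • a = b ∧ (t * (e : G)) • b = a ∧ (t * (e : G)) • C.hx 1 • b = C.hx (-1) • b := by
  obtain ⟨hea, heb⟩ := mem_two.mp e.2
  refine ⟨by rw [mul_smul, hea, hta], by rw [mul_smul, heb, htb], ?_⟩
  rw [mul_smul, e_pt, hτ _ (mul_ne_zero (Units.ne_zero _) one_ne_zero), tau_smul C hinv hτ e 1 one_ne_zero]
  congr 2
  have h0 : (C.m e : K) ≠ 0 := Units.ne_zero _
  have h1 : τ 1 = -(C.m e : K) := by rw [he, neg_neg]
  rw [h1, mul_neg, inv_mul_cancel₀ h0]

end swap

section main

open Matrix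

variable {G Ω : Type*} [Group G] [Finite G] [MulAction G Ω] [Fintype Ω]

/-- the case `e = |Ω| - 2`, `e` odd -/
theorem psl_full (hZ : IsZassenhausGroup G Ω) {a b : Ω} (hab : a ≠ b)
    (hodd : Odd (Nat.card (stabilizer G a ⊓ stabilizer G b : Subgroup G))) (hG : commutator G = ⊤)
    (hh : Nat.card (stabilizer G a ⊓ stabilizer G b : Subgroup G) + 2 = Fintype.card Ω) :
    ∃ (K : Type) (_ : Field K) (_ : Fintype K), Fintype.card K + 1 = Fintype.card Ω ∧
      Nonempty (G ≃* ProjectiveSpecialLinearGroup (Fin 2) K) := by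
  classical
  obtain ⟨t, hta, htb⟩ := exists_swap hZ hab
  obtain ⟨hE, hinv⟩ := inverts hZ hab hodd hG hta htb
  obtain ⟨K, hKf, hKt, C, hK⟩ := exists_coord' hZ hab hE (by omega)
  refine ⟨K, hKf, hKt, hK, ?_⟩
  obtain ⟨τ, hτ, hτ0⟩ := exists_tau C hab hta htb
  have hcardK : Nat.card Kˣ = Nat.card (stabilizer G a ⊓ stabilizer G b : Subgroup G) := by
    rw [Nat.card_eq_fintype_card, Fintype.card_units]
    omega
  have hbij : Function.Bijective C.m :=
    (Nat.bijective_iff_injective_and_card _).mpr ⟨m_inj C hZ hab, hcardK.symm⟩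
  obtain ⟨e, he⟩ := hbij.2 (Units.mk0 (-τ 1) (neg_ne_zero.mpr (hτ0 1 one_ne_zero)))
  obtain ⟨h1, h2, h3⟩ := exists_norm C hab hta htb hτ hinv (e := e) (by rw [he]; rfl)
  have hinv' := (inverts hZ hab hodd hG h1 h2).2
  obtain ⟨τ', hτ', hτ0'⟩ := exists_tau C hab h1 h2
  have h4 : τ' 1 = -1 := C.pt_inj _ _ (by rw [← hτ' 1 one_ne_zero, h3])
  apply ident' C hZ hab _ h1 h2
  · intro x hx
    rw [hτ' x hx]
    congr 2
    obtain ⟨f, hf⟩ := hbij.2 (Units.mk0 x hx)
    have h5 := tau_smul C hinv' hτ' f 1 one_ne_zero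
    have h6 : (C.m f : K) = x := by rw [hf]; rfl
    rw [h6, mul_one, h4] at h5
    rw [h5]; ring
  · have hcardSL := Cfsg.Agent.Lib.SL2.card_SL2 (F := K)
    have hGc := card_group hZ hab
    obtain ⟨e', he'⟩ : ∃ e', e' = Nat.card (stabilizer G a ⊓ stabilizer G b : Subgroup G) := ⟨_, rfl⟩
    rw [← he'] at hGc hh hodd
    have hq : Fintype.card K = e' + 1 := by omega
    have hgcd : Nat.gcd 2 (Fintype.card K - 1) = 1 := by
      rw [hq, Nat.add_sub_cancel]
      exact (Nat.coprime_two_left).mpr hodd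
    rw [hgcd, one_mul, hcardSL, ← hGc, ← hK, hq]
    simp only [Nat.add_sub_cancel]
    ring

/-- the case `2 e = |Ω| - 2`, `e` odd -/
theorem psl_half (hZ : IsZassenhausGroup G Ω) {a b : Ω} (hab : a ≠ b)
    (hodd : Odd (Nat.card (stabilizer G a ⊓ stabilizer G b : Subgroup G))) (hG : commutator G = ⊤)
    (hh : 2 * Nat.card (stabilizer G a ⊓ stabilizer G b : Subgroup G) + 2 = Fintype.card Ω) :
    ∃ (K : Type) (_ : Field K) (_ : Fintype K), Fintype.card K + 1 = Fintype.card Ω ∧
      Nonempty (G ≃* ProjectiveSpecialLinearGroup (Fin 2) K) := by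
  classical
  obtain ⟨t, hta, htb⟩ := exists_swap hZ hab
  obtain ⟨hE, hinv⟩ := inverts hZ hab hodd hG hta htb
  obtain ⟨K, hKf, hKt, C, hK⟩ := exists_coord' hZ hab hE (by omega)
  refine ⟨K, hKf, hKt, hK, ?_⟩
  obtain ⟨τ, hτ, hτ0⟩ := exists_tau C hab hta htb
  have hidx := range_index C hZ hab hh hK
  have hrcard : Nat.card C.m.range = Nat.card (stabilizer G a ⊓ stabilizer G b : Subgroup G) :=
    (Nat.card_congr (MonoidHom.ofInjective (m_inj C hZ hab)).toEquiv).symm
  -- no fixed points
  have hnofix : ∀ x : G, orderOf x = 2 → ∀ c : Ω, x • c ≠ c := by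
    intro x hx c hc
    have h1 := card_fix_invol hZ hab hodd hx
    rw [if_neg (by rw [← hh, Nat.not_odd_iff_even]; exact ⟨Nat.card (stabilizer G a ⊓ stabilizer G b : Subgroup G) + 1, by ring⟩)] at h1
    haveI : Nonempty {c : Ω // x • c = c} := ⟨⟨c, hc⟩⟩
    have h2 : 0 < Nat.card {c : Ω // x • c = c} := Nat.card_pos
    omega
  have hneg : ∀ u : Kˣ, u ∈ C.m.range → ∃ e : (stabilizer G a ⊓ stabilizer G b : Subgroup G), C.m e * C.m e = u := by
    rintro u ⟨e, he⟩
    have h1 : (e : (stabilizer G a ⊓ stabilizer G b : Subgroup G)) ^ Nat.card (stabilizer G a ⊓ stabilizer G b : Subgroup G) = 1 :=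
      pow_card_eq_one'
    obtain ⟨k, hk⟩ := odd_sqrt hodd h1
    exact ⟨e ^ k, by rw [← map_mul, hk, he]⟩
  have htwo : (-1 : Kˣ) ∉ C.m.range := by
    intro h
    have h1 : orderOf (⟨-1, h⟩ : C.m.range) ∣ Nat.card C.m.range := orderOf_dvd_natCard _
    have h2 : orderOf (⟨-1, h⟩ : C.m.range) = 2 := by
      rw [orderOf_eq_prime_iff]
      refine ⟨Subtype.ext (by simp), fun h3 => ?_⟩
      have h4 : (-1 : Kˣ) = 1 := congrArg Subtype.val h3
      have h5 : (-1 : K) = 1 := congrArg Units.val h4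
      have h6 : ringChar K = 2 := (neg_one_eq_one_iff).mp h5
      haveI := ringChar.charP K
      rw [h6] at this
      have h7 := FiniteField.even_card_iff_char_two.mp (by rw [h6] : ringChar K = 2)
      omega
    rw [h2, hrcard] at h1
    rw [← Nat.not_even_iff_odd, even_iff_two_dvd] at hodd
    exact hodd h1
  have hor : ∀ u : Kˣ, u ∉ C.m.range → -u ∈ C.m.range := by
    intro u hu
    have h1 : -u = (-1) * u := by simp
    rw [h1, Subgroup.mul_mem_iff_of_index_two hidx]
    exact ⟨fun h => absurd h htwo, fun h => absurd h hu⟩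
  have hc : Units.mk0 (τ 1) (hτ0 1 one_ne_zero) ∉ C.m.range := by
    intro h
    obtain ⟨e, he⟩ := hneg _ h
    have h1 := tau_smul C hinv hτ e 1 one_ne_zero
    rw [mul_one] at h1
    have h2 : τ 1 = (C.m e : K) * C.m e := by
      rw [← Units.val_mul, he]; rfl
    have hme : (C.m e : K) ≠ 0 := Units.ne_zero _
    have h3 : τ (C.m e : K) = C.m e := by
      rw [h1, h2, inv_mul_cancel_left₀ hme]
    have h4 := hτ _ hme
    rw [h3] at h4
    exact hnofix t (swap_order hZ hab hodd hG hta htb) _ h4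
  obtain ⟨e, he⟩ := hor _ hc
  obtain ⟨h1, h2, h3⟩ := exists_norm C hab hta htb hτ hinv (e := e) (by rw [he]; rfl)
  have hinv' := (inverts hZ hab hodd hG h1 h2).2
  obtain ⟨τ', hτ', hτ0'⟩ := exists_tau C hab h1 h2
  have h4 : τ' 1 = -1 := C.pt_inj _ _ (by rw [← hτ' 1 one_ne_zero, h3])
  have h5 : τ' (-1) = 1 := by
    apply C.pt_inj
    have hsq := swap_sq hZ hab hodd hG h1 h2
    rw [← hτ' (-1) (neg_ne_zero.mpr one_ne_zero), ← h4, ← hτ' 1 one_ne_zero, ← mul_smul, hsq, one_smul]
  apply ident C hZ hab hh hK h1 h2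
  intro x hx
  rw [hτ' x hx]
  congr 2
  by_cases hxm : Units.mk0 x hx ∈ C.m.range
  · obtain ⟨f, hf⟩ := hxm
    have h6 := tau_smul C hinv' hτ' f 1 one_ne_zero
    have h7 : (C.m f : K) = x := by rw [hf]; rfl
    rw [h7, mul_one, h4] at h6
    rw [h6]; ring
  · obtain ⟨f, hf⟩ := hor _ hxm
    have h6 := tau_smul C hinv' hτ' f (-1) (neg_ne_zero.mpr one_ne_zero)
    have h7 : (C.m f : K) = -x := by rw [hf]; rfl
    rw [h7, h5, mul_one, mul_neg, mul_one, neg_neg] at h6
    rw [h6, inv_neg]

end main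

section perf

variable {G Ω : Type*} [Group G] [Finite G] [MulAction G Ω] [Fintype Ω]

/-- if `H` is abelian and `2 e + 2 = |Ω|`, `e` odd, then `G` is perfect -/
theorem perfect_half (hZ : IsZassenhausGroup G Ω) {a b : Ω} (hab : a ≠ b)
    (hodd : Odd (Nat.card (stabilizer G a ⊓ stabilizer G b : Subgroup G)))
    (hh : 2 * Nat.card (stabilizer G a ⊓ stabilizer G b : Subgroup G) + 2 = Fintype.card Ω) : commutator G = ⊤ := by
  classical
  obtain ⟨H, hHa, hHcard, hHfix⟩ := exists_H hZ hab
  have hHc := (elementary hZ hab H hHa hHcard hHfix (by omega)).1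
  obtain ⟨N, hNn, hNb, hNp⟩ := Cfsg.Agent.Lib.ZassFeitB.exists_perfect hZ
  have hZN := normal_zass hZ N hNb
  have hHN := H_le_normal hZ hab H hHa hHcard hHfix N hNb
  haveI : Fintype N := Fintype.ofFinite N
  let f : H.subgroupOf N ≃* H := Subgroup.subgroupOfEquivOfLe hHN
  have hcardH : Nat.card (H.subgroupOf N) = Nat.card H := Nat.card_congr f.toEquiv
  have h1 : (stabilizer N a ⊓ stabilizer N b : Subgroup N).map N.subtype ≤ stabilizer G a ⊓ stabilizer G b := by
    rintro x hx
    obtain ⟨y, hy, rfl⟩ := Subgroup.mem_map.mp hx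
    exact mem_two.mpr ⟨(mem_two.mp hy).1, (mem_two.mp hy).2⟩
  have h2 : Nat.card ((stabilizer N a ⊓ stabilizer N b : Subgroup N).map N.subtype) =
      Nat.card (stabilizer N a ⊓ stabilizer N b : Subgroup N) :=
    Subgroup.card_map_of_injective Subtype.val_injective
  have hdvd : Nat.card (stabilizer N a ⊓ stabilizer N b : Subgroup N) ∣
      Nat.card (stabilizer G a ⊓ stabilizer G b : Subgroup G) := by
    rw [← h2]
    exact Subgroup.card_dvd_of_le h1
  have hle := Nat.le_of_dvd Nat.card_pos hdvd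
  have h := Cfsg.Agent.Lib.ZassFeitB.feit_perfect hZN hab (H.subgroupOf N) (fun x hx => hHa hx)
    (by rw [hcardH]; exact hHcard)
    (fun u hu hu1 c hc => hHfix u.1 hu (fun e => hu1 (Subtype.ext e)) c hc)
    (Odd.of_dvd_nat hodd hdvd) hNp
  have hE : Nat.card (stabilizer N a ⊓ stabilizer N b : Subgroup N) =
      Nat.card (stabilizer G a ⊓ stabilizer G b : Subgroup G) := by
    rcases h with h | ⟨-, ⟨u, v, huv⟩, -⟩
    · rw [hcardH] at h
      omega
    · exfalso
      apply huv
      apply Subtype.ext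
      apply Subtype.ext
      exact hHc _ u.2 _ v.2
  have hcN := card_group hZN hab
  have hcG := card_group hZ hab
  rw [hE, hcG] at hcN
  have hNtop : N = ⊤ := Subgroup.eq_top_of_card_eq N hcN.symm
  subst hNtop
  rw [eq_top_iff]
  intro x _
  have h3 : (⟨x, Subgroup.mem_top x⟩ : (⊤ : Subgroup G)) ∈ commutator (⊤ : Subgroup G) := by
    rw [hNp]; exact Subgroup.mem_top _
  have h4 := Subgroup.mem_map_of_mem (⊤ : Subgroup G).subtype h3
  rw [commutator_def, Subgroup.map_commutator] at h4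
  rw [commutator_def]
  exact Subgroup.commutator_mono le_top le_top h4

theorem three_trans (hZ : IsZassenhausGroup G Ω) {a b : Ω} (hab : a ≠ b)
    (hs : Nat.card (stabilizer G a ⊓ stabilizer G b : Subgroup G) + 2 = Fintype.card Ω) :
    MulAction.IsMultiplyPretransitive G Ω 3 ∧ ∀ t : Fin 3 ↪ Ω, MulAction.stabilizer G t = ⊥ := by
  classical
  have htr : ∀ {a b : Ω}, a ≠ b → ∀ c d : Ω, c ≠ a → c ≠ b → d ≠ a → d ≠ b → ∃ g : G, g • a = a ∧ g • b = b ∧ g • c = d := by
    intro a' b' hab' c d hca hcb hda hdb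
    have hE : Nat.card (stabilizer G a' ⊓ stabilizer G b' : Subgroup G) + 2 = Fintype.card Ω := by
      rw [card_two hZ hab hab']; exact hs
    let f : (stabilizer G a' ⊓ stabilizer G b' : Subgroup G) → {x : Ω // x ≠ a' ∧ x ≠ b'} := fun g =>
      ⟨(g : G) • c, fun h => hca (MulAction.injective (g : G) (h.trans (mem_two.mp g.2).1.symm)),
        fun h => hcb (MulAction.injective (g : G) (h.trans (mem_two.mp g.2).2.symm))⟩
    have hf : Function.Injective f := by
      intro g h hgh
      have h1 : (g : G) • c = (h : G) • c := congrArg Subtype.val hgh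
      have h2 := mem_two.mp (mul_mem (inv_mem h.2) g.2)
      have h3 : (h : G)⁻¹ * (g : G) = 1 :=
        hZ.2.2.1 _ a' b' c hab' hcb.symm hca.symm h2.1 h2.2 (by rw [mul_smul, h1, inv_smul_smul])
      rw [inv_mul_eq_one] at h3
      exact Subtype.ext h3.symm
    have hcard : Nat.card (stabilizer G a' ⊓ stabilizer G b' : Subgroup G) = Nat.card {x : Ω // x ≠ a' ∧ x ≠ b'} := by
      have h1 : Nat.card {x : Ω // x ≠ a' ∧ x ≠ b'} = ((Finset.univ.erase a').erase b').card := by
        rw [Nat.card_eq_fintype_card, Fintype.card_subtype]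
        congr 1
        ext x
        simp [and_comm]
      rw [h1, Finset.card_erase_of_mem (Finset.mem_erase.mpr ⟨hab'.symm, Finset.mem_univ _⟩),
        Finset.card_erase_of_mem (Finset.mem_univ _), Finset.card_univ]
      omega
    have hb := (Nat.bijective_iff_injective_and_card f).mpr ⟨hf, hcard⟩
    obtain ⟨g, hg⟩ := hb.2 ⟨d, hda, hdb⟩
    exact ⟨g, (mem_two.mp g.2).1, (mem_two.mp g.2).2, congrArg Subtype.val hg⟩
  constructor
  · refine ⟨fun x y => ?_⟩
    have hx01 : x 0 ≠ x 1 := fun h => by have := x.injective h; revert this; decide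
    have hx02 : x 2 ≠ x 0 := fun h => by have := x.injective h; revert this; decide
    have hx12 : x 2 ≠ x 1 := fun h => by have := x.injective h; revert this; decide
    have hy01 : y 0 ≠ y 1 := fun h => by have := y.injective h; revert this; decide
    have hy02 : y 2 ≠ y 0 := fun h => by have := y.injective h; revert this; decide
    have hy12 : y 2 ≠ y 1 := fun h => by have := y.injective h; revert this; decide
    obtain ⟨g, hg0, hg1⟩ := two_trans hZ hx01 hy01
    obtain ⟨k, hk0, hk1, hk2⟩ := htr hy01 (g • x 2) (y 2)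
      (fun h => hx02 (MulAction.injective g (h.trans hg0.symm))) (fun h => hx12 (MulAction.injective g (h.trans hg1.symm)))
      hy02 hy12
    refine ⟨k * g, ?_⟩
    ext i
    show (k * g) • x i = y i
    fin_cases i
    · show (k * g) • x 0 = y 0
      rw [mul_smul, hg0, hk0]
    · show (k * g) • x 1 = y 1
      rw [mul_smul, hg1, hk1]
    · show (k * g) • x 2 = y 2
      rw [mul_smul, hk2]
  · intro t
    rw [eq_bot_iff]
    intro g hg
    rw [Subgroup.mem_bot]
    have h1 : ∀ i, g • t i = t i := by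
      intro i
      have h2 : g • t = t := hg
      have h3 := congrArg (fun s : Fin 3 ↪ Ω => s i) h2
      exact h3
    have h01 : t 0 ≠ t 1 := fun h => by have := t.injective h; revert this; decide
    have h02 : t 0 ≠ t 2 := fun h => by have := t.injective h; revert this; decide
    have h12 : t 1 ≠ t 2 := fun h => by have := t.injective h; revert this; decide
    exact hZ.2.2.1 g _ _ _ h01 h12 h02 (h1 0) (h1 1) (h1 2)

open Matrix

/-- Zassenhaus groups with abelian kernel -/
theorem abelian_kernel (hZ : IsZassenhausGroup G Ω) {a b : Ω} (hab : a ≠ b) (H : Subgroup G)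
    (hHa : H ≤ stabilizer G a) (hHcard : Nat.card H + 1 = Fintype.card Ω)
    (hHfix : ∀ u ∈ H, u ≠ 1 → ∀ c : Ω, u • c = c → c = a) (hHab : ∀ u ∈ H, ∀ v ∈ H, u * v = v * u) :
    (MulAction.IsMultiplyPretransitive G Ω 3 ∧ ∀ t : Fin 3 ↪ Ω, MulAction.stabilizer G t = ⊥) ∨
      ∃ (K : Type) (_ : Field K) (_ : Fintype K), ringChar K ≠ 2 ∧ Nonempty (G ≃* ProjectiveSpecialLinearGroup (Fin 2) K) := by
  have hle : Fintype.card Ω - 2 ≤ 2 * Nat.card (stabilizer G a ⊓ stabilizer G b : Subgroup G) := by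
    rcases Nat.even_or_odd (Nat.card (stabilizer G a ⊓ stabilizer G b : Subgroup G)) with heven | hodd
    · exact even_large hZ hab heven
    · rcases Cfsg.Agent.Lib.ZassFeitB.feit hZ hab H hHa hHcard hHfix hodd with h1 | ⟨-, ⟨u, v, huv⟩, -⟩
      · omega
      · exact absurd (Subtype.ext (hHab u u.2 v v.2)) huv
  have h2 := e_dvd hZ hab
  have h3 := two_lt hZ hab
  obtain ⟨k, hk⟩ := h2
  have hk0 : k ≠ 0 := by rintro rfl; omega
  have hk2 : k ≤ 2 := by
    rw [hk, mul_comm] at hle
    exact Nat.le_of_mul_le_mul_right hle (by omega)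
  interval_cases k
  · exact absurd rfl hk0
  · left
    exact three_trans hZ hab (by omega)
  · right
    have hh : 2 * Nat.card (stabilizer G a ⊓ stabilizer G b : Subgroup G) + 2 = Fintype.card Ω := by omega
    have hchar : ∀ (K : Type) (_ : Field K) (_ : Fintype K), Fintype.card K + 1 = Fintype.card Ω → ringChar K ≠ 2 := by
      intro K _ _ hK h
      have h7 := FiniteField.even_card_iff_char_two.mp h
      omega
    rcases Nat.even_or_odd (Nat.card (stabilizer G a ⊓ stabilizer G b : Subgroup G)) with heven | hodd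
    · obtain ⟨K, hKf, hKt, hK, hiso⟩ := Cfsg.Agent.Lib.ZassField.main hZ hab heven hh
      exact ⟨K, hKf, hKt, hchar K hKf hKt hK, hiso⟩
    · obtain ⟨K, hKf, hKt, hK, hiso⟩ := psl_half hZ hab hodd (perfect_half hZ hab hodd hh) hh
      exact ⟨K, hKf, hKt, hchar K hKf hKt hK, hiso⟩

/-- the simple case, apart from nonabelian kernels -/
theorem simple_psl_or [IsSimpleGroup G] (hZ : IsZassenhausGroup G Ω) {a b : Ω} (hab : a ≠ b) (H : Subgroup G)
    (hHa : H ≤ stabilizer G a) (hHcard : Nat.card H + 1 = Fintype.card Ω)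
    (hHfix : ∀ u ∈ H, u ≠ 1 → ∀ c : Ω, u • c = c → c = a) :
    (∃ (K : Type) (_ : Field K) (_ : Fintype K), Nonempty (G ≃* ProjectiveSpecialLinearGroup (Fin 2) K)) ∨
      (Odd (Nat.card (stabilizer G a ⊓ stabilizer G b : Subgroup G)) ∧ IsPGroup 2 H ∧ (∃ u v : H, u * v ≠ v * u)) := by
  have hG := perfect' hZ hab
  have h3 := two_lt hZ hab
  rcases Nat.even_or_odd (Nat.card (stabilizer G a ⊓ stabilizer G b : Subgroup G)) with heven | hodd
  · left
    obtain ⟨K, hKf, hKt, hK, hiso⟩ := Cfsg.Agent.Lib.ZassField.main hZ hab heven (simple_even hZ hab heven)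
    exact ⟨K, hKf, hKt, hiso⟩
  · rcases Cfsg.Agent.Lib.ZassFeitB.feit hZ hab H hHa hHcard hHfix hodd with h1 | ⟨h1, h2, -⟩
    · left
      obtain ⟨k, hk⟩ := e_dvd hZ hab
      have hk0 : k ≠ 0 := by rintro rfl; omega
      have hk2 : k ≤ 2 := by
        have : Fintype.card Ω - 2 ≤ 2 * Nat.card (stabilizer G a ⊓ stabilizer G b : Subgroup G) := by omega
        rw [hk, mul_comm] at this
        exact Nat.le_of_mul_le_mul_right this (by omega)
      interval_cases k
      · exact absurd rfl hk0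
      · obtain ⟨K, hKf, hKt, hK, hiso⟩ := psl_full hZ hab hodd hG (by omega)
        exact ⟨K, hKf, hKt, hiso⟩
      · obtain ⟨K, hKf, hKt, hK, hiso⟩ := psl_half hZ hab hodd hG (by omega)
        exact ⟨K, hKf, hKt, hiso⟩
    · exact Or.inr ⟨hodd, h1, h2⟩

end perf

section structure_eq

variable {G Ω : Type*} [Group G] [Finite G] [MulAction G Ω] [Fintype Ω]

/-- the structure equation -/
theorem structure_eq [IsSimpleGroup G] (hZ : IsZassenhausGroup G Ω) {a : Ω} (H : Subgroup G)
    (hHa : H ≤ stabilizer G a) (hHcard : Nat.card H + 1 = Fintype.card Ω)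
    (hHfix : ∀ u ∈ H, u ≠ 1 → ∀ c : Ω, u • c = c → c = a) (hH2 : IsPGroup 2 H)
    (hHab : ∀ u ∈ H, ∀ v ∈ H, u * v = v * u) (v : G) (hv1 : v ≠ 1) (hv2 : v * v = 1) (hva : v • a ≠ a) :
    ∃! u₀ : G, u₀ ∈ H ∧ u₀ ≠ 1 ∧ v * u₀ * v = u₀ * v * u₀ := by
  classical
  haveI : Fact (Nat.Prime 2) := ⟨Nat.prime_two⟩
  have hab : a ≠ v • a := hva.symm
  obtain ⟨b, hb⟩ : ∃ b, b = v • a := ⟨_, rfl⟩
  rw [← hb] at hab
  have hvb : v • b = a := by rw [hb, ← mul_smul, hv2, one_smul]
  have hv : orderOf v = 2 := by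
    rw [orderOf_eq_prime_iff, pow_two]
    exact ⟨hv2, hv1⟩
  have hn2 := (two_lt hZ hab).2
  obtain ⟨k, hk⟩ := IsPGroup.iff_card.mp hH2
  have hk0 : k ≠ 0 := by rintro rfl; rw [pow_zero] at hk; omega
  have hn : Odd (Fintype.card Ω) := by
    rw [← hHcard, hk]
    exact Even.add_one ((Nat.even_pow.mpr ⟨even_two, hk0⟩))
  have hodd := odd_of_degree hZ hab hn
  have hle : Fintype.card Ω - 2 ≤ 2 * Nat.card (stabilizer G a ⊓ stabilizer G b : Subgroup G) := by
    rcases Cfsg.Agent.Lib.ZassFeitB.feit hZ hab H hHa hHcard hHfix hodd with h1 | ⟨-, ⟨u, w, huv⟩, -⟩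
    · omega
    · exact absurd (Subtype.ext (hHab u u.2 w w.2)) huv
  obtain ⟨-, p, f, hp, hf0, hexp, hpf⟩ := elementary hZ hab H hHa hHcard hHfix hle
  have hp2 : p = 2 := by
    have h1 : p ∣ 2 ^ k := by rw [← hk, hpf]; exact dvd_pow_self p hf0
    exact (Nat.prime_dvd_prime_iff_eq hp Nat.prime_two).mp (hp.dvd_of_dvd_pow h1)
  subst hp2
  -- the fixed point of v
  have hfix1 := card_fix_odd hZ hn hv
  rw [Nat.card_eq_one_iff_unique] at hfix1
  obtain ⟨hsub, ⟨⟨c, hc⟩⟩⟩ := hfix1
  have hca : c ≠ a := by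
    rintro rfl
    exact hva hc
  have hcb : c ≠ b := by
    rintro rfl
    exact hab (hvb.symm.trans hc)
  have huniq : ∀ d : Ω, v • d = d → d = c := fun d hd => congrArg Subtype.val (hsub.elim ⟨d, hd⟩ ⟨c, hc⟩)
  obtain ⟨u, hu, hubc⟩ := H_trans H hHa hHcard hHfix hab.symm hca
  have hua : u • a = a := hHa hu
  have huu : u * u = 1 := by rw [← pow_two]; exact hexp u hu
  have hucb : u • c = b := by rw [← hubc, ← mul_smul, huu, one_smul]
  have hva' : v • a = b := hb.symm
  refine ⟨u, ⟨hu, ?_, ?_⟩, ?_⟩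
  · rintro rfl
    rw [one_smul] at hubc
    exact hcb hubc.symm
  · have h1 : v * u * v * (u * v * u) = 1 := by
      apply hZ.2.2.1 _ a b c hab hcb.symm hca.symm
      · simp only [mul_smul]
        rw [hua, hva', hubc, hc, hucb, hvb]
      · simp only [mul_smul]
        rw [hubc, hc, hucb, hvb, hua, hva']
      · simp only [mul_smul]
        rw [hucb, hvb, hua, hva', hubc, hc]
    rw [mul_eq_one_iff_eq_inv] at h1
    rw [h1]
    have hui : u⁻¹ = u := by rw [inv_eq_iff_mul_eq_one]; exact huu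
    have hvi : v⁻¹ = v := by rw [inv_eq_iff_mul_eq_one]; exact hv2
    rw [mul_inv_rev, mul_inv_rev, hui, hvi]
    group
  · rintro w ⟨hw, hw1, hwe⟩
    have hwa : w • a = a := hHa hw
    have h1 : v • (w • b) = w • b := by
      have h2 : (v * w * v) • a = (w * v * w) • a := by rw [hwe]
      simp only [mul_smul] at h2
      rw [hva', hwa, hva'] at h2
      exact h2
    have h2 := huniq _ h1
    by_contra hne
    have h3 : u⁻¹ * w ≠ 1 := by
      intro h
      rw [inv_mul_eq_one] at h
      exact hne h.symm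
    exact hab (hHfix (u⁻¹ * w) (mul_mem (inv_mem hu) hw) h3 b (by rw [mul_smul, h2, ← hubc, inv_smul_smul])).symm

end structure_eq

end

end Cfsg.Agent.Lib.ZassOdd
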