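import Cfsg.Agent.Lib.SuzTwoA
import Cfsg.Agent.Lib.ZassOdd

set_option autoImplicit false

namespace Cfsg.Agent.Lib.SuzTwoB

open Cfsg Module Cfsg.Agent.Lib.SuzTwoA

noncomputable section

section ofQ

variable {F : Type*} [Field F] [Fintype F] [CharP F 2]

theorem mem_MA {F : Type*} [Field F] (φ : F →+* F) (x y : F) : gA φ x y ∈ MA φ := ⟨x, y, rfl⟩

theorem typeA_of_Q {P : Type*} [Group P] [Finite P] (φ : F →+* F) (πP : P →* Multiplicative F)
    (hπP : Function.Surjective πP) (vP : Multiplicative F →* P) (hvP : Function.Injective vP)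
    (hkP : ∀ g, πP g = 1 ↔ ∃ y, vP y = g) (hcP : ∀ y g, vP y * g = g * vP y)
    (hQP : ∀ g, g * g = vP (Multiplicative.ofAdd (φ (Multiplicative.toAdd (πP g)) * Multiplicative.toAdd (πP g)))) :
    Nonempty (P ≃* suzukiTypeA F φ) := by
  haveI : Finite (MA φ) := by
    haveI : Finite (GL (Fin 3) F) := inferInstance
    infer_instance
  have hsurj : Function.Surjective (piA φ) := by
    intro x
    refine ⟨⟨gA φ (Multiplicative.toAdd x) 0, mem_MA φ _ _⟩, ?_⟩
    have h1 : cx φ ⟨gA φ (Multiplicative.toAdd x) 0, mem_MA φ _ _⟩ = Multiplicative.toAdd x := cx_mk φ _ _ _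
    exact congrArg Multiplicative.ofAdd h1
  have hinj : Function.Injective (vA φ) := by
    intro y y' h
    have h1 : gA φ 0 (Multiplicative.toAdd y) = gA φ 0 (Multiplicative.toAdd y') := congrArg Subtype.val h
    exact (gA_inj φ h1).2
  have hker : ∀ g, piA φ g = 1 ↔ ∃ y, vA φ y = g := by
    intro g
    constructor
    · intro h
      have h1 : cx φ g = 0 := congrArg Multiplicative.toAdd h
      refine ⟨Multiplicative.ofAdd (cy φ g), Subtype.ext ?_⟩
      have h2 := MA_eta φ g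
      rw [h1] at h2
      exact h2.symm
    · rintro ⟨y, rfl⟩
      have h1 : cx φ (vA φ y) = 0 := cx_mk φ 0 (Multiplicative.toAdd y) (mem_MA φ _ _)
      exact congrArg Multiplicative.ofAdd h1
  have hcen : ∀ y g, vA φ y * g = g * vA φ y := by
    intro y g
    apply Subtype.ext
    have h1 := MA_eta φ g
    have h2 : ((vA φ y : MA φ) : GL (Fin 3) F) = gA φ 0 (Multiplicative.toAdd y) := rfl
    rw [Subgroup.coe_mul, Subgroup.coe_mul, h1, h2, gA_mul, gA_mul, map_zero, zero_add, add_zero, zero_mul, mul_zero,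
      add_zero, add_zero, add_comm]
  have hsq : ∀ g, g * g = vA φ (Multiplicative.ofAdd (φ (Multiplicative.toAdd (piA φ g)) * Multiplicative.toAdd (piA φ g))) := by
    intro g
    apply Subtype.ext
    have h1 := MA_eta φ g
    have h2 : ((vA φ (Multiplicative.ofAdd (φ (Multiplicative.toAdd (piA φ g)) * Multiplicative.toAdd (piA φ g))) : MA φ) :
        GL (Fin 3) F) = gA φ 0 (φ (cx φ g) * cx φ g) := rfl
    rw [Subgroup.coe_mul, h2]
    have h3 : (g : GL (Fin 3) F) * g = gA φ (cx φ g) (cy φ g) * gA φ (cx φ g) (cy φ g) := by rw [← h1]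
    rw [h3, gA_mul, CharTwo.add_self_eq_zero, CharTwo.add_self_eq_zero, zero_add]
  obtain ⟨f⟩ := iso_of_sq (M := MA φ) πP (piA φ) hπP hsurj vP (vA φ) hvP hinj hkP hker hcP hcen
    (fun x => Multiplicative.ofAdd (φ (Multiplicative.toAdd x) * Multiplicative.toAdd x)) hQP hsq
  rw [typeA_eq]
  exact ⟨f⟩

end ofQ
section typeA

/-- commutator-like element -/
def kap {P : Type*} [Group P] (g h : P) : P := g⁻¹ * h * g * h⁻¹

theorem sq_mul {P : Type*} [Group P] {V : Subgroup P} (hVc : ∀ v ∈ V, ∀ g, v * g = g * v) (g h : P)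
    (hk : kap g h ∈ V) : (g * h) * (g * h) = (g * g) * (h * h) * kap g h := by
  have h1 := hVc _ hk (h * h)
  calc (g * h) * (g * h) = g * g * (kap g h * (h * h)) := by unfold kap; group
    _ = g * g * ((h * h) * kap g h) := by rw [h1]
    _ = _ := by group

theorem kap_mul_right {P : Type*} [Group P] {V : Subgroup P} (hVc : ∀ v ∈ V, ∀ g, v * g = g * v) (g h h' : P)
    (hk : kap g h' ∈ V) : kap g (h * h') = kap g h * kap g h' := by
  have h1 := hVc _ hk h⁻¹
  calc kap g (h * h') = kap g h * (h * (kap g h' * h⁻¹)) := by unfold kap; group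
    _ = kap g h * (h * (h⁻¹ * kap g h')) := by rw [h1]
    _ = _ := by group

theorem kap_mul_left {P : Type*} [Group P] {V : Subgroup P} (hVc : ∀ v ∈ V, ∀ g, v * g = g * v) (g g' h : P)
    (hk : kap g h ∈ V) : kap (g * g') h = kap g h * kap g' h := by
  have h1 := hVc _ hk g'⁻¹
  calc kap (g * g') h = g'⁻¹ * kap g h * (h * g' * h⁻¹) := by unfold kap; group
    _ = kap g h * g'⁻¹ * (h * g' * h⁻¹) := by rw [h1]
    _ = _ := by unfold kap; group

/-- structure of a 2-group with a regular abelian group of automorphisms on the involutions, order `q ^ 2` -/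
theorem sq_mem {P : Type*} [Group P] [Finite P] {A : Type*} [Group A] (θ : A →* MulAut P)
    (V : Subgroup P) [hVn : V.Normal] (hVc : ∀ v ∈ V, ∀ g, v * g = g * v) (hV2 : ∀ x : P, x * x = 1 ↔ x ∈ V)
    (hcV : Nat.card V = Nat.card A + 1) (hcP : Nat.card P = Nat.card V ^ 2) (hA : 1 ≤ Nat.card A)
    (hfpf : ∀ a, a ≠ 1 → ∀ x : P, θ a x = x → x = 1) (h2 : IsPGroup 2 P) :
    (∀ g : P, g * g ∈ V) ∧ (∀ a, a ≠ 1 → ∀ x : P, x⁻¹ * θ a x ∈ V → x ∈ V) ∧
      ∀ g g' : P, g ∉ V → g' ∉ V → ∃ a, g'⁻¹ * θ a g ∈ V := by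
  classical
  haveI : Finite A := Nat.finite_of_card_ne_zero (by omega)
  have hVθ : ∀ a, ∀ x ∈ V, θ a x ∈ V := by
    intro a x hx
    rw [← hV2, ← map_mul, (hV2 x).mpr hx, map_one]
  have hfq : ∀ a, a ≠ 1 → ∀ x : P, x⁻¹ * θ a x ∈ V → x ∈ V := by
    intro a ha x hx
    -- the displacement map is a bijection on `V`
    have hinj : Function.Injective (fun v : V => (⟨(v : P)⁻¹ * θ a v, V.mul_mem (V.inv_mem v.2) (hVθ a v v.2)⟩ : V)) := by
      intro v w hvw
      have h1 : (v : P)⁻¹ * θ a v = (w : P)⁻¹ * θ a w := congrArg Subtype.val hvw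
      have h3 : θ a ((v : P) * (w : P)⁻¹) = (v : P) * (w : P)⁻¹ := by
        rw [map_mul, map_inv]
        have h4 : θ a (v : P) = v * ((w : P)⁻¹ * θ a w) := by rw [← h1]; group
        rw [h4]; group
      have h5 := hfpf a ha _ h3
      exact Subtype.ext (mul_inv_eq_one.mp h5)
    obtain ⟨v, hv⟩ := (Finite.injective_iff_surjective.mp hinj) ⟨x⁻¹ * θ a x, hx⟩
    have h1 : (v : P)⁻¹ * θ a v = x⁻¹ * θ a x := congrArg Subtype.val hv
    have h3 : θ a (x * (v : P)⁻¹) = x * (v : P)⁻¹ := by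
      rw [map_mul, map_inv]
      have h4 : θ a x = x * ((v : P)⁻¹ * θ a v) := by rw [h1]; group
      rw [h4]; group
    have h5 := hfpf a ha _ h3
    rw [mul_inv_eq_one.mp h5]; exact v.2
  have hcq : Nat.card (P ⧸ V) = Nat.card A + 1 := by
    have h3 := V.card_mul_index
    rw [hcP, pow_two, hcV] at h3
    have : V.index = Nat.card A + 1 := Nat.eq_of_mul_eq_mul_left (by omega) h3
    rw [← this]; rfl
  have htrans : ∀ g g' : P, g ∉ V → g' ∉ V → ∃ a, g'⁻¹ * θ a g ∈ V := by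
    intro g g' hg hg'
    -- the orbit map
    have hne : ∀ a, ((θ a g : P) : P ⧸ V) ≠ 1 := by
      intro a h
      rw [QuotientGroup.eq_one_iff] at h
      apply hg
      have h3 := hVθ a⁻¹ _ h
      rwa [← MulAut.mul_apply, ← map_mul, inv_mul_cancel, map_one, MulAut.one_apply] at h3
    have hinj : Function.Injective (fun a : A => (⟨((θ a g : P) : P ⧸ V), hne a⟩ : {x : P ⧸ V // x ≠ 1})) := by
      intro a b hab
      have h3 : ((θ a g : P) : P ⧸ V) = ((θ b g : P) : P ⧸ V) := congrArg Subtype.val hab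
      rw [QuotientGroup.eq] at h3
      by_contra hne'
      apply hg
      apply hfq (a⁻¹ * b) (fun h => hne' (inv_mul_eq_one.mp h))
      have h4 := hVθ a⁻¹ _ h3
      rw [map_mul, map_inv, ← MulAut.mul_apply, ← map_mul, inv_mul_cancel, map_one, MulAut.one_apply,
        ← MulAut.mul_apply, ← map_mul] at h4
      exact h4
    have hcard : Nat.card {x : P ⧸ V // x ≠ 1} = Nat.card A := by
      have h3 : Nat.card {x : P ⧸ V // x ≠ 1} + 1 = Nat.card (P ⧸ V) := by
        rw [← Finite.card_option]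
        exact Nat.card_congr (Equiv.optionSubtypeNe (1 : P ⧸ V))
      omega
    have hsurj := (Function.Injective.bijective_of_nat_card_le hinj (by rw [hcard])).2
    obtain ⟨a, ha⟩ := hsurj ⟨(g' : P ⧸ V), fun h => hg' ((QuotientGroup.eq_one_iff g').mp h)⟩
    have h3 : ((θ a g : P) : P ⧸ V) = (g' : P ⧸ V) := congrArg Subtype.val ha
    exact ⟨a, QuotientGroup.eq.mp h3.symm⟩
  refine ⟨?_, hfq, htrans⟩
  -- an element of order two in the quotient
  haveI : Fact (Nat.Prime 2) := ⟨Nat.prime_two⟩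
  have hq2 : IsPGroup 2 (P ⧸ V) := h2.to_quotient V
  obtain ⟨N, hN⟩ := hq2.exists_card_eq
  have hdvd : 2 ∣ Nat.card (P ⧸ V) := by
    rw [hN]
    apply dvd_pow_self
    rintro rfl
    rw [pow_zero] at hN
    omega
  obtain ⟨x, hx⟩ := exists_prime_orderOf_dvd_card' 2 hdvd
  obtain ⟨g₀, rfl⟩ := QuotientGroup.mk_surjective x
  have hg0 : g₀ ∉ V := by
    intro h
    rw [(QuotientGroup.eq_one_iff g₀).mpr h, orderOf_one] at hx
    exact absurd hx (by norm_num)
  have hg2 : g₀ * g₀ ∈ V := by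
    rw [← QuotientGroup.eq_one_iff]
    have : ((g₀ : P ⧸ V)) ^ 2 = 1 := by rw [← hx]; exact pow_orderOf_eq_one _
    rw [pow_two] at this
    exact this
  intro g
  by_cases hg : g ∈ V
  · exact V.mul_mem hg hg
  · obtain ⟨a, ha⟩ := htrans g₀ g hg0 hg
    -- `g = θ a g₀ * v`
    have h3 : θ a g₀ = g * (g⁻¹ * θ a g₀) := by group
    have h4 := hVθ a _ hg2
    rw [map_mul, h3] at h4
    have h5 : g * (g⁻¹ * θ a g₀) * (g * (g⁻¹ * θ a g₀)) = (g * g) * ((g⁻¹ * θ a g₀) * (g⁻¹ * θ a g₀)) := by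
      have h6 := hVc _ ha g
      calc g * (g⁻¹ * θ a g₀) * (g * (g⁻¹ * θ a g₀)) = g * ((g⁻¹ * θ a g₀) * g) * (g⁻¹ * θ a g₀) := by group
        _ = g * (g * (g⁻¹ * θ a g₀)) * (g⁻¹ * θ a g₀) := by rw [h6]
        _ = _ := by group
    rw [h5, (hV2 _).mpr ha, mul_one] at h4
    exact h4

end typeA

end

end Cfsg.Agent.Lib.SuzTwoB
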