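import Cfsg.Agent.Lib.SuzTwoB

set_option autoImplicit false
set_option maxHeartbeats 400000

namespace Cfsg.Agent.Lib.SuzTwoC

open Cfsg Module Cfsg.Agent.Lib.SuzTwoA Cfsg.Agent.Lib.SuzTwoB

noncomputable section

/-- coordinates for the two layers -/
theorem coords {P : Type*} [Group P] [Finite P] {A : Type*} [Group A] (hAc : ∀ a b : A, a * b = b * a)
    (θ : A →* MulAut P)
    (V : Subgroup P) [hVn : V.Normal] (hVc : ∀ v ∈ V, ∀ g, v * g = g * v) (hV2 : ∀ x : P, x * x = 1 ↔ x ∈ V)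
    (hcV : Nat.card V = Nat.card A + 1) (hcP : Nat.card P = Nat.card V ^ 2) (hA : 1 ≤ Nat.card A)
    (hfpf : ∀ a, a ≠ 1 → ∀ x : P, θ a x = x → x = 1) (h2 : IsPGroup 2 P) (g₀ : P) (hg₀ : g₀ ∉ V) :
    ∃ (F : Type) (_ : Field F) (_ : Fintype F) (pr : P → F) (w : V → F) (ε₁ ε₂ : A → F), Fintype.card F = Nat.card V ∧
      (∀ x : F, x + x = 0) ∧ (∀ g h, pr (g * h) = pr g + pr h) ∧ Function.Surjective pr ∧ (∀ g, pr g = 0 ↔ g ∈ V) ∧
      (∀ v v', w (v * v') = w v + w v') ∧ Function.Bijective w ∧ pr g₀ = 1 ∧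
      (∀ h : g₀ * g₀ ∈ V, w ⟨g₀ * g₀, h⟩ = 1) ∧
      (∀ a g, pr (θ a g) = ε₁ a * pr g) ∧ (∀ a (v : V) (h : θ a v ∈ V), w ⟨θ a v, h⟩ = ε₂ a * w v) := by
  classical
  obtain ⟨hsq, hfq, htr⟩ := sq_mem θ V hVc hV2 hcV hcP hA hfpf h2
  have hVθ : ∀ a, ∀ x ∈ V, θ a x ∈ V := by
    intro a x hx
    rw [← hV2, ← map_mul, (hV2 x).mpr hx, map_one]
  letI iV : CommGroup V := { (inferInstance : Group V) with mul_comm := fun v w => Subtype.ext (hVc v v.2 w) }
  have hq1 : ∀ x : P ⧸ V, x * x = 1 := by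
    intro x
    obtain ⟨g, rfl⟩ := QuotientGroup.mk_surjective x
    rw [← QuotientGroup.mk_mul, QuotientGroup.eq_one_iff]
    exact hsq g
  letI iQ : CommGroup (P ⧸ V) := { (inferInstance : Group (P ⧸ V)) with
    mul_comm := fun x y => by
      have h1 := hq1 (x * y)
      have h3 : x * y = (x * y)⁻¹ := eq_inv_of_mul_eq_one_left h1
      rw [h3, mul_inv_rev, ← eq_inv_of_mul_eq_one_left (hq1 x), ← eq_inv_of_mul_eq_one_left (hq1 y)] }
  let r2 : A → (V →* V) := fun a => ((θ a).toMonoidHom.comp V.subtype).codRestrict V (fun v => hVθ a v v.2)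
  let ρ₂ : A →* AddMonoid.End (Additive V) :=
    { toFun := fun a => MonoidHom.toAdditive (r2 a)
      map_one' := by
        ext v
        show ((θ 1 (Additive.toMul v : V) : P)) = _
        rw [map_one]; rfl
      map_mul' := fun a b => by
        ext v
        show (θ (a * b) (Additive.toMul v : V) : P) = θ a (θ b (Additive.toMul v : V))
        rw [map_mul]; rfl }
  let r1 : A → (P ⧸ V →* P ⧸ V) := fun a => QuotientGroup.map V V (θ a).toMonoidHom (fun v hv => hVθ a v hv)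
  let ρ₁ : A →* AddMonoid.End (Additive (P ⧸ V)) :=
    { toFun := fun a => MonoidHom.toAdditive (r1 a)
      map_one' := by
        refine AddMonoidHom.ext fun x => ?_
        obtain ⟨g, hg⟩ := QuotientGroup.mk_surjective (Additive.toMul x)
        show Additive.ofMul (r1 1 (Additive.toMul x)) = x
        rw [← hg]
        show Additive.ofMul ((θ 1 g : P) : P ⧸ V) = x
        rw [map_one, MulAut.one_apply, hg]; rfl
      map_mul' := fun a b => by
        refine AddMonoidHom.ext fun x => ?_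
        obtain ⟨g, hg⟩ := QuotientGroup.mk_surjective (Additive.toMul x)
        show Additive.ofMul (r1 (a * b) (Additive.toMul x)) = Additive.ofMul (r1 a (r1 b (Additive.toMul x)))
        rw [← hg]
        show Additive.ofMul ((θ (a * b) g : P) : P ⧸ V) = Additive.ofMul ((θ a (θ b g) : P) : P ⧸ V)
        rw [map_mul]; rfl }
  have hcq : Nat.card (P ⧸ V) = Nat.card A + 1 := by
    have h3 := V.card_mul_index
    rw [hcP, pow_two, hcV] at h3
    have : V.index = Nat.card A + 1 := Nat.eq_of_mul_eq_mul_left (by omega) h3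
    rw [← this]; rfl
  obtain ⟨F, iF, iFt, f₁, ε₁, hf1, hε1⟩ := Cfsg.Agent.Lib.ZassOdd.exists_field' hAc ρ₁ (by
      intro a v hv h
      by_contra ha
      apply hv
      obtain ⟨g, hg⟩ := QuotientGroup.mk_surjective (Additive.toMul v)
      have h3 : r1 a (Additive.toMul v) = Additive.toMul v := h
      rw [← hg] at h3
      have h4 : ((θ a g : P) : P ⧸ V) = (g : P ⧸ V) := h3
      have h5 := hfq a ha g (QuotientGroup.eq.mp h4.symm)
      have h6 : Additive.toMul v = 1 := by rw [← hg]; exact (QuotientGroup.eq_one_iff g).mpr h5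
      exact h6) (by
      have : Nat.card (Additive (P ⧸ V)) = Nat.card (P ⧸ V) := rfl
      rw [this, hcq]; omega) (Additive.ofMul (g₀ : P ⧸ V)) (by
      intro h
      exact hg₀ ((QuotientGroup.eq_one_iff g₀).mp h))
  have hg02 : g₀ * g₀ ≠ 1 := fun h => hg₀ ((hV2 g₀).mp h)
  obtain ⟨F', iF', iFt', f₂', ε₂', hf2, hε2⟩ := Cfsg.Agent.Lib.ZassOdd.exists_field' hAc ρ₂ (by
      intro a v hv h
      by_contra ha
      apply hv
      have h3 : r2 a (Additive.toMul v) = Additive.toMul v := h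
      have h4 : θ a ((Additive.toMul v : V) : P) = ((Additive.toMul v : V) : P) := congrArg Subtype.val h3
      have h5 := hfpf a ha _ h4
      exact Subtype.ext h5) (by
      have : Nat.card (Additive V) = Nat.card V := rfl
      rw [this, hcV]; omega) (Additive.ofMul (⟨g₀ * g₀, hsq g₀⟩ : V)) (by
      intro h
      exact hg02 (congrArg Subtype.val (show (⟨g₀ * g₀, hsq g₀⟩ : V) = 1 from h)))
  have hcF : Fintype.card F = Nat.card V := by
    rw [← Nat.card_eq_fintype_card, Nat.card_congr f₁.toEquiv, hcV, ← hcq]; rfl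
  have hcF' : Fintype.card F' = Nat.card V := by
    rw [← Nat.card_eq_fintype_card, Nat.card_congr f₂'.toEquiv]; rfl
  let e : F ≃+* F' := FiniteField.ringEquivOfCardEq (hcF.trans hcF'.symm)
  let f₂ : F ≃+ Additive V := e.toAddEquiv.trans f₂'
  refine ⟨F, iF, iFt, fun g => f₁.symm (Additive.ofMul (g : P ⧸ V)), fun v => f₂.symm (Additive.ofMul v),
    fun a => (ε₁ a : F), fun a => e.symm (ε₂' a : F'), hcF, ?_, ?_, ?_, ?_, ?_, ?_, ?_, ?_, ?_, ?_⟩
  · intro x
    apply f₁.injective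
    rw [map_add, map_zero]
    exact hq1 (Additive.toMul (f₁ x))
  · intro g h
    exact f₁.symm.map_add (Additive.ofMul (g : P ⧸ V)) (Additive.ofMul (h : P ⧸ V))
  · intro x
    obtain ⟨g, hg⟩ := QuotientGroup.mk_surjective (Additive.toMul (f₁ x))
    refine ⟨g, ?_⟩
    show f₁.symm (Additive.ofMul (g : P ⧸ V)) = x
    rw [hg]
    exact f₁.symm_apply_apply x
  · intro g
    show f₁.symm (Additive.ofMul (g : P ⧸ V)) = 0 ↔ g ∈ V
    rw [← QuotientGroup.eq_one_iff]
    constructor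
    · intro h
      have h3 : Additive.ofMul (g : P ⧸ V) = f₁ 0 := by rw [← h, f₁.apply_symm_apply]
      rw [map_zero] at h3
      exact h3
    · intro h
      rw [h]
      exact f₁.symm.map_zero
  · intro v v'
    exact f₂.symm.map_add (Additive.ofMul v) (Additive.ofMul v')
  · exact f₂.symm.bijective
  · show f₁.symm (Additive.ofMul (g₀ : P ⧸ V)) = 1
    rw [← hf1, f₁.symm_apply_apply]
  · intro h
    show f₂.symm (Additive.ofMul (⟨g₀ * g₀, h⟩ : V)) = 1
    rw [AddEquiv.symm_apply_eq]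
    show _ = f₂' (e 1)
    rw [map_one, hf2]
  · intro a g
    show f₁.symm (Additive.ofMul ((θ a g : P) : P ⧸ V)) = ε₁ a * f₁.symm (Additive.ofMul (g : P ⧸ V))
    rw [AddEquiv.symm_apply_eq, hε1, f₁.apply_symm_apply]
    rfl
  · intro a v h
    show f₂.symm (Additive.ofMul (⟨θ a v, h⟩ : V)) = e.symm (ε₂' a) * f₂.symm (Additive.ofMul v)
    rw [AddEquiv.symm_apply_eq]
    show _ = f₂' (e (e.symm (ε₂' a) * f₂.symm (Additive.ofMul v)))
    rw [map_mul, e.apply_symm_apply, hε2]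
    have h3 : f₂' (e (f₂.symm (Additive.ofMul v))) = Additive.ofMul v := f₂.apply_symm_apply _
    rw [h3]
    rfl
section main

/-- groups of order `q ^ 2` with a regular action on the involutions are of type A -/
theorem typeA_main {P : Type*} [Group P] [Finite P] {A : Type*} [Group A] (hAc : ∀ a b : A, a * b = b * a)
    (θ : A →* MulAut P)
    (V : Subgroup P) [hVn : V.Normal] (hVc : ∀ v ∈ V, ∀ g, v * g = g * v) (hV2 : ∀ x : P, x * x = 1 ↔ x ∈ V)
    (hcV : Nat.card V = Nat.card A + 1) (hcP : Nat.card P = Nat.card V ^ 2) (hA : 1 ≤ Nat.card A)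
    (hfpf : ∀ a, a ≠ 1 → ∀ x : P, θ a x = x → x = 1) (h2 : IsPGroup 2 P) (hna : ∃ g h : P, g * h ≠ h * g) :
    ∃ (F : Type) (_ : Field F) (_ : Fintype F) (φ : F ≃+* F), Fintype.card F = Nat.card V ∧
      φ ≠ RingEquiv.refl F ∧ (∀ x y : F, φ x * x = φ y * y → x = y) ∧
      Nonempty (P ≃* suzukiTypeA F (φ : F →+* F)) := by
  classical
  obtain ⟨hsq, hfq, htr⟩ := sq_mem θ V hVc hV2 hcV hcP hA hfpf h2
  have hVθ : ∀ a, ∀ x ∈ V, θ a x ∈ V := by
    intro a x hx
    rw [← hV2, ← map_mul, (hV2 x).mpr hx, map_one]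
  obtain ⟨g₀, hg₀⟩ : ∃ g₀ : P, g₀ ∉ V := by
    by_contra h
    push Not at h
    obtain ⟨g, h', hgh⟩ := hna
    exact hgh (hVc g (h g) h')
  obtain ⟨F, iF, iFt, pr, w, ε₁, ε₂, hcF, hchar, hprm, hprs, hpr0, hwm, hwb, hprg, hwg, hpra, hwa⟩ :=
    coords hAc θ V hVc hV2 hcV hcP hA hfpf h2 g₀ hg₀
  haveI : CharP F 2 := CharTwo.of_one_ne_zero_of_two_eq_zero one_ne_zero (by rw [← one_add_one_eq_two]; exact hchar 1)
  have hw1 : w 1 = 0 := by
    have h1 := hwm 1 1
    rw [mul_one] at h1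
    exact left_eq_add.mp h1
  have hw0 : ∀ v, w v = 0 ↔ v = 1 := by
    intro v
    constructor
    · intro h; exact hwb.1 (h.trans hw1.symm)
    · rintro rfl; exact hw1
  have hpr1 : pr 1 = 0 := (hpr0 1).mpr V.one_mem
  have hpreq : ∀ g h, pr g = pr h ↔ g⁻¹ * h ∈ V := by
    intro g h
    have h1 : pr h = pr g + pr (g⁻¹ * h) := by rw [← hprm]; congr 1; group
    rw [← hpr0]
    constructor
    · intro h3
      rw [h3] at h1
      exact (left_eq_add.mp h1)
    · intro h3
      rw [h1, h3, add_zero]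
  -- the squaring map
  obtain ⟨Q, hQ⟩ : ∃ Q : F → F, ∀ g, Q (pr g) = w ⟨g * g, hsq g⟩ := by
    choose s hs using hprs
    refine ⟨fun x => w ⟨s x * s x, hsq _⟩, fun g => ?_⟩
    show w ⟨s (pr g) * s (pr g), hsq _⟩ = w ⟨g * g, hsq g⟩
    congr 1
    apply Subtype.ext
    have h1 : (s (pr g))⁻¹ * g ∈ V := (hpreq _ _).mp (hs (pr g))
    have h3 := (hV2 _).mpr h1
    have h4 := hVc _ h1 (s (pr g))
    show s (pr g) * s (pr g) = g * g
    have h5 : g = s (pr g) * ((s (pr g))⁻¹ * g) := by group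
    calc s (pr g) * s (pr g) = s (pr g) * s (pr g) * (((s (pr g))⁻¹ * g) * ((s (pr g))⁻¹ * g)) := by rw [h3, mul_one]
      _ = s (pr g) * (s (pr g) * ((s (pr g))⁻¹ * g)) * ((s (pr g))⁻¹ * g) := by group
      _ = s (pr g) * (((s (pr g))⁻¹ * g) * s (pr g)) * ((s (pr g))⁻¹ * g) := by rw [h4]
      _ = g * g := by group
  have hQ0 : Q 0 = 0 := by
    have h1 := hQ 1
    rw [hpr1] at h1
    rw [h1]
    exact (hw0 _).mpr (Subtype.ext (mul_one 1))
  have hQ1 : Q 1 = 1 := by
    rw [← hprg, hQ, hprg]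
    exact hwg _
  have hQa : ∀ a x, Q (ε₁ a * x) = ε₂ a * Q x := by
    intro a x
    obtain ⟨g, rfl⟩ := hprs x
    rw [← hpra, hQ, hQ]
    have h1 : θ a (g * g) ∈ V := hVθ a _ (hsq g)
    rw [← hwa a ⟨g * g, hsq g⟩ h1]
    congr 1
    apply Subtype.ext
    show θ a g * θ a g = θ a (g * g)
    rw [map_mul]
  have hε1s : ∀ x, x ≠ 0 → ∃ a, ε₁ a = x := by
    intro x hx
    obtain ⟨g, rfl⟩ := hprs x
    have hg : g ∉ V := fun h => hx ((hpr0 g).mpr h)
    obtain ⟨a, ha⟩ := htr g₀ g hg₀ hg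
    refine ⟨a, ?_⟩
    have h1 := (hpreq _ _).mpr ha
    rw [hpra, hprg, mul_one] at h1
    exact h1.symm
  have hQε : ∀ a, Q (ε₁ a) = ε₂ a := by
    intro a
    have h1 := hQa a 1
    rwa [mul_one, hQ1, mul_one] at h1
  have hQm : ∀ x y, Q (x * y) = Q x * Q y := by
    intro x y
    by_cases hx : x = 0
    · rw [hx, zero_mul, hQ0, zero_mul]
    · obtain ⟨a, rfl⟩ := hε1s x hx
      rw [hQa, hQε]
  -- commutators
  have hkap : ∀ g h, kap g h ∈ V := by
    intro g h
    rw [← hpr0]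
    unfold kap
    rw [hprm, hprm, hprm]
    have h1 : pr g⁻¹ + pr g = 0 := by rw [← hprm, inv_mul_cancel, hpr1]
    have h3 : pr h + pr h⁻¹ = 0 := by rw [← hprm, mul_inv_cancel, hpr1]
    linear_combination h1 + h3
  have hbf : ∀ g h, Q (pr g + pr h) - Q (pr g) - Q (pr h) = w ⟨kap g h, hkap g h⟩ := by
    intro g h
    rw [← hprm, hQ, hQ, hQ]
    have h1 : (⟨g * h * (g * h), hsq (g * h)⟩ : V) = ⟨g * g, hsq g⟩ * ⟨h * h, hsq h⟩ * ⟨kap g h, hkap g h⟩ :=
      Subtype.ext (sq_mul hVc g h (hkap g h))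
    rw [h1, hwm, hwm]
    ring
  let B : F →+ F →+ F := AddMonoidHom.mk' (fun x => AddMonoidHom.mk' (fun y => Q (x + y) - Q x - Q y) (by
      intro y z
      obtain ⟨g, rfl⟩ := hprs x
      obtain ⟨h, rfl⟩ := hprs y
      obtain ⟨k, rfl⟩ := hprs z
      rw [← hprm h k, hbf, hbf, hbf, ← hwm]
      congr 1
      exact Subtype.ext (kap_mul_right hVc g h k (hkap g k)))) (by
      intro x y
      ext z
      show Q (x + y + z) - Q (x + y) - Q z = (Q (x + z) - Q x - Q z) + (Q (y + z) - Q y - Q z)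
      obtain ⟨g, rfl⟩ := hprs x
      obtain ⟨h, rfl⟩ := hprs y
      obtain ⟨k, rfl⟩ := hprs z
      rw [← hprm g h, hbf, hbf, hbf, ← hwm]
      congr 1
      exact Subtype.ext (kap_mul_left hVc g h k (hkap g k)))
  have hBapp : ∀ x y, B x y = Q (x + y) - Q x - Q y := fun x y => rfl
  have hB : ∀ x y, Q (x + y) = Q x + Q y + B x y := by
    intro x y
    rw [hBapp]; ring
  have hBne : ∃ x y, B x y ≠ 0 := by
    obtain ⟨g, h, hgh⟩ := hna
    refine ⟨pr g, pr h, ?_⟩
    rw [hBapp, hbf]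
    intro h1
    rw [hw0] at h1
    have h3 : kap g h = 1 := congrArg Subtype.val h1
    apply hgh
    unfold kap at h3
    have h4 : h * g = g * h := by
      have : g⁻¹ * h * g * h⁻¹ = g⁻¹ * (h * g) * h⁻¹ := by group
      rw [this] at h3
      calc h * g = g * (g⁻¹ * (h * g) * h⁻¹) * h := by group
        _ = g * h := by rw [h3, mul_one]
    exact h4.symm
  obtain ⟨τ, ψ, hτψ⟩ := quad_split hQm hQ1 hQ0 B hB hBne
  have hφQ : ∀ x, τ ((ψ.trans τ.symm) x * x) = Q x := by
    intro x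
    rw [map_mul, RingEquiv.trans_apply, RingEquiv.apply_symm_apply, hτψ]
    ring
  have hQ0' : ∀ x, x ≠ 0 → Q x ≠ 0 := by
    intro x hx h
    have h3 : Q (x * x⁻¹) = 1 := by rw [mul_inv_cancel₀ hx, hQ1]
    rw [hQm, h, zero_mul] at h3
    exact zero_ne_one h3
  refine ⟨F, iF, iFt, ψ.trans τ.symm, hcF, ?_, ?_, ?_⟩
  · intro h
    obtain ⟨x, y, hxy⟩ := hBne
    apply hxy
    rw [hBapp, ← hφQ, ← hφQ, ← hφQ, h]
    simp only [RingEquiv.refl_apply]
    rw [← map_sub, ← map_sub]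
    have h3 : (x + y) * (x + y) - x * x - y * y = (x * y) + (x * y) := by ring
    rw [h3, hchar, map_zero]
  · intro x y hxy
    have h1 : Q x = Q y := by rw [← hφQ, ← hφQ, hxy]
    by_cases hx : x = 0
    · by_contra hne
      rw [hx, hQ0] at h1
      exact hQ0' y (fun h => hne (hx.trans h.symm)) h1.symm
    · have hy : y ≠ 0 := by
        intro hy
        rw [hy, hQ0] at h1
        exact hQ0' x hx h1
      obtain ⟨a, rfl⟩ := hε1s x hx
      obtain ⟨b, rfl⟩ := hε1s y hy
      rw [hQε, hQε] at h1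
      congr 1
      by_contra hab
      have h3 : θ a (g₀ * g₀) = θ b (g₀ * g₀) := by
        have h4 := hwa a ⟨g₀ * g₀, hsq g₀⟩ (hVθ a _ (hsq g₀))
        have h5 := hwa b ⟨g₀ * g₀, hsq g₀⟩ (hVθ b _ (hsq g₀))
        rw [h1, ← h5] at h4
        exact congrArg Subtype.val (hwb.1 h4)
      have h4 : θ (b⁻¹ * a) (g₀ * g₀) = g₀ * g₀ := by
        have e1 : θ (b⁻¹ * a) (g₀ * g₀) = θ b⁻¹ (θ a (g₀ * g₀)) := by rw [map_mul θ]; rfl
        have e2 : θ b⁻¹ (θ b (g₀ * g₀)) = g₀ * g₀ := by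
          rw [← MulAut.mul_apply, ← map_mul θ, inv_mul_cancel, map_one θ, MulAut.one_apply]
        rw [e1, h3, e2]
      have h5 := hfpf (b⁻¹ * a) (fun h => hab (inv_mul_eq_one.mp h).symm) _ h4
      exact hg₀ ((hV2 g₀).mp h5)
  · choose wi hwi using hwb.2
    have hwiw : ∀ v, wi (w v) = v := fun v => hwb.1 (hwi (w v))
    let πP : P →* Multiplicative F :=
      { toFun := fun g => Multiplicative.ofAdd (pr g)
        map_one' := by rw [hpr1]; rfl
        map_mul' := fun g h => by rw [hprm]; rfl }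
    let vP : Multiplicative F →* P :=
      { toFun := fun y => (wi (τ (Multiplicative.toAdd y)) : P)
        map_one' := by
          have h1 : wi (τ (0 : F)) = 1 := by
            apply hwb.1
            rw [hwi, map_zero, hw1]
          exact congrArg Subtype.val h1
        map_mul' := fun y z => by
          have h1 : wi (τ (Multiplicative.toAdd y + Multiplicative.toAdd z)) =
              wi (τ (Multiplicative.toAdd y)) * wi (τ (Multiplicative.toAdd z)) := by
            apply hwb.1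
            rw [hwi, hwm, hwi, hwi, map_add]
          exact congrArg Subtype.val h1 }
    have hvP : ∀ y : F, w ⟨vP (Multiplicative.ofAdd y), (wi (τ y)).2⟩ = τ y := fun y => hwi (τ y)
    refine typeA_of_Q ((ψ.trans τ.symm : F ≃+* F) : F →+* F) πP ?_ vP ?_ ?_ ?_ ?_
    · intro x
      obtain ⟨g, hg⟩ := hprs (Multiplicative.toAdd x)
      exact ⟨g, congrArg Multiplicative.ofAdd hg⟩
    · intro y z h
      have h1 : wi (τ (Multiplicative.toAdd y)) = wi (τ (Multiplicative.toAdd z)) := Subtype.ext h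
      have h3 : τ (Multiplicative.toAdd y) = τ (Multiplicative.toAdd z) := by rw [← hwi (τ _), h1, hwi]
      exact τ.injective h3
    · intro g
      constructor
      · intro h
        have hg : g ∈ V := (hpr0 g).mp (congrArg Multiplicative.toAdd h)
        refine ⟨Multiplicative.ofAdd (τ.symm (w ⟨g, hg⟩)), ?_⟩
        show ((wi (τ (τ.symm (w ⟨g, hg⟩))) : V) : P) = g
        rw [RingEquiv.apply_symm_apply, hwiw]
      · rintro ⟨y, rfl⟩
        exact congrArg Multiplicative.ofAdd ((hpr0 _).mpr (wi (τ (Multiplicative.toAdd y))).2)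
    · intro y g
      exact hVc _ (wi (τ (Multiplicative.toAdd y))).2 g
    · intro g
      have h1 : wi (τ ((ψ.trans τ.symm) (pr g) * pr g)) = ⟨g * g, hsq g⟩ := by
        apply hwb.1
        rw [hwi, hφQ, hQ]
      exact (congrArg Subtype.val h1).symm

end main

end

end Cfsg.Agent.Lib.SuzTwoC
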