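import Cfsg.Agent.Lib.SuzTwoA

set_option autoImplicit false
set_option maxHeartbeats 400000

namespace Cfsg.Agent.Lib.SuzTwoE

open Cfsg Module Cfsg.Agent.Lib.SuzTwoA

noncomputable section

variable {F : Type*} [Field F] [Fintype F] [CharP F 2]

/-- conjugate action of the multiplicative group on additive maps -/
def cj (k : F) (g : F →+ F) : F →+ F := (AddMonoidHom.mulLeft k).comp (g.comp (AddMonoidHom.mulLeft k⁻¹))

omit [Fintype F] [CharP F 2] in
theorem cj_apply (k : F) (g : F →+ F) (u : F) : cj k g u = k * g (k⁻¹ * u) := rfl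

omit [Fintype F] [CharP F 2] in
theorem cj_cj (k l : F) (g : F →+ F) : cj k (cj l g) = cj (k * l) g := by
  ext u
  rw [cj_apply, cj_apply, cj_apply, mul_inv, mul_assoc, mul_comm k⁻¹ l⁻¹, mul_assoc]

omit [Fintype F] [CharP F 2] in
theorem cj_one (g : F →+ F) : cj 1 g = g := by
  ext u
  rw [cj_apply, inv_one, one_mul, one_mul]

theorem sing (hF : 2 < Fintype.card F) (Γ : AddSubgroup (F →+ F)) (hΓ : Γ ≠ ⊥)
    (hst : ∀ k : F, k ≠ 0 → ∀ g ∈ Γ, cj k g ∈ Γ)
    (hfpf : ∀ k : F, k ≠ 0 → k ≠ 1 → ∀ g ∈ Γ, cj k g = g → g = 0)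
    (hsing : ∀ g ∈ Γ, ∃ u : F, u ≠ 0 ∧ g u = 0) : False := by
  classical
  letI : Algebra (ZMod 2) F := ZMod.algebra F 2
  obtain ⟨b, hb⟩ := exists_basis (F := F)
  haveI : Finite (F →+ F) := Finite.of_injective (fun g : F →+ F => (g : F → F)) DFunLike.coe_injective
  let c : (F ≃ₐ[ZMod 2] F) → (F →+ F) → F := fun σ g => b.repr (AddMonoidHom.toZModLinearMap 2 g) σ
  have hcadd : ∀ σ g h, c σ (g + h) = c σ g + c σ h := by
    intro σ g h
    have : AddMonoidHom.toZModLinearMap 2 (g + h) = AddMonoidHom.toZModLinearMap 2 g + AddMonoidHom.toZModLinearMap 2 h := by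
      ext x; simp
    show b.repr _ σ = _
    rw [this, map_add]; rfl
  have hc0 : ∀ σ, c σ 0 = 0 := by
    intro σ
    have := hcadd σ 0 0
    rw [add_zero] at this
    exact left_eq_add.mp this
  have hcneg : ∀ σ g, c σ (-g) = -c σ g := by
    intro σ g
    have := hcadd σ g (-g)
    rw [add_neg_cancel, hc0] at this
    linear_combination -this
  have hexp : ∀ g u, g u = ∑ σ : F ≃ₐ[ZMod 2] F, c σ g * σ u := by
    intro g u
    have h2 := b.sum_repr (AddMonoidHom.toZModLinearMap 2 g)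
    have h3 := congrArg (fun f : F →ₗ[ZMod 2] F => f u) h2
    simp only [LinearMap.sum_apply, LinearMap.smul_apply, smul_eq_mul, hb] at h3
    rw [show g u = (AddMonoidHom.toZModLinearMap 2 g) u from rfl, ← h3]
  have hσ0 : ∀ (σ : F ≃ₐ[ZMod 2] F) (x : F), x ≠ 0 → σ x ≠ 0 := fun σ x hx h => hx ((map_eq_zero_iff σ σ.injective).mp h)
  have hccj : ∀ σ k, k ≠ 0 → ∀ g, c σ (cj k g) = k / σ k * c σ g := by
    intro σ k hk g
    have h2 : AddMonoidHom.toZModLinearMap 2 (cj k g) = ∑ τ : F ≃ₐ[ZMod 2] F, (k / τ k * c τ g) • b τ := by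
      ext u
      simp only [LinearMap.sum_apply, LinearMap.smul_apply, smul_eq_mul, hb]
      rw [show (AddMonoidHom.toZModLinearMap 2 (cj k g)) u = k * g (k⁻¹ * u) from rfl, hexp, Finset.mul_sum]
      refine Finset.sum_congr rfl fun τ _ => ?_
      rw [map_mul, map_inv₀]
      have := hσ0 τ k hk
      field_simp
    show b.repr (AddMonoidHom.toZModLinearMap 2 (cj k g)) σ = _
    rw [h2, map_sum, Finsupp.finset_sum_apply, Finset.sum_eq_single σ]
    · rw [map_smul, Basis.repr_self, Finsupp.smul_apply, Finsupp.single_eq_same, smul_eq_mul, mul_one]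
    · intro τ _ hτ
      rw [map_smul, Basis.repr_self, Finsupp.smul_apply, Finsupp.single_eq_of_ne (Ne.symm hτ), smul_zero]
    · intro h; exact absurd (Finset.mem_univ _) h
  -- a minimal stable subgroup
  haveI : Finite (AddSubgroup (F →+ F)) := inferInstance
  obtain ⟨Γ₀, ⟨hΓ0, hle, hst0⟩, hmin⟩ : ∃ Γ₀ : AddSubgroup (F →+ F), (Γ₀ ≠ ⊥ ∧ Γ₀ ≤ Γ ∧ ∀ k : F, k ≠ 0 → ∀ g ∈ Γ₀, cj k g ∈ Γ₀) ∧
      ∀ Γ₁ : AddSubgroup (F →+ F), (Γ₁ ≠ ⊥ ∧ Γ₁ ≤ Γ ∧ ∀ k : F, k ≠ 0 → ∀ g ∈ Γ₁, cj k g ∈ Γ₁) → Γ₁ ≤ Γ₀ → Γ₁ = Γ₀ := by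
    obtain ⟨W, hW⟩ := (Set.toFinite {Γ₀ : AddSubgroup (F →+ F) | Γ₀ ≠ ⊥ ∧ Γ₀ ≤ Γ ∧ ∀ k : F, k ≠ 0 → ∀ g ∈ Γ₀, cj k g ∈ Γ₀}).exists_minimal
      ⟨Γ, hΓ, le_refl _, hst⟩
    exact ⟨W, hW.1, fun W' hW' hle => le_antisymm hle (hW.2 hW' hle)⟩
  obtain ⟨g₀, hg₀, hg₀ne⟩ : ∃ g₀, g₀ ∈ Γ₀ ∧ g₀ ≠ 0 := by
    by_contra h
    push Not at h
    apply hΓ0
    rw [eq_bot_iff]
    intro g hg
    exact (AddSubgroup.mem_bot).mpr (h g hg)
  obtain ⟨σ, hσ⟩ : ∃ σ, c σ g₀ ≠ 0 := by
    by_contra h
    push Not at h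
    apply hg₀ne
    ext u
    rw [hexp]
    show _ = (0 : F)
    apply Finset.sum_eq_zero
    intro τ _
    rw [h τ, zero_mul]
  have hinj : ∀ g ∈ Γ₀, c σ g = 0 → g = 0 := by
    let Γ₁ : AddSubgroup (F →+ F) :=
      { carrier := {g | g ∈ Γ₀ ∧ c σ g = 0}
        add_mem' := fun {g h} hg hh => ⟨Γ₀.add_mem hg.1 hh.1, by rw [hcadd, hg.2, hh.2, add_zero]⟩
        zero_mem' := ⟨Γ₀.zero_mem, hc0 σ⟩
        neg_mem' := fun {g} hg => ⟨Γ₀.neg_mem hg.1, by rw [hcneg, hg.2, neg_zero]⟩ }
    intro g hg hcg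
    by_contra hne
    have h1 : Γ₁ = Γ₀ := by
      apply hmin
      · refine ⟨?_, fun x hx => hle hx.1, fun k hk x hx => ⟨hst0 k hk x hx.1, ?_⟩⟩
        · intro h
          apply hne
          have h2 : g ∈ Γ₁ := ⟨hg, hcg⟩
          rw [h] at h2
          exact (AddSubgroup.mem_bot).mp h2
        · rw [hccj σ k hk, hx.2, mul_zero]
      · exact fun x hx => hx.1
    have h2 : g₀ ∈ Γ₁ := by rw [h1]; exact hg₀
    exact hσ h2.2
  have hinj' : ∀ g ∈ Γ₀, ∀ h ∈ Γ₀, c σ g = c σ h → g = h := by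
    intro g hg h hh hgh
    have h1 := hinj (g - h) (Γ₀.sub_mem hg hh) (by rw [sub_eq_add_neg, hcadd, hcneg, hgh, add_neg_cancel])
    exact sub_eq_zero.mp h1
  have hχinj : ∀ k l : F, k ≠ 0 → l ≠ 0 → k / σ k = l / σ l → k = l := by
    intro k l hk hl hkl
    have h1 : cj k g₀ = cj l g₀ := hinj' _ (hst0 k hk g₀ hg₀) _ (hst0 l hl g₀ hg₀) (by rw [hccj σ k hk, hccj σ l hl, hkl])
    by_contra hne
    have h2 : cj (l⁻¹ * k) g₀ = g₀ := by
      rw [← cj_cj, h1, cj_cj, inv_mul_cancel₀ hl, cj_one]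
    exact hg₀ne (hfpf (l⁻¹ * k) (mul_ne_zero (inv_ne_zero hl) hk) (fun h => hne (inv_mul_eq_one₀ hl |>.mp h).symm) g₀ (hle hg₀) h2)
  have hχsurj : ∀ x : F, x ≠ 0 → ∃ k : F, k ≠ 0 ∧ k / σ k = x := by
    intro x hx
    have h1 : Function.Injective (fun k : {k : F // k ≠ 0} => (⟨k.1 / σ k.1, div_ne_zero k.2 (hσ0 σ _ k.2)⟩ : {k : F // k ≠ 0})) := by
      intro k l hkl
      exact Subtype.ext (hχinj k.1 l.1 k.2 l.2 (congrArg Subtype.val hkl))
    obtain ⟨k, hk⟩ := (Finite.injective_iff_surjective.mp h1) ⟨x, hx⟩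
    exact ⟨k.1, k.2, congrArg Subtype.val hk⟩
  -- other coefficients vanish
  have hother : ∀ ρ, ρ ≠ σ → c ρ g₀ = 0 := by
    intro ρ hρσ
    by_contra hρ
    have hG : ∀ x : F, ∃ g ∈ Γ₀, c σ g = x * c σ g₀ := by
      intro x
      by_cases hx : x = 0
      · exact ⟨0, Γ₀.zero_mem, by rw [hc0, hx, zero_mul]⟩
      · obtain ⟨k, hk, hkx⟩ := hχsurj x hx
        exact ⟨cj k g₀, hst0 k hk g₀ hg₀, by rw [hccj σ k hk, hkx]⟩
    choose g hg1 hg2 using hG
    have hgk : ∀ k, k ≠ 0 → g (k / σ k) = cj k g₀ := by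
      intro k hk
      exact hinj' _ (hg1 _) _ (hst0 k hk g₀ hg₀) (by rw [hg2, hccj σ k hk])
    have hτk : ∀ k, k ≠ 0 → c ρ (g (k / σ k)) / c ρ g₀ = k / ρ k := by
      intro k hk
      rw [hgk k hk, hccj ρ k hk, mul_div_cancel_right₀ _ hρ]
    have hg0' : g 0 = 0 := hinj' _ (hg1 0) _ Γ₀.zero_mem (by rw [hg2, zero_mul, hc0])
    let T : F →+* F :=
      { toFun := fun x => c ρ (g x) / c ρ g₀
        map_one' := by
          have := hτk 1 one_ne_zero
          rwa [map_one, div_one, map_one, div_one] at this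
        map_mul' := by
          intro x y
          by_cases hx : x = 0
          · rw [hx, zero_mul, hg0', hc0, zero_div, zero_mul]
          · by_cases hy : y = 0
            · rw [hy, mul_zero, hg0', hc0, zero_div, mul_zero]
            · obtain ⟨k, hk, rfl⟩ := hχsurj x hx
              obtain ⟨l, hl, rfl⟩ := hχsurj y hy
              have h1 := hτk (k * l) (mul_ne_zero hk hl)
              rw [map_mul, map_mul, mul_div_mul_comm, mul_div_mul_comm] at h1
              rw [h1, hτk k hk, hτk l hl]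
        map_zero' := by rw [hg0', hc0, zero_div]
        map_add' := by
          intro x y
          have h1 : g (x + y) = g x + g y := hinj' _ (hg1 _) _ (Γ₀.add_mem (hg1 x) (hg1 y)) (by
            rw [hg2, hcadd, hg2, hg2]; ring)
          rw [h1, hcadd, add_div] }
    have hT : ∀ k : F, T k * ρ k = k * T (σ k) := by
      intro k
      by_cases hk : k = 0
      · rw [hk, map_zero, zero_mul, zero_mul]
      · have h1 : T (k / σ k) = k / ρ k := hτk k hk
        rw [map_div₀] at h1
        have h2 : T (σ k) ≠ 0 := (map_ne_zero T).mpr (hσ0 σ k hk)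
        have h3 := hσ0 ρ k hk
        rw [div_eq_div_iff h2 h3] at h1
        exact h1
    have hTb : Function.Bijective T := Finite.injective_iff_bijective.mp T.injective
    let T' : F ≃ₐ[ZMod 2] F := autEquiv.symm (RingEquiv.ofBijective T hTb)
    have hT' : ∀ x, T' x = T x := fun x => rfl
    -- polarisation
    have hpol : ∀ x : F, T' x + ρ x = x + (σ.trans T') x := by
      intro x
      have h1 := hT (x + 1)
      rw [map_add, map_add, map_add, map_add, map_one, map_one, map_one, map_one] at h1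
      have h2 := hT x
      rw [hT', AlgEquiv.trans_apply, hT']
      linear_combination h1 - h2
    have hrel : b T' + b ρ = b AlgEquiv.refl + b (σ.trans T') := by
      ext x
      simp only [LinearMap.add_apply, hb]
      exact hpol x
    have hrepr := congrArg b.repr hrel
    rw [map_add, map_add, Basis.repr_self, Basis.repr_self, Basis.repr_self, Basis.repr_self] at hrepr
    have hev : ∀ τ : F ≃ₐ[ZMod 2] F, (if T' = τ then (1 : F) else 0) + (if ρ = τ then (1 : F) else 0) =
        (if AlgEquiv.refl = τ then (1 : F) else 0) + (if σ.trans T' = τ then (1 : F) else 0) := by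
      intro τ
      have := DFunLike.congr_fun hrepr τ
      simpa [Finsupp.single_apply] using this
    have h11 : (1 : F) + 1 = 0 := CharTwo.add_self_eq_zero 1
    by_cases hα : σ.trans T' = AlgEquiv.refl
    · -- then `T' = ρ`
      have h1 := hev T'
      rw [if_pos rfl, hα] at h1
      have h2 : ρ = T' := by
        by_contra hne
        rw [if_neg hne, add_zero] at h1
        by_cases h3 : (AlgEquiv.refl : F ≃ₐ[ZMod 2] F) = T'
        · rw [if_pos h3, h11] at h1
          exact one_ne_zero h1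
        · rw [if_neg h3, add_zero] at h1
          exact one_ne_zero h1
      have h3 : ∀ x : F, T x = x := by
        intro x
        have h4 := hT x
        have h5 : T (σ x) = x := by
          have := AlgEquiv.congr_fun hα x
          exact this
        rw [h5, h2] at h4
        have h6 : T x * T x = x * x := h4
        have h7 : (T x - x) * (T x - x) = 0 := by
          have h8 : (T x - x) * (T x - x) = T x * T x + x * x - (T x * x + T x * x) := by ring
          rw [h8, h6, CharTwo.add_self_eq_zero, CharTwo.add_self_eq_zero, sub_zero]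
        exact sub_eq_zero.mp (mul_self_eq_zero.mp h7)
      apply hρσ
      ext x
      have h4 : ρ x = x := by rw [h2, hT', h3]
      have h5 : T (σ x) = x := AlgEquiv.congr_fun hα x
      rw [h3] at h5
      rw [h4, h5]
    · have h1 := hev AlgEquiv.refl
      rw [if_pos rfl, if_neg hα, add_zero] at h1
      by_cases h2 : T' = AlgEquiv.refl
      · apply hρσ
        ext x
        have h3 := hpol x
        rw [AlgEquiv.trans_apply, h2] at h3
        simpa using h3
      · rw [if_neg h2, zero_add] at h1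
        have h3 : ρ = AlgEquiv.refl := by
          by_contra hne
          rw [if_neg hne] at h1
          exact zero_ne_one h1
        have h4 : ∀ x : F, σ x = x := by
          intro x
          have h5 := hpol x
          rw [h3, AlgEquiv.trans_apply] at h5
          have h6 : T' x = T' (σ x) := by
            have h7 : (AlgEquiv.refl : F ≃ₐ[ZMod 2] F) x = x := rfl
            rw [h7] at h5
            linear_combination h5
          exact (T'.injective h6).symm
        obtain ⟨k, hk⟩ : ∃ k : F, k ≠ 0 ∧ k ≠ 1 := by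
          by_contra hno
          push Not at hno
          have h5 : (Finset.univ : Finset F) ⊆ {0, 1} := by
            intro x _
            by_cases hx : x = 0
            · rw [hx]; simp
            · rw [hno x hx]; simp
          have h6 := Finset.card_le_card h5
          rw [Finset.card_univ] at h6
          have h7 : ({0, 1} : Finset F).card ≤ 2 := Finset.card_le_two
          omega
        apply hk.2
        apply hχinj k 1 hk.1 one_ne_zero
        rw [h4, h4, div_self hk.1, div_self one_ne_zero]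
  obtain ⟨u, hu, hgu⟩ := hsing g₀ (hle hg₀)
  rw [hexp, Finset.sum_eq_single σ (fun τ _ hτ => by rw [hother τ hτ, zero_mul]) (fun h => absurd (Finset.mem_univ _) h)] at hgu
  rcases mul_eq_zero.mp hgu with h | h
  · exact hσ h
  · exact hσ0 σ u hu h

end

end Cfsg.Agent.Lib.SuzTwoE
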