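import Cfsg.Agent.Lib.SuzTwoD
import Cfsg.Agent.Lib.SuzTwoE

set_option autoImplicit false
set_option maxHeartbeats 400000

namespace Cfsg.Agent.Lib.SuzTwoF

open Cfsg Module Cfsg.Agent.Lib.SuzTwoA Cfsg.Agent.Lib.SuzTwoD Cfsg.Agent.Lib.SuzTwoE

noncomputable section

/-- coordinates on the group of involutions -/
theorem coordV {P : Type*} [Group P] [Finite P] {A : Type*} [Group A] (hAc : ∀ a b : A, a * b = b * a)
    (θ : A →* MulAut P) (V : Subgroup P) (hVc : ∀ v ∈ V, ∀ g, v * g = g * v) (hV2 : ∀ x : P, x * x = 1 ↔ x ∈ V)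
    (hcV : Nat.card V = Nat.card A + 1) (hA : 1 ≤ Nat.card A)
    (hfpf : ∀ a, a ≠ 1 → ∀ x : P, θ a x = x → x = 1) :
    ∃ (F : Type) (_ : Field F) (_ : Fintype F) (w : F → P) (ε : A →* Fˣ), Fintype.card F = Nat.card V ∧
      (∀ x : F, x + x = 0) ∧ (∀ x y, w (x + y) = w x * w y) ∧ Function.Injective w ∧ (∀ x, w x ∈ V) ∧
      (∀ v ∈ V, ∃ x, w x = v) ∧ (∀ a x, θ a (w x) = w ((ε a : F) * x)) ∧ Function.Bijective ε := by
  classical
  haveI : Finite A := Nat.finite_of_card_ne_zero (by omega)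
  have hVθ : ∀ a, ∀ x ∈ V, θ a x ∈ V := by
    intro a x hx
    rw [← hV2, ← map_mul, (hV2 x).mpr hx, map_one]
  letI iV : CommGroup V := { (inferInstance : Group V) with mul_comm := fun v w => Subtype.ext (hVc v v.2 w) }
  let r2 : A → (V →* V) := fun a => ((θ a).toMonoidHom.comp V.subtype).codRestrict V (fun v => hVθ a v v.2)
  let ρ₂ : A →* AddMonoid.End (Additive V) :=
    { toFun := fun a => MonoidHom.toAdditive (r2 a)
      map_one' := by
        ext v
        show ((θ 1 (Additive.toMul v : V) : P)) = _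
        rw [map_one]; rfl
      map_mul' := fun a b => by
        ext v
        show (θ (a * b) (Additive.toMul v : V) : P) = θ a (θ b (Additive.toMul v : V))
        rw [map_mul]; rfl }
  obtain ⟨v₀, hv₀⟩ : ∃ v₀ : V, v₀ ≠ 1 := by
    haveI : Nontrivial V := Finite.one_lt_card_iff_nontrivial.mp (by omega)
    exact exists_ne 1
  obtain ⟨F, iF, iFt, f, ε, hf1, hε⟩ := Cfsg.Agent.Lib.ZassOdd.exists_field' hAc ρ₂ (by
      intro a v hv h
      by_contra ha
      apply hv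
      have h3 : r2 a (Additive.toMul v) = Additive.toMul v := h
      have h4 : θ a ((Additive.toMul v : V) : P) = ((Additive.toMul v : V) : P) := congrArg Subtype.val h3
      have h5 := hfpf a ha _ h4
      exact Subtype.ext h5) (by
      have : Nat.card (Additive V) = Nat.card V := rfl
      rw [this, hcV]; omega) (Additive.ofMul v₀) hv₀
  have hcF : Fintype.card F = Nat.card V := by
    rw [← Nat.card_eq_fintype_card, Nat.card_congr f.toEquiv]; rfl
  have hwε : ∀ a x, θ a ((Additive.toMul (f x) : V) : P) = ((Additive.toMul (f ((ε a : F) * x)) : V) : P) := by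
    intro a x
    have h1 := hε a x
    have h3 : Additive.toMul (f ((ε a : F) * x)) = r2 a (Additive.toMul (f x)) := h1
    rw [h3]; rfl
  have hεinj : Function.Injective ε := by
    rw [injective_iff_map_eq_one]
    intro a ha
    by_contra hne
    have h1 := hwε a 1
    rw [ha, Units.val_one, one_mul] at h1
    have h3 := hfpf a hne _ h1
    rw [hf1] at h3
    exact hv₀ (Subtype.ext h3)
  refine ⟨F, iF, iFt, fun x => ((Additive.toMul (f x) : V) : P), ε, hcF, ?_, ?_, ?_, ?_, ?_, hwε, ?_⟩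
  · intro x
    apply f.injective
    rw [map_add, map_zero]
    exact Subtype.ext ((hV2 _).mpr (Additive.toMul (f x)).2)
  · intro x y
    show ((Additive.toMul (f (x + y)) : V) : P) = _
    rw [map_add]; rfl
  · intro x y hxy
    exact f.injective (Subtype.ext hxy)
  · intro x
    exact (Additive.toMul (f x)).2
  · intro v hv
    refine ⟨f.symm (Additive.ofMul ⟨v, hv⟩), ?_⟩
    show ((Additive.toMul (f (f.symm (Additive.ofMul ⟨v, hv⟩))) : V) : P) = v
    rw [f.apply_symm_apply]; rfl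
  · refine (Nat.bijective_iff_injective_and_card _).mpr ⟨hεinj, ?_⟩
    rw [Nat.card_units, Nat.card_eq_fintype_card (α := F), hcF, hcV]
    omega
section center

variable {P : Type*} [Group P] [Finite P] {A : Type*} [Group A]

theorem center_map (α : MulAut P) {z : P} (hz : z ∈ Subgroup.center P) : α z ∈ Subgroup.center P := by
  rw [Subgroup.mem_center_iff] at hz ⊢
  intro g
  have h1 := congrArg α (hz (α.symm g))
  rw [map_mul, map_mul, MulEquiv.apply_symm_apply] at h1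
  exact h1

/-- step 1: the exponent `2 ^ (s + 2)` of the centre, and squares in the centre -/
theorem step1 (θ : A →* MulAut P) (h2 : IsPGroup 2 P)
    (hreg : ∀ x y : P, x ≠ 1 → x * x = 1 → y ≠ 1 → y * y = 1 → ∃! a : A, θ a x = y)
    (V : Subgroup P) (hVc : ∀ v ∈ V, ∀ g, v * g = g * v) (hV2 : ∀ x : P, x * x = 1 ↔ x ∈ V)
    (hZ : ∃ z ∈ Subgroup.center P, z * z ≠ 1) :
    ∃ s : ℕ, (∀ z ∈ Subgroup.center P, z ^ 2 ^ (s + 2) = 1) ∧
      (∀ z ∈ Subgroup.center P, z ^ 2 ^ (s + 1) = 1 → ∃ w ∈ Subgroup.center P, z = w * w) := by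
  classical
  haveI : Fact (Nat.Prime 2) := ⟨Nat.prime_two⟩
  have hex : ∃ r : ℕ, ∀ z ∈ Subgroup.center P, z ^ 2 ^ r = 1 := by
    obtain ⟨k, hk⟩ := IsPGroup.iff_card.mp h2
    exact ⟨k, fun z _ => by rw [← hk]; exact pow_card_eq_one'⟩
  obtain ⟨r, hr, hmin⟩ : ∃ r, (∀ z ∈ Subgroup.center P, z ^ 2 ^ r = 1) ∧
      ∀ r' < r, ¬ ∀ z ∈ Subgroup.center P, z ^ 2 ^ r' = 1 :=
    ⟨Nat.find hex, Nat.find_spec hex, fun r' h => Nat.find_min hex h⟩
  obtain ⟨z₁, hz₁, hz₁'⟩ := hZ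
  have hr0 : r ≠ 0 := by
    rintro rfl
    have := hr z₁ hz₁
    rw [pow_zero, pow_one] at this
    exact hz₁' (by rw [this, one_mul])
  have hr1 : r ≠ 1 := by
    rintro rfl
    have := hr z₁ hz₁
    rw [pow_one, pow_two] at this
    exact hz₁' this
  obtain ⟨s, rfl⟩ : ∃ s, r = s + 2 := ⟨r - 2, by omega⟩
  refine ⟨s, hr, ?_⟩
  have hm := hmin (s + 1) (by omega)
  push Not at hm
  obtain ⟨z₀, hz₀, hz₀'⟩ := hm
  have hVZ : V ≤ Subgroup.center P := fun v hv => Subgroup.mem_center_iff.mpr fun g => (hVc v hv g).symm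
  letI iZ : CommGroup (Subgroup.center P) :=
    { (inferInstance : Group (Subgroup.center P)) with
      mul_comm := fun a b => Subtype.ext ((Subgroup.mem_center_iff.mp b.2) a) }
  let sq : Subgroup.center P →* Subgroup.center P := powMonoidHom 2
  let pi : Subgroup.center P →* Subgroup.center P := powMonoidHom (2 ^ (s + 1))
  have hsqker : Nat.card sq.ker = Nat.card V := by
    refine Nat.card_congr ⟨fun z => ⟨((z : Subgroup.center P) : P), ?_⟩, fun v => ⟨⟨v.1, hVZ v.2⟩, ?_⟩, fun z => rfl, fun v => rfl⟩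
    · rw [← hV2, ← pow_two]
      exact congrArg Subtype.val (MonoidHom.mem_ker.mp z.2)
    · rw [MonoidHom.mem_ker]
      apply Subtype.ext
      show (v : P) ^ 2 = 1
      rw [pow_two]
      exact (hV2 _).mpr v.2
  have hpirange : Nat.card pi.range = Nat.card V := by
    refine Nat.card_congr ⟨fun z => ⟨((z : Subgroup.center P) : P), ?_⟩, fun v => ⟨⟨v.1, hVZ v.2⟩, ?_⟩, fun z => rfl, fun v => rfl⟩
    · obtain ⟨y, hy⟩ := z.2
      rw [← hV2, ← hy]
      show (y : P) ^ 2 ^ (s + 1) * (y : P) ^ 2 ^ (s + 1) = 1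
      rw [← pow_two, ← pow_mul, ← pow_succ]
      exact hr y y.2
    · by_cases hv : (v : P) = 1
      · exact ⟨1, by rw [map_one]; exact Subtype.ext hv.symm⟩
      · obtain ⟨a, ha, -⟩ := hreg (z₀ ^ 2 ^ (s + 1)) v hz₀' (by
          rw [← pow_two, ← pow_mul, ← pow_succ]; exact hr z₀ hz₀) hv ((hV2 _).mpr v.2)
        refine ⟨⟨θ a z₀, center_map _ hz₀⟩, ?_⟩
        apply Subtype.ext
        show (θ a z₀) ^ 2 ^ (s + 1) = v
        rw [← map_pow, ha]
  have h3 : Nat.card sq.ker * Nat.card sq.range = Nat.card (Subgroup.center P) := by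
    rw [← Subgroup.index_ker, Subgroup.card_mul_index]
  have h4 : Nat.card pi.ker * Nat.card pi.range = Nat.card (Subgroup.center P) := by
    rw [← Subgroup.index_ker, Subgroup.card_mul_index]
  have h5 : Nat.card sq.range = Nat.card pi.ker := by
    rw [hsqker] at h3
    rw [hpirange, mul_comm] at h4
    exact Nat.eq_of_mul_eq_mul_left Nat.card_pos (h3.trans h4.symm)
  have h6 : sq.range ≤ pi.ker := by
    rintro _ ⟨y, rfl⟩
    rw [MonoidHom.mem_ker]
    apply Subtype.ext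
    show ((y : P) ^ 2) ^ 2 ^ (s + 1) = 1
    rw [← pow_mul, ← pow_succ']
    exact hr y y.2
  have h7 : sq.range = pi.ker := Subgroup.eq_of_le_of_card_ge h6 (le_of_eq h5.symm)
  intro z hz hz1
  have h8 : (⟨z, hz⟩ : Subgroup.center P) ∈ pi.ker := by
    rw [MonoidHom.mem_ker]
    exact Subtype.ext hz1
  rw [← h7] at h8
  obtain ⟨y, hy⟩ := h8
  refine ⟨y, y.2, ?_⟩
  have h9 := congrArg Subtype.val hy
  rw [← pow_two]
  exact h9.symm

end center
section nn

variable {P : Type*} [Group P]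

/-- commutators -/
def cm (x g : P) : P := x⁻¹ * g⁻¹ * x * g

theorem cm_inv (x g : P) : (cm x g)⁻¹ = cm g x := by unfold cm; group

theorem cm_center {x : P} (hx : x ∈ Subgroup.center P) (g : P) : cm x g = 1 := by
  have h1 : g⁻¹ * x = x * g⁻¹ := (Subgroup.mem_center_iff.mp hx) g⁻¹
  unfold cm
  rw [mul_assoc x⁻¹, h1]; group

theorem cm_mul_left {x g : P} (y : P) (h : cm x g ∈ Subgroup.center P) : cm (x * y) g = cm x g * cm y g := by
  have h1 : y⁻¹ * cm x g = cm x g * y⁻¹ := (Subgroup.mem_center_iff.mp h) y⁻¹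
  calc cm (x * y) g = (y⁻¹ * cm x g) * (g⁻¹ * y * g) := by unfold cm; group
    _ = _ := by rw [h1]; unfold cm; group

theorem cm_mul_right {x g : P} (g' : P) (h : cm x g ∈ Subgroup.center P) : cm x (g * g') = cm x g * cm x g' := by
  have h1 : (x⁻¹ * g'⁻¹ * x) * cm x g = cm x g * (x⁻¹ * g'⁻¹ * x) := (Subgroup.mem_center_iff.mp h) _
  calc cm x (g * g') = ((x⁻¹ * g'⁻¹ * x) * cm x g) * g' := by unfold cm; group
    _ = _ := by rw [h1]; unfold cm; group

theorem cm_map (α : MulAut P) (x g : P) : α (cm x g) = cm (α x) (α g) := by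
  unfold cm
  rw [map_mul, map_mul, map_mul, map_inv, map_inv]

theorem sq_formula (x y : P) : (x * y) * (x * y) = (x * x) * cm x y⁻¹ * (y * y) := by
  unfold cm; group

theorem pow_formula {x y : P} (hx : x * x ∈ Subgroup.center P) (hc : cm x y⁻¹ ∈ Subgroup.center P)
    (hc2 : cm x y⁻¹ * cm x y⁻¹ = 1) (s : ℕ) :
    (x * y) ^ 2 ^ (s + 2) = x ^ 2 ^ (s + 2) * y ^ 2 ^ (s + 2) := by
  have h1 : ∀ g : P, g ^ 2 ^ (s + 2) = (g * g) ^ 2 ^ (s + 1) := by
    intro g
    rw [← pow_two, ← pow_mul, ← pow_succ']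
  rw [h1, h1 x, h1 y, sq_formula]
  have hcx : Commute (x * x * cm x y⁻¹) (y * y) :=
    ((Subgroup.mem_center_iff.mp (Subgroup.mul_mem _ hx hc)) (y * y)).symm
  have hcx' : Commute (x * x) (cm x y⁻¹) :=
    ((Subgroup.mem_center_iff.mp hx) (cm x y⁻¹)).symm
  rw [hcx.mul_pow, hcx'.mul_pow]
  have h3 : cm x y⁻¹ ^ 2 ^ (s + 1) = 1 := by
    rw [pow_succ', pow_mul, pow_two, hc2, one_pow]
  rw [h3, mul_one]

variable [Finite P] {A : Type*} [Group A]

theorem step3 (θ : A →* MulAut P) (h2 : IsPGroup 2 P)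
    (hreg : ∀ x y : P, x ≠ 1 → x * x = 1 → y ≠ 1 → y * y = 1 → ∃! a : A, θ a x = y)
    (V : Subgroup P) (hVc : ∀ v ∈ V, ∀ g, v * g = g * v) (hV2 : ∀ x : P, x * x = 1 ↔ x ∈ V)
    (hna : ∃ g h : P, g * h ≠ h * g)
    (hZ : ∃ z ∈ Subgroup.center P, z * z ≠ 1) :
    ∃ (s : P → P) (N : Subgroup P), (Subgroup.center P ≤ N) ∧ (∀ x ∈ N, ∀ g, cm x g ∈ V) ∧
      (∀ a, ∀ x ∈ N, θ a x ∈ N) ∧ (∀ x ∈ N, s x ∈ V) ∧ (∀ a x, s (θ a x) = θ a (s x)) ∧
      (∀ x ∈ N, ∀ y ∈ N, s (x * y) = s x * s y) ∧ (∀ x ∈ N, s x = 1 → x ∈ Subgroup.center P) ∧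
      (∀ v ∈ V, ∃ x ∈ N, s x = v) ∧ (∃ x ∈ N, x ∉ Subgroup.center P) ∧
      (∀ x, x * x ∈ Subgroup.center P → x ∈ N) := by
  classical
  haveI : Fact (Nat.Prime 2) := ⟨Nat.prime_two⟩
  obtain ⟨s, hs1, hs2⟩ := step1 θ h2 hreg V hVc hV2 hZ
  have hVZ : V ≤ Subgroup.center P := fun v hv => Subgroup.mem_center_iff.mpr fun g => (hVc v hv g).symm
  let N : Subgroup P :=
    { carrier := {x | x * x ∈ Subgroup.center P ∧ ∀ g, cm x g ∈ Subgroup.center P}
      one_mem' := ⟨by rw [one_mul]; exact Subgroup.one_mem _, fun g => by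
        rw [cm_center (Subgroup.one_mem _)]; exact Subgroup.one_mem _⟩
      mul_mem' := by
        rintro x y ⟨hx1, hx2⟩ ⟨hy1, hy2⟩
        refine ⟨?_, fun g => ?_⟩
        · rw [sq_formula]
          exact Subgroup.mul_mem _ (Subgroup.mul_mem _ hx1 (hx2 _)) hy1
        · rw [cm_mul_left y (hx2 g)]
          exact Subgroup.mul_mem _ (hx2 g) (hy2 g)
      inv_mem' := by
        rintro x ⟨hx1, hx2⟩
        refine ⟨?_, fun g => ?_⟩
        · rw [← mul_inv_rev]
          exact Subgroup.inv_mem _ hx1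
        · have h1 : x * (cm x g)⁻¹ = (cm x g)⁻¹ * x := (Subgroup.mem_center_iff.mp (Subgroup.inv_mem _ (hx2 g))) x
          have h3 : cm x⁻¹ g = x * (cm x g)⁻¹ * x⁻¹ := by unfold cm; group
          rw [h3, h1, mul_inv_cancel_right]
          exact Subgroup.inv_mem _ (hx2 g) }
  have hNmem : ∀ x, x ∈ N ↔ x * x ∈ Subgroup.center P ∧ ∀ g, cm x g ∈ Subgroup.center P := fun x => Iff.rfl
  have hZN : Subgroup.center P ≤ N := by
    intro x hx
    exact (hNmem x).mpr ⟨Subgroup.mul_mem _ hx hx, fun g => by rw [cm_center hx]; exact Subgroup.one_mem _⟩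
  have hNV : ∀ x ∈ N, ∀ g, cm x g ∈ V := by
    intro x hx g
    have h1 := (hNmem x).mp hx
    rw [← hV2, ← cm_mul_left x (h1.2 g)]
    exact cm_center h1.1 g
  have hNθ : ∀ a, ∀ x ∈ N, θ a x ∈ N := by
    intro a x hx
    have h1 := (hNmem x).mp hx
    refine (hNmem _).mpr ⟨?_, fun g => ?_⟩
    · rw [← map_mul]; exact center_map _ h1.1
    · have h3 := center_map (θ a) (h1.2 ((θ a).symm g))
      rw [cm_map, MulEquiv.apply_symm_apply] at h3
      exact h3
  have hsV : ∀ x : P, x * x ∈ Subgroup.center P → x ^ 2 ^ (s + 2) ∈ V := by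
    intro x hx
    rw [← hV2, ← pow_two, ← pow_mul, ← pow_succ, pow_succ', pow_mul, pow_two]
    exact hs1 _ hx
  have hsk : ∀ x : P, x * x ∈ Subgroup.center P → x ^ 2 ^ (s + 2) = 1 → x ∈ Subgroup.center P := by
    intro x hx hx1
    have h1 : (x * x) ^ 2 ^ (s + 1) = 1 := by
      rw [← pow_two, ← pow_mul, ← pow_succ']
      exact hx1
    obtain ⟨w, hw, hxw⟩ := hs2 _ hx h1
    have h3 : (x * w⁻¹) * (x * w⁻¹) = 1 := by
      have h4 : w⁻¹ * x = x * w⁻¹ := ((Subgroup.mem_center_iff.mp (Subgroup.inv_mem _ hw)) x).symm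
      calc (x * w⁻¹) * (x * w⁻¹) = x * (w⁻¹ * x) * w⁻¹ := by group
        _ = (x * x) * (w⁻¹ * w⁻¹) := by rw [h4]; group
        _ = 1 := by rw [hxw]; group
    have h4 : x = (x * w⁻¹) * w := by group
    rw [h4]
    exact Subgroup.mul_mem _ (hVZ ((hV2 _).mp h3)) hw
  have hshom : ∀ x ∈ N, ∀ y ∈ N, (x * y) ^ 2 ^ (s + 2) = x ^ 2 ^ (s + 2) * y ^ 2 ^ (s + 2) := by
    intro x hx y hy
    exact pow_formula ((hNmem x).mp hx).1 (((hNmem x).mp hx).2 _) ((hV2 _).mpr (hNV x hx _)) s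
  have hNZ : ∃ x ∈ N, x ∉ Subgroup.center P := by
    have hnt : Nontrivial (P ⧸ Subgroup.center P) := by
      obtain ⟨g, h, hgh⟩ := hna
      refine ⟨⟨(g : P ⧸ Subgroup.center P), 1, fun h1 => hgh ?_⟩⟩
      have h3 := (QuotientGroup.eq_one_iff g).mp h1
      exact ((Subgroup.mem_center_iff.mp h3) h).symm
    have hq2 : IsPGroup 2 (P ⧸ Subgroup.center P) := h2.to_quotient _
    haveI : Nontrivial (Subgroup.center (P ⧸ Subgroup.center P)) := hq2.center_nontrivial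
    obtain ⟨z, hz⟩ := exists_ne (1 : Subgroup.center (P ⧸ Subgroup.center P))
    have hz' : (z : P ⧸ Subgroup.center P) ≠ 1 := fun h => hz (Subtype.ext h)
    obtain ⟨n, hn1, hn2⟩ := exists_invol_pow hq2 hz'
    have hzc : (z : P ⧸ Subgroup.center P) ^ n ∈ Subgroup.center (P ⧸ Subgroup.center P) := Subgroup.pow_mem _ z.2 n
    obtain ⟨x, hx⟩ := QuotientGroup.mk_surjective ((z : P ⧸ Subgroup.center P) ^ n)
    rw [← hx] at hn1 hn2 hzc
    refine ⟨x, (hNmem x).mpr ⟨?_, fun g => ?_⟩, fun h => hn1 ((QuotientGroup.eq_one_iff x).mpr h)⟩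
    · rw [← QuotientGroup.eq_one_iff, QuotientGroup.mk_mul]
      exact hn2
    · rw [← QuotientGroup.eq_one_iff]
      have h1 := (Subgroup.mem_center_iff.mp hzc) (g : P ⧸ Subgroup.center P)
      have h3 : ((cm x g : P) : P ⧸ Subgroup.center P) = (x : P ⧸ Subgroup.center P)⁻¹ * (g : P ⧸ Subgroup.center P)⁻¹ *
        ((x : P ⧸ Subgroup.center P) * (g : P ⧸ Subgroup.center P)) := by
        unfold cm
        rw [QuotientGroup.mk_mul, QuotientGroup.mk_mul, QuotientGroup.mk_mul, QuotientGroup.mk_inv, QuotientGroup.mk_inv, mul_assoc]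
      rw [h3, ← h1]; group
  have hsurj : ∀ v ∈ V, ∃ x ∈ N, x ^ 2 ^ (s + 2) = v := by
    intro v hv
    by_cases hv1 : v = 1
    · exact ⟨1, N.one_mem, by rw [one_pow, hv1]⟩
    · obtain ⟨x, hx, hxz⟩ := hNZ
      have h1 := (hNmem x).mp hx
      obtain ⟨a, ha, -⟩ := hreg (x ^ 2 ^ (s + 2)) v (fun h => hxz (hsk x h1.1 h)) ((hV2 _).mpr (hsV x h1.1)) hv1 ((hV2 _).mpr hv)
      exact ⟨θ a x, hNθ a x hx, by rw [← map_pow, ha]⟩
  refine ⟨fun x => x ^ 2 ^ (s + 2), N, hZN, hNV, hNθ, fun x hx => hsV x ((hNmem x).mp hx).1,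
    fun a x => (map_pow (θ a) x _).symm, hshom, fun x hx => hsk x ((hNmem x).mp hx).1, hsurj, hNZ, ?_⟩
  intro x hx
  obtain ⟨y, hy, hxy⟩ := hsurj _ (hsV x hx)
  have h1 : cm x y⁻¹ ∈ V := by
    rw [← cm_inv]
    exact V.inv_mem (hNV _ (N.inv_mem hy) _)
  have h3 := pow_formula hx (hVZ h1) ((hV2 _).mpr h1) s
  rw [hxy, (hV2 _).mpr (hsV x hx)] at h3
  have h4 : (x * y) * (x * y) ∈ Subgroup.center P := by
    rw [sq_formula]
    exact Subgroup.mul_mem _ (Subgroup.mul_mem _ hx (hVZ h1)) ((hNmem y).mp hy).1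
  have h5 := hsk _ h4 h3
  have h6 : x = (x * y) * y⁻¹ := by group
  rw [h6]
  exact N.mul_mem (hZN h5) (N.inv_mem hy)

end nn
section final

variable {P : Type*} [Group P] [Finite P] {A : Type*} [Group A]

theorem card_V_ge (V : Subgroup P) (hV2 : ∀ x : P, x * x = 1 ↔ x ∈ V)
    (htwo : ∃ x y : P, x ≠ y ∧ x ≠ 1 ∧ x * x = 1 ∧ y ≠ 1 ∧ y * y = 1) : 3 ≤ Nat.card V := by
  classical
  obtain ⟨x, y, hxy, hx1, hx2, hy1, hy2⟩ := htwo
  have h1 : Function.Injective (fun i : Fin 3 => (![⟨1, V.one_mem⟩, ⟨x, (hV2 x).mp hx2⟩, ⟨y, (hV2 y).mp hy2⟩] : Fin 3 → V) i) := by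
    intro i j hij
    fin_cases i <;> fin_cases j <;>
      simp [Subtype.ext_iff, hx1, hy1, hxy, hxy.symm, Ne.symm hx1, Ne.symm hy1] at hij ⊢
  have h3 := Nat.card_le_card_of_injective _ h1
  rwa [Nat.card_eq_fintype_card, Fintype.card_fin] at h3

theorem center_elem (hAc : ∀ a b : A, a * b = b * a)
    (θ : A →* MulAut P) (h2 : IsPGroup 2 P)
    (hreg : ∀ x y : P, x ≠ 1 → x * x = 1 → y ≠ 1 → y * y = 1 → ∃! a : A, θ a x = y)
    (hna : ∃ g h : P, g * h ≠ h * g)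
    (htwo : ∃ x y : P, x ≠ y ∧ x ≠ 1 ∧ x * x = 1 ∧ y ≠ 1 ∧ y * y = 1) :
    ∀ z ∈ Subgroup.center P, z * z = 1 := by
  classical
  by_contra hcon
  push Not at hcon
  obtain ⟨V, hVn, hVc, hV2, hcV⟩ := exists_V θ h2 hreg (by
    obtain ⟨x, y, hxy, hx1, -⟩ := htwo
    exact ⟨x, hx1⟩)
  have hfpf := fpf θ h2 hreg
  have hcV3 := card_V_ge V hV2 htwo
  have hVZ : V ≤ Subgroup.center P := fun v hv => Subgroup.mem_center_iff.mpr fun g => (hVc v hv g).symm
  obtain ⟨F, iF, iFt, w, ε, hcF, h2F, hwadd, hwinj, hwV, hwsurj, hwε, hεb⟩ :=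
    coordV hAc θ V hVc hV2 hcV (by omega) (fun a ha x hx => hfpf a ha x hx)
  obtain ⟨s, N, hZN, hNV, hNθ, hsV, hsθ, hshom, hsk, hsurj, hNZ, hD⟩ := step3 θ h2 hreg V hVc hV2 hna hcon
  haveI : CharP F 2 := CharTwo.of_one_ne_zero_of_two_eq_zero one_ne_zero (by
    have := h2F 1
    rw [← this]; norm_num)
  have hw0 : w 0 = 1 := by
    have := hwadd 0 0
    rw [add_zero] at this
    exact left_eq_mul.mp this
  have hy : ∀ u : F, ∃ x ∈ N, s x = w u := fun u => hsurj _ (hwV u)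
  choose y hyN hys using hy
  choose! wi hwi using hwsurj
  have hindep : ∀ x₁ ∈ N, ∀ x₂ ∈ N, s x₁ = s x₂ → ∀ g, cm x₁ g = cm x₂ g := by
    intro x₁ hx₁ x₂ hx₂ h g
    have h0 : s 1 = 1 := by
      have := hshom 1 N.one_mem 1 N.one_mem
      rw [one_mul] at this
      exact left_eq_mul.mp this
    have h1 : s (x₁ * x₂⁻¹) = 1 := by
      have h3 := hshom x₁ hx₁ x₂⁻¹ (N.inv_mem hx₂)
      have h4 := hshom x₂ hx₂ x₂⁻¹ (N.inv_mem hx₂)
      rw [mul_inv_cancel, h0] at h4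
      rw [h3, h, ← h4]
    have h5 := hsk _ (N.mul_mem hx₁ (N.inv_mem hx₂)) h1
    have h6 : x₁ = (x₁ * x₂⁻¹) * x₂ := by group
    rw [h6, cm_mul_left _ (by rw [cm_center h5]; exact Subgroup.one_mem _), cm_center h5, one_mul]
  have hval : ∀ x u, w (wi (cm (y u) x)) = cm (y u) x := fun x u => hwi _ (hNV _ (hyN u) x)
  let γ : P → (F →+ F) := fun x => AddMonoidHom.mk' (fun u => wi (cm (y u) x)) (by
    intro u v
    apply hwinj
    rw [hwadd, hval, hval, hval, ← cm_mul_left (y v) (hVZ (hNV _ (hyN u) x))]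
    apply hindep _ (hyN _) _ (N.mul_mem (hyN u) (hyN v))
    rw [hys, hshom _ (hyN u) _ (hyN v), hys, hys, hwadd])
  have hγ : ∀ x, ∀ z ∈ N, ∀ u, s z = w u → w (γ x u) = cm z x := by
    intro x z hz u hzu
    show w (wi (cm (y u) x)) = _
    rw [hval]
    exact hindep _ (hyN u) _ hz (by rw [hys, hzu]) x
  have hγmul : ∀ x x', γ (x * x') = γ x + γ x' := by
    intro x x'
    refine AddMonoidHom.ext fun u => ?_
    apply hwinj
    show w (γ (x * x') u) = w (γ x u + γ x' u)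
    rw [hwadd, hγ _ _ (hyN u) u (hys u), hγ _ _ (hyN u) u (hys u), hγ _ _ (hyN u) u (hys u)]
    exact cm_mul_right x' (hVZ (hNV _ (hyN u) x))
  have hγ1 : γ 1 = 0 := by
    have := hγmul 1 1
    rw [one_mul] at this
    exact left_eq_add.mp this
  have hγinv : ∀ x, γ x⁻¹ = -γ x := by
    intro x
    have := hγmul x⁻¹ x
    rw [inv_mul_cancel, hγ1] at this
    exact eq_neg_of_add_eq_zero_left this.symm
  have hγθ : ∀ a x, γ (θ a x) = cj (ε a : F) (γ x) := by
    intro a x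
    refine AddMonoidHom.ext fun u => ?_
    rw [cj_apply]
    apply hwinj
    rw [← hwε]
    have hz : s (θ a⁻¹ (y u)) = w (((ε a : F)⁻¹) * u) := by
      rw [hsθ, hys, hwε, map_inv, Units.val_inv_eq_inv_val]
    rw [hγ x _ (hNθ a⁻¹ _ (hyN u)) _ hz, cm_map, hγ (θ a x) _ (hyN u) u (hys u)]
    rw [← MulAut.mul_apply, ← map_mul, mul_inv_cancel, map_one, MulAut.one_apply]
  let Γ : AddSubgroup (F →+ F) :=
    { carrier := Set.range γ
      zero_mem' := ⟨1, hγ1⟩
      add_mem' := by rintro _ _ ⟨x, rfl⟩ ⟨x', rfl⟩; exact ⟨x * x', hγmul x x'⟩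
      neg_mem' := by rintro _ ⟨x, rfl⟩; exact ⟨x⁻¹, hγinv x⟩ }
  have hΓmem : ∀ x, γ x ∈ Γ := fun x => ⟨x, rfl⟩
  refine sing (by rw [hcF]; omega) Γ ?_ ?_ ?_ ?_
  · intro hbot
    obtain ⟨x, hx, hxz⟩ := hNZ
    apply hxz
    rw [Subgroup.mem_center_iff]
    intro g
    have h1 : γ g = 0 := by
      have := hΓmem g
      rw [hbot] at this
      exact AddSubgroup.mem_bot.mp this
    have h3 := hγ g x hx (wi (s x)) (hwi _ (hsV x hx)).symm
    rw [h1] at h3
    have h4 : cm x g = 1 := by rw [← h3]; exact hw0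
    unfold cm at h4
    calc g * x = g * x * (x⁻¹ * g⁻¹ * x * g) := by rw [h4, mul_one]
      _ = x * g := by group
  · rintro k hk _ ⟨x, rfl⟩
    obtain ⟨a, ha⟩ := hεb.2 (Units.mk0 k hk)
    refine ⟨θ a x, ?_⟩
    rw [hγθ, ha]; rfl
  · rintro k hk hk1 _ ⟨x, rfl⟩ hx
    obtain ⟨a, ha⟩ := hεb.2 (Units.mk0 k hk)
    have ha1 : a ≠ 1 := by
      rintro rfl
      apply hk1
      rw [map_one] at ha
      exact (congrArg Units.val ha).symm
    have hka : (ε a : F) = k := by rw [ha]; rfl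
    let C : Subgroup P :=
      { carrier := {x | γ x = 0}
        one_mem' := hγ1
        mul_mem' := by
          intro x x' hx hx'
          show γ (x * x') = 0
          rw [hγmul, show γ x = 0 from hx, show γ x' = 0 from hx', add_zero]
        inv_mem' := by
          intro x hx
          show γ x⁻¹ = 0
          rw [hγinv, show γ x = 0 from hx, neg_zero] }
    have h1 := fpf_quot (θ a) (hfpf a ha1) C (by
      intro c hc
      show γ (θ a c) = 0
      rw [hγθ, show γ c = 0 from hc]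
      refine AddMonoidHom.ext fun u => ?_
      rw [cj_apply, AddMonoidHom.zero_apply, mul_zero, AddMonoidHom.zero_apply]) (x := x) (by
      show γ (x⁻¹ * θ a x) = 0
      rw [hγmul, hγinv, hγθ, hka, hx, neg_add_cancel])
    exact h1
  · rintro _ ⟨x, rfl⟩
    by_cases hxz : x ∈ Subgroup.center P
    · refine ⟨1, one_ne_zero, ?_⟩
      apply hwinj
      rw [hγ x _ (hyN 1) 1 (hys 1), hw0, ← cm_inv, cm_center hxz, inv_one]
    · have hex : ∃ k : ℕ, x ^ 2 ^ k ∈ Subgroup.center P := by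
        obtain ⟨k, hk⟩ := h2 x
        exact ⟨k, by rw [hk]; exact Subgroup.one_mem _⟩
      obtain ⟨k, hk, hmin⟩ : ∃ k, x ^ 2 ^ k ∈ Subgroup.center P ∧ ∀ k' < k, x ^ 2 ^ k' ∉ Subgroup.center P :=
        ⟨Nat.find hex, Nat.find_spec hex, fun r' h => Nat.find_min hex h⟩
      obtain ⟨j, rfl⟩ : ∃ j, k = j + 1 := by
        apply Nat.exists_eq_succ_of_ne_zero
        rintro rfl
        rw [pow_zero, pow_one] at hk
        exact hxz hk
      have hz : x ^ 2 ^ j ∉ Subgroup.center P := hmin j (by omega)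
      have hzN : x ^ 2 ^ j ∈ N := by
        apply hD
        rw [← pow_two, ← pow_mul, ← pow_succ]
        exact hk
      have hwz := hwi _ (hsV _ hzN)
      refine ⟨wi (s (x ^ 2 ^ j)), ?_, ?_⟩
      · intro h
        rw [h, hw0] at hwz
        exact hz (hsk _ hzN hwz.symm)
      · apply hwinj
        rw [hγ x _ hzN _ hwz.symm, hw0]
        unfold cm
        have h1 : x ^ 2 ^ j * x = x * x ^ 2 ^ j := by rw [← pow_succ, ← pow_succ']
        rw [mul_assoc, h1]; group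

end final

end

end Cfsg.Agent.Lib.SuzTwoF
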