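import Cfsg.Agent.Lib.SuzTwoF

set_option autoImplicit false
set_option maxHeartbeats 400000

namespace Cfsg.Agent.Lib.SuzTwoG

open Cfsg Module Cfsg.Agent.Lib.SuzTwoA Cfsg.Agent.Lib.SuzTwoD

noncomputable section

theorem card_fixed {F : Type*} [Field F] [Fintype F] (ψ : F ≃+* F) :
    Fintype.card F = (Nat.card {x : F // ψ x = x}) ^ orderOf ψ := by
  classical
  haveI : Finite (RingAut F) := Finite.of_injective (fun g : F ≃+* F => (g : F → F)) DFunLike.coe_injective
  let G := Subgroup.zpowers (ψ : RingAut F)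
  haveI : Fintype G := Fintype.ofFinite _
  have h1 := FixedPoints.finrank_eq_card G F
  have h2 := Module.natCard_eq_pow_finrank (K := FixedPoints.subfield G F) (V := F)
  rw [h1] at h2
  have h3 : Nat.card (FixedPoints.subfield G F) = Nat.card {x : F // ψ x = x} := by
    apply Nat.card_congr
    refine Equiv.subtypeEquivRight fun x => ?_
    constructor
    · intro hx
      exact hx ⟨ψ, Subgroup.mem_zpowers _⟩
    · intro hx g
      have h4 : Subgroup.zpowers (ψ : RingAut F) ≤ MulAction.stabilizer (RingAut F) x := by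
        rw [Subgroup.zpowers_le]
        exact hx
      exact h4 g.2
  rw [← Nat.card_eq_fintype_card, h2, h3, ← Nat.card_zpowers, ← Nat.card_eq_fintype_card (α := G)]

theorem odd_order {F : Type*} [Field F] [Fintype F] (φ : F ≃+* F)
    (hinj : ∀ x y : F, φ x * x = φ y * y → x = y) : Odd (orderOf φ) := by
  classical
  haveI : Finite (RingAut F) := Finite.of_injective (fun g : F ≃+* F => (g : F → F)) DFunLike.coe_injective
  have h1 := card_fixed φ
  have h2 := card_fixed (φ ^ 2 : RingAut F)
  have h3 : Nat.card {x : F // (φ ^ 2 : RingAut F) x = x} ≤ Nat.card {x : F // φ x = x} := by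
    refine Nat.card_le_card_of_injective (fun x => ⟨φ x * x, ?_⟩) ?_
    · have h4 : φ (φ x) = x := x.2
      rw [map_mul, h4, mul_comm]
    · intro x y hxy
      exact Subtype.ext (hinj _ _ (congrArg Subtype.val hxy))
  have h4 : Nat.card {x : F // φ x = x} ≤ Nat.card {x : F // (φ ^ 2 : RingAut F) x = x} := by
    refine Nat.card_le_card_of_injective (fun x => ⟨x, ?_⟩) ?_
    · show φ (φ x) = x
      rw [x.2, x.2]
    · intro x y hxy
      have h0 := congrArg Subtype.val hxy
      exact Subtype.ext h0
  have h5 := le_antisymm h3 h4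
  rw [h5, h1] at h2
  have h6 : 2 ≤ Nat.card {x : F // φ x = x} := by
    have h7 : Function.Injective (fun i : Fin 2 => (![⟨0, map_zero φ⟩, ⟨1, map_one φ⟩] : Fin 2 → {x : F // φ x = x}) i) := by
      intro i j hij
      fin_cases i <;> fin_cases j <;> simp [Subtype.ext_iff] at hij ⊢
    have h8 := Nat.card_le_card_of_injective _ h7
    rwa [Nat.card_eq_fintype_card, Fintype.card_fin] at h8
  have h7 : orderOf (φ : RingAut F) = orderOf (φ ^ 2 : RingAut F) := Nat.pow_right_injective h6 h2
  rw [orderOf_pow] at h7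
  have h8 : 0 < orderOf (φ : RingAut F) := orderOf_pos _
  rw [← Nat.not_even_iff_odd]
  intro he
  have h9 : Nat.gcd (orderOf (φ : RingAut F)) 2 = 2 := Nat.gcd_eq_right he.two_dvd
  rw [h9] at h7
  have h10 := he.two_dvd
  omega

end

end Cfsg.Agent.Lib.SuzTwoG
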