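import Mathlib
import Cfsg.Agent.Lib.Symp4
import Cfsg.Agent.Lib.Cox4
import Cfsg.Agent.S0245

/-! Centralizers of transvections. -/

set_option linter.all false
set_option maxHeartbeats 1000000

namespace Cfsg.Agent.Lib.Tc

open Matrix Cfsg.Agent.Lib.Symp

variable {F : Type*} [Field F]

/-- rank one matrices -/
theorem exists_of_rank_one {ι : Type*} [Fintype ι] [DecidableEq ι] {M : Matrix ι ι F} (h : M.rank = 1) :
    ∃ w : ι → F, w ≠ 0 ∧ ∀ x, ∃ a : F, M *ᵥ x = a • w := by
  have h1 : Module.finrank F (LinearMap.range M.mulVecLin) = 1 := h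
  obtain ⟨v, hv, hsp⟩ := finrank_eq_one_iff'.mp h1
  refine ⟨v, fun h0 => hv (Subtype.ext h0), fun x => ?_⟩
  obtain ⟨a, ha⟩ := hsp ⟨M *ᵥ x, ⟨x, rfl⟩⟩
  exact ⟨a, (congrArg Subtype.val ha).symm⟩

theorem exists_tr_of_rank {m : ℕ} (t : Matrix.symplecticGroup (Fin m) F) (ht : ((t : Matrix (Fin m ⊕ Fin m) (Fin m ⊕ Fin m) F) - 1).rank = 1) :
    ∃ (w : Fin m ⊕ Fin m → F) (c : F), w ≠ 0 ∧ c ≠ 0 ∧ t = tr w c := by
  obtain ⟨w, hw, hM⟩ := exists_of_rank_one ht
  choose φ hφ using hM
  have ht' : ∀ x, (t : Matrix (Fin m ⊕ Fin m) (Fin m ⊕ Fin m) F) *ᵥ x = x + φ x • w := by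
    intro x
    have := hφ x
    rw [Matrix.sub_mulVec, Matrix.one_mulVec] at this
    rw [← this]; abel
  obtain ⟨y, hy⟩ := exists_form_ne_zero hw
  have key : ∀ x z, φ z * Cfsg.sympForm m F x w = φ x * Cfsg.sympForm m F z w := by
    intro x z
    have h1 := preserves t x z
    rw [ht', ht', sympForm_add_left, sympForm_add_right, sympForm_add_right, sympForm_smul_left, sympForm_smul_left, sympForm_smul_right, sympForm_smul_right, sympForm_self, sympForm_swap z w] at h1
    linear_combination h1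
  refine ⟨w, φ y / Cfsg.sympForm m F y w, hw, ?_, ?_⟩
  · intro h0
    have hφy : φ y = 0 := by
      rcases div_eq_zero_iff.mp h0 with h | h
      · exact h
      · exact absurd h hy
    have hall : ∀ x, φ x = 0 := by
      intro x
      have := key x y
      rw [hφy, zero_mul] at this
      exact (mul_eq_zero.mp this.symm).resolve_right hy
    have h1 : (t : Matrix (Fin m ⊕ Fin m) (Fin m ⊕ Fin m) F) - 1 = 0 := by
      rw [sub_eq_zero]
      apply ext_mulVec
      intro x
      rw [ht', hall, zero_smul, add_zero, Matrix.one_mulVec]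
    rw [h1, Matrix.rank_zero] at ht
    exact zero_ne_one ht
  · apply ext_sp
    intro x
    rw [ht', tr_mulVec]
    congr 2
    field_simp
    have := key x y
    linear_combination -this

theorem card_orbit {m : ℕ} [Fintype F] (w : Fin m ⊕ Fin m → F) (hw : w ≠ 0) :
    (MulAction.orbit (Matrix.symplecticGroup (Fin m) F) w).ncard = Fintype.card F ^ (2 * m) - 1 := by
  have h1 : MulAction.orbit (Matrix.symplecticGroup (Fin m) F) w = {x | x ≠ 0} := by
    ext x
    constructor
    · rintro ⟨g, rfl⟩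
      show (g : Matrix (Fin m ⊕ Fin m) (Fin m ⊕ Fin m) F) *ᵥ w ≠ 0
      intro h
      apply hw
      rw [← inv_mulVec_mulVec g w, h, Matrix.mulVec_zero]
    · intro hx
      obtain ⟨g, _, hg⟩ := exists_mulVec_eq (nonDeg_top (m := m) (F := F)) (Submodule.mem_top (x := w)) (Submodule.mem_top (x := x)) hw hx
      exact ⟨g, hg⟩
  rw [h1]
  have h2 : {x : Fin m ⊕ Fin m → F | x ≠ 0} = ({0} : Set _)ᶜ := rfl
  rw [h2, Set.ncard_compl, Set.ncard_singleton, Nat.card_eq_fintype_card, Fintype.card_fun, Fintype.card_sum, Fintype.card_fin, two_mul]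

theorem s2594 {F : Type*} [Field F] [Fintype F] [CharP F 2] {q : ℕ} (hF : Fintype.card F = q) {m : ℕ} (hm : 1 ≤ m) (t : Matrix.symplecticGroup (Fin m) F) (ht : ((t : Matrix (Fin m ⊕ Fin m) (Fin m ⊕ Fin m) F) - 1).rank = 1) : Nat.card ↥(Subgroup.centralizer ({t} : Set ↥(Matrix.symplecticGroup (Fin m) F))) = q ^ (2 * m - 1) * (q ^ ((m - 1) ^ 2) * ∏ i : Fin (m - 1), (q ^ (2 * ((i : ℕ) + 1)) - 1)) := by
  classical
  obtain ⟨w, c, hw, hc, rfl⟩ := exists_tr_of_rank t ht
  -- square root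
  obtain ⟨a, ha⟩ : ∃ a : F, a ^ 2 = c := by
    have hinj : Function.Injective (fun x : F => x ^ 2) := by
      intro x y hxy
      have h1 : (x - y) ^ 2 = 0 := by
        have h2 : (2 : F) = 0 := CharTwo.two_eq_zero
        have h3 : x ^ 2 = y ^ 2 := hxy
        linear_combination h3 + (y ^ 2 - x * y) * h2
      exact sub_eq_zero.mp (pow_eq_zero_iff (two_ne_zero) |>.mp h1)
    exact (Finite.injective_iff_surjective.mp hinj) c
  have ha0 : a ≠ 0 := by
    rintro rfl
    rw [zero_pow two_ne_zero] at ha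
    exact hc ha.symm
  have htr : tr w c = tr (a • w) (1 : F) := by rw [tr_smul, ha, mul_one]
  set u := a • w with hu
  have hu0 : u ≠ 0 := smul_ne_zero ha0 hw
  rw [htr]
  have hcent : Subgroup.centralizer ({tr u (1 : F)} : Set ↥(Matrix.symplecticGroup (Fin m) F)) = MulAction.stabilizer (Matrix.symplecticGroup (Fin m) F) u := by
    ext g
    rw [Subgroup.mem_centralizer_singleton_iff, MulAction.mem_stabilizer_iff, smul_def']
    constructor
    · intro h
      have h1 : tr ((g : Matrix (Fin m ⊕ Fin m) (Fin m ⊕ Fin m) F) *ᵥ u) (1 : F) = tr u 1 := by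
        rw [← conj_tr, h, mul_inv_cancel_right]
      obtain ⟨b, hb⟩ := exists_smul_of_tr_eq one_ne_zero (fun h0 => hu0 (by rw [← inv_mulVec_mulVec g u, h0, Matrix.mulVec_zero])) h1
      rw [hb] at h1 ⊢
      rw [tr_smul] at h1
      obtain ⟨y, hy⟩ := exists_form_ne_zero hu0
      have h2 := congrArg (fun z : Matrix.symplecticGroup (Fin m) F => Cfsg.sympForm m F y ((z : Matrix (Fin m ⊕ Fin m) (Fin m ⊕ Fin m) F) *ᵥ y)) h1
      simp only [tr_mulVec, sympForm_add_right, sympForm_smul_right, sympForm_self, zero_add] at h2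
      have h3 : b ^ 2 = 1 := by
        have h4 : (b ^ 2 - 1) * (Cfsg.sympForm m F y u * Cfsg.sympForm m F y u) = 0 := by linear_combination h2
        exact sub_eq_zero.mp ((mul_eq_zero.mp h4).resolve_right (mul_ne_zero hy hy))
      have h4 : (b - 1) ^ 2 = 0 := by
        have h2 : (2 : F) = 0 := CharTwo.two_eq_zero
        linear_combination h3 + (1 - b) * h2
      rw [sub_eq_zero.mp (pow_eq_zero_iff (two_ne_zero) |>.mp h4), one_smul]
    · intro h
      have h1 := conj_tr g u (1 : F)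
      rw [h, mul_inv_eq_iff_eq_mul] at h1
      exact h1
  rw [hcent]
  have h1 := (MulAction.stabilizer (Matrix.symplecticGroup (Fin m) F) u).card_mul_index
  rw [MulAction.index_stabilizer, card_orbit u hu0, Cfsg.Agent.S0245.result hF m, hF] at h1
  have hq : 1 < q := hF ▸ Fintype.one_lt_card
  obtain ⟨k, rfl⟩ : ∃ k, m = k + 1 := ⟨m - 1, by omega⟩
  rw [Finset.prod_range_succ] at h1
  have hpos : 0 < q ^ (2 * (k + 1)) - 1 := by
    have := Nat.one_lt_pow (n := 2 * (k + 1)) (by omega) hq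
    omega
  apply Nat.eq_of_mul_eq_mul_right hpos
  rw [h1, Nat.add_sub_cancel, Fin.prod_univ_eq_prod_range (fun i => q ^ (2 * (i + 1)) - 1) k]
  have e1 : q ^ ((k + 1) ^ 2) = q ^ (2 * (k + 1) - 1) * q ^ (k ^ 2) := by
    rw [← pow_add]
    congr 1
    have : 2 * (k + 1) - 1 = 2 * k + 1 := by omega
    rw [this]; ring
  rw [e1]
  ring

end Cfsg.Agent.Lib.Tc
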