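import Mathlib
import Cfsg.Agent.Lib.SqZero2
import Cfsg.Agent.Lib.CharBasic
import Cfsg.Agent.Lib.Tc1

/-! Centralizers of transvections in the linear group. -/

set_option linter.all false
set_option maxHeartbeats 1000000

namespace Cfsg.Agent.Lib.Tc

open Matrix

variable {F : Type*} [Field F] {n : ℕ}

/-- pairs -/
abbrev P (n : ℕ) (F : Type*) [Field F] := {p : (Fin n → F) × (Fin n → F) // p.1 ≠ 0 ∧ p.2 ≠ 0 ∧ p.2 ⬝ᵥ p.1 = 0}

/-- rank one square zero -/
abbrev T (n : ℕ) (F : Type*) [Field F] := {N : Matrix (Fin n) (Fin n) F // N.rank = 1 ∧ N * N = 0}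

theorem ne_zero_of_rank {N : Matrix (Fin n) (Fin n) F} (h : N.rank = 1) : N ≠ 0 := by
  rintro rfl
  rw [Matrix.rank_zero] at h
  exact zero_ne_one h

theorem exists_pair (N : T n F) : ∃ p : P n F, N.1 = Matrix.vecMulVec p.1.1 p.1.2 := by
  obtain ⟨w, hw, hx⟩ := exists_of_rank_one N.2.1
  choose a ha using hx
  have hN : N.1 = Matrix.vecMulVec w (fun j => a (Pi.single j 1)) := by
    apply Matrix.ext
    intro i j
    have h1 := congrFun (ha (Pi.single j 1)) i
    rw [Matrix.mulVec_single_one] at h1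
    rw [Matrix.vecMulVec_apply, mul_comm]
    exact h1
  have hφ : (fun j => a (Pi.single j 1)) ≠ 0 := by
    intro h
    rw [h] at hN
    apply ne_zero_of_rank N.2.1
    rw [hN]
    apply Matrix.ext
    intro i j
    rw [Matrix.vecMulVec_apply]
    exact mul_zero _
  refine ⟨⟨(w, fun j => a (Pi.single j 1)), hw, hφ, ?_⟩, hN⟩
  have h2 := N.2.2
  rw [hN, Matrix.vecMulVec_mul_vecMulVec] at h2
  obtain ⟨i, hi⟩ := Function.ne_iff.mp hw
  obtain ⟨j, hj⟩ := Function.ne_iff.mp hφ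
  have h3 := congrFun (congrFun h2 i) j
  rw [Matrix.vecMulVec_apply] at h3
  simp only [Pi.smul_apply, smul_eq_mul, Matrix.zero_apply] at h3
  rcases mul_eq_zero.mp h3 with h | h
  · exact absurd h hi
  · rcases mul_eq_zero.mp h with h | h
    · exact h
    · exact absurd h hj

theorem mem_T (p : P n F) : (Matrix.vecMulVec p.1.1 p.1.2).rank = 1 ∧ Matrix.vecMulVec p.1.1 p.1.2 * Matrix.vecMulVec p.1.1 p.1.2 = 0 := by
  obtain ⟨⟨w, φ⟩, hw, hφ, hwφ⟩ := p
  refine ⟨?_, ?_⟩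
  · apply le_antisymm
    · exact Matrix.rank_vecMulVec_le _ _
    · rw [Nat.one_le_iff_ne_zero]
      intro h
      have h1 := SqZero.eq_zero_of_rank h
      obtain ⟨i, hi⟩ := Function.ne_iff.mp hw
      obtain ⟨j, hj⟩ := Function.ne_iff.mp hφ
      have h2 := congrFun (congrFun h1 i) j
      exact mul_ne_zero hi hj h2
  · rw [Matrix.vecMulVec_mul_vecMulVec]
    show Matrix.vecMulVec w ((φ ⬝ᵥ w) • φ) = 0
    rw [hwφ, zero_smul]
    apply Matrix.ext
    intro i j
    exact mul_zero _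

/-- main bijection -/
theorem card_T_mul [Fintype F] : Nat.card (T n F) * (Fintype.card F - 1) = Nat.card (P n F) := by
  classical
  choose p hp using fun N : T n F => exists_pair N
  have hmem : ∀ (N : T n F) (a : Fˣ), (a : F) • (p N).1.1 ≠ 0 ∧ ((a⁻¹ : Fˣ) : F) • (p N).1.2 ≠ 0 ∧ (((a⁻¹ : Fˣ) : F) • (p N).1.2) ⬝ᵥ ((a : F) • (p N).1.1) = 0 := by
    intro N a
    refine ⟨smul_ne_zero a.ne_zero (p N).2.1, smul_ne_zero (Units.ne_zero _) (p N).2.2.1, ?_⟩
    rw [smul_dotProduct, dotProduct_smul, (p N).2.2.2, smul_zero, smul_zero]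
  let f : T n F × Fˣ → P n F := fun x => ⟨((x.2 : F) • (p x.1).1.1, ((x.2⁻¹ : Fˣ) : F) • (p x.1).1.2), hmem x.1 x.2⟩
  have hrec : ∀ x, Matrix.vecMulVec (f x).1.1 (f x).1.2 = x.1.1 := by
    intro x
    rw [hp x.1]
    apply Matrix.ext
    intro i j
    show ((x.2 : F) * (p x.1).1.1 i) * (((x.2⁻¹ : Fˣ) : F) * (p x.1).1.2 j) = (p x.1).1.1 i * (p x.1).1.2 j
    have : (x.2 : F) * ((x.2⁻¹ : Fˣ) : F) = 1 := Units.mul_inv _
    linear_combination ((p x.1).1.1 i * (p x.1).1.2 j) * this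
  have hbij : Function.Bijective f := by
    constructor
    · rintro ⟨N, a⟩ ⟨N', a'⟩ h
      have h1 : N = N' := by
        apply Subtype.ext
        rw [← hrec (N, a), ← hrec (N', a'), h]
      subst h1
      have h2 : (a : F) • (p N).1.1 = (a' : F) • (p N).1.1 := congrArg (fun z : P n F => z.1.1) h
      have h3 : (a : F) = a' := by
        have h4 : ((a : F) - a') • (p N).1.1 = 0 := by rw [sub_smul, h2, sub_self]
        exact sub_eq_zero.mp ((smul_eq_zero.mp h4).resolve_right (p N).2.1)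
      rw [Units.ext h3]
    · intro r
      let N : T n F := ⟨Matrix.vecMulVec r.1.1 r.1.2, mem_T r⟩
      have hN : ∀ i j, r.1.1 i * r.1.2 j = (p N).1.1 i * (p N).1.2 j := fun i j => congrFun (congrFun (hp N) i) j
      obtain ⟨j, hj⟩ := Function.ne_iff.mp r.2.2.1
      obtain ⟨i, hi⟩ := Function.ne_iff.mp (p N).2.1
      change r.1.2 j ≠ 0 at hj
      change (p N).1.1 i ≠ 0 at hi
      set a : F := (p N).1.2 j / r.1.2 j with ha
      have hw : ∀ k, r.1.1 k = a * (p N).1.1 k := by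
        intro k
        rw [ha]
        field_simp
        linear_combination hN k j
      have ha0 : a ≠ 0 := by
        intro h0
        apply r.2.1
        funext k
        rw [hw k, h0, zero_mul]
        rfl
      have hφ : ∀ k, (p N).1.2 k = a * r.1.2 k := by
        intro k
        have h1 := hN i k
        rw [hw i] at h1
        apply mul_left_cancel₀ hi
        linear_combination -h1
      refine ⟨(N, Units.mk0 a ha0), ?_⟩
      apply Subtype.ext
      apply Prod.ext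
      · funext k
        show a * (p N).1.1 k = r.1.1 k
        exact (hw k).symm
      · funext k
        show a⁻¹ * (p N).1.2 k = r.1.2 k
        rw [hφ k]
        field_simp
  rw [← Nat.card_congr (Equiv.ofBijective f hbij), Nat.card_prod, Nat.card_units, Nat.card_eq_fintype_card (α := F)]

theorem card_perp [Fintype F] {w : Fin n → F} (hw : w ≠ 0) : Nat.card {φ : Fin n → F // φ ≠ 0 ∧ φ ⬝ᵥ w = 0} = Fintype.card F ^ (n - 1) - 1 := by
  classical
  let L : (Fin n → F) →ₗ[F] F := { toFun := fun φ => φ ⬝ᵥ w, map_add' := fun a b => add_dotProduct a b w, map_smul' := fun c a => smul_dotProduct c a w }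
  obtain ⟨i, hi⟩ := Function.ne_iff.mp hw
  have hL : LinearMap.range L = ⊤ := by
    rw [LinearMap.range_eq_top]
    intro c
    refine ⟨Pi.single i (c / w i), ?_⟩
    show Pi.single i (c / w i) ⬝ᵥ w = c
    rw [single_dotProduct]
    exact div_mul_cancel₀ c hi
  have h1 := L.finrank_range_add_finrank_ker
  rw [hL, finrank_top, Module.finrank_self, Module.finrank_fin_fun] at h1
  have h2 : Nat.card (LinearMap.ker L) = Fintype.card F ^ (n - 1) := by
    rw [Module.natCard_eq_pow_finrank (K := F), Nat.card_eq_fintype_card]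
    congr 1
    omega
  have e : {φ : Fin n → F // φ ≠ 0 ∧ φ ⬝ᵥ w = 0} ≃ {x : LinearMap.ker L // x ≠ 0} :=
    { toFun := fun φ => ⟨⟨φ.1, φ.2.2⟩, fun h => φ.2.1 (congrArg Subtype.val h)⟩
      invFun := fun x => ⟨x.1.1, fun h => x.2 (Subtype.ext h), x.1.2⟩
      left_inv := fun φ => rfl
      right_inv := fun x => rfl }
  rw [Nat.card_congr e, ← h2]
  have h3 : Nat.card {x : LinearMap.ker L // x ≠ 0} = (({0} : Set (LinearMap.ker L))ᶜ).ncard := rfl
  rw [h3, Set.ncard_compl, Set.ncard_singleton]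

theorem card_ne [Fintype F] : Nat.card {w : Fin n → F // w ≠ 0} = Fintype.card F ^ n - 1 := by
  have h3 : Nat.card {x : Fin n → F // x ≠ 0} = (({0} : Set (Fin n → F))ᶜ).ncard := rfl
  rw [h3, Set.ncard_compl, Set.ncard_singleton, Nat.card_eq_fintype_card, Fintype.card_fun, Fintype.card_fin]

theorem card_P [Fintype F] : Nat.card (P n F) = (Fintype.card F ^ n - 1) * (Fintype.card F ^ (n - 1) - 1) := by
  classical
  have e : P n F ≃ (Σ w : {w : Fin n → F // w ≠ 0}, {φ : Fin n → F // φ ≠ 0 ∧ φ ⬝ᵥ w.1 = 0}) :=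
    { toFun := fun p => ⟨⟨p.1.1, p.2.1⟩, ⟨p.1.2, p.2.2⟩⟩
      invFun := fun x => ⟨(x.1.1, x.2.1), x.1.2, x.2.2⟩
      left_inv := fun p => rfl
      right_inv := fun x => rfl }
  rw [Nat.card_congr e, Nat.card_sigma]
  have h : ∀ w : {w : Fin n → F // w ≠ 0}, Nat.card {φ : Fin n → F // φ ≠ 0 ∧ φ ⬝ᵥ w.1 = 0} = Fintype.card F ^ (n - 1) - 1 := fun w => card_perp w.2
  rw [Finset.sum_congr rfl (fun w _ => h w), Finset.sum_const, Finset.card_univ, ← Nat.card_eq_fintype_card, card_ne, smul_eq_mul]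

theorem card_class [Fintype F] (t : GL (Fin n) F) (ht : Cfsg.IsTransvection (t : Matrix (Fin n) (Fin n) F)) :
    Nat.card {x : GL (Fin n) F // IsConj t x} = Nat.card (T n F) := by
  classical
  have hto : ∀ x : GL (Fin n) F, IsConj t x → ((x : Matrix (Fin n) (Fin n) F) - 1).rank = 1 ∧ ((x : Matrix (Fin n) (Fin n) F) - 1) * ((x : Matrix (Fin n) (Fin n) F) - 1) = 0 := by
    intro x hx
    obtain ⟨g, rfl⟩ := isConj_iff.mp hx
    have e : ((g * t * g⁻¹ : GL (Fin n) F) : Matrix (Fin n) (Fin n) F) - 1 = (g : Matrix (Fin n) (Fin n) F) * ((t : Matrix (Fin n) (Fin n) F) - 1) * ((g⁻¹ : GL (Fin n) F) : Matrix (Fin n) (Fin n) F) := by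
      rw [mul_sub, sub_mul, mul_one, Units.val_mul, Units.val_mul, Units.mul_inv]
    refine ⟨?_, ?_⟩
    · rw [e, Matrix.rank_mul_eq_left_of_isUnit_det _ _ ((Matrix.isUnit_iff_isUnit_det _).mp (Units.isUnit _)),
        Matrix.rank_mul_eq_right_of_isUnit_det _ _ ((Matrix.isUnit_iff_isUnit_det _).mp (Units.isUnit _)), ht.1]
    · rw [e]
      have e2 : ((g⁻¹ : GL (Fin n) F) : Matrix (Fin n) (Fin n) F) * (g : Matrix (Fin n) (Fin n) F) = 1 := Units.inv_mul _
      calc (g : Matrix (Fin n) (Fin n) F) * ((t : Matrix (Fin n) (Fin n) F) - 1) * ((g⁻¹ : GL (Fin n) F) : Matrix (Fin n) (Fin n) F) * ((g : Matrix (Fin n) (Fin n) F) * ((t : Matrix (Fin n) (Fin n) F) - 1) * ((g⁻¹ : GL (Fin n) F) : Matrix (Fin n) (Fin n) F))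
          = (g : Matrix (Fin n) (Fin n) F) * ((t : Matrix (Fin n) (Fin n) F) - 1) * (((g⁻¹ : GL (Fin n) F) : Matrix (Fin n) (Fin n) F) * (g : Matrix (Fin n) (Fin n) F)) * (((t : Matrix (Fin n) (Fin n) F) - 1) * ((g⁻¹ : GL (Fin n) F) : Matrix (Fin n) (Fin n) F)) := by simp only [mul_assoc]
        _ = (g : Matrix (Fin n) (Fin n) F) * (((t : Matrix (Fin n) (Fin n) F) - 1) * ((t : Matrix (Fin n) (Fin n) F) - 1)) * ((g⁻¹ : GL (Fin n) F) : Matrix (Fin n) (Fin n) F) := by rw [e2, mul_one]; simp only [mul_assoc]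
        _ = 0 := by rw [ht.2, mul_zero, zero_mul]
  refine Nat.card_congr (Equiv.ofBijective (fun x => (⟨(x.1 : Matrix (Fin n) (Fin n) F) - 1, hto x.1 x.2⟩ : T n F)) ⟨?_, ?_⟩)
  · intro x y hxy
    apply Subtype.ext
    apply Units.ext
    exact sub_left_inj.mp (congrArg Subtype.val hxy)
  · intro N
    let x : GL (Fin n) F := ⟨1 + N.1, 1 - N.1, by rw [mul_sub, mul_one, add_mul, one_mul, N.2.2]; abel, by rw [mul_add, mul_one, sub_mul, one_mul, N.2.2]; abel⟩
    have hx : (x : Matrix (Fin n) (Fin n) F) = 1 + N.1 := rfl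
    have hconj : IsConj t x := by
      obtain ⟨k, hk⟩ := SqZero.conj (N := Matrix.toLin' ((t : Matrix (Fin n) (Fin n) F) - 1)) (N' := Matrix.toLin' N.1) (by
        intro v
        rw [Matrix.toLin'_apply, Matrix.toLin'_apply, Matrix.mulVec_mulVec, ht.2, Matrix.zero_mulVec]) (by
        intro v
        rw [Matrix.toLin'_apply, Matrix.toLin'_apply, Matrix.mulVec_mulVec, N.2.2, Matrix.zero_mulVec]) (by
        rw [SqZero.rank_eq, SqZero.rank_eq, ht.1, N.2.1])
      apply SqZero.isConj_GL (k := k)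
      intro v
      have h1 := hk v
      rw [Matrix.toLin'_apply, Matrix.toLin'_apply, Matrix.sub_mulVec, Matrix.one_mulVec, map_sub] at h1
      rw [hx, Matrix.add_mulVec, Matrix.one_mulVec, ← h1]
      abel
    refine ⟨⟨x, hconj⟩, ?_⟩
    apply Subtype.ext
    show (x : Matrix (Fin n) (Fin n) F) - 1 = N.1
    rw [hx]; abel

theorem s2572 {F : Type*} [Field F] [Fintype F] {q n : ℕ} (hF : Fintype.card F = q) (hn : 2 ≤ n) (t : GL (Fin n) F) (ht : Cfsg.IsTransvection (t : Matrix (Fin n) (Fin n) F)) : Nat.card ↥(Subgroup.centralizer ({t} : Set (GL (Fin n) F))) = q ^ (2 * n - 3) * (q - 1) * ∏ i : Fin (n - 2), (q ^ (n - 2) - q ^ (i : ℕ)) := by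
  classical
  have h1 := (Subgroup.centralizer ({t} : Set (GL (Fin n) F))).card_mul_index
  have h2 : Nat.card {x : GL (Fin n) F // IsConj t x} = (Subgroup.centralizer ({t} : Set (GL (Fin n) F))).index   := Cfsg.Agent.Lib.CharBasic.card_conj_class t
  rw [← h2, card_class t ht, Matrix.card_GL_field, hF] at h1
  have h3 := card_T_mul (F := F) (n := n)
  rw [card_P, hF] at h3
  have hq : 1 < q := hF ▸ Fintype.one_lt_card
  obtain ⟨k, rfl⟩ : ∃ k, n = k + 2 := ⟨n - 2, by omega⟩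
  have hp1 : 0 < q ^ (k + 2) - 1 := by
    have := Nat.one_lt_pow (n := k + 2) (by omega) hq
    omega
  have hp2 : 0 < q ^ (k + 1) - 1 := by
    have := Nat.one_lt_pow (n := k + 1) (by omega) hq
    omega
  have hT : 0 < Nat.card (T (k + 2) F) := by
    rcases Nat.eq_zero_or_pos (Nat.card (T (k + 2) F)) with h | h
    · rw [h, zero_mul] at h3
      have : 0 < (q ^ (k + 2) - 1) * (q ^ (k + 2 - 1) - 1) := Nat.mul_pos hp1 hp2
      omega
    · exact h
  rw [Fin.prod_univ_succ, Fin.prod_univ_succ] at h1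
  have e1 : ∀ i : Fin k, q ^ (k + 2) - q ^ ((i.succ.succ : Fin (k + 2)) : ℕ) = q ^ 2 * (q ^ k - q ^ (i : ℕ)) := by
    intro i
    rw [Fin.val_succ, Fin.val_succ, Nat.mul_sub, ← pow_add, ← pow_add]
    congr 2 <;> ring
  rw [Finset.prod_congr rfl (fun i _ => e1 i), Finset.prod_mul_distrib, Finset.prod_const, Finset.card_univ, Fintype.card_fin] at h1
  have e2 : q ^ (k + 2) - q ^ ((Fin.succ 0 : Fin (k + 2)) : ℕ) = q * (q ^ (k + 1) - 1) := by
    rw [Fin.val_succ, Fin.val_zero, Nat.mul_sub, mul_one, zero_add, pow_one]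
    congr 1; ring
  rw [e2, Fin.val_zero, pow_zero] at h1
  apply Nat.eq_of_mul_eq_mul_right hT
  rw [h1]
  have e3 : 2 * (k + 2) - 3 = 2 * k + 1 := by omega
  have e4 : k + 2 - 2 = k := by omega
  have e5 : k + 2 - 1 = k + 1 := by omega
  rw [e5] at h3
  rw [e3, e4]
  calc (q ^ (k + 2) - 1) * (q * (q ^ (k + 1) - 1) * ((q ^ 2) ^ k * ∏ i : Fin k, (q ^ k - q ^ (i : ℕ))))
      = ((q ^ (k + 2) - 1) * (q ^ (k + 1) - 1)) * (q * (q ^ 2) ^ k * ∏ i : Fin k, (q ^ k - q ^ (i : ℕ))) := by ring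
    _ = (Nat.card (T (k + 2) F) * (q - 1)) * (q * (q ^ 2) ^ k * ∏ i : Fin k, (q ^ k - q ^ (i : ℕ))) := by rw [h3]
    _ = _ := by ring

end Cfsg.Agent.Lib.Tc
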