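import Mathlib
import Cfsg.Agent.Lib.Basic
import Cfsg.Agent.Lib.Nilp
import Cfsg.Agent.Lib.TiSub

/-!
# Invariant families of pairwise disjoint subgroups of a 2-group
-/

open Subgroup
open scoped commutatorElement Pointwise

namespace Cfsg.Agent.Lib.TiFam

open Cfsg.Agent.Lib.TiSub

variable {S : Type*} [Group S]

theorem exists_big [Finite S] (hS : IsPGroup 2 S) {R U : Subgroup S} (h : R < U) :
    ∃ M : Subgroup S, M < U ∧ R ≤ M ∧ ∀ s ∈ U, R.map (MulAut.conj s).toMonoidHom ≤ M := by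
  haveI : Fact (Nat.Prime 2) := ⟨Nat.prime_two⟩
  haveI : Group.IsNilpotent U := (hS.to_subgroup U).isNilpotent
  have h1 : R.subgroupOf U ≠ ⊤ := by
    intro htop
    rw [subgroupOf_eq_top] at htop
    exact h.not_ge htop
  obtain ⟨M, hM, hRM⟩ := Cfsg.Agent.Lib.Basic.exists_le_coatom h1
  have hMn := Cfsg.Agent.Lib.Nilp.coatom_normal_of_nilpotent hM
  refine ⟨M.map U.subtype, ?_, ?_, ?_⟩
  · refine lt_of_le_of_ne (map_subtype_le M) ?_
    intro heq
    apply hM.1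
    rw [eq_top_iff]
    intro x _
    have h2 : (x : S) ∈ M.map U.subtype := by rw [heq]; exact x.2
    obtain ⟨y, hy, hyx⟩ := h2
    have : y = x := Subtype.ext hyx
    rwa [← this]
  · intro x hx
    exact ⟨⟨x, h.le hx⟩, hRM (mem_subgroupOf.mpr hx), rfl⟩
  · rintro s hs _ ⟨x, hx, rfl⟩
    refine ⟨⟨s, hs⟩ * ⟨x, h.le hx⟩ * ⟨s, hs⟩⁻¹, hMn.conj_mem _ (hRM (mem_subgroupOf.mpr hx)) _, rfl⟩

/-- Step A -/
theorem no_norm [Finite S] (hS : IsPGroup 2 S) {R T : Subgroup S}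
    (hT : ∀ s : S, T.map (MulAut.conj s).toMonoidHom = T ∨ T.map (MulAut.conj s).toMonoidHom ⊓ T = ⊥)
    (hR : ∀ s : S, R.map (MulAut.conj s).toMonoidHom = R ∨ R.map (MulAut.conj s).toMonoidHom ⊓ R = ⊥)
    (hRT : R ⊓ T = ⊥)
    (hRc : ∀ t ∈ T, R.map (MulAut.conj t).toMonoidHom ≠ R → ∀ a ∈ R, ∀ b ∈ R, a * (t * b * t⁻¹) = t * b * t⁻¹ * a)
    (hr : ∃ r ∈ R, T.map (MulAut.conj r).toMonoidHom ≠ T)
    (ht : ∃ t ∈ T, R.map (MulAut.conj t).toMonoidHom ≠ R) :
    ∀ y ∈ R, y ≠ 1 → T.map (MulAut.conj y).toMonoidHom ≠ T := by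
  haveI : Fact (Nat.Prime 2) := ⟨Nat.prime_two⟩
  obtain ⟨r₁, hr₁, hr₁T⟩ := hr
  obtain ⟨t, htT, htR⟩ := ht
  -- the main equivalence
  have star : ∀ y ∈ R, y ≠ 1 → T.map (MulAut.conj y).toMonoidHom = T → ∀ x ∈ R, x * y = y * x →
      T.map (MulAut.conj x).toMonoidHom = T := by
    intro y hy hy1 hyT x hx hxy
    set y' := t * y * t⁻¹ with hy'
    set w := y⁻¹ * y' with hw
    have hyw : y' = y * w := by rw [hw, mul_inv_cancel_left]
    have hwT : w ∈ T := by
      have h1 : y ∈ normalizer (T : Set S) := mem_normalizer_of_map_eq hyT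
      have h2 := (mem_normalizer_iff.mp (inv_mem h1) t).mp htT
      rw [inv_inv] at h2
      have h3 : w = (y⁻¹ * t * y) * t⁻¹ := by rw [hw, hy']; group
      rw [h3]
      exact mul_mem h2 (inv_mem htT)
    have hw1 : w ≠ 1 := by
      intro h
      rw [h, mul_one] at hyw
      have h1 : y' ∈ R.map (MulAut.conj t).toMonoidHom ⊓ R := mem_inf.mpr ⟨⟨y, hy, rfl⟩, by rw [hyw]; exact hy⟩
      rw [(hR t).resolve_left htR, mem_bot] at h1
      exact hy1 (hyw ▸ h1)
    have hxy' : x * y' = y' * x := hRc t htT htR x hx y hy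
    have hxw : x * w = w * x := by
      rw [hw]
      have h1 : x * y⁻¹ = y⁻¹ * x := by
        calc x * y⁻¹ = y⁻¹ * (y * x) * y⁻¹ := by group
          _ = y⁻¹ * x := by rw [← hxy]; group
      calc x * (y⁻¹ * y') = (x * y⁻¹) * y' := by group
        _ = y⁻¹ * (x * y') := by rw [h1]; group
        _ = y⁻¹ * y' * x := by rw [hxy']; group
    rcases hT x with h | h
    · exact h
    · exfalso
      have h1 : w ∈ T.map (MulAut.conj x).toMonoidHom ⊓ T := by
        refine mem_inf.mpr ⟨⟨w, hwT, ?_⟩, hwT⟩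
        change x * w * x⁻¹ = w
        rw [hxw, mul_inv_cancel_right]
      rw [h, mem_bot] at h1
      exact hw1 h1
  intro y hy hy1 hyT
  haveI : Nontrivial R := ⟨⟨⟨y, hy⟩, 1, fun h => hy1 (congrArg Subtype.val h)⟩⟩
  haveI : Nontrivial (center R) := (hS.to_subgroup R).center_nontrivial
  obtain ⟨⟨⟨z, hzR⟩, hzc⟩, hz1⟩ := exists_ne (1 : center R)
  have hz1' : z ≠ 1 := fun h => hz1 (Subtype.ext (Subtype.ext h))
  have hzc' : ∀ x ∈ R, x * z = z * x := fun x hx => congrArg Subtype.val (mem_center_iff.mp hzc ⟨x, hx⟩)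
  have hzT := star y hy hy1 hyT z hzR (hzc' y hy).symm
  exact hr₁T (star z hzR hz1' hzT r₁ hr₁ (hzc' r₁ hr₁))

/-- S1782 -/
theorem fam [Finite S] (hS : IsPGroup 2 S) (Δ : Set (Subgroup S))
    (hinv : ∀ s : S, ∀ R ∈ Δ, R.map (MulAut.conj s).toMonoidHom ∈ Δ)
    (hΦ : ∀ R ∈ Δ, frattini ↥R ≠ ⊥)
    (hord : ∀ R ∈ Δ, ∀ T ∈ Δ, Nat.card ↥R = Nat.card ↥T)
    (hti : ∀ R ∈ Δ, ∀ T ∈ Δ, R = T ∨ R ⊓ T = ⊥) (n : ℕ) :
    ∀ R ∈ Δ, ∀ T ∈ Δ, Nat.card (R ⊔ T : Subgroup S) ≤ n → R ≠ T → ⁅R, T⁆ = ⊥ := by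
  haveI : Fact (Nat.Prime 2) := ⟨Nat.prime_two⟩
  induction n with
  | zero => intro R _ T _ h; exact absurd (Nat.le_zero.mp h) Nat.card_pos.ne'
  | succ n ih =>
    intro R hR T hT hn hne
    have hRti : ∀ s : S, R.map (MulAut.conj s).toMonoidHom = R ∨ R.map (MulAut.conj s).toMonoidHom ⊓ R = ⊥ :=
      fun s => hti _ (hinv s R hR) R hR
    have hTti : ∀ s : S, T.map (MulAut.conj s).toMonoidHom = T ∨ T.map (MulAut.conj s).toMonoidHom ⊓ T = ⊥ :=
      fun s => hti _ (hinv s T hT) T hT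
    have hRT : R ⊓ T = ⊥ := (hti R hR T hT).resolve_left hne
    have hne1 : ∀ R ∈ Δ, ∃ r ∈ R, r ^ 2 ≠ 1 := by
      intro R hR
      by_contra hcon
      push Not at hcon
      apply hΦ R hR
      have h1 : ∀ x : R, x * x = 1 := fun x => Subtype.ext (by
        change (x : S) * x = 1
        rw [← pow_two]; exact hcon x x.2)
      have h2 : ∀ x : R, x⁻¹ = x := fun x => inv_eq_of_mul_eq_one_left (h1 x)
      refine Cfsg.Agent.Lib.Nilp.frattini_eq_bot_of_elementary (p := 2) ?_ ?_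
      · intro a b
        calc a * b = (a * b)⁻¹ := (h2 _).symm
          _ = b⁻¹ * a⁻¹ := mul_inv_rev _ _
          _ = b * a := by rw [h2, h2]
      · intro a
        rw [pow_two]; exact h1 a
    have hRb : ∀ R ∈ Δ, R ≠ ⊥ := by
      rintro R hR rfl
      obtain ⟨r, hr, hr2⟩ := hne1 _ hR
      rw [mem_bot] at hr
      exact hr2 (by rw [hr, one_pow])
    -- conjugates commute
    have hconj : ∀ R ∈ Δ, ∀ U : Subgroup S, R < U → Nat.card U ≤ n + 1 → ∀ t ∈ U,
        R.map (MulAut.conj t).toMonoidHom ≠ R → ∀ a ∈ R, ∀ b ∈ R, a * (t * b * t⁻¹) = t * b * t⁻¹ * a := by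
      intro R hR U hRU hU t ht htR a ha b hb
      obtain ⟨M, hMU, hRM, hM⟩ := exists_big hS hRU
      have h1 := Cfsg.Agent.Lib.Basic.card_lt_card_of_lt hMU
      have h2 : Nat.card (R ⊔ R.map (MulAut.conj t).toMonoidHom : Subgroup S) ≤ Nat.card M :=
        Nat.card_le_card_of_injective _ (inclusion_injective (sup_le hRM (hM t ht)))
      have h3 := ih R hR _ (hinv t R hR) (by omega) (Ne.symm htR)
      rw [commutator_eq_bot_iff_le_centralizer] at h3
      exact (mem_centralizer_iff.mp (h3 ha) _ ⟨b, hb, rfl⟩).symm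
    have hlt1 : R < R ⊔ T := by
      refine lt_of_le_of_ne le_sup_left (fun h => ?_)
      have h1 : T ≤ R := by rw [h]; exact le_sup_right
      rw [inf_eq_right.mpr h1] at hRT
      exact hRb T hT hRT
    have hlt2 : T < R ⊔ T := by
      refine lt_of_le_of_ne le_sup_right (fun h => ?_)
      have h1 : R ≤ T := by rw [h]; exact le_sup_left
      rw [inf_eq_left.mpr h1] at hRT
      exact hRb R hR hRT
    have hRc : ∀ t ∈ T, R.map (MulAut.conj t).toMonoidHom ≠ R → ∀ a ∈ R, ∀ b ∈ R,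
        a * (t * b * t⁻¹) = t * b * t⁻¹ * a := fun t ht => hconj R hR _ hlt1 hn t (mem_sup_right ht)
    have hTc : ∀ r ∈ R, T.map (MulAut.conj r).toMonoidHom ≠ T → ∀ a ∈ T, ∀ b ∈ T,
        a * (r * b * r⁻¹) = r * b * r⁻¹ * a := fun r hr => hconj T hT _ hlt2 hn r (mem_sup_left hr)
    by_contra hcom
    have hr : ∃ r ∈ R, T.map (MulAut.conj r).toMonoidHom ≠ T := by
      by_contra hcon
      push Not at hcon
      apply hcom
      rw [commutator_comm]
      exact ti_commute hRti (hord T hT R hR).le (by rw [inf_comm]; exact hRT)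
        (fun r hr => mem_normalizer_of_map_eq (hcon r hr))
    have ht : ∃ t ∈ T, R.map (MulAut.conj t).toMonoidHom ≠ R := by
      by_contra hcon
      push Not at hcon
      apply hcom
      exact ti_commute hTti (hord R hR T hT).le hRT
        (fun r hr => mem_normalizer_of_map_eq (hcon r hr))
    have hA := no_norm hS hTti hRti hRT hRc hr ht
    have hB := no_norm hS hRti hTti (by rw [inf_comm]; exact hRT) hTc ht hr
    -- an involution of `T`
    obtain ⟨r, hrR, hr2⟩ := hne1 R hR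
    obtain ⟨t, htT, ht2⟩ : ∃ t ∈ T, orderOf t = 2 := by
      obtain ⟨⟨y, hy⟩, hy1'⟩ := Subgroup.ne_bot_iff_exists_ne_one.mp (hRb T hT)
      have hy1 : y ≠ 1 := fun h => hy1' (Subtype.ext h)
      obtain ⟨j, hj⟩ := exists_pow_orderOf_two hy1 (hS y)
      exact ⟨_, pow_mem hy _, hj⟩
    have htt : t * t = 1 := by rw [← pow_two, ← ht2, pow_orderOf_eq_one]
    have hti' : t⁻¹ = t := inv_eq_of_mul_eq_one_left htt
    have ht1 : t ≠ 1 := fun h => by rw [h, orderOf_one] at ht2; norm_num at ht2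
    have hr1 : r ≠ 1 := fun h => hr2 (by rw [h, one_pow])
    have e1 := hRc t htT (hB t htT ht1) r hrR r hrR
    have e2 := hTc r⁻¹ (inv_mem hrR) (hA r⁻¹ (inv_mem hrR) (fun h => hr1 (inv_eq_one.mp h))) t htT t htT
    rw [inv_inv] at e2
    rw [hti'] at e1
    -- `e1 : r (t r t) = (t r t) r`, `e2 : t (r⁻¹ t r) = (r⁻¹ t r) t`
    have e3 : r⁻¹ * t * r * t = t * r⁻¹ * t * r := by
      calc r⁻¹ * t * r * t = (r⁻¹ * t * r) * t := rfl
        _ = t * (r⁻¹ * t * r) := e2.symm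
        _ = t * r⁻¹ * t * r := by group
    have e4 : t * r ^ 2 = r ^ 2 * t := by
      -- `r' = t r t = r c`, `c = r⁻¹ t r t`
      have e5 : t * r * t = r * (t * r⁻¹ * t * r) := by rw [← e3]; group
      have e6 : t * r ^ 2 * t = (t * r * t) * (t * r * t) := by
        calc t * r ^ 2 * t = t * r * 1 * r * t := by rw [pow_two]; group
          _ = t * r * (t * t) * r * t := by rw [htt]
          _ = (t * r * t) * (t * r * t) := by group
      have e7 : (t * r * t) * (t * r⁻¹ * t) = 1 := by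
        calc (t * r * t) * (t * r⁻¹ * t) = t * r * (t * t) * r⁻¹ * t := by group
          _ = 1 := by rw [htt, mul_one, mul_inv_cancel_right, htt]
      have e8 : t * r ^ 2 * t = r ^ 2 := by
        calc t * r ^ 2 * t = (t * r * t) * (t * r * t) := e6
          _ = (t * r * t) * (r * (t * r⁻¹ * t * r)) := by rw [← e5]
          _ = (r * (t * r * t)) * (t * r⁻¹ * t * r) := by rw [e1]; group
          _ = r * ((t * r * t) * (t * r⁻¹ * t)) * r := by group
          _ = r ^ 2 := by rw [e7, mul_one, pow_two]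
      calc t * r ^ 2 = (t * r ^ 2 * t) * t := by rw [mul_assoc, mul_assoc, htt, mul_one]
        _ = r ^ 2 * t := by rw [e8]
    have hrr := hA (r ^ 2) (pow_mem hrR 2) hr2
    have h5 : t ∈ T.map (MulAut.conj (r ^ 2)).toMonoidHom ⊓ T := by
      refine mem_inf.mpr ⟨⟨t, htT, ?_⟩, htT⟩
      change r ^ 2 * t * (r ^ 2)⁻¹ = t
      rw [← e4, mul_inv_cancel_right]
    rw [(hTti (r ^ 2)).resolve_left hrr, mem_bot] at h5
    exact ht1 h5

end Cfsg.Agent.Lib.TiFam
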