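import Mathlib
import Cfsg.Agent.Lib.SL2

/-! 3-transitivity on the projective line. -/

set_option linter.all false
set_option maxHeartbeats 400000

namespace Cfsg.Agent.Lib.Tri

open Matrix
open scoped MatrixGroups LinearAlgebra.Projectivization

variable {F : Type*} [Field F]

/-- the matrix sending the standard frame to the frame `u, v, w` -/
theorem exists_frame {u v w : Fin 2 → F} (huv : u 0 * v 1 - u 1 * v 0 ≠ 0) (huw : u 0 * w 1 - u 1 * w 0 ≠ 0) (hvw : v 0 * w 1 - v 1 * w 0 ≠ 0) :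
    ∃ (g : GL (Fin 2) F) (a b c : F), a ≠ 0 ∧ b ≠ 0 ∧ c ≠ 0 ∧ (g : Matrix (Fin 2) (Fin 2) F).mulVec ![1, 0] = a • u ∧ (g : Matrix (Fin 2) (Fin 2) F).mulVec ![0, 1] = b • v ∧
      (g : Matrix (Fin 2) (Fin 2) F).mulVec ![1, 1] = c • w := by
  -- w * det(u,v) = det(w,v) u + det(u,w) v
  let M : Matrix (Fin 2) (Fin 2) F := !![(w 0 * v 1 - w 1 * v 0) * u 0, (u 0 * w 1 - u 1 * w 0) * v 0; (w 0 * v 1 - w 1 * v 0) * u 1, (u 0 * w 1 - u 1 * w 0) * v 1]
  have hM : M.det = (w 0 * v 1 - w 1 * v 0) * (u 0 * w 1 - u 1 * w 0) * (u 0 * v 1 - u 1 * v 0) := by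
    rw [Matrix.det_fin_two_of]; ring
  have hwv : w 0 * v 1 - w 1 * v 0 ≠ 0 := by
    intro h; apply hvw; linear_combination -h
  have hM0 : M.det ≠ 0 := by rw [hM]; exact mul_ne_zero (mul_ne_zero hwv huw) huv
  refine ⟨Matrix.GeneralLinearGroup.mkOfDetNeZero M hM0, w 0 * v 1 - w 1 * v 0, u 0 * w 1 - u 1 * w 0, u 0 * v 1 - u 1 * v 0, hwv, huw, huv, ?_, ?_, ?_⟩
  · show M.mulVec _ = _
    ext i
    fin_cases i <;> simp [M, Matrix.mulVec, dotProduct, Fin.sum_univ_two]
  · show M.mulVec _ = _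
    ext i
    fin_cases i <;> simp [M, Matrix.mulVec, dotProduct, Fin.sum_univ_two]
  · show M.mulVec _ = _
    ext i
    fin_cases i <;> simp [M, Matrix.mulVec, dotProduct, Fin.sum_univ_two] <;> ring

theorem mk_ne_iff {u v : Fin 2 → F} (hu : u ≠ 0) (hv : v ≠ 0) : (Projectivization.mk F u hu ≠ Projectivization.mk F v hv) ↔ u 0 * v 1 - u 1 * v 0 ≠ 0 := by
  rw [not_iff_not, Projectivization.mk_eq_mk_iff']
  constructor
  · rintro ⟨a, rfl⟩
    simp only [Pi.smul_apply, smul_eq_mul]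
    ring
  · intro h
    by_cases h0 : v 0 = 0
    · have h1 : v 1 ≠ 0 := by
        intro h1
        apply hv
        ext i
        fin_cases i
        · exact h0
        · exact h1
      refine ⟨u 1 / v 1, ?_⟩
      have hu0 : u 0 = 0 := by
        rw [h0, mul_zero, sub_zero] at h
        exact (mul_eq_zero.mp h).resolve_right h1
      ext i
      fin_cases i
      · simp [h0, hu0]
      · simp [h1]
    · refine ⟨u 0 / v 0, ?_⟩
      ext i
      fin_cases i
      · simp [h0]
      · simp only [Pi.smul_apply, smul_eq_mul, Fin.mk_one, Fin.isValue]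
        field_simp
        linear_combination h

theorem e0_ne : (![1, 0] : Fin 2 → F) ≠ 0 := by
  intro h; have := congrFun h 0; simp at this
theorem e1_ne : (![0, 1] : Fin 2 → F) ≠ 0 := by
  intro h; have := congrFun h 1; simp at this
theorem e2_ne : (![1, 1] : Fin 2 → F) ≠ 0 := by
  intro h; have := congrFun h 0; simp at this

/-- the frame -/
def P0 (F : Type*) [Field F] : ℙ F (Fin 2 → F) := Projectivization.mk F (![1, 0] : Fin 2 → F) e0_ne
def P1 (F : Type*) [Field F] : ℙ F (Fin 2 → F) := Projectivization.mk F (![0, 1] : Fin 2 → F) e1_ne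
def P2 (F : Type*) [Field F] : ℙ F (Fin 2 → F) := Projectivization.mk F (![1, 1] : Fin 2 → F) e2_ne

theorem gl_smul_eq (g : GL (Fin 2) F) (v : Fin 2 → F) : g • v = (g : Matrix (Fin 2) (Fin 2) F).mulVec v := rfl

/-- 3-transitivity in `GL` -/
theorem exists_gl {a b c : ℙ F (Fin 2 → F)} (hab : a ≠ b) (hac : a ≠ c) (hbc : b ≠ c) :
    ∃ g : GL (Fin 2) F, g • P0 F = a ∧ g • P1 F = b ∧ g • P2 F = c := by
  induction a using Projectivization.ind with | _ u hu =>
  induction b using Projectivization.ind with | _ v hv =>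
  induction c using Projectivization.ind with | _ w hw =>
  obtain ⟨g, a, b, c, ha, hb, hc, h1, h2, h3⟩ := exists_frame ((mk_ne_iff hu hv).mp hab) ((mk_ne_iff hu hw).mp hac) ((mk_ne_iff hv hw).mp hbc)
  refine ⟨g, ?_, ?_, ?_⟩
  · rw [P0, Projectivization.smul_mk, Projectivization.mk_eq_mk_iff']
    exact ⟨a, h1.symm⟩
  · rw [P1, Projectivization.smul_mk, Projectivization.mk_eq_mk_iff']
    exact ⟨b, h2.symm⟩
  · rw [P2, Projectivization.smul_mk, Projectivization.mk_eq_mk_iff']
    exact ⟨c, h3.symm⟩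

/-- an element fixing the frame is scalar -/
theorem scalar_of_fix {g : GL (Fin 2) F} (h1 : g • P0 F = P0 F)
    (h2 : g • P1 F = P1 F) :
    (g : Matrix (Fin 2) (Fin 2) F) 1 0 = 0 ∧ (g : Matrix (Fin 2) (Fin 2) F) 0 1 = 0 := by
  rw [P0, Projectivization.smul_mk, Projectivization.mk_eq_mk_iff'] at h1
  rw [P1, Projectivization.smul_mk, Projectivization.mk_eq_mk_iff'] at h2
  obtain ⟨a, h1⟩ := h1
  obtain ⟨b, h2⟩ := h2
  constructor
  · have := congrFun h1 1
    rw [gl_smul_eq] at this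
    simp [Matrix.mulVec, dotProduct, Fin.sum_univ_two] at this
    exact this.symm
  · have := congrFun h2 0
    rw [gl_smul_eq] at this
    simp [Matrix.mulVec, dotProduct, Fin.sum_univ_two] at this
    exact this.symm

theorem scalar_of_fix' {g : GL (Fin 2) F} (h1 : g • P0 F = P0 F)
    (h2 : g • P1 F = P1 F)
    {ν : F} (hν : (![1, ν] : Fin 2 → F) ≠ 0) (h3 : g • P2 F = Projectivization.mk F (![1, ν] : Fin 2 → F) hν) :
    (g : Matrix (Fin 2) (Fin 2) F) 1 1 = ν * (g : Matrix (Fin 2) (Fin 2) F) 0 0 := by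
  obtain ⟨h4, h5⟩ := scalar_of_fix h1 h2
  rw [P2, Projectivization.smul_mk, Projectivization.mk_eq_mk_iff'] at h3
  obtain ⟨c, h3⟩ := h3
  have e0 := congrFun h3 0
  have e1 := congrFun h3 1
  rw [gl_smul_eq] at e0 e1
  simp [Matrix.mulVec, dotProduct, Fin.sum_univ_two, h4, h5] at e0 e1
  rw [← e0, ← e1]
  ring

/-- an element fixing three points is scalar -/
theorem center_of_fix {g : GL (Fin 2) F} (h1 : g • P0 F = P0 F) (h2 : g • P1 F = P1 F) (h3 : g • P2 F = P2 F) : g ∈ Subgroup.center (GL (Fin 2) F) := by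
  obtain ⟨h4, h5⟩ := scalar_of_fix h1 h2
  have h6 := scalar_of_fix' h1 h2 (ν := 1) e2_ne h3
  rw [one_mul] at h6
  rw [Matrix.GeneralLinearGroup.mem_center_iff_val_mem_range_scalar]
  refine ⟨(g : Matrix (Fin 2) (Fin 2) F) 0 0, ?_⟩
  ext i j
  fin_cases i <;> fin_cases j <;> simp [h4, h5, h6]

theorem P01 : P0 F ≠ P1 F := by
  rw [P0, P1, mk_ne_iff]
  simp
theorem P02 : P0 F ≠ P2 F := by
  rw [P0, P2, mk_ne_iff]
  simp
theorem P12 : P1 F ≠ P2 F := by
  rw [P1, P2, mk_ne_iff]
  simp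

theorem s0266 : MulAction.IsMultiplyPretransitive (Matrix.ProjGenLinGroup (Fin 2) F) (Projectivization F (Fin 2 → F)) 3 ∧ ∀ (g : Matrix.ProjGenLinGroup (Fin 2) F) (a b c : Projectivization F (Fin 2 → F)), a ≠ b → a ≠ c → b ≠ c → g • a = a → g • b = b → g • c = c → g = 1 := by
  constructor
  · rw [MulAction.isMultiplyPretransitive_iff]
    intro x y
    have hx : ∀ i j : Fin 3, i ≠ j → x i ≠ x j := fun i j h h' => h (x.injective h')
    have hy : ∀ i j : Fin 3, i ≠ j → y i ≠ y j := fun i j h h' => h (y.injective h')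
    obtain ⟨g, g0, g1, g2⟩ := exists_gl (hx 0 1 (by decide)) (hx 0 2 (by decide)) (hx 1 2 (by decide))
    obtain ⟨h, h0, h1, h2⟩ := exists_gl (hy 0 1 (by decide)) (hy 0 2 (by decide)) (hy 1 2 (by decide))
    refine ⟨Matrix.ProjGenLinGroup.mk (h * g⁻¹), ?_⟩
    apply DFunLike.ext
    intro i
    show Matrix.ProjGenLinGroup.mk (h * g⁻¹) • x i = y i
    have key : ∀ p : ℙ F (Fin 2 → F), Matrix.ProjGenLinGroup.mk (h * g⁻¹) • (g • p) = h • p := by
      intro p
      have e : (Matrix.ProjGenLinGroup.mk (h * g⁻¹) : Matrix.ProjGenLinGroup (Fin 2) F) • (g • p) = (h * g⁻¹) • (g • p) := by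
        induction (g • p) using Projectivization.ind with | _ v hv =>
        rfl
      rw [e, mul_smul, inv_smul_smul]
    fin_cases i
    · show Matrix.ProjGenLinGroup.mk (h * g⁻¹) • x 0 = y 0
      rw [← g0, key, h0]
    · show Matrix.ProjGenLinGroup.mk (h * g⁻¹) • x 1 = y 1
      rw [← g1, key, h1]
    · show Matrix.ProjGenLinGroup.mk (h * g⁻¹) • x 2 = y 2
      rw [← g2, key, h2]
  · intro g a b c hab hac hbc ha hb hc
    induction g using Matrix.ProjGenLinGroup.induction_on with | mk g =>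
    have e : ∀ p : ℙ F (Fin 2 → F), (Matrix.ProjGenLinGroup.mk g : Matrix.ProjGenLinGroup (Fin 2) F) • p = g • p := by
      intro p
      induction p using Projectivization.ind with | _ v hv =>
      rfl
    rw [e] at ha hb hc
    obtain ⟨k, k0, k1, k2⟩ := exists_gl hab hac hbc
    have h1 : (k⁻¹ * g * k) • P0 F = P0 F := by rw [mul_smul, k0, mul_smul, ha, ← k0, inv_smul_smul]
    have h2 : (k⁻¹ * g * k) • P1 F = P1 F := by rw [mul_smul, k1, mul_smul, hb, ← k1, inv_smul_smul]
    have h3 : (k⁻¹ * g * k) • P2 F = P2 F := by rw [mul_smul, k2, mul_smul, hc, ← k2, inv_smul_smul]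
    have h4 := center_of_fix h1 h2 h3
    rw [Matrix.ProjGenLinGroup.mk_eq_one]
    have h5 : g = k * (k⁻¹ * g * k) * k⁻¹ := by group
    rw [h5, Subgroup.mem_center_iff.mp h4 k, mul_inv_cancel_right]
    exact h4

theorem sl_smul (g : SL(2, F)) (p : ℙ F (Fin 2 → F)) : g • p = (Matrix.SpecialLinearGroup.toGL g) • p := by
  induction p using Projectivization.ind with | _ v hv =>
  rfl

theorem P3_ne (ν : F) : (![1, ν] : Fin 2 → F) ≠ 0 := by
  intro h; have := congrFun h 0; simp at this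

theorem s0267 [Fintype F] : MulAction.IsMultiplyPretransitive (Matrix.SpecialLinearGroup (Fin 2) F) (Projectivization F (Fin 2 → F)) 3 ↔ ringChar F = 2 := by
  constructor
  · intro h
    by_contra hc
    obtain ⟨ν, hν⟩ := FiniteField.exists_nonsquare hc
    rw [MulAction.isMultiplyPretransitive_iff] at h
    let P3 : ℙ F (Fin 2 → F) := Projectivization.mk F (![1, ν] : Fin 2 → F) (P3_ne ν)
    have hν0 : ν ≠ 0 := by rintro rfl; exact hν IsSquare.zero
    have h03 : P0 F ≠ P3 := by rw [P0, mk_ne_iff]; simpa using hν0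
    have h13 : P1 F ≠ P3 := by rw [P1, mk_ne_iff]; simp
    let x : Fin 3 ↪ ℙ F (Fin 2 → F) := ⟨![P0 F, P1 F, P2 F], by
      intro i j hij
      fin_cases i <;> fin_cases j <;> first | rfl | (exfalso; first | exact P01 hij | exact P01 hij.symm | exact P02 hij | exact P02 hij.symm | exact P12 hij | exact P12 hij.symm)⟩
    let y : Fin 3 ↪ ℙ F (Fin 2 → F) := ⟨![P0 F, P1 F, P3], by
      intro i j hij
      fin_cases i <;> fin_cases j <;> first | rfl | (exfalso; first | exact P01 hij | exact P01 hij.symm | exact h03 hij | exact h03 hij.symm | exact h13 hij | exact h13 hij.symm)⟩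
    obtain ⟨g, hg⟩ := h x y
    have h0 : g • P0 F = P0 F := DFunLike.congr_fun hg 0
    have h1 : g • P1 F = P1 F := DFunLike.congr_fun hg 1
    have h2 : g • P2 F = P3 := DFunLike.congr_fun hg 2
    rw [sl_smul] at h0 h1 h2
    obtain ⟨h3, h4⟩ := scalar_of_fix h0 h1
    have h5 := scalar_of_fix' h0 h1 (P3_ne ν) h2
    have hd := g.det_coe
    rw [Matrix.det_fin_two] at hd
    have e : ((Matrix.SpecialLinearGroup.toGL g : GL (Fin 2) F) : Matrix (Fin 2) (Fin 2) F) = (g : Matrix (Fin 2) (Fin 2) F) := rfl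
    rw [e] at h3 h4 h5
    rw [h3, h5] at hd
    apply hν
    have hg0 : (g : Matrix (Fin 2) (Fin 2) F) 0 0 ≠ 0 := by
      intro h; rw [h] at hd; simp at hd
    refine ⟨((g : Matrix (Fin 2) (Fin 2) F) 0 0)⁻¹, ?_⟩
    field_simp
    linear_combination hd
  · intro hc
    rw [MulAction.isMultiplyPretransitive_iff]
    intro x y
    have hx : ∀ i j : Fin 3, i ≠ j → x i ≠ x j := fun i j h h' => h (x.injective h')
    have hy : ∀ i j : Fin 3, i ≠ j → y i ≠ y j := fun i j h h' => h (y.injective h')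
    obtain ⟨g, g0, g1, g2⟩ := exists_gl (hx 0 1 (by decide)) (hx 0 2 (by decide)) (hx 1 2 (by decide))
    obtain ⟨h, h0, h1, h2⟩ := exists_gl (hy 0 1 (by decide)) (hy 0 2 (by decide)) (hy 1 2 (by decide))
    -- rescale
    obtain ⟨s, hs⟩ := FiniteField.isSquare_of_char_two hc (((h * g⁻¹ : GL (Fin 2) F) : Matrix (Fin 2) (Fin 2) F).det)
    have hdet0 : ((h * g⁻¹ : GL (Fin 2) F) : Matrix (Fin 2) (Fin 2) F).det ≠ 0 := by
      have := (h * g⁻¹ : GL (Fin 2) F).det.ne_zero
      exact this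
    have hs0 : s ≠ 0 := by rintro rfl; rw [mul_zero] at hs; exact hdet0 hs
    let k : SL(2, F) := ⟨s⁻¹ • ((h * g⁻¹ : GL (Fin 2) F) : Matrix (Fin 2) (Fin 2) F), by
      rw [Matrix.det_smul, Fintype.card_fin, hs]
      field_simp⟩
    have hk : ∀ p : ℙ F (Fin 2 → F), k • p = (h * g⁻¹) • p := by
      intro p
      induction p using Projectivization.ind with | _ v hv =>
      rw [sl_smul, Projectivization.smul_mk, Projectivization.smul_mk, Projectivization.mk_eq_mk_iff']
      refine ⟨s⁻¹, ?_⟩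
      rw [gl_smul_eq, gl_smul_eq]
      exact (Matrix.smul_mulVec _ _ _).symm
    refine ⟨k, ?_⟩
    apply DFunLike.ext
    intro i
    show k • x i = y i
    have key : ∀ p : ℙ F (Fin 2 → F), k • (g • p) = h • p := by
      intro p
      rw [hk, mul_smul, inv_smul_smul]
    fin_cases i
    · show k • x 0 = y 0
      rw [← g0, key, h0]
    · show k • x 1 = y 1
      rw [← g1, key, h1]
    · show k • x 2 = y 2
      rw [← g2, key, h2]

end Cfsg.Agent.Lib.Tri
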