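import Mathlib
import Cfsg.Prelude.Def_Transfer
import Cfsg.Agent.Lib.Basic
import Cfsg.Agent.Lib.Nilp

/-!
# Connectivity of elementary abelian subgroups of order eight
-/

open Subgroup
open scoped commutatorElement Pointwise

namespace Cfsg.Agent.Lib.TwoChain

variable {X : Type*} [Group X]

theorem elem_comm {A : Subgroup X} (h : Cfsg.IsElementaryAbelian 2 A) : A ≤ centralizer (A : Set X) := by
  intro a ha
  rw [mem_centralizer_iff]
  intro b hb
  exact Cfsg.Agent.Lib.Nilp.isMulCommutative_iff_forall.mp h.1 b hb a ha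

theorem elem_of {A : Subgroup X} (h1 : A ≤ centralizer (A : Set X)) (h2 : ∀ a ∈ A, a ^ 2 = 1) :
    Cfsg.IsElementaryAbelian 2 A :=
  ⟨Cfsg.Agent.Lib.Nilp.isMulCommutative_iff_forall.mpr (fun a ha b hb => mem_centralizer_iff.mp (h1 hb) a ha), h2⟩

theorem elem_of_le {A B : Subgroup X} (h : A ≤ B) (hB : Cfsg.IsElementaryAbelian 2 B) :
    Cfsg.IsElementaryAbelian 2 A :=
  ⟨Cfsg.Agent.Lib.Nilp.isMulCommutative_of_le h hB.1, fun a ha => hB.2 a (h ha)⟩

theorem elem_sup {A B : Subgroup X} (hA : Cfsg.IsElementaryAbelian 2 A) (hB : Cfsg.IsElementaryAbelian 2 B)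
    (h : A ≤ centralizer (B : Set X)) : Cfsg.IsElementaryAbelian 2 (A ⊔ B) := by
  have h1 : A ≤ centralizer ((A ⊔ B : Subgroup X) : Set X) := by
    rw [le_centralizer_iff]
    exact sup_le (elem_comm hA) (le_centralizer_iff.mp h)
  have h2 : B ≤ centralizer ((A ⊔ B : Subgroup X) : Set X) := by
    rw [le_centralizer_iff]
    exact sup_le h (elem_comm hB)
  refine elem_of (sup_le h1 h2) ?_
  intro x hx
  have h3 : B ≤ normalizer (A : Set X) := (le_centralizer_iff.mp h).trans (centralizer_le_normalizer _)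
  rw [Cfsg.Agent.Lib.Basic.mem_sup_iff_left h3] at hx
  obtain ⟨a, ha, b, hb, rfl⟩ := hx
  have h4 : b * a = a * b := mem_centralizer_iff.mp (h ha) b hb
  calc (a * b) ^ 2 = a * (b * a) * b := by rw [pow_two]; group
    _ = a ^ 2 * b ^ 2 := by rw [h4, pow_two, pow_two]; group
    _ = 1 := by rw [hA.2 a ha, hB.2 b hb, one_mul]

theorem elem_zpowers {e : X} (he : e ^ 2 = 1) : Cfsg.IsElementaryAbelian 2 (zpowers e) := by
  refine ⟨inferInstance, ?_⟩
  intro a ha
  obtain ⟨n, rfl⟩ := mem_zpowers_iff.mp ha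
  rw [← zpow_natCast, ← zpow_mul, mul_comm, zpow_mul, zpow_natCast, he, one_zpow]

/-- the fixed points of an involution on an elementary abelian group -/
theorem card_le_sq [Finite X] {F : Subgroup X} (hF : Cfsg.IsElementaryAbelian 2 F) {v : X} (hv : v * v = 1)
    (hn : ∀ f ∈ F, v * f * v⁻¹ ∈ F) :
    Nat.card F ≤ Nat.card (F ⊓ centralizer ({v} : Set X) : Subgroup X) ^ 2 := by
  have hc : ∀ a ∈ F, ∀ b ∈ F, a * b = b * a := fun a ha b hb =>
    Cfsg.Agent.Lib.Nilp.isMulCommutative_iff_forall.mp hF.1 a ha b hb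
  have hvv : ∀ f : X, v * (v * f * v⁻¹) * v⁻¹ = f := fun f => by
    calc v * (v * f * v⁻¹) * v⁻¹ = (v * v) * f * (v * v)⁻¹ := by group
      _ = f := by rw [hv]; group
  let φ : F →* (F ⊓ centralizer ({v} : Set X) : Subgroup X) :=
    { toFun := fun f => ⟨f * (v * f * v⁻¹), mem_inf.mpr ⟨mul_mem f.2 (hn f f.2), by
        rw [mem_centralizer_singleton_iff]
        have h1 : v * (f * (v * f * v⁻¹)) * v⁻¹ = f * (v * f * v⁻¹) := by
          calc v * (f * (v * f * v⁻¹)) * v⁻¹ = (v * f * v⁻¹) * (v * (v * f * v⁻¹) * v⁻¹) := by group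
            _ = (v * f * v⁻¹) * f := by rw [hvv]
            _ = f * (v * f * v⁻¹) := hc _ (hn f f.2) _ f.2
        calc f * (v * f * v⁻¹) * v = (v * (f * (v * f * v⁻¹)) * v⁻¹) * v := by rw [h1]
          _ = v * (f * (v * f * v⁻¹)) := by group⟩⟩
      map_one' := by
        apply Subtype.ext
        simp
      map_mul' := fun a b => by
        apply Subtype.ext
        change (a * b : X) * (v * (a * b) * v⁻¹) = (a * (v * a * v⁻¹)) * (b * (v * b * v⁻¹))
        have h1 := hc b b.2 (v * a * v⁻¹) (hn a a.2)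
        calc (a * b : X) * (v * (a * b) * v⁻¹) = a * (b * (v * a * v⁻¹)) * (v * b * v⁻¹) := by group
          _ = (a * (v * a * v⁻¹)) * (b * (v * b * v⁻¹)) := by rw [h1]; group }
  have hker : Nat.card φ.ker ≤ Nat.card (F ⊓ centralizer ({v} : Set X) : Subgroup X) := by
    refine Nat.card_le_card_of_injective (fun k : φ.ker => (⟨(k : F), mem_inf.mpr ⟨(k : F).2, ?_⟩⟩ :
      (F ⊓ centralizer ({v} : Set X) : Subgroup X))) ?_
    · have h1 : ((k : F) : X) * (v * k * v⁻¹) = 1 := congrArg Subtype.val (MonoidHom.mem_ker.mp k.2)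
      have h2 : ((k : F) : X) * k = 1 := by rw [← pow_two]; exact hF.2 k (k : F).2
      rw [mem_centralizer_singleton_iff]
      have h3 : v * ((k : F) : X) * v⁻¹ = k := mul_left_cancel (h1.trans h2.symm)
      calc ((k : F) : X) * v = (v * k * v⁻¹) * v := by rw [h3]
        _ = v * k := by group
    · intro a b hab
      apply Subtype.ext
      apply Subtype.ext
      exact congrArg (fun x : (F ⊓ centralizer ({v} : Set X) : Subgroup X) => (x : X)) hab
  have h1 := Subgroup.card_mul_index φ.ker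
  rw [index_ker] at h1
  rw [← h1, pow_two]
  exact Nat.mul_le_mul hker (Subgroup.card_le_card_group _)

/-- subgroups of order eight -/
theorem exists_eight [Finite X] {F H : Subgroup X} (hF : Cfsg.IsElementaryAbelian 2 F) (h8 : 8 ≤ Nat.card F)
    (hH : H ≤ F) {n : ℕ} (hn : Nat.card H = 2 ^ n) (hn3 : n ≤ 3) :
    ∃ K : Subgroup X, H ≤ K ∧ K ≤ F ∧ Cfsg.IsElementaryAbelian 2 K ∧ Nat.card K = 8 := by
  haveI : Fact (Nat.Prime 2) := ⟨Nat.prime_two⟩
  have hp : IsPGroup 2 F := fun a => ⟨1, Subtype.ext (by simpa using hF.2 a a.2)⟩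
  obtain ⟨m, hm⟩ := IsPGroup.iff_card.mp hp
  have hm3 : 3 ≤ m := by
    rw [hm] at h8
    have : 2 ^ 3 ≤ 2 ^ m := h8
    exact (Nat.pow_le_pow_iff_right (by norm_num)).mp this
  have h1 : Nat.card (H.subgroupOf F) = 2 ^ n := by
    rw [← hn]; exact Nat.card_congr (subgroupOfEquivOfLe hH).toEquiv
  obtain ⟨K, hK1, hK2⟩ := Sylow.exists_subgroup_card_pow_prime_le (p := 2) (m := 3) (by rw [hm]; exact pow_dvd_pow 2 hm3)
    (H.subgroupOf F) h1 hn3
  refine ⟨K.map F.subtype, ?_, map_subtype_le K, elem_of_le (map_subtype_le K) hF, ?_⟩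
  · intro x hx
    exact ⟨⟨x, hH hx⟩, hK2 (mem_subgroupOf.mpr hx), rfl⟩
  · rw [Nat.card_congr (K.equivMapOfInjective _ (subtype_injective _)).symm.toEquiv, hK1]
    rfl

/-- adjacency -/
def R (C D : Subgroup X) : Prop :=
  Cfsg.IsElementaryAbelian 2 C ∧ Nat.card C = 8 ∧ Cfsg.IsElementaryAbelian 2 D ∧ Nat.card D = 8 ∧ ⁅C, D⁆ = ⊥

theorem R.symm' {C D : Subgroup X} (h : R C D) : R D C :=
  ⟨h.2.2.1, h.2.2.2.1, h.1, h.2.1, by rw [commutator_comm]; exact h.2.2.2.2⟩

theorem R_of {C D : Subgroup X} (h1 : Cfsg.IsElementaryAbelian 2 C) (h2 : Nat.card C = 8)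
    (h3 : Cfsg.IsElementaryAbelian 2 D) (h4 : Nat.card D = 8) (h : C ≤ centralizer (D : Set X)) : R C D :=
  ⟨h1, h2, h3, h4, commutator_eq_bot_iff_le_centralizer.mpr h⟩

theorem to_E [Finite X] (hX : IsPGroup 2 X) (E : Subgroup X) [hEn : E.Normal] (hE : Cfsg.IsElementaryAbelian 2 E)
    (hE32 : 32 ≤ Nat.card E) (A : Subgroup X) (hA : Cfsg.IsElementaryAbelian 2 A) (hA8 : Nat.card A = 8) :
    ∃ B : Subgroup X, B ≤ E ∧ Cfsg.IsElementaryAbelian 2 B ∧ Nat.card B = 8 ∧ Relation.ReflTransGen R A B := by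
  haveI : Fact (Nat.Prime 2) := ⟨Nat.prime_two⟩
  haveI : Group.IsNilpotent X := hX.isNilpotent
  have hEb : E ≠ ⊥ := by
    rintro rfl
    rw [card_bot] at hE32
    norm_num at hE32
  have hEZ := Cfsg.Agent.Lib.Nilp.normal_inf_center_ne_bot E hEb
  obtain ⟨⟨e, heEZ⟩, he1'⟩ := Subgroup.ne_bot_iff_exists_ne_one.mp hEZ
  have he1 : e ≠ 1 := fun h => he1' (Subtype.ext h)
  obtain ⟨heE, heZ⟩ := mem_inf.mp heEZ
  have he2 : e ^ 2 = 1 := hE.2 e heE
  have heo : orderOf e = 2 := orderOf_eq_prime he2 he1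
  have hec : ∀ B : Subgroup X, zpowers e ≤ centralizer (B : Set X) := by
    intro B
    rw [zpowers_le, mem_centralizer_iff]
    intro b _
    exact mem_center_iff.mp heZ b
  -- main step for groups containing `e`
  have main : ∀ A : Subgroup X, Cfsg.IsElementaryAbelian 2 A → Nat.card A = 8 → e ∈ A →
      ∃ B : Subgroup X, B ≤ E ∧ Cfsg.IsElementaryAbelian 2 B ∧ Nat.card B = 8 ∧ Relation.ReflTransGen R A B := by
    intro A hA hA8 heA
    by_cases hAE : A ≤ E
    · exact ⟨A, hAE, hA, hA8, Relation.ReflTransGen.refl⟩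
    obtain ⟨v, hvA, hvE⟩ := SetLike.not_le_iff_exists.mp hAE
    have hv2 : v ^ 2 = 1 := hA.2 v hvA
    have hvv : v * v = 1 := by rw [← pow_two]; exact hv2
    have hv1 : v ≠ 1 := fun h => hvE (h ▸ one_mem _)
    have hvo : orderOf v = 2 := orderOf_eq_prime hv2 hv1
    have hcA : ∀ a ∈ A, ∀ b ∈ A, a * b = b * a := fun a ha b hb =>
      Cfsg.Agent.Lib.Nilp.isMulCommutative_iff_forall.mp hA.1 a ha b hb
    -- the group `⟨v, e⟩`
    have hH : Nat.card (zpowers v ⊔ zpowers e : Subgroup X) = 4 := by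
      rw [Cfsg.Agent.Lib.Basic.card_sup_of_inf_eq_bot, Nat.card_zpowers, Nat.card_zpowers, hvo, heo]
      · exact (hec _).trans (centralizer_le_normalizer _)
      · rw [eq_bot_iff]
        intro x hx
        obtain ⟨hx1, hx2⟩ := mem_inf.mp hx
        have hxE : x ∈ E := (zpowers_le.mpr heE) hx2
        obtain ⟨n, rfl⟩ := mem_zpowers_iff.mp hx1
        rcases Int.even_or_odd' n with ⟨m, hm | hm⟩
        · rw [hm, zpow_mul, zpow_ofNat, hv2, one_zpow, mem_bot]
        · rw [hm, zpow_add, zpow_mul, zpow_ofNat, hv2, one_zpow, one_mul, zpow_one] at hxE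
          exact absurd hxE hvE
    have hHA : (zpowers v ⊔ zpowers e : Subgroup X) ≤ A := sup_le (zpowers_le.mpr hvA) (zpowers_le.mpr heA)
    have hHne : ¬ A ≤ (zpowers v ⊔ zpowers e : Subgroup X) := by
      intro h
      have := Nat.card_le_card_of_injective _ (inclusion_injective h)
      rw [hH, hA8] at this
      norm_num at this
    obtain ⟨w, hwA, hwH⟩ := SetLike.not_le_iff_exists.mp hHne
    have hw2 : w ^ 2 = 1 := hA.2 w hwA
    have hww : w * w = 1 := by rw [← pow_two]; exact hw2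
    have hAeq : (zpowers v ⊔ zpowers e) ⊔ zpowers w = A := by
      have h1 : (zpowers v ⊔ zpowers e) ⊔ zpowers w ≤ A := sup_le hHA (zpowers_le.mpr hwA)
      refine eq_of_le_of_card_ge h1 ?_
      have h2 : (zpowers v ⊔ zpowers e : Subgroup X) < (zpowers v ⊔ zpowers e) ⊔ zpowers w :=
        lt_of_le_of_ne le_sup_left (fun h => hwH (by rw [h]; exact mem_sup_right (mem_zpowers w)))
      have h3 := Cfsg.Agent.Lib.Basic.card_lt_card_of_lt h2
      have h4 := card_dvd_of_le h1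
      rw [hA8] at h4 ⊢
      rw [hH] at h3
      have h5 : Nat.card ((zpowers v ⊔ zpowers e) ⊔ zpowers w : Subgroup X) ≤ 8 := Nat.le_of_dvd (by norm_num) h4
      interval_cases h6 : Nat.card ((zpowers v ⊔ zpowers e) ⊔ zpowers w : Subgroup X) <;> omega
    set E1 : Subgroup X := E ⊓ centralizer ({v} : Set X) with hE1
    set D : Subgroup X := E1 ⊓ centralizer ({w} : Set X) with hD
    have hE1e : Cfsg.IsElementaryAbelian 2 E1 := elem_of_le inf_le_left hE
    have hDe : Cfsg.IsElementaryAbelian 2 D := elem_of_le inf_le_left hE1e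
    have c1 : Nat.card E ≤ Nat.card E1 ^ 2 := card_le_sq hE hvv (fun f hf => hEn.conj_mem f hf v)
    have c2 : Nat.card E1 ≤ Nat.card D ^ 2 := by
      refine card_le_sq hE1e hww (fun f hf => mem_inf.mpr ⟨hEn.conj_mem f (mem_inf.mp hf).1 w, ?_⟩)
      have h1 := mem_centralizer_singleton_iff.mp (mem_inf.mp hf).2
      have h2 := hcA v hvA w hwA
      rw [mem_centralizer_singleton_iff]
      have h3 : w⁻¹ * v = v * w⁻¹ := by
        calc w⁻¹ * v = w⁻¹ * (v * w) * w⁻¹ := by group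
          _ = v * w⁻¹ := by rw [h2]; group
      calc w * f * w⁻¹ * v = w * f * (w⁻¹ * v) := by group
        _ = w * (f * v) * w⁻¹ := by rw [h3]; group
        _ = (w * v) * f * w⁻¹ := by rw [h1]; group
        _ = v * (w * f * w⁻¹) := by rw [← h2]; group
    have hpE1 : ∃ k : ℕ, Nat.card E1 = 2 ^ k := IsPGroup.iff_card.mp (hX.to_subgroup E1)
    have hpD : ∃ k : ℕ, Nat.card D = 2 ^ k := IsPGroup.iff_card.mp (hX.to_subgroup D)
    obtain ⟨k1, hk1⟩ := hpE1
    obtain ⟨k2, hk2⟩ := hpD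
    have hk1' : 3 ≤ k1 := by
      by_contra hcon
      have : Nat.card E1 ≤ 2 ^ 2 := by rw [hk1]; exact Nat.pow_le_pow_right (by norm_num) (by omega)
      have : Nat.card E1 ^ 2 ≤ (2 ^ 2) ^ 2 := Nat.pow_le_pow_left this 2
      norm_num at this
      omega
    have hE18 : 8 ≤ Nat.card E1 := by
      rw [hk1]; exact (show 8 = 2 ^ 3 by norm_num) ▸ Nat.pow_le_pow_right (by norm_num) hk1'
    have hk2' : 2 ≤ k2 := by
      by_contra hcon
      have : Nat.card D ≤ 2 ^ 1 := by rw [hk2]; exact Nat.pow_le_pow_right (by norm_num) (by omega)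
      have : Nat.card D ^ 2 ≤ (2 ^ 1) ^ 2 := Nat.pow_le_pow_left this 2
      norm_num at this
      omega
    have hD4 : 4 ≤ Nat.card D := by
      rw [hk2]; exact (show 4 = 2 ^ 2 by norm_num) ▸ Nat.pow_le_pow_right (by norm_num) hk2'
    have hDE : D ≤ E := inf_le_left.trans inf_le_left
    have hDv : zpowers v ≤ centralizer (D : Set X) := by
      rw [zpowers_le, mem_centralizer_iff]
      intro d hd
      exact mem_centralizer_singleton_iff.mp (mem_inf.mp (mem_inf.mp hd).1).2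
    have hF3 : Cfsg.IsElementaryAbelian 2 (D ⊔ zpowers v) :=
      elem_sup hDe (elem_zpowers hv2) (le_centralizer_iff.mp hDv)
    have hF3c : 8 ≤ Nat.card (D ⊔ zpowers v : Subgroup X) := by
      rw [Cfsg.Agent.Lib.Basic.card_sup_of_inf_eq_bot, Nat.card_zpowers, hvo]
      · omega
      · exact hDv.trans (centralizer_le_normalizer _)
      · rw [eq_bot_iff]
        intro x hx
        obtain ⟨hx2, hx1⟩ := mem_inf.mp hx
        have hxE : x ∈ E := hDE hx2
        obtain ⟨n, rfl⟩ := mem_zpowers_iff.mp hx1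
        rcases Int.even_or_odd' n with ⟨m, hm | hm⟩
        · rw [hm, zpow_mul, zpow_ofNat, hv2, one_zpow, mem_bot]
        · rw [hm, zpow_add, zpow_mul, zpow_ofNat, hv2, one_zpow, one_mul, zpow_one] at hxE
          exact absurd hxE hvE
    obtain ⟨A3, _, hA3F, hA3, hA38⟩ := exists_eight hF3 hF3c (bot_le : (⊥ : Subgroup X) ≤ _) (n := 0) (by rw [card_bot]; rfl)
      (by norm_num)
    obtain ⟨A4, _, hA4F, hA4, hA48⟩ := exists_eight hE1e hE18 (bot_le : (⊥ : Subgroup X) ≤ _) (n := 0) (by rw [card_bot]; rfl)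
      (by norm_num)
    refine ⟨A4, hA4F.trans inf_le_left, hA4, hA48, ?_⟩
    have r1 : R A A3 := by
      refine R_of hA hA8 hA3 hA38 ?_
      rw [le_centralizer_iff]
      refine hA3F.trans (sup_le ?_ ?_)
      · rw [← hAeq, le_centralizer_iff]
        refine sup_le (sup_le hDv (hec D)) ?_
        rw [zpowers_le, mem_centralizer_iff]
        intro d hd
        exact mem_centralizer_singleton_iff.mp (mem_inf.mp hd).2
      · exact (zpowers_le.mpr hvA).trans (elem_comm hA)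
    have r2 : R A3 A4 := by
      refine R_of hA3 hA38 hA4 hA48 ?_
      refine hA3F.trans (sup_le ?_ ?_)
      · exact (hDE.trans (elem_comm hE)).trans (centralizer_le (hA4F.trans inf_le_left))
      · rw [zpowers_le, mem_centralizer_iff]
        intro d hd
        exact mem_centralizer_singleton_iff.mp (mem_inf.mp (hA4F hd)).2
    exact (Relation.ReflTransGen.single r1).tail r2
  by_cases heA : e ∈ A
  · exact main A hA hA8 heA
  · have hsup : Cfsg.IsElementaryAbelian 2 (A ⊔ zpowers e) :=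
      elem_sup hA (elem_zpowers he2) (le_centralizer_iff.mp (hec A))
    obtain ⟨A1, hA1e, hA1F, hA1, hA18⟩ := exists_eight (H := zpowers e) hsup (by
        rw [← hA8]; exact Nat.card_le_card_of_injective _ (inclusion_injective le_sup_left)) le_sup_right (n := 1)
        (by rw [Nat.card_zpowers, heo, pow_one]) (by norm_num)
    obtain ⟨B, hB1, hB2, hB3, hB4⟩ := main A1 hA1 hA18 (hA1e (mem_zpowers e))
    refine ⟨B, hB1, hB2, hB3, Relation.ReflTransGen.head (b := A1) ?_ hB4⟩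
    refine R_of hA hA8 hA1 hA18 ?_
    rw [le_centralizer_iff]
    exact hA1F.trans (sup_le (elem_comm hA) (hec A))

/-- S1785 (a) -/
theorem connected [Finite X] (hX : IsPGroup 2 X) (E : Subgroup X) [hEn : E.Normal] (hE : Cfsg.IsElementaryAbelian 2 E)
    (hE32 : 32 ≤ Nat.card E) (A B : Subgroup X) (hA : Cfsg.IsElementaryAbelian 2 A) (hA8 : Nat.card A = 8)
    (hB : Cfsg.IsElementaryAbelian 2 B) (hB8 : Nat.card B = 8) : Relation.ReflTransGen R A B := by
  obtain ⟨A', hA1, hA2, hA3, hA4⟩ := to_E hX E hE hE32 A hA hA8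
  obtain ⟨B', hB1, hB2, hB3, hB4⟩ := to_E hX E hE hE32 B hB hB8
  haveI hsymm : Std.Symm (R (X := X)) := ⟨fun _ _ h => h.symm'⟩
  have hB5 : Relation.ReflTransGen R B' B := Relation.ReflTransGen.symmetric.symm _ _ hB4
  have hmid : R A' B' := R_of hA2 hA3 hB2 hB3 ((hA1.trans (elem_comm hE)).trans (centralizer_le hB1))
  exact (hA4.tail hmid).trans hB5

/-- S1785 (b) -/
theorem exists_over [Finite X] (hX : IsPGroup 2 X) (E : Subgroup X) [hEn : E.Normal] (hE : Cfsg.IsElementaryAbelian 2 E)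
    (hE32 : 32 ≤ Nat.card E) (V : Subgroup X) (hV : Cfsg.IsElementaryAbelian 2 V) (hV4 : Nat.card V = 4) :
    ∃ A : Subgroup X, V ≤ A ∧ Cfsg.IsElementaryAbelian 2 A ∧ Nat.card A = 8 := by
  haveI : Fact (Nat.Prime 2) := ⟨Nat.prime_two⟩
  have hcV : ∀ a ∈ V, ∀ b ∈ V, a * b = b * a := fun a ha b hb =>
    Cfsg.Agent.Lib.Nilp.isMulCommutative_iff_forall.mp hV.1 a ha b hb
  have hVb : V ≠ ⊥ := by rintro rfl; rw [card_bot] at hV4; norm_num at hV4
  obtain ⟨⟨v, hvV⟩, hv1'⟩ := Subgroup.ne_bot_iff_exists_ne_one.mp hVb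
  have hv1 : v ≠ 1 := fun h => hv1' (Subtype.ext h)
  have hv2 : v ^ 2 = 1 := hV.2 v hvV
  have hvv : v * v = 1 := by rw [← pow_two]; exact hv2
  have hvo : orderOf v = 2 := orderOf_eq_prime hv2 hv1
  have hne : ¬ V ≤ zpowers v := by
    intro h
    have := Nat.card_le_card_of_injective _ (inclusion_injective h)
    rw [hV4, Nat.card_zpowers, hvo] at this
    norm_num at this
  obtain ⟨w, hwV, hwv⟩ := SetLike.not_le_iff_exists.mp hne
  have hww : w * w = 1 := by rw [← pow_two]; exact hV.2 w hwV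
  have hVeq : zpowers v ⊔ zpowers w = V := by
    have h1 : zpowers v ⊔ zpowers w ≤ V := sup_le (zpowers_le.mpr hvV) (zpowers_le.mpr hwV)
    refine eq_of_le_of_card_ge h1 ?_
    have h2 : zpowers v < zpowers v ⊔ zpowers w :=
      lt_of_le_of_ne le_sup_left (fun h => hwv (by rw [h]; exact mem_sup_right (mem_zpowers w)))
    have h3 := Cfsg.Agent.Lib.Basic.card_lt_card_of_lt h2
    have h4 := card_dvd_of_le h1
    rw [hV4] at h4 ⊢
    rw [Nat.card_zpowers, hvo] at h3
    have h5 : Nat.card (zpowers v ⊔ zpowers w : Subgroup X) ≤ 4 := Nat.le_of_dvd (by norm_num) h4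
    interval_cases h6 : Nat.card (zpowers v ⊔ zpowers w : Subgroup X) <;> omega
  set E1 : Subgroup X := E ⊓ centralizer ({v} : Set X) with hE1
  set D : Subgroup X := E1 ⊓ centralizer ({w} : Set X) with hD
  have hE1e : Cfsg.IsElementaryAbelian 2 E1 := elem_of_le inf_le_left hE
  have hDe : Cfsg.IsElementaryAbelian 2 D := elem_of_le inf_le_left hE1e
  have c1 : Nat.card E ≤ Nat.card E1 ^ 2 := card_le_sq hE hvv (fun f hf => hEn.conj_mem f hf v)
  have c2 : Nat.card E1 ≤ Nat.card D ^ 2 := by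
    refine card_le_sq hE1e hww (fun f hf => mem_inf.mpr ⟨hEn.conj_mem f (mem_inf.mp hf).1 w, ?_⟩)
    have h1 := mem_centralizer_singleton_iff.mp (mem_inf.mp hf).2
    have h2 := hcV v hvV w hwV
    rw [mem_centralizer_singleton_iff]
    have h3 : w⁻¹ * v = v * w⁻¹ := by
      calc w⁻¹ * v = w⁻¹ * (v * w) * w⁻¹ := by group
        _ = v * w⁻¹ := by rw [h2]; group
    calc w * f * w⁻¹ * v = w * f * (w⁻¹ * v) := by group
      _ = w * (f * v) * w⁻¹ := by rw [h3]; group
      _ = (w * v) * f * w⁻¹ := by rw [h1]; group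
      _ = v * (w * f * w⁻¹) := by rw [← h2]; group
  obtain ⟨k1, hk1⟩ := IsPGroup.iff_card.mp (hX.to_subgroup E1)
  obtain ⟨k2, hk2⟩ := IsPGroup.iff_card.mp (hX.to_subgroup D)
  have hk1' : 3 ≤ k1 := by
    by_contra hcon
    have : Nat.card E1 ≤ 2 ^ 2 := by rw [hk1]; exact Nat.pow_le_pow_right (by norm_num) (by omega)
    have : Nat.card E1 ^ 2 ≤ (2 ^ 2) ^ 2 := Nat.pow_le_pow_left this 2
    norm_num at this
    omega
  have hE18 : 8 ≤ Nat.card E1 := by
    rw [hk1]; exact (show 8 = 2 ^ 3 by norm_num) ▸ Nat.pow_le_pow_right (by norm_num) hk1'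
  have hk2' : 2 ≤ k2 := by
    by_contra hcon
    have : Nat.card D ≤ 2 ^ 1 := by rw [hk2]; exact Nat.pow_le_pow_right (by norm_num) (by omega)
    have : Nat.card D ^ 2 ≤ (2 ^ 1) ^ 2 := Nat.pow_le_pow_left this 2
    norm_num at this
    omega
  have hD4 : 4 ≤ Nat.card D := by
    rw [hk2]; exact (show 4 = 2 ^ 2 by norm_num) ▸ Nat.pow_le_pow_right (by norm_num) hk2'
  have hDE : D ≤ E := inf_le_left.trans inf_le_left
  have hVD : V ≤ centralizer (D : Set X) := by
    rw [← hVeq]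
    refine sup_le ?_ ?_
    · rw [zpowers_le, mem_centralizer_iff]
      intro d hd
      exact mem_centralizer_singleton_iff.mp (mem_inf.mp (mem_inf.mp hd).1).2
    · rw [zpowers_le, mem_centralizer_iff]
      intro d hd
      exact mem_centralizer_singleton_iff.mp (mem_inf.mp hd).2
  by_cases hDV : D ≤ V
  · have h1 : D = V := eq_of_le_of_card_ge hDV (by omega)
    obtain ⟨A, h2, _, h3, h4⟩ := exists_eight hE (by omega) (h1 ▸ hDE : V ≤ E) (n := 2) hV4 (by norm_num)
    exact ⟨A, h2, h3, h4⟩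
  · have hF := elem_sup hV hDe hVD
    have hlt : V < V ⊔ D := lt_of_le_of_ne le_sup_left (fun h => hDV (by rw [h]; exact le_sup_right))
    have h3 := Cfsg.Agent.Lib.Basic.card_lt_card_of_lt hlt
    obtain ⟨k, hk⟩ := IsPGroup.iff_card.mp (hX.to_subgroup (V ⊔ D))
    have h8 : 8 ≤ Nat.card (V ⊔ D : Subgroup X) := by
      have hk3 : 3 ≤ k := by
        by_contra hcon
        have : Nat.card (V ⊔ D : Subgroup X) ≤ 2 ^ 2 := by
          rw [hk]; exact Nat.pow_le_pow_right (by norm_num) (by omega)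
        omega
      rw [hk]; exact (show 8 = 2 ^ 3 by norm_num) ▸ Nat.pow_le_pow_right (by norm_num) hk3
    obtain ⟨A, h4, _, h5, h6⟩ := exists_eight hF h8 le_sup_left (n := 2) hV4 (by norm_num)
    exact ⟨A, h4, h5, h6⟩

end Cfsg.Agent.Lib.TwoChain
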