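import Mathlib

/-! A subgroup of index `n` in a 2-transitive group of degree `n` has at most two orbits. -/

set_option autoImplicit false

namespace Cfsg.Agent.Lib.TwoOrb

open MulAction Matrix

variable {G Ω : Type*} [Group G] [Finite G] [MulAction G Ω] [Fintype Ω] [DecidableEq Ω]

/-- the colour of a point with respect to a coset -/
def col (H : Subgroup G) (q : G ⧸ H) (x : Ω) : orbitRel.Quotient H Ω :=
  Quotient.liftOn' q (fun g => (Quotient.mk'' (g⁻¹ • x) : orbitRel.Quotient H Ω)) (by
    intro a b hab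
    rw [QuotientGroup.leftRel_apply] at hab
    apply Quotient.sound'
    rw [orbitRel_apply]
    refine ⟨⟨a⁻¹ * b, hab⟩, ?_⟩
    change (a⁻¹ * b) • b⁻¹ • x = a⁻¹ • x
    rw [← mul_smul]; congr 1; group)

theorem col_mk (H : Subgroup G) (g : G) (x : Ω) : col H (g : G ⧸ H) x = Quotient.mk'' (g⁻¹ • x) := rfl

theorem col_smul (H : Subgroup G) (g : G) (q : G ⧸ H) (x : Ω) : col H (g • q) (g • x) = col H q x := by
  induction q using Quotient.inductionOn' with
  | _ a =>
    change col H ((g * a : G) : G ⧸ H) (g • x) = col H (a : G ⧸ H) x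
    rw [col_mk, col_mk, _root_.mul_inv_rev, mul_smul, inv_smul_smul]

theorem main (h2 : IsMultiplyPretransitive G Ω 2) (H : Subgroup G) (hidx : H.index = Nat.card Ω)
    (c1 c2 c3 : orbitRel.Quotient H Ω) (h12 : c1 ≠ c2) (h13 : c1 ≠ c3) (h23 : c2 ≠ c3) : False := by
  classical
  haveI : Fintype (G ⧸ H) := Fintype.ofFinite _
  -- 2-transitivity
  have htr : ∀ x y x' y' : Ω, x ≠ y → x' ≠ y' → ∃ g : G, g • x = x' ∧ g • y = y' := by
    intro x y x' y' hxy hxy'
    exact (MulAction.is_two_pretransitive_iff.1 h2) hxy hxy'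
  have hone : ∀ x : Ω, col H ((1 : G) : G ⧸ H) x = Quotient.mk'' x := by
    intro x
    rw [col_mk, inv_one, one_smul]
  let I : orbitRel.Quotient H Ω → G ⧸ H → Ω → ℚ := fun c q x => if col H q x = c then 1 else 0
  have hI0 : ∀ c q x, 0 ≤ I c q x := by intro c q x; simp only [I]; split_ifs <;> norm_num
  have hI1 : ∀ c q x, I c q x ≤ 1 := by intro c q x; simp only [I]; split_ifs <;> norm_num
  have hII : ∀ c q x, I c q x * I c q x = I c q x := by intro c q x; simp only [I]; split_ifs <;> norm_num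
  -- counting functions
  let cnt : orbitRel.Quotient H Ω → orbitRel.Quotient H Ω → Ω → Ω → ℚ := fun c d x y =>
    ∑ q : G ⧸ H, I c q x * I d q y
  have hcnt : ∀ c d x y (g : G), cnt c d (g • x) (g • y) = cnt c d x y := by
    intro c d x y g
    refine (Fintype.sum_equiv (MulAction.toPerm g) _ _ ?_).symm
    intro q
    simp only [I]
    rw [MulAction.toPerm_apply, col_smul, col_smul]
  obtain ⟨x1, hx1⟩ : ∃ x : Ω, Quotient.mk'' x = c1 := Quotient.exists_rep c1
  obtain ⟨x2, hx2⟩ : ∃ x : Ω, Quotient.mk'' x = c2 := Quotient.exists_rep c2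
  obtain ⟨x3, hx3⟩ : ∃ x : Ω, Quotient.mk'' x = c3 := Quotient.exists_rep c3
  have hx12 : x1 ≠ x2 := by rintro rfl; exact h12 (hx1.symm.trans hx2)
  have hex : ∀ x : Ω, ∃ y, x ≠ y := by
    intro x
    by_cases h : x = x1
    · exact ⟨x2, by rw [h]; exact hx12⟩
    · exact ⟨x1, h⟩
  set k := cnt c1 c1 x1 x1 with hk
  set l := cnt c1 c1 x1 x2 with hl
  set mu := cnt c1 c2 x1 x2 with hmu
  have hdiag : ∀ c d x, cnt c d x x = cnt c d x1 x1 := by
    intro c d x
    obtain ⟨y, hy⟩ := hex x
    obtain ⟨g, hg, _⟩ := htr x1 x2 x y hx12 hy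
    rw [← hg, hcnt]
  have hoff : ∀ c d x y, x ≠ y → cnt c d x y = cnt c d x1 x2 := by
    intro c d x y hxy
    obtain ⟨g, hg, hg'⟩ := htr x1 x2 x y hx12 hxy
    rw [← hg, ← hg', hcnt]
  have h0l : 0 ≤ l := Finset.sum_nonneg (fun q _ => mul_nonneg (hI0 _ _ _) (hI0 _ _ _))
  have hlk : l < k := by
    apply Finset.sum_lt_sum
    · intro q _
      rw [hII]
      have h3 := hI0 c1 q x1
      have h4 := hI1 c1 q x2
      nlinarith
    · refine ⟨((1 : G) : G ⧸ H), Finset.mem_univ _, ?_⟩
      have e1 : I c1 ((1 : G) : G ⧸ H) x1 = 1 := by simp only [I]; rw [hone, if_pos hx1]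
      have e2 : I c1 ((1 : G) : G ⧸ H) x2 = 0 := by
        simp only [I]; rw [hone, hx2, if_neg h12.symm]
      rw [e1, e2]; norm_num
  have hzero : cnt c1 c2 x1 x1 = 0 := by
    apply Finset.sum_eq_zero
    intro q _
    simp only [I]
    by_cases h : col H q x1 = c1
    · rw [if_pos h, if_neg (by rw [h]; exact h12), mul_zero]
    · rw [if_neg h, zero_mul]
  have hsumI : ∀ x, ∑ q : G ⧸ H, I c1 q x = k := by
    intro x
    have e1 : cnt c1 c1 x x = ∑ q : G ⧸ H, I c1 q x := Finset.sum_congr rfl (fun q _ => hII _ _ _)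
    rw [← e1, hdiag]
  -- the matrix
  let A : Matrix (G ⧸ H) Ω ℚ := Matrix.of (fun q x => I c1 q x)
  have hM : ∀ v : Ω → ℚ, (∀ x, ∑ y, cnt c1 c1 x y * v y = 0) → v = 0 := by
    intro v hv
    have e1 : ∀ x, l * (∑ y, v y) + (k - l) * v x = 0 := by
      intro x
      rw [← hv x, Finset.mul_sum]
      have e2 : ∀ y, cnt c1 c1 x y * v y = l * v y + (if x = y then (k - l) * v y else 0) := by
        intro y
        by_cases h : x = y
        · subst h
          rw [if_pos rfl, hdiag]; ring
        · rw [if_neg h, hoff _ _ _ _ h]; ring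
      rw [Finset.sum_congr rfl (fun y _ => e2 y), Finset.sum_add_distrib, Finset.sum_ite_eq]
      simp
    have e3 : (∑ y, v y) = 0 := by
      have e4 : ∑ x, (l * (∑ y, v y) + (k - l) * v x) = 0 := Finset.sum_eq_zero (fun x _ => e1 x)
      rw [Finset.sum_add_distrib, Finset.sum_const, nsmul_eq_mul, ← Finset.mul_sum] at e4
      have e5 : ((Finset.univ : Finset Ω).card * l + (k - l)) * (∑ y, v y) = 0 := by linear_combination e4
      rcases mul_eq_zero.1 e5 with h | h
      · have : (0 : ℚ) ≤ (Finset.univ : Finset Ω).card * l := mul_nonneg (Nat.cast_nonneg _) h0l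
        linarith
      · exact h
    funext x
    have e6 := e1 x
    rw [e3, mul_zero, zero_add] at e6
    rcases mul_eq_zero.1 e6 with h | h
    · linarith
    · exact h
  have hinj : Function.Injective (Matrix.mulVecLin A) := by
    rw [← LinearMap.ker_eq_bot, LinearMap.ker_eq_bot']
    intro v hv
    apply hM
    intro x
    have e1 : ∀ q, ∑ y, I c1 q y * v y = 0 := fun q => congrFun hv q
    calc ∑ y, cnt c1 c1 x y * v y = ∑ y, ∑ q, I c1 q x * I c1 q y * v y := by
          apply Finset.sum_congr rfl; intro y _; rw [Finset.sum_mul]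
      _ = ∑ q, ∑ y, I c1 q x * I c1 q y * v y := Finset.sum_comm
      _ = ∑ q, I c1 q x * ∑ y, I c1 q y * v y := by
          apply Finset.sum_congr rfl; intro q _; rw [Finset.mul_sum]
          apply Finset.sum_congr rfl; intro y _; ring
      _ = 0 := by simp [e1]
  have hcard : Module.finrank ℚ (Ω → ℚ) = Module.finrank ℚ (G ⧸ H → ℚ) := by
    rw [Module.finrank_fintype_fun_eq_card, Module.finrank_fintype_fun_eq_card, ← Nat.card_eq_fintype_card, ← Nat.card_eq_fintype_card,
      ← hidx]
    rfl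
  have hsurj : Function.Surjective (Matrix.mulVecLin A) :=
    (LinearMap.injective_iff_surjective_of_finrank_eq_finrank hcard).1 hinj
  -- injectivity of the transpose
  have hT : ∀ w : G ⧸ H → ℚ, (∀ x, ∑ q, I c1 q x * w q = 0) → w = 0 := by
    intro w hw
    obtain ⟨v, rfl⟩ := hsurj w
    have hv : v = 0 := by
      apply hM
      intro x
      calc ∑ y, cnt c1 c1 x y * v y = ∑ y, ∑ q, I c1 q x * I c1 q y * v y := by
            apply Finset.sum_congr rfl; intro y _; rw [Finset.sum_mul]
        _ = ∑ q, ∑ y, I c1 q x * I c1 q y * v y := Finset.sum_comm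
        _ = ∑ q, I c1 q x * ∑ y, I c1 q y * v y := by
            apply Finset.sum_congr rfl; intro q _; rw [Finset.mul_sum]
            apply Finset.sum_congr rfl; intro y _; ring
        _ = 0 := hw x
    rw [hv, map_zero]
  have hkpos : 0 < k := lt_of_le_of_lt h0l hlk
  -- the relation
  obtain ⟨r, hr⟩ : ∃ r, r = mu / (k - l) := ⟨_, rfl⟩
  have hne : k - l ≠ 0 := by linarith
  have hrm : r * (k - l) = mu := by rw [hr]; field_simp
  have hrel : ∀ y q, I c2 q y + r * (I c1 q y - 1) = 0 := by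
    intro y
    have h3 := hT (fun q => I c2 q y + r * (I c1 q y - 1)) (by
      intro x
      have e1 : ∑ q, I c1 q x * (I c2 q y + r * (I c1 q y - 1)) =
          cnt c1 c2 x y + r * (cnt c1 c1 x y - ∑ q, I c1 q x) := by
        simp only [cnt]
        rw [← Finset.sum_sub_distrib, Finset.mul_sum, ← Finset.sum_add_distrib]
        apply Finset.sum_congr rfl; intro q _; ring
      rw [hsumI x] at e1
      refine e1.trans ?_
      by_cases h : x = y
      · subst h
        rw [hdiag c1 c2, hdiag c1 c1, hzero]; ring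
      · rw [hoff c1 c2 _ _ h, hoff c1 c1 _ _ h]
        linear_combination -hrm)
    intro q
    exact congrFun h3 q
  have hmu0 : r = 0 := by
    have h3 := hrel x3 ((1 : G) : G ⧸ H)
    have e1 : I c1 ((1 : G) : G ⧸ H) x3 = 0 := by simp only [I]; rw [hone, hx3, if_neg h13.symm]
    have e2 : I c2 ((1 : G) : G ⧸ H) x3 = 0 := by simp only [I]; rw [hone, hx3, if_neg h23.symm]
    rw [e1, e2] at h3
    linarith
  have h3 := hrel x2 ((1 : G) : G ⧸ H)
  have e2 : I c2 ((1 : G) : G ⧸ H) x2 = 1 := by simp only [I]; rw [hone, if_pos hx2]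
  rw [hmu0, e2] at h3
  linarith

end Cfsg.Agent.Lib.TwoOrb
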