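import Cfsg.Agent.Lib.ZJ
import Cfsg.Agent.Lib.PStabZ
import Cfsg.Agent.Lib.PGrpB
import Cfsg.Agent.Lib.PPart

/-!
Glauberman's ZJ theorem for `Z(J(P))`, where `J(P)` is generated by the elementary abelian subgroups of largest order.
-/

set_option autoImplicit false
set_option linter.unusedSectionVars false
set_option linter.unusedVariables false

namespace Cfsg.Agent.Lib.ZJe

open Subgroup Cfsg.Agent.Lib Cfsg.Agent.Lib.Basic Cfsg.Agent.Lib.Cores Cfsg.Agent.Lib.Coprime
  Cfsg.Agent.Lib.QuadA Cfsg.Agent.Lib.QuadB Cfsg.Agent.Lib.GRep Cfsg.Agent.Lib.ZJ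

open scoped commutatorElement Pointwise

universe u v
variable {G : Type u} [Group G]

theorem normalizer_le_normalizer_centralizer (X : Subgroup G) :
    normalizer (X : Set G) ≤ normalizer ((centralizer (X : Set G) : Subgroup G) : Set G) := by
  have key : ∀ g : G, g ∈ normalizer (X : Set G) → ∀ y, y ∈ centralizer (X : Set G) → g * y * g⁻¹ ∈ centralizer (X : Set G) := by
    intro g hg y hy
    rw [mem_centralizer_iff]
    intro x hx
    have h1 : g⁻¹ * x * g ∈ X := by
      have := (mem_normalizer_iff.mp (inv_mem hg) x).mp hx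
      rwa [inv_inv] at this
    have h2 := mem_centralizer_iff.mp hy _ h1
    calc x * (g * y * g⁻¹) = g * ((g⁻¹ * x * g) * y) * g⁻¹ := by group
      _ = g * (y * (g⁻¹ * x * g)) * g⁻¹ := by rw [h2]
      _ = g * y * g⁻¹ * x := by group
  intro g hg
  rw [mem_normalizer_iff]
  intro y
  refine ⟨key g hg y, fun h => ?_⟩
  have := key g⁻¹ (inv_mem hg) _ h
  have e : g⁻¹ * (g * y * g⁻¹) * g⁻¹⁻¹ = y := by group
  rwa [e] at this

theorem ab_iff {p : ℕ} {A : Subgroup G} : Ab p A ↔ Cfsg.IsElementaryAbelian p A := ThompsonJ.ea_iff.symm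

theorem J_eq (p : ℕ) (X : Subgroup G) : Cfsg.thompsonSubgroupOf p X = sSup (Fam p X) := by
  rw [ThompsonJ.J_eq]
  congr 1
  ext A
  constructor
  · rintro ⟨h1, h2, h3⟩
    exact ⟨h1, ab_iff.mpr h2, fun B hB hBa => h3 B hB (ab_iff.mp hBa)⟩
  · rintro ⟨h1, h2, h3⟩
    exact ⟨h1, ab_iff.mp h2, fun B hB hBa => h3 B hB (ab_iff.mpr hBa)⟩

theorem le_J {p : ℕ} {X A : Subgroup G} (h : A ∈ Fam p X) : A ≤ Cfsg.thompsonSubgroupOf p X := by
  rw [J_eq]; exact le_sSup h

theorem J_mono [Finite G] {p : ℕ} {X Y A : Subgroup G} (hYX : Y ≤ X) (hA : A ∈ Fam p X) (hAY : A ≤ Y) :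
    Cfsg.thompsonSubgroupOf p Y ≤ Cfsg.thompsonSubgroupOf p X := by
  rw [J_eq, J_eq]
  exact sSup_le fun B hB => le_sSup ((fam_of_le hYX hA hAY).mp hB).1

theorem Zc_le (p : ℕ) (X : Subgroup G) : Cfsg.centerThompsonOf p X ≤ X :=
  inf_le_left.trans (ThompsonJ.J_le p X)

theorem Zc_comm (p : ℕ) (X : Subgroup G) : ∀ x ∈ Cfsg.centerThompsonOf p X, ∀ y ∈ Cfsg.centerThompsonOf p X, x * y = y * x :=
  QuadD.comm_inf_centralizer _

theorem normalizer_le_J [Finite G] (p : ℕ) (X : Subgroup G) :
    normalizer (X : Set G) ≤ normalizer (Cfsg.thompsonSubgroupOf p X : Set G) := by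
  intro g hg
  apply mem_normalizer_of_map
  rw [ThompsonJ.J_conj, map_conj_eq_of_mem hg]

theorem normalizer_J_le (p : ℕ) (X : Subgroup G) :
    normalizer (Cfsg.thompsonSubgroupOf p X : Set G) ≤ normalizer (Cfsg.centerThompsonOf p X : Set G) := by
  unfold Cfsg.centerThompsonOf
  exact le_normalizer_inf le_rfl (normalizer_le_normalizer_centralizer _)

theorem mem_of_cent [Finite G] {p : ℕ} {X A : Subgroup G} (hA : A ∈ Fam p X) {z : G} (hz : z ∈ X) (hzp : z ^ p = 1)
    (hc : z ∈ centralizer (A : Set G)) : z ∈ A := by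
  have hn : zpowers z ≤ normalizer (A : Set G) := by
    rw [zpowers_le]; exact centralizer_le_normalizer _ hc
  have hzc : ∀ n : ℤ, ∀ a ∈ A, Commute a (z ^ n) := fun n a ha =>
    (show Commute a z from mem_centralizer_iff.mp hc a ha).zpow_right n
  have hB : Ab p (A ⊔ zpowers z : Subgroup G) := by
    constructor
    · intro u hu v hv
      obtain ⟨a, ha, y, ⟨i, rfl⟩, rfl⟩ := (mem_sup_iff_left hn).mp hu
      obtain ⟨b, hb, w, ⟨j, rfl⟩, rfl⟩ := (mem_sup_iff_left hn).mp hv
      have h1 : Commute a b := hA.2.1.1 a ha b hb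
      have h2 : Commute (a * z ^ i) (b * z ^ j) :=
        (h1.mul_right (hzc j a ha)).mul_left (((hzc i b hb).symm).mul_right (Commute.zpow_zpow_self z i j))
      exact h2.eq
    · intro u hu
      obtain ⟨a, ha, y, ⟨i, rfl⟩, rfl⟩ := (mem_sup_iff_left hn).mp hu
      have h1 := (hzc i a ha).mul_pow p
      change (a * z ^ i) ^ p = 1
      rw [h1, hA.2.1.2 a ha, one_mul, ← zpow_natCast, ← zpow_mul, mul_comm, zpow_mul, zpow_natCast, hzp, one_zpow]
  have h1 := hA.2.2 _ (sup_le hA.1 (zpowers_le.mpr hz)) hB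
  have h2 : A = A ⊔ zpowers z := Subgroup.eq_of_le_of_card_ge le_sup_left h1
  rw [h2]
  exact mem_sup_right (mem_zpowers z)

/-- elements of a normal subgroup whose `p'`-elements centralize `V` -/
theorem mem_pCore_of_pprime [Finite G] {p : ℕ} [hp : Fact p.Prime] {C M : Subgroup G} [C.Normal] [hM : M.Normal]
    (h : ∀ y ∈ M, (orderOf y).Coprime p → y ∈ C) {a : G} (ha : a ∈ M) :
    (QuotientGroup.mk a : G ⧸ C) ∈ Cfsg.pCore p (G ⧸ C) := by
  have h1 : (M.map (QuotientGroup.mk' C)).Normal := hM.map _ (QuotientGroup.mk'_surjective _)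
  have h2 : IsPGroup p (M.map (QuotientGroup.mk' C)) := by
    rintro ⟨_, x, hx, rfl⟩
    obtain ⟨m, n, e1, ⟨a, ha⟩, hn⟩ := Cfsg.Agent.Lib.PPart.decomp p x
    refine ⟨a, Subtype.ext ?_⟩
    show (QuotientGroup.mk' _ x) ^ p ^ a = 1
    have h3 : QuotientGroup.mk' C (x ^ n) = 1 :=
      (QuotientGroup.eq_one_iff (x ^ n)).2 (h (x ^ n) (M.pow_mem hx n) hn)
    rw [e1, map_mul, h3, mul_one, ← map_pow, orderOf_dvd_iff_pow_eq_one.1 ha, map_one]
  exact Cfsg.Agent.Lib.Cores.le_pCore h1 h2 ⟨a, ha, rfl⟩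

/-- `p'`-elements centralizing the elements of order dividing `p` -/
theorem centralizes_of_omega [Finite G] {p : ℕ} [hp : Fact p.Prime] (hp2 : p ≠ 2) {B : Subgroup G} (hB : IsPGroup p B) {y : G}
    (hy : (orderOf y).Coprime p) (hyB : y ∈ normalizer (B : Set G)) (h : ∀ x ∈ B, x ^ p = 1 → x * y = y * x) :
    y ∈ centralizer (B : Set G) := by
  set φ : MulAut B := B.normalizerMonoidHom ⟨y, hyB⟩ with hφ
  have hφa : ∀ x : B, ((φ x : B) : G) = y * x * y⁻¹ := fun x => rfl
  have ho : (orderOf φ).Coprime p := by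
    have h1 : orderOf φ ∣ orderOf (⟨y, hyB⟩ : normalizer (B : Set G)) := orderOf_map_dvd _ _
    rw [← Subgroup.orderOf_coe] at h1
    exact Nat.Coprime.coprime_dvd_left h1 hy
  have h1 := Cfsg.Agent.Lib.PGrpB.aut_eq_one_of_omega hp2 hB ho (fun x hx => by
    apply Subtype.ext
    rw [hφa, ← h x x.2 (congrArg Subtype.val hx)]; group)
  rw [mem_centralizer_iff]
  intro x hx
  have h2 := congrArg (fun f : MulAut B => ((f ⟨x, hx⟩ : B) : G)) h1
  have h3 : y * x * y⁻¹ = x := h2
  rw [mul_inv_eq_iff_eq_mul] at h3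
  exact h3.symm

/-- `B ∩ Z(J(S))` is normal -/
theorem inf_normal [Finite G] {p : ℕ} [hp : Fact p.Prime] (hp2 : p ≠ 2) (S : Sylow p G)
    (hst : ∀ (P : Subgroup G) [P.Normal], IsPGroup p P → Cfsg.IsPStableOn p P) (n : ℕ) :
    ∀ B : Subgroup G, B.Normal → IsPGroup p B → Nat.card B ≤ n → (B ⊓ Cfsg.centerThompsonOf p (S : Subgroup G)).Normal := by
  induction n with
  | zero => intro B _ _ h; exact absurd h (by have : 0 < Nat.card B := Nat.card_pos; omega)
  | succ n ih =>
    intro B hBn hBp hcard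
    have he : p = 0 ∨ Odd p := Or.inr (hp.out.odd_of_ne_two hp2)
    set Z := Cfsg.centerThompsonOf p (S : Subgroup G) with hZ
    set X := B ⊓ Z with hX
    have hBS : B ≤ (S : Subgroup G) := (le_pCore hBn hBp).trans (pCore_le_sylow S)
    have hZS : Z ≤ (S : Subgroup G) := Zc_le p _
    have hSZ : (S : Subgroup G) ≤ normalizer (Z : Set G) := le_normalizer.trans ((normalizer_le_J p _).trans (normalizer_J_le p _))
    have hZc := Zc_comm p (S : Subgroup G)
    set B1 := normalClosure (X : Set G) with hB1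
    have hXB1 : X ≤ B1 := fun x hx => subset_normalClosure hx
    have hB1B : B1 ≤ B := normalClosure_le_normal (fun x hx => (mem_inf.mp hx).1)
    by_cases hlt : B1 < B
    · have h1 := ih B1 normalClosure_normal (hBp.to_le hB1B) (by have := card_lt_card_of_lt hlt; omega)
      have h2 : B1 ⊓ Z = X := le_antisymm (inf_le_inf hB1B le_rfl) (le_inf hXB1 inf_le_right)
      rwa [h2] at h1
    have hBeq : B1 = B := by
      by_contra hne; exact hlt (lt_of_le_of_ne hB1B hne)
    by_cases hB0 : B = ⊥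
    · rw [hX, hB0, bot_inf_eq]; infer_instance
    have hB'lt : ⁅B, B⁆ < B := PNilp.commutator_self_lt hBp hB0
    have hW := ih ⁅B, B⁆ inferInstance (hBp.to_le hB'lt.le) (by have := card_lt_card_of_lt hB'lt; omega)
    set W := ⁅B, B⁆ ⊓ Z with hWd
    -- `B' ≤ Z`
    have hXB : ⁅X, B⁆ ≤ W := by
      refine le_inf (commutator_mono inf_le_left le_rfl) ?_
      exact (commutator_mono inf_le_right le_rfl).trans (commutator_le_of_normalizes (hBS.trans hSZ))
    have hB'W : ⁅B, B⁆ ≤ W := by
      set π := QuotientGroup.mk' W with hπ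
      set C := (centralizer ((B.map π : Subgroup _) : Set _)).comap π with hC
      haveI : (B.map π).Normal := hBn.map π (QuotientGroup.mk'_surjective W)
      have hXC : X ≤ C := by
        intro x hx
        rw [hC, mem_comap]
        refine mem_centralizer_iff.mpr ?_
        rintro _ ⟨b, hb, rfl⟩
        have h1 : π ⁅x, b⁆ = 1 := (QuotientGroup.eq_one_iff _).mpr (hXB (commutator_mem_commutator hx hb))
        rw [map_commutatorElement, commutatorElement_eq_one_iff_mul_comm] at h1
        exact h1.symm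
      have hBC : B ≤ C := by
        rw [← hBeq]
        exact normalClosure_le_normal (fun x hx => hXC hx)
      rw [commutator_le]
      intro x hx y hy
      have h1 := mem_centralizer_iff.mp (mem_comap.mp (hBC hx)) (π y) ⟨y, hy, rfl⟩
      have h2 : π ⁅x, y⁆ = 1 := by
        rw [map_commutatorElement, commutatorElement_eq_one_iff_mul_comm]; exact h1.symm
      exact (QuotientGroup.eq_one_iff _).mp h2
    have hB'Z : ⁅B, B⁆ ≤ Z := hB'W.trans inf_le_right
    -- class two
    have hcl : B ≤ centralizer ((⁅B, B⁆ : Subgroup G) : Set G) := by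
      rw [← hBeq]
      refine normalClosure_le_normal (fun x hx => mem_centralizer_iff.mpr fun y hy => ?_)
      rw [hBeq] at hy
      exact hZc y (hB'Z hy) x (mem_inf.mp hx).2
    have hcl2 : PGrpA.Class2 B := by
      intro x y
      rw [Subgroup.mem_center_iff]
      intro z
      apply Subtype.ext
      have h1 : ⁅(x : G), (y : G)⁆ ∈ ⁅B, B⁆ := commutator_mem_commutator x.2 y.2
      exact (mem_centralizer_iff.mp (hcl z.2) _ h1).symm
    -- `Ω₁(B)`
    let D : Subgroup G := (hcl2.omega hp.out hp2).map B.subtype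
    have hDmem : ∀ x : G, x ∈ D ↔ x ∈ B ∧ x ^ p = 1 := by
      intro x
      constructor
      · rintro ⟨y, hy, rfl⟩
        exact ⟨y.2, congrArg Subtype.val hy⟩
      · rintro ⟨h1, h2⟩
        exact ⟨⟨x, h1⟩, Subtype.ext h2, rfl⟩
    have hDB : D ≤ B := fun x hx => ((hDmem x).mp hx).1
    haveI hDn : D.Normal := ⟨fun x hx g => (hDmem _).mpr ⟨hBn.conj_mem _ ((hDmem x).mp hx).1 g, by
      rw [conj_pow, ((hDmem x).mp hx).2, mul_one, mul_inv_cancel]⟩⟩
    have hDS : D ≤ (S : Subgroup G) := hDB.trans hBS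
    have hJc : ∀ A ∈ Fam p (S : Subgroup G), Z ≤ centralizer (A : Set G) := fun A hA =>
      inf_le_right.trans (centralizer_le (SetLike.coe_subset_coe.mpr (le_J hA)))
    have hD'A : ∀ A ∈ Fam p (S : Subgroup G), ⁅D, D⁆ ≤ A := by
      intro A hA z hz
      have h1 : z ∈ D := (commutator_le_right D D) hz
      exact mem_of_cent hA (hDS h1) ((hDmem z).mp h1).2 (hJc A hA (hB'Z (commutator_mono hDB hDB hz)))
    set C := centralizer (B : Set G) with hC
    set L := (Cfsg.pCore p (G ⧸ C)).comap (QuotientGroup.mk' C) with hL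
    haveI hLn : L.Normal := by
      haveI := pCore_normal (G := G ⧸ C) p
      infer_instance
    have hAL : ∀ A ∈ Fam p (S : Subgroup G), D ≤ normalizer (A : Set G) → A ≤ L := by
      intro A hA hDA a ha
      have h1 := hst D (hBp.to_le hDB) a (quadratic_zpowers hDA hA.2.1.1 ha)
      set M := (Cfsg.pCore p (G ⧸ centralizer (D : Set G))).comap (QuotientGroup.mk' (centralizer (D : Set G))) with hM
      haveI hMn : M.Normal := by
        haveI := pCore_normal (G := G ⧸ centralizer (D : Set G)) p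
        infer_instance
      refine mem_pCore_of_pprime (M := M) (fun y hy hyo => ?_) (a := a) h1
      refine centralizes_of_omega hp2 hBp hyo (by rw [normalizer_eq_top]; trivial) (fun x hx hxp => ?_)
      have h2 : y ∈ centralizer (D : Set G) := by
        obtain ⟨k, hk⟩ := (pCore_isPGroup (G := G ⧸ centralizer (D : Set G)) p) ⟨_, hy⟩
        have h3 : (QuotientGroup.mk' (centralizer (D : Set G)) y) ^ p ^ k = 1 := congrArg Subtype.val hk
        rw [← map_pow] at h3
        have h4 : y ^ p ^ k ∈ centralizer (D : Set G) := (QuotientGroup.eq_one_iff _).mp h3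
        obtain ⟨m, hm⟩ := exists_pow_eq_self_of_coprime (Nat.Coprime.pow_right k hyo).symm
        rw [← hm]
        exact Subgroup.pow_mem _ h4 m
      exact mem_centralizer_iff.mp h2 x ((hDmem x).mpr ⟨hx, hxp⟩)
    -- `A₀` normalized by `D`
    obtain ⟨A₀, hA₀, hBA₀⟩ : ∃ A ∈ Fam p (S : Subgroup G), D ≤ normalizer (A : Set G) := by
      have hfin : (Fam p (S : Subgroup G)).Finite := Set.toFinite _
      obtain ⟨A, hA, hmax⟩ := Set.exists_max_image _ (fun A : Subgroup G => Nat.card ↥(A ⊓ D)) hfin (exists_fam p _)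
      refine ⟨A, hA, ?_⟩
      by_contra hnot
      obtain ⟨A', hA', hlt', -⟩ := replace_in hp2 S.2 hDS le_normal_normalizer he hA (hD'A A hA) hnot
      have h1 := hmax A' hA'
      have h2 := card_lt_card_of_lt hlt'
      omega
    have hCL : C ≤ L := le_comap_pCore
    have hcov : L ≤ C ⊔ ((S : Subgroup G) ⊓ L) := le_sup_sylow hCL relIndex_comap_pCore S
    have hBL : B ≤ L := by
      intro b hb
      have h2 := Cores.le_pCore (N := B.map (QuotientGroup.mk' C)) (hBn.map _ (QuotientGroup.mk'_surjective _)) (hBp.map _)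
      exact h2 (mem_map_of_mem _ hb)
    set T := (S : Subgroup G) ⊓ L with hT
    have hA₀L : A₀ ≤ T := le_inf hA₀.1 (hAL A₀ hA₀ hBA₀)
    have hJT := J_mono (p := p) (inf_le_left : T ≤ (S : Subgroup G)) hA₀ hA₀L
    set Y := centralizer (Cfsg.thompsonSubgroupOf p T : Set G) with hY
    have hZY : Z ≤ Y := inf_le_right.trans (centralizer_le (SetLike.coe_subset_coe.mpr hJT))
    have hgen : ∀ U : Subgroup G, C ≤ normalizer (U : Set G) → normalizer (T : Set G) ≤ normalizer (U : Set G) → U.Normal := by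
      intro U h1 h2
      apply normal_of_forall
      intro g
      obtain ⟨c, hc, n, hn, rfl⟩ := QuadD.frattini_inf L S g
      obtain ⟨c', hc', s, hs, rfl⟩ := mem_sup_of_normal_left.mp (hcov hc)
      rw [mul_assoc]
      exact mul_mem (h1 hc') (h2 (mul_mem (le_normalizer hs) hn))
    have hBY : (B ⊓ Y).Normal := by
      refine hgen _ ?_ ?_
      · intro c hc
        apply centralizer_le_normalizer
        exact centralizer_le (SetLike.coe_subset_coe.mpr inf_le_left) hc
      · exact le_normalizer_inf le_normal_normalizer ((normalizer_le_J p T).trans (normalizer_le_normalizer_centralizer _))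
    have hBleY : B ≤ Y := by
      have h1 : B1 ≤ B ⊓ Y := by
        haveI := hBY
        exact normalClosure_le_normal (fun x hx => mem_inf.mpr ⟨(mem_inf.mp hx).1, hZY (mem_inf.mp hx).2⟩)
      rw [hBeq] at h1
      exact h1.trans inf_le_right
    by_cases hall : ∀ A ∈ Fam p (S : Subgroup G), A ≤ L
    · have hJ : Cfsg.thompsonSubgroupOf p T = Cfsg.thompsonSubgroupOf p (S : Subgroup G) := by
        refine le_antisymm hJT ?_
        rw [J_eq, J_eq]
        exact sSup_le fun A hA => le_sSup ((fam_of_le inf_le_left hA₀ hA₀L).mpr ⟨hA, le_inf hA.1 (hall A hA)⟩)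
      refine hgen _ ?_ ?_
      · intro c hc
        apply centralizer_le_normalizer
        exact centralizer_le (SetLike.coe_subset_coe.mpr inf_le_left) hc
      · refine le_normalizer_inf le_normal_normalizer ?_
        have h1 := (normalizer_le_J p T)
        rw [hJ] at h1
        exact h1.trans (normalizer_J_le p _)
    · exfalso
      push Not at hall
      obtain ⟨A₁, hA₁, hA₁L⟩ := hall
      have hfin : {A | A ∈ Fam p (S : Subgroup G) ∧ ¬ A ≤ L}.Finite := Set.toFinite _
      obtain ⟨A, ⟨hA, hnA⟩, hmax⟩ := Set.exists_max_image _ (fun A : Subgroup G => Nat.card ↥(A ⊓ D)) hfin ⟨A₁, hA₁, hA₁L⟩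
      have hnot : ¬ D ≤ normalizer (A : Set G) := fun h => hnA (hAL A hA h)
      obtain ⟨A', hA', hlt', hn'⟩ := replace_in hp2 S.2 hDS le_normal_normalizer he hA (hD'A A hA) hnot
      have hA'L : A' ≤ L := by
        by_contra hcon
        have h1 := hmax A' ⟨hA', hcon⟩
        have h2 := card_lt_card_of_lt hlt'
        omega
      have h3 : A' ∈ Fam p T := (fam_of_le inf_le_left hA₀ hA₀L).mpr ⟨hA', le_inf hA'.1 hA'L⟩
      have h4 : D ≤ A' := by
        intro d hd
        refine mem_of_cent h3 (mem_inf.mpr ⟨hDS hd, hBL (hDB hd)⟩) ((hDmem d).mp hd).2 ?_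
        exact centralizer_le (SetLike.coe_subset_coe.mpr (le_J h3)) (hBleY (hDB hd))
      exact hnot (h4.trans hn')

/-- Glauberman's ZJ theorem, elementary abelian version -/
theorem zj_normal [Finite G] {p : ℕ} [hp : Fact p.Prime] (hp2 : p ≠ 2) (S : Sylow p G)
    (hc : centralizer (Cfsg.pCore p G : Set G) ≤ Cfsg.pCore p G)
    (hst : ∀ (P : Subgroup G) [P.Normal], IsPGroup p P → Cfsg.IsPStableOn p P) :
    (Cfsg.centerThompsonOf p (S : Subgroup G)).Normal := by
  haveI := pCore_normal (G := G) p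
  have hQS : Cfsg.pCore p G ≤ (S : Subgroup G) := pCore_le_sylow S
  have hSZ : (S : Subgroup G) ≤ normalizer (Cfsg.centerThompsonOf p (S : Subgroup G) : Set G) :=
    le_normalizer.trans ((normalizer_le_J p _).trans (normalizer_J_le p _))
  have hZQ : Cfsg.centerThompsonOf p (S : Subgroup G) ≤ Cfsg.pCore p G := by
    intro z hz
    have h1 := hst (Cfsg.pCore p G) (pCore_isPGroup p) z
      (quadratic_zpowers (hQS.trans hSZ) (Zc_comm p (S : Subgroup G)) hz)
    have h2 : IsPGroup p (QuotientGroup.mk' (centralizer (Cfsg.pCore p G : Set G))).ker := by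
      rw [QuotientGroup.ker_mk']
      exact (pCore_isPGroup p).to_le hc
    exact comap_pCore_le_of_ker _ h2 h1
  have h1 := inf_normal hp2 S hst _ (Cfsg.pCore p G) inferInstance (pCore_isPGroup p) le_rfl
  rwa [inf_eq_right.mpr hZQ] at h1

end Cfsg.Agent.Lib.ZJe
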