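import Cfsg.Agent.S0878
import Cfsg.Agent.S0879
import Cfsg.Agent.S0740
import Cfsg.Agent.Lib.CharInd
import Cfsg.Agent.S0039
import Cfsg.Agent.S0040
import Cfsg.Agent.S0042

set_option autoImplicit false

namespace Cfsg.Agent.Lib.Zass

open Cfsg MulAction

noncomputable section

section transfer

variable {G : Type*} [Group G] [Finite G] {A : Type*} [CommGroup A]

theorem transfer_stable {H : Subgroup G} (φ : H →* A)
    (h : ∀ (x g : G) (hx : x ∈ H) (hg : g⁻¹ * x * g ∈ H), φ ⟨g⁻¹ * x * g, hg⟩ = φ ⟨x, hx⟩) (x : H) :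
    MonoidHom.transfer φ (x : G) = φ x ^ H.index := by
  classical
  haveI : Fintype (Quotient (orbitRel (Subgroup.zpowers (x : G)) (G ⧸ H))) := Fintype.ofFinite _
  haveI : Fintype (G ⧸ H) := Fintype.ofFinite _
  rw [MonoidHom.transfer_eq_prod_quotient_orbitRel_zpowers_quot φ (x : G)]
  have h1 : ∀ q : Quotient (orbitRel (Subgroup.zpowers (x : G)) (G ⧸ H)),
      φ ⟨q.out.out⁻¹ * (x : G) ^ Function.minimalPeriod ((x : G) • ·) q.out * q.out.out,
        QuotientGroup.out_conj_pow_minimalPeriod_mem H (x : G) q.out⟩ = φ x ^ Function.minimalPeriod ((x : G) • ·) q.out := by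
    intro q
    rw [h _ _ (H.pow_mem x.2 _), ← map_pow]
    rfl
  rw [Finset.prod_congr rfl fun q _ => h1 q, Finset.prod_pow_eq_pow_sum, Subgroup.index_eq_sum_minimalPeriod H (x : G)]

theorem stable_trivial (hG : commutator G = ⊤) {H : Subgroup G} (hcop : Nat.Coprime (Nat.card H) H.index) (φ : H →* A)
    (h : ∀ (x g : G) (hx : x ∈ H) (hg : g⁻¹ * x * g ∈ H), φ ⟨g⁻¹ * x * g, hg⟩ = φ ⟨x, hx⟩) (x : H) : φ x = 1 := by
  have h1 := transfer_stable φ h x
  have h2 : MonoidHom.transfer φ (x : G) = 1 := by
    have h3 : commutator G ≤ (MonoidHom.transfer φ).ker := Abelianization.commutator_subset_ker _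
    rw [hG] at h3
    exact h3 (Subgroup.mem_top _)
  rw [h2] at h1
  have h4 : φ x ^ Nat.card H = 1 := by
    rw [← map_pow, pow_card_eq_one', map_one]
  have h5 : φ x ^ Nat.gcd (Nat.card H) H.index = 1 := pow_gcd_eq_one.mpr ⟨h4, h1.symm⟩
  rw [hcop, pow_one] at h5
  exact h5

end transfer

section count

variable {G Ω : Type*} [Group G] [Finite G] [MulAction G Ω] [Fintype Ω]

theorem card_group (hZ : IsZassenhausGroup G Ω) {a b : Ω} (hab : a ≠ b) :
    Fintype.card Ω * (Fintype.card Ω - 1) * Nat.card (stabilizer G a ⊓ stabilizer G b : Subgroup G) = Nat.card G := by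
  classical
  have h1 := S0878.index_eq hZ hab
  have h2 : (stabilizer G a).index = Fintype.card Ω := by
    rw [index_stabilizer]
    have h3 : orbit G a = Set.univ := by
      rw [Set.eq_univ_iff_forall]
      intro c
      obtain ⟨-, h2, -, -, -⟩ := hZ
      rw [MulAction.is_two_pretransitive_iff] at h2
      by_cases hc : c = a
      · rw [hc]; exact mem_orbit_self a
      · obtain ⟨g, hg1, -⟩ := h2 hab hc
        exact ⟨g, hg1⟩
    rw [h3, Set.ncard_univ, Nat.card_eq_fintype_card]
  have h4 := (stabilizer G a).card_mul_index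
  have h5 := ((stabilizer G b).subgroupOf (stabilizer G a)).card_mul_index
  have h6 : Nat.card ((stabilizer G b).subgroupOf (stabilizer G a)) =
      Nat.card (stabilizer G a ⊓ stabilizer G b : Subgroup G) := by
    have h7 : (stabilizer G b).subgroupOf (stabilizer G a) =
        (stabilizer G a ⊓ stabilizer G b : Subgroup G).subgroupOf (stabilizer G a) := by
      rw [Subgroup.inf_subgroupOf_left]
    rw [h7]
    exact Nat.card_congr (Subgroup.subgroupOfEquivOfLe inf_le_left).toEquiv
  rw [h6] at h5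
  have h8 : ((stabilizer G b).subgroupOf (stabilizer G a)).index = Fintype.card Ω - 1 := by omega
  rw [h8] at h5
  rw [← h4, ← h5, h2]
  ring

theorem two_lt (hZ : IsZassenhausGroup G Ω) {a b : Ω} (hab : a ≠ b) :
    1 < Nat.card (stabilizer G a ⊓ stabilizer G b : Subgroup G) ∧ 2 < Fintype.card Ω := by
  classical
  obtain ⟨x, hx, hx1⟩ := S0879.third hZ hab
  constructor
  · have : Nat.card (stabilizer G a ⊓ stabilizer G b : Subgroup G) ≠ 1 := by
      intro h
      rw [Subgroup.card_eq_one] at h
      rw [h, Subgroup.mem_bot] at hx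
      exact hx1 hx
    have := Nat.card_pos (α := (stabilizer G a ⊓ stabilizer G b : Subgroup G))
    omega
  · obtain ⟨c, hca, hcb⟩ : ∃ c : Ω, c ≠ a ∧ c ≠ b := by
      by_contra hcon
      push Not at hcon
      obtain ⟨hf, -⟩ := hZ
      apply hx1
      apply hf.eq_of_smul_eq_smul (α := Ω)
      intro c
      rw [one_smul]
      by_cases h : c = a
      · rw [h]; exact hx.1
      · rw [hcon c h]; exact hx.2
    have h7 : ({a, b, c} : Finset Ω).card ≤ Fintype.card Ω := Finset.card_le_univ _
    rw [Finset.card_insert_of_notMem (by simp [hab, Ne.symm hca]),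
      Finset.card_insert_of_notMem (by simp [Ne.symm hcb]), Finset.card_singleton] at h7
    omega

/-- the number of fixed-point-free elements -/
theorem card_free (hZ : IsZassenhausGroup G Ω) {a b : Ω} (hab : a ≠ b) :
    2 * Nat.card {g : G // ∀ c : Ω, g • c ≠ c} + (Fintype.card Ω - 1) * (Fintype.card Ω - 2) = Nat.card G := by
  classical
  haveI : Fintype G := Fintype.ofFinite G
  obtain ⟨n, hn⟩ : ∃ n, n = Fintype.card Ω := ⟨_, rfl⟩
  have hn2 : 2 < n := by rw [hn]; exact (two_lt hZ hab).2
  let fx : G → ℕ := fun g => (Finset.univ.filter fun c : Ω => g • c = c).card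
  have hfx1 : fx 1 = n := by
    simp [fx, hn]
  have hle : ∀ g : G, g ≠ 1 → fx g ≤ 2 := by
    intro g hg
    by_contra hcon
    push Not at hcon
    obtain ⟨x, y, z, hx, hy, hz, hxy, hxz, hyz⟩ := Finset.two_lt_card_iff.mp hcon
    rw [Finset.mem_filter] at hx hy hz
    exact hg (hZ.2.2.1 g x y z hxy hyz hxz hx.2 hy.2 hz.2)
  have hst : ∀ c : Ω, n * Nat.card (stabilizer G c) = Nat.card G := by
    intro c
    obtain ⟨d, hd⟩ : ∃ d : Ω, c ≠ d := by
      by_cases h : c = a
      · exact ⟨b, by rw [h]; exact hab⟩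
      · exact ⟨a, h⟩
    have h1 := card_group hZ hd
    have h2 := S0878.index_eq hZ hd
    have h5 := ((stabilizer G d).subgroupOf (stabilizer G c)).card_mul_index
    have h6 : Nat.card ((stabilizer G d).subgroupOf (stabilizer G c)) =
        Nat.card (stabilizer G c ⊓ stabilizer G d : Subgroup G) := by
      have h7 : (stabilizer G d).subgroupOf (stabilizer G c) =
          (stabilizer G c ⊓ stabilizer G d : Subgroup G).subgroupOf (stabilizer G c) := by
        rw [Subgroup.inf_subgroupOf_left]
      rw [h7]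
      exact Nat.card_congr (Subgroup.subgroupOfEquivOfLe inf_le_left).toEquiv
    have h8 : ((stabilizer G d).subgroupOf (stabilizer G c)).index = Fintype.card Ω - 1 := by omega
    rw [h6, h8] at h5
    rw [← h5, ← h1, hn]; ring
  have hsum1 : ∑ g : G, fx g = Nat.card G := by
    have h1 : ∑ g : G, fx g = ∑ c : Ω, Nat.card (stabilizer G c) := by
      simp only [fx, Finset.card_filter]
      rw [Finset.sum_comm]
      refine Finset.sum_congr rfl fun c _ => ?_
      rw [← Finset.card_filter, Nat.card_eq_fintype_card]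
      rw [Fintype.card_subtype]
      rfl
    have h2 : n * ∑ c : Ω, Nat.card (stabilizer G c) = n * Nat.card G := by
      rw [Finset.mul_sum, Finset.sum_congr rfl fun c _ => hst c, Finset.sum_const, Finset.card_univ, smul_eq_mul, ← hn]
    rw [h1]
    exact Nat.eq_of_mul_eq_mul_left (by omega) h2
  have hsum2 : ∑ g : G, fx g * fx g = 2 * Nat.card G := by
    have h1 : ∑ g : G, fx g * fx g = ∑ c : Ω, ∑ d : Ω, Nat.card (stabilizer G c ⊓ stabilizer G d : Subgroup G) := by
      have h2 : ∀ g : G, fx g * fx g = ∑ c : Ω, ∑ d : Ω, if (g • c = c ∧ g • d = d) then 1 else 0 := by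
        intro g
        simp only [fx, Finset.card_filter]
        rw [Finset.sum_mul_sum]
        refine Finset.sum_congr rfl fun c _ => Finset.sum_congr rfl fun d _ => ?_
        by_cases h1 : g • c = c <;> by_cases h2 : g • d = d <;> simp [h1, h2]
      simp only [h2]
      rw [Finset.sum_comm]
      refine Finset.sum_congr rfl fun c _ => ?_
      rw [Finset.sum_comm]
      refine Finset.sum_congr rfl fun d _ => ?_
      rw [← Finset.card_filter, Nat.card_eq_fintype_card, Fintype.card_subtype]
      congr 1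
      ext g
      simp only [Finset.mem_filter, Finset.mem_univ, true_and, Subgroup.mem_inf, mem_stabilizer_iff]
    rw [h1]
    have h2 : ∀ c : Ω, ∑ d : Ω, Nat.card (stabilizer G c ⊓ stabilizer G d : Subgroup G) =
        Nat.card (stabilizer G c) + (n - 1) * Nat.card (stabilizer G a ⊓ stabilizer G b : Subgroup G) := by
      intro c
      rw [← Finset.add_sum_erase _ _ (Finset.mem_univ c), inf_idem]
      congr 1
      have h3 : ∀ d ∈ Finset.univ.erase c, Nat.card (stabilizer G c ⊓ stabilizer G d : Subgroup G) =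
          Nat.card (stabilizer G a ⊓ stabilizer G b : Subgroup G) := by
        intro d hd
        have h4 := card_group hZ (Finset.ne_of_mem_erase hd).symm
        rw [← card_group hZ hab] at h4
        refine Nat.eq_of_mul_eq_mul_left ?_ h4
        have : 0 < n - 1 := by omega
        rw [← hn]; positivity
      rw [Finset.sum_congr rfl h3, Finset.sum_const, Finset.card_erase_of_mem (Finset.mem_univ c), Finset.card_univ, smul_eq_mul, ← hn]
    rw [Finset.sum_congr rfl fun c _ => h2 c, Finset.sum_add_distrib, Finset.sum_const, Finset.card_univ, smul_eq_mul, ← hn]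
    have h3 : ∑ c : Ω, Nat.card (stabilizer G c) = Nat.card G := by
      have h2 : n * ∑ c : Ω, Nat.card (stabilizer G c) = n * Nat.card G := by
        rw [Finset.mul_sum, Finset.sum_congr rfl fun c _ => hst c, Finset.sum_const, Finset.card_univ, smul_eq_mul, ← hn]
      exact Nat.eq_of_mul_eq_mul_left (by omega) h2
    rw [h3, ← mul_assoc]
    have h4 := card_group hZ hab
    rw [← hn] at h4
    rw [h4]; ring
  -- combine
  have hfree : (Nat.card {g : G // ∀ c : Ω, g • c ≠ c} : ℤ) = ∑ g : G, if fx g = 0 then 1 else 0 := by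
    rw [Nat.card_eq_fintype_card, Fintype.card_subtype, Finset.card_filter]
    push_cast
    refine Finset.sum_congr rfl fun g _ => ?_
    have h1 : (∀ c : Ω, g • c ≠ c) ↔ fx g = 0 := by
      simp only [fx, Finset.card_eq_zero, Finset.filter_eq_empty_iff, Finset.mem_univ, true_imp_iff]
    simp only [h1]
  have hpt : ∀ g : G, g ≠ 1 → (2 : ℤ) * (if fx g = 0 then 1 else 0) = (fx g : ℤ) * fx g - 3 * fx g + 2 := by
    intro g hg
    have h1 := hle g hg
    have h2 : fx g = 0 ∨ fx g = 1 ∨ fx g = 2 := by omega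
    rcases h2 with h2 | h2 | h2 <;> rw [h2] <;> norm_num
  have h1 : (2 : ℤ) * ∑ g : G, (if fx g = 0 then (1 : ℤ) else 0) = ∑ g : G, ((fx g : ℤ) * fx g - 3 * fx g + 2) - ((n : ℤ) * n - 3 * n + 2) := by
    rw [← Finset.add_sum_erase _ _ (Finset.mem_univ (1 : G)), ← Finset.add_sum_erase (Finset.univ) (fun g => ((fx g : ℤ) * fx g - 3 * fx g + 2)) (Finset.mem_univ (1 : G))]
    have h2 : (if fx 1 = 0 then (1 : ℤ) else 0) = 0 := by rw [hfx1, if_neg (by omega)]
    rw [h2, hfx1, zero_add, Finset.mul_sum, Finset.sum_congr rfl fun g hg => hpt g (Finset.ne_of_mem_erase hg)]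
    ring
  have h2 : ∑ g : G, ((fx g : ℤ) * fx g - 3 * fx g + 2) = Nat.card G := by
    rw [Finset.sum_add_distrib, Finset.sum_sub_distrib, ← Finset.mul_sum, Finset.sum_const, Finset.card_univ, nsmul_eq_mul,
      ← Nat.card_eq_fintype_card (α := G)]
    have h3 : ∑ g : G, (fx g : ℤ) * fx g = 2 * Nat.card G := by exact_mod_cast hsum2
    have h4 : ∑ g : G, (fx g : ℤ) = Nat.card G := by exact_mod_cast hsum1
    rw [h3, h4]; ring
  rw [h2, ← hfree] at h1
  rw [← hn]
  obtain ⟨m, rfl⟩ : ∃ m, n = m + 2 := ⟨n - 2, by omega⟩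
  have e1 : m + 2 - 1 = m + 1 := rfl
  have e2 : m + 2 - 2 = m := rfl
  rw [e1, e2]
  push_cast at h1
  zify
  linarith

end count
section cls

theorem card_cls {G : Type*} [Group G] [Finite G] (x : G) :
    Nat.card {y : G // IsConj x y} * Nat.card (Subgroup.centralizer ({x} : Set G)) = Nat.card G := by
  classical
  have h1 : Nat.card {y : G // IsConj x y} = (MulAction.stabilizer (ConjAct G) x).index := by
    rw [MulAction.index_stabilizer, ← Nat.card_coe_set_eq]
    refine Nat.card_congr (Equiv.subtypeEquivRight fun y => ?_)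
    rw [ConjAct.mem_orbit_conjAct]
    exact ⟨fun h => h.symm, fun h => h.symm⟩
  have h2 : Nat.card (Subgroup.centralizer ({x} : Set G)) = Nat.card (MulAction.stabilizer (ConjAct G) x) := by
    refine Nat.card_congr (Equiv.subtypeEquiv (ConjAct.toConjAct (G := G)).toEquiv fun y => ?_)
    rw [Subgroup.mem_centralizer_iff, MulAction.mem_stabilizer_iff]
    change (∀ h ∈ ({x} : Set G), h * y = y * h) ↔ ConjAct.toConjAct y • x = x
    rw [ConjAct.toConjAct_smul, mul_inv_eq_iff_eq_mul]
    constructor
    · intro h; exact (h x rfl).symm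
    · rintro h z hz
      rw [Set.mem_singleton_iff.mp hz]; exact h.symm
  rw [h1, h2, mul_comm]
  exact (MulAction.stabilizer (ConjAct G) x).card_mul_index

end cls
section str

variable {G Ω : Type*} [Group G] [Finite G] [MulAction G Ω] [Fintype Ω]

/-- the two-point stabilizer as a subgroup of the one-point stabilizer -/
theorem frob_compl (hZ : IsZassenhausGroup G Ω) {a b : Ω} (hab : a ≠ b) :
    IsFrobeniusComplement ((stabilizer G b).subgroupOf (stabilizer G a)) := by
  classical
  obtain ⟨x, hx, hx1⟩ := S0879.third hZ hab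
  refine ⟨?_, ?_, ?_⟩
  · intro h
    have : (⟨x, hx.1⟩ : stabilizer G a) ∈ (stabilizer G b).subgroupOf (stabilizer G a) := hx.2
    rw [h, Subgroup.mem_bot] at this
    exact hx1 (congrArg Subtype.val this)
  · intro h
    have h1 := S0878.index_eq hZ hab
    rw [h, Subgroup.index_top] at h1
    have := (two_lt hZ hab).2
    omega
  · intro g hg
    rw [eq_bot_iff]
    intro x hx
    obtain ⟨hx1, hx2⟩ := Subgroup.mem_inf.mp hx
    rw [Cfsg.Agent.Lib.SchurZas.mem_conj_smul_iff] at hx2
    rw [Subgroup.mem_subgroupOf] at hx1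
    rw [Subgroup.mem_subgroupOf] at hx2 hg
    rw [Subgroup.mem_bot]
    apply Subtype.ext
    have hx1' : (x : G) • b = b := hx1
    have hxa : (x : G) • a = a := x.2
    have hx2' : (x : G) • ((g : G) • b) = (g : G) • b := by
      have h4 : ((g : G)⁻¹ * x * g) • b = b := hx2
      rw [mul_smul, mul_smul, inv_smul_eq_iff] at h4
      exact h4
    have hga : (g : G) • a = a := g.2
    apply hZ.2.2.1 (x : G) a b ((g : G) • b) hab (fun h => hg h.symm) _ hxa hx1' hx2'
    intro h
    apply hab
    exact MulAction.injective (g : G) (hga.trans h)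

theorem exists_kernel (hZ : IsZassenhausGroup G Ω) {a b : Ω} (hab : a ≠ b) :
    ∃ N : Subgroup (stabilizer G a), N.Normal ∧ Group.IsNilpotent N ∧
      Subgroup.IsComplement' N ((stabilizer G b).subgroupOf (stabilizer G a)) ∧ N ≠ ⊥ ∧
      ∀ h ∈ (stabilizer G b).subgroupOf (stabilizer G a), h ≠ 1 → N ⊓ Subgroup.centralizer {h} = ⊥ := by
  classical
  have hF := frob_compl hZ hab
  obtain ⟨N, hN, hNn, hnil⟩ := S0042.result _ hF
  have hcard := Cfsg.Agent.Lib.Frob.card_kernel (H := (stabilizer G b).subgroupOf (stabilizer G a)) hF.2.2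
  rw [← hN] at hcard
  have hinf : N ⊓ (stabilizer G b).subgroupOf (stabilizer G a) = ⊥ := by
    rw [eq_bot_iff]
    intro x hx
    obtain ⟨hx1, hx2⟩ := Subgroup.mem_inf.mp hx
    have : x ∈ frobeniusKernel ((stabilizer G b).subgroupOf (stabilizer G a)) := by rw [← hN]; exact hx1
    rcases this with h | h
    · exact h
    · exfalso
      apply h 1
      rw [map_one, one_smul]; exact hx2
  have hc : Subgroup.IsComplement' N ((stabilizer G b).subgroupOf (stabilizer G a)) := by
    apply Subgroup.isComplement'_of_card_mul_and_disjoint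
    · have h1 : Nat.card N = ((stabilizer G b).subgroupOf (stabilizer G a)).index := hcard
      rw [h1, mul_comm]
      exact Subgroup.card_mul_index _
    · rw [disjoint_iff]; exact hinf
  have hNb : N ≠ ⊥ := by
    rintro rfl
    have h1 : Nat.card (⊥ : Subgroup (stabilizer G a)) = ((stabilizer G b).subgroupOf (stabilizer G a)).index := hcard
    rw [Subgroup.card_bot] at h1
    have h2 := S0878.index_eq hZ hab
    have := (two_lt hZ hab).2
    omega
  exact ⟨N, hNn, hnil, hc, hNb, (S0039.result N _ hc hNb hF.1).mp hF⟩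

theorem zgroup (hZ : IsZassenhausGroup G Ω) {a b : Ω} (hab : a ≠ b)
    (hodd : Odd (Nat.card (stabilizer G a ⊓ stabilizer G b : Subgroup G))) :
    IsZGroup (stabilizer G a ⊓ stabilizer G b : Subgroup G) := by
  classical
  obtain ⟨N, hNn, -, hc, hNb, hfpf⟩ := exists_kernel hZ hab
  have h7 : (stabilizer G b).subgroupOf (stabilizer G a) =
      (stabilizer G a ⊓ stabilizer G b : Subgroup G).subgroupOf (stabilizer G a) := by
    rw [Subgroup.inf_subgroupOf_left]
  let e := Subgroup.subgroupOfEquivOfLe (inf_le_left : stabilizer G a ⊓ stabilizer G b ≤ stabilizer G a)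
  have hM : IsZGroup ((stabilizer G b).subgroupOf (stabilizer G a)) := by
    rw [isZGroup_iff]
    intro p hp P
    haveI : Fact p.Prime := ⟨hp⟩
    rcases S0040.result N _ hc hNb hfpf p P with h | ⟨n, ⟨f⟩⟩
    · exact h
    · exfalso
      have h1 : Nat.card P = Nat.card (QuaternionGroup (2 ^ n)) := Nat.card_congr f.toEquiv
      rw [Nat.card_eq_fintype_card (α := QuaternionGroup (2 ^ n)), QuaternionGroup.card] at h1
      have h2 : Nat.card P ∣ Nat.card ((stabilizer G b).subgroupOf (stabilizer G a)) := Subgroup.card_subgroup_dvd_card _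
      have h3 : Nat.card ((stabilizer G b).subgroupOf (stabilizer G a)) = Nat.card (stabilizer G a ⊓ stabilizer G b : Subgroup G) := by
        rw [h7]; exact Nat.card_congr e.toEquiv
      rw [h1, h3] at h2
      have h4 := Odd.of_dvd_nat hodd h2
      rw [← Nat.not_even_iff_odd] at h4
      exact h4 ⟨2 * 2 ^ n, by ring⟩
  rw [h7] at hM
  exact IsZGroup.of_surjective (f := e.toMonoidHom) e.surjective

theorem e_dvd (hZ : IsZassenhausGroup G Ω) {a b : Ω} (hab : a ≠ b) :
    Nat.card (stabilizer G a ⊓ stabilizer G b : Subgroup G) ∣ Fintype.card Ω - 2 := by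
  classical
  let E : Subgroup G := stabilizer G a ⊓ stabilizer G b
  let X : Type _ := {c : Ω // c ≠ a ∧ c ≠ b}
  letI act : MulAction E X :=
    { smul := fun x c => ⟨(x : G) • c.1, by
        intro h
        apply c.2.1
        have h1 : (x : G) • a = a := x.2.1
        exact MulAction.injective (x : G) (h.trans h1.symm), by
        intro h
        apply c.2.2
        have h1 : (x : G) • b = b := x.2.2
        exact MulAction.injective (x : G) (h.trans h1.symm)⟩
      one_smul := fun c => Subtype.ext (one_smul G c.1)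
      mul_smul := fun x y c => Subtype.ext (mul_smul (x : G) (y : G) c.1) }
  have hX : Nat.card X = Fintype.card Ω - 2 := by
    rw [Nat.card_eq_fintype_card, Fintype.card_subtype]
    have h1 : (Finset.univ.filter fun c : Ω => c ≠ a ∧ c ≠ b) = (Finset.univ.erase a).erase b := by
      ext c
      simp only [Finset.mem_filter, Finset.mem_univ, true_and, Finset.mem_erase]
      tauto
    rw [h1, Finset.card_erase_of_mem (by simp [Ne.symm hab]), Finset.card_erase_of_mem (Finset.mem_univ _), Finset.card_univ]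
    rfl
  rw [← hX]
  apply Cfsg.Agent.Lib.Frob.card_dvd_of_free (A := E)
  intro c
  rw [eq_bot_iff]
  intro x hx
  rw [mem_stabilizer_iff] at hx
  have h1 : (x : G) • c.1 = c.1 := congrArg Subtype.val hx
  rw [Subgroup.mem_bot]
  exact Subtype.ext (hZ.2.2.1 (x : G) a b c.1 hab (Ne.symm c.2.2) (Ne.symm c.2.1) x.2.1 x.2.2 h1)

theorem coprime_index (hZ : IsZassenhausGroup G Ω) {a b : Ω} (hab : a ≠ b)
    (hodd : Odd (Nat.card (stabilizer G a ⊓ stabilizer G b : Subgroup G))) :
    Nat.Coprime (Nat.card (stabilizer G a ⊓ stabilizer G b : Subgroup G)) (stabilizer G a ⊓ stabilizer G b : Subgroup G).index := by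
  have h1 := card_group hZ hab
  have h2 := (stabilizer G a ⊓ stabilizer G b : Subgroup G).card_mul_index
  have h3 := e_dvd hZ hab
  have hn2 := (two_lt hZ hab).2
  obtain ⟨e, he⟩ : ∃ e, e = Nat.card (stabilizer G a ⊓ stabilizer G b : Subgroup G) := ⟨_, rfl⟩
  rw [← he] at h1 h2 h3 hodd ⊢
  have h4 : (stabilizer G a ⊓ stabilizer G b : Subgroup G).index = Fintype.card Ω * (Fintype.card Ω - 1) := by
    rw [← h1, mul_comm] at h2
    exact Nat.eq_of_mul_eq_mul_right (by rcases hodd with ⟨k, hk⟩; omega) h2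
  rw [h4]
  obtain ⟨m, hm⟩ : ∃ m, Fintype.card Ω = m + 2 := ⟨Fintype.card Ω - 2, by omega⟩
  rw [hm] at h3 ⊢
  have e1 : m + 2 - 1 = m + 1 := rfl
  have e2 : m + 2 - 2 = m := rfl
  rw [e2] at h3
  rw [e1]
  apply Nat.Coprime.mul_right
  · have h5 : Nat.Coprime e 2 := (Nat.coprime_two_right).mpr hodd
    apply Nat.Coprime.symm
    have h6 : Nat.gcd (m + 2) e ∣ 2 := by
      have h7 := Nat.gcd_dvd_left (m + 2) e
      have h8 := (Nat.gcd_dvd_right (m + 2) e).trans h3
      exact (Nat.dvd_add_right h8).mp h7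
    have h9 := Nat.gcd_dvd_right (m + 2) e
    have h10 := Nat.dvd_gcd h9 h6
    rw [h5] at h10
    exact Nat.dvd_one.mp h10
  · have h6 : Nat.gcd e (m + 1) ∣ 1 := by
      have h7 := Nat.gcd_dvd_right e (m + 1)
      have h8 := (Nat.gcd_dvd_left e (m + 1)).trans h3
      exact (Nat.dvd_add_right h8).mp h7
    exact Nat.dvd_one.mp h6

/-- In a perfect Zassenhaus group with odd two-point stabilizer `E`, elements of `E` are inverted by the swapping elements. -/
theorem inverts (hZ : IsZassenhausGroup G Ω) {a b : Ω} (hab : a ≠ b)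
    (hodd : Odd (Nat.card (stabilizer G a ⊓ stabilizer G b : Subgroup G))) (hG : commutator G = ⊤)
    {t : G} (hta : t • a = b) (htb : t • b = a) :
    (∀ x ∈ (stabilizer G a ⊓ stabilizer G b : Subgroup G), ∀ y ∈ (stabilizer G a ⊓ stabilizer G b : Subgroup G), x * y = y * x) ∧
    ∀ x ∈ (stabilizer G a ⊓ stabilizer G b : Subgroup G), t * x * t⁻¹ = x⁻¹ := by
  classical
  obtain ⟨E, hE⟩ : ∃ E : Subgroup G, E = stabilizer G a ⊓ stabilizer G b := ⟨_, rfl⟩
  have hcop := coprime_index hZ hab hodd
  have hZg := zgroup hZ hab hodd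
  have hswap : ∀ {x g : G}, x ≠ 1 → x ∈ E → g * x * g⁻¹ ∈ E → (g⁻¹ • a = a ∧ g⁻¹ • b = b) ∨ (g⁻¹ • a = b ∧ g⁻¹ • b = a) := by
    intro x g h1 h2 h3
    rw [hE] at h2 h3
    exact S0879.swap_of_conj hZ hab h1 h2 h3
  have hmem : ∀ g : G, g ∈ E ↔ g • a = a ∧ g • b = b := fun g => by rw [hE]; exact Iff.rfl
  rw [← hE] at hodd hcop hZg ⊢
  have htE : ∀ x ∈ E, t * x * t⁻¹ ∈ E := by
    intro x hx
    rw [hmem] at hx ⊢
    have h1 : t⁻¹ • a = b := by rw [inv_smul_eq_iff, htb]
    have h2 : t⁻¹ • b = a := by rw [inv_smul_eq_iff, hta]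
    constructor
    · rw [mul_smul, mul_smul, h1, hx.2, htb]
    · rw [mul_smul, mul_smul, h2, hx.1, hta]
  have htE' : ∀ x ∈ E, t⁻¹ * x * t ∈ E := by
    intro x hx
    rw [hmem] at hx ⊢
    have h1 : t⁻¹ • a = b := by rw [inv_smul_eq_iff, htb]
    have h2 : t⁻¹ • b = a := by rw [inv_smul_eq_iff, hta]
    constructor
    · rw [mul_smul, mul_smul, hta, hx.2, h2]
    · rw [mul_smul, mul_smul, htb, hx.1, h1]
  have htt : t * t ∈ E := by
    rw [hmem]
    exact ⟨by rw [mul_smul, hta, htb], by rw [mul_smul, htb, hta]⟩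
  let c : E →* E :=
    { toFun := fun x => ⟨t * x * t⁻¹, htE x x.2⟩
      map_one' := Subtype.ext (by simp)
      map_mul' := fun x y => Subtype.ext (by simp) }
  have hc : ∀ x : E, ((c x : E) : G) = t * x * t⁻¹ := fun _ => rfl
  have hconj : ∀ x y : E, Abelianization.of (y⁻¹ * x * y) = Abelianization.of x := by
    intro x y
    rw [map_mul, map_mul, map_inv, mul_comm, ← mul_assoc, mul_inv_cancel, one_mul]
  let φ : E →* Abelianization E :=
    { toFun := fun x => Abelianization.of x * Abelianization.of (c x)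
      map_one' := by rw [map_one, map_one, map_one, mul_one]
      map_mul' := fun x y => by rw [map_mul, map_mul, map_mul]; exact mul_mul_mul_comm _ _ _ _ }
  have hφ : ∀ x : E, φ x = Abelianization.of x * Abelianization.of (c x) := fun _ => rfl
  have hcc : ∀ x : E, Abelianization.of (c (c x)) = Abelianization.of x := by
    intro x
    have h1 : c (c x) = (⟨t * t, htt⟩⁻¹ : E)⁻¹ * x * (⟨t * t, htt⟩⁻¹ : E) := by
      apply Subtype.ext
      rw [hc, hc]
      push_cast
      simp only [mul_assoc, mul_inv_rev, inv_inv]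
    rw [h1, hconj]
  have hstab : ∀ (x g : G) (hx : x ∈ E) (hg : g⁻¹ * x * g ∈ E), φ ⟨g⁻¹ * x * g, hg⟩ = φ ⟨x, hx⟩ := by
    intro x g hx hg
    by_cases hx1 : x = 1
    · subst hx1
      congr 1
      apply Subtype.ext
      show g⁻¹ * 1 * g = 1
      group
    · rcases hswap (g := g⁻¹) hx1 hx (by rw [inv_inv]; exact hg) with h | h
      · rw [inv_inv] at h
        have hgE : g ∈ E := (hmem g).mpr h
        have h1 : (⟨g⁻¹ * x * g, hg⟩ : E) = (⟨g, hgE⟩ : E)⁻¹ * ⟨x, hx⟩ * ⟨g, hgE⟩ := Subtype.ext rfl
        rw [hφ, hφ, h1, map_mul c, map_mul c, map_inv c, hconj, hconj]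
      · rw [inv_inv] at h
        have hgE : t * g ∈ E := (hmem _).mpr ⟨by rw [mul_smul, h.1, htb], by rw [mul_smul, h.2, hta]⟩
        have h1 : c ⟨g⁻¹ * x * g, hg⟩ = (⟨t * g, hgE⟩ : E)⁻¹ * (c (c ⟨x, hx⟩)) * ⟨t * g, hgE⟩ → True := fun _ => trivial
        have h2 : (⟨g⁻¹ * x * g, hg⟩ : E) = (⟨t * g, hgE⟩ : E)⁻¹ * c ⟨x, hx⟩ * ⟨t * g, hgE⟩ := by
          apply Subtype.ext
          push_cast
          rw [hc]
          group
        rw [hφ, hφ, h2, map_mul c, map_mul c, map_inv c, hconj, hconj, hcc, mul_comm]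
  have hone : ∀ x : E, x * c x ∈ commutator E := by
    intro x
    have h1 := stable_trivial hG hcop φ hstab x
    rw [hφ, ← map_mul] at h1
    exact (Abelianization.ker_of E) ▸ (MonoidHom.mem_ker.mpr h1)
  -- the commutator subgroup is cyclic, hence central
  haveI := hZg
  have hcyc : IsCyclic (commutator E) := IsZGroup.isCyclic_commutator E
  have hDcomm : ∀ x ∈ commutator E, ∀ y ∈ commutator E, x * y = y * x := by
    intro x hx y hy
    have := (IsCyclic.commGroup (α := commutator E)).mul_comm ⟨x, hx⟩ ⟨y, hy⟩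
    exact congrArg Subtype.val this
  have hDmap : ∀ (f : E →* E) (x : E), x ∈ commutator E → f x ∈ commutator E := by
    intro f x hx
    have h1 : Abelianization.of x = 1 := by rw [← MonoidHom.mem_ker, Abelianization.ker_of]; exact hx
    have h2 : Abelianization.of (f x) = 1 := by
      have h3 : Abelianization.map f (Abelianization.of x) = Abelianization.of (f x) := Abelianization.map_of f x
      rw [← h3, h1, map_one]
    exact (Abelianization.ker_of E) ▸ (MonoidHom.mem_ker.mpr h2)
  let c' : E →* E :=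
    { toFun := fun x => ⟨t⁻¹ * x * t, htE' x x.2⟩
      map_one' := Subtype.ext (by simp)
      map_mul' := fun x y => Subtype.ext (by simp [mul_assoc]) }
  have hcc' : ∀ x, c (c' x) = x := by
    intro x
    apply Subtype.ext
    show t * (t⁻¹ * x * t) * t⁻¹ = x
    group
  have hDc : ∀ x ∈ commutator E, ∀ y : E, x * y = y * x := by
    intro z hz y
    -- conjugation by y⁻¹ is a power map on the commutator subgroup
    let f : commutator E →* commutator E :=
      { toFun := fun x => ⟨y⁻¹ * x * y, by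
          have := (inferInstance : (commutator E).Normal).conj_mem x x.2 y⁻¹
          rwa [inv_inv] at this⟩
        map_one' := Subtype.ext (by simp)
        map_mul' := fun x w => Subtype.ext (by simp [mul_assoc]) }
    obtain ⟨m, hm⟩ := MonoidHom.map_cyclic f
    have hm' : ∀ x ∈ commutator E, y⁻¹ * x * y = x ^ m := by
      intro x hx
      have := congrArg Subtype.val (hm ⟨x, hx⟩)
      exact this
    have h1 : (c y)⁻¹ * z * c y = z ^ m := by
      have h2 := congrArg c (hm' (c' z) (hDmap c' z hz))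
      rw [map_mul, map_mul, map_inv, map_zpow, hcc'] at h2
      exact h2
    have h2 : c y = y⁻¹ * (y * c y) := by group
    have h3 : (c y)⁻¹ * z * c y = y * z * y⁻¹ := by
      have h4 : y * z * y⁻¹ ∈ commutator E := (inferInstance : (commutator E).Normal).conj_mem z hz y
      rw [h2]
      calc (y⁻¹ * (y * c y))⁻¹ * z * (y⁻¹ * (y * c y)) = (y * c y)⁻¹ * ((y * z * y⁻¹) * (y * c y)) := by group
        _ = (y * c y)⁻¹ * ((y * c y) * (y * z * y⁻¹)) := by rw [hDcomm _ h4 _ (hone y)]
        _ = y * z * y⁻¹ := by group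
    have h5 : y * z * y⁻¹ = y⁻¹ * z * y := by rw [← h3, h1, hm' z hz]
    have h6 : Commute z (y ^ 2) := by
      have h7 : z * (y * y) = y * y * z := by
        calc z * (y * y) = y * (y⁻¹ * z * y) * y := by group
          _ = y * (y * z * y⁻¹) * y := by rw [h5]
          _ = y * y * z := by group
      rw [sq]; exact h7
    -- y is a power of y²
    have h8 : Odd (orderOf y) := Odd.of_dvd_nat hodd (orderOf_dvd_natCard y)
    obtain ⟨k, hk⟩ := h8
    have h9 : y = (y ^ 2) ^ (k + 1) := by
      rw [← pow_mul]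
      have : 2 * (k + 1) = orderOf y + 1 := by omega
      rw [this, pow_succ, pow_orderOf_eq_one, one_mul]
    rw [h9]
    exact (h6.pow_right (k + 1)).eq
  have hcommE : ∀ x y : E, x * y = y * x := by
    intro x y
    refine commutative_of_cyclic_center_quotient (Abelianization.of (G := E)) ?_ x y
    rw [Abelianization.ker_of]
    intro d hd
    rw [Subgroup.mem_center_iff]
    intro g
    exact (hDc d hd g).symm
  refine ⟨fun x hx y hy => congrArg Subtype.val (hcommE ⟨x, hx⟩ ⟨y, hy⟩), fun x hx => ?_⟩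
  have h1 := hone ⟨x, hx⟩
  have h2 : commutator E = ⊥ := by
    rw [commutator_def, eq_bot_iff, Subgroup.commutator_le]
    intro u _ v _
    rw [Subgroup.mem_bot, commutatorElement_def, hcommE u v]; group
  rw [h2, Subgroup.mem_bot] at h1
  have h3 := congrArg Subtype.val h1
  have h4 : x * (t * x * t⁻¹) = 1 := h3
  exact (eq_inv_of_mul_eq_one_right h4)

end str

end

end Cfsg.Agent.Lib.Zass
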