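import Cfsg.Agent.Lib.ZassFeit
import Cfsg.Agent.S1524

set_option autoImplicit false

namespace Cfsg.Agent.Lib.ZassFeitB

open Cfsg MulAction Cfsg.Agent.Lib.Zass Cfsg.Agent.Lib.ZassChar Cfsg.Agent.Lib.ZassInv Cfsg.Agent.Lib.ZassNorm
open Cfsg.Agent.Lib.ZassFeit
open Cfsg.Agent.Lib.OddFeit Cfsg.Agent.Lib.OddSib

noncomputable section

theorem index_commutator_congr {A B : Type*} [Group A] [Group B] (f : A ≃* B) :
    (commutator A).index = (commutator B).index := by
  have h1 : (commutator A).index = Nat.card (Abelianization A) := Subgroup.index_eq_card _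
  have h2 : (commutator B).index = Nat.card (Abelianization B) := Subgroup.index_eq_card _
  rw [h1, h2]
  exact Nat.card_congr f.abelianizationCongr.toEquiv

section perfect

variable {G Ω : Type*} [Group G] [Fintype G] [MulAction G Ω] [Fintype Ω]

theorem feit_perfect (hZ : IsZassenhausGroup G Ω) {a b : Ω} (hab : a ≠ b) (H : Subgroup G)
    (hHa : H ≤ stabilizer G a) (hHcard : Nat.card H + 1 = Fintype.card Ω)
    (hHfix : ∀ u ∈ H, u ≠ 1 → ∀ c : Ω, u • c = c → c = a)
    (hodd : Odd (Nat.card (stabilizer G a ⊓ stabilizer G b : Subgroup G))) (hG : commutator G = ⊤) :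
    Nat.card H - 1 ≤ 2 * Nat.card (stabilizer G a ⊓ stabilizer G b : Subgroup G) ∨
      (IsPGroup 2 H ∧ (∃ u v : H, u * v ≠ v * u) ∧
        (commutator H).index ≤ 4 * Nat.card (stabilizer G a ⊓ stabilizer G b : Subgroup G) ^ 2 + 1) := by
  classical
  by_contra hcon
  push Not at hcon
  obtain ⟨hlt, hnex⟩ := hcon
  obtain ⟨hKn, hnilH⟩ := kernel_struct hZ hab H hHa hHcard hHfix
  have hfpf := kfpf hZ hab H hHa hHcard hHfix
  have hidx := kindex hZ hab H hHa hHcard
  have hKH := kcard H hHa
  have hK1 : H.subgroupOf (stabilizer G a) ≠ ⊥ := by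
    intro h
    rw [h, Subgroup.card_bot] at hKH
    omega
  let f : H.subgroupOf (stabilizer G a) ≃* H := Subgroup.subgroupOfEquivOfLe hHa
  haveI hnilK : Group.IsNilpotent (H.subgroupOf (stabilizer G a)) := (Group.isNilpotent_congr f).mpr hnilH
  have hTIH : ∀ g : G, g ∉ stabilizer G a → ∀ t : G, t ∈ H → g * t * g⁻¹ ∈ H → t = 1 := by
    intro g hg t ht hgt
    by_contra ht1
    apply hg
    have h2 : (g * t * g⁻¹) • a = a := hHa hgt
    rw [mul_smul, mul_smul, smul_eq_iff_eq_inv_smul] at h2
    have h3 := hHfix t ht ht1 _ h2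
    rw [mem_stabilizer_iff]
    rw [inv_smul_eq_iff] at h3
    exact h3.symm
  have hti := ti_iso (K := H.subgroupOf (stabilizer G a)) (by
    intro g hg t ht hgt
    obtain ⟨k, hk, hkt⟩ := ht
    obtain ⟨k', hk', hkt'⟩ := hgt
    apply hTIH g hg t
    · rw [← hkt]; exact hk
    · rw [← hkt']; exact hk')
  have hc : Nat.card (H.subgroupOf (stabilizer G a)) ≠ (H.subgroupOf (stabilizer G a)).index + 1 := by
    rw [hKH, hidx]
    omega
  have hcoh : IsCoherent (inducedIrrAbove (H.subgroupOf (stabilizer G a)) ⊥) {1}ᶜ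
      (fun α : stabilizer G a → ℂ => indFun (stabilizer G a) α) := by
    by_cases hHodd : Odd (Nat.card H)
    · -- odd order: Sibley
      have hres := S0878.result hZ a H hHa hHcard hHfix
      have hLodd : Odd (Nat.card (stabilizer G a)) := by
        rw [← (H.subgroupOf (stabilizer G a)).card_mul_index, hKH, hidx]
        exact hHodd.mul hodd
      have hdisj : Disjoint (H.subgroupOf (stabilizer G a)) ((stabilizer G b).subgroupOf (stabilizer G a)) := by
        rw [disjoint_iff, eq_bot_iff]
        intro x hx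
        have h1 : (x : G) ∈ H := hx.1
        have h2 : (x : G) • b = b := hx.2
        rw [Subgroup.mem_bot]
        by_contra hx1
        exact hab (hHfix _ h1 (fun h => hx1 (Subtype.ext h)) b h2).symm
      have hcompl : Subgroup.IsComplement' (H.subgroupOf (stabilizer G a)) ((stabilizer G b).subgroupOf (stabilizer G a)) := by
        apply Subgroup.isComplement'_of_card_mul_and_disjoint _ hdisj
        have h7 : (stabilizer G b).subgroupOf (stabilizer G a) =
            (stabilizer G a ⊓ stabilizer G b : Subgroup G).subgroupOf (stabilizer G a) := by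
          rw [Subgroup.inf_subgroupOf_left]
        have h8 : Nat.card ((stabilizer G b).subgroupOf (stabilizer G a)) =
            Nat.card (stabilizer G a ⊓ stabilizer G b : Subgroup G) := by
          rw [h7]; exact Nat.card_congr (Subgroup.subgroupOfEquivOfLe inf_le_left).toEquiv
        rw [h8, hKH, card_stab hZ hab]
        have h2 : Fintype.card Ω - 1 = Nat.card H := by omega
        rw [h2]
      refine S1524.result H (stabilizer G a) (stabilizer G a ⊓ stabilizer G b) hLodd hHa inf_le_left ?_ ?_ hnilH ?_ ?_ ?_ ?_ ?_ hres.2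
      · intro h
        rw [h, Subgroup.card_bot] at hHcard
        have := (two_lt hZ hab).2
        omega
      · intro h
        have h1 := (two_lt hZ hab).1
        rw [h, Subgroup.card_bot] at h1
        exact lt_irrefl _ h1
      · intro x hx h hh
        have h4 := hKn.conj_mem ⟨h, hHa hh⟩ (Subgroup.mem_subgroupOf.mpr hh) ⟨x, hx⟩
        rw [Subgroup.mem_subgroupOf] at h4
        exact h4
      · rw [eq_bot_iff]
        intro x hx
        obtain ⟨h1, h2⟩ := Subgroup.mem_inf.mp hx
        rw [Subgroup.mem_bot]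
        by_contra hx1
        exact hab (hHfix _ h1 hx1 b (mem_two.mp h2).2).symm
      · apply le_antisymm (sup_le hHa inf_le_left)
        intro x hx
        obtain ⟨⟨k, y⟩, hky⟩ := hcompl.2 ⟨x, hx⟩
        have h1 : (k : G) * (y : G) = x := congrArg Subtype.val hky
        rw [← h1]
        exact mul_mem (Subgroup.mem_sup_left k.2) (Subgroup.mem_sup_right (mem_two.mpr ⟨y.1.2, y.2⟩))
      · intro w hw hw1 h hh hwh
        by_contra h1
        have hwa := (mem_two.mp hw).1
        have hwb := (mem_two.mp hw).2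
        apply hw1
        have hha : h • a = a := hHa hh
        apply hZ.2.2.1 w a b (h • b) hab _ _ hwa hwb
        · rw [← mul_smul, hwh, mul_smul, hwb]
        · intro e
          exact hab (hHfix _ hh h1 b e.symm).symm
        · intro e
          exact hab (MulAction.injective h (hha.trans e))
      · intro g hg t ht hgt
        apply hTIH g _ t ht hgt
        intro hg'
        apply hg
        have h9 : Subgroup.normalizer (H : Set G) = stabilizer G a := hres.2
        rw [h9]; exact hg'
    · apply frob_coherent hfpf hK1 hti.1 hti.2 hc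
      by_cases hcomm : ∀ x ∈ H.subgroupOf (stabilizer G a), ∀ y ∈ H.subgroupOf (stabilizer G a), x * y = y * x
      · exact Or.inl hcomm
      · right
        refine ⟨hnilK, ?_⟩
        rintro ⟨p, m, hp, hpm⟩
        have hp2 : p = 2 := by
          by_contra hne
          apply hHodd
          rw [← hKH, hpm]
          exact (hp.odd_of_ne_two hne).pow
        subst hp2
        have hpg : IsPGroup 2 H := IsPGroup.of_card (n := m) (by rw [← hKH]; exact hpm)
        have hna : ∃ u v : H, u * v ≠ v * u := by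
          push Not at hcomm
          obtain ⟨x, hx, y, hy, hxy⟩ := hcomm
          refine ⟨⟨x, hx⟩, ⟨y, hy⟩, fun h => hxy ?_⟩
          have h2 : (x : G) * y = y * x := congrArg (fun z : H => (z : G)) h
          exact Subtype.ext h2
        have h1 := hnex hpg hna
        rw [hidx, index_commutator_congr f]
        exact h1
  obtain ⟨-, star, hstar, hext⟩ := hcoh
  exact feit_contra hZ hab H hHa hHcard hHfix hodd hG (by omega) hstar hext

end perfect

section general

variable {G Ω : Type*} [Group G] [Finite G] [MulAction G Ω] [Fintype Ω]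

theorem exists_perfect (hZ : IsZassenhausGroup G Ω) : ∃ N : Subgroup G, N.Normal ∧ N ≠ ⊥ ∧ commutator N = ⊤ := by
  classical
  haveI := hZ.1
  obtain ⟨g, hg1, a, b, hab, hga, hgb⟩ := hZ.2.2.2.1
  -- a minimal nontrivial normal subgroup
  obtain ⟨N, ⟨hNn, hNb⟩, hmin⟩ : ∃ N : Subgroup G, (N.Normal ∧ N ≠ ⊥) ∧ ∀ M : Subgroup G, (M.Normal ∧ M ≠ ⊥) → M ≤ N → M = N := by
    obtain ⟨N, hN⟩ := Set.Finite.exists_minimal (s := {N : Subgroup G | N.Normal ∧ N ≠ ⊥}) (Set.toFinite _)
      ⟨⊤, inferInstance, fun h => hg1 (by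
        have : g ∈ (⊤ : Subgroup G) := Subgroup.mem_top g
        rw [h, Subgroup.mem_bot] at this
        exact this)⟩
    exact ⟨N, hN.1, fun M hM hMN => le_antisymm hMN (hN.2 hM hMN)⟩
  refine ⟨N, hNn, hNb, ?_⟩
  have hZN := normal_zass hZ N hNb
  have hcn : (⁅N, N⁆ : Subgroup G).Normal := inferInstance
  have hle : (⁅N, N⁆ : Subgroup G) ≤ N := Subgroup.commutator_le_self N
  by_cases hcb : (⁅N, N⁆ : Subgroup G) = ⊥
  · exfalso
    have hcomm : ∀ x ∈ N, ∀ y ∈ N, x * y = y * x := by
      rw [Subgroup.commutator_eq_bot_iff_le_centralizer] at hcb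
      intro x hx y hy
      exact (Subgroup.mem_centralizer_iff.mp (hcb hx) y hy).symm
    haveI := pretransitive hZN
    obtain ⟨x, hx1, c, d, hcd, hxc, hxd⟩ := hZN.2.2.2.1
    apply hx1
    haveI := hZN.1
    apply FaithfulSMul.eq_of_smul_eq_smul (α := Ω)
    intro w
    obtain ⟨y, rfl⟩ := MulAction.exists_smul_eq N c w
    have h1 : x * y = y * x := Subtype.ext (hcomm x.1 x.2 y.1 y.2)
    rw [one_smul, ← mul_smul, h1, mul_smul, hxc]
  · have h1 := hmin _ ⟨hcn, hcb⟩ hle
    rw [eq_top_iff]
    intro x _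
    have h2 : (commutator N).map N.subtype = ⁅N, N⁆ := by
      rw [commutator_def, Subgroup.map_commutator, ← MonoidHom.range_eq_map, Subgroup.range_subtype]
    have h3 : (x : G) ∈ (commutator N).map N.subtype := by rw [h2, h1]; exact x.2
    obtain ⟨y, hy, hyx⟩ := Subgroup.mem_map.mp h3
    have h4 : y = x := Subtype.ext hyx
    rw [← h4]; exact hy

/-- **S0885 core** -/
theorem feit (hZ : IsZassenhausGroup G Ω) {a b : Ω} (hab : a ≠ b) (H : Subgroup G)
    (hHa : H ≤ stabilizer G a) (hHcard : Nat.card H + 1 = Fintype.card Ω)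
    (hHfix : ∀ u ∈ H, u ≠ 1 → ∀ c : Ω, u • c = c → c = a)
    (hodd : Odd (Nat.card (stabilizer G a ⊓ stabilizer G b : Subgroup G))) :
    Nat.card H - 1 ≤ 2 * Nat.card (stabilizer G a ⊓ stabilizer G b : Subgroup G) ∨
      (IsPGroup 2 H ∧ (∃ u v : H, u * v ≠ v * u) ∧
        (commutator H).index ≤ 4 * Nat.card (stabilizer G a ⊓ stabilizer G b : Subgroup G) ^ 2 + 1) := by
  classical
  obtain ⟨N, hNn, hNb, hNp⟩ := exists_perfect hZ
  have hZN := normal_zass hZ N hNb
  have hHN := H_le_normal hZ hab H hHa hHcard hHfix N hNb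
  haveI : Fintype N := Fintype.ofFinite N
  let f : H.subgroupOf N ≃* H := Subgroup.subgroupOfEquivOfLe hHN
  have hcardH : Nat.card (H.subgroupOf N) = Nat.card H := Nat.card_congr f.toEquiv
  have hdvd : Nat.card (stabilizer N a ⊓ stabilizer N b : Subgroup N) ∣
      Nat.card (stabilizer G a ⊓ stabilizer G b : Subgroup G) := by
    have h1 : (stabilizer N a ⊓ stabilizer N b : Subgroup N).map N.subtype ≤ stabilizer G a ⊓ stabilizer G b := by
      rintro x hx
      obtain ⟨y, hy, rfl⟩ := Subgroup.mem_map.mp hx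
      exact mem_two.mpr ⟨(mem_two.mp hy).1, (mem_two.mp hy).2⟩
    have h2 : Nat.card ((stabilizer N a ⊓ stabilizer N b : Subgroup N).map N.subtype) =
        Nat.card (stabilizer N a ⊓ stabilizer N b : Subgroup N) :=
      Subgroup.card_map_of_injective Subtype.val_injective
    rw [← h2]
    exact Subgroup.card_dvd_of_le h1
  have hle := Nat.le_of_dvd Nat.card_pos hdvd
  have h := feit_perfect hZN hab (H.subgroupOf N) (fun x hx => hHa hx) (by rw [hcardH]; exact hHcard)
    (fun u hu hu1 c hc => hHfix u.1 hu (fun e => hu1 (Subtype.ext e)) c hc)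
    (Odd.of_dvd_nat hodd hdvd) hNp
  rcases h with h | ⟨h1, ⟨u, v, huv⟩, h3⟩
  · left
    rw [hcardH] at h
    omega
  · right
    refine ⟨h1.of_equiv f, ⟨f u, f v, fun e => huv ?_⟩, ?_⟩
    · rw [← map_mul, ← map_mul] at e
      exact f.injective e
    · rw [← index_commutator_congr f]
      refine h3.trans ?_
      have : Nat.card (stabilizer N a ⊓ stabilizer N b : Subgroup N) ^ 2 ≤
          Nat.card (stabilizer G a ⊓ stabilizer G b : Subgroup G) ^ 2 := Nat.pow_le_pow_left hle 2
      omega

end general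

end

end Cfsg.Agent.Lib.ZassFeitB
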