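import Cfsg.Agent.Lib.ZassField
import Cfsg.Agent.Lib.ZassFeitB

/-!
# Zassenhaus groups with large two-point stabilizers
-/

set_option autoImplicit false

namespace Cfsg.Agent.Lib.ZassAb

open Cfsg MulAction Cfsg.Agent.Lib.Zass Cfsg.Agent.Lib.ZassChar Cfsg.Agent.Lib.ZassInv Cfsg.Agent.Lib.ZassNorm
open Cfsg.Agent.Lib.ZassEven Cfsg.Agent.Lib.ZassEvenB

noncomputable section

section reg

variable {G Ω : Type*} [Group G] [Finite G] [MulAction G Ω] [Fintype Ω]

/-- regular subgroups of point stabilizers satisfy the kernel hypotheses -/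
theorem of_regular {a b : Ω} (hab : a ≠ b) (F : Subgroup G)
    (hFle : F ≤ stabilizer G a) (hreg : ∀ y z : Ω, y ≠ a → z ≠ a → ∃! u : F, (u : G) • y = z) :
    Nat.card F + 1 = Fintype.card Ω ∧ ∀ u ∈ F, u ≠ 1 → ∀ c : Ω, u • c = c → c = a := by
  classical
  have hne : ∀ (u : F) (c : Ω), c ≠ a → (u : G) • c ≠ a := by
    intro u c hc h
    apply hc
    have h1 : (u : G) • a = a := hFle u.2
    exact MulAction.injective (u : G) (h.trans h1.symm)
  constructor
  · have e : F ≃ {c : Ω // c ≠ a} := by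
      refine Equiv.ofBijective (fun u => ⟨(u : G) • b, hne u b hab.symm⟩) ⟨?_, ?_⟩
      · intro u v h
        have h1 : (u : G) • b = (v : G) • b := congrArg Subtype.val h
        exact (hreg b ((v : G) • b) hab.symm (hne v b hab.symm)).unique h1 rfl
      · rintro ⟨c, hc⟩
        obtain ⟨u, hu, -⟩ := hreg b c hab.symm hc
        exact ⟨u, Subtype.ext hu⟩
    rw [Nat.card_congr e, Nat.card_eq_fintype_card]
    have h1 : Fintype.card {c : Ω // c ≠ a} = Fintype.card Ω - 1 := by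
      rw [Fintype.card_subtype_compl, Fintype.card_subtype_eq]
    have h2 : 0 < Fintype.card Ω := Fintype.card_pos_iff.mpr ⟨a⟩
    omega
  · intro u hu hu1 c hc
    by_contra hca
    apply hu1
    have h1 := (hreg c c hca hca).unique (y₁ := ⟨u, hu⟩) (y₂ := 1) hc (one_smul G c)
    exact congrArg Subtype.val h1

/-- if `|Ω| - 2 ≤ 2 e`, every nontrivial subgroup of `H` invariant under `E` is `H` -/
theorem inv_eq (hZ : IsZassenhausGroup G Ω) {a b : Ω} (hab : a ≠ b) (H : Subgroup G)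
    (hHa : H ≤ stabilizer G a) (hHcard : Nat.card H + 1 = Fintype.card Ω)
    (hHfix : ∀ u ∈ H, u ≠ 1 → ∀ c : Ω, u • c = c → c = a)
    (hd : Fintype.card Ω - 2 ≤ 2 * Nat.card (stabilizer G a ⊓ stabilizer G b : Subgroup G))
    (W : Subgroup G) (hWH : W ≤ H)
    (hW : ∀ x ∈ (stabilizer G a ⊓ stabilizer G b : Subgroup G), ∀ u ∈ W, x * u * x⁻¹ ∈ W)
    {w : G} (hw : w ∈ W) (hw1 : w ≠ 1) : W = H := by
  classical
  let f : (stabilizer G a ⊓ stabilizer G b : Subgroup G) → {u : W // True ∧ u ≠ 1} := fun x =>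
    ⟨⟨x * w * (x : G)⁻¹, hW x x.2 w hw⟩, trivial, fun h => by
      have h1 : (x : G) * w * (x : G)⁻¹ = 1 := congrArg Subtype.val h
      rw [conj_eq_one_iff] at h1
      exact hw1 h1⟩
  have hf : Function.Injective f := by
    intro x y hxy
    have h1 : (x : G) * w * (x : G)⁻¹ = y * w * (y : G)⁻¹ :=
      congrArg (fun u => ((u : {u : W // True ∧ u ≠ 1}).1 : G)) hxy
    by_contra hne
    apply hw1
    have hyx : ((y : G)⁻¹ * x) ≠ 1 := by
      intro h
      apply hne
      apply Subtype.ext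
      rw [inv_mul_eq_one] at h
      exact h.symm
    have h2 := mem_two.mp (mul_mem (inv_mem y.2) x.2)
    apply comm_eq_one hZ hab H hHa hHfix hyx h2.1 h2.2 (hWH hw)
    calc (y : G)⁻¹ * x * w = (y : G)⁻¹ * (x * w * (x : G)⁻¹) * x := by group
      _ = w * ((y : G)⁻¹ * x) := by rw [h1]; group
  have h1 := Nat.card_le_card_of_injective f hf
  have h2 := card_ne_add_one (A := W) (P := fun _ => True) (y := 1) trivial
  have h3 : Nat.card {x : W // True} = Nat.card W := Nat.card_congr (Equiv.subtypeUnivEquiv (fun _ => trivial))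
  have h4 : Nat.card W ∣ Nat.card H := Subgroup.card_dvd_of_le hWH
  have h5 := (two_lt hZ hab).2
  apply Subgroup.eq_of_le_of_card_ge hWH
  obtain ⟨k, hk⟩ := h4
  have hk0 : k ≠ 0 := by
    rintro rfl
    have : 0 < Nat.card H := Nat.card_pos
    omega
  have hk2 : k < 2 := by
    by_contra h
    push Not at h
    have : Nat.card W * 2 ≤ Nat.card H := by rw [hk]; exact Nat.mul_le_mul_left _ h
    omega
  have : k = 1 := by omega
  rw [hk, this, mul_one]

/-- `H` is elementary abelian if `|Ω| - 2 ≤ 2 e` -/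
theorem elementary (hZ : IsZassenhausGroup G Ω) {a b : Ω} (hab : a ≠ b) (H : Subgroup G)
    (hHa : H ≤ stabilizer G a) (hHcard : Nat.card H + 1 = Fintype.card Ω)
    (hHfix : ∀ u ∈ H, u ≠ 1 → ∀ c : Ω, u • c = c → c = a)
    (hd : Fintype.card Ω - 2 ≤ 2 * Nat.card (stabilizer G a ⊓ stabilizer G b : Subgroup G)) :
    (∀ u ∈ H, ∀ v ∈ H, u * v = v * u) ∧ ∃ p f : ℕ, p.Prime ∧ f ≠ 0 ∧ (∀ u ∈ H, u ^ p = 1) ∧ Nat.card H = p ^ f := by
  classical
  have hnil := (kernel_struct hZ hab H hHa hHcard hHfix).2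
  have h5 := (two_lt hZ hab).2
  haveI : Nontrivial H := Finite.one_lt_card_iff_nontrivial.mp (by omega)
  -- the center
  have hcomm : ∀ u ∈ H, ∀ v ∈ H, u * v = v * u := by
    haveI : Nontrivial (Subgroup.center H) :=
      (Subgroup.nontrivial_iff_ne_bot _).mpr (Group.IsNilpotent.center_ne_bot H)
    obtain ⟨w, hw⟩ := exists_ne (1 : Subgroup.center H)
    have hW : (Subgroup.center H).map H.subtype = H := by
      apply inv_eq hZ hab H hHa hHcard hHfix hd _ (Subgroup.map_subtype_le _) _ (w := ((w : H) : G))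
        ⟨(w : H), w.2, rfl⟩ (fun h => hw (Subtype.ext (Subtype.ext h)))
      rintro x hx _ ⟨u, hu, rfl⟩
      have hxa := (mem_two.mp hx).1
      have hxa' : x⁻¹ • a = a := inv_smul_eq_iff.mpr hxa.symm
      refine ⟨⟨x * u * x⁻¹, H_conj hZ hab H hHa hHcard hHfix hxa u.2⟩, ?_, rfl⟩
      rw [SetLike.mem_coe, Subgroup.mem_center_iff]
      intro v
      apply Subtype.ext
      show (v : G) * (x * u * x⁻¹) = (x * u * x⁻¹) * v
      have hv := H_conj hZ hab H hHa hHcard hHfix hxa' v.2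
      have h1 := congrArg Subtype.val (Subgroup.mem_center_iff.mp hu ⟨_, hv⟩)
      have h2 : x⁻¹ * v * x⁻¹⁻¹ * u = u * (x⁻¹ * v * x⁻¹⁻¹) := h1
      calc (v : G) * (x * u * x⁻¹) = x * (x⁻¹ * v * x⁻¹⁻¹ * u) * x⁻¹ := by group
        _ = (x * u * x⁻¹) * v := by rw [h2]; group
    intro u hu v hv
    have h1 : u ∈ (Subgroup.center H).map H.subtype := by rw [hW]; exact hu
    obtain ⟨u', hu', rfl⟩ := h1
    exact (congrArg Subtype.val (Subgroup.mem_center_iff.mp hu' ⟨v, hv⟩)).symm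
  refine ⟨hcomm, ?_⟩
  obtain ⟨p, hp, hpd⟩ := Nat.exists_prime_and_dvd (show Nat.card H ≠ 1 by omega)
  haveI : Fact p.Prime := ⟨hp⟩
  obtain ⟨w, hw⟩ := exists_prime_orderOf_dvd_card' p hpd
  let W : Subgroup G :=
    { carrier := {u | u ∈ H ∧ u ^ p = 1}
      one_mem' := ⟨H.one_mem, one_pow p⟩
      mul_mem' := by
        rintro u v ⟨hu, hup⟩ ⟨hv, hvp⟩
        refine ⟨H.mul_mem hu hv, ?_⟩
        have : Commute u v := hcomm u hu v hv
        rw [this.mul_pow, hup, hvp, one_mul]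
      inv_mem' := by
        rintro u ⟨hu, hup⟩
        exact ⟨H.inv_mem hu, by rw [inv_pow, hup, inv_one]⟩ }
  have hWH : W = H := by
    apply inv_eq hZ hab H hHa hHcard hHfix hd W (fun u hu => hu.1) _ (w := (w : G))
    · refine ⟨w.2, ?_⟩
      have h1 := pow_orderOf_eq_one w
      rw [hw] at h1
      exact congrArg Subtype.val h1
    · intro h
      have h1 : w = 1 := Subtype.ext h
      rw [h1, orderOf_one] at hw
      exact hp.one_lt.ne hw
    · rintro x hx u ⟨hu, hup⟩
      refine ⟨H_conj hZ hab H hHa hHcard hHfix (mem_two.mp hx).1 hu, ?_⟩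
      rw [conj_pow, hup, mul_one, mul_inv_cancel]
  have hexp : ∀ u ∈ H, u ^ p = 1 := by
    intro u hu
    rw [← hWH] at hu
    exact hu.2
  have hP : IsPGroup p H := by
    intro u
    exact ⟨1, by rw [pow_one]; exact Subtype.ext (hexp u u.2)⟩
  obtain ⟨f, hf⟩ := IsPGroup.iff_card.mp hP
  refine ⟨p, f, hp, ?_, hexp, hf⟩
  rintro rfl
  rw [pow_zero] at hf
  omega

/-- prime power degree, simple case -/
theorem prime_power [IsSimpleGroup G] (hZ : IsZassenhausGroup G Ω) : IsPrimePow (Fintype.card Ω - 1) := by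
  obtain ⟨-, -, -, ⟨g, -, a, b, hab, -, -⟩, -⟩ := id hZ
  obtain ⟨H, hHa, hHcard, hHfix⟩ := exists_H hZ hab
  have h5 := (two_lt hZ hab).2
  have hH : Fintype.card Ω - 1 = Nat.card H := by omega
  rw [hH]
  by_cases hd : Fintype.card Ω - 2 ≤ 2 * Nat.card (stabilizer G a ⊓ stabilizer G b : Subgroup G)
  · obtain ⟨-, p, f, hp, hf0, -, hf⟩ := elementary hZ hab H hHa hHcard hHfix hd
    rw [hf]
    exact hp.isPrimePow.pow hf0
  · rcases Nat.even_or_odd (Nat.card (stabilizer G a ⊓ stabilizer G b : Subgroup G)) with heven | hodd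
    · exact absurd (even_large hZ hab heven) hd
    · rcases Cfsg.Agent.Lib.ZassFeitB.feit hZ hab H hHa hHcard hHfix hodd with h1 | ⟨h2, -⟩
      · exfalso
        apply hd
        omega
      · haveI : Fact (Nat.Prime 2) := ⟨Nat.prime_two⟩
        obtain ⟨f, hf⟩ := IsPGroup.iff_card.mp h2
        rw [hf]
        apply Nat.prime_two.isPrimePow.pow
        rintro rfl
        rw [pow_zero] at hf
        omega

end reg

end

end Cfsg.Agent.Lib.ZassAb
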