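import Cfsg.Agent.Lib.Zass
import Cfsg.Agent.Lib.OddTIChar

set_option autoImplicit false

namespace Cfsg.Agent.Lib.ZassChar

open Cfsg MulAction Cfsg.Agent.Lib.Zass
open Cfsg.Agent.Lib.CharBasic Cfsg.Agent.Lib.CharInd Cfsg.Agent.Lib.CharLin
open scoped ComplexConjugate

noncomputable section

section kernel

variable {G Ω : Type*} [Group G] [Finite G] [MulAction G Ω] [Fintype Ω]

theorem kernel_eq (hZ : IsZassenhausGroup G Ω) {a b : Ω} (hab : a ≠ b) (H : Subgroup G) (hHa : H ≤ stabilizer G a)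
    (hHcard : Nat.card H + 1 = Fintype.card Ω) (hHfix : ∀ u ∈ H, u ≠ 1 → ∀ c : Ω, u • c = c → c = a) :
    ((H.subgroupOf (stabilizer G a) : Subgroup (stabilizer G a)) : Set (stabilizer G a)) =
      frobeniusKernel ((stabilizer G b).subgroupOf (stabilizer G a)) := by
  classical
  have hF := frob_compl hZ hab
  have hcard := Cfsg.Agent.Lib.Frob.card_kernel (H := (stabilizer G b).subgroupOf (stabilizer G a)) hF.2.2
  have hidx := S0878.index_eq hZ hab
  apply Set.eq_of_subset_of_ncard_le _ _ (Set.toFinite _)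
  · intro u hu
    rw [SetLike.mem_coe, Subgroup.mem_subgroupOf] at hu
    by_cases hu1 : u = 1
    · exact Or.inl hu1
    right
    intro g hg
    rw [Cfsg.Agent.Lib.SchurZas.mem_conj_smul_iff, Subgroup.mem_subgroupOf] at hg
    have h4 : ((g : G)⁻¹ * u * g) • b = b := hg
    rw [mul_smul, mul_smul, inv_smul_eq_iff] at h4
    have h5 := hHfix _ hu (fun h => hu1 (Subtype.ext h)) _ h4
    have hga : (g : G) • a = a := g.2
    exact hab (MulAction.injective (g : G) (hga.trans h5.symm))
  · rw [← Nat.card_coe_set_eq, ← Nat.card_coe_set_eq, hcard]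
    have h4 : Nat.card (H.subgroupOf (stabilizer G a) : Subgroup (stabilizer G a)) = Nat.card H :=
      Nat.card_congr (Subgroup.subgroupOfEquivOfLe hHa).toEquiv
    change _ ≤ Nat.card (H.subgroupOf (stabilizer G a) : Subgroup (stabilizer G a))
    rw [h4]
    omega

/-- elements of the point stabilizer outside the kernel fix a second point -/
theorem fix_of_not_mem (hZ : IsZassenhausGroup G Ω) {a b : Ω} (hab : a ≠ b) (H : Subgroup G) (hHa : H ≤ stabilizer G a)
    (hHcard : Nat.card H + 1 = Fintype.card Ω) (hHfix : ∀ u ∈ H, u ≠ 1 → ∀ c : Ω, u • c = c → c = a)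
    {k : G} (hk : k • a = a) (hkH : k ∉ H) : ∃ c : Ω, a ≠ c ∧ k • c = c := by
  have h1 : (⟨k, hk⟩ : stabilizer G a) ∉ frobeniusKernel ((stabilizer G b).subgroupOf (stabilizer G a)) := by
    rw [← kernel_eq hZ hab H hHa hHcard hHfix]
    exact hkH
  unfold frobeniusKernel at h1
  rw [Set.mem_setOf_eq] at h1
  push Not at h1
  obtain ⟨-, g, hg⟩ := h1
  rw [Cfsg.Agent.Lib.SchurZas.mem_conj_smul_iff, Subgroup.mem_subgroupOf] at hg
  have h4 : ((g : G)⁻¹ * k * g) • b = b := hg
  rw [mul_smul, mul_smul, inv_smul_eq_iff] at h4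
  refine ⟨(g : G) • b, ?_, h4⟩
  intro h
  apply hab
  have hga : (g : G) • a = a := g.2
  exact MulAction.injective (g : G) (hga.trans h)

theorem card_stab (hZ : IsZassenhausGroup G Ω) {a b : Ω} (hab : a ≠ b) :
    Nat.card (stabilizer G a) = (Fintype.card Ω - 1) * Nat.card (stabilizer G a ⊓ stabilizer G b : Subgroup G) := by
  have h5 := ((stabilizer G b).subgroupOf (stabilizer G a)).card_mul_index
  have hidx := S0878.index_eq hZ hab
  have h6 : Nat.card ((stabilizer G b).subgroupOf (stabilizer G a)) =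
      Nat.card (stabilizer G a ⊓ stabilizer G b : Subgroup G) := by
    have h7 : (stabilizer G b).subgroupOf (stabilizer G a) =
        (stabilizer G a ⊓ stabilizer G b : Subgroup G).subgroupOf (stabilizer G a) := by
      rw [Subgroup.inf_subgroupOf_left]
    rw [h7]
    exact Nat.card_congr (Subgroup.subgroupOfEquivOfLe inf_le_left).toEquiv
  rw [h6] at h5
  have h8 : ((stabilizer G b).subgroupOf (stabilizer G a)).index = Fintype.card Ω - 1 := by omega
  rw [← h5, h8]; ring

theorem pretransitive (hZ : IsZassenhausGroup G Ω) : MulAction.IsPretransitive G Ω := by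
  obtain ⟨-, h2, -, -, -⟩ := hZ
  haveI := h2
  exact MulAction.isPretransitive_of_is_two_pretransitive

theorem exists_swap (hZ : IsZassenhausGroup G Ω) {a b : Ω} (hab : a ≠ b) : ∃ t : G, t • a = b ∧ t • b = a := by
  obtain ⟨-, h2, -, -, -⟩ := hZ
  rw [MulAction.is_two_pretransitive_iff] at h2
  exact h2 hab (Ne.symm hab)

end kernel

section lin

variable {G Ω : Type*} [Group G] [Fintype G] [MulAction G Ω] [Fintype Ω]

/-- value of an induced linear character at an element of the kernel -/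
theorem ind_lin_H (hZ : IsZassenhausGroup G Ω) {a : Ω} (H : Subgroup G) (hHa : H ≤ stabilizer G a)
    (hHfix : ∀ u ∈ H, u ≠ 1 → ∀ c : Ω, u • c = c → c = a)
    (l : stabilizer G a →* ℂˣ) (hl : ∀ u : stabilizer G a, (u : G) ∈ H → l u = 1) {u : G} (hu : u ∈ H) (hu1 : u ≠ 1) :
    indFun (stabilizer G a) (linFn l) u = 1 := by
  classical
  rw [indFun_apply]
  have h1 : ∀ x : G, extendByZero (stabilizer G a) (linFn l) (x⁻¹ * u * x) = if x ∈ stabilizer G a then 1 else 0 := by
    intro x
    by_cases hx : x ∈ stabilizer G a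
    · rw [if_pos hx]
      have hm : x⁻¹ * u * x ∈ stabilizer G a := mul_mem (mul_mem (inv_mem hx) (hHa hu)) hx
      rw [ext_mem _ _ hm, linFn_apply]
      have h2 : (⟨x⁻¹ * u * x, hm⟩ : stabilizer G a) = (⟨x, hx⟩ : stabilizer G a)⁻¹ * ⟨u, hHa hu⟩ * ⟨x, hx⟩ := rfl
      rw [h2, map_mul, map_mul, map_inv, hl ⟨u, hHa hu⟩ hu]; simp
    · rw [if_neg hx]
      apply ext_notMem
      intro hm
      apply hx
      have h2 : (x⁻¹ * u * x) • a = a := hm
      rw [mul_smul, mul_smul, inv_smul_eq_iff] at h2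
      exact hHfix u hu hu1 _ h2
  simp only [h1]
  rw [Finset.sum_ite, Finset.sum_const_zero, add_zero, Finset.sum_const, nsmul_eq_mul, mul_one, ← Fintype.card_subtype,
    ← Nat.card_eq_fintype_card]
  exact inv_mul_cancel₀ (Nat.cast_ne_zero.mpr Nat.card_pos.ne')

/-- value of an induced linear character at an element with two fixed points -/
theorem ind_lin_two (hZ : IsZassenhausGroup G Ω) {a b : Ω} (hab : a ≠ b)
    (hinv : ∀ t : G, t • a = b → t • b = a → ∀ x ∈ (stabilizer G a ⊓ stabilizer G b : Subgroup G), t * x * t⁻¹ = x⁻¹)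
    (l : stabilizer G a →* ℂˣ) {k : G} (hk1 : k ≠ 1) (hka : k • a = a) (hkb : k • b = b) :
    indFun (stabilizer G a) (linFn l) k = (l ⟨k, hka⟩ : ℂ) + ((l ⟨k, hka⟩)⁻¹ : ℂˣ) := by
  classical
  obtain ⟨t, hta, htb⟩ := exists_swap hZ hab
  have hkE : k ∈ (stabilizer G a ⊓ stabilizer G b : Subgroup G) := ⟨hka, hkb⟩
  have hti : t⁻¹ * k * t = k⁻¹ := by
    have h1 := hinv t hta htb k⁻¹ (inv_mem hkE)
    rw [inv_inv] at h1
    have h2 : t⁻¹ * k * t = t⁻¹ * (t * k⁻¹ * t⁻¹) * t := by rw [h1]
    rw [h2]; group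
  have hfix : ∀ c : Ω, k • c = c → c = a ∨ c = b := fun c hc => S0879.fix_pair hZ hab hkE hk1 hc
  rw [indFun_apply]
  have h1 : ∀ x : G, extendByZero (stabilizer G a) (linFn l) (x⁻¹ * k * x) =
      (if x ∈ stabilizer G a then (l ⟨k, hka⟩ : ℂ) else 0) + (if t⁻¹ * x ∈ stabilizer G a then (((l ⟨k, hka⟩)⁻¹ : ℂˣ) : ℂ) else 0) := by
    intro x
    have hxt : t⁻¹ * x ∈ stabilizer G a ↔ x • a = b := by
      rw [mem_stabilizer_iff, mul_smul, inv_smul_eq_iff, hta]
    by_cases hx : x ∈ stabilizer G a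
    · have hx' : ¬ t⁻¹ * x ∈ stabilizer G a := by
        rw [hxt]; intro h
        exact hab ((mem_stabilizer_iff.mp hx).symm.trans h)
      rw [if_pos hx, if_neg hx', add_zero]
      have hm : x⁻¹ * k * x ∈ stabilizer G a := mul_mem (mul_mem (inv_mem hx) hka) hx
      rw [ext_mem _ _ hm, linFn_apply]
      have h2 : (⟨x⁻¹ * k * x, hm⟩ : stabilizer G a) = (⟨x, hx⟩ : stabilizer G a)⁻¹ * ⟨k, hka⟩ * ⟨x, hx⟩ := rfl
      rw [h2, map_mul, map_mul, map_inv, mul_comm, ← mul_assoc, mul_inv_cancel, one_mul]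
    · rw [if_neg hx, zero_add]
      by_cases hx' : t⁻¹ * x ∈ stabilizer G a
      · rw [if_pos hx']
        have he : x⁻¹ * k * x = (t⁻¹ * x)⁻¹ * k⁻¹ * (t⁻¹ * x) := by
          rw [← hti]; group
        have hm : x⁻¹ * k * x ∈ stabilizer G a := by
          rw [he]; exact mul_mem (mul_mem (inv_mem hx') (inv_mem hka)) hx'
        rw [ext_mem _ _ hm, linFn_apply]
        have h2 : (⟨x⁻¹ * k * x, hm⟩ : stabilizer G a) = (⟨t⁻¹ * x, hx'⟩ : stabilizer G a)⁻¹ * (⟨k, hka⟩ : stabilizer G a)⁻¹ * ⟨t⁻¹ * x, hx'⟩ :=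
          Subtype.ext he
        rw [h2, map_mul, map_mul, map_inv, map_inv, mul_comm, ← mul_assoc, mul_inv_cancel, one_mul]
      · rw [if_neg hx']
        apply ext_notMem
        intro hm
        have h2 : (x⁻¹ * k * x) • a = a := hm
        rw [mul_smul, mul_smul, inv_smul_eq_iff] at h2
        rcases hfix _ h2 with h | h
        · exact hx h
        · exact hx' (hxt.mpr h)
  simp only [h1]
  rw [Finset.sum_add_distrib]
  have h2 : ∑ x : G, (if x ∈ stabilizer G a then (l ⟨k, hka⟩ : ℂ) else 0) = Nat.card (stabilizer G a) * (l ⟨k, hka⟩ : ℂ) := by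
    rw [Finset.sum_ite, Finset.sum_const_zero, add_zero, Finset.sum_const, nsmul_eq_mul, ← Fintype.card_subtype,
      ← Nat.card_eq_fintype_card]
  have h3 : ∑ x : G, (if t⁻¹ * x ∈ stabilizer G a then (((l ⟨k, hka⟩)⁻¹ : ℂˣ) : ℂ) else 0) =
      Nat.card (stabilizer G a) * (((l ⟨k, hka⟩)⁻¹ : ℂˣ) : ℂ) := by
    rw [Fintype.sum_bijective (fun x => t⁻¹ * x) (Group.mulLeft_bijective t⁻¹) _
      (fun x => if x ∈ stabilizer G a then (((l ⟨k, hka⟩)⁻¹ : ℂˣ) : ℂ) else 0) (fun x => rfl),
      Finset.sum_ite, Finset.sum_const_zero, add_zero, Finset.sum_const, nsmul_eq_mul, ← Fintype.card_subtype,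
      ← Nat.card_eq_fintype_card]
  rw [h2, h3, ← mul_add, ← mul_assoc, inv_mul_cancel₀ (Nat.cast_ne_zero.mpr Nat.card_pos.ne'), one_mul]

end lin
noncomputable section

section irr

variable {G Ω : Type*} [Group G] [Fintype G] [MulAction G Ω] [Fintype Ω]

/-- a linear character trivial on the kernel has order dividing `e` -/
theorem lin_pow (hZ : IsZassenhausGroup G Ω) {a b : Ω} (hab : a ≠ b) (H : Subgroup G) (hHa : H ≤ stabilizer G a)
    (hHcard : Nat.card H + 1 = Fintype.card Ω) (hHfix : ∀ u ∈ H, u ≠ 1 → ∀ c : Ω, u • c = c → c = a)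
    (l : stabilizer G a →* ℂˣ) (hl : ∀ u : stabilizer G a, (u : G) ∈ H → l u = 1) :
    l ^ Nat.card (stabilizer G a ⊓ stabilizer G b : Subgroup G) = 1 := by
  classical
  ext k
  rw [MonoidHom.pow_apply, MonoidHom.one_apply]
  congr 1
  by_cases hk : (k : G) ∈ H
  · rw [hl k hk, one_pow]
  · obtain ⟨c, hac, hkc⟩ := fix_of_not_mem hZ hab H hHa hHcard hHfix k.2 hk
    have h1 : Nat.card (stabilizer G a ⊓ stabilizer G b : Subgroup G) =
        Nat.card (stabilizer G a ⊓ stabilizer G c : Subgroup G) := by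
      have h2 := card_group hZ hab
      have h3 := card_group hZ hac
      have h4 := two_lt hZ hab
      rw [← h3] at h2
      exact Nat.eq_of_mul_eq_mul_left (Nat.mul_pos (by omega) (by omega)) h2
    have h2 : (k : G) ^ Nat.card (stabilizer G a ⊓ stabilizer G c : Subgroup G) = 1 := by
      have h3 : (⟨(k : G), ⟨k.2, hkc⟩⟩ : (stabilizer G a ⊓ stabilizer G c : Subgroup G)) ^
          Nat.card (stabilizer G a ⊓ stabilizer G c : Subgroup G) = 1 := pow_card_eq_one'
      have := congrArg Subtype.val h3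
      simpa using this
    rw [h1, ← map_pow]
    have h3 : k ^ Nat.card (stabilizer G a ⊓ stabilizer G c : Subgroup G) = 1 := Subtype.ext (by simpa using h2)
    rw [h3, map_one]

/-- inner products of induced linear characters -/
theorem ind_lin_inner (hZ : IsZassenhausGroup G Ω) {a b : Ω} (hab : a ≠ b) (H : Subgroup G) (hHa : H ≤ stabilizer G a)
    (hHcard : Nat.card H + 1 = Fintype.card Ω) (hHfix : ∀ u ∈ H, u ≠ 1 → ∀ c : Ω, u • c = c → c = a)
    (hodd : Odd (Nat.card (stabilizer G a ⊓ stabilizer G b : Subgroup G))) (hG : commutator G = ⊤)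
    (l m : stabilizer G a →* ℂˣ) (hl : ∀ u : stabilizer G a, (u : G) ∈ H → l u = 1)
    (hm : ∀ u : stabilizer G a, (u : G) ∈ H → m u = 1) [Decidable (l = m)] [Decidable (l⁻¹ = m)] :
    classInner (indFun (stabilizer G a) (linFn l)) (indFun (stabilizer G a) (linFn m)) =
      (if l = m then 1 else 0) + (if l⁻¹ = m then 1 else 0) := by
  classical
  rw [reciprocity' _ _ _ (indFun_classFn _ _)]
  have hcardE : ∀ {c : Ω}, a ≠ c → Nat.card (stabilizer G a ⊓ stabilizer G c : Subgroup G) =
      Nat.card (stabilizer G a ⊓ stabilizer G b : Subgroup G) := by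
    intro c hac
    have h2 := card_group hZ hab
    have h3 := card_group hZ hac
    have h4 := two_lt hZ hab
    rw [← h3] at h2
    exact (Nat.eq_of_mul_eq_mul_left (Nat.mul_pos (by omega) (by omega)) h2).symm
  have hn := two_lt hZ hab
  -- pointwise formula
  have h1 : ∀ k : stabilizer G a, indFun (stabilizer G a) (linFn l) (k : G) =
      linFn l k + linFn l⁻¹ k + (if k = 1 then ((Fintype.card Ω : ℂ) - 2) else 0) -
        (if (k : G) ∈ H ∧ k ≠ 1 then 1 else 0) := by
    intro k
    by_cases hk1 : k = 1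
    · subst hk1
      rw [OneMemClass.coe_one, indFun_one, linFn_apply_one, linFn_apply_one, if_pos rfl, if_neg (fun h => h.2 rfl),
        mul_one, sub_zero]
      have h2 : (stabilizer G a).index = Fintype.card Ω := by
        haveI : MulAction.IsPretransitive G Ω := pretransitive hZ
        rw [MulAction.index_stabilizer_of_transitive, Nat.card_eq_fintype_card]
      rw [h2]; ring
    · by_cases hk : (k : G) ∈ H
      · have hk1' : (k : G) ≠ 1 := fun h => hk1 (Subtype.ext h)
        rw [ind_lin_H hZ H hHa hHfix l hl hk hk1', if_neg hk1, if_pos ⟨hk, hk1⟩, linFn_apply, linFn_apply, hl k hk,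
          MonoidHom.inv_apply, hl k hk]
        simp
      · obtain ⟨c, hac, hkc⟩ := fix_of_not_mem hZ hab H hHa hHcard hHfix k.2 hk
        have hk1' : (k : G) ≠ 1 := fun h => hk1 (Subtype.ext h)
        have hinv : ∀ t : G, t • a = c → t • c = a → ∀ x ∈ (stabilizer G a ⊓ stabilizer G c : Subgroup G),
            t * x * t⁻¹ = x⁻¹ := fun t h1 h2 =>
          (inverts hZ hac (by rw [hcardE hac]; exact hodd) hG h1 h2).2
        rw [ind_lin_two hZ hac hinv l hk1' k.2 hkc, if_neg hk1, if_neg (fun h => hk h.1), add_zero, sub_zero, linFn_apply,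
          linFn_apply, MonoidHom.inv_apply]
  have h2 : (fun k : stabilizer G a => indFun (stabilizer G a) (linFn l) (k : G)) =
      (linFn l + linFn l⁻¹) + (fun k : stabilizer G a => (if k = 1 then ((Fintype.card Ω : ℂ) - 2) else 0) -
        (if (k : G) ∈ H ∧ k ≠ 1 then 1 else 0)) := by
    funext k
    rw [h1 k]
    simp only [Pi.add_apply]
    ring
  rw [h2, classInner_add_left, classInner_add_left, linFn_inner, linFn_inner]
  have h3 : classInner (fun k : stabilizer G a => (if k = 1 then ((Fintype.card Ω : ℂ) - 2) else 0) -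
        (if (k : G) ∈ H ∧ k ≠ 1 then 1 else 0)) (linFn m) = 0 := by
    unfold classInner
    apply mul_eq_zero_of_right
    have h4 : ∀ k : stabilizer G a, ((if k = 1 then ((Fintype.card Ω : ℂ) - 2) else 0) -
        (if (k : G) ∈ H ∧ k ≠ 1 then 1 else 0)) * conj (linFn m k) =
        (if k = 1 then ((Fintype.card Ω : ℂ) - 1) else 0) - (if (k : G) ∈ H then 1 else 0) := by
      intro k
      by_cases hk1 : k = 1
      · subst hk1
        rw [if_pos rfl, if_neg (fun h => h.2 rfl), if_pos rfl, if_pos (by exact H.one_mem), linFn_apply_one, map_one]; ring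
      · by_cases hk : (k : G) ∈ H
        · rw [if_neg hk1, if_pos ⟨hk, hk1⟩, if_neg hk1, if_pos hk, linFn_apply, hm k hk]; simp
        · rw [if_neg hk1, if_neg (fun h => hk h.1), if_neg hk1, if_neg hk]; simp
    rw [Finset.sum_congr rfl (fun k _ => h4 k), Finset.sum_sub_distrib, Finset.sum_ite_eq' Finset.univ (1 : stabilizer G a),
      if_pos (Finset.mem_univ _), Finset.sum_ite, Finset.sum_const_zero, add_zero, Finset.sum_const, nsmul_eq_mul, mul_one,
      ← Fintype.card_subtype]
    have h5 : Fintype.card {k : stabilizer G a // (k : G) ∈ H} = Nat.card H := by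
      rw [← Nat.card_eq_fintype_card]
      exact Nat.card_congr (Subgroup.subgroupOfEquivOfLe hHa).toEquiv
    rw [h5]
    have h6 : (Fintype.card Ω : ℂ) = Nat.card H + 1 := by rw [← hHcard]; push_cast; ring
    rw [h6]; ring
  rw [h3, add_zero]

theorem perfect (hZ : IsZassenhausGroup G Ω) {a b : Ω} (hab : a ≠ b) [IsSimpleGroup G] : commutator G = ⊤ := by
  rcases (inferInstance : (commutator G).Normal).eq_bot_or_eq_top with h | h
  · exfalso
    have hc : ∀ x y : G, x * y = y * x := by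
      intro x y
      have h1 : x * y * x⁻¹ * y⁻¹ ∈ commutator G := by
        have h1 := Subgroup.commutator_mem_commutator (Subgroup.mem_top x) (Subgroup.mem_top y)
        rw [commutatorElement_def] at h1
        exact h1
      rw [h, Subgroup.mem_bot] at h1
      have h2 : x * y * x⁻¹ * y⁻¹ * y * x = 1 * y * x := by rw [h1]
      have h3 : x * y * x⁻¹ * y⁻¹ * y * x = x * y := by group
      rw [← h3, h2, one_mul]
    have h1 := (two_lt hZ hab).1
    haveI : Nontrivial (stabilizer G a ⊓ stabilizer G b : Subgroup G) := Finite.one_lt_card_iff_nontrivial.mp h1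
    obtain ⟨⟨x, hxa, hxb⟩, hx1⟩ := exists_ne (1 : (stabilizer G a ⊓ stabilizer G b : Subgroup G))
    apply hx1
    haveI : MulAction.IsPretransitive G Ω := pretransitive hZ
    haveI := hZ.1
    apply Subtype.ext
    apply FaithfulSMul.eq_of_smul_eq_smul (α := Ω)
    intro c
    obtain ⟨g, rfl⟩ := MulAction.exists_smul_eq G a c
    change x • g • a = (1 : G) • g • a
    rw [one_smul, ← mul_smul, hc x g, mul_smul, mem_stabilizer_iff.mp hxa]
  · exact h

theorem lin_sq_ne {A : Type*} [Group A] {e : ℕ} (hodd : Odd e) (l : A →* ℂˣ) (hle : l ^ e = 1) (hl : l ≠ 1) : l⁻¹ ≠ l := by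
  intro h
  apply hl
  have h2 : l ^ 2 = 1 := by rw [pow_two]; nth_rw 1 [← h]; exact inv_mul_cancel l
  obtain ⟨k, hk⟩ := hodd
  ext x
  have h3 : l x ^ 2 = 1 := by
    have := DFunLike.congr_fun h2 x
    simpa using this
  have h4 : l x ^ (2 * k + 1) = 1 := by
    have := DFunLike.congr_fun hle x
    rw [hk] at this
    simpa using this
  rw [pow_add, pow_mul, h3, one_pow, one_mul, pow_one] at h4
  rw [h4]; rfl

/-- **S0881 core** -/
theorem ind_lin_irr (hZ : IsZassenhausGroup G Ω) {a b : Ω} (hab : a ≠ b) (H : Subgroup G) (hHa : H ≤ stabilizer G a)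
    (hHcard : Nat.card H + 1 = Fintype.card Ω) (hHfix : ∀ u ∈ H, u ≠ 1 → ∀ c : Ω, u • c = c → c = a)
    (hodd : Odd (Nat.card (stabilizer G a ⊓ stabilizer G b : Subgroup G))) (hG : commutator G = ⊤)
    (l : stabilizer G a →* ℂˣ) (hl : ∀ u : stabilizer G a, (u : G) ∈ H → l u = 1) (hl1 : l ≠ 1) :
    IsIrrCharacter G (indFun (stabilizer G a) (linFn l)) := by
  classical
  rw [isIrr_iff_inner_self (isChar_ind _ (linFn_isChar l)), ind_lin_inner hZ hab H hHa hHcard hHfix hodd hG l l hl hl,
    if_pos rfl, if_neg (lin_sq_ne hodd l (lin_pow hZ hab H hHa hHcard hHfix l hl) hl1), add_zero]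

end irr

end

end

end Cfsg.Agent.Lib.ZassChar
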