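import Cfsg.Agent.Lib.ZassNorm

set_option autoImplicit false

namespace Cfsg.Agent.Lib.ZassCyc

open Cfsg MulAction Cfsg.Agent.Lib.Zass Cfsg.Agent.Lib.ZassChar Cfsg.Agent.Lib.ZassInv Cfsg.Agent.Lib.ZassNorm

noncomputable section

section transfer

variable {G : Type*} [Group G] [Finite G] {A : Type*} [CommGroup A]

theorem stable_trivial' {H : Subgroup G} (hG : Nat.Coprime (Nat.card H) (commutator G).index)
    (hcop : Nat.Coprime (Nat.card H) H.index) (φ : H →* A)
    (h : ∀ (x g : G) (hx : x ∈ H) (hg : g⁻¹ * x * g ∈ H), φ ⟨g⁻¹ * x * g, hg⟩ = φ ⟨x, hx⟩) (x : H) : φ x = 1 := by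
  have h1 := transfer_stable φ h x
  have h4 : φ x ^ Nat.card H = 1 := by
    rw [← map_pow, pow_card_eq_one', map_one]
  have h2 : MonoidHom.transfer φ (x : G) = 1 := by
    have h3 : commutator G ≤ (MonoidHom.transfer φ).ker := Abelianization.commutator_subset_ker _
    have h5 : MonoidHom.transfer φ (x : G) ^ (commutator G).index = 1 := by
      rw [← map_pow]
      exact h3 (Subgroup.pow_index_mem (commutator G) (x : G))
    have h6 : MonoidHom.transfer φ (x : G) ^ Nat.card H = 1 := by
      rw [h1, ← pow_mul, mul_comm, pow_mul, h4, one_pow]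
    have h7 : MonoidHom.transfer φ (x : G) ^ Nat.gcd (Nat.card H) (commutator G).index = 1 :=
      pow_gcd_eq_one.mpr ⟨h6, h5⟩
    rw [hG, pow_one] at h7
    exact h7
  rw [h2] at h1
  have h5 : φ x ^ Nat.gcd (Nat.card H) H.index = 1 := pow_gcd_eq_one.mpr ⟨h4, h1.symm⟩
  rw [hcop, pow_one] at h5
  exact h5

end transfer

section inv

variable {G Ω : Type*} [Group G] [Finite G] [MulAction G Ω] [Fintype Ω]

theorem inverts' (hZ : IsZassenhausGroup G Ω) {a b : Ω} (hab : a ≠ b)
    (hodd : Odd (Nat.card (stabilizer G a ⊓ stabilizer G b : Subgroup G))) (hG : Nat.Coprime (Nat.card (stabilizer G a ⊓ stabilizer G b : Subgroup G)) (commutator G).index)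
    {t : G} (hta : t • a = b) (htb : t • b = a) :
    (∀ x ∈ (stabilizer G a ⊓ stabilizer G b : Subgroup G), ∀ y ∈ (stabilizer G a ⊓ stabilizer G b : Subgroup G), x * y = y * x) ∧
    ∀ x ∈ (stabilizer G a ⊓ stabilizer G b : Subgroup G), t * x * t⁻¹ = x⁻¹ := by
  classical
  obtain ⟨E, hE⟩ : ∃ E : Subgroup G, E = stabilizer G a ⊓ stabilizer G b := ⟨_, rfl⟩
  have hcop := coprime_index hZ hab hodd
  have hZg := zgroup hZ hab hodd
  have hswap : ∀ {x g : G}, x ≠ 1 → x ∈ E → g * x * g⁻¹ ∈ E → (g⁻¹ • a = a ∧ g⁻¹ • b = b) ∨ (g⁻¹ • a = b ∧ g⁻¹ • b = a) := by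
    intro x g h1 h2 h3
    rw [hE] at h2 h3
    exact S0879.swap_of_conj hZ hab h1 h2 h3
  have hmem : ∀ g : G, g ∈ E ↔ g • a = a ∧ g • b = b := fun g => by rw [hE]; exact Iff.rfl
  rw [← hE] at hodd hcop hZg hG ⊢
  have htE : ∀ x ∈ E, t * x * t⁻¹ ∈ E := by
    intro x hx
    rw [hmem] at hx ⊢
    have h1 : t⁻¹ • a = b := by rw [inv_smul_eq_iff, htb]
    have h2 : t⁻¹ • b = a := by rw [inv_smul_eq_iff, hta]
    constructor
    · rw [mul_smul, mul_smul, h1, hx.2, htb]
    · rw [mul_smul, mul_smul, h2, hx.1, hta]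
  have htE' : ∀ x ∈ E, t⁻¹ * x * t ∈ E := by
    intro x hx
    rw [hmem] at hx ⊢
    have h1 : t⁻¹ • a = b := by rw [inv_smul_eq_iff, htb]
    have h2 : t⁻¹ • b = a := by rw [inv_smul_eq_iff, hta]
    constructor
    · rw [mul_smul, mul_smul, hta, hx.2, h2]
    · rw [mul_smul, mul_smul, htb, hx.1, h1]
  have htt : t * t ∈ E := by
    rw [hmem]
    exact ⟨by rw [mul_smul, hta, htb], by rw [mul_smul, htb, hta]⟩
  let c : E →* E :=
    { toFun := fun x => ⟨t * x * t⁻¹, htE x x.2⟩
      map_one' := Subtype.ext (by simp)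
      map_mul' := fun x y => Subtype.ext (by simp) }
  have hc : ∀ x : E, ((c x : E) : G) = t * x * t⁻¹ := fun _ => rfl
  have hconj : ∀ x y : E, Abelianization.of (y⁻¹ * x * y) = Abelianization.of x := by
    intro x y
    rw [map_mul, map_mul, map_inv, mul_comm, ← mul_assoc, mul_inv_cancel, one_mul]
  let φ : E →* Abelianization E :=
    { toFun := fun x => Abelianization.of x * Abelianization.of (c x)
      map_one' := by rw [map_one, map_one, map_one, mul_one]
      map_mul' := fun x y => by rw [map_mul, map_mul, map_mul]; exact mul_mul_mul_comm _ _ _ _ }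
  have hφ : ∀ x : E, φ x = Abelianization.of x * Abelianization.of (c x) := fun _ => rfl
  have hcc : ∀ x : E, Abelianization.of (c (c x)) = Abelianization.of x := by
    intro x
    have h1 : c (c x) = (⟨t * t, htt⟩⁻¹ : E)⁻¹ * x * (⟨t * t, htt⟩⁻¹ : E) := by
      apply Subtype.ext
      rw [hc, hc]
      push_cast
      simp only [mul_assoc, mul_inv_rev, inv_inv]
    rw [h1, hconj]
  have hstab : ∀ (x g : G) (hx : x ∈ E) (hg : g⁻¹ * x * g ∈ E), φ ⟨g⁻¹ * x * g, hg⟩ = φ ⟨x, hx⟩ := by
    intro x g hx hg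
    by_cases hx1 : x = 1
    · subst hx1
      congr 1
      apply Subtype.ext
      show g⁻¹ * 1 * g = 1
      group
    · rcases hswap (g := g⁻¹) hx1 hx (by rw [inv_inv]; exact hg) with h | h
      · rw [inv_inv] at h
        have hgE : g ∈ E := (hmem g).mpr h
        have h1 : (⟨g⁻¹ * x * g, hg⟩ : E) = (⟨g, hgE⟩ : E)⁻¹ * ⟨x, hx⟩ * ⟨g, hgE⟩ := Subtype.ext rfl
        rw [hφ, hφ, h1, map_mul c, map_mul c, map_inv c, hconj, hconj]
      · rw [inv_inv] at h
        have hgE : t * g ∈ E := (hmem _).mpr ⟨by rw [mul_smul, h.1, htb], by rw [mul_smul, h.2, hta]⟩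
        have h1 : c ⟨g⁻¹ * x * g, hg⟩ = (⟨t * g, hgE⟩ : E)⁻¹ * (c (c ⟨x, hx⟩)) * ⟨t * g, hgE⟩ → True := fun _ => trivial
        have h2 : (⟨g⁻¹ * x * g, hg⟩ : E) = (⟨t * g, hgE⟩ : E)⁻¹ * c ⟨x, hx⟩ * ⟨t * g, hgE⟩ := by
          apply Subtype.ext
          push_cast
          rw [hc]
          group
        rw [hφ, hφ, h2, map_mul c, map_mul c, map_inv c, hconj, hconj, hcc, mul_comm]
  have hone : ∀ x : E, x * c x ∈ commutator E := by
    intro x
    have h1 := stable_trivial' hG hcop φ hstab x
    rw [hφ, ← map_mul] at h1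
    exact (Abelianization.ker_of E) ▸ (MonoidHom.mem_ker.mpr h1)
  -- the commutator subgroup is cyclic, hence central
  haveI := hZg
  have hcyc : IsCyclic (commutator E) := IsZGroup.isCyclic_commutator E
  have hDcomm : ∀ x ∈ commutator E, ∀ y ∈ commutator E, x * y = y * x := by
    intro x hx y hy
    have := (IsCyclic.commGroup (α := commutator E)).mul_comm ⟨x, hx⟩ ⟨y, hy⟩
    exact congrArg Subtype.val this
  have hDmap : ∀ (f : E →* E) (x : E), x ∈ commutator E → f x ∈ commutator E := by
    intro f x hx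
    have h1 : Abelianization.of x = 1 := by rw [← MonoidHom.mem_ker, Abelianization.ker_of]; exact hx
    have h2 : Abelianization.of (f x) = 1 := by
      have h3 : Abelianization.map f (Abelianization.of x) = Abelianization.of (f x) := Abelianization.map_of f x
      rw [← h3, h1, map_one]
    exact (Abelianization.ker_of E) ▸ (MonoidHom.mem_ker.mpr h2)
  let c' : E →* E :=
    { toFun := fun x => ⟨t⁻¹ * x * t, htE' x x.2⟩
      map_one' := Subtype.ext (by simp)
      map_mul' := fun x y => Subtype.ext (by simp [mul_assoc]) }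
  have hcc' : ∀ x, c (c' x) = x := by
    intro x
    apply Subtype.ext
    show t * (t⁻¹ * x * t) * t⁻¹ = x
    group
  have hDc : ∀ x ∈ commutator E, ∀ y : E, x * y = y * x := by
    intro z hz y
    -- conjugation by y⁻¹ is a power map on the commutator subgroup
    let f : commutator E →* commutator E :=
      { toFun := fun x => ⟨y⁻¹ * x * y, by
          have := (inferInstance : (commutator E).Normal).conj_mem x x.2 y⁻¹
          rwa [inv_inv] at this⟩
        map_one' := Subtype.ext (by simp)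
        map_mul' := fun x w => Subtype.ext (by simp [mul_assoc]) }
    obtain ⟨m, hm⟩ := MonoidHom.map_cyclic f
    have hm' : ∀ x ∈ commutator E, y⁻¹ * x * y = x ^ m := by
      intro x hx
      have := congrArg Subtype.val (hm ⟨x, hx⟩)
      exact this
    have h1 : (c y)⁻¹ * z * c y = z ^ m := by
      have h2 := congrArg c (hm' (c' z) (hDmap c' z hz))
      rw [map_mul, map_mul, map_inv, map_zpow, hcc'] at h2
      exact h2
    have h2 : c y = y⁻¹ * (y * c y) := by group
    have h3 : (c y)⁻¹ * z * c y = y * z * y⁻¹ := by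
      have h4 : y * z * y⁻¹ ∈ commutator E := (inferInstance : (commutator E).Normal).conj_mem z hz y
      rw [h2]
      calc (y⁻¹ * (y * c y))⁻¹ * z * (y⁻¹ * (y * c y)) = (y * c y)⁻¹ * ((y * z * y⁻¹) * (y * c y)) := by group
        _ = (y * c y)⁻¹ * ((y * c y) * (y * z * y⁻¹)) := by rw [hDcomm _ h4 _ (hone y)]
        _ = y * z * y⁻¹ := by group
    have h5 : y * z * y⁻¹ = y⁻¹ * z * y := by rw [← h3, h1, hm' z hz]
    have h6 : Commute z (y ^ 2) := by
      have h7 : z * (y * y) = y * y * z := by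
        calc z * (y * y) = y * (y⁻¹ * z * y) * y := by group
          _ = y * (y * z * y⁻¹) * y := by rw [h5]
          _ = y * y * z := by group
      rw [sq]; exact h7
    -- y is a power of y²
    have h8 : Odd (orderOf y) := Odd.of_dvd_nat hodd (orderOf_dvd_natCard y)
    obtain ⟨k, hk⟩ := h8
    have h9 : y = (y ^ 2) ^ (k + 1) := by
      rw [← pow_mul]
      have : 2 * (k + 1) = orderOf y + 1 := by omega
      rw [this, pow_succ, pow_orderOf_eq_one, one_mul]
    rw [h9]
    exact (h6.pow_right (k + 1)).eq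
  have hcommE : ∀ x y : E, x * y = y * x := by
    intro x y
    refine commutative_of_cyclic_center_quotient (Abelianization.of (G := E)) ?_ x y
    rw [Abelianization.ker_of]
    intro d hd
    rw [Subgroup.mem_center_iff]
    intro g
    exact (hDc d hd g).symm
  refine ⟨fun x hx y hy => congrArg Subtype.val (hcommE ⟨x, hx⟩ ⟨y, hy⟩), fun x hx => ?_⟩
  have h1 := hone ⟨x, hx⟩
  have h2 : commutator E = ⊥ := by
    rw [commutator_def, eq_bot_iff, Subgroup.commutator_le]
    intro u _ v _
    rw [Subgroup.mem_bot, commutatorElement_def, hcommE u v]; group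
  rw [h2, Subgroup.mem_bot] at h1
  have h3 := congrArg Subtype.val h1
  have h4 : x * (t * x * t⁻¹) = 1 := h3
  exact (eq_inv_of_mul_eq_one_right h4)


/-- no normal complements ⇒ the two-point stabilizer has order prime to the abelianization -/
theorem coprime_of_no_compl (hZ : IsZassenhausGroup G Ω) {a b : Ω} (hab : a ≠ b)
    (hodd : Odd (Nat.card (stabilizer G a ⊓ stabilizer G b : Subgroup G)))
    (hnil : ∀ q : ℕ, q.Prime → q ∣ Nat.card (stabilizer G a ⊓ stabilizer G b : Subgroup G) →
      ¬ ∃ N : Subgroup G, N.Normal ∧ N.index = q ^ (Nat.card G).factorization q) :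
    Nat.Coprime (Nat.card (stabilizer G a ⊓ stabilizer G b : Subgroup G)) (commutator G).index := by
  classical
  have hcop := coprime_index hZ hab hodd
  have hZg := zgroup hZ hab hodd
  obtain ⟨E, hE⟩ : ∃ E : Subgroup G, E = stabilizer G a ⊓ stabilizer G b := ⟨_, rfl⟩
  rw [← hE] at hcop hZg hnil ⊢
  apply Nat.coprime_of_dvd
  intro q hq hqE hqG
  haveI : Fact q.Prime := ⟨hq⟩
  obtain ⟨Q⟩ : Nonempty (Sylow q E) := inferInstance
  haveI : IsCyclic Q := (isZGroup_iff E).mp hZg q hq Q
  let P' : Subgroup G := (Q : Subgroup E).map E.subtype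
  have hP'c : Nat.card P' = Nat.card Q := Subgroup.card_map_of_injective Subtype.val_injective
  have hidx : ¬ q ∣ E.index := by
    intro h
    have := Nat.dvd_gcd hqE h
    rw [hcop] at this
    exact hq.one_lt.ne' (Nat.dvd_one.mp this)
  have hcard : Nat.card P' = q ^ (Nat.card G).factorization q := by
    rw [hP'c, Q.card_eq_multiplicity]
    congr 1
    have h1 : (Nat.card G).factorization q = (Nat.card E).factorization q + E.index.factorization q := by
      rw [← E.card_mul_index, Nat.factorization_mul Nat.card_pos.ne' Subgroup.index_ne_zero_of_finite]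
      rfl
    rw [h1, Nat.factorization_eq_zero_of_not_dvd hidx, add_zero]
  let P : Sylow q G := Sylow.ofCard P' hcard
  have hPcoe : (P : Subgroup G) = P' := rfl
  let eq1 : Q ≃* P' := Subgroup.equivMapOfInjective (Q : Subgroup E) E.subtype Subtype.val_injective
  haveI : IsCyclic P' := isCyclic_of_surjective eq1.toMonoidHom eq1.surjective
  haveI : IsCyclic P := this
  rcases Sylow.normalizer_le_centralizer_or_le_commutator P with h | h
  · apply hnil q hq hqE
    refine ⟨(MonoidHom.transferSylow P h).ker, inferInstance, ?_⟩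
    have h1 := (MonoidHom.ker_transferSylow_isComplement' P h).symm.index_eq_card
    rw [h1]
    exact hcard
  · have h1 : (commutator G).index ∣ (P : Subgroup G).index := Subgroup.index_dvd_of_le h
    exact P.not_dvd_index (hqG.trans h1)

end inv

end

end Cfsg.Agent.Lib.ZassCyc
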