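import Cfsg.Agent.Lib.ZassNorm
import Cfsg.Agent.Lib.CharMono
import Cfsg.Agent.Lib.CharRam

set_option autoImplicit false

namespace Cfsg.Agent.Lib.ZassFeit

open Cfsg MulAction Cfsg.Agent.Lib.Zass Cfsg.Agent.Lib.ZassChar Cfsg.Agent.Lib.ZassInv Cfsg.Agent.Lib.ZassNorm
open Cfsg.Agent.Lib.CharBasic Cfsg.Agent.Lib.CharInd Cfsg.Agent.Lib.CharLin
open Cfsg.Agent.Lib.OddFeit Cfsg.Agent.Lib.OddTIChar Cfsg.Agent.Lib.OddTIFN
open Cfsg.Agent.Lib.OddSib Cfsg.Agent.Lib.OddCohE Cfsg.Agent.Lib.OddCohD Cfsg.Agent.Lib.OddCohC Cfsg.Agent.Lib.OddCohB Cfsg.Agent.Lib.OddCoh Cfsg.Agent.Lib.OddSgn Cfsg.Agent.Lib.CharExc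
open scoped ComplexConjugate

noncomputable section

section struct

variable {G Ω : Type*} [Group G] [Fintype G] [MulAction G Ω] [Fintype Ω]

theorem kfpf (hZ : IsZassenhausGroup G Ω) {a b : Ω} (hab : a ≠ b) (H : Subgroup G)
    (hHa : H ≤ stabilizer G a) (hHcard : Nat.card H + 1 = Fintype.card Ω)
    (hHfix : ∀ u ∈ H, u ≠ 1 → ∀ c : Ω, u • c = c → c = a) :
    ∀ g : stabilizer G a, g ∉ H.subgroupOf (stabilizer G a) → ∀ k ∈ H.subgroupOf (stabilizer G a), g * k = k * g → k = 1 := by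
  intro g hg k hk hgk
  by_contra hk1
  have hk1' : (k : G) ≠ 1 := fun h => hk1 (Subtype.ext h)
  have hkH : (k : G) ∈ H := hk
  obtain ⟨c, hac, hgc⟩ := fix_of_not_mem hZ hab H hHa hHcard hHfix g.2 (fun h => hg h)
  have hga : (g : G) • a = a := g.2
  have hka : (k : G) • a = a := k.2
  have h1 : (g : G) • ((k : G) • c) = (k : G) • c := by
    rw [← mul_smul, show (g : G) * k = k * g from congrArg Subtype.val hgk, mul_smul, hgc]
  apply hg
  have h2 : (g : G) = 1 := by
    apply hZ.2.2.1 (g : G) a c ((k : G) • c) hac _ _ hga hgc h1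
    · intro h
      exact hac (hHfix _ hkH hk1' c h.symm).symm
    · intro h
      apply hac
      exact MulAction.injective (k : G) (hka.trans h)
  change (g : G) ∈ H
  rw [h2]; exact H.one_mem

theorem kcard {a : Ω} (H : Subgroup G) (hHa : H ≤ stabilizer G a) :
    Nat.card (H.subgroupOf (stabilizer G a)) = Nat.card H :=
  Nat.card_congr (Subgroup.subgroupOfEquivOfLe hHa).toEquiv

theorem kindex (hZ : IsZassenhausGroup G Ω) {a b : Ω} (hab : a ≠ b) (H : Subgroup G)
    (hHa : H ≤ stabilizer G a) (hHcard : Nat.card H + 1 = Fintype.card Ω) :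
    (H.subgroupOf (stabilizer G a)).index = Nat.card (stabilizer G a ⊓ stabilizer G b : Subgroup G) := by
  have h1 := (H.subgroupOf (stabilizer G a)).card_mul_index
  rw [kcard H hHa, card_stab hZ hab] at h1
  have h2 : Fintype.card Ω - 1 = Nat.card H := by omega
  rw [h2] at h1
  exact Nat.eq_of_mul_eq_mul_left Nat.card_pos h1

theorem kcomm (hZ : IsZassenhausGroup G Ω) {a b : Ω} (hab : a ≠ b) (H : Subgroup G)
    (hHa : H ≤ stabilizer G a) (hHcard : Nat.card H + 1 = Fintype.card Ω)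
    (hHfix : ∀ u ∈ H, u ≠ 1 → ∀ c : Ω, u • c = c → c = a)
    (hodd : Odd (Nat.card (stabilizer G a ⊓ stabilizer G b : Subgroup G))) (hG : commutator G = ⊤)
    [hn : (H.subgroupOf (stabilizer G a)).Normal] :
    ∀ x y : stabilizer G a ⧸ H.subgroupOf (stabilizer G a), x * y = y * x := by
  classical
  obtain ⟨t, hta, htb⟩ := exists_swap hZ hab
  have hcomm := (inverts hZ hab hodd hG hta htb).1
  have hdisj : Disjoint (H.subgroupOf (stabilizer G a)) ((stabilizer G b).subgroupOf (stabilizer G a)) := by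
    rw [disjoint_iff, eq_bot_iff]
    intro x hx
    have h1 : (x : G) ∈ H := hx.1
    have h2 : (x : G) • b = b := hx.2
    rw [Subgroup.mem_bot]
    by_contra hx1
    exact hab (hHfix _ h1 (fun h => hx1 (Subtype.ext h)) b h2).symm
  have hcompl : Subgroup.IsComplement' (H.subgroupOf (stabilizer G a)) ((stabilizer G b).subgroupOf (stabilizer G a)) := by
    apply Subgroup.isComplement'_of_card_mul_and_disjoint _ hdisj
    have h7 : (stabilizer G b).subgroupOf (stabilizer G a) =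
        (stabilizer G a ⊓ stabilizer G b : Subgroup G).subgroupOf (stabilizer G a) := by
      rw [Subgroup.inf_subgroupOf_left]
    have h8 : Nat.card ((stabilizer G b).subgroupOf (stabilizer G a)) =
        Nat.card (stabilizer G a ⊓ stabilizer G b : Subgroup G) := by
      rw [h7]; exact Nat.card_congr (Subgroup.subgroupOfEquivOfLe inf_le_left).toEquiv
    rw [h8, kcard H hHa, card_stab hZ hab]
    have h2 : Fintype.card Ω - 1 = Nat.card H := by omega
    rw [h2]
  have hrep : ∀ x : stabilizer G a ⧸ H.subgroupOf (stabilizer G a),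
      ∃ y ∈ (stabilizer G b).subgroupOf (stabilizer G a), (y : stabilizer G a ⧸ H.subgroupOf (stabilizer G a)) = x := by
    intro x
    obtain ⟨g, rfl⟩ := QuotientGroup.mk_surjective x
    obtain ⟨⟨k, y⟩, hky⟩ := hcompl.2 g
    refine ⟨y, y.2, ?_⟩
    have h1 : (k : stabilizer G a) * y = g := hky
    rw [← h1, QuotientGroup.mk_mul, (QuotientGroup.eq_one_iff (k : stabilizer G a)).mpr k.2, one_mul]
  intro x y
  obtain ⟨x, hx, rfl⟩ := hrep x
  obtain ⟨y, hy, rfl⟩ := hrep y
  rw [← QuotientGroup.mk_mul, ← QuotientGroup.mk_mul]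
  congr 1
  apply Subtype.ext
  exact hcomm x.1 (mem_two.mpr ⟨x.2, hx⟩) y.1 (mem_two.mpr ⟨y.2, hy⟩)

/-- induction restricted to the stabilizer -/
theorem hres (hZ : IsZassenhausGroup G Ω) {a b : Ω} (hab : a ≠ b) (H : Subgroup G)
    (hHa : H ≤ stabilizer G a) (hHcard : Nat.card H + 1 = Fintype.card Ω)
    (hHfix : ∀ u ∈ H, u ≠ 1 → ∀ c : Ω, u • c = c → c = a)
    (α : stabilizer G a → ℂ) (hα : IsClassFunction (stabilizer G a) α)
    (hv : ∀ x : stabilizer G a, x ∉ H.subgroupOf (stabilizer G a) → α x = 0) (h1 : α 1 = 0)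
    (x : stabilizer G a) : indFun (stabilizer G a) α x = α x := by
  classical
  by_cases hx1 : x = 1
  · subst hx1
    rw [OneMemClass.coe_one, indFun_one, h1, mul_zero]
  by_cases hxH : (x : G) ∈ H
  · apply indFun_eq_of_ti (stabilizer G a) (H : Set G) _ α hα (fun y hy => hv y hy) x hxH
      hx1
    intro g hg t ht hgt
    by_contra ht1
    apply hg
    have h2 : (g * t * g⁻¹) • a = a := hHa hgt
    rw [mul_smul, mul_smul, smul_eq_iff_eq_inv_smul] at h2
    have h3 := hHfix t ht ht1 _ h2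
    rw [mem_stabilizer_iff]
    rw [inv_smul_eq_iff] at h3
    exact h3.symm
  · rw [hv x hxH]
    apply indFun_eq_zero_of_not_conj
    intro g hg
    by_cases hgH : g⁻¹ * x * g ∈ H
    · exfalso
      obtain ⟨c, hac, hxc⟩ := fix_of_not_mem hZ hab H hHa hHcard hHfix x.2 hxH
      have hxa : (x : G) • a = a := x.2
      have hne : g⁻¹ * x * g ≠ 1 := by
        intro h
        apply hxH
        have h2 : (x : G) = g * (g⁻¹ * x * g) * g⁻¹ := by group
        rw [h2, h, mul_one, mul_inv_cancel]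
        exact H.one_mem
      have e1 : (g⁻¹ * x * g) • (g⁻¹ • a) = g⁻¹ • a := by
        rw [mul_smul, mul_smul, smul_inv_smul, hxa]
      have e2 : (g⁻¹ * x * g) • (g⁻¹ • c) = g⁻¹ • c := by
        rw [mul_smul, mul_smul, smul_inv_smul, hxc]
      have e3 := hHfix _ hgH hne _ e1
      have e4 := hHfix _ hgH hne _ e2
      exact hac (MulAction.injective g⁻¹ (e3.trans e4.symm))
    · exact hv _ hgH

end struct
noncomputable section

section Lside

open Classical

variable {L : Type*} [Group L] [Fintype L] {K : Subgroup L} [hK : K.Normal]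

theorem sum_split (f : IrrCharacter L → ℂ) :
    ∑ φ : IrrCharacter L, f φ = (∑ φ : IrrCharacter L with φ.1 ∈ inducedIrrAbove K ⊥, f φ) +
      ∑ φ : IrrCharacter L with ¬ φ.1 ∈ inducedIrrAbove K ⊥, f φ :=
  (Finset.sum_filter_add_sum_filter_not _ _ _).symm

theorem sum_S_one (hfpf : ∀ g : L, g ∉ K → ∀ k ∈ K, g * k = k * g → k = 1) :
    ∑ φ : IrrCharacter L with φ.1 ∈ inducedIrrAbove K ⊥, φ.1 1 * φ.1 1 = (Nat.card L : ℂ) - K.index := by
  have h1 := column_orth_one (1 : L)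
  rw [if_pos rfl, sum_split (K := K)] at h1
  have h2 := sum_out hfpf
  have h3 : ∑ φ : IrrCharacter L with ¬ φ.1 ∈ inducedIrrAbove K ⊥, φ.1 1 * φ.1 1 = (K.index : ℂ) := by
    rw [← h2]
    exact Finset.sum_congr rfl fun φ _ => by rw [ideg_spec]; ring
  rw [h3] at h1
  linear_combination h1

theorem sum_S_u (hfpf : ∀ g : L, g ∉ K → ∀ k ∈ K, g * k = k * g → k = 1) {u : L} (hu : u ∈ K) (hu1 : u ≠ 1) :
    ∑ φ : IrrCharacter L with φ.1 ∈ inducedIrrAbove K ⊥, φ.1 u * φ.1 1 = -(K.index : ℂ) := by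
  have h1 := column_orth_one u
  rw [if_neg hu1, sum_split (K := K)] at h1
  have h2 := sum_out hfpf
  have h3 : ∑ φ : IrrCharacter L with ¬ φ.1 ∈ inducedIrrAbove K ⊥, φ.1 u * φ.1 1 = (K.index : ℂ) := by
    rw [← h2]
    refine Finset.sum_congr rfl fun φ hφ => ?_
    rw [ker_of_not_mem hfpf φ.2 (Finset.mem_filter.mp hφ).2 u hu, ideg_spec]; ring
  rw [h3] at h1
  linear_combination h1

theorem sum_S_uu (hfpf : ∀ g : L, g ∉ K → ∀ k ∈ K, g * k = k * g → k = 1) {u : L} (hu : u ∈ K) :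
    ∑ φ : IrrCharacter L with φ.1 ∈ inducedIrrAbove K ⊥, φ.1 u * conj (φ.1 u) =
      (Nat.card (Subgroup.centralizer ({u} : Set L)) : ℂ) - K.index := by
  have h1 := column_orth u u
  rw [if_pos (IsConj.refl u), sum_split (K := K)] at h1
  have h2 := sum_out hfpf
  have h3 : ∑ φ : IrrCharacter L with ¬ φ.1 ∈ inducedIrrAbove K ⊥, φ.1 u * conj (φ.1 u) = (K.index : ℂ) := by
    rw [← h2]
    refine Finset.sum_congr rfl fun φ hφ => ?_
    rw [ker_of_not_mem hfpf φ.2 (Finset.mem_filter.mp hφ).2 u hu, ideg_spec, Complex.conj_natCast]; ring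
  rw [h3] at h1
  linear_combination h1

/-- sum of the centralizer orders over the kernel -/
theorem sum_cent (hfpf : ∀ g : L, g ∉ K → ∀ k ∈ K, g * k = k * g → k = 1) :
    ∑ u : L with (u ∈ K ∧ u ≠ 1), (Nat.card (Subgroup.centralizer ({u} : Set L)) : ℂ) =
      (Finset.univ.filter fun φ : IrrCharacter L => φ.1 ∈ inducedIrrAbove K ⊥).card * (Nat.card L : ℂ) := by
  have h1 : ∑ u : L with (u ∈ K ∧ u ≠ 1), (Nat.card (Subgroup.centralizer ({u} : Set L)) : ℂ) =
      ∑ u : L with (u ∈ K ∧ u ≠ 1), ((K.index : ℂ) +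
        ∑ φ : IrrCharacter L with φ.1 ∈ inducedIrrAbove K ⊥, φ.1 u * conj (φ.1 u)) := by
    refine Finset.sum_congr rfl fun u hu => ?_
    rw [sum_S_uu hfpf (Finset.mem_filter.mp hu).2.1]; ring
  rw [h1, Finset.sum_add_distrib, Finset.sum_comm, Finset.sum_const, nsmul_eq_mul]
  have h2 : ∀ φ ∈ (Finset.univ.filter fun φ : IrrCharacter L => φ.1 ∈ inducedIrrAbove K ⊥),
      ∑ u : L with (u ∈ K ∧ u ≠ 1), φ.1 u * conj (φ.1 u) = (Nat.card L : ℂ) - φ.1 1 * φ.1 1 := by
    intro φ hφ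
    have hφS := (Finset.mem_filter.mp hφ).2
    have h3 := irr_inner_self φ.2
    rw [classInner_def] at h3
    have h4 : ∑ u : L, φ.1 u * conj (φ.1 u) = (Nat.card L : ℂ) := by
      have hc : (Nat.card L : ℂ) ≠ 0 := Nat.cast_ne_zero.mpr Nat.card_pos.ne'
      field_simp at h3
      exact h3
    rw [← h4, ← Finset.sum_filter_add_sum_filter_not Finset.univ (fun u : L => u ∈ K ∧ u ≠ 1)]
    have h5 : ∑ u : L with ¬ (u ∈ K ∧ u ≠ 1), φ.1 u * conj (φ.1 u) = φ.1 1 * φ.1 1 := by
      rw [Finset.sum_eq_single (1 : L)]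
      · obtain ⟨n, -, hn⟩ := isIrr_one_eq φ.2
        rw [hn, Complex.conj_natCast]
      · intro u hu hu1
        have h6 := (Finset.mem_filter.mp hu).2
        have h7 : u ∉ K := fun h => h6 ⟨h, hu1⟩
        obtain ⟨θ, -, -, -, hθ⟩ := hφS
        rw [hθ, indFun_normal_notMem K θ h7, zero_mul]
      · intro h
        exact absurd (Finset.mem_filter.mpr ⟨Finset.mem_univ _, fun h => h.2 rfl⟩) h
    rw [h5]; ring
  rw [Finset.sum_congr rfl h2, Finset.sum_sub_distrib, Finset.sum_const, nsmul_eq_mul, sum_S_one hfpf]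
  have h6 : ((Finset.univ.filter fun u : L => u ∈ K ∧ u ≠ 1).card : ℂ) = (Nat.card K : ℂ) - 1 := by
    have h7 : (Finset.univ.filter fun u : L => u ∈ K ∧ u ≠ 1).card + 1 = Nat.card K := by
      have h8 : (Finset.univ.filter fun u : L => u ∈ K ∧ u ≠ 1) = (Finset.univ.filter fun u : L => u ∈ K).erase 1 := by
        ext u; simp [and_comm]
      rw [h8, Finset.card_erase_add_one (by simp), ← Fintype.card_subtype, ← Nat.card_eq_fintype_card]
    rw [← h7]; push_cast; ring
  rw [h6]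
  have h9 : (Nat.card L : ℂ) = Nat.card K * K.index := by rw [← K.card_mul_index]; push_cast; ring
  rw [h9]; ring

end Lside

section Gside

open Classical

variable {G : Type*} [Group G] [Fintype G] {L : Subgroup G} [Fintype L] {K : Subgroup L} [hK : K.Normal]

/-- sums over the exceptional characters -/
theorem sum_exc (hfpf : ∀ g : L, g ∉ K → ∀ k ∈ K, g * k = k * g → k = 1)
    {star : (L → ℂ) → (G → ℂ)} (hstar : IsLinearIsometryOn (zspan (inducedIrrAbove K ⊥)) star)
    (f : (G → ℂ) → ℂ) (hf : ∀ φ, f (-φ) = f φ) :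
    ∑ ψ : IrrCharacter G with (∃ χ ∈ inducedIrrAbove K ⊥, ψ.1 = star χ ∨ ψ.1 = -star χ), f ψ.1 =
      ∑ ξ : IrrCharacter L with ξ.1 ∈ inducedIrrAbove K ⊥, f (star ξ.1) := by
  have hirr : ∀ χ ∈ inducedIrrAbove K ⊥, IsIrrCharacter L χ := fun χ hχ => iia_irr' hfpf hχ
  have hσ : ∀ ξ : IrrCharacter L, ξ.1 ∈ inducedIrrAbove K ⊥ → ∃ ψ : IrrCharacter G, star ξ.1 = ψ.1 ∨ star ξ.1 = -ψ.1 := by
    intro ξ hξ
    have h1 : Cfsg.Agent.Lib.OddSgn.SI (star ξ.1) := Cfsg.Agent.Lib.OddSgn.SI.of_norm (hstar.2.2.2 _ (subset_zspan _ hξ))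
        (by rw [hstar.2.2.1 _ (subset_zspan _ hξ) _ (subset_zspan _ hξ), irr_inner_self ξ.2])
    rcases h1 with h1 | h1
    · exact ⟨⟨_, h1⟩, Or.inl rfl⟩
    · exact ⟨⟨_, h1⟩, Or.inr (neg_neg _).symm⟩
  haveI : Nonempty (IrrCharacter G) := ⟨⟨fun _ => 1, isIrr_trivial⟩⟩
  choose! σ hσ using hσ
  symm
  refine Finset.sum_bij (fun ξ _ => σ ξ) ?_ ?_ ?_ ?_
  · intro ξ hξ
    have hξS := (Finset.mem_filter.mp hξ).2
    refine Finset.mem_filter.mpr ⟨Finset.mem_univ _, ξ.1, hξS, ?_⟩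
    rcases hσ ξ hξS with h | h
    · left; exact h.symm
    · right; rw [h, neg_neg]
  · intro ξ hξ ξ' hξ' heq
    have hξS := (Finset.mem_filter.mp hξ).2
    have hξS' := (Finset.mem_filter.mp hξ').2
    by_contra hne
    have h1 : classInner (star ξ.1) (star ξ'.1) = 0 := by
      rw [hstar.2.2.1 _ (subset_zspan _ hξS) _ (subset_zspan _ hξS')]
      exact irr_inner_ne ξ.2 ξ'.2 (fun h => hne (Subtype.ext h))
    have h2 : classInner (σ ξ').1 (σ ξ').1 = 1 := irr_inner_self (σ ξ').2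
    have h3 : (σ ξ).1 = (σ ξ').1 := congrArg Subtype.val heq
    rcases hσ ξ hξS with h | h <;> rcases hσ ξ' hξS' with h' | h' <;> rw [h, h', h3] at h1 <;>
      (try simp only [classInner_neg_left, classInner_neg_right, neg_neg, neg_eq_zero] at h1) <;>
      rw [h2] at h1 <;> exact one_ne_zero h1
  · intro ψ hψ
    obtain ⟨-, χ, hχ, hψχ⟩ := Finset.mem_filter.mp hψ
    refine ⟨⟨χ, hirr χ hχ⟩, Finset.mem_filter.mpr ⟨Finset.mem_univ _, hχ⟩, ?_⟩
    apply Subtype.ext
    have h1 := hσ ⟨χ, hirr χ hχ⟩ hχ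
    have h2 : classInner (σ ⟨χ, hirr χ hχ⟩).1 ψ.1 ≠ 0 := by
      have h3 : classInner ψ.1 ψ.1 = 1 := irr_inner_self ψ.2
      rcases h1 with h1 | h1 <;> rcases hψχ with h | h
      · rw [← h1, ← h, h3]; exact one_ne_zero
      · have h4 : (σ ⟨χ, hirr χ hχ⟩).1 = -ψ.1 := by rw [← h1, h, neg_neg]
        rw [h4, classInner_neg_left, h3]; exact neg_ne_zero.mpr one_ne_zero
      · have h4 : (σ ⟨χ, hirr χ hχ⟩).1 = -ψ.1 := by rw [h, h1, neg_neg]
        rw [h4, classInner_neg_left, h3]; exact neg_ne_zero.mpr one_ne_zero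
      · have h4 : (σ ⟨χ, hirr χ hχ⟩).1 = ψ.1 := by rw [h, h1, neg_neg]
        rw [h4, h3]; exact one_ne_zero
    exact irr_eq_of_inner_ne_zero (σ ⟨χ, hirr χ hχ⟩).2 ψ.2 h2
  · intro ξ hξ
    rcases hσ ξ (Finset.mem_filter.mp hξ).2 with h | h
    · rw [h]
    · rw [h, hf]

/-- the non-exceptional characters orthogonal to the linear characters over the kernel -/
theorem other_values (hfpf : ∀ g : L, g ∉ K → ∀ k ∈ K, g * k = k * g → k = 1)
    (hsolv : Group.IsSolvable K) (hK1 : K ≠ ⊥)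
    {star : (L → ℂ) → (G → ℂ)} (hstar : IsLinearIsometryOn (zspan (inducedIrrAbove K ⊥)) star)
    (hext : ∀ α ∈ zspanOn (inducedIrrAbove K ⊥) ({1}ᶜ : Set L), star α = indFun L α)
    {ψ : G → ℂ} (hψ : IsIrrCharacter G ψ) (hE : ¬ ∃ χ ∈ inducedIrrAbove K ⊥, ψ = star χ ∨ ψ = -star χ)
    (hC : ∀ φ : IrrCharacter L, ¬ φ.1 ∈ inducedIrrAbove K ⊥ → classInner (fun x : L => ψ x) φ.1 = 0) :
    ∃ b : ℕ, 1 ≤ b ∧ (∀ k ∈ K, k ≠ 1 → ψ k = -(b : ℂ)) ∧ ψ 1 = b * ((Nat.card K : ℂ) - 1) := by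
  have hirr : ∀ χ ∈ inducedIrrAbove K ⊥, IsIrrCharacter L χ := fun χ hχ => iia_irr' hfpf hχ
  have hψc := isChar_classFn (isChar_of_irr hψ)
  have hresc : IsClassFunction L (fun x : L => ψ x) := isChar_classFn (isChar_res L (isChar_of_irr hψ))
  push_neg at hE
  have horth : ∀ χ ∈ inducedIrrAbove K ⊥, classInner ψ (star χ) = 0 := by
    intro χ hχ
    have h1 : Cfsg.Agent.Lib.OddSgn.SI (star χ) := Cfsg.Agent.Lib.OddSgn.SI.of_norm (hstar.2.2.2 _ (subset_zspan _ hχ))
      (by rw [hstar.2.2.1 _ (subset_zspan _ hχ) _ (subset_zspan _ hχ), irr_inner_self (hirr χ hχ)])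
    rcases h1 with h1 | h1
    · exact irr_inner_ne hψ h1 (hE χ hχ).1
    · have h2 := irr_inner_ne hψ h1 (hE χ hχ).2
      rw [classInner_neg_right, neg_eq_zero] at h2
      exact h2
  have horth' : ∀ α ∈ zspan (inducedIrrAbove K ⊥), classInner ψ (star α) = 0 := by
    intro α hα
    have hs' : IsLinearIsometryOn ((zsp (inducedIrrAbove K ⊥) : Submodule ℤ (L → ℂ)) : Set (L → ℂ)) star := hstar
    refine zspan_induction (p := fun α => classInner ψ (star α) = 0) horth (by rw [iso_zero hs']; exact classInner_zero_right _) ?_ ?_ hα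
    · intro x y hx hy h1 h2
      show classInner ψ (star (x + y)) = 0
      rw [hstar.1 x hx y hy, classInner_add_right, h1, h2, add_zero]
    · intro n x hx h1
      show classInner ψ (star (n • x)) = 0
      rw [hstar.2.1 x hx n, inner_zsmul_right, h1, mul_zero]
  obtain ⟨r, hr⟩ := prop_of_orth hfpf (f := fun x : L => ψ x) (fun α hα => by
    rw [← reciprocity' L α ψ hψc, ← hext α hα]
    exact horth' α hα.1)
  obtain ⟨ξ₀, hξ₀, hξ₀d⟩ := exists_degree_e hsolv (bot_lt_iff_ne_bot.mpr hK1)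
  obtain ⟨b, hb⟩ := exists_nat_inner (isChar_res L (isChar_of_irr hψ)) (hirr ξ₀ hξ₀)
  have hrb : r * K.index = b := by rw [← hb, hr ξ₀ hξ₀, hξ₀d]
  have hval : ∀ k ∈ K, k ≠ 1 → ψ k = -(b : ℂ) := by
    intro k hk hk1
    have h1 := const_on hfpf hresc hr hk hk1
    rw [Finset.sum_eq_zero (fun φ hφ => by rw [hC φ (Finset.mem_filter.mp hφ).2, zero_mul]), zero_sub, hrb] at h1
    exact h1
  have hdeg : ψ 1 = b * ((Nat.card K : ℂ) - 1) := by
    have h1 := congrFun (classFn_expand _ hresc) 1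
    rw [Finset.sum_apply, sum_split (K := K)] at h1
    rw [Finset.sum_eq_zero (s := Finset.univ.filter fun φ : IrrCharacter L => ¬ φ.1 ∈ inducedIrrAbove K ⊥)
      (fun φ hφ => by rw [Pi.smul_apply, hC φ (Finset.mem_filter.mp hφ).2, zero_smul]), add_zero] at h1
    have h2 : ∑ φ : IrrCharacter L with φ.1 ∈ inducedIrrAbove K ⊥, (classInner (fun x : L => ψ x) φ.1 • φ.1) 1 =
        r * ((Nat.card L : ℂ) - K.index) := by
      rw [← sum_S_one hfpf, Finset.mul_sum]
      refine Finset.sum_congr rfl fun φ hφ => ?_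
      rw [Pi.smul_apply, smul_eq_mul, hr φ.1 (Finset.mem_filter.mp hφ).2]; ring
    rw [h2] at h1
    have h3 : ψ 1 = r * ((Nat.card L : ℂ) - K.index) := h1
    have h9 : (Nat.card L : ℂ) = Nat.card K * K.index := by rw [← K.card_mul_index]; push_cast; ring
    rw [h3, h9, ← hrb]; ring
  refine ⟨b, ?_, hval, hdeg⟩
  rw [Nat.one_le_iff_ne_zero]
  rintro rfl
  apply isIrr_one_ne_zero hψ
  rw [hdeg]; simp

end Gside

end
noncomputable section

section count

open Classical

variable {G Ω : Type*} [Group G] [Fintype G] [MulAction G Ω] [Fintype Ω]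

theorem cent_eq {a : Ω} (H : Subgroup G) (hHa : H ≤ stabilizer G a)
    (hHfix : ∀ u ∈ H, u ≠ 1 → ∀ c : Ω, u • c = c → c = a) (u : stabilizer G a) (hu : (u : G) ∈ H) (hu1 : u ≠ 1) :
    Nat.card (Subgroup.centralizer ({(u : G)} : Set G)) = Nat.card (Subgroup.centralizer ({u} : Set (stabilizer G a))) := by
  have hu1' : (u : G) ≠ 1 := fun h => hu1 (Subtype.ext h)
  have hle : ∀ g : G, g ∈ Subgroup.centralizer ({(u : G)} : Set G) → g ∈ stabilizer G a := by
    intro g hg
    rw [Subgroup.mem_centralizer_singleton_iff] at hg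
    rw [mem_stabilizer_iff]
    apply hHfix _ hu hu1'
    have hua : (u : G) • a = a := u.2
    rw [← mul_smul, ← hg, mul_smul, hua]
  apply Nat.card_congr
  exact
    { toFun := fun g => ⟨⟨g.1, hle g.1 g.2⟩, by
        rw [Subgroup.mem_centralizer_singleton_iff]
        exact Subtype.ext (Subgroup.mem_centralizer_singleton_iff.mp g.2)⟩
      invFun := fun g => ⟨g.1.1, by
        rw [Subgroup.mem_centralizer_singleton_iff]
        exact congrArg Subtype.val (Subgroup.mem_centralizer_singleton_iff.mp g.2)⟩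
      left_inv := fun g => rfl
      right_inv := fun g => rfl }

theorem cent_conj (x g : G) : Nat.card (Subgroup.centralizer ({x * g * x⁻¹} : Set G)) =
    Nat.card (Subgroup.centralizer ({g} : Set G)) := by
  have h1 := card_cls g
  have h2 := card_cls (x * g * x⁻¹)
  have h3 : IsConj g (x * g * x⁻¹) := isConj_iff.mpr ⟨x, rfl⟩
  have h4 : Nat.card {y : G // IsConj (x * g * x⁻¹) y} = Nat.card {y : G // IsConj g y} := by
    apply Nat.card_congr
    exact Equiv.subtypeEquivRight (fun y => ⟨fun h => h3.trans h, fun h => h3.symm.trans h⟩)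
  rw [h4, ← h1] at h2
  haveI : Nonempty {y : G // IsConj g y} := ⟨⟨g, IsConj.refl g⟩⟩
  exact Nat.eq_of_mul_eq_mul_left Nat.card_pos h2

/-- number of classes meeting the kernel nontrivially -/
theorem card_meet (hZ : IsZassenhausGroup G Ω) {a b : Ω} (hab : a ≠ b) (H : Subgroup G)
    (hHa : H ≤ stabilizer G a) (hHcard : Nat.card H + 1 = Fintype.card Ω)
    (hHfix : ∀ u ∈ H, u ≠ 1 → ∀ c : Ω, u • c = c → c = a) [(H.subgroupOf (stabilizer G a)).Normal] :
    Nat.card {C : ConjClasses G // ∃ g : G, ConjClasses.mk g = C ∧ g ∈ H ∧ g ≠ 1} =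
      (Finset.univ.filter fun φ : IrrCharacter (stabilizer G a) =>
        φ.1 ∈ inducedIrrAbove (H.subgroupOf (stabilizer G a)) ⊥).card := by
  have hfpf := kfpf hZ hab H hHa hHcard hHfix
  obtain ⟨P, hP⟩ : ∃ P : ConjClasses G → Prop, ∀ C, (∃ g : G, ConjClasses.mk g = C ∧ g ∈ H ∧ g ≠ 1) ↔ P C :=
    ⟨_, fun C => Iff.rfl⟩
  rw [Nat.card_congr (Equiv.subtypeEquivRight hP)]
  have hcls := sum_centralizer_cls (G := G) P
  have h1 : ∑ x : G, ∑ g : G, (if x⁻¹ * g * x ∈ H ∧ x⁻¹ * g * x ≠ 1 then Nat.card (Subgroup.centralizer ({g} : Set G)) else 0) =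
      Nat.card G * ∑ u : G, (if u ∈ H ∧ u ≠ 1 then Nat.card (Subgroup.centralizer ({u} : Set G)) else 0) := by
    have h2 : ∀ x : G, ∑ g : G, (if x⁻¹ * g * x ∈ H ∧ x⁻¹ * g * x ≠ 1 then Nat.card (Subgroup.centralizer ({g} : Set G)) else 0) =
        ∑ u : G, (if u ∈ H ∧ u ≠ 1 then Nat.card (Subgroup.centralizer ({u} : Set G)) else 0) := by
      intro x
      apply Fintype.sum_bijective (fun g => x⁻¹ * g * x) (conj_bijective x)
      intro g
      have h3 : Nat.card (Subgroup.centralizer ({x⁻¹ * g * x} : Set G)) = Nat.card (Subgroup.centralizer ({g} : Set G)) := by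
        have := cent_conj x⁻¹ g
        rwa [inv_inv] at this
      rw [h3]
    rw [Finset.sum_congr rfl (fun x _ => h2 x), Finset.sum_const, smul_eq_mul, Finset.card_univ, ← Nat.card_eq_fintype_card]
  have h4 : ∑ x : G, ∑ g : G, (if x⁻¹ * g * x ∈ H ∧ x⁻¹ * g * x ≠ 1 then Nat.card (Subgroup.centralizer ({g} : Set G)) else 0) =
      ∑ g : G, (if P (ConjClasses.mk g) then Nat.card (Subgroup.centralizer ({g} : Set G)) else 0) * Nat.card (stabilizer G a) := by
    rw [Finset.sum_comm]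
    refine Finset.sum_congr rfl fun g _ => ?_
    rw [Finset.sum_ite, Finset.sum_const_zero, add_zero, Finset.sum_const, smul_eq_mul, mul_comm]
    by_cases hg : P (ConjClasses.mk g)
    · rw [if_pos hg]
      congr 1
      rw [← hP] at hg
      obtain ⟨u, hu, huH, hu1⟩ := hg
      obtain ⟨y, hy⟩ := isConj_iff.mp (ConjClasses.mk_eq_mk_iff_isConj.mp hu)
      rw [← Fintype.card_subtype, ← Nat.card_eq_fintype_card]
      have hn := (kernel_struct hZ hab H hHa hHcard hHfix).1
      have key : ∀ x : G, x⁻¹ * g * x ∈ H → x⁻¹ * g * x ≠ 1 → y⁻¹ * x ∈ stabilizer G a := by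
        intro x h5 h6
        have h7 : (x⁻¹ * g * x) • (x⁻¹ * y) • a = (x⁻¹ * y) • a := by
          have hua : u • a = a := hHa huH
          rw [← hy, ← mul_smul]
          have : x⁻¹ * (y * u * y⁻¹) * x * (x⁻¹ * y) = (x⁻¹ * y) * u := by group
          rw [this, mul_smul, hua]
        have h8 := hHfix _ h5 h6 _ h7
        have h9 : y⁻¹ * x = (x⁻¹ * y)⁻¹ := by group
        rw [h9, mem_stabilizer_iff, inv_smul_eq_iff]
        exact h8.symm
      apply Nat.card_congr
      refine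
        { toFun := fun x => ⟨y⁻¹ * x.1, key x.1 x.2.1 x.2.2⟩
          invFun := fun z => ⟨y * z.1, ?_⟩
          left_inv := fun x => Subtype.ext (by simp)
          right_inv := fun z => Subtype.ext (by simp) }
      · have hz : z.1 • a = a := z.2
        have h5 : (y * z.1)⁻¹ * g * (y * z.1) = z.1⁻¹ * u * z.1 := by rw [← hy]; group
        rw [h5]
        constructor
        · have h6 := hn.conj_mem ⟨u, hHa huH⟩ (Subgroup.mem_subgroupOf.mpr huH) (z⁻¹)
          rw [Subgroup.mem_subgroupOf] at h6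
          simpa using h6
        · intro h6
          apply hu1
          have : u = z.1 * (z.1⁻¹ * u * z.1) * z.1⁻¹ := by group
          rw [this, h6]; group
    · rw [if_neg hg, zero_mul]
      apply mul_eq_zero_of_right
      rw [Finset.card_eq_zero, Finset.filter_eq_empty_iff]
      rintro x - ⟨h5, h6⟩
      apply hg
      rw [← hP]
      refine ⟨x⁻¹ * g * x, ?_, h5, h6⟩
      rw [ConjClasses.mk_eq_mk_iff_isConj]
      exact isConj_iff.mpr ⟨x, by group⟩
  rw [← Finset.sum_mul, hcls, h1] at h4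
  have h5 : ∑ u : G, (if u ∈ H ∧ u ≠ 1 then Nat.card (Subgroup.centralizer ({u} : Set G)) else 0) =
      Nat.card {C : ConjClasses G // P C} * Nat.card (stabilizer G a) := by
    have hpos : 0 < Nat.card G := Nat.card_pos
    apply Nat.eq_of_mul_eq_mul_left hpos
    rw [h4]; ring
  have h6 : ∑ u : G, (if u ∈ H ∧ u ≠ 1 then Nat.card (Subgroup.centralizer ({u} : Set G)) else 0) =
      ∑ u : stabilizer G a with (u ∈ H.subgroupOf (stabilizer G a) ∧ u ≠ 1),
        Nat.card (Subgroup.centralizer ({u} : Set (stabilizer G a))) := by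
    rw [← Finset.sum_filter]
    symm
    refine Finset.sum_bij (fun (u : stabilizer G a) _ => (u : G)) ?_ ?_ ?_ ?_
    · intro u hu
      obtain ⟨-, h7, h8⟩ := Finset.mem_filter.mp hu
      exact Finset.mem_filter.mpr ⟨Finset.mem_univ _, h7, fun h => h8 (Subtype.ext h)⟩
    · intro u _ v _ h
      exact Subtype.ext h
    · intro u hu
      obtain ⟨-, h7, h8⟩ := Finset.mem_filter.mp hu
      exact ⟨⟨u, hHa h7⟩, Finset.mem_filter.mpr ⟨Finset.mem_univ _, h7, fun h => h8 (congrArg Subtype.val h)⟩, rfl⟩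
    · intro u hu
      obtain ⟨-, h7, h8⟩ := Finset.mem_filter.mp hu
      exact (cent_eq H hHa hHfix u h7 h8).symm
  have h7 := sum_cent hfpf
  have h8 : ((∑ u : stabilizer G a with (u ∈ H.subgroupOf (stabilizer G a) ∧ u ≠ 1),
        Nat.card (Subgroup.centralizer ({u} : Set (stabilizer G a))) : ℕ) : ℂ) =
      ((Nat.card {C : ConjClasses G // P C} * Nat.card (stabilizer G a) : ℕ) : ℂ) := by rw [← h6, h5]
  rw [Nat.cast_sum] at h8
  have h7' : ∑ u : stabilizer G a with (u ∈ H.subgroupOf (stabilizer G a) ∧ u ≠ 1),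
        (Nat.card (Subgroup.centralizer ({u} : Set (stabilizer G a))) : ℂ) =
      (Finset.univ.filter fun φ : IrrCharacter (stabilizer G a) =>
        φ.1 ∈ inducedIrrAbove (H.subgroupOf (stabilizer G a)) ⊥).card * (Nat.card (stabilizer G a) : ℂ) := by
    convert h7
  rw [h7'] at h8
  have h9 : (Nat.card (stabilizer G a) : ℂ) ≠ 0 := Nat.cast_ne_zero.mpr Nat.card_pos.ne'
  push_cast at h8
  have h10 := mul_right_cancel₀ h9 h8
  exact_mod_cast h10.symm

/-- lower bound for the number of irreducible characters -/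
theorem irr_ge (hZ : IsZassenhausGroup G Ω) {a b : Ω} (hab : a ≠ b) (H : Subgroup G)
    (hHa : H ≤ stabilizer G a) (hHcard : Nat.card H + 1 = Fintype.card Ω)
    (hHfix : ∀ u ∈ H, u ≠ 1 → ∀ c : Ω, u • c = c → c = a) [(H.subgroupOf (stabilizer G a)).Normal]
    (hodd : Odd (Nat.card (stabilizer G a ⊓ stabilizer G b : Subgroup G))) (hG : commutator G = ⊤)
    (hlt : Nat.card (stabilizer G a ⊓ stabilizer G b : Subgroup G) + 1 < Fintype.card Ω) :
    Nat.card (stabilizer G a ⊓ stabilizer G b : Subgroup G) + 1 + (Finset.univ.filter fun φ : IrrCharacter (stabilizer G a) =>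
        φ.1 ∈ inducedIrrAbove (H.subgroupOf (stabilizer G a)) ⊥).card ≤ Fintype.card (IrrCharacter G) := by
  have h1 := classes_avoiding hZ hab H hHa hHcard hHfix hodd hG hlt
  have h2 := card_meet hZ hab H hHa hHcard hHfix
  have h3 : Nat.card (IrrCharacter G) = Nat.card (ConjClasses G) := card_irr
  haveI : Fintype (ConjClasses G) := Fintype.ofFinite _
  rw [← Nat.card_eq_fintype_card, h3, ← h2, Nat.card_eq_fintype_card (α := ConjClasses G)]
  have h1' : Nat.card {C : ConjClasses G // ∀ g : G, ConjClasses.mk g = C → g ∉ H} =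
      (Finset.univ.filter fun C : ConjClasses G => ∀ g : G, ConjClasses.mk g = C → g ∉ H).card := by
    rw [Nat.card_eq_fintype_card, Fintype.card_subtype]
  have h4 : (Finset.univ.filter fun C : ConjClasses G => ∀ g : G, ConjClasses.mk g = C → g ∉ H).card + 1 +
      (Finset.univ.filter fun C : ConjClasses G => ∃ g : G, ConjClasses.mk g = C ∧ g ∈ H ∧ g ≠ 1).card ≤
      Fintype.card (ConjClasses G) := by
    have h5 : Disjoint (Finset.univ.filter fun C : ConjClasses G => ∀ g : G, ConjClasses.mk g = C → g ∉ H)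
        ({ConjClasses.mk 1} : Finset (ConjClasses G)) := by
      rw [Finset.disjoint_singleton_right, Finset.mem_filter]
      rintro ⟨-, h⟩
      exact h 1 rfl H.one_mem
    have h6 : Disjoint ((Finset.univ.filter fun C : ConjClasses G => ∀ g : G, ConjClasses.mk g = C → g ∉ H) ∪
        ({ConjClasses.mk 1} : Finset (ConjClasses G)))
        (Finset.univ.filter fun C : ConjClasses G => ∃ g : G, ConjClasses.mk g = C ∧ g ∈ H ∧ g ≠ 1) := by
      rw [Finset.disjoint_union_left, Finset.disjoint_singleton_left]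
      constructor
      · rw [Finset.disjoint_filter]
        rintro C - h ⟨g, hg, hgH, -⟩
        exact h g hg hgH
      · rw [Finset.mem_filter]
        rintro ⟨-, g, hg, -, hg1⟩
        apply hg1
        exact (isConj_one_right.mp (ConjClasses.mk_eq_mk_iff_isConj.mp hg).symm)
    calc _ = (((Finset.univ.filter fun C : ConjClasses G => ∀ g : G, ConjClasses.mk g = C → g ∉ H) ∪
        ({ConjClasses.mk 1} : Finset (ConjClasses G))) ∪
        (Finset.univ.filter fun C : ConjClasses G => ∃ g : G, ConjClasses.mk g = C ∧ g ∈ H ∧ g ≠ 1)).card := by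
          rw [Finset.card_union_of_disjoint h6, Finset.card_union_of_disjoint h5, Finset.card_singleton]
      _ ≤ _ := Finset.card_le_univ _
  have h7 : Nat.card {C : ConjClasses G // ∃ g : G, ConjClasses.mk g = C ∧ g ∈ H ∧ g ≠ 1} =
      (Finset.univ.filter fun C : ConjClasses G => ∃ g : G, ConjClasses.mk g = C ∧ g ∈ H ∧ g ≠ 1).card := by
    rw [Nat.card_eq_fintype_card, Fintype.card_subtype]
  omega

end count

end
noncomputable section

section final

open Classical

variable {G Ω : Type*} [Group G] [Fintype G] [MulAction G Ω] [Fintype Ω]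

theorem hom_inv_inv {A : Type*} [Group A] (l : A →* ℂˣ) : l⁻¹⁻¹ = l := by
  ext x; simp [MonoidHom.inv_apply]

theorem hom_inv_one {A : Type*} [Group A] : (1 : A →* ℂˣ)⁻¹ = 1 := by
  ext x; simp [MonoidHom.inv_apply]

theorem index_stab (hZ : IsZassenhausGroup G Ω) (a : Ω) : (stabilizer G a).index = Fintype.card Ω := by
  haveI : MulAction.IsPretransitive G Ω := pretransitive hZ
  rw [MulAction.index_stabilizer_of_transitive, Nat.card_eq_fintype_card]

/-- the "Steinberg" character: permutation character minus one -/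
theorem st_irr (hZ : IsZassenhausGroup G Ω) {a b : Ω} (hab : a ≠ b) (H : Subgroup G)
    (hHa : H ≤ stabilizer G a) (hHcard : Nat.card H + 1 = Fintype.card Ω)
    (hHfix : ∀ u ∈ H, u ≠ 1 → ∀ c : Ω, u • c = c → c = a)
    (hodd : Odd (Nat.card (stabilizer G a ⊓ stabilizer G b : Subgroup G))) (hG : commutator G = ⊤) :
    IsIrrCharacter G (indFun (stabilizer G a) (linFn 1) - fun _ => 1) := by
  have h1 : classInner (indFun (stabilizer G a) (linFn 1)) (indFun (stabilizer G a) (linFn 1)) = 2 := by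
    rw [ind_lin_inner hZ hab H hHa hHcard hHfix hodd hG 1 1 (fun _ _ => rfl) (fun _ _ => rfl), if_pos rfl,
      if_pos hom_inv_one]
    norm_num
  have h2 : classInner (indFun (stabilizer G a) (linFn 1)) (fun _ : G => (1 : ℂ)) = 1 := by
    rw [reciprocity _ _ _ (classFn_const 1), linFn_one]
    exact irr_inner_self isIrr_trivial
  have h3 : classInner (fun _ : G => (1 : ℂ)) (indFun (stabilizer G a) (linFn 1)) = 1 := by
    rw [← classInner_conj_symm, h2, map_one]
  have h4 : classInner (fun _ : G => (1 : ℂ)) (fun _ : G => (1 : ℂ)) = 1 := irr_inner_self isIrr_trivial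
  have h5 : classInner (indFun (stabilizer G a) (linFn 1) - fun _ => 1) (indFun (stabilizer G a) (linFn 1) - fun _ => 1) = 1 := by
    rw [classInner_sub_left, classInner_sub_right, classInner_sub_right, h1, h2, h3, h4]; norm_num
  have h6 : IsGeneralizedCharacter G (indFun (stabilizer G a) (linFn 1) - fun _ => 1) :=
    gen_sub (gen_of_char (isChar_ind _ (linFn_isChar 1))) (gen_of_irr isIrr_trivial)
  rcases SI.of_norm h6 h5 with h7 | h7
  · exact h7
  · exfalso
    obtain ⟨n, hn0, hn⟩ := isIrr_one_eq h7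
    rw [Pi.neg_apply, Pi.sub_apply, indFun_one, linFn_apply_one, index_stab hZ, mul_one] at hn
    have h8 := (two_lt hZ hab).2
    have h9 : ((n + Fintype.card Ω : ℕ) : ℂ) = ((1 : ℕ) : ℂ) := by push_cast; linear_combination -hn
    have h10 := Nat.cast_injective h9
    omega

theorem st_one (hZ : IsZassenhausGroup G Ω) (a : Ω) :
    (indFun (stabilizer G a) (linFn 1) - fun _ => 1 : G → ℂ) 1 = (Fintype.card Ω : ℂ) - 1 := by
  rw [Pi.sub_apply, indFun_one, linFn_apply_one, index_stab hZ, mul_one]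

theorem st_u (hZ : IsZassenhausGroup G Ω) {a : Ω} (H : Subgroup G) (hHa : H ≤ stabilizer G a)
    (hHfix : ∀ u ∈ H, u ≠ 1 → ∀ c : Ω, u • c = c → c = a) {u : G} (hu : u ∈ H) (hu1 : u ≠ 1) :
    (indFun (stabilizer G a) (linFn 1) - fun _ => 1 : G → ℂ) u = 0 := by
  rw [Pi.sub_apply, ind_lin_H hZ H hHa hHfix 1 (fun _ _ => rfl) hu hu1, sub_self]

/-- the set of the induced nontrivial linear characters has `(e-1)/2` members -/
theorem exists_P (hZ : IsZassenhausGroup G Ω) {a b : Ω} (hab : a ≠ b) (H : Subgroup G)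
    (hHa : H ≤ stabilizer G a) (hHcard : Nat.card H + 1 = Fintype.card Ω)
    (hHfix : ∀ u ∈ H, u ≠ 1 → ∀ c : Ω, u • c = c → c = a) [(H.subgroupOf (stabilizer G a)).Normal]
    (hodd : Odd (Nat.card (stabilizer G a ⊓ stabilizer G b : Subgroup G))) (hG : commutator G = ⊤) :
    ∃ P : Finset (IrrCharacter G), 2 * P.card + 1 = Nat.card (stabilizer G a ⊓ stabilizer G b : Subgroup G) ∧
      (∀ ψ ∈ P, ∃ l : stabilizer G a →* ℂˣ, (∀ k ∈ H.subgroupOf (stabilizer G a), l k = 1) ∧ l ≠ 1 ∧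
        ψ.1 = indFun (stabilizer G a) (linFn l)) ∧
      (∀ l : stabilizer G a →* ℂˣ, (∀ k ∈ H.subgroupOf (stabilizer G a), l k = 1) → l ≠ 1 →
        ∃ ψ ∈ P, ψ.1 = indFun (stabilizer G a) (linFn l)) := by
  haveI : Fintype (stabilizer G a →* ℂˣ) := Fintype.ofFinite _
  let X : Finset (stabilizer G a →* ℂˣ) := Finset.univ.filter fun l => (∀ k ∈ H.subgroupOf (stabilizer G a), l k = 1) ∧ l ≠ 1
  have hX : ∀ l, l ∈ X ↔ (∀ k ∈ H.subgroupOf (stabilizer G a), l k = 1) ∧ l ≠ 1 := fun l => by simp [X]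
  have hXcard : X.card + 1 = Nat.card (stabilizer G a ⊓ stabilizer G b : Subgroup G) := by
    have h1 := Cfsg.Agent.Lib.CharRam.card_lin_quot (A := stabilizer G a) (N := H.subgroupOf (stabilizer G a))
      (kcomm hZ hab H hHa hHcard hHfix hodd hG)
    rw [kindex hZ hab H hHa hHcard] at h1
    rw [← h1, Nat.card_eq_fintype_card, Fintype.card_subtype]
    have h2 : X = (Finset.univ.filter fun l : stabilizer G a →* ℂˣ => ∀ k ∈ H.subgroupOf (stabilizer G a), l k = 1).erase 1 := by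
      ext l
      rw [hX, Finset.mem_erase, Finset.mem_filter]
      exact ⟨fun h => ⟨h.2, Finset.mem_univ _, h.1⟩, fun h => ⟨h.2.2, h.1⟩⟩
    rw [h2, Finset.card_erase_add_one (by simp)]
  have hirr : ∀ l ∈ X, IsIrrCharacter G (indFun (stabilizer G a) (linFn l)) := fun l hl =>
    ind_lin_irr hZ hab H hHa hHcard hHfix hodd hG l (fun u hu => ((hX l).mp hl).1 u hu) ((hX l).mp hl).2
  let g : (stabilizer G a →* ℂˣ) → IrrCharacter G := fun l =>
    if h : IsIrrCharacter G (indFun (stabilizer G a) (linFn l)) then ⟨_, h⟩ else ⟨fun _ => 1, isIrr_trivial⟩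
  have hg : ∀ l ∈ X, (g l).1 = indFun (stabilizer G a) (linFn l) := by
    intro l hl
    simp only [g, dif_pos (hirr l hl)]
  refine ⟨X.image g, ?_, ?_, ?_⟩
  · rw [← hXcard, Finset.card_eq_sum_card_image g X]
    have h1 : ∀ ψ ∈ X.image g, (X.filter fun l => g l = ψ).card = 2 := by
      intro ψ hψ
      obtain ⟨l₀, hl₀, rfl⟩ := Finset.mem_image.mp hψ
      have hl₀' := (hX l₀).mp hl₀
      have hne : l₀⁻¹ ≠ l₀ := lin_sq_ne hodd l₀ (lin_pow hZ hab H hHa hHcard hHfix l₀ (fun u hu => hl₀'.1 u hu)) hl₀'.2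
      have hfib : (X.filter fun l => g l = g l₀) = {l₀, l₀⁻¹} := by
        ext l
        rw [Finset.mem_filter, Finset.mem_insert, Finset.mem_singleton]
        constructor
        · rintro ⟨hl, hgl⟩
          have hl' := (hX l).mp hl
          have h2 : classInner (indFun (stabilizer G a) (linFn l)) (indFun (stabilizer G a) (linFn l₀)) = 1 := by
            rw [← hg l hl, ← hg l₀ hl₀, hgl]
            exact irr_inner_self (g l₀).2
          rw [ind_lin_inner hZ hab H hHa hHcard hHfix hodd hG l l₀ (fun u hu => hl'.1 u hu) (fun u hu => hl₀'.1 u hu)] at h2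
          by_cases h3 : l = l₀
          · exact Or.inl h3
          · right
            by_cases h4 : l⁻¹ = l₀
            · rw [← h4, hom_inv_inv]
            · rw [if_neg h3, if_neg h4, add_zero] at h2
              exact absurd h2 zero_ne_one
        · have hinvX : l₀⁻¹ ∈ X := by
            rw [hX]
            refine ⟨fun k hk => ?_, fun h => hl₀'.2 (by rw [← hom_inv_inv l₀, h, hom_inv_one])⟩
            rw [MonoidHom.inv_apply, hl₀'.1 k hk, inv_one]
          rintro (rfl | rfl)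
          · exact ⟨hl₀, rfl⟩
          · refine ⟨hinvX, ?_⟩
            apply Subtype.ext
            rw [hg _ hinvX, hg _ hl₀]
            apply irr_eq_of_inner_ne_zero (hirr _ hinvX) (hirr _ hl₀)
            rw [ind_lin_inner hZ hab H hHa hHcard hHfix hodd hG l₀⁻¹ l₀ (fun u hu => ((hX _).mp hinvX).1 u hu)
              (fun u hu => hl₀'.1 u hu), if_neg hne, if_pos (hom_inv_inv l₀), zero_add]
            exact one_ne_zero
      rw [hfib, Finset.card_pair (Ne.symm hne)]
    rw [Finset.sum_congr rfl h1, Finset.sum_const, smul_eq_mul, mul_comm]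
  · intro ψ hψ
    obtain ⟨l, hl, rfl⟩ := Finset.mem_image.mp hψ
    exact ⟨l, ((hX l).mp hl).1, ((hX l).mp hl).2, hg l hl⟩
  · intro l hl hl1
    have hlX : l ∈ X := (hX l).mpr ⟨hl, hl1⟩
    exact ⟨g l, Finset.mem_image_of_mem g hlX, hg l hlX⟩

end final

end
noncomputable section

section contra

open Classical

variable {G Ω : Type*} [Group G] [Fintype G] [MulAction G Ω] [Fintype Ω]

theorem irr_over (hZ : IsZassenhausGroup G Ω) {a b : Ω} (hab : a ≠ b) (H : Subgroup G)
    (hHa : H ≤ stabilizer G a) (hHcard : Nat.card H + 1 = Fintype.card Ω)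
    (hHfix : ∀ u ∈ H, u ≠ 1 → ∀ c : Ω, u • c = c → c = a) [(H.subgroupOf (stabilizer G a)).Normal]
    (hodd : Odd (Nat.card (stabilizer G a ⊓ stabilizer G b : Subgroup G))) (hG : commutator G = ⊤)
    (φ : IrrCharacter (stabilizer G a)) (hφ : ¬ φ.1 ∈ inducedIrrAbove (H.subgroupOf (stabilizer G a)) ⊥) :
    ∃ l : stabilizer G a →* ℂˣ, (∀ k ∈ H.subgroupOf (stabilizer G a), l k = 1) ∧ φ.1 = linFn l := by
  have hfpf := kfpf hZ hab H hHa hHcard hHfix
  have hker := ker_of_not_mem hfpf φ.2 hφ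
  have hcomm := kcomm hZ hab H hHa hHcard hHfix hodd hG
  obtain ⟨l, hl⟩ := Cfsg.Agent.Lib.CharMono.linear_of_commutator_le φ.2 (by
    intro x y
    apply hker
    have h1 := hcomm (x : stabilizer G a ⧸ H.subgroupOf (stabilizer G a)) y
    rw [← QuotientGroup.eq_one_iff, QuotientGroup.mk_mul, QuotientGroup.mk_mul, QuotientGroup.mk_mul,
      QuotientGroup.mk_inv, QuotientGroup.mk_inv, h1]
    group)
  refine ⟨l, fun k hk => ?_, hl⟩
  have h1 := hker k hk
  rw [hl, linFn_apply, linFn_apply_one] at h1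
  exact Units.ext h1

theorem feit_contra (hZ : IsZassenhausGroup G Ω) {a b : Ω} (hab : a ≠ b) (H : Subgroup G)
    (hHa : H ≤ stabilizer G a) (hHcard : Nat.card H + 1 = Fintype.card Ω)
    (hHfix : ∀ u ∈ H, u ≠ 1 → ∀ c : Ω, u • c = c → c = a) [(H.subgroupOf (stabilizer G a)).Normal]
    (hodd : Odd (Nat.card (stabilizer G a ⊓ stabilizer G b : Subgroup G))) (hG : commutator G = ⊤)
    (hlt : 2 * Nat.card (stabilizer G a ⊓ stabilizer G b : Subgroup G) + 2 < Fintype.card Ω)
    {star : (stabilizer G a → ℂ) → (G → ℂ)}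
    (hstar : IsLinearIsometryOn (zspan (inducedIrrAbove (H.subgroupOf (stabilizer G a)) ⊥)) star)
    (hext : ∀ α ∈ zspanOn (inducedIrrAbove (H.subgroupOf (stabilizer G a)) ⊥) ({1}ᶜ : Set (stabilizer G a)),
      star α = indFun (stabilizer G a) α) : False := by
  have hfpf := kfpf hZ hab H hHa hHcard hHfix
  have hidx := kindex hZ hab H hHa hHcard
  have hKH := kcard H hHa
  have hn2 := two_lt hZ hab
  have hirrge := irr_ge hZ hab H hHa hHcard hHfix hodd hG (by omega)
  obtain ⟨P, hPcard, hP1, hP2⟩ := exists_P hZ hab H hHa hHcard hHfix hodd hG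
  have hover := irr_over hZ hab H hHa hHcard hHfix hodd hG
  obtain ⟨e, he⟩ : ∃ e, e = Nat.card (stabilizer G a ⊓ stabilizer G b : Subgroup G) := ⟨_, rfl⟩
  rw [← he] at hidx hn2 hlt hirrge hPcard
  have hsolv : Group.IsSolvable (H.subgroupOf (stabilizer G a)) := by
    haveI := (kernel_struct hZ hab H hHa hHcard hHfix).2
    haveI : Group.IsNilpotent (H.subgroupOf (stabilizer G a)) :=
      (Group.isNilpotent_congr (Subgroup.subgroupOfEquivOfLe hHa)).mpr inferInstance
    infer_instance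
  have hK1 : H.subgroupOf (stabilizer G a) ≠ ⊥ := by
    intro h
    rw [h, Subgroup.card_bot] at hKH
    omega
  have hresK := hres hZ hab H hHa hHcard hHfix
  obtain ⟨m, hm⟩ := restriction_const hfpf hsolv hstar hext (fun α h1 h2 h3 x => hresK α h1 h2 h3 x)
  obtain ⟨ξ₀, hξ₀, hξ₀d⟩ := exists_degree_e (K := H.subgroupOf (stabilizer G a)) hsolv (bot_lt_iff_ne_bot.mpr hK1)
  have hirr : ∀ χ ∈ inducedIrrAbove (H.subgroupOf (stabilizer G a)) ⊥, IsIrrCharacter (stabilizer G a) χ :=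
    fun χ hχ => iia_irr' hfpf hχ
  -- an element of the kernel
  obtain ⟨u, huH, hu1⟩ : ∃ u ∈ H, u ≠ 1 := by
    by_contra h
    push Not at h
    apply hK1
    rw [eq_bot_iff]
    intro x hx
    rw [Subgroup.mem_bot]
    exact Subtype.ext (h x.1 hx)
  let uL : stabilizer G a := ⟨u, hHa huH⟩
  have huK : uL ∈ H.subgroupOf (stabilizer G a) := huH
  have huL1 : uL ≠ 1 := fun h => hu1 (congrArg Subtype.val h)
  have hLcard : (Nat.card (stabilizer G a) : ℂ) = Nat.card (H.subgroupOf (stabilizer G a)) * e := by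
    rw [← (H.subgroupOf (stabilizer G a)).card_mul_index, hidx]; push_cast; ring
  have hKn : (Nat.card (H.subgroupOf (stabilizer G a)) : ℂ) = (Fintype.card Ω : ℂ) - 1 := by
    rw [hKH, ← hHcard]; push_cast; ring
  have he0 : (e : ℂ) ≠ 0 := Nat.cast_ne_zero.mpr (by omega)
  have hS1 := sum_S_one hfpf
  have hSu := sum_S_u hfpf huK huL1
  have hSuu := sum_S_uu hfpf huK
  rw [hidx] at hS1 hSu hSuu
  rw [hLcard, hKn] at hS1
  -- two members
  have htwo : ∃ χ ∈ inducedIrrAbove (H.subgroupOf (stabilizer G a)) ⊥,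
      ∃ ξ ∈ inducedIrrAbove (H.subgroupOf (stabilizer G a)) ⊥, χ ≠ ξ := by
    by_contra hcon
    push Not at hcon
    have h1 : (Finset.univ.filter fun φ : IrrCharacter (stabilizer G a) =>
        φ.1 ∈ inducedIrrAbove (H.subgroupOf (stabilizer G a)) ⊥) = {⟨ξ₀, hirr ξ₀ hξ₀⟩} := by
      ext φ
      rw [Finset.mem_filter, Finset.mem_singleton]
      constructor
      · rintro ⟨-, h⟩
        exact Subtype.ext (hcon _ h _ hξ₀)
      · rintro rfl
        exact ⟨Finset.mem_univ _, hξ₀⟩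
    rw [h1, Finset.sum_singleton] at hS1
    change ξ₀ 1 * ξ₀ 1 = _ at hS1
    rw [hξ₀d, hidx] at hS1
    have h2 : (e : ℂ) * (e + 2) = e * Fintype.card Ω := by linear_combination hS1
    have h3 := mul_left_cancel₀ he0 h2
    have h4 : e + 2 = Fintype.card Ω := by exact_mod_cast h3
    omega
  have hexc := fun {ψ : G → ℂ} (hψ : IsIrrCharacter G ψ) => exceptional_iff hfpf htwo hstar hext hψ
  -- the special characters
  let one : IrrCharacter G := ⟨fun _ => 1, isIrr_trivial⟩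
  let St : IrrCharacter G := ⟨_, st_irr hZ hab H hHa hHcard hHfix hodd hG⟩
  have hSt1 : St.1 1 = (Fintype.card Ω : ℂ) - 1 := st_one hZ a
  have hStu : ∀ v ∈ H, v ≠ 1 → St.1 v = 0 := fun v hv hv1 => st_u hZ H hHa hHfix hv hv1
  have hPu : ∀ ψ ∈ P, ∀ v ∈ H, v ≠ 1 → ψ.1 v = 1 := by
    intro ψ hψ v hv hv1
    obtain ⟨l, hl, -, hψl⟩ := hP1 ψ hψ
    rw [hψl]
    exact ind_lin_H hZ H hHa hHfix l (fun w hw => hl w hw) hv hv1
  have hPd : ∀ ψ ∈ P, ψ.1 1 = (Fintype.card Ω : ℂ) := by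
    intro ψ hψ
    obtain ⟨l, hl, -, hψl⟩ := hP1 ψ hψ
    rw [hψl, indFun_one, linFn_apply_one, index_stab hZ, mul_one]
  have hone_St : one ∉ insert St P := by
    rw [Finset.mem_insert]
    rintro (h | h)
    · have h1 : (1 : ℂ) = St.1 1 := congrFun (congrArg Subtype.val h) 1
      rw [hSt1] at h1
      have h2 : ((2 : ℕ) : ℂ) = Fintype.card Ω := by push_cast; linear_combination h1
      have h3 : 2 = Fintype.card Ω := by exact_mod_cast h2
      omega
    · have h1 : (1 : ℂ) = _ := hPd one h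
      have h3 : 1 = Fintype.card Ω := by exact_mod_cast h1
      omega
  have hSt_P : St ∉ P := by
    intro h
    have h1 := hPu St h u huH hu1
    rw [hStu u huH hu1] at h1
    exact zero_ne_one h1
  let C : Finset (IrrCharacter G) := insert one (insert St P)
  let E : IrrCharacter G → Prop := fun ψ => ∃ χ ∈ inducedIrrAbove (H.subgroupOf (stabilizer G a)) ⊥, ψ.1 = star χ ∨ ψ.1 = -star χ
  have hCE : ∀ ψ ∈ C, ¬ E ψ := by
    intro ψ hψ hE
    obtain ⟨x, hx, y, hy, hx1, hy1, hxy⟩ := (hexc ψ.2).mp hE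
    apply hxy
    have hx1' : (x : G) ≠ 1 := fun h => hx1 (Subtype.ext h)
    have hy1' : (y : G) ≠ 1 := fun h => hy1 (Subtype.ext h)
    rcases Finset.mem_insert.mp hψ with rfl | hψ
    · rfl
    · rcases Finset.mem_insert.mp hψ with rfl | hψ
      · rw [hStu x hx hx1', hStu y hy hy1']
      · rw [hPu ψ hψ x hx hx1', hPu ψ hψ y hy hy1']
  let B : Finset (IrrCharacter G) := Finset.univ.filter fun ψ => ¬ E ψ ∧ ψ ∉ C
  have hsum : ∀ f : IrrCharacter G → ℂ, ∑ ψ : IrrCharacter G, f ψ =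
      (∑ ψ : IrrCharacter G with E ψ, f ψ) + (f one + (f St + ∑ ψ ∈ P, f ψ)) + ∑ ψ ∈ B, f ψ := by
    intro f
    rw [← Finset.sum_filter_add_sum_filter_not Finset.univ E, add_assoc]
    congr 1
    have h1 : ∑ ψ ∈ C, f ψ = f one + (f St + ∑ ψ ∈ P, f ψ) := by
      rw [Finset.sum_insert hone_St, Finset.sum_insert hSt_P]
    rw [← h1, ← Finset.sum_filter_add_sum_filter_not (Finset.univ.filter fun ψ => ¬ E ψ) (fun ψ => ψ ∈ C)]
    congr 1
    · apply Finset.sum_congr _ (fun _ _ => rfl)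
      ext ψ
      rw [Finset.mem_filter, Finset.mem_filter]
      exact ⟨fun h => h.2, fun h => ⟨⟨Finset.mem_univ _, hCE ψ h⟩, h⟩⟩
    · apply Finset.sum_congr _ (fun _ _ => rfl)
      ext ψ
      rw [Finset.mem_filter, Finset.mem_filter, Finset.mem_filter]
      exact ⟨fun h => ⟨Finset.mem_univ _, h.1.2, h.2⟩, fun h => ⟨⟨Finset.mem_univ _, h.2.1⟩, h.2.2⟩⟩
  -- values on `B`
  have hBv : ∀ ψ ∈ B, ∃ b : ℕ, 1 ≤ b ∧ ψ.1 u = -(b : ℂ) ∧ ψ.1 1 = b * ((Fintype.card Ω : ℂ) - 2) := by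
    intro ψ hψ
    obtain ⟨-, hE, hC⟩ := Finset.mem_filter.mp hψ
    obtain ⟨b, hb1, hb2, hb3⟩ := other_values hfpf hsolv hK1 hstar hext ψ.2 hE (by
      intro φ hφ
      obtain ⟨l, hl, hφl⟩ := hover φ hφ
      rw [hφl, ← reciprocity' (stabilizer G a) (linFn l) ψ.1 (isChar_classFn (isChar_of_irr ψ.2))]
      by_cases hl1 : l = 1
      · subst hl1
        have h1 : indFun (stabilizer G a) (linFn 1) = St.1 + one.1 := (sub_add_cancel _ _).symm
        rw [h1, classInner_add_right, irr_inner_ne ψ.2 St.2 (fun h => hC (Finset.mem_insert_of_mem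
          (Finset.mem_insert.mpr (Or.inl (Subtype.ext h))))), irr_inner_ne ψ.2 one.2 (fun h => hC
          (Finset.mem_insert.mpr (Or.inl (Subtype.ext h)))), add_zero]
      · obtain ⟨ψ', hψ', h1⟩ := hP2 l hl hl1
        rw [← h1]
        exact irr_inner_ne ψ.2 ψ'.2 (fun h => hC (Finset.mem_insert_of_mem (Finset.mem_insert_of_mem
          ((Subtype.ext h : ψ = ψ') ▸ hψ')))))
    refine ⟨b, hb1, hb2 uL huK huL1, ?_⟩
    rw [hb3, hKn]; ring
  choose! β hβ1 hβu hβd using hBv
  -- sums over the exceptional characters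
  have hE1 := sum_exc hfpf hstar (fun _ => 1) (fun _ => rfl)
  have hE2 := sum_exc hfpf hstar (fun φ => φ u * conj (φ u)) (fun φ => by simp)
  have hE3 := sum_exc hfpf hstar (fun φ => φ u * φ 1) (fun φ => by simp)
  -- counting
  obtain ⟨p, hp⟩ : ∃ p, p = P.card := ⟨_, rfl⟩
  rw [← hp] at hPcard
  obtain ⟨Q, hQ⟩ : ∃ Q : ℕ, Q = ∑ ψ ∈ B, β ψ ^ 2 := ⟨_, rfl⟩
  have hcount : Fintype.card (IrrCharacter G) = (Finset.univ.filter fun φ : IrrCharacter (stabilizer G a) =>
        φ.1 ∈ inducedIrrAbove (H.subgroupOf (stabilizer G a)) ⊥).card + (1 + (1 + p)) + B.card := by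
    have h1 := hsum (fun _ => 1)
    have h2 : ∑ ψ : IrrCharacter G with E ψ, (1 : ℂ) = ∑ ξ : IrrCharacter (stabilizer G a) with
      ξ.1 ∈ inducedIrrAbove (H.subgroupOf (stabilizer G a)) ⊥, (1 : ℂ) := hE1
    rw [h2] at h1
    simp only [Finset.sum_const, nsmul_eq_mul, mul_one, Finset.card_univ] at h1
    rw [← hp] at h1
    exact_mod_cast h1
  have hQB : B.card ≤ Q := by
    rw [hQ, Finset.card_eq_sum_ones]
    apply Finset.sum_le_sum
    intro ψ hψ
    exact Nat.one_le_pow _ _ (hβ1 ψ hψ)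
  have hpQ : p ≤ Q := by omega
  have hxi : ∀ ξ : IrrCharacter (stabilizer G a), ξ.1 ∈ inducedIrrAbove (H.subgroupOf (stabilizer G a)) ⊥ →
      star ξ.1 u = ξ.1 uL + (m : ℂ) * ξ.1 1 / e := by
    intro ξ hξ
    have h1 := hm ξ.1 hξ uL huK huL1
    rw [hidx] at h1
    linear_combination h1
  have hreal : ∀ ξ : IrrCharacter (stabilizer G a), conj (ξ.1 1) = ξ.1 1 := by
    intro ξ
    obtain ⟨n, -, hn⟩ := isIrr_one_eq ξ.2
    rw [hn, Complex.conj_natCast]
  have hSu' : ∑ φ : IrrCharacter (stabilizer G a) with φ.1 ∈ inducedIrrAbove (H.subgroupOf (stabilizer G a)) ⊥,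
      conj (φ.1 uL) * φ.1 1 = -(e : ℂ) := by
    have h1 := congrArg conj hSu
    rw [map_sum, map_neg, Complex.conj_natCast] at h1
    rw [← h1]
    exact Finset.sum_congr rfl fun φ _ => by rw [map_mul, hreal]
  have hcu : Nat.card (Subgroup.centralizer ({u} : Set G)) = Nat.card (Subgroup.centralizer ({uL} : Set (stabilizer G a))) :=
    cent_eq H hHa hHfix uL huH huL1
  have hmain : (m : ℂ) ^ 2 * ((Fintype.card Ω : ℂ) - 2) = e * (e + 2 * m - 1 - p - Q) := by
    have h1 := column_orth u u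
    rw [if_pos (IsConj.refl u), hsum (fun ψ => ψ.1 u * conj (ψ.1 u))] at h1
    have h2 : ∑ ψ : IrrCharacter G with E ψ, ψ.1 u * conj (ψ.1 u) =
      ∑ ξ : IrrCharacter (stabilizer G a) with ξ.1 ∈ inducedIrrAbove (H.subgroupOf (stabilizer G a)) ⊥,
        star ξ.1 u * conj (star ξ.1 u) := hE2
    have h3 : ∑ ξ : IrrCharacter (stabilizer G a) with ξ.1 ∈ inducedIrrAbove (H.subgroupOf (stabilizer G a)) ⊥,
        star ξ.1 u * conj (star ξ.1 u) =
        ((Nat.card (Subgroup.centralizer ({uL} : Set (stabilizer G a))) : ℂ) - e) + (m : ℂ) / e * (-(e : ℂ)) +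
          (m : ℂ) / e * (-(e : ℂ)) + (m : ℂ) ^ 2 / e ^ 2 * (((Fintype.card Ω : ℂ) - 1) * e - e) := by
      rw [← hSuu, ← hS1]
      nth_rw 1 [← hSu]
      rw [← hSu', Finset.mul_sum, Finset.mul_sum, Finset.mul_sum, ← Finset.sum_add_distrib, ← Finset.sum_add_distrib,
        ← Finset.sum_add_distrib]
      refine Finset.sum_congr rfl fun ξ hξ => ?_
      rw [hxi ξ (Finset.mem_filter.mp hξ).2, map_add, map_div₀, map_mul, hreal, Complex.conj_natCast, map_intCast]
      field_simp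
      ring
    have h4 : ∑ ψ ∈ P, ψ.1 u * conj (ψ.1 u) = (p : ℂ) := by
      rw [Finset.sum_congr rfl (g := fun _ => (1 : ℂ)) (fun ψ hψ => by rw [hPu ψ hψ u huH hu1]; simp), Finset.sum_const,
        nsmul_eq_mul, mul_one, hp]
    have h5 : ∑ ψ ∈ B, ψ.1 u * conj (ψ.1 u) = (Q : ℂ) := by
      rw [hQ]; push_cast
      refine Finset.sum_congr rfl fun ψ hψ => ?_
      rw [hβu ψ hψ, map_neg, Complex.conj_natCast]; ring
    have h6 : one.1 u * conj (one.1 u) = 1 := by change (1 : ℂ) * conj (1 : ℂ) = 1; simp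
    have h7 : St.1 u * conj (St.1 u) = 0 := by rw [hStu u huH hu1]; simp
    rw [h2, h3, h4, h5, h6, h7, hcu] at h1
    field_simp at h1
    linear_combination h1
  have hmain' : m ^ 2 * ((Fintype.card Ω : ℤ) - 2) = e * (e + 2 * m - 1 - p - Q) := by exact_mod_cast hmain
  have hm0 : m = 0 := by
    by_contra hm0
    have h1 : 0 < m ^ 2 := by positivity
    have h2 : (2 * (e : ℤ) + 1) ≤ (Fintype.card Ω : ℤ) - 2 := by omega
    have h3 : m ^ 2 * (2 * (e : ℤ) + 1) ≤ m ^ 2 * ((Fintype.card Ω : ℤ) - 2) := mul_le_mul_of_nonneg_left h2 h1.le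
    have h4 : m ≤ m ^ 2 := by nlinarith [Int.le_self_sq m]
    have h5 : (e : ℤ) = 2 * p + 1 := by omega
    have h6 : (p : ℤ) ≤ Q := by exact_mod_cast hpQ
    have h7 : (0 : ℤ) < e := by omega
    nlinarith
  have hQp : Q = p := by
    rw [hm0] at hmain'
    have h7 : (0 : ℤ) < e := by omega
    have h8 : (e : ℤ) * (e + 2 * 0 - 1 - p - Q) = 0 := by rw [← hmain']; ring
    rcases mul_eq_zero.mp h8 with h | h
    · omega
    · omega
  -- degree
  have hst1 : ∀ ξ : IrrCharacter (stabilizer G a), ξ.1 ∈ inducedIrrAbove (H.subgroupOf (stabilizer G a)) ⊥ →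
      star ξ.1 1 = star ξ₀ 1 / e * ξ.1 1 := by
    intro ξ hξ
    obtain ⟨n, -, hn⟩ := isIrr_one_eq ξ.2
    have hmem : (n : ℤ) • ξ₀ - (e : ℤ) • ξ.1 ∈ zspan (inducedIrrAbove (H.subgroupOf (stabilizer G a)) ⊥) :=
      (zsp _).sub_mem ((zsp _).smul_mem _ (subset_zspan _ hξ₀)) ((zsp _).smul_mem _ (subset_zspan _ hξ))
    have h1 : ((n : ℤ) • ξ₀ - (e : ℤ) • ξ.1) 1 = 0 := by
      rw [zs, zs, Pi.sub_apply, Pi.smul_apply, Pi.smul_apply, hn, hξ₀d, hidx, smul_eq_mul, smul_eq_mul]
      push_cast; ring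
    have h2 := star_zero hext _ hmem h1
    have hs' : IsLinearIsometryOn ((zsp (inducedIrrAbove (H.subgroupOf (stabilizer G a)) ⊥) :
      Submodule ℤ (stabilizer G a → ℂ)) : Set (stabilizer G a → ℂ)) star := hstar
    rw [iso_sub hs' ((zsp _).smul_mem _ (subset_zspan _ hξ₀)) ((zsp _).smul_mem _ (subset_zspan _ hξ)),
      hstar.2.1 _ (subset_zspan _ hξ₀), hstar.2.1 _ (subset_zspan _ hξ), zs, zs, Pi.sub_apply, Pi.smul_apply,
      Pi.smul_apply, smul_eq_mul, smul_eq_mul] at h2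
    rw [hn]
    field_simp
    push_cast at h2
    linear_combination -h2
  have hdeg : star ξ₀ 1 = e := by
    have h1 := column_orth_one u
    rw [if_neg hu1, hsum (fun ψ => ψ.1 u * ψ.1 1)] at h1
    have h2 : ∑ ψ : IrrCharacter G with E ψ, ψ.1 u * ψ.1 1 =
      ∑ ξ : IrrCharacter (stabilizer G a) with ξ.1 ∈ inducedIrrAbove (H.subgroupOf (stabilizer G a)) ⊥,
        star ξ.1 u * star ξ.1 1 := hE3
    have h3 : ∑ ξ : IrrCharacter (stabilizer G a) with ξ.1 ∈ inducedIrrAbove (H.subgroupOf (stabilizer G a)) ⊥,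
        star ξ.1 u * star ξ.1 1 = star ξ₀ 1 / e * (-(e : ℂ)) := by
      rw [← hSu, Finset.mul_sum]
      refine Finset.sum_congr rfl fun ξ hξ => ?_
      rw [hxi ξ (Finset.mem_filter.mp hξ).2, hst1 ξ (Finset.mem_filter.mp hξ).2, hm0]
      push_cast; ring
    have h4 : ∑ ψ ∈ P, ψ.1 u * ψ.1 1 = (p : ℂ) * Fintype.card Ω := by
      rw [Finset.sum_congr rfl (g := fun _ => (Fintype.card Ω : ℂ)) (fun ψ hψ => by
        rw [hPu ψ hψ u huH hu1, hPd ψ hψ, one_mul]), Finset.sum_const, nsmul_eq_mul, hp]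
    have h5 : ∑ ψ ∈ B, ψ.1 u * ψ.1 1 = -(Q : ℂ) * ((Fintype.card Ω : ℂ) - 2) := by
      rw [hQ]; push_cast
      rw [neg_mul, Finset.sum_mul, ← Finset.sum_neg_distrib]
      refine Finset.sum_congr rfl fun ψ hψ => ?_
      rw [hβu ψ hψ, hβd ψ hψ]; ring
    have h6 : one.1 u * one.1 1 = 1 := by change (1 : ℂ) * (1 : ℂ) = 1; simp
    have h7 : St.1 u * St.1 1 = 0 := by rw [hStu u huH hu1]; simp
    rw [h2, h3, h4, h5, h6, h7, hQp] at h1
    have h8 : (e : ℂ) = 2 * p + 1 := by rw [← hPcard]; push_cast; ring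
    have h9 : star ξ₀ 1 / e * (e : ℂ) = star ξ₀ 1 := div_mul_cancel₀ _ he0
    rw [mul_neg, h9] at h1
    rw [h8]
    linear_combination -h1
  -- the exceptional character of degree `e`
  have hχ : IsIrrCharacter G (star ξ₀) := by
    rcases SI.of_norm (hstar.2.2.2 _ (subset_zspan _ hξ₀))
        (by rw [hstar.2.2.1 _ (subset_zspan _ hξ₀) _ (subset_zspan _ hξ₀), irr_inner_self (hirr ξ₀ hξ₀)]) with h1 | h1
    · exact h1
    · exfalso
      obtain ⟨n, hn0, hn⟩ := isIrr_one_eq h1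
      rw [Pi.neg_apply, hdeg] at hn
      have h2 : ((n + e : ℕ) : ℂ) = ((0 : ℕ) : ℂ) := by push_cast; linear_combination -hn
      have h3 := Nat.cast_injective h2
      omega
  obtain ⟨χ, hχdef⟩ : ∃ χ : G → ℂ, χ = star ξ₀ := ⟨_, rfl⟩
  rw [← hχdef] at hχ hdeg
  have hχK : ∀ k ∈ H.subgroupOf (stabilizer G a), χ k = ξ₀ k := by
    intro k hk
    by_cases hk1 : k = 1
    · rw [hk1, OneMemClass.coe_one, hdeg, hξ₀d, hidx]
    · have h1 := hm ξ₀ hξ₀ k hk hk1
      rw [hm0, ← hχdef] at h1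
      push_cast at h1
      rw [zero_mul, zero_div] at h1
      exact sub_eq_zero.mp h1
  have hξ₀v : ∀ x : stabilizer G a, x ∉ H.subgroupOf (stabilizer G a) → ξ₀ x = 0 := by
    intro x hx
    obtain ⟨θ, -, -, -, hθ⟩ := hξ₀
    rw [hθ, indFun_normal_notMem _ θ hx]
  have hχL : ∀ x : stabilizer G a, χ x = ξ₀ x := by
    have hres1 := isChar_res (stabilizer G a) (isChar_of_irr hχ)
    have h1 : classInner (fun x : stabilizer G a => χ x) ξ₀ = 1 := by
      rw [← irr_inner_self (hirr ξ₀ hξ₀), classInner_def, classInner_def]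
      congr 1
      refine Finset.sum_congr rfl fun x _ => ?_
      by_cases hx : x ∈ H.subgroupOf (stabilizer G a)
      · rw [hχK x hx]
      · rw [hξ₀v x hx]; simp
    have h2 : IsCharacter (stabilizer G a) ((fun x : stabilizer G a => χ x) - ξ₀) := by
      apply isChar_of_nat_inner (classFn_sub (isChar_classFn hres1) (isChar_classFn (isChar_of_irr (hirr ξ₀ hξ₀))))
      intro φ
      rw [classInner_sub_left]
      by_cases hφ : ξ₀ = φ.1
      · rw [← hφ, h1, irr_inner_self (hirr ξ₀ hξ₀)]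
        exact ⟨0, by simp⟩
      · rw [irr_inner_ne (hirr ξ₀ hξ₀) φ.2 hφ, sub_zero]
        exact exists_nat_inner hres1 φ.2
    intro x
    have h3 := char_norm_le h2 x
    have h4 : ((fun x : stabilizer G a => χ x) - ξ₀) 1 = 0 := by
      rw [Pi.sub_apply, OneMemClass.coe_one, hdeg, hξ₀d, hidx, sub_self]
    rw [h4] at h3
    simp only [Complex.zero_re] at h3
    have h5 : ((fun x : stabilizer G a => χ x) - ξ₀) x = 0 := norm_le_zero_iff.mp (by simpa using h3)
    exact sub_eq_zero.mp h5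
  -- multiplicities in `χ conj χ`
  obtain ⟨f, hf⟩ : ∃ f : G → ℂ, f = fun g => χ g * conj (χ g) := ⟨_, rfl⟩
  have hfc : IsClassFunction G f := by
    intro g x
    rw [hf]
    have := isChar_classFn (isChar_of_irr hχ) g x
    simp only [this]
  have hfn : ∀ ψ : IrrCharacter G, ∃ n : ℕ, classInner f ψ.1 = n := by
    intro ψ
    obtain ⟨n, hn⟩ := exists_nat_inner' (isChar_of_irr hχ) (isChar_mul (isChar_of_irr hχ) (isChar_of_irr ψ.2))
    refine ⟨n, ?_⟩
    rw [← hn, classInner_def, classInner_def, hf]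
    congr 1
    refine Finset.sum_congr rfl fun g _ => ?_
    rw [Pi.mul_apply, map_mul]; ring
  choose n hn using hfn
  have hfP : ∀ ψ ∈ P, n ψ = 1 := by
    intro ψ hψ
    obtain ⟨l, hl, -, hψl⟩ := hP1 ψ hψ
    have h1 : classInner f ψ.1 = 1 := by
      rw [hψl, reciprocity' _ _ _ hfc, ← irr_inner_self (hirr ξ₀ hξ₀), classInner_def, classInner_def]
      congr 1
      refine Finset.sum_congr rfl fun x _ => ?_
      rw [hf]
      by_cases hx : x ∈ H.subgroupOf (stabilizer G a)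
      · simp only [hχL, linFn_apply, hl x hx]; simp
      · simp only [hχL, hξ₀v x hx]; simp
    rw [hn] at h1
    exact_mod_cast h1
  have hf1 : n one = 1 := by
    have h1 : classInner f one.1 = 1 := by
      rw [← irr_inner_self hχ, classInner_def, classInner_def, hf]
      congr 1
      refine Finset.sum_congr rfl fun x _ => ?_
      change _ * conj (1 : ℂ) = _
      simp
    rw [hn] at h1
    exact_mod_cast h1
  have hdsum : e ^ 2 = ∑ ψ : IrrCharacter G, n ψ * ideg ψ := by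
    have h1 := congrFun (classFn_expand f hfc) 1
    rw [Finset.sum_apply] at h1
    have h2 : f 1 = (e : ℂ) ^ 2 := by
      rw [hf]
      change χ 1 * conj (χ 1) = _
      rw [hdeg, Complex.conj_natCast]; ring
    rw [h2] at h1
    have h3 : ((e ^ 2 : ℕ) : ℂ) = ((∑ ψ : IrrCharacter G, n ψ * ideg ψ : ℕ) : ℂ) := by
      push_cast
      rw [h1]
      refine Finset.sum_congr rfl fun ψ _ => ?_
      rw [Pi.smul_apply, smul_eq_mul, hn, ideg_spec]
    exact_mod_cast h3
  have hone_P : one ∉ P := fun h => hone_St (Finset.mem_insert_of_mem h)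
  have hle : 1 + p * Fintype.card Ω ≤ e ^ 2 := by
    rw [hdsum]
    calc 1 + p * Fintype.card Ω = ∑ ψ ∈ insert one P, n ψ * ideg ψ := by
          rw [Finset.sum_insert hone_P, hf1]
          congr 1
          · have : ideg one = 1 := ideg_one
            rw [this]
          · rw [Finset.sum_congr rfl (g := fun _ => Fintype.card Ω) (fun ψ hψ => by
              rw [hfP ψ hψ, one_mul]
              have h1 := hPd ψ hψ
              rw [ideg_spec] at h1
              exact_mod_cast h1), Finset.sum_const, smul_eq_mul, hp]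
      _ ≤ _ := Finset.sum_le_sum_of_subset (Finset.subset_univ _)
  have h1 : p * (2 * e + 3) ≤ p * Fintype.card Ω := Nat.mul_le_mul_left _ (by omega)
  have h2 : 1 + p * (2 * e + 3) ≤ e ^ 2 := by omega
  rw [← hPcard] at h2
  have hp1 : 1 ≤ p := by omega
  nlinarith

end contra

end

end

end Cfsg.Agent.Lib.ZassFeit
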