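import Cfsg.Agent.Lib.ZassNorm
import Cfsg.Agent.Lib.ZassFeit
import Cfsg.Agent.Lib.CharFS
import Cfsg.Agent.Lib.CharKer
import Cfsg.Agent.Lib.CharNormal

/-!
# Zassenhaus groups with two-point stabilizers of even order
-/

set_option autoImplicit false

namespace Cfsg.Agent.Lib.ZassEven

open Cfsg MulAction Cfsg.Agent.Lib.Zass Cfsg.Agent.Lib.ZassChar Cfsg.Agent.Lib.ZassInv Cfsg.Agent.Lib.ZassNorm

noncomputable section

section basic

variable {G Ω : Type*} [Group G] [Finite G] [MulAction G Ω] [Fintype Ω]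

theorem even_degree (hZ : IsZassenhausGroup G Ω) {a b : Ω} (hab : a ≠ b)
    (heven : Even (Nat.card (stabilizer G a ⊓ stabilizer G b : Subgroup G))) : Even (Fintype.card Ω) := by
  rw [← Nat.not_odd_iff_even]
  intro h
  exact (Nat.not_odd_iff_even.mpr heven) (odd_of_degree hZ hab h)

theorem exists_z {a b : Ω} (heven : Even (Nat.card (stabilizer G a ⊓ stabilizer G b : Subgroup G))) :
    ∃ z : G, orderOf z = 2 ∧ z • a = a ∧ z • b = b := by
  haveI : Fact (Nat.Prime 2) := ⟨Nat.prime_two⟩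
  rw [even_iff_two_dvd] at heven
  obtain ⟨x, hx⟩ := exists_prime_orderOf_dvd_card' 2 heven
  have hx' : orderOf (x : G) = 2 := by rw [Subgroup.orderOf_coe]; exact hx
  obtain ⟨hxa, hxb⟩ := mem_two.mp x.2
  exact ⟨x, hx', hxa, hxb⟩

theorem H_conj (hZ : IsZassenhausGroup G Ω) {a b : Ω} (hab : a ≠ b) (H : Subgroup G)
    (hHa : H ≤ stabilizer G a) (hHcard : Nat.card H + 1 = Fintype.card Ω)
    (hHfix : ∀ u ∈ H, u ≠ 1 → ∀ c : Ω, u • c = c → c = a) {g : G} (hg : g • a = a) {u : G} (hu : u ∈ H) :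
    g * u * g⁻¹ ∈ H := by
  have h1 := (kernel_struct hZ hab H hHa hHcard hHfix).1
  have h2 := h1.conj_mem ⟨u, hHa hu⟩ (Subgroup.mem_subgroupOf.mpr hu) ⟨g, hg⟩
  exact Subgroup.mem_subgroupOf.mp h2

theorem moves {a b : Ω} (hab : a ≠ b) (H : Subgroup G)
    (hHa : H ≤ stabilizer G a)
    (hHfix : ∀ u ∈ H, u ≠ 1 → ∀ c : Ω, u • c = c → c = a) {u : G} (hu : u ∈ H) (hu1 : u ≠ 1) :
    u • b ≠ b ∧ u • b ≠ a := by
  refine ⟨fun h => hab (hHfix u hu hu1 b h).symm, fun h => hab ?_⟩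
  have h1 : u • a = a := hHa hu
  rw [← h1] at h
  exact (MulAction.injective u h).symm

theorem comm_eq_one (hZ : IsZassenhausGroup G Ω) {a b : Ω} (hab : a ≠ b) (H : Subgroup G)
    (hHa : H ≤ stabilizer G a)
    (hHfix : ∀ u ∈ H, u ≠ 1 → ∀ c : Ω, u • c = c → c = a) {z : G} (hz : z ≠ 1) (hza : z • a = a) (hzb : z • b = b)
    {u : G} (hu : u ∈ H) (h : z * u = u * z) : u = 1 := by
  by_contra hu1
  obtain ⟨h1, h2⟩ := moves hab H hHa hHfix hu hu1
  apply hz
  apply hZ.2.2.1 z a b (u • b) hab h1.symm h2.symm hza hzb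
  rw [← mul_smul, h, mul_smul, hzb]

/-- the involution fixing `a` and `b` inverts the kernel -/
theorem inv_H (hZ : IsZassenhausGroup G Ω) {a b : Ω} (hab : a ≠ b) (H : Subgroup G)
    (hHa : H ≤ stabilizer G a) (hHcard : Nat.card H + 1 = Fintype.card Ω)
    (hHfix : ∀ u ∈ H, u ≠ 1 → ∀ c : Ω, u • c = c → c = a) {z : G} (hz : orderOf z = 2) (hza : z • a = a)
    (hzb : z • b = b) {u : G} (hu : u ∈ H) : z * u * z⁻¹ = u⁻¹ := by
  have hzz := invol_mul hz
  have hzi := invol_inv hz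
  let f : H → H := fun v => ⟨(v : G)⁻¹ * (z * v * z⁻¹), H.mul_mem (H.inv_mem v.2) (H_conj hZ hab H hHa hHcard hHfix hza v.2)⟩
  have hf : Function.Injective f := by
    intro v w hvw
    have h1 : (v : G)⁻¹ * (z * v * z⁻¹) = (w : G)⁻¹ * (z * w * z⁻¹) := congrArg Subtype.val hvw
    have h2 : z * ((v : G) * (w : G)⁻¹) = ((v : G) * (w : G)⁻¹) * z := by
      have h3 : z * (v : G) = v * ((w : G)⁻¹ * (z * w * z⁻¹)) * z := by
        rw [← h1]; group
      calc z * ((v : G) * (w : G)⁻¹) = (z * (v : G)) * (w : G)⁻¹ := by group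
        _ = (v * ((w : G)⁻¹ * (z * w * z⁻¹)) * z) * (w : G)⁻¹ := by rw [h3]
        _ = ((v : G) * (w : G)⁻¹) * z := by group
    have h4 := comm_eq_one hZ hab H hHa hHfix (invol_ne hz) hza hzb (H.mul_mem v.2 (H.inv_mem w.2)) h2
    apply Subtype.ext
    exact mul_inv_eq_one.mp h4
  obtain ⟨v, hv⟩ := Finite.surjective_of_injective hf ⟨u, hu⟩
  have h1 : (v : G)⁻¹ * (z * v * z⁻¹) = u := congrArg Subtype.val hv
  rw [← h1, hzi]
  calc z * ((v : G)⁻¹ * (z * v * z)) * z = z * (v : G)⁻¹ * z * v * (z * z) := by group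
    _ = z * (v : G)⁻¹ * z * v := by rw [hzz, mul_one]
    _ = z⁻¹ * (v : G)⁻¹ * z⁻¹ * v := by rw [hzi]
    _ = ((v : G)⁻¹ * (z * v * z))⁻¹ := by group

theorem H_comm_aux (hZ : IsZassenhausGroup G Ω) {a b : Ω} (hab : a ≠ b) (H : Subgroup G)
    (hHa : H ≤ stabilizer G a) (hHcard : Nat.card H + 1 = Fintype.card Ω)
    (hHfix : ∀ u ∈ H, u ≠ 1 → ∀ c : Ω, u • c = c → c = a) {z : G} (hz : orderOf z = 2) (hza : z • a = a)
    (hzb : z • b = b) {u v : G} (hu : u ∈ H) (hv : v ∈ H) :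
    u * v = v * u := by
  have h := fun {w : G} (hw : w ∈ H) => inv_H hZ hab H hHa hHcard hHfix hz hza hzb hw
  have h1 : z * (u * v) * z⁻¹ = (z * u * z⁻¹) * (z * v * z⁻¹) := by group
  rw [h (H.mul_mem hu hv), h hu, h hv] at h1
  have h2 : (u * v)⁻¹⁻¹ = (u⁻¹ * v⁻¹)⁻¹ := by rw [h1]
  rw [inv_inv, mul_inv_rev, inv_inv, inv_inv] at h2
  exact h2

theorem H_comm (hZ : IsZassenhausGroup G Ω) {a b : Ω} (hab : a ≠ b) (H : Subgroup G)
    (hHa : H ≤ stabilizer G a) (hHcard : Nat.card H + 1 = Fintype.card Ω)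
    (hHfix : ∀ u ∈ H, u ≠ 1 → ∀ c : Ω, u • c = c → c = a)
    (heven : Even (Nat.card (stabilizer G a ⊓ stabilizer G b : Subgroup G))) {u v : G} (hu : u ∈ H) (hv : v ∈ H) :
    u * v = v * u := by
  obtain ⟨z, hz, hza, hzb⟩ := exists_z heven
  exact H_comm_aux hZ hab H hHa hHcard hHfix hz hza hzb hu hv

/-- the involution fixing `a` and `b` is unique -/
theorem z_unique (hZ : IsZassenhausGroup G Ω) {a b : Ω} (hab : a ≠ b) {z x : G} (hz : orderOf z = 2) (hza : z • a = a)
    (hzb : z • b = b) (hx : orderOf x = 2) (hxa : x • a = a) (hxb : x • b = b) : x = z := by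
  obtain ⟨H, hHa, hHcard, hHfix⟩ := exists_H hZ hab
  have hn := two_lt hZ hab
  have hc : 1 < Nat.card H := by omega
  haveI : Nontrivial H := Finite.one_lt_card_iff_nontrivial.mp hc
  obtain ⟨u, hu⟩ := exists_ne (1 : H)
  have hu1 : (u : G) ≠ 1 := fun h => hu (Subtype.ext h)
  by_contra hne
  have hxz : x * z ≠ 1 := by
    intro h
    apply hne
    rw [mul_eq_one_iff_eq_inv, invol_inv hz] at h
    exact h
  apply hu1
  apply comm_eq_one hZ hab H hHa hHfix (z := x * z) hxz (by rw [mul_smul, hza, hxa]) (by rw [mul_smul, hzb, hxb]) u.2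
  have h1 : z * (u : G) = (u : G)⁻¹ * z := by
    rw [← inv_H hZ hab H hHa hHcard hHfix hz hza hzb u.2]; group
  have h2 : x * (u : G)⁻¹ = (u : G) * x := by
    have := inv_H hZ hab H hHa hHcard hHfix hx hxa hxb (H.inv_mem u.2)
    rw [inv_inv] at this
    nth_rw 2 [← this]
    group
  rw [mul_assoc, h1, ← mul_assoc, h2, mul_assoc]

theorem card_fix_even (hZ : IsZassenhausGroup G Ω) (hn : Even (Fintype.card Ω)) {x : G} (hx : orderOf x = 2) {c : Ω}
    (hc : x • c = c) : ∃ d : Ω, d ≠ c ∧ x • d = d := by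
  classical
  have h2 : Nat.card {c : Ω // x • c = c} ≡ Fintype.card Ω [MOD 2] := by
    haveI : Fact (Nat.Prime 2) := ⟨Nat.prime_two⟩
    have hp : IsPGroup 2 (Subgroup.zpowers x) := IsPGroup.of_card (n := 1) (by rw [Nat.card_zpowers, hx, pow_one])
    have h3 := hp.card_modEq_card_fixedPoints Ω
    rw [Nat.card_eq_fintype_card] at h3
    have h4 : Nat.card (MulAction.fixedPoints (Subgroup.zpowers x) Ω) = Nat.card {c : Ω // x • c = c} := by
      apply Nat.card_congr
      refine Equiv.subtypeEquivRight (fun c => ?_)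
      rw [MulAction.mem_fixedPoints]
      constructor
      · intro h
        exact h ⟨x, Subgroup.mem_zpowers x⟩
      · rintro h ⟨g, hg⟩
        rw [Subgroup.mem_zpowers_iff] at hg
        obtain ⟨k, rfl⟩ := hg
        exact (Subgroup.zpow_mem (stabilizer G c) (show x ∈ stabilizer G c from h) k)
    rw [h4] at h3
    exact h3.symm
  haveI : Nonempty {c : Ω // x • c = c} := ⟨⟨c, hc⟩⟩
  have h0 : 0 < Nat.card {c : Ω // x • c = c} := Nat.card_pos
  have h3 : 1 < Nat.card {c : Ω // x • c = c} := by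
    have h4 : Nat.card {c : Ω // x • c = c} % 2 = 0 := by rw [h2]; exact Nat.even_iff.mp hn
    omega
  haveI := Finite.one_lt_card_iff_nontrivial.mp h3
  obtain ⟨d, hd⟩ := exists_ne (⟨c, hc⟩ : {c : Ω // x • c = c})
  exact ⟨d, fun h => hd (Subtype.ext h), d.2⟩

theorem conj_order {g x : G} : orderOf (g * x * g⁻¹) = orderOf x := by
  have := (MulAut.conj g).orderOf_eq x
  simpa using this

/-- involutions with a fixed point are conjugate -/
theorem fix_isConj (hZ : IsZassenhausGroup G Ω) {a b : Ω} (hab : a ≠ b) {z : G} (hz : orderOf z = 2) (hza : z • a = a)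
    (hzb : z • b = b) {x : G} (hx : orderOf x = 2) {c d : Ω} (hcd : c ≠ d) (hxc : x • c = c) (hxd : x • d = d) :
    ∃ g : G, g • a = c ∧ g • b = d ∧ g * z * g⁻¹ = x := by
  obtain ⟨g, hga, hgb⟩ := two_trans hZ hab hcd
  refine ⟨g, hga, hgb, ?_⟩
  apply z_unique hZ hcd hx hxc hxd
  · rw [conj_order]; exact hz
  · rw [mul_smul, mul_smul, ← hga, inv_smul_smul, hza]
  · rw [mul_smul, mul_smul, ← hgb, inv_smul_smul, hzb]

/-- the centralizer of the involution is the set stabilizer of `{a, b}` -/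
theorem mem_cent (hZ : IsZassenhausGroup G Ω) {a b : Ω} (hab : a ≠ b) {z : G} (hz : orderOf z = 2) (hza : z • a = a)
    (hzb : z • b = b) (x : G) : x ∈ Subgroup.centralizer ({z} : Set G) ↔
      (x • a = a ∧ x • b = b) ∨ (x • a = b ∧ x • b = a) := by
  rw [Subgroup.mem_centralizer_singleton_iff]
  constructor
  · intro h
    have hfix : ∀ c : Ω, z • c = c → c = a ∨ c = b := by
      intro c hc
      by_contra h'
      push Not at h'
      exact invol_ne hz (hZ.2.2.1 z a b c hab h'.2.symm h'.1.symm hza hzb hc)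
    have h1 : ∀ c : Ω, z • c = c → z • (x • c) = x • c := by
      intro c hc
      rw [← mul_smul, ← h, mul_smul, hc]
    have hinj : x • a ≠ x • b := fun h => hab (MulAction.injective x h)
    rcases hfix _ (h1 a hza) with ha | ha <;> rcases hfix _ (h1 b hzb) with hb | hb
    · exact absurd (ha.trans hb.symm) hinj
    · exact Or.inl ⟨ha, hb⟩
    · exact Or.inr ⟨ha, hb⟩
    · exact absurd (ha.trans hb.symm) hinj
  · intro h
    have h1 : x * z * x⁻¹ = z := by
      apply z_unique hZ hab hz hza hzb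
      · rw [conj_order]; exact hz
      · rcases h with ⟨h1, h2⟩ | ⟨h1, h2⟩
        · rw [mul_smul, mul_smul, inv_smul_eq_iff.mpr h1.symm, hza, h1]
        · rw [mul_smul, mul_smul, inv_smul_eq_iff.mpr h2.symm, hzb, h2]
      · rcases h with ⟨h1, h2⟩ | ⟨h1, h2⟩
        · rw [mul_smul, mul_smul, inv_smul_eq_iff.mpr h2.symm, hzb, h2]
        · rw [mul_smul, mul_smul, inv_smul_eq_iff.mpr h1.symm, hza, h1]
    nth_rw 2 [← h1]
    group

theorem card_cent (hZ : IsZassenhausGroup G Ω) {a b : Ω} (hab : a ≠ b) {z : G} (hz : orderOf z = 2) (hza : z • a = a)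
    (hzb : z • b = b) : Nat.card (Subgroup.centralizer ({z} : Set G)) =
      2 * Nat.card (stabilizer G a ⊓ stabilizer G b : Subgroup G) := by
  classical
  obtain ⟨t, hta, htb⟩ := exists_swap hZ hab
  have hti : t⁻¹ • a = b ∧ t⁻¹ • b = a := ⟨inv_smul_eq_iff.mpr htb.symm, inv_smul_eq_iff.mpr hta.symm⟩
  let E := (stabilizer G a ⊓ stabilizer G b : Subgroup G)
  let f : E ⊕ E → Subgroup.centralizer ({z} : Set G) := fun s => match s with
    | Sum.inl x => ⟨x, (mem_cent hZ hab hz hza hzb _).mpr (Or.inl (mem_two.mp x.2))⟩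
    | Sum.inr x => ⟨t * x, (mem_cent hZ hab hz hza hzb _).mpr (Or.inr (by
        obtain ⟨h1, h2⟩ := mem_two.mp x.2
        exact ⟨by rw [mul_smul, h1, hta], by rw [mul_smul, h2, htb]⟩))⟩
  have hf : Function.Bijective f := by
    constructor
    · rintro (x | x) (y | y) hxy
      · have h0 := congrArg Subtype.val hxy
        have h1 : (x : G) = y := h0
        rw [Subtype.ext h1]
      · exfalso
        have h1 : (x : G) = t * y := congrArg Subtype.val hxy
        obtain ⟨h2, h3⟩ := mem_two.mp x.2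
        obtain ⟨h4, h5⟩ := mem_two.mp y.2
        rw [h1, mul_smul, h4, hta] at h2
        exact hab h2.symm
      · exfalso
        have h1 : t * x = (y : G) := congrArg Subtype.val hxy
        obtain ⟨h2, h3⟩ := mem_two.mp x.2
        obtain ⟨h4, h5⟩ := mem_two.mp y.2
        rw [← h1, mul_smul, h2, hta] at h4
        exact hab h4.symm
      · have h1 : t * (x : G) = t * y := congrArg Subtype.val hxy
        rw [Subtype.ext (mul_left_cancel h1)]
    · rintro ⟨x, hx⟩
      rcases (mem_cent hZ hab hz hza hzb _).mp hx with h | h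
      · exact ⟨Sum.inl ⟨x, mem_two.mpr h⟩, rfl⟩
      · refine ⟨Sum.inr ⟨t⁻¹ * x, mem_two.mpr ⟨?_, ?_⟩⟩, ?_⟩
        · rw [mul_smul, h.1, hti.2]
        · rw [mul_smul, h.2, hti.1]
        · apply Subtype.ext
          show t * (t⁻¹ * x) = x
          group
  rw [← Nat.card_congr (Equiv.ofBijective f hf), Nat.card_sum]
  show Nat.card E + Nat.card E = 2 * Nat.card E
  ring

/-- involutions fixing `a` -/
theorem invol_fix_iff (hZ : IsZassenhausGroup G Ω) {a b : Ω} (hab : a ≠ b) (H : Subgroup G)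
    (hHa : H ≤ stabilizer G a) (hHcard : Nat.card H + 1 = Fintype.card Ω)
    (hHfix : ∀ u ∈ H, u ≠ 1 → ∀ c : Ω, u • c = c → c = a)
    (hn : Even (Fintype.card Ω)) {z : G} (hz : orderOf z = 2) (hza : z • a = a)
    (hzb : z • b = b) (x : G) : (orderOf x = 2 ∧ x • a = a) ↔ ∃ h ∈ H, x = h * z := by
  constructor
  · rintro ⟨hx, hxa⟩
    obtain ⟨d, hd, hxd⟩ := card_fix_even hZ hn hx hxa
    obtain ⟨u, hu, hub⟩ := H_trans H hHa hHcard hHfix hab.symm hd
    have hua : u • a = a := hHa hu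
    have h1 : x = u * z * u⁻¹ := by
      apply z_unique hZ hd.symm (z := u * z * u⁻¹)
      · rw [conj_order]; exact hz
      · rw [mul_smul, mul_smul, inv_smul_eq_iff.mpr hua.symm, hza, hua]
      · rw [mul_smul, mul_smul, inv_smul_eq_iff.mpr hub.symm, hzb, hub]
      · exact hx
      · exact hxa
      · exact hxd
    refine ⟨u * u, H.mul_mem hu hu, ?_⟩
    have h2 := inv_H hZ hab H hHa hHcard hHfix hz hza hzb (H.inv_mem hu)
    rw [inv_inv] at h2
    rw [h1]
    nth_rw 4 [← h2]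
    group
  · rintro ⟨h, hh, rfl⟩
    have h2 := inv_H hZ hab H hHa hHcard hHfix hz hza hzb hh
    have hha : h • a = a := hHa hh
    constructor
    · rw [orderOf_eq_prime_iff]
      constructor
      · rw [pow_two]
        calc h * z * (h * z) = h * (z * h * z⁻¹) * (z * z) := by group
          _ = 1 := by rw [h2, invol_mul hz, mul_one, mul_inv_cancel]
      · intro h3
        have h4 : h = z := by
          rw [mul_eq_one_iff_eq_inv, invol_inv hz] at h3
          exact h3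
        rw [h4] at hh
        exact hab (hHfix z hh (invol_ne hz) b hzb).symm
    · rw [mul_smul, hza, hha]

/-- the structure constant -/
theorem card_pairs (hZ : IsZassenhausGroup G Ω) {a b : Ω} (hab : a ≠ b) (H : Subgroup G)
    (hHa : H ≤ stabilizer G a) (hHcard : Nat.card H + 1 = Fintype.card Ω)
    (hHfix : ∀ u ∈ H, u ≠ 1 → ∀ c : Ω, u • c = c → c = a)
    (hn : Even (Fintype.card Ω)) {z : G} (hz : orderOf z = 2) (hza : z • a = a)
    (hzb : z • b = b) {u : G} (hu : u ∈ H) (hu1 : u ≠ 1) :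
    Nat.card {p : G × G // IsConj z p.1 ∧ IsConj z p.2 ∧ p.1 * p.2 = u} = Nat.card H := by
  have hiff := invol_fix_iff hZ hab H hHa hHcard hHfix hn hz hza hzb
  have hord : ∀ x : G, IsConj z x → orderOf x = 2 := by
    intro x hx
    rw [isConj_iff] at hx
    obtain ⟨g, rfl⟩ := hx
    rw [conj_order]
    exact hz
  have hcj : ∀ h ∈ H, IsConj z (h * z) := by
    intro h hh
    obtain ⟨h1, h2⟩ := (hiff (h * z)).mpr ⟨h, hh, rfl⟩
    obtain ⟨d, hd, hxd⟩ := card_fix_even hZ hn h1 h2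
    obtain ⟨g, -, -, hg⟩ := fix_isConj hZ hab hz hza hzb h1 hd.symm h2 hxd
    exact isConj_iff.mpr ⟨g, hg⟩
  let f : H → {p : G × G // IsConj z p.1 ∧ IsConj z p.2 ∧ p.1 * p.2 = u} := fun h =>
    ⟨((h : G) * z, ((h : G) * u⁻¹) * z), hcj h h.2, hcj _ (H.mul_mem h.2 (H.inv_mem hu)), by
      show (h : G) * z * ((h : G) * u⁻¹ * z) = u
      have h2 := inv_H hZ hab H hHa hHcard hHfix hz hza hzb (H.mul_mem h.2 (H.inv_mem hu))
      calc (h : G) * z * ((h : G) * u⁻¹ * z) = (h : G) * (z * ((h : G) * u⁻¹) * z⁻¹) * (z * z) := by group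
        _ = u := by
            rw [h2, invol_mul hz, mul_one, mul_inv_rev, inv_inv]
            have := H_comm_aux hZ hab H hHa hHcard hHfix hz hza hzb hu h.2
            rw [← mul_assoc, ← this]
            group⟩
  have hf : Function.Bijective f := by
    constructor
    · intro h k hhk
      have h1 : (h : G) * z = (k : G) * z := congrArg (fun p => p.1.1) hhk
      exact Subtype.ext (mul_right_cancel h1)
    · rintro ⟨⟨x, y⟩, hx, hy, hxy⟩
      have hxy' : x * y = u := hxy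
      obtain ⟨hxa, hya⟩ := prod_fix (hord x hx) (hord y hy) hxy' (hHa hu : u • a = a) (hHfix u hu hu1)
      obtain ⟨h, hh, hxh⟩ := (hiff x).mp ⟨hord x hx, hxa⟩
      refine ⟨⟨h, hh⟩, ?_⟩
      apply Subtype.ext
      have h1 := (f ⟨h, hh⟩).2.2.2
      have h2 : (f ⟨h, hh⟩).1.1 = x := hxh.symm
      refine Prod.ext h2 ?_
      rw [h2] at h1
      exact mul_left_cancel (h1.trans hxy'.symm)
  exact (Nat.card_congr (Equiv.ofBijective f hf)).symm

end basic

section parts

open Cfsg.Agent.Lib.CharBasic Cfsg.Agent.Lib.CharNormal Cfsg.Agent.Lib.CharInd Cfsg.Agent.Lib.CharKer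
open scoped ComplexConjugate

/-- multiplicities of the trivial and of a nontrivial linear character in a character constant off 1 -/
theorem nat_parts {H : Type*} [Group H] [Fintype H] (hcomm : ∀ a b : H, a * b = b * a) (hH : 1 < Nat.card H)
    {θ : H → ℂ} (hθ : IsCharacter H θ) {c : ℂ} (hc : ∀ h : H, h ≠ 1 → θ h = c) :
    ∃ r d : ℕ, θ 1 = d + ((Nat.card H : ℂ) - 1) * r ∧ c = d - r := by
  classical
  haveI : Nontrivial H := Finite.one_lt_card_iff_nontrivial.mp hH
  obtain ⟨h₀, hh₀⟩ := exists_ne (1 : H)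
  have h1 : ∃ χ : IrrCharacter H, χ.1 1 ≠ χ.1 h₀ := by
    by_contra h
    push Not at h
    have h2 : IsConj (1 : H) h₀ := irr_separates h
    rw [isConj_iff] at h2
    obtain ⟨x, hx⟩ := h2
    rw [mul_one, mul_inv_cancel] at hx
    exact hh₀ hx.symm
  obtain ⟨χ, hχ⟩ := h1
  obtain ⟨lam, hlam⟩ := irr_lin_of_comm hcomm χ.2
  have hχ1 : χ.1 1 = 1 := by rw [hlam]; simp
  have hne : (fun _ : H => (1 : ℂ)) ≠ χ.1 := by
    intro h
    apply hχ
    rw [← h]
  have hn0 : (Nat.card H : ℂ) ≠ 0 := Nat.cast_ne_zero.mpr Nat.card_pos.ne'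
  have key : ∀ ψ : H → ℂ, classInner θ ψ =
      (Nat.card H : ℂ)⁻¹ * ((θ 1 - c) * conj (ψ 1)) + c * classInner (fun _ => 1) ψ := by
    intro ψ
    unfold classInner
    have h2 : ∀ g : H, θ g * conj (ψ g) = (if g = 1 then (θ 1 - c) * conj (ψ 1) else 0) + c * (1 * conj (ψ g)) := by
      intro g
      by_cases hg : g = 1
      · rw [if_pos hg, hg]; ring
      · rw [if_neg hg, hc g hg]; ring
    rw [Finset.sum_congr rfl (fun g _ => h2 g), Finset.sum_add_distrib, Finset.sum_ite_eq' Finset.univ (1 : H),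
      if_pos (Finset.mem_univ _), ← Finset.mul_sum]
    ring
  obtain ⟨r, hr⟩ := exists_nat_inner hθ χ.2
  obtain ⟨d, hd⟩ := exists_nat_inner hθ (isIrr_trivial (G := H))
  rw [key, irr_inner_ne isIrr_trivial χ.2 hne, hχ1, map_one] at hr
  rw [key, irr_inner_self isIrr_trivial, map_one] at hd
  have h3 : θ 1 - c = Nat.card H * r := by
    field_simp at hr
    linear_combination hr
  have h4 : c = d - r := by
    rw [h3] at hd
    field_simp at hd
    linear_combination hd
  refine ⟨r, d, ?_, h4⟩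
  rw [h4] at h3
  linear_combination h3

theorem int_of_invol {G : Type*} [Group G] [Finite G] {χ : G → ℂ} (hχ : IsCharacter G χ) {z : G} (hz : orderOf z = 2) :
    ∃ m : ℤ, χ z = m := by
  classical
  haveI : Fintype G := Fintype.ofFinite G
  let Z := Subgroup.zpowers z
  have hZc : Nat.card Z = 2 := by rw [Nat.card_zpowers, hz]
  have h1 := isChar_res Z hχ
  have hZ1 : ∀ h : Z, h ≠ 1 → (h : G) = z := by
    intro h hh
    obtain ⟨⟨x, hx⟩, hh'⟩ := (⟨h, rfl⟩ : ∃ y, y = h)
    have h2 : (h : G) ∈ Subgroup.zpowers z := h.2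
    rw [mem_zpowers_iff_mem_range_orderOf, hz] at h2
    simp only [Finset.mem_image, Finset.mem_range] at h2
    obtain ⟨k, hk, hk2⟩ := h2
    interval_cases k
    · exfalso; apply hh; apply Subtype.ext; rw [← hk2]; simp
    · rw [← hk2]; simp
  obtain ⟨r, d, hrd, hc⟩ := nat_parts (H := Z) (by
    rintro ⟨a, ha⟩ ⟨b, hb⟩
    obtain ⟨i, rfl⟩ := Subgroup.mem_zpowers_iff.mp ha
    obtain ⟨j, rfl⟩ := Subgroup.mem_zpowers_iff.mp hb
    apply Subtype.ext
    show z ^ i * z ^ j = z ^ j * z ^ i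
    rw [← zpow_add, ← zpow_add, add_comm]) (by rw [hZc]; norm_num) h1 (c := χ z)
    (fun h hh => by show χ (h : G) = χ z; rw [hZ1 h hh])
  exact ⟨(d : ℤ) - r, by rw [hc]; push_cast; ring⟩

theorem simple_const {G : Type*} [Group G] [Finite G] [IsSimpleGroup G] {χ : G → ℂ} (hχ : IsCharacter G χ) {u : G}
    (hu : u ≠ 1) (h : χ u = χ 1) (g : G) : χ g = χ 1 := by
  have h1 := kerChar_normal hχ
  have h2 : u ∈ kerChar χ hχ := (mem_kerChar hχ).mpr h
  rcases h1.eq_bot_or_eq_top with h3 | h3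
  · rw [h3, Subgroup.mem_bot] at h2
    exact absurd h2 hu
  · have : g ∈ kerChar χ hχ := by rw [h3]; exact Subgroup.mem_top g
    exact (mem_kerChar hχ).mp this

end parts

section sharp

open Cfsg.Agent.Lib.CharBasic Cfsg.Agent.Lib.CharNormal Cfsg.Agent.Lib.CharInd Cfsg.Agent.Lib.CharKer
open scoped ComplexConjugate

variable {G Ω : Type*} [Group G] [Fintype G] [MulAction G Ω] [Fintype Ω]

/-- the sharply 3-transitive case: `E` is transitive on the nonidentity elements of `H` -/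
theorem sharp_conj (hZ : IsZassenhausGroup G Ω) {a b : Ω} (hab : a ≠ b) (H : Subgroup G)
    (hHa : H ≤ stabilizer G a) (hHcard : Nat.card H + 1 = Fintype.card Ω)
    (hHfix : ∀ u ∈ H, u ≠ 1 → ∀ c : Ω, u • c = c → c = a)
    (hs : Nat.card (stabilizer G a ⊓ stabilizer G b : Subgroup G) + 2 = Fintype.card Ω)
    {u v : G} (hu : u ∈ H) (hu1 : u ≠ 1) (hv : v ∈ H) (hv1 : v ≠ 1) : ∃ g : G, g * u * g⁻¹ = v := by
  classical
  let E := (stabilizer G a ⊓ stabilizer G b : Subgroup G)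
  let f : E → {h : H // h ≠ 1} := fun x => ⟨⟨x * u * (x : G)⁻¹, H_conj hZ hab H hHa hHcard hHfix (mem_two.mp x.2).1 hu⟩,
    fun h => by
      have h1 : (x : G) * u * (x : G)⁻¹ = 1 := congrArg Subtype.val h
      rw [conj_eq_one_iff] at h1
      exact hu1 h1⟩
  have hf : Function.Injective f := by
    intro x y hxy
    have h1 : (x : G) * u * (x : G)⁻¹ = y * u * (y : G)⁻¹ := congrArg (fun w => ((w : {h : H // h ≠ 1}).1 : G)) hxy
    by_contra hne
    apply hu1
    have hyx : ((y : G)⁻¹ * x) ≠ 1 := by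
      intro h
      apply hne
      apply Subtype.ext
      rw [inv_mul_eq_one] at h
      exact h.symm
    have h2 := mem_two.mp (mul_mem (inv_mem y.2) x.2)
    apply comm_eq_one hZ hab H hHa hHfix hyx h2.1 h2.2 hu
    calc (y : G)⁻¹ * x * u = (y : G)⁻¹ * (x * u * (x : G)⁻¹) * x := by group
      _ = u * ((y : G)⁻¹ * x) := by rw [h1]; group
  have hcard : Nat.card E = Nat.card {h : H // h ≠ 1} := by
    have h1 := card_ne_add_one (A := H) (P := fun _ => True) (y := 1) trivial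
    have h2 : Nat.card {x : H // True ∧ x ≠ 1} = Nat.card {h : H // h ≠ 1} :=
      Nat.card_congr (Equiv.subtypeEquivRight (fun x => by simp))
    have h3 : Nat.card {x : H // True} = Nat.card H :=
      Nat.card_congr (Equiv.subtypeUnivEquiv (fun _ => trivial))
    have h4 : Nat.card E + 2 = Fintype.card Ω := hs
    omega
  have hb := (Nat.bijective_iff_injective_and_card f).mpr ⟨hf, hcard⟩
  obtain ⟨x, hx⟩ := hb.2 ⟨⟨v, hv⟩, fun h => hv1 (congrArg Subtype.val h)⟩
  exact ⟨x, congrArg (fun w => ((w : {h : H // h ≠ 1}).1 : G)) hx⟩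

theorem ind_H (H : Subgroup G) {a : Ω} (hHa : H ≤ stabilizer G a)
    (hHfix : ∀ u ∈ H, u ≠ 1 → ∀ c : Ω, u • c = c → c = a)
    {φ : stabilizer G a → ℂ} (hφ : IsClassFunction (stabilizer G a) φ) {u : G} (hu : u ∈ H) (hu1 : u ≠ 1) :
    indFun (stabilizer G a) φ u = φ ⟨u, hHa hu⟩ := by
  classical
  rw [indFun_apply]
  have h1 : ∀ x : G, extendByZero (stabilizer G a) φ (x⁻¹ * u * x) =
      if x ∈ stabilizer G a then φ ⟨u, hHa hu⟩ else 0 := by
    intro x
    by_cases hx : x ∈ stabilizer G a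
    · rw [if_pos hx]
      have hm : x⁻¹ * u * x ∈ stabilizer G a := mul_mem (mul_mem (inv_mem hx) (hHa hu)) hx
      rw [ext_mem _ _ hm]
      apply classFn_isConj hφ
      rw [isConj_iff]
      exact ⟨⟨x, hx⟩, Subtype.ext (by show x * (x⁻¹ * u * x) * x⁻¹ = u; group)⟩
    · rw [if_neg hx]
      apply ext_notMem
      intro hm
      apply hx
      have h2 : (x⁻¹ * u * x) • a = a := hm
      rw [mul_smul, mul_smul, inv_smul_eq_iff] at h2
      exact hHfix u hu hu1 _ h2
  simp only [h1]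
  rw [Finset.sum_ite, Finset.sum_const_zero, add_zero, Finset.sum_const, nsmul_eq_mul, ← Fintype.card_subtype,
    ← Nat.card_eq_fintype_card]
  exact inv_mul_cancel_left₀ (Nat.cast_ne_zero.mpr Nat.card_pos.ne') _

end sharp

section sharp2

open Cfsg.Agent.Lib.CharBasic Cfsg.Agent.Lib.CharNormal Cfsg.Agent.Lib.CharInd Cfsg.Agent.Lib.CharKer
open Cfsg.Agent.Lib.OddFeit Cfsg.Agent.Lib.OddTIChar Cfsg.Agent.Lib.ZassFeit
open scoped ComplexConjugate

variable {G Ω : Type*} [Group G] [Fintype G] [MulAction G Ω] [Fintype Ω]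

theorem exists_ne_one (hZ : IsZassenhausGroup G Ω) {a b : Ω} (hab : a ≠ b) (H : Subgroup G)
    (hHcard : Nat.card H + 1 = Fintype.card Ω) : ∃ u ∈ H, u ≠ 1 := by
  have hn := two_lt hZ hab
  have hc : 1 < Nat.card H := by omega
  haveI : Nontrivial H := Finite.one_lt_card_iff_nontrivial.mp hc
  obtain ⟨u, hu⟩ := exists_ne (1 : H)
  exact ⟨u, u.2, fun h => hu (Subtype.ext h)⟩

/-- values of characters on `H`, sharply 3-transitive case -/
theorem sharp_parts (hZ : IsZassenhausGroup G Ω) {a b : Ω} (hab : a ≠ b) (H : Subgroup G)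
    (hHa : H ≤ stabilizer G a) (hHcard : Nat.card H + 1 = Fintype.card Ω)
    (hHfix : ∀ u ∈ H, u ≠ 1 → ∀ c : Ω, u • c = c → c = a)
    (heven : Even (Nat.card (stabilizer G a ⊓ stabilizer G b : Subgroup G)))
    (hs : Nat.card (stabilizer G a ⊓ stabilizer G b : Subgroup G) + 2 = Fintype.card Ω)
    {χ : G → ℂ} (hχ : IsCharacter G χ) :
    ∃ r d : ℕ, χ 1 = d + ((Nat.card H : ℂ) - 1) * r ∧ ∀ u ∈ H, u ≠ 1 → χ u = d - r := by
  classical
  obtain ⟨u₀, hu₀, hu₀1⟩ := exists_ne_one hZ hab H hHcard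
  have hn := two_lt hZ hab
  have hc : ∀ u ∈ H, u ≠ 1 → χ u = χ u₀ := by
    intro u hu hu1
    obtain ⟨g, hg⟩ := sharp_conj hZ hab H hHa hHcard hHfix hs hu₀ hu₀1 hu hu1
    exact (classFn_isConj (isChar_classFn hχ) (isConj_iff.mpr ⟨g, hg⟩)).symm
  obtain ⟨r, d, h1, h2⟩ := nat_parts (H := H)
    (fun x y => Subtype.ext (H_comm hZ hab H hHa hHcard hHfix heven x.2 y.2)) (by omega) (isChar_res H hχ)
    (c := χ u₀) (fun h hh => hc h h.2 (fun h' => hh (Subtype.ext h')))
  exact ⟨r, d, h1, fun u hu hu1 => (hc u hu hu1).trans h2⟩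

theorem card_fixedBy (hZ : IsZassenhausGroup G Ω) {a b : Ω} (hab : a ≠ b) {z : G} (hz : z ≠ 1) (hza : z • a = a)
    (hzb : z • b = b) : Nat.card (MulAction.fixedBy Ω z) = 2 := by
  classical
  have h1 : MulAction.fixedBy Ω z = {a, b} := by
    ext c
    rw [MulAction.mem_fixedBy, Set.mem_insert_iff, Set.mem_singleton_iff]
    constructor
    · intro hc
      by_contra h'
      push Not at h'
      exact hz (hZ.2.2.1 z a b c hab h'.2.symm h'.1.symm hza hzb hc)
    · rintro (rfl | rfl)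
      · exact hza
      · exact hzb
  rw [h1]
  have := Set.ncard_pair hab
  exact this

theorem sharp_st [IsSimpleGroup G] (hZ : IsZassenhausGroup G Ω) {a b : Ω} (hab : a ≠ b) (H : Subgroup G)
    (hHa : H ≤ stabilizer G a) (hHcard : Nat.card H + 1 = Fintype.card Ω)
    (hHfix : ∀ u ∈ H, u ≠ 1 → ∀ c : Ω, u • c = c → c = a)
    (heven : Even (Nat.card (stabilizer G a ⊓ stabilizer G b : Subgroup G)))
    (hs : Nat.card (stabilizer G a ⊓ stabilizer G b : Subgroup G) + 2 = Fintype.card Ω)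
    {z : G} (hz : orderOf z = 2) (hza : z • a = a) (hzb : z • b = b)
    {χ : G → ℂ} (hχ : IsIrrCharacter G χ) (hz0 : χ z ≠ 0) {m : ℕ} (hm : χ 1 = m) (hdvd : Nat.card H ∣ m) :
    χ z = 1 ∧ m = Nat.card H ∧ (∀ u ∈ H, u ≠ 1 → χ u = 0) ∧
      χ = indFun (stabilizer G a) (fun _ => 1) - fun _ => 1 := by
  classical
  haveI hKn : (H.subgroupOf (stabilizer G a)).Normal := (kernel_struct hZ hab H hHa hHcard hHfix).1
  haveI := pretransitive hZ
  have hn2 := two_lt hZ hab
  have hfpf := kfpf hZ hab H hHa hHcard hHfix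
  have hχc := isChar_of_irr hχ
  have hχL : IsCharacter (stabilizer G a) (fun x : stabilizer G a => χ x) := isChar_res _ hχc
  obtain ⟨φ, hφ1, hφz⟩ : ∃ φ : IrrCharacter (stabilizer G a),
      classInner (fun x : stabilizer G a => χ x) φ.1 ≠ 0 ∧ φ.1 ⟨z, hza⟩ ≠ 0 := by
    by_contra h
    push Not at h
    apply hz0
    have h1 := congrFun (char_eq_sum_inner hχL) ⟨z, hza⟩
    rw [Finset.sum_apply] at h1
    refine Eq.trans h1 (Finset.sum_eq_zero fun φ _ => ?_)
    rw [Pi.smul_apply, smul_eq_mul]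
    by_cases h3 : classInner (fun x : stabilizer G a => χ x) φ.1 = 0
    · rw [h3, zero_mul]
    · rw [h φ h3, mul_zero]
  have hφS : φ.1 ∉ inducedIrrAbove (H.subgroupOf (stabilizer G a)) ⊥ := by
    rintro ⟨θ, -, -, -, h1⟩
    apply hφz
    rw [h1]
    apply indFun_normal_notMem
    intro h2
    have h3 : z ∈ H := Subgroup.mem_subgroupOf.mp h2
    exact hab (hHfix z h3 (invol_ne hz) b hzb).symm
  have hker := ker_of_not_mem hfpf φ.2 hφS
  obtain ⟨f, hf⟩ : ∃ f, f = ideg φ := ⟨_, rfl⟩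
  have hf1 : φ.1 1 = f := by rw [hf]; exact ideg_spec φ
  have hf0 : 0 < f := by rw [hf]; exact ideg_pos φ
  have hfsq : f ^ 2 + 1 ≤ Nat.card H := by
    have h1 := sum_out hfpf
    have h2 : ∑ χ : IrrCharacter (stabilizer G a) with ¬ χ.1 ∈ inducedIrrAbove (H.subgroupOf (stabilizer G a)) ⊥,
      ideg χ ^ 2 = (H.subgroupOf (stabilizer G a)).index := by exact_mod_cast h1
    have h3 : f ^ 2 ≤ (H.subgroupOf (stabilizer G a)).index := by
      rw [← h2, hf]
      exact Finset.single_le_sum (f := fun χ : IrrCharacter (stabilizer G a) => ideg χ ^ 2) (fun _ _ => Nat.zero_le _)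
        (Finset.mem_filter.mpr ⟨Finset.mem_univ _, hφS⟩)
    rw [kindex hZ hab H hHa hHcard] at h3
    omega
  have hodd : Odd (Nat.card H) := by
    have h1 := even_degree hZ hab heven
    rw [← hHcard, Nat.even_add_one, Nat.not_even_iff_odd] at h1
    exact h1
  have h2f : 2 * f < Nat.card H := by
    have h1 : 2 * f ≤ f ^ 2 + 1 := by nlinarith [sq_nonneg ((f : ℤ) - 1), sq_nonneg (f - 1)]
    rcases lt_or_eq_of_le (h1.trans hfsq) with h | h
    · exact h
    · exfalso
      rw [← h] at hodd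
      exact (Nat.not_odd_iff_even.mpr (even_two_mul f)) hodd
  -- the induced character
  have hφc := isChar_of_irr φ.2
  have hΨ : IsCharacter G (indFun (stabilizer G a) φ.1) := isChar_ind _ hφc
  have hΨχ : classInner (indFun (stabilizer G a) φ.1) χ ≠ 0 := by
    rw [reciprocity _ _ _ (isChar_classFn hχc)]
    intro h
    apply hφ1
    rw [← classInner_conj_symm, h, map_zero]
  have hΨ' := isChar_sub_constituent hΨ hχ hΨχ
  have hL' := isChar_sub_constituent hχL φ.2 hφ1
  have hLH := isChar_comp (Subgroup.inclusion hHa) hL'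
  obtain ⟨u₀, hu₀, hu₀1⟩ := exists_ne_one hZ hab H hHcard
  obtain ⟨r, d, hA1, hA2⟩ := sharp_parts hZ hab H hHa hHcard hHfix heven hs hχc
  obtain ⟨r', d', hB1, hB2⟩ := sharp_parts hZ hab H hHa hHcard hHfix heven hs hΨ'
  have hΨ1 : indFun (stabilizer G a) φ.1 1 = ((Nat.card H : ℂ) + 1) * f := by
    rw [indFun_one, hf1, index_stab hZ a, ← hHcard]; push_cast; ring
  have hφu : ∀ (u : G) (hu : u ∈ H), φ.1 ⟨u, hHa hu⟩ = f := by
    intro u hu
    rw [← hf1]
    exact hker ⟨u, hHa hu⟩ (Subgroup.mem_subgroupOf.mpr hu)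
  have hΨu : ∀ u ∈ H, u ≠ 1 → indFun (stabilizer G a) φ.1 u = f := by
    intro u hu hu1
    rw [ind_H H hHa hHfix (isChar_classFn hφc) hu hu1]
    exact hφu u hu
  obtain ⟨r'', d'', hC1, hC2⟩ := nat_parts (H := H)
    (fun x y => Subtype.ext (H_comm hZ hab H hHa hHcard hHfix heven x.2 y.2)) (by omega) hLH
    (c := (d : ℂ) - r - f) (fun h hh => by
      show χ (h : G) - φ.1 ⟨(h : G), hHa h.2⟩ = d - r - f
      rw [hA2 h h.2 (fun h' => hh (Subtype.ext h')), hφu h h.2])
  have hC1' : χ 1 - f = d'' + ((Nat.card H : ℂ) - 1) * r'' := by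
    rw [← hC1, ← hf1]; rfl
  have hB1' : ((Nat.card H : ℂ) + 1) * f - χ 1 = d' + ((Nat.card H : ℂ) - 1) * r' := by
    rw [← hB1, ← hΨ1]; rfl
  have hB2' : (f : ℂ) - (d - r) = d' - r' := by
    rw [← hB2 u₀ hu₀ hu₀1, ← hA2 u₀ hu₀ hu₀1, ← hΨu u₀ hu₀ hu₀1]; rfl
  have hn0 : (Nat.card H : ℂ) ≠ 0 := Nat.cast_ne_zero.mpr Nat.card_pos.ne'
  have e1 : r + r' = f := by
    have : (Nat.card H : ℂ) * (r + r') = Nat.card H * f := by
      linear_combination hB2' - hB1' - hA1
    exact_mod_cast mul_left_cancel₀ hn0 this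
  have e2 : r'' = r := by
    have : (Nat.card H : ℂ) * r'' = Nat.card H * r := by
      linear_combination hC2 - hC1' + hA1
    exact_mod_cast mul_left_cancel₀ hn0 this
  have e3 : d = d'' + f := by
    have : (d : ℂ) = d'' + f := by rw [e2] at hC2; linear_combination hC2
    exact_mod_cast this
  have e4 : d' + d = 2 * f := by
    have h1 : (r : ℂ) + r' = f := by exact_mod_cast e1
    have : (d' : ℂ) + d = 2 * f := by linear_combination -hB2' + h1
    exact_mod_cast this
  have e5 : (m : ℤ) = d + (Nat.card H - 1) * r := by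
    have : (m : ℂ) = d + ((Nat.card H : ℂ) - 1) * r := by rw [← hm]; exact hA1
    exact_mod_cast this
  have e6 : d = r := by
    obtain ⟨k, hk⟩ := hdvd
    have h1 : (Nat.card H : ℤ) ∣ (d : ℤ) - r := by
      refine ⟨(k : ℤ) - r, ?_⟩
      rw [hk] at e5
      push_cast at e5
      linear_combination -e5
    have h2 := Int.eq_zero_of_abs_lt_dvd h1 (by
      rw [abs_lt]
      constructor <;> omega)
    omega
  have e7 : d = f := by omega
  have e8 : r' = 0 := by omega
  have e9 : d' = f := by omega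
  have hconst : ∀ g : G, (indFun (stabilizer G a) φ.1 - χ) g = f := by
    intro g
    rw [simple_const hΨ' hu₀1 (by rw [hB2 u₀ hu₀ hu₀1, hB1, e8]; push_cast; ring) g, hB1, e8, e9]; push_cast; ring
  have hφtriv : φ.1 = fun _ => 1 := by
    by_contra hne
    have h1 : classInner (indFun (stabilizer G a) φ.1) (fun _ => 1) = 0 := by
      rw [reciprocity _ _ _ (isChar_classFn isChar_trivial)]
      exact irr_inner_ne φ.2 isIrr_trivial hne
    have h2 : classInner (indFun (stabilizer G a) φ.1 - χ) (fun _ => 1) = f := by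
      have h3 : (indFun (stabilizer G a) φ.1 - χ) = (f : ℂ) • (fun _ => 1 : G → ℂ) := by
        ext g
        rw [hconst g]; simp
      rw [h3, classInner_smul_left, irr_inner_self isIrr_trivial, mul_one]
    rw [classInner_sub_left, h1] at h2
    obtain ⟨k, hk⟩ := exists_nat_inner hχc (isIrr_trivial (G := G))
    rw [hk] at h2
    have h3 : ((k + f : ℕ) : ℂ) = 0 := by push_cast; linear_combination -h2
    rw [Nat.cast_eq_zero] at h3
    omega
  have hfone : f = 1 := by
    have : (f : ℂ) = 1 := by rw [← hf1, hφtriv]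
    exact_mod_cast this
  have hχeq : χ = indFun (stabilizer G a) (fun _ => 1) - fun _ => 1 := by
    ext g
    have h1 := hconst g
    rw [Pi.sub_apply, hφtriv, hfone, Nat.cast_one] at h1
    rw [Pi.sub_apply]
    linear_combination -h1
  refine ⟨?_, ?_, ?_, hχeq⟩
  · rw [hχeq, Pi.sub_apply, ← perm_eq_indFun Ω a]
    show ((Nat.card (MulAction.fixedBy Ω z) : ℕ) : ℂ) - 1 = 1
    rw [card_fixedBy hZ hab (invol_ne hz) hza hzb]; norm_num
  · have h1 : (m : ℤ) = Nat.card H := by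
      rw [e5, show d = 1 by omega, show r = 1 by omega]; push_cast; ring
    exact_mod_cast h1
  · intro u hu hu1
    rw [hA2 u hu hu1, e6, sub_self]

end sharp2

section sharp3

open Cfsg.Agent.Lib.CharBasic Cfsg.Agent.Lib.CharNormal Cfsg.Agent.Lib.CharInd Cfsg.Agent.Lib.CharKer
open Cfsg.Agent.Lib.OddFeit Cfsg.Agent.Lib.OddTIChar Cfsg.Agent.Lib.ZassFeit
open scoped ComplexConjugate

variable {G Ω : Type*} [Group G] [Fintype G] [MulAction G Ω] [Fintype Ω]

theorem sharp_false' [IsSimpleGroup G] (hZ : IsZassenhausGroup G Ω) {a b : Ω} (hab : a ≠ b) (H : Subgroup G)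
    (hHa : H ≤ stabilizer G a) (hHcard : Nat.card H + 1 = Fintype.card Ω)
    (hHfix : ∀ u ∈ H, u ≠ 1 → ∀ c : Ω, u • c = c → c = a)
    (heven : Even (Nat.card (stabilizer G a ⊓ stabilizer G b : Subgroup G)))
    (hs : Nat.card (stabilizer G a ⊓ stabilizer G b : Subgroup G) + 2 = Fintype.card Ω) : False := by
  classical
  obtain ⟨z, hz, hza, hzb⟩ := exists_z heven
  haveI hKn : (H.subgroupOf (stabilizer G a)).Normal := (kernel_struct hZ hab H hHa hHcard hHfix).1
  have hn2 := two_lt hZ hab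
  have hfpf := kfpf hZ hab H hHa hHcard hHfix
  have hdeg := even_degree hZ hab heven
  have hodd : Odd (Nat.card H) := by
    have h1 := hdeg
    rw [← hHcard, Nat.even_add_one, Nat.not_even_iff_odd] at h1
    exact h1
  obtain ⟨u, hu, hu1⟩ := exists_ne_one hZ hab H hHcard
  -- the prime
  obtain ⟨p, hp, k, hk⟩ : ∃ p : ℕ, p.Prime ∧ ∃ k, Nat.card H = p ^ k := by
    obtain ⟨-, p, hp, hpe⟩ := elem_ab hfpf (by rw [kcard H hHa, kindex hZ hab H hHa hHcard]; omega)
    refine ⟨p, hp, ?_⟩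
    haveI : Fact p.Prime := ⟨hp⟩
    have h1 : IsPGroup p (H.subgroupOf (stabilizer G a)) := by
      intro g
      exact ⟨1, by rw [pow_one]; exact Subtype.ext (hpe g g.2)⟩
    obtain ⟨k, hk⟩ := IsPGroup.iff_card.mp h1
    exact ⟨k, by rw [← kcard H hHa]; exact hk⟩
  have hn1 : 1 < Nat.card H := by omega
  have hk0 : k ≠ 0 := by rintro rfl; rw [hk] at hn1; simp at hn1
  have hpn : p ∣ Nat.card H := by rw [hk]; exact dvd_pow_self p hk0
  -- names
  obtain ⟨n, hn⟩ : ∃ n, n = Nat.card H := ⟨_, rfl⟩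
  obtain ⟨e, he⟩ : ∃ e, e = Nat.card (stabilizer G a ⊓ stabilizer G b : Subgroup G) := ⟨_, rfl⟩
  obtain ⟨N, hN⟩ : ∃ N, N = Nat.card G := ⟨_, rfl⟩
  have hne : n = e + 1 := by omega
  have hNn : N = (n + 1) * n * e := by
    have h1 := card_group hZ hab
    rw [hN, ← h1, ← hHcard, ← hn, ← he]
    simp
  have he0 : 0 < e := by rw [he]; exact Nat.card_pos
  -- functions
  choose zc hzc using fun χ : IrrCharacter G => int_of_invol (isChar_of_irr χ.2) hz
  choose r d hrd1 hrd2 using fun χ : IrrCharacter G => sharp_parts hZ hab H hHa hHcard hHfix heven hs (isChar_of_irr χ.2)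
  choose c hc using fun χ : IrrCharacter G => ideg_dvd χ
  have hm0 : ∀ χ : IrrCharacter G, (ideg χ : ℂ) ≠ 0 := fun χ => Nat.cast_ne_zero.mpr (ideg_pos χ).ne'
  have hN0 : (N : ℂ) ≠ 0 := by rw [hN]; exact Nat.cast_ne_zero.mpr Nat.card_pos.ne'
  have hn0 : (n : ℂ) ≠ 0 := by rw [hn]; exact Nat.cast_ne_zero.mpr Nat.card_pos.ne'
  have he0' : (e : ℂ) ≠ 0 := Nat.cast_ne_zero.mpr he0.ne'
  have hn10 : (n : ℂ) + 1 ≠ 0 := by exact_mod_cast Nat.succ_ne_zero n
  obtain ⟨T, hT⟩ : ∃ T : ℤ, T = ∑ χ : IrrCharacter G, zc χ ^ 2 * r χ * c χ := ⟨_, rfl⟩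
  have hTeq : T = 2 * (e : ℤ) ^ 3 := by
    have h1 := Cfsg.Agent.Lib.CharFS.card_class_mul z z u
    rw [card_pairs hZ hab H hHa hHcard hHfix hdeg hz hza hzb hu hu1, ← hn, ← hN] at h1
    obtain ⟨X, hX⟩ : ∃ X, X = Nat.card {x : G // IsConj z x} := ⟨_, rfl⟩
    rw [← hX] at h1
    have hX2 := card_cls z
    rw [← hX, card_cent hZ hab hz hza hzb, ← he, ← hN, hNn] at hX2
    have hX3 : 2 * X = (n + 1) * n := by
      have : e * (2 * X) = e * ((n + 1) * n) := by linarith
      exact Nat.eq_of_mul_eq_mul_left he0 this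
    have hX4 : (X : ℂ) = ((n : ℂ) + 1) * n / 2 := by
      have : (2 : ℂ) * X = ((n : ℂ) + 1) * n := by exact_mod_cast hX3
      linear_combination this / 2
    have hcol := column_orth z z
    rw [if_pos (IsConj.refl z), card_cent hZ hab hz hza hzb, ← he] at hcol
    have hsum : ∑ χ : IrrCharacter G, χ.1 z * χ.1 z * conj (χ.1 u) / χ.1 1 = 2 * e - n / N * T := by
      have hcol' : ∑ χ : IrrCharacter G, ((zc χ : ℂ) ^ 2) = 2 * e := by
        rw [show (2 * e : ℂ) = ((2 * e : ℕ) : ℂ) by push_cast; ring, ← hcol]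
        refine Finset.sum_congr rfl fun χ _ => ?_
        rw [hzc, map_intCast]; ring
      rw [← hcol', hT]
      push_cast
      rw [Finset.mul_sum, ← Finset.sum_sub_distrib]
      refine Finset.sum_congr rfl fun χ _ => ?_
      have h2 : χ.1 1 = ideg χ := ideg_spec χ
      have h3 : χ.1 u = d χ - r χ := hrd2 χ u hu hu1
      have h4 : (ideg χ : ℂ) = d χ + ((n : ℂ) - 1) * r χ := by rw [← h2, hn]; exact hrd1 χ
      have h5 : (N : ℂ) = ideg χ * c χ := by rw [hN, hc χ]; push_cast; ring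
      have h6 : (d χ : ℂ) - r χ = ideg χ - n * r χ := by rw [h4]; ring
      have hc0 : (c χ : ℂ) ≠ 0 := by
        intro h
        rw [h, mul_zero] at h5
        exact hN0 h5
      rw [h3, h2, hzc, map_sub, Complex.conj_natCast, Complex.conj_natCast, h6, h5]
      have := hm0 χ
      field_simp
    rw [hsum, hX4] at h1
    have hNC : (N : ℂ) = ((n : ℂ) + 1) * n * e := by rw [hNn]; push_cast; ring
    have hnC : (n : ℂ) = e + 1 := by rw [hne]; push_cast; ring
    rw [hNC] at h1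
    have h2 : (4 : ℂ) * e ^ 2 = 2 * e ^ 2 * (n + 1) - T := by
      field_simp at h1
      linear_combination h1
    have h3 : (T : ℂ) = 2 * e ^ 3 := by
      rw [hnC] at h2
      linear_combination h2
    exact_mod_cast h3
  -- the Steinberg term
  obtain ⟨A, hA⟩ : ∃ A : Finset (IrrCharacter G), A = Finset.univ.filter fun χ => zc χ ≠ 0 ∧ n ∣ ideg χ := ⟨_, rfl⟩
  have hst : ∀ χ ∈ A, zc χ = 1 ∧ r χ = 1 ∧ (c χ : ℤ) = (n + 1) * e ∧
      χ.1 = indFun (stabilizer G a) (fun _ => 1) - fun _ => 1 := by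
    intro χ hχ
    rw [hA] at hχ
    obtain ⟨-, h1, h2⟩ := Finset.mem_filter.mp hχ
    obtain ⟨h3, h4, h5, h6⟩ := sharp_st hZ hab H hHa hHcard hHfix heven hs hz hza hzb χ.2
      (by rw [hzc]; exact Int.cast_ne_zero.mpr h1) (ideg_spec χ) (by rw [← hn]; exact h2)
    have h7 := hrd2 χ u hu hu1
    rw [h5 u hu hu1] at h7
    have h8 := hrd1 χ
    rw [ideg_spec χ, h4, ← hn] at h8
    have h9 : (r χ : ℂ) = 1 := by
      apply mul_left_cancel₀ hn0
      linear_combination h7 - h8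
    refine ⟨?_, by exact_mod_cast h9, ?_, h6⟩
    · rw [hzc] at h3
      exact_mod_cast h3
    · have h10 := hc χ
      rw [← hN, h4, ← hn, hNn] at h10
      have h11 : n * ((n + 1) * e) = n * c χ := by rw [← h10]; ring
      have h12 := Nat.eq_of_mul_eq_mul_left (by omega : 0 < n) h11
      rw [← h12]; push_cast; ring
  have hAcard : A.card ≤ 1 := by
    rw [Finset.card_le_one]
    intro χ hχ ψ hψ
    apply Subtype.ext
    rw [(hst χ hχ).2.2.2, (hst ψ hψ).2.2.2]
  have hp' : Prime (p : ℤ) := Nat.prime_iff_prime_int.mp hp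
  have hmod : (p : ℤ) ∣ T - A.card * ((n + 1) * e) := by
    have h1 : (A.card : ℤ) * ((n + 1) * e) = ∑ χ ∈ A, zc χ ^ 2 * r χ * c χ := by
      rw [Finset.sum_congr rfl (fun χ hχ => by
        obtain ⟨h1, h2, h3, -⟩ := hst χ hχ
        rw [h1, h2, h3]; ring_nf : ∀ χ ∈ A, zc χ ^ 2 * r χ * c χ = ((n : ℤ) + 1) * e)]
      rw [Finset.sum_const, nsmul_eq_mul]
    rw [h1, hT, ← Finset.sum_sdiff (Finset.subset_univ A), add_sub_cancel_right]
    apply Finset.dvd_sum
    intro χ hχ
    have h2 : ¬ (zc χ ≠ 0 ∧ n ∣ ideg χ) := by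
      intro h
      exact (Finset.mem_sdiff.mp hχ).2 (by rw [hA]; exact Finset.mem_filter.mpr ⟨Finset.mem_univ _, h⟩)
    by_cases h3 : zc χ = 0
    · rw [h3]; simp
    · have h4 : ¬ n ∣ ideg χ := fun h => h2 ⟨h3, h⟩
      apply Dvd.dvd.mul_left
      rw [Int.natCast_dvd_natCast]
      by_contra h5
      apply h4
      have h6 : n ∣ ideg χ * c χ := by
        rw [← hc χ, ← hN, hNn]
        exact ⟨(n + 1) * e, by ring⟩
      have h7 : Nat.Coprime n (c χ) := by
        rw [hn, hk]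
        exact Nat.Coprime.pow_left _ ((Nat.Prime.coprime_iff_not_dvd hp).mpr h5)
      exact h7.dvd_of_dvd_mul_right h6
  have hpn' : (p : ℤ) ∣ n := by rw [hn]; exact_mod_cast hpn
  have hfin : (p : ℤ) ∣ 2 - A.card := by
    have h1 : (n : ℤ) = e + 1 := by rw [hne]; push_cast; ring
    have h2 : (p : ℤ) ∣ (2 - A.card) + (T - A.card * ((n + 1) * e)) := by
      rw [hTeq]
      have h3 : (2 - (A.card : ℤ)) + (2 * (e : ℤ) ^ 3 - A.card * ((n + 1) * e)) =
          n * (2 * (e ^ 2 - e + 1) - A.card * (e + 1)) := by rw [h1]; ring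
      rw [h3]
      exact Dvd.dvd.mul_right hpn' _
    exact (dvd_add_left hmod).mp h2
  have hp2 : p ≠ 2 := by
    rintro rfl
    rw [← Nat.not_even_iff_odd, even_iff_two_dvd] at hodd
    exact hodd hpn
  have hpge := hp.two_le
  interval_cases h : A.card
  · have h3 : (p : ℤ) ∣ 2 := by simpa using hfin
    have h4 : p ∣ 2 := by exact_mod_cast h3
    exact hp2 ((Nat.prime_dvd_prime_iff_eq hp Nat.prime_two).mp h4)
  · have h3 : (p : ℤ) ∣ 1 := by simpa using hfin
    have h4 : p ∣ 1 := by exact_mod_cast h3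
    have := Nat.dvd_one.mp h4
    omega

end sharp3

section sharp4

variable {G Ω : Type*} [Group G] [Finite G] [MulAction G Ω] [Fintype Ω]

/-- no simple group of even two-point stabilizer is sharply 3-transitive -/
theorem sharp_false [IsSimpleGroup G] (hZ : IsZassenhausGroup G Ω) {a b : Ω} (hab : a ≠ b)
    (heven : Even (Nat.card (stabilizer G a ⊓ stabilizer G b : Subgroup G)))
    (hs : Nat.card (stabilizer G a ⊓ stabilizer G b : Subgroup G) + 2 = Fintype.card Ω) : False := by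
  haveI := Fintype.ofFinite G
  obtain ⟨H, hHa, hHcard, hHfix⟩ := exists_H hZ hab
  exact sharp_false' hZ hab H hHa hHcard hHfix heven hs

/-- simple, even two-point stabilizers: `2 e = |Ω| - 2` -/
theorem simple_even [IsSimpleGroup G] (hZ : IsZassenhausGroup G Ω) {a b : Ω} (hab : a ≠ b)
    (heven : Even (Nat.card (stabilizer G a ⊓ stabilizer G b : Subgroup G))) :
    2 * Nat.card (stabilizer G a ⊓ stabilizer G b : Subgroup G) + 2 = Fintype.card Ω := by
  have h1 := even_large hZ hab heven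
  have h2 := e_dvd hZ hab
  have h3 := two_lt hZ hab
  obtain ⟨k, hk⟩ := h2
  have hk0 : k ≠ 0 := by rintro rfl; omega
  have hk2 : k ≤ 2 := by
    rw [hk, mul_comm] at h1
    exact Nat.le_of_mul_le_mul_right h1 (by omega)
  interval_cases k
  · exact absurd rfl hk0
  · exfalso
    apply sharp_false hZ hab heven
    omega
  · omega

end sharp4

end

end Cfsg.Agent.Lib.ZassEven
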