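import Cfsg.Agent.Lib.ZassEven

/-!
# Zassenhaus groups with two-point stabilizers of even order `(n - 1) / 2`
-/

set_option autoImplicit false

namespace Cfsg.Agent.Lib.ZassEvenB

open Cfsg MulAction Cfsg.Agent.Lib.Zass Cfsg.Agent.Lib.ZassChar Cfsg.Agent.Lib.ZassInv Cfsg.Agent.Lib.ZassNorm
open Cfsg.Agent.Lib.ZassEven

noncomputable section

section half

variable {G Ω : Type*} [Group G] [Finite G] [MulAction G Ω] [Fintype Ω]

/-- an involution swapping `a` and `b` and fixing `c` -/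
theorem exists_invol_swap (hZ : IsZassenhausGroup G Ω) {a b : Ω} (hab : a ≠ b)
    (heven : Even (Nat.card (stabilizer G a ⊓ stabilizer G b : Subgroup G))) {c : Ω} (hca : c ≠ a) (hcb : c ≠ b) :
    ∃ x : G, orderOf x = 2 ∧ x • a = b ∧ x • b = a ∧ x • c = c := by
  have hev : Even (Nat.card (stabilizer G c ⊓ stabilizer G a : Subgroup G)) := by
    rw [card_two hZ hab hca]; exact heven
  obtain ⟨H, hHa, hHcard, hHfix⟩ := exists_H hZ hca
  obtain ⟨z, hz, hzc, hza⟩ := exists_z hev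
  obtain ⟨h, hh, hhab⟩ := H_trans H hHa hHcard hHfix hca.symm hcb.symm
  obtain ⟨h1, h2⟩ := (invol_fix_iff hZ hca H hHa hHcard hHfix (even_degree hZ hab heven) hz hzc hza (h * z)).mpr
    ⟨h, hh, rfl⟩
  have h3 : (h * z) • a = b := by rw [mul_smul, hza, hhab]
  refine ⟨h * z, h1, h3, ?_, h2⟩
  rw [← h3, ← mul_smul, invol_mul h1, one_smul]

theorem card_swaps (hZ : IsZassenhausGroup G Ω) {a b : Ω} (hab : a ≠ b) :
    Nat.card {x : G // x • a = b ∧ x • b = a} = Nat.card (stabilizer G a ⊓ stabilizer G b : Subgroup G) := by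
  obtain ⟨t, hta, htb⟩ := exists_swap hZ hab
  have hti : t⁻¹ • a = b ∧ t⁻¹ • b = a := ⟨inv_smul_eq_iff.mpr htb.symm, inv_smul_eq_iff.mpr hta.symm⟩
  refine Nat.card_congr
    { toFun := fun x => ⟨t⁻¹ * x, mem_two.mpr ⟨by rw [mul_smul, x.2.1, hti.2], by rw [mul_smul, x.2.2, hti.1]⟩⟩
      invFun := fun x => ⟨t * x, by
        obtain ⟨h1, h2⟩ := mem_two.mp x.2
        exact ⟨by rw [mul_smul, h1, hta], by rw [mul_smul, h2, htb]⟩⟩
      left_inv := fun x => Subtype.ext (by show t * (t⁻¹ * x) = x; group)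
      right_inv := fun x => Subtype.ext (by show t⁻¹ * (t * x) = x; group) }

/-- if `2 e + 2 = |Ω|` then every swap of `a` and `b` is an involution with a fixed point -/
theorem swap_all (hZ : IsZassenhausGroup G Ω) {a b : Ω} (hab : a ≠ b)
    (heven : Even (Nat.card (stabilizer G a ⊓ stabilizer G b : Subgroup G)))
    (hh : 2 * Nat.card (stabilizer G a ⊓ stabilizer G b : Subgroup G) + 2 = Fintype.card Ω)
    {t : G} (hta : t • a = b) (htb : t • b = a) : orderOf t = 2 ∧ ∃ c : Ω, c ≠ a ∧ c ≠ b ∧ t • c = c := by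
  classical
  haveI := Fintype.ofFinite G
  choose f hf using fun (c : Ω) (h : c ≠ a ∧ c ≠ b) => exists_invol_swap hZ hab heven h.1 h.2
  let F : Ω → G := fun c => if h : c ≠ a ∧ c ≠ b then f c h else 1
  have hF : ∀ (c : Ω) (h : c ≠ a ∧ c ≠ b), F c = f c h := fun c h => dif_pos h
  obtain ⟨S, hS⟩ : ∃ S : Finset Ω, S = Finset.univ.filter fun c => c ≠ a ∧ c ≠ b := ⟨_, rfl⟩
  obtain ⟨T, hT⟩ : ∃ T : Finset G, T = Finset.univ.filter fun x : G => x • a = b ∧ x • b = a := ⟨_, rfl⟩
  have hSm : ∀ c : Ω, c ∈ S ↔ c ≠ a ∧ c ≠ b := fun c => by rw [hS]; simp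
  have hTm : ∀ x : G, x ∈ T ↔ x • a = b ∧ x • b = a := fun c => by rw [hT]; simp
  have hScard : S.card + 2 = Fintype.card Ω := by
    have h1 : S = (Finset.univ.erase a).erase b := by
      ext c
      rw [hSm, Finset.mem_erase, Finset.mem_erase]
      simp [and_comm]
    rw [h1, Finset.card_erase_of_mem (Finset.mem_erase.mpr ⟨hab.symm, Finset.mem_univ _⟩),
      Finset.card_erase_of_mem (Finset.mem_univ _), Finset.card_univ]
    have := (two_lt hZ hab).2
    omega
  have hTcard : T.card = Nat.card (stabilizer G a ⊓ stabilizer G b : Subgroup G) := by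
    rw [← card_swaps hZ hab, hT, ← Fintype.card_subtype, Nat.card_eq_fintype_card]
  have hmap : S.image F ⊆ T := by
    intro x hx
    obtain ⟨c, hc, rfl⟩ := Finset.mem_image.mp hx
    have hc' := (hSm c).mp hc
    rw [hF c hc', hTm]
    exact ⟨(hf c hc').2.1, (hf c hc').2.2.1⟩
  have hfib : S.card ≤ 2 * (S.image F).card := by
    apply Finset.card_le_mul_card_image
    intro x _
    by_contra h
    push Not at h
    rw [Finset.two_lt_card] at h
    obtain ⟨c, hc, d, hd, e, he, h1, h2, h3⟩ := h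
    obtain ⟨hc1, hc2⟩ := Finset.mem_filter.mp hc
    obtain ⟨hd1, hd2⟩ := Finset.mem_filter.mp hd
    obtain ⟨he1, he2⟩ := Finset.mem_filter.mp he
    have hc' := (hSm c).mp hc1
    have hd' := (hSm d).mp hd1
    have he' := (hSm e).mp he1
    rw [hF c hc'] at hc2
    rw [hF d hd'] at hd2
    rw [hF e he'] at he2
    have hx2 : orderOf x = 2 := by rw [← hc2]; exact (hf c hc').1
    apply invol_ne hx2
    apply hZ.2.2.1 x c d e h1 h3 h2
    · nth_rw 1 [← hc2]; exact (hf c hc').2.2.2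
    · nth_rw 1 [← hd2]; exact (hf d hd').2.2.2
    · nth_rw 1 [← he2]; exact (hf e he').2.2.2
  have himg : S.image F = T := Finset.eq_of_subset_of_card_le hmap (by omega)
  have htT : t ∈ S.image F := by rw [himg, hTm]; exact ⟨hta, htb⟩
  obtain ⟨c, hc, hct⟩ := Finset.mem_image.mp htT
  have hc' := (hSm c).mp hc
  rw [hF c hc'] at hct
  refine ⟨by rw [← hct]; exact (hf c hc').1, c, hc'.1, hc'.2, ?_⟩
  nth_rw 1 [← hct]; exact (hf c hc').2.2.2

theorem swap_inv (hZ : IsZassenhausGroup G Ω) {a b : Ω} (hab : a ≠ b)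
    (heven : Even (Nat.card (stabilizer G a ⊓ stabilizer G b : Subgroup G)))
    (hh : 2 * Nat.card (stabilizer G a ⊓ stabilizer G b : Subgroup G) + 2 = Fintype.card Ω)
    {t : G} (hta : t • a = b) (htb : t • b = a) {x : G} (hx : x ∈ (stabilizer G a ⊓ stabilizer G b : Subgroup G)) :
    t * x * t⁻¹ = x⁻¹ := by
  obtain ⟨hxa, hxb⟩ := mem_two.mp hx
  have h1 := (swap_all hZ hab heven hh hta htb).1
  have h2 := (swap_all hZ hab heven hh (t := t * x) (by rw [mul_smul, hxa, hta]) (by rw [mul_smul, hxb, htb])).1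
  rw [invol_inv h1]
  have h3 := invol_mul h2
  rw [eq_inv_iff_mul_eq_one, ← h3]
  group

theorem E_comm (hZ : IsZassenhausGroup G Ω) {a b : Ω} (hab : a ≠ b)
    (heven : Even (Nat.card (stabilizer G a ⊓ stabilizer G b : Subgroup G)))
    (hh : 2 * Nat.card (stabilizer G a ⊓ stabilizer G b : Subgroup G) + 2 = Fintype.card Ω)
    {x y : G} (hx : x ∈ (stabilizer G a ⊓ stabilizer G b : Subgroup G))
    (hy : y ∈ (stabilizer G a ⊓ stabilizer G b : Subgroup G)) : x * y = y * x := by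
  obtain ⟨t, hta, htb⟩ := exists_swap hZ hab
  have h := fun {w : G} (hw : w ∈ (stabilizer G a ⊓ stabilizer G b : Subgroup G)) => swap_inv hZ hab heven hh hta htb hw
  have h1 : t * (x * y) * t⁻¹ = (t * x * t⁻¹) * (t * y * t⁻¹) := by group
  rw [h (mul_mem hx hy), h hx, h hy] at h1
  have h2 : (x * y)⁻¹⁻¹ = (x⁻¹ * y⁻¹)⁻¹ := by rw [h1]
  rw [inv_inv, mul_inv_rev, inv_inv, inv_inv] at h2
  exact h2

theorem E_cyclic (hZ : IsZassenhausGroup G Ω) {a b : Ω} (hab : a ≠ b)
    (heven : Even (Nat.card (stabilizer G a ⊓ stabilizer G b : Subgroup G)))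
    (hh : 2 * Nat.card (stabilizer G a ⊓ stabilizer G b : Subgroup G) + 2 = Fintype.card Ω) :
    IsCyclic (stabilizer G a ⊓ stabilizer G b : Subgroup G) := by
  obtain ⟨H, hHa, hHcard, hHfix⟩ := exists_H hZ hab
  have hn := two_lt hZ hab
  apply Cfsg.Agent.Lib.Frob.isCyclic_of_fpf_comm (V := H)
  · exact ⟨⟨fun x y => Subtype.ext (H_comm hZ hab H hHa hHcard hHfix heven x.2 y.2)⟩⟩
  · intro h
    rw [h, Subgroup.card_bot] at hHcard
    omega
  · intro x hx
    obtain ⟨hxa, hxb⟩ := mem_two.mp hx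
    rw [Subgroup.mem_normalizer_iff]
    intro u
    constructor
    · intro hu
      exact H_conj hZ hab H hHa hHcard hHfix hxa hu
    · intro hu
      have h1 := H_conj hZ hab H hHa hHcard hHfix (g := x⁻¹) (inv_smul_eq_iff.mpr hxa.symm) hu
      have h2 : x⁻¹ * (x * u * x⁻¹) * x⁻¹⁻¹ = u := by group
      rwa [h2] at h1
  · intro x hx hx1
    obtain ⟨hxa, hxb⟩ := mem_two.mp hx
    rw [eq_bot_iff]
    rintro u ⟨hu, hu2⟩
    rw [Subgroup.mem_bot]
    apply comm_eq_one hZ hab H hHa hHfix hx1 hxa hxb hu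
    have h1 : u * x = x * u := Subgroup.mem_centralizer_singleton_iff.mp hu2
    exact h1.symm
  · exact ⟨⟨fun x y => Subtype.ext (E_comm hZ hab heven hh x.2 y.2)⟩⟩

end half

section cyclic

variable {G Ω : Type*} [Group G] [Finite G] [MulAction G Ω] [Fintype Ω]

theorem simple_cyclic [IsSimpleGroup G] (hZ : IsZassenhausGroup G Ω) {a b : Ω} (hab : a ≠ b) :
    IsCyclic (stabilizer G a ⊓ stabilizer G b : Subgroup G) ∧
      ∃ v : G, orderOf v = 2 ∧ v • a = b ∧ v • b = a ∧
        ∀ h ∈ (stabilizer G a ⊓ stabilizer G b : Subgroup G), v * h * v⁻¹ = h⁻¹ := by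
  obtain ⟨t, hta, htb⟩ := exists_swap hZ hab
  rcases Nat.even_or_odd (Nat.card (stabilizer G a ⊓ stabilizer G b : Subgroup G)) with heven | hodd
  · have hh := simple_even hZ hab heven
    exact ⟨E_cyclic hZ hab heven hh, t, (swap_all hZ hab heven hh hta htb).1, hta, htb,
      fun h hh' => swap_inv hZ hab heven hh hta htb hh'⟩
  · have hG := perfect' hZ hab
    obtain ⟨h1, h2⟩ := inverts hZ hab hodd hG hta htb
    haveI := zgroup hZ hab hodd
    refine ⟨?_, t, swap_order hZ hab hodd hG hta htb, hta, htb, h2⟩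
    haveI : Group.IsNilpotent (stabilizer G a ⊓ stabilizer G b : Subgroup G) := by
      letI : CommGroup (stabilizer G a ⊓ stabilizer G b : Subgroup G) :=
        { (inferInstance : Group (stabilizer G a ⊓ stabilizer G b : Subgroup G)) with
          mul_comm := fun x y => Subtype.ext (h1 x x.2 y y.2) }
      exact CommGroup.isNilpotent
    infer_instance

end cyclic

end

end Cfsg.Agent.Lib.ZassEvenB
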