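import Cfsg.Agent.Lib.ZassEvenB
import Cfsg.Agent.Lib.SL2Hom
import Cfsg.Agent.Lib.GLSL
import Cfsg.Agent.Lib.SL2

/-!
# Zassenhaus groups of degree `n + 1` with two-point stabilizers of even order `(n - 1) / 2`: identification with `PSL(2, n)`
-/

set_option autoImplicit false

namespace Cfsg.Agent.Lib.ZassField

open Cfsg MulAction Cfsg.Agent.Lib.Zass Cfsg.Agent.Lib.ZassChar Cfsg.Agent.Lib.ZassInv Cfsg.Agent.Lib.ZassNorm
open Cfsg.Agent.Lib.ZassEven Cfsg.Agent.Lib.ZassEvenB

noncomputable section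

section field

theorem mul_ap {V : Type*} [AddCommGroup V] (f g : AddMonoid.End V) (v : V) : (f * g) v = f (g v) := rfl

/-- an abelian group of automorphisms of order `(|V| - 1) / 2` acting freely on nonzero vectors comes from a field -/
theorem exists_field {V : Type*} [AddCommGroup V] [Finite V] {A : Type*} [Group A]
    (hcomm : ∀ a b : A, a * b = b * a) (ρ : A →* AddMonoid.End V)
    (hfpf : ∀ (a : A) (v : V), v ≠ 0 → ρ a v = v → a = 1) (hcard : 2 * Nat.card A + 1 = Nat.card V)
    (v₀ : V) (hv₀ : v₀ ≠ 0) :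
    ∃ (K : Type) (_ : Field K) (_ : Fintype K) (φ : K ≃+ V) (ε : A →* Kˣ),
      φ 1 = v₀ ∧ ∀ a x, φ ((ε a : K) * x) = ρ a (φ x) := by
  classical
  have hinj : ∀ w : V, w ≠ 0 → ∀ a b : A, ρ a w = ρ b w → a = b := by
    intro w hw a b hab
    have h1 : ρ (b⁻¹ * a) w = w := by
      rw [map_mul, mul_ap, hab, ← mul_ap, ← map_mul, inv_mul_cancel, map_one]
      rfl
    have h2 := hfpf _ w hw h1
    rw [inv_mul_eq_one] at h2
    exact h2.symm
  haveI : Finite A := Finite.of_injective (fun a => ρ a v₀) (fun a b h => hinj v₀ hv₀ a b h)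
  have hinv : ∀ W : AddSubgroup V, (∀ a, ∀ v ∈ W, ρ a v ∈ W) → ∀ w ∈ W, w ≠ 0 → W = ⊤ := by
    intro W hW w hw hw0
    have hne : ∀ a, ρ a w ≠ 0 := by
      intro a h
      apply hw0
      have h1 : ρ (a⁻¹ * a) w = 0 := by
        rw [map_mul, mul_ap, h, map_zero]
      rw [inv_mul_cancel, map_one] at h1
      exact h1
    let f : A → {x : W // True ∧ x ≠ 0} := fun a => ⟨⟨ρ a w, hW a w hw⟩, trivial, fun h => hne a (congrArg Subtype.val h)⟩
    have hf : Function.Injective f := fun a b h => hinj w hw0 a b (congrArg (fun x : {x : W // True ∧ x ≠ 0} => (x.1 : V)) h)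
    have h1 := Nat.card_le_card_of_injective f hf
    have h2 := card_ne_add_one (A := W) (P := fun _ => True) (y := 0) trivial
    have h3 : Nat.card {x : W // True} = Nat.card W := Nat.card_congr (Equiv.subtypeUnivEquiv (fun _ => trivial))
    have h4 : Nat.card W ∣ Nat.card V := AddSubgroup.card_addSubgroup_dvd_card W
    apply AddSubgroup.eq_top_of_card_eq
    obtain ⟨k, hk⟩ := h4
    have hk0 : k ≠ 0 := by
      rintro rfl
      have : 0 < Nat.card V := Nat.card_pos
      omega
    have hk2 : k < 2 := by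
      by_contra h
      push Not at h
      have : Nat.card W * 2 ≤ Nat.card V := by rw [hk]; exact Nat.mul_le_mul_left _ h
      omega
    have : k = 1 := by omega
    rw [hk, this, mul_one]
  -- the ring
  obtain ⟨R, hR⟩ : ∃ R : Subring (AddMonoid.End V), R = Subring.closure (Set.range ρ) := ⟨_, rfl⟩
  have hρR : ∀ a, ρ a ∈ R := fun a => by rw [hR]; exact Subring.subset_closure ⟨a, rfl⟩
  have hRcomm : ∀ r ∈ R, ∀ s ∈ R, r * s = s * r := by
    have hc : ∀ x ∈ Set.range ρ, ∀ y ∈ Set.range ρ, x * y = y * x := by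
      rintro _ ⟨a, rfl⟩ _ ⟨b, rfl⟩
      rw [← map_mul, ← map_mul, hcomm]
    letI := Subring.closureCommRingOfComm hc
    intro r hr s hs
    rw [hR] at hr hs
    exact congrArg Subtype.val (mul_comm (⟨r, hr⟩ : Subring.closure (Set.range ρ)) ⟨s, hs⟩)
  letI : CommRing R := { (inferInstance : Ring R) with mul_comm := fun r s => Subtype.ext (hRcomm r r.2 s s.2) }
  have hker : ∀ r ∈ R, r ≠ 0 → ∀ v : V, r v = 0 → v = 0 := by
    intro r hr hr0 v hv
    by_contra hv0
    apply hr0
    let W : AddSubgroup V :=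
      { carrier := {w | r w = 0}
        zero_mem' := map_zero r
        add_mem' := fun {x y} hx hy => by
          show r (x + y) = 0
          rw [map_add, show r x = 0 from hx, show r y = 0 from hy, add_zero]
        neg_mem' := fun {x} hx => by
          show r (-x) = 0
          rw [map_neg, show r x = 0 from hx, neg_zero] }
    have h1 := hinv W (fun a w hw => by
      have h2 : (r * ρ a) w = (ρ a * r) w := by rw [hRcomm r hr _ (hρR a)]
      rw [mul_ap, mul_ap] at h2
      have h3 : r w = 0 := hw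
      rw [h3, map_zero] at h2
      exact h2) v hv hv0
    ext w
    have h2 : w ∈ W := by rw [h1]; exact AddSubgroup.mem_top w
    exact h2
  let ev : R →+ V :=
    { toFun := fun r => (r : AddMonoid.End V) v₀
      map_zero' := rfl
      map_add' := fun _ _ => rfl }
  have hevinj : Function.Injective ev := by
    rw [injective_iff_map_eq_zero]
    intro r hr
    by_contra hr0
    exact hv₀ (hker r r.2 (fun h => hr0 (Subtype.ext h)) v₀ hr)
  have hevsurj : Function.Surjective ev := by
    rw [← AddMonoidHom.range_eq_top]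
    apply hinv _ _ v₀ _ hv₀
    · rintro a _ ⟨r, rfl⟩
      exact ⟨⟨ρ a, hρR a⟩ * r, rfl⟩
    · exact ⟨1, rfl⟩
  haveI : Finite R := Finite.of_injective ev hevinj
  letI : Fintype R := Fintype.ofFinite R
  haveI : Nontrivial R := ⟨⟨1, 0, fun h => hv₀ (by
    have h1 : ev 1 = ev 0 := by rw [h]
    exact h1)⟩⟩
  haveI : NoZeroDivisors R := ⟨fun {r s} hrs => by
    by_contra h
    push Not at h
    apply hv₀
    have h1 : (r : AddMonoid.End V) ((s : AddMonoid.End V) v₀) = 0 := by
      have : ev (r * s) = ev 0 := by rw [hrs]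
      exact this
    exact hker s s.2 (fun h' => h.2 (Subtype.ext h')) _ (hker r r.2 (fun h' => h.1 (Subtype.ext h')) _ h1)⟩
  haveI : IsDomain R := NoZeroDivisors.to_isDomain R
  letI hRf : Field R := Fintype.fieldOfDomain R
  obtain ⟨K, ⟨e⟩⟩ : ∃ K : Type, Nonempty (K ≃ R) := ⟨Fin (Nat.card R), ⟨(Finite.equivFin R).symm⟩⟩
  letI : Field K := e.field
  letI : Fintype K := Fintype.ofEquiv R e.symm
  let er : K ≃+* R := e.ringEquiv
  refine ⟨K, inferInstance, inferInstance, er.toAddEquiv.trans (AddEquiv.ofBijective ev ⟨hevinj, hevsurj⟩), ?_, ?_, ?_⟩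
  · exact (Units.map (er.symm : R →* K)).comp (MonoidHom.toHomUnits
      { toFun := fun a => (⟨ρ a, hρR a⟩ : R)
        map_one' := Subtype.ext (map_one ρ)
        map_mul' := fun a b => Subtype.ext (map_mul ρ a b) })
  · show ev (er 1) = v₀
    rw [map_one]
    rfl
  · intro a x
    show ev (er (er.symm ⟨ρ a, hρR a⟩ * x)) = ρ a (ev (er x))
    rw [map_mul, RingEquiv.apply_symm_apply]
    rfl

end field

section coord

/-- affine coordinates for the action -/
structure Coord (G Ω K : Type*) [Group G] [MulAction G Ω] [Field K] (a b : Ω) where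
  hx : K → G
  m : (stabilizer G a ⊓ stabilizer G b : Subgroup G) →* Kˣ
  hx_add : ∀ x y, hx (x + y) = hx x * hx y
  hx_a : ∀ x, hx x • a = a
  pt_inj : ∀ x y, hx x • b = hx y • b → x = y
  pt_surj : ∀ c : Ω, c ≠ a → ∃ x, hx x • b = c
  conj : ∀ (e : (stabilizer G a ⊓ stabilizer G b : Subgroup G)) (x : K), (e : G) * hx x * (e : G)⁻¹ = hx ((m e : K) * x)

variable {G Ω : Type*} [Group G] [Finite G] [MulAction G Ω] [Fintype Ω]

theorem exists_coord (hZ : IsZassenhausGroup G Ω) {a b : Ω} (hab : a ≠ b)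
    (heven : Even (Nat.card (stabilizer G a ⊓ stabilizer G b : Subgroup G)))
    (hh : 2 * Nat.card (stabilizer G a ⊓ stabilizer G b : Subgroup G) + 2 = Fintype.card Ω) :
    ∃ (K : Type) (_ : Field K) (_ : Fintype K) (_ : Coord G Ω K a b), Fintype.card K + 1 = Fintype.card Ω := by
  classical
  obtain ⟨H, hHa, hHcard, hHfix⟩ := exists_H hZ hab
  letI : CommGroup H := { (inferInstance : Group H) with
    mul_comm := fun x y => Subtype.ext (H_comm hZ hab H hHa hHcard hHfix heven x.2 y.2) }
  have hn := two_lt hZ hab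
  let ρ : (stabilizer G a ⊓ stabilizer G b : Subgroup G) →* AddMonoid.End (Additive H) :=
    { toFun := fun e =>
        { toFun := fun v => Additive.ofMul ⟨(e : G) * (Additive.toMul v : H) * (e : G)⁻¹,
            H_conj hZ hab H hHa hHcard hHfix (mem_two.mp e.2).1 (Additive.toMul v : H).2⟩
          map_zero' := by
            apply Additive.toMul.injective
            apply Subtype.ext
            show (e : G) * 1 * (e : G)⁻¹ = 1
            group
          map_add' := fun x y => by
            apply Additive.toMul.injective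
            apply Subtype.ext
            show (e : G) * ((Additive.toMul x : H) * (Additive.toMul y : H)) * (e : G)⁻¹ =
              ((e : G) * (Additive.toMul x : H) * (e : G)⁻¹) * ((e : G) * (Additive.toMul y : H) * (e : G)⁻¹)
            group }
      map_one' := by
        refine AddMonoidHom.ext fun v => ?_
        apply Additive.toMul.injective
        apply Subtype.ext
        show (1 : G) * (Additive.toMul v : H) * (1 : G)⁻¹ = (Additive.toMul v : H)
        group
      map_mul' := fun e f => by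
        refine AddMonoidHom.ext fun v => ?_
        apply Additive.toMul.injective
        apply Subtype.ext
        show ((e : G) * (f : G)) * (Additive.toMul v : H) * ((e : G) * (f : G))⁻¹ =
          (e : G) * ((f : G) * (Additive.toMul v : H) * (f : G)⁻¹) * (e : G)⁻¹
        group }
  have hρ : ∀ e v, ((Additive.toMul (ρ e v) : H) : G) = (e : G) * (Additive.toMul v : H) * (e : G)⁻¹ := fun _ _ => rfl
  haveI : Nontrivial H := Finite.one_lt_card_iff_nontrivial.mp (by omega)
  obtain ⟨u, hu⟩ := exists_ne (1 : H)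
  haveI : Finite (Additive H) := inferInstanceAs (Finite H)
  obtain ⟨K, hKf, hKt, φ, ε, -, hε⟩ := exists_field (V := Additive H)
    (fun e f => Subtype.ext (E_comm hZ hab heven hh e.2 f.2)) ρ (by
      intro e v hv hev
      by_contra he
      apply hv
      have he' : (e : G) ≠ 1 := fun h => he (Subtype.ext h)
      have h1 : (e : G) * (Additive.toMul v : H) * (e : G)⁻¹ = (Additive.toMul v : H) := by rw [← hρ, hev]
      have h2 := comm_eq_one hZ hab H hHa hHfix he' (mem_two.mp e.2).1 (mem_two.mp e.2).2 (Additive.toMul v : H).2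
        (by rw [mul_inv_eq_iff_eq_mul] at h1; exact h1)
      apply Additive.toMul.injective
      exact Subtype.ext h2) (by
      have : Nat.card (Additive H) = Nat.card H := rfl
      rw [this]
      omega) (Additive.ofMul u) (fun h => hu (Additive.ofMul.injective h))
  let hx : K → G := fun x => ((Additive.toMul (φ x) : H) : G)
  have hxH : ∀ x, hx x ∈ H := fun x => (Additive.toMul (φ x) : H).2
  have hx_add : ∀ x y, hx (x + y) = hx x * hx y := by
    intro x y
    show ((Additive.toMul (φ (x + y)) : H) : G) = ((Additive.toMul (φ x) : H) : G) * ((Additive.toMul (φ y) : H) : G)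
    rw [map_add, toMul_add]
    rfl
  have hxinj : ∀ x y, hx x = hx y → x = y := by
    intro x y h
    apply φ.injective
    apply Additive.toMul.injective
    exact Subtype.ext h
  have hfree : ∀ u ∈ H, ∀ v ∈ H, u • b = v • b → u = v := by
    intro u hu v hv huv
    by_contra hne
    have h1 : v⁻¹ * u ≠ 1 := by
      intro h
      rw [inv_mul_eq_one] at h
      exact hne h.symm
    have h2 := hHfix (v⁻¹ * u) (mul_mem (inv_mem hv) hu) h1 b (by rw [mul_smul, huv, inv_smul_smul])
    exact hab h2.symm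
  refine ⟨K, hKf, hKt,
    { hx := hx
      m := ε
      hx_add := hx_add
      hx_a := fun x => hHa (hxH x)
      pt_inj := fun x y h => hxinj x y (hfree _ (hxH x) _ (hxH y) h)
      pt_surj := fun c hc => by
        obtain ⟨u, hu, huc⟩ := H_trans H hHa hHcard hHfix hab.symm hc
        refine ⟨φ.symm (Additive.ofMul ⟨u, hu⟩), ?_⟩
        show ((Additive.toMul (φ (φ.symm (Additive.ofMul (⟨u, hu⟩ : H)))) : H) : G) • b = c
        rw [AddEquiv.apply_symm_apply]
        exact huc
      conj := fun e x => by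
        show (e : G) * ((Additive.toMul (φ x) : H) : G) * (e : G)⁻¹ = ((Additive.toMul (φ ((ε e : K) * x)) : H) : G)
        rw [hε, hρ] }, ?_⟩
  have h1 : Nat.card K = Nat.card H := Nat.card_congr (φ.toEquiv.trans Additive.toMul)
  rw [Nat.card_eq_fintype_card] at h1
  omega

end coord

section tau

variable {G Ω K : Type*} [Group G] [Finite G] [MulAction G Ω] [Fintype Ω] [Field K] [Fintype K] {a b : Ω}

theorem hx_zero (C : Coord G Ω K a b) : C.hx 0 = 1 := by
  have h := C.hx_add 0 0
  rw [add_zero] at h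
  exact left_eq_mul.mp h

theorem hx_neg (C : Coord G Ω K a b) (x : K) : C.hx (-x) = (C.hx x)⁻¹ := by
  rw [eq_inv_iff_mul_eq_one, ← C.hx_add, neg_add_cancel, hx_zero]

theorem pt_ne (C : Coord G Ω K a b) (hab : a ≠ b) (x : K) : C.hx x • b ≠ a := by
  intro h
  apply hab
  have h1 := C.hx_a x
  exact MulAction.injective (C.hx x) (h1.trans h.symm)

theorem pt_zero (C : Coord G Ω K a b) : C.hx 0 • b = b := by rw [hx_zero, one_smul]

theorem pt_ne_b (C : Coord G Ω K a b) {x : K} (hx : x ≠ 0) : C.hx x • b ≠ b := by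
  intro h
  apply hx
  apply C.pt_inj
  rw [h, pt_zero]

theorem hx_pt (C : Coord G Ω K a b) (x y : K) : C.hx y • C.hx x • b = C.hx (y + x) • b := by
  rw [C.hx_add, mul_smul]

theorem e_pt (C : Coord G Ω K a b) (e : (stabilizer G a ⊓ stabilizer G b : Subgroup G)) (x : K) :
    (e : G) • C.hx x • b = C.hx ((C.m e : K) * x) • b := by
  rw [← C.conj, mul_smul, mul_smul, inv_smul_eq_iff.mpr (mem_two.mp e.2).2.symm]

theorem m_inj (C : Coord G Ω K a b) (hZ : IsZassenhausGroup G Ω) (hab : a ≠ b) : Function.Injective C.m := by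
  rw [injective_iff_map_eq_one]
  intro e he
  apply Subtype.ext
  have h1 := e_pt C e 1
  rw [he, Units.val_one, one_mul] at h1
  exact hZ.2.2.1 e a b (C.hx 1 • b) hab (pt_ne_b C one_ne_zero).symm (pt_ne C hab 1).symm
    (mem_two.mp e.2).1 (mem_two.mp e.2).2 h1

theorem m_z (C : Coord G Ω K a b) (hZ : IsZassenhausGroup G Ω) (hab : a ≠ b) {z : G} (hz : orderOf z = 2)
    (hzE : z ∈ (stabilizer G a ⊓ stabilizer G b : Subgroup G)) : (C.m ⟨z, hzE⟩ : K) = -1 := by
  have h1 : C.m ⟨z, hzE⟩ * C.m ⟨z, hzE⟩ = 1 := by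
    rw [← map_mul]
    have : (⟨z, hzE⟩ : (stabilizer G a ⊓ stabilizer G b : Subgroup G)) * ⟨z, hzE⟩ = 1 := Subtype.ext (invol_mul hz)
    rw [this, map_one]
  have h2 : (C.m ⟨z, hzE⟩ : K) * C.m ⟨z, hzE⟩ = 1 := by rw [← Units.val_mul, h1, Units.val_one]
  rcases mul_self_eq_one_iff.mp h2 with h | h
  · exfalso
    have h3 : C.m ⟨z, hzE⟩ = 1 := Units.ext h
    have h4 := m_inj C hZ hab (h3.trans (map_one C.m).symm)
    exact invol_ne hz (congrArg Subtype.val h4)
  · exact h

theorem range_index (C : Coord G Ω K a b) (hZ : IsZassenhausGroup G Ω) (hab : a ≠ b)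
    (hh : 2 * Nat.card (stabilizer G a ⊓ stabilizer G b : Subgroup G) + 2 = Fintype.card Ω)
    (hK : Fintype.card K + 1 = Fintype.card Ω) : C.m.range.index = 2 := by
  classical
  have h1 : Nat.card C.m.range = Nat.card (stabilizer G a ⊓ stabilizer G b : Subgroup G) :=
    (Nat.card_congr (MonoidHom.ofInjective (m_inj C hZ hab)).toEquiv).symm
  have h2 := C.m.range.card_mul_index
  have h3 : Nat.card Kˣ = Fintype.card K - 1 := by
    rw [Nat.card_eq_fintype_card, Fintype.card_units]
  rw [h1, h3] at h2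
  have h4 : Nat.card (stabilizer G a ⊓ stabilizer G b : Subgroup G) * C.m.range.index =
      Nat.card (stabilizer G a ⊓ stabilizer G b : Subgroup G) * 2 := by omega
  exact Nat.eq_of_mul_eq_mul_left Nat.card_pos h4

theorem exists_tau (C : Coord G Ω K a b) (hab : a ≠ b) {t : G} (hta : t • a = b) (htb : t • b = a) :
    ∃ τ : K → K, (∀ x, x ≠ 0 → t • C.hx x • b = C.hx (τ x) • b) ∧ ∀ x, x ≠ 0 → τ x ≠ 0 := by
  classical
  have h1 : ∀ x : K, x ≠ 0 → ∃ y : K, C.hx y • b = t • C.hx x • b := by
    intro x hx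
    apply C.pt_surj
    intro h
    exact pt_ne_b C hx (MulAction.injective t (h.trans htb.symm))
  choose f hf using h1
  refine ⟨fun x => if h : x ≠ 0 then f x h else 0, fun x hx => ?_, fun x hx => ?_⟩
  · show t • C.hx x • b = C.hx (if h : x ≠ 0 then f x h else 0) • b
    rw [dif_pos hx, hf]
  · show (if h : x ≠ 0 then f x h else 0) ≠ 0
    rw [dif_pos hx]
    intro h
    have h2 := hf x hx
    rw [h, pt_zero] at h2
    exact pt_ne C hab x (MulAction.injective t (hta.trans h2)).symm

/-- the main computation: the swap is `x ↦ 1 / x` -/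
theorem tau_eq (C : Coord G Ω K a b) (hZ : IsZassenhausGroup G Ω) (hab : a ≠ b)
    (heven : Even (Nat.card (stabilizer G a ⊓ stabilizer G b : Subgroup G)))
    (hh : 2 * Nat.card (stabilizer G a ⊓ stabilizer G b : Subgroup G) + 2 = Fintype.card Ω)
    (hK : Fintype.card K + 1 = Fintype.card Ω) {t : G} (ht : orderOf t = 2) (hta : t • a = b) (htb : t • b = a)
    (ht1 : t • C.hx 1 • b = C.hx 1 • b) {τ : K → K} (hτ : ∀ x, x ≠ 0 → t • C.hx x • b = C.hx (τ x) • b)
    (hτ0 : ∀ x, x ≠ 0 → τ x ≠ 0) : ∀ x, x ≠ 0 → τ x = x⁻¹ := by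
  classical
  have htt : ∀ c : Ω, t • t • c = c := fun c => by rw [← mul_smul, invol_mul ht, one_smul]
  obtain ⟨z, hz, hza, hzb⟩ := exists_z heven
  have hzE : z ∈ (stabilizer G a ⊓ stabilizer G b : Subgroup G) := mem_two.mpr ⟨hza, hzb⟩
  have hmz := m_z C hZ hab hz hzE
  have T2 : ∀ x, x ≠ 0 → τ (τ x) = x := by
    intro x hx
    apply C.pt_inj
    rw [← hτ _ (hτ0 x hx), ← hτ x hx, htt]
  have T1 : ∀ (e : (stabilizer G a ⊓ stabilizer G b : Subgroup G)) (x : K), x ≠ 0 →
      τ ((C.m e : K) * x) = (C.m e : K)⁻¹ * τ x := by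
    intro e x hx
    apply C.pt_inj
    have hmx : (C.m e : K) * x ≠ 0 := mul_ne_zero (Units.ne_zero _) hx
    have h1 := swap_inv hZ hab heven hh hta htb e.2
    have h2 : ((e⁻¹ : (stabilizer G a ⊓ stabilizer G b : Subgroup G)) : G) = (e : G)⁻¹ := rfl
    have h3 : t * (e : G) = (e : G)⁻¹ * t := by rw [← h1]; group
    rw [← hτ _ hmx, ← e_pt, ← mul_smul, h3, mul_smul, hτ x hx, ← h2, e_pt, map_inv, Units.val_inv_eq_inv_val]
  have Tneg : ∀ x, x ≠ 0 → τ (-x) = -τ x := by
    intro x hx
    have h1 := T1 ⟨z, hzE⟩ x hx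
    rw [hmz] at h1
    simpa using h1
  have hone : τ 1 = 1 := by
    apply C.pt_inj
    rw [← hτ 1 one_ne_zero, ht1]
  have TS : ∀ e : (stabilizer G a ⊓ stabilizer G b : Subgroup G), τ (C.m e : K) = (C.m e : K)⁻¹ := by
    intro e
    have h1 := T1 e 1 one_ne_zero
    rwa [mul_one, hone, mul_one] at h1
  -- the basic relation
  have R : ∀ u y : K, u ≠ 0 → y ≠ 0 → y + u ≠ 0 →
      τ (y + u) - τ u = -(τ u / u) * τ (τ y + τ u) ∧ τ y + τ u ≠ 0 := by
    intro u y hu hy hyu
    have hw0 : τ y + τ u ≠ 0 := by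
      intro h
      have h1 : τ y = τ (-u) := by rw [Tneg u hu]; linear_combination h
      have h2 := T2 y hy
      rw [h1, T2 (-u) (neg_ne_zero.mpr hu)] at h2
      apply hyu
      rw [← h2]; ring
    refine ⟨?_, hw0⟩
    let k : G := t * C.hx (-τ u) * t * C.hx u * t
    have hk : ∀ c : Ω, k • c = t • C.hx (-τ u) • t • C.hx u • t • c := by
      intro c
      show (t * C.hx (-τ u) * t * C.hx u * t) • c = _
      simp only [mul_smul]
    have hka : k • a = a := by
      rw [hk, hta, hτ u hu, hx_pt, neg_add_cancel, pt_zero, htb]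
    have hkb : k • b = C.hx (-u) • b := by
      rw [hk, htb, C.hx_a, hta, hτ _ (neg_ne_zero.mpr (hτ0 u hu)), Tneg _ (hτ0 u hu), T2 u hu]
    have he : C.hx u * k ∈ (stabilizer G a ⊓ stabilizer G b : Subgroup G) := by
      rw [mem_two]
      constructor
      · rw [mul_smul, hka, C.hx_a]
      · rw [mul_smul, hkb, hx_pt, add_neg_cancel, pt_zero]
    obtain ⟨s, hs⟩ : ∃ s : K, s = (C.m ⟨C.hx u * k, he⟩ : K) := ⟨_, rfl⟩
    have hs0 : s ≠ 0 := by rw [hs]; exact Units.ne_zero _
    have hept : ∀ x : K, C.hx u • k • C.hx x • b = C.hx (s * x) • b := by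
      intro x
      rw [← mul_smul, hs]
      exact e_pt C ⟨C.hx u * k, he⟩ x
    have h1 := hept (τ (-u))
    rw [hk, hτ _ (hτ0 _ (neg_ne_zero.mpr hu)), T2 _ (neg_ne_zero.mpr hu), hx_pt, add_neg_cancel, pt_zero, htb, C.hx_a, hta]
      at h1
    have h2 := C.pt_inj _ _ h1
    rw [Tneg u hu] at h2
    have h3 := hept (τ y)
    rw [hk, hτ _ (hτ0 _ hy), T2 _ hy, hx_pt, add_comm u y, hτ _ hyu, hx_pt] at h3
    have h4 : t • C.hx (-τ u + τ (y + u)) • b = C.hx (s * (τ y + τ u)) • b := by
      have h5 : C.hx (-u) • C.hx u • t • C.hx (-τ u + τ (y + u)) • b = C.hx (-u) • C.hx (s * τ y) • b := by rw [h3]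
      rw [hx_pt, ← mul_smul, ← C.hx_add, neg_add_cancel, hx_zero, one_smul] at h5
      rw [h5]
      congr 2
      linear_combination -h2
    have h6 : C.hx (-τ u + τ (y + u)) • b = C.hx (s⁻¹ * τ (τ y + τ u)) • b := by
      have h7 := T1 ⟨C.hx u * k, he⟩ (τ y + τ u) hw0
      rw [← hs] at h7
      rw [← h7, ← hτ _ (mul_ne_zero hs0 hw0), ← h4, htt]
    have h8 := C.pt_inj _ _ h6
    have hτu := hτ0 u hu
    have h9 : s⁻¹ = -(τ u / u) := by
      field_simp
      linear_combination h2
    rw [← h9]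
    linear_combination h8
  -- index two
  have hidx := range_index C hZ hab hh hK
  have hS : ∀ x y : Kˣ, x ∉ C.m.range → y ∉ C.m.range → x * y⁻¹ ∈ C.m.range := by
    intro x y hx hy
    rw [Subgroup.mul_mem_iff_of_index_two hidx]
    constructor
    · exact fun h => absurd h hx
    · exact fun h => absurd (by simpa using inv_mem h) hy
  obtain ⟨ν, hν⟩ : ∃ ν : Kˣ, ν ∉ C.m.range := by
    by_contra h
    push Not at h
    have : C.m.range = ⊤ := by
      rw [eq_top_iff]
      exact fun x _ => h x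
    rw [this, Subgroup.index_top] at hidx
    omega
  obtain ⟨δ, hδ⟩ : ∃ δ : K, δ = ν * τ ν := ⟨_, rfl⟩
  have hν0 : (ν : K) ≠ 0 := ν.ne_zero
  have hδ0 : δ ≠ 0 := by rw [hδ]; exact mul_ne_zero hν0 (hτ0 _ hν0)
  have TN : ∀ x : Kˣ, x ∉ C.m.range → τ x = δ * (x : K)⁻¹ := by
    intro x hx
    obtain ⟨e, he⟩ := hS x ν hx hν
    have h1 : (x : K) = (C.m e : K) * ν := by
      rw [he, Units.val_mul, Units.val_inv_eq_inv_val]
      field_simp
    rw [h1, T1 e ν hν0, hδ]
    field_simp
  have Tall : ∀ x : K, x ≠ 0 → τ x = x⁻¹ ∨ τ x = δ * x⁻¹ := by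
    intro x hx
    by_cases h : Units.mk0 x hx ∈ C.m.range
    · obtain ⟨e, he⟩ := h
      left
      have h1 : (C.m e : K) = x := by rw [he]; rfl
      rw [← h1, TS]
    · right
      exact TN (Units.mk0 x hx) h
  have hδ1 : δ = 1 := by
    have hν1 : (ν : K) + 1 ≠ 0 := by
      intro h
      apply hν
      refine ⟨⟨z, hzE⟩, Units.ext ?_⟩
      rw [hmz]
      linear_combination -h
    obtain ⟨h1, h2⟩ := R 1 ν one_ne_zero hν0 hν1
    obtain ⟨h3, -⟩ := R ν 1 hν0 one_ne_zero (by rw [add_comm]; exact hν1)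
    have h4 := TN ν hν
    rw [hone] at h1 h2 h3
    rw [add_comm 1 (ν : K), add_comm 1 (τ ν)] at h3
    obtain ⟨T, hT⟩ : ∃ T, T = τ (τ ν + 1) := ⟨_, rfl⟩
    rw [← hT] at h1 h3
    have h5 : τ ν - 1 = (τ ν / ν - 1) * T := by linear_combination h1 - h3
    rw [h4] at h5 h2
    have h6 : T * (δ * (ν : K)⁻¹ + 1) = 1 ∨ T * (δ * (ν : K)⁻¹ + 1) = δ := by
      rcases Tall (τ ν + 1) (by rw [h4]; exact h2) with h | h
      · left
        rw [hT, h, h4, inv_mul_cancel₀ h2]
      · right
        rw [hT, h, h4, mul_assoc, inv_mul_cancel₀ h2, mul_one]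
    have h7 : (δ * (ν : K)⁻¹ - 1) * (δ * (ν : K)⁻¹ + 1) =
        (δ * (ν : K)⁻¹ / ν - 1) * (T * (δ * (ν : K)⁻¹ + 1)) := by
      rw [h5]; ring
    rcases h6 with h | h
    · rw [h] at h7
      field_simp at h7
      have h8 : δ * (δ - 1) = 0 := by linear_combination h7
      rcases mul_eq_zero.mp h8 with h9 | h9
      · exact absurd h9 hδ0
      · linear_combination h9
    · rw [h] at h7
      field_simp at h7
      have h8 : (ν : K) ^ 2 * (δ - 1) = 0 := by linear_combination h7
      rcases mul_eq_zero.mp h8 with h9 | h9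
      · exact absurd h9 (pow_ne_zero 2 hν0)
      · linear_combination h9
  intro x hx
  rcases Tall x hx with h | h
  · exact h
  · rw [h, hδ1, one_mul]

end tau

section ident

open Matrix OnePoint

variable {G Ω K : Type*} [Group G] [Finite G] [MulAction G Ω] [Fintype Ω] [Field K] [Fintype K] [DecidableEq K] {a b : Ω}

/-- the bijection from the projective line -/
def th (C : Coord G Ω K a b) (p : OnePoint K) : Ω := p.elim a (fun x => C.hx x • b)

theorem th_infty (C : Coord G Ω K a b) : th C ∞ = a := rfl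
theorem th_coe (C : Coord G Ω K a b) (x : K) : th C (x : OnePoint K) = C.hx x • b := rfl

theorem th_surj (C : Coord G Ω K a b) (c : Ω) : ∃ p, th C p = c := by
  by_cases hc : c = a
  · exact ⟨∞, hc.symm⟩
  · obtain ⟨x, hx⟩ := C.pt_surj c hc
    exact ⟨(x : OnePoint K), hx⟩

theorem th_inj (C : Coord G Ω K a b) (hab : a ≠ b) : Function.Injective (th C) := by
  intro p q h
  induction p using OnePoint.rec with
  | infty =>
    induction q using OnePoint.rec with
    | infty => rfl
    | coe y => exact absurd h.symm (pt_ne C hab y)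
  | coe x =>
    induction q using OnePoint.rec with
    | infty => exact absurd h (pt_ne C hab x)
    | coe y => rw [C.pt_inj x y h]

/-- `A` and `g` act in the same way -/
def RelA (C : Coord G Ω K a b) (g : G) (A : SpecialLinearGroup (Fin 2) K) : Prop :=
  ∀ p : OnePoint K, g • th C p = th C ((SpecialLinearGroup.toGL A : GL (Fin 2) K) • p)

theorem relA_mul (C : Coord G Ω K a b) {g g' : G} {A A' : SpecialLinearGroup (Fin 2) K} (h : RelA C g A)
    (h' : RelA C g' A') : RelA C (g * g') (A * A') := by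
  intro p
  rw [mul_smul, h' p, h, map_mul, mul_smul]

theorem relA_one (C : Coord G Ω K a b) : RelA C 1 1 := by
  intro p
  rw [one_smul, map_one, one_smul]

theorem relA_inv (C : Coord G Ω K a b) {g : G} {A : SpecialLinearGroup (Fin 2) K} (h : RelA C g A) :
    RelA C g⁻¹ A⁻¹ := by
  intro p
  rw [inv_smul_eq_iff, h, map_inv, smul_inv_smul]

theorem toGL_entry (A : SpecialLinearGroup (Fin 2) K) (i j : Fin 2) :
    (SpecialLinearGroup.toGL A : GL (Fin 2) K) i j = A i j := rfl

theorem relA_U (C : Coord G Ω K a b) (y : K) : RelA C (C.hx y) (Cfsg.Agent.Lib.SL2Hom.U y) := by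
  obtain ⟨h00, h01, h10, h11⟩ := Cfsg.Agent.Lib.SL2Hom.U_entries y
  intro p
  induction p using OnePoint.rec with
  | infty =>
    rw [smul_infty_eq_ite, toGL_entry, toGL_entry, h10, if_pos rfl, th_infty, C.hx_a]
  | coe x =>
    rw [smul_some_eq_ite, toGL_entry, toGL_entry, toGL_entry, toGL_entry, h00, h01, h10, h11, zero_mul, zero_add,
      if_neg one_ne_zero, th_coe, ← mul_smul, ← C.hx_add, one_mul, div_one, th_coe, add_comm]

theorem relA_W (C : Coord G Ω K a b) {n : G} (hna : n • a = b) (hnb : n • b = a)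
    (hn : ∀ x : K, x ≠ 0 → n • C.hx x • b = C.hx (-x⁻¹) • b) : RelA C n Cfsg.Agent.Lib.SL2Hom.W := by
  obtain ⟨h00, h01, h10, h11⟩ := Cfsg.Agent.Lib.SL2Hom.W_entries (F := K)
  intro p
  induction p using OnePoint.rec with
  | infty =>
    rw [smul_infty_eq_ite, toGL_entry, toGL_entry, h10, if_neg (neg_ne_zero.mpr one_ne_zero), h00, zero_div, th_infty,
      th_coe, hna, pt_zero]
  | coe x =>
    rw [smul_some_eq_ite, toGL_entry, toGL_entry, toGL_entry, toGL_entry, h00, h01, h10, h11, th_coe]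
    by_cases hx : x = 0
    · rw [hx, mul_zero, add_zero, if_pos rfl, th_infty, pt_zero, hnb]
    · rw [if_neg (by rw [add_zero, neg_one_mul]; exact neg_ne_zero.mpr hx), th_coe, hn x hx]
      congr 2
      rw [zero_mul, zero_add, add_zero, neg_one_mul, div_neg, one_div]

theorem relA_unique (C : Coord G Ω K a b) (hZ : IsZassenhausGroup G Ω) {g g' : G} {A : SpecialLinearGroup (Fin 2) K}
    (h : RelA C g A) (h' : RelA C g' A) : g = g' := by
  haveI := hZ.1
  apply FaithfulSMul.eq_of_smul_eq_smul (α := Ω)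
  intro c
  obtain ⟨p, rfl⟩ := th_surj C c
  rw [h, h']

theorem relA_center (C : Coord G Ω K a b) (hab : a ≠ b) (A : SpecialLinearGroup (Fin 2) K) :
    RelA C 1 A ↔ A ∈ Subgroup.center (SpecialLinearGroup (Fin 2) K) := by
  rw [Matrix.SpecialLinearGroup.mem_center_iff]
  constructor
  · intro h
    have h1 : ∀ p : OnePoint K, (SpecialLinearGroup.toGL A : GL (Fin 2) K) • p = p := by
      intro p
      apply th_inj C hab
      rw [← h p, one_smul]
    have hdet := Cfsg.Agent.Lib.SL2Hom.det_eq A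
    have hinf := h1 ∞
    rw [smul_infty_eq_ite, toGL_entry, toGL_entry] at hinf
    have h10 : A 1 0 = 0 := by
      by_contra hne
      rw [if_neg hne] at hinf
      exact OnePoint.coe_ne_infty _ hinf
    rw [h10, mul_zero, sub_zero] at hdet
    have h11 : A 1 1 ≠ 0 := right_ne_zero_of_mul (by rw [hdet]; exact one_ne_zero)
    have hx : ∀ x : K, (A 0 0 * x + A 0 1) / A 1 1 = x := by
      intro x
      have h2 := h1 (x : OnePoint K)
      rw [smul_some_eq_ite, toGL_entry, toGL_entry, toGL_entry, toGL_entry, h10, zero_mul, zero_add, if_neg h11] at h2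
      exact OnePoint.coe_injective h2
    have h01 : A 0 1 = 0 := by
      have h2 := hx 0
      rw [mul_zero, zero_add, div_eq_zero_iff] at h2
      exact h2.resolve_right h11
    have h00 : A 0 0 = A 1 1 := by
      have h2 := hx 1
      rw [h01, mul_one, add_zero, div_eq_one_iff_eq h11] at h2
      exact h2
    refine ⟨A 0 0, ?_, ?_⟩
    · rw [Fintype.card_fin, pow_two]
      nth_rw 2 [h00]
      exact hdet
    · ext i j
      fin_cases i <;> fin_cases j
      · simp
      · simp [h01]
      · simp [h10]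
      · simp [h00]
  · rintro ⟨r, hr, hA⟩ p
    have h00 : A 0 0 = r := by rw [← hA]; simp
    have h01 : A 0 1 = 0 := by rw [← hA]; simp
    have h10 : A 1 0 = 0 := by rw [← hA]; simp
    have h11 : A 1 1 = r := by rw [← hA]; simp
    have hr0 : r ≠ 0 := by
      rintro rfl
      rw [Fintype.card_fin] at hr
      simp at hr
    rw [one_smul]
    induction p using OnePoint.rec with
    | infty => rw [smul_infty_eq_ite, toGL_entry, toGL_entry, h10, if_pos rfl]
    | coe x =>
      rw [smul_some_eq_ite, toGL_entry, toGL_entry, toGL_entry, toGL_entry, h00, h01, h10, h11, zero_mul, zero_add,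
        if_neg hr0, add_zero, mul_div_cancel_left₀ x hr0]

/-- identification with `PSL(2, K)` -/
theorem ident (C : Coord G Ω K a b) (hZ : IsZassenhausGroup G Ω) (hab : a ≠ b)
    (hh : 2 * Nat.card (stabilizer G a ⊓ stabilizer G b : Subgroup G) + 2 = Fintype.card Ω)
    (hK : Fintype.card K + 1 = Fintype.card Ω) {n : G} (hna : n • a = b) (hnb : n • b = a)
    (hn : ∀ x : K, x ≠ 0 → n • C.hx x • b = C.hx (-x⁻¹) • b) :
    Nonempty (G ≃* ProjectiveSpecialLinearGroup (Fin 2) K) := by
  classical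
  have hex : ∀ A : SpecialLinearGroup (Fin 2) K, ∃ g : G, RelA C g A := by
    let S : Subgroup (SpecialLinearGroup (Fin 2) K) :=
      { carrier := {A | ∃ g : G, RelA C g A}
        mul_mem' := by
          rintro A B ⟨g, hg⟩ ⟨h, hh⟩
          exact ⟨g * h, relA_mul C hg hh⟩
        one_mem' := ⟨1, relA_one C⟩
        inv_mem' := by
          rintro A ⟨g, hg⟩
          exact ⟨g⁻¹, relA_inv C hg⟩ }
    have hS := Cfsg.Agent.Lib.SL2Hom.closure_eq_top S (fun y => ⟨C.hx y, relA_U C y⟩) ⟨n, relA_W C hna hnb hn⟩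
    intro A
    have : A ∈ S := by rw [hS]; exact Subgroup.mem_top A
    exact this
  choose f hf using hex
  let φ : SpecialLinearGroup (Fin 2) K →* G :=
    { toFun := f
      map_one' := relA_unique C hZ (hf 1) (relA_one C)
      map_mul' := fun A B => relA_unique C hZ (hf (A * B)) (relA_mul C (hf A) (hf B)) }
  have hker : φ.ker = Subgroup.center (SpecialLinearGroup (Fin 2) K) := by
    ext A
    rw [← relA_center C hab, MonoidHom.mem_ker]
    constructor
    · intro h
      have h1 := hf A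
      have h2 : f A = 1 := h
      rwa [h2] at h1
    · intro h
      exact relA_unique C hZ (hf A) h
  have hcardSL := Cfsg.Agent.Lib.SL2.card_SL2 (F := K)
  have hcardZ := Cfsg.Agent.Lib.GLSL.card_center_SL (F := K) 2 (by norm_num)
  obtain ⟨e, he⟩ : ∃ e, e = Nat.card (stabilizer G a ⊓ stabilizer G b : Subgroup G) := ⟨_, rfl⟩
  obtain ⟨q, hq⟩ : ∃ q, q = Fintype.card K := ⟨_, rfl⟩
  have hqe : q = 2 * e + 1 := by omega
  have hgcd : Nat.gcd 2 (q - 1) = 2 := by
    rw [hqe]
    simp
  rw [← hq] at hcardSL hcardZ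
  rw [hgcd] at hcardZ
  have hG := card_group hZ hab
  rw [← he, ← hK, ← hq] at hG
  have hrange : Nat.card φ.range = Nat.card G := by
    have h1 := φ.ker.card_mul_index
    rw [Subgroup.index_ker, hker, hcardZ, hcardSL] at h1
    rw [← hG]
    have h2 : 2 * Nat.card φ.range = 2 * ((q + 1) * (q + 1 - 1) * e) := by
      rw [h1, hqe]
      simp only [Nat.add_sub_cancel]
      ring
    omega
  have hsurj : Function.Surjective φ := by
    rw [← MonoidHom.range_eq_top]
    exact Subgroup.eq_top_of_card_eq _ hrange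
  exact ⟨((QuotientGroup.quotientMulEquivOfEq hker.symm).trans (QuotientGroup.quotientKerEquivOfSurjective φ hsurj)).symm⟩

end ident

section main

open Matrix

variable {G Ω : Type*} [Group G] [Finite G] [MulAction G Ω] [Fintype Ω]

theorem main (hZ : IsZassenhausGroup G Ω) {a b : Ω} (hab : a ≠ b)
    (heven : Even (Nat.card (stabilizer G a ⊓ stabilizer G b : Subgroup G)))
    (hh : 2 * Nat.card (stabilizer G a ⊓ stabilizer G b : Subgroup G) + 2 = Fintype.card Ω) :
    ∃ (K : Type) (_ : Field K) (_ : Fintype K), Fintype.card K + 1 = Fintype.card Ω ∧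
      Nonempty (G ≃* ProjectiveSpecialLinearGroup (Fin 2) K) := by
  classical
  obtain ⟨K, hKf, hKt, C, hK⟩ := exists_coord hZ hab heven hh
  refine ⟨K, hKf, hKt, hK, ?_⟩
  obtain ⟨t, ht, hta, htb, ht1⟩ := exists_invol_swap hZ hab heven (c := C.hx 1 • b) (pt_ne C hab 1)
    (pt_ne_b C one_ne_zero)
  obtain ⟨τ, hτ, hτ0⟩ := exists_tau C hab hta htb
  have hinv := tau_eq C hZ hab heven hh hK ht hta htb ht1 hτ hτ0
  obtain ⟨z, hz, hza, hzb⟩ := exists_z heven
  have hzE : z ∈ (stabilizer G a ⊓ stabilizer G b : Subgroup G) := mem_two.mpr ⟨hza, hzb⟩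
  apply ident C hZ hab hh hK (n := t * z)
  · rw [mul_smul, hza, hta]
  · rw [mul_smul, hzb, htb]
  · intro x hx
    have h1 := e_pt C ⟨z, hzE⟩ x
    rw [m_z C hZ hab hz hzE, neg_one_mul] at h1
    have h2 : z • C.hx x • b = C.hx (-x) • b := h1
    rw [mul_smul, h2, hτ _ (neg_ne_zero.mpr hx), hinv _ (neg_ne_zero.mpr hx), inv_neg]

end main

end

end Cfsg.Agent.Lib.ZassField
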