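import Cfsg.Agent.Lib.ZassChar
import Cfsg.Agent.Lib.Nilp

set_option autoImplicit false

namespace Cfsg.Agent.Lib.ZassInv

open Cfsg MulAction Cfsg.Agent.Lib.Zass Cfsg.Agent.Lib.ZassChar

noncomputable section

section swap

variable {G Ω : Type*} [Group G] [Finite G] [MulAction G Ω] [Fintype Ω]

theorem mem_two {G Ω : Type*} [Group G] [MulAction G Ω] {x : G} {a b : Ω} :
    x ∈ (stabilizer G a ⊓ stabilizer G b : Subgroup G) ↔ x • a = a ∧ x • b = b := Iff.rfl

theorem card_two (hZ : IsZassenhausGroup G Ω) {a b c d : Ω} (hab : a ≠ b) (hcd : c ≠ d) :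
    Nat.card (stabilizer G c ⊓ stabilizer G d : Subgroup G) =
      Nat.card (stabilizer G a ⊓ stabilizer G b : Subgroup G) := by
  have h2 := card_group hZ hab
  have h3 := card_group hZ hcd
  have h4 := two_lt hZ hab
  rw [← h3] at h2
  exact (Nat.eq_of_mul_eq_mul_left (Nat.mul_pos (by omega) (by omega)) h2).symm

/-- a swapping element is an involution -/
theorem swap_sq (hZ : IsZassenhausGroup G Ω) {a b : Ω} (hab : a ≠ b)
    (hodd : Odd (Nat.card (stabilizer G a ⊓ stabilizer G b : Subgroup G))) (hG : commutator G = ⊤)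
    {t : G} (hta : t • a = b) (htb : t • b = a) : t * t = 1 := by
  have h1 : t * t ∈ (stabilizer G a ⊓ stabilizer G b : Subgroup G) :=
    mem_two.mpr ⟨by rw [mul_smul, hta, htb], by rw [mul_smul, htb, hta]⟩
  have h2 := (inverts hZ hab hodd hG hta htb).2 _ h1
  have h3 : (t * t) ^ 2 = 1 := by
    have h4 : t * (t * t) * t⁻¹ = t * t := by group
    rw [h4] at h2
    rw [pow_two]; nth_rw 1 [h2]; exact inv_mul_cancel _
  have h4 : (⟨t * t, h1⟩ : (stabilizer G a ⊓ stabilizer G b : Subgroup G)) ^ 2 = 1 := Subtype.ext h3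
  have h5 : orderOf (⟨t * t, h1⟩ : (stabilizer G a ⊓ stabilizer G b : Subgroup G)) ∣ Nat.gcd 2
      (Nat.card (stabilizer G a ⊓ stabilizer G b : Subgroup G)) :=
    Nat.dvd_gcd (orderOf_dvd_of_pow_eq_one h4) (orderOf_dvd_natCard _)
  rw [Nat.Coprime.gcd_eq_one (Nat.coprime_two_left.mpr hodd), Nat.dvd_one, orderOf_eq_one_iff] at h5
  exact congrArg Subtype.val h5

theorem swap_order (hZ : IsZassenhausGroup G Ω) {a b : Ω} (hab : a ≠ b)
    (hodd : Odd (Nat.card (stabilizer G a ⊓ stabilizer G b : Subgroup G))) (hG : commutator G = ⊤)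
    {t : G} (hta : t • a = b) (htb : t • b = a) : orderOf t = 2 := by
  apply orderOf_eq_prime
  · rw [pow_two]; exact swap_sq hZ hab hodd hG hta htb
  · rintro rfl
    rw [one_smul] at hta
    exact hab hta

theorem invol_mul {x : G} (hx : orderOf x = 2) : x * x = 1 := by
  rw [← pow_two, ← hx, pow_orderOf_eq_one]

theorem invol_ne {x : G} (hx : orderOf x = 2) : x ≠ 1 := by
  rintro rfl; simp at hx

theorem invol_inv {x : G} (hx : orderOf x = 2) : x⁻¹ = x := inv_eq_of_mul_eq_one_left (invol_mul hx)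

theorem card_swap (hZ : IsZassenhausGroup G Ω) {a b : Ω} (hab : a ≠ b)
    (hodd : Odd (Nat.card (stabilizer G a ⊓ stabilizer G b : Subgroup G))) (hG : commutator G = ⊤) :
    Nat.card {x : G // orderOf x = 2 ∧ x • a = b} = Nat.card (stabilizer G a ⊓ stabilizer G b : Subgroup G) := by
  obtain ⟨t, hta, htb⟩ := exists_swap hZ hab
  apply Nat.card_congr
  refine
    { toFun := fun x => ⟨t * x.1, ?_⟩
      invFun := fun y => ⟨t⁻¹ * y.1, ?_⟩
      left_inv := fun x => Subtype.ext (by simp)
      right_inv := fun y => Subtype.ext (by simp) }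
  · have h1 : x.1 • b = a := by
      have h2 := x.2.2
      rw [← invol_inv x.2.1, inv_smul_eq_iff]
      exact h2.symm
    exact mem_two.mpr ⟨by rw [mul_smul, x.2.2, htb], by rw [mul_smul, h1, hta]⟩
  · have h1 : (t⁻¹ * y.1) • a = b := by
      rw [mul_smul, mem_stabilizer_iff.mp y.2.1, inv_smul_eq_iff, htb]
    have h2 : (t⁻¹ * y.1) • b = a := by
      rw [mul_smul, mem_stabilizer_iff.mp y.2.2, inv_smul_eq_iff, hta]
    exact ⟨swap_order hZ hab hodd hG h1 h2, h1⟩

theorem odd_sqrt {K : Type*} [Group K] {x : K} {e : ℕ} (hodd : Odd e) (hx : x ^ e = 1) : ∃ k : ℕ, (x ^ k) * (x ^ k) = x := by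
  obtain ⟨m, rfl⟩ := hodd
  refine ⟨m + 1, ?_⟩
  rw [← pow_add]
  have : m + 1 + (m + 1) = (2 * m + 1) + 1 := by ring
  rw [this, pow_succ, hx, one_mul]

theorem conj_swap (hZ : IsZassenhausGroup G Ω) {a b : Ω} (hab : a ≠ b)
    (hodd : Odd (Nat.card (stabilizer G a ⊓ stabilizer G b : Subgroup G))) (hG : commutator G = ⊤)
    {t s : G} (hta : t • a = b) (htb : t • b = a) (hsa : s • a = b) (hsb : s • b = a) : IsConj t s := by
  have hE : t⁻¹ * s ∈ (stabilizer G a ⊓ stabilizer G b : Subgroup G) :=
    mem_two.mpr ⟨by rw [mul_smul, hsa, inv_smul_eq_iff, hta], by rw [mul_smul, hsb, inv_smul_eq_iff, htb]⟩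
  have hx : (t⁻¹ * s) ^ Nat.card (stabilizer G a ⊓ stabilizer G b : Subgroup G) = 1 := by
    have h3 : (⟨t⁻¹ * s, hE⟩ : (stabilizer G a ⊓ stabilizer G b : Subgroup G)) ^
        Nat.card (stabilizer G a ⊓ stabilizer G b : Subgroup G) = 1 := pow_card_eq_one'
    have := congrArg Subtype.val h3
    simpa using this
  obtain ⟨k, hk⟩ := odd_sqrt hodd hx
  have hy : (t⁻¹ * s) ^ k ∈ (stabilizer G a ⊓ stabilizer G b : Subgroup G) := pow_mem hE k
  rw [isConj_iff]
  refine ⟨((t⁻¹ * s) ^ k)⁻¹, ?_⟩
  have h1 := (inverts hZ hab hodd hG (t := t⁻¹) (by rw [inv_smul_eq_iff, htb]) (by rw [inv_smul_eq_iff, hta])).2 _ hy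
  rw [inv_inv] at h1
  generalize hz : (t⁻¹ * s) ^ k = z at *
  calc z⁻¹ * t * z⁻¹⁻¹ = t * (t⁻¹ * z * t)⁻¹ * z := by group
    _ = t * (z * z) := by rw [h1]; group
    _ = s := by rw [hk]; group

/-- an involution moves some point -/
theorem invol_moves (hZ : IsZassenhausGroup G Ω) {x : G} (hx : orderOf x = 2) : ∃ c : Ω, c ≠ x • c := by
  by_contra h
  push Not at h
  haveI := hZ.1
  apply invol_ne hx
  apply FaithfulSMul.eq_of_smul_eq_smul (α := Ω)
  intro c
  rw [one_smul, ← h c]

/-- all involutions are conjugate -/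
theorem invol_conj (hZ : IsZassenhausGroup G Ω) {a b : Ω} (hab : a ≠ b)
    (hodd : Odd (Nat.card (stabilizer G a ⊓ stabilizer G b : Subgroup G))) (hG : commutator G = ⊤)
    {x y : G} (hx : orderOf x = 2) (hy : orderOf y = 2) : IsConj x y := by
  obtain ⟨c, hc⟩ := invol_moves hZ hx
  obtain ⟨d, hd⟩ := invol_moves hZ hy
  have h2 := hZ.2.1
  rw [MulAction.is_two_pretransitive_iff] at h2
  obtain ⟨g, hg1, hg2⟩ := h2 hc hd
  have h3 : IsConj x (g * x * g⁻¹) := isConj_iff.mpr ⟨g, rfl⟩
  have h4 : (g * x * g⁻¹) • d = y • d := by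
    rw [mul_smul, mul_smul, ← hg1, inv_smul_smul, hg2, hg1]
  have h5 : (g * x * g⁻¹) • (y • d) = d := by
    rw [← hg2, mul_smul, mul_smul, inv_smul_smul, ← mul_smul x x, invol_mul hx, one_smul, hg1]
  have h6 : y • (y • d) = d := by rw [← mul_smul, invol_mul hy, one_smul]
  exact h3.trans (conj_swap hZ hd (by rw [card_two hZ hab hd]; exact hodd) hG h4 h5 rfl h6)

/-- an involution fixes at most one point -/
theorem invol_fix (hZ : IsZassenhausGroup G Ω) {a b : Ω} (hab : a ≠ b)
    (hodd : Odd (Nat.card (stabilizer G a ⊓ stabilizer G b : Subgroup G)))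
    {x : G} (hx : orderOf x = 2) {c d : Ω} (hc : x • c = c) (hd : x • d = d) : c = d := by
  by_contra hcd
  have h1 : orderOf (⟨x, mem_two.mpr ⟨hc, hd⟩⟩ : (stabilizer G c ⊓ stabilizer G d : Subgroup G)) ∣
      Nat.card (stabilizer G c ⊓ stabilizer G d : Subgroup G) := orderOf_dvd_natCard _
  rw [card_two hZ hab hcd, Subgroup.orderOf_mk, hx] at h1
  exact absurd (even_iff_two_dvd.mpr h1) (Nat.not_even_iff_odd.mpr hodd)

/-- number of fixed points of an involution -/
theorem card_fix_invol (hZ : IsZassenhausGroup G Ω) {a b : Ω} (hab : a ≠ b)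
    (hodd : Odd (Nat.card (stabilizer G a ⊓ stabilizer G b : Subgroup G)))
    {x : G} (hx : orderOf x = 2) : Nat.card {c : Ω // x • c = c} = if Odd (Fintype.card Ω) then 1 else 0 := by
  classical
  have h1 : Nat.card {c : Ω // x • c = c} ≤ 1 := by
    rw [Finite.card_le_one_iff_subsingleton]
    exact ⟨fun c d => Subtype.ext (invol_fix hZ hab hodd hx c.2 d.2)⟩
  have h2 : Nat.card {c : Ω // x • c = c} ≡ Fintype.card Ω [MOD 2] := by
    haveI : Fact (Nat.Prime 2) := ⟨Nat.prime_two⟩
    have hp : IsPGroup 2 (Subgroup.zpowers x) := IsPGroup.of_card (n := 1) (by rw [Nat.card_zpowers, hx, pow_one])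
    have h3 := hp.card_modEq_card_fixedPoints Ω
    rw [Nat.card_eq_fintype_card] at h3
    have h4 : Nat.card (MulAction.fixedPoints (Subgroup.zpowers x) Ω) = Nat.card {c : Ω // x • c = c} := by
      apply Nat.card_congr
      refine Equiv.subtypeEquivRight (fun c => ?_)
      rw [MulAction.mem_fixedPoints]
      constructor
      · intro h
        exact h ⟨x, Subgroup.mem_zpowers x⟩
      · rintro h ⟨g, hg⟩
        rw [Subgroup.mem_zpowers_iff] at hg
        obtain ⟨k, rfl⟩ := hg
        exact (Subgroup.zpow_mem (stabilizer G c) (show x ∈ stabilizer G c from h) k)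
    rw [h4] at h3
    exact h3.symm
  split_ifs with ho
  · rw [Nat.odd_iff] at ho
    have : Nat.card {c : Ω // x • c = c} % 2 = 1 := by rw [h2]; exact ho
    omega
  · rw [Nat.not_odd_iff] at ho
    have : Nat.card {c : Ω // x • c = c} % 2 = 0 := by rw [h2]; exact ho
    omega

/-- number of involutions -/
theorem card_invol (hZ : IsZassenhausGroup G Ω) {a b : Ω} (hab : a ≠ b)
    (hodd : Odd (Nat.card (stabilizer G a ⊓ stabilizer G b : Subgroup G))) (hG : commutator G = ⊤) :
    Nat.card {x : G // orderOf x = 2} = Nat.card (stabilizer G a ⊓ stabilizer G b : Subgroup G) *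
      (if Odd (Fintype.card Ω) then Fintype.card Ω else Fintype.card Ω - 1) := by
  classical
  have hn := two_lt hZ hab
  have h1 : ∀ x : {x : G // orderOf x = 2}, Nat.card {c : Ω // c ≠ x.1 • c} =
      Fintype.card Ω - (if Odd (Fintype.card Ω) then 1 else 0) := by
    intro x
    rw [← card_fix_invol hZ hab hodd x.2, Nat.card_eq_fintype_card, Nat.card_eq_fintype_card]
    rw [← Fintype.card_subtype_compl]
    exact Fintype.card_congr (Equiv.subtypeEquivRight (fun c => by rw [ne_comm]))
  have h2 : Nat.card (Σ x : {x : G // orderOf x = 2}, {c : Ω // c ≠ x.1 • c}) =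
      Nat.card (Σ q : {q : Ω × Ω // q.1 ≠ q.2}, {x : G // orderOf x = 2 ∧ x • q.1.1 = q.1.2}) := by
    apply Nat.card_congr
    exact
      { toFun := fun p => ⟨⟨(p.2.1, p.1.1 • p.2.1), p.2.2⟩, ⟨p.1.1, p.1.2, rfl⟩⟩
        invFun := fun p => ⟨⟨p.2.1, p.2.2.1⟩, ⟨p.1.1.1, by rw [p.2.2.2]; exact p.1.2⟩⟩
        left_inv := fun p => rfl
        right_inv := by
          rintro ⟨⟨⟨c, d⟩, hcd⟩, x, hx, hxc⟩
          change x • c = d at hxc
          subst hxc
          rfl }
  haveI : Fintype {x : G // orderOf x = 2} := Fintype.ofFinite _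
  haveI : Fintype {q : Ω × Ω // q.1 ≠ q.2} := Fintype.ofFinite _
  rw [Nat.card_sigma, Nat.card_sigma] at h2
  rw [Finset.sum_congr rfl (fun x _ => h1 x), Finset.sum_const, Finset.sum_congr rfl (fun q _ =>
    (card_swap hZ q.2 (by rw [card_two hZ hab q.2]; exact hodd) hG).trans (card_two hZ hab q.2)), Finset.sum_const,
    smul_eq_mul, smul_eq_mul, Finset.card_univ, Finset.card_univ] at h2
  have h3 : Fintype.card {q : Ω × Ω // q.1 ≠ q.2} = Fintype.card Ω * (Fintype.card Ω - 1) := by
    have h4 : Fintype.card {q : Ω × Ω // q.1 ≠ q.2} = (Finset.univ : Finset Ω).offDiag.card := by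
      rw [Fintype.card_subtype]
      congr 1
      ext q
      simp
    rw [h4, Finset.offDiag_card, Finset.card_univ, Nat.mul_sub_one]
  rw [h3, ← Nat.card_eq_fintype_card] at h2
  generalize Nat.card {x : G // orderOf x = 2} = I at *
  generalize Nat.card (stabilizer G a ⊓ stabilizer G b : Subgroup G) = e at *
  generalize Fintype.card Ω = n at *
  split_ifs at h2 ⊢ with ho
  · have : 0 < n - 1 := by omega
    apply Nat.eq_of_mul_eq_mul_right this
    rw [h2]; ring
  · rw [Nat.sub_zero] at h2
    have : 0 < n := by omega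
    apply Nat.eq_of_mul_eq_mul_right this
    rw [h2]; ring

end swap
noncomputable section

section ker

variable {G Ω : Type*} [Group G] [Finite G] [MulAction G Ω] [Fintype Ω]

theorem perfect' (hZ : IsZassenhausGroup G Ω) {a b : Ω} (hab : a ≠ b) [IsSimpleGroup G] : commutator G = ⊤ := by
  haveI := Fintype.ofFinite G
  exact perfect hZ hab

theorem kernel_struct (hZ : IsZassenhausGroup G Ω) {a b : Ω} (hab : a ≠ b) (H : Subgroup G)
    (hHa : H ≤ stabilizer G a) (hHcard : Nat.card H + 1 = Fintype.card Ω)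
    (hHfix : ∀ u ∈ H, u ≠ 1 → ∀ c : Ω, u • c = c → c = a) :
    (H.subgroupOf (stabilizer G a)).Normal ∧ Group.IsNilpotent H := by
  have hF := frob_compl hZ hab
  obtain ⟨N, hN, hNn, hnil⟩ := S0042.result _ hF
  have h1 : H.subgroupOf (stabilizer G a) = N := by
    apply SetLike.ext'
    rw [kernel_eq hZ hab H hHa hHcard hHfix, hN]
  rw [← h1] at hNn hnil
  refine ⟨hNn, ?_⟩
  exact (Group.isNilpotent_congr (Subgroup.subgroupOfEquivOfLe hHa)).mp hnil

theorem invol_stab (hZ : IsZassenhausGroup G Ω) {a b : Ω} (hab : a ≠ b) (H : Subgroup G)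
    (hHa : H ≤ stabilizer G a) (hHcard : Nat.card H + 1 = Fintype.card Ω)
    (hHfix : ∀ u ∈ H, u ≠ 1 → ∀ c : Ω, u • c = c → c = a)
    (hodd : Odd (Nat.card (stabilizer G a ⊓ stabilizer G b : Subgroup G)))
    {x : G} (hx : orderOf x = 2) (hxa : x • a = a) : x ∈ H := by
  by_contra h
  obtain ⟨c, hac, hc⟩ := fix_of_not_mem hZ hab H hHa hHcard hHfix hxa h
  exact hac (invol_fix hZ hab hodd hx hxa hc)

theorem exists_central_invol {K : Type*} [Group K] [Finite K] [Group.IsNilpotent K] (h2 : 2 ∣ Nat.card K) :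
    ∃ z ∈ Subgroup.center K, orderOf z = 2 := by
  haveI : Fact (Nat.Prime 2) := ⟨Nat.prime_two⟩
  obtain ⟨P⟩ : Nonempty (Sylow 2 K) := inferInstance
  have hPn : (P : Subgroup K).Normal := inferInstance
  have hP : (P : Subgroup K) ≠ ⊥ := by
    intro h
    have h3 := P.dvd_card_of_dvd_card h2
    rw [show Nat.card P = 1 from by
      change Nat.card (P : Subgroup K) = 1
      rw [h]; exact Subgroup.card_bot] at h3
    omega
  have h3 := Cfsg.Agent.Lib.Nilp.normal_inf_center_ne_bot (P : Subgroup K) hP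
  have h4 : IsPGroup 2 ((P : Subgroup K) ⊓ Subgroup.center K : Subgroup K) := P.2.to_le inf_le_left
  haveI : Nontrivial ((P : Subgroup K) ⊓ Subgroup.center K : Subgroup K) := (Subgroup.nontrivial_iff_ne_bot _).mpr h3
  have h5 : 2 ∣ Nat.card ((P : Subgroup K) ⊓ Subgroup.center K : Subgroup K) := by
    obtain ⟨n, hn, hc⟩ := (IsPGroup.nontrivial_iff_card h4).mp inferInstance
    rw [hc]
    exact dvd_pow_self 2 hn.ne'
  obtain ⟨z, hz⟩ := exists_prime_orderOf_dvd_card' 2 h5
  refine ⟨z, z.2.2, ?_⟩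
  rw [Subgroup.orderOf_coe]
  exact hz

theorem invol_central (hZ : IsZassenhausGroup G Ω) {a b : Ω} (hab : a ≠ b) (H : Subgroup G)
    (hHa : H ≤ stabilizer G a) (hHcard : Nat.card H + 1 = Fintype.card Ω)
    (hHfix : ∀ u ∈ H, u ≠ 1 → ∀ c : Ω, u • c = c → c = a)
    (hodd : Odd (Nat.card (stabilizer G a ⊓ stabilizer G b : Subgroup G))) (hG : commutator G = ⊤)
    {x : G} (hx : orderOf x = 2) (hxH : x ∈ H) {u : G} (hu : u ∈ H) : u * x = x * u := by
  obtain ⟨hn, hnil⟩ := kernel_struct hZ hab H hHa hHcard hHfix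
  have h2 : 2 ∣ Nat.card H := by
    have h3 : orderOf (⟨x, hxH⟩ : H) ∣ Nat.card H := orderOf_dvd_natCard _
    rwa [Subgroup.orderOf_mk, hx] at h3
  obtain ⟨z, hzc, hz⟩ := exists_central_invol h2
  have hzG : orderOf (z : G) = 2 := by rw [Subgroup.orderOf_coe]; exact hz
  obtain ⟨g, hg⟩ := isConj_iff.mp (invol_conj hZ hab hodd hG hzG hx)
  have hza : (z : G) • a = a := hHa z.2
  have hga : g • a = a := by
    apply invol_fix hZ hab hodd hx _ (hHa hxH)
    rw [← hg, mul_smul, mul_smul, inv_smul_smul, hza]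
  have hgL : g ∈ stabilizer G a := hga
  have h3 : g⁻¹ * u * g ∈ H := by
    have h4 := hn.conj_mem ⟨u, hHa hu⟩ (Subgroup.mem_subgroupOf.mpr hu) (⟨g, hgL⟩⁻¹)
    rw [Subgroup.mem_subgroupOf] at h4
    simpa using h4
  have h5 : (⟨_, h3⟩ : H) * z = z * ⟨_, h3⟩ := (Subgroup.mem_center_iff.mp hzc _)
  have h6 : g⁻¹ * u * g * z = z * (g⁻¹ * u * g) := congrArg Subtype.val h5
  rw [← hg]
  calc u * (g * z * g⁻¹) = g * (g⁻¹ * u * g * z) * g⁻¹ := by group
    _ = g * (z * (g⁻¹ * u * g)) * g⁻¹ := by rw [h6]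
    _ = g * z * g⁻¹ * u := by group

/-- if a product of two involutions fixes exactly the point `a`, both involutions fix `a` -/
theorem prod_fix {x y u : G} (hx : orderOf x = 2) (hy : orderOf y = 2) (hxy : x * y = u) {a : Ω}
    (hua : u • a = a) (hu : ∀ c : Ω, u • c = c → c = a) : x • a = a ∧ y • a = a := by
  have hi : u⁻¹ • a = a := by rw [inv_smul_eq_iff, hua]
  have h1 : x • a = a := by
    apply hu
    have h2 : u * x = x * u⁻¹ := by
      rw [← hxy, mul_inv_rev, invol_inv hx, invol_inv hy]; group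
    rw [← mul_smul, h2, mul_smul, hi]
  refine ⟨h1, ?_⟩
  have h3 : y = x * u := by rw [← hxy, ← mul_assoc, invol_mul hx, one_mul]
  rw [h3, mul_smul, hua, h1]

theorem prod_invol (hZ : IsZassenhausGroup G Ω) {a b : Ω} (hab : a ≠ b) (H : Subgroup G)
    (hHa : H ≤ stabilizer G a) (hHcard : Nat.card H + 1 = Fintype.card Ω)
    (hHfix : ∀ u ∈ H, u ≠ 1 → ∀ c : Ω, u • c = c → c = a)
    (hodd : Odd (Nat.card (stabilizer G a ⊓ stabilizer G b : Subgroup G))) (hG : commutator G = ⊤)
    {u x y : G} (hu : u ∈ H) (hu1 : u ≠ 1) (hx : orderOf x = 2) (hy : orderOf y = 2) (hxy : x * y = u) :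
    orderOf u = 2 ∧ x ∈ H ∧ y ∈ H := by
  obtain ⟨hxa, hya⟩ := prod_fix hx hy hxy (hHa hu) (fun c hc => hHfix u hu hu1 c hc)
  have hxH := invol_stab hZ hab H hHa hHcard hHfix hodd hx hxa
  have hyH := invol_stab hZ hab H hHa hHcard hHfix hodd hy hya
  refine ⟨?_, hxH, hyH⟩
  apply orderOf_eq_prime _ hu1
  have h1 := invol_central hZ hab H hHa hHcard hHfix hodd hG hx hxH hyH
  rw [pow_two, ← hxy]
  calc x * y * (x * y) = x * (y * x) * y := by group
    _ = (x * x) * (y * y) := by rw [h1]; group
    _ = 1 := by rw [invol_mul hx, invol_mul hy, one_mul]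

end ker

end
noncomputable section

section cls

open Classical in
/-- counting conjugacy classes in a conjugation-stable set -/
theorem sum_centralizer_cls {G : Type*} [Group G] [Fintype G] (P : ConjClasses G → Prop) :
    ∑ g : G, (if P (ConjClasses.mk g) then Nat.card (Subgroup.centralizer ({g} : Set G)) else 0) =
      Nat.card {C : ConjClasses G // P C} * Nat.card G := by
  haveI : Fintype (ConjClasses G) := Fintype.ofFinite _
  have h1 : ∑ g : G, (if P (ConjClasses.mk g) then Nat.card (Subgroup.centralizer ({g} : Set G)) else 0) =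
      ∑ C : ConjClasses G, ∑ g ∈ Finset.univ.filter (fun g : G => ConjClasses.mk g = C),
        (if P (ConjClasses.mk g) then Nat.card (Subgroup.centralizer ({g} : Set G)) else 0) := by
    rw [Finset.sum_fiberwise]
  rw [h1]
  have h2 : ∀ C : ConjClasses G, ∑ g ∈ Finset.univ.filter (fun g : G => ConjClasses.mk g = C),
        (if P (ConjClasses.mk g) then Nat.card (Subgroup.centralizer ({g} : Set G)) else 0) =
      if P C then Nat.card G else 0 := by
    intro C
    obtain ⟨x, rfl⟩ := ConjClasses.mk_surjective C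
    by_cases hP : P (ConjClasses.mk x)
    · rw [if_pos hP]
      have h3 : ∀ g ∈ Finset.univ.filter (fun g : G => ConjClasses.mk g = ConjClasses.mk x),
          (if P (ConjClasses.mk g) then Nat.card (Subgroup.centralizer ({g} : Set G)) else 0) =
            Nat.card (Subgroup.centralizer ({x} : Set G)) := by
        intro g hg
        have hg' : ConjClasses.mk g = ConjClasses.mk x := (Finset.mem_filter.mp hg).2
        rw [hg', if_pos hP]
        have h4 := card_cls g
        have h5 := card_cls x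
        have h6 : Nat.card {y : G // IsConj g y} = Nat.card {y : G // IsConj x y} := by
          apply Nat.card_congr
          refine Equiv.subtypeEquivRight (fun y => ?_)
          have h7 : IsConj g x := ConjClasses.mk_eq_mk_iff_isConj.mp hg'
          exact ⟨fun h => h7.symm.trans h, fun h => h7.trans h⟩
        rw [h6, ← h5] at h4
        haveI : Nonempty {y : G // IsConj x y} := ⟨⟨x, IsConj.refl x⟩⟩
        exact Nat.eq_of_mul_eq_mul_left Nat.card_pos h4
      rw [Finset.sum_congr rfl h3, Finset.sum_const, smul_eq_mul, ← card_cls x]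
      congr 1
      rw [← Fintype.card_subtype, ← Nat.card_eq_fintype_card]
      apply Nat.card_congr
      refine Equiv.subtypeEquivRight (fun y => ?_)
      rw [ConjClasses.mk_eq_mk_iff_isConj]
      exact ⟨fun h => h.symm, fun h => h.symm⟩
    · rw [if_neg hP]
      apply Finset.sum_eq_zero
      intro g hg
      rw [(Finset.mem_filter.mp hg).2, if_neg hP]
  rw [Finset.sum_congr rfl (fun C _ => h2 C), Finset.sum_ite, Finset.sum_const_zero, add_zero, Finset.sum_const,
    smul_eq_mul, ← Fintype.card_subtype, ← Nat.card_eq_fintype_card]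

/-- the number of ways of writing `g` as a product of two involutions is at most the order of the centralizer -/
theorem pairs_le {G : Type*} [Group G] [Finite G] (g : G) :
    Nat.card {x : G // orderOf x = 2 ∧ orderOf (x * g) = 2} ≤ Nat.card (Subgroup.centralizer ({g} : Set G)) := by
  by_cases hne : Nonempty {x : G // orderOf x = 2 ∧ orderOf (x * g) = 2}
  · obtain ⟨⟨x, hx, hxg⟩⟩ := hne
    have key : ∀ y : G, orderOf y = 2 → orderOf (y * g) = 2 → y * g * y = g⁻¹ := by
      intro y hy hyg
      have h1 := invol_mul hyg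
      rw [eq_inv_iff_mul_eq_one, ← h1]; group
    apply Nat.card_le_card_of_injective (fun y : {x : G // orderOf x = 2 ∧ orderOf (x * g) = 2} =>
      (⟨x * y.1, by
        rw [Subgroup.mem_centralizer_singleton_iff]
        have h2 := key y.1 y.2.1 y.2.2
        have h3 := key x hx hxg
        have h4 : y.1 * g = g⁻¹ * y.1 := by
          rw [← h2, mul_assoc _ y.1 y.1, invol_mul y.2.1, mul_one]
        have h5 : x * g⁻¹ = g * x := by
          rw [← h3, ← mul_assoc, ← mul_assoc, invol_mul hx, one_mul]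
        rw [mul_assoc, h4, ← mul_assoc, h5, mul_assoc]⟩ : Subgroup.centralizer ({g} : Set G)))
    intro y z hyz
    apply Subtype.ext
    have := congrArg Subtype.val hyz
    exact mul_left_cancel this
  · rw [not_nonempty_iff] at hne
    rw [Nat.card_of_isEmpty]
    exact Nat.zero_le _

theorem sum_pairs {G : Type*} [Group G] [Fintype G] :
    ∑ g : G, Nat.card {x : G // orderOf x = 2 ∧ orderOf (x * g) = 2} = Nat.card {x : G // orderOf x = 2} ^ 2 := by
  rw [← Nat.card_sigma, pow_two, ← Nat.card_prod]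
  apply Nat.card_congr
  exact
    { toFun := fun p => (⟨p.2.1, p.2.2.1⟩, ⟨p.2.1 * p.1, p.2.2.2⟩)
      invFun := fun p => ⟨p.1.1⁻¹ * p.2.1, ⟨p.1.1, p.1.2, by rw [mul_inv_cancel_left]; exact p.2.2⟩⟩
      left_inv := by
        rintro ⟨g, x, hx, hxg⟩
        simp only [Sigma.mk.injEq]
        have h1 : x⁻¹ * (x * g) = g := by group
        refine ⟨h1, ?_⟩
        congr 1
        · funext y; rw [h1]
        · exact proof_irrel_heq _ _
      right_inv := by
        rintro ⟨⟨x, hx⟩, ⟨y, hy⟩⟩
        simp }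

variable {G Ω : Type*} [Group G] [Finite G] [MulAction G Ω] [Fintype Ω]

/-- number of involutions fixing a given point, odd degree -/
theorem card_invol_fix (hZ : IsZassenhausGroup G Ω) {a b : Ω} (hab : a ≠ b)
    (hodd : Odd (Nat.card (stabilizer G a ⊓ stabilizer G b : Subgroup G))) (hG : commutator G = ⊤)
    (hn : Odd (Fintype.card Ω)) :
    Nat.card {x : G // orderOf x = 2 ∧ x • a = a} = Nat.card (stabilizer G a ⊓ stabilizer G b : Subgroup G) := by
  classical
  haveI := pretransitive hZ
  have h1 : ∀ c : Ω, Nat.card {x : G // orderOf x = 2 ∧ x • c = c} = Nat.card {x : G // orderOf x = 2 ∧ x • a = a} := by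
    intro c
    obtain ⟨g, rfl⟩ := MulAction.exists_smul_eq G a c
    apply Nat.card_congr
    refine (Equiv.subtypeEquiv (MulAut.conj g).toEquiv (fun x => ?_)).symm
    change _ ↔ orderOf (g * x * g⁻¹) = 2 ∧ (g * x * g⁻¹) • g • a = g • a
    rw [mul_smul, mul_smul, inv_smul_smul, smul_left_cancel_iff]
    have h2 : orderOf (g * x * g⁻¹) = orderOf x := by
      have := (MulAut.conj g).orderOf_eq x
      simpa using this
    rw [h2]
  have h2 : Nat.card (Σ x : {x : G // orderOf x = 2}, {c : Ω // x.1 • c = c}) =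
      Nat.card (Σ c : Ω, {x : G // orderOf x = 2 ∧ x • c = c}) := by
    apply Nat.card_congr
    exact
      { toFun := fun p => ⟨p.2.1, ⟨p.1.1, p.1.2, p.2.2⟩⟩
        invFun := fun p => ⟨⟨p.2.1, p.2.2.1⟩, ⟨p.1, p.2.2.2⟩⟩
        left_inv := fun p => rfl
        right_inv := fun p => rfl }
  haveI : Fintype {x : G // orderOf x = 2} := Fintype.ofFinite _
  rw [Nat.card_sigma, Nat.card_sigma] at h2
  rw [Finset.sum_congr rfl (fun x _ => (card_fix_invol hZ hab hodd x.2).trans (if_pos hn)), Finset.sum_const,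
    Finset.sum_congr rfl (fun c _ => h1 c), Finset.sum_const, smul_eq_mul, smul_eq_mul, mul_one, Finset.card_univ,
    Finset.card_univ, ← Nat.card_eq_fintype_card, card_invol hZ hab hodd hG, if_pos hn, mul_comm] at h2
  have := (two_lt hZ hab).2
  exact (Nat.eq_of_mul_eq_mul_left (by omega) h2).symm

theorem card_ne_add_one {A : Type*} [Finite A] {P : A → Prop} {y : A} (hy : P y) :
    Nat.card {x : A // P x ∧ x ≠ y} + 1 = Nat.card {x : A // P x} := by
  classical
  haveI := Fintype.ofFinite A
  rw [Nat.card_eq_fintype_card, Nat.card_eq_fintype_card, Fintype.card_subtype, Fintype.card_subtype]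
  have h1 : (Finset.univ.filter fun x => P x ∧ x ≠ y) = (Finset.univ.filter P).erase y := by
    ext x; simp [and_comm]
  rw [h1, Finset.card_erase_add_one (by simp [hy])]

open Classical in
/-- **S0884 core** -/
theorem classes_avoiding (hZ : IsZassenhausGroup G Ω) {a b : Ω} (hab : a ≠ b) (H : Subgroup G)
    (hHa : H ≤ stabilizer G a) (hHcard : Nat.card H + 1 = Fintype.card Ω)
    (hHfix : ∀ u ∈ H, u ≠ 1 → ∀ c : Ω, u • c = c → c = a)
    (hodd : Odd (Nat.card (stabilizer G a ⊓ stabilizer G b : Subgroup G))) (hG : commutator G = ⊤)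
    (hlt : Nat.card (stabilizer G a ⊓ stabilizer G b : Subgroup G) + 1 < Fintype.card Ω) :
    Nat.card (stabilizer G a ⊓ stabilizer G b : Subgroup G) ≤
      Nat.card {C : ConjClasses G // ∀ g : G, ConjClasses.mk g = C → g ∉ H} := by
  haveI := Fintype.ofFinite G
  obtain ⟨P, hP⟩ : ∃ P : ConjClasses G → Prop, ∀ C, (∀ g : G, ConjClasses.mk g = C → g ∉ H) ↔ P C :=
    ⟨fun C => ∀ g : G, ConjClasses.mk g = C → g ∉ H, fun C => Iff.rfl⟩
  have hcls := sum_centralizer_cls (G := G) P
  rw [Nat.card_congr (Equiv.subtypeEquivRight hP)]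
  have hpairs := sum_pairs (G := G)
  have hn2 := two_lt hZ hab
  -- bound for elements meeting `H`
  set I := Nat.card {x : G // orderOf x = 2} with hI
  set e := Nat.card (stabilizer G a ⊓ stabilizer G b : Subgroup G) with he
  set k := Nat.card {C : ConjClasses G // P C} with hk
  let N : G → ℕ := fun g => Nat.card {x : G // orderOf x = 2 ∧ orderOf (x * g) = 2}
  have hNG : ∀ g : G, N g ≤ (if P (ConjClasses.mk g) then
      Nat.card (Subgroup.centralizer ({g} : Set G)) else 0) + (if g = 1 then I else 0) +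
      (if Odd (Fintype.card Ω) ∧ orderOf g = 2 then e - 1 else 0) := by
    intro g
    by_cases h1 : P (ConjClasses.mk g)
    · rw [if_pos h1]
      have := pairs_le g
      change Nat.card _ ≤ _
      omega
    · rw [if_neg h1, zero_add]
      by_cases hg1 : g = 1
      · subst hg1
        rw [if_pos rfl]
        have h2 : N 1 = I := by
          apply Nat.card_congr
          refine Equiv.subtypeEquivRight (fun x => ?_)
          rw [mul_one, and_self]
        rw [h2]; exact Nat.le_add_right _ _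
      · rw [if_neg hg1, zero_add]
        rw [← hP] at h1
        push Not at h1
        obtain ⟨y, hy, hyH⟩ := h1
        obtain ⟨s, hs⟩ := isConj_iff.mp (ConjClasses.mk_eq_mk_iff_isConj.mp hy).symm
        have hy1 : y ≠ 1 := by
          rintro rfl
          apply hg1
          have : g = s⁻¹ * (s * g * s⁻¹) * s := by group
          rw [this, hs]; group
        have hos : ∀ z : G, orderOf (s * z * s⁻¹) = orderOf z := by
          intro z
          have := (MulAut.conj s).orderOf_eq z
          simpa using this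
        have key : ∀ x : G, orderOf x = 2 → orderOf (x * g) = 2 → Odd (Fintype.card Ω) ∧ orderOf g = 2 ∧
            (s * x * s⁻¹) • a = a ∧ s * x * s⁻¹ ≠ y := by
          intro x hx hxg
          have h3 : (s * x * s⁻¹) * (s * (x * g) * s⁻¹) = y := by
            rw [← hs]
            calc _ = s * (x * x) * g * s⁻¹ := by group
              _ = _ := by rw [invol_mul hx, mul_one]
          obtain ⟨h4, h5, h6⟩ := prod_invol hZ hab H hHa hHcard hHfix hodd hG hyH hy1 ((hos x).trans hx)
            ((hos (x * g)).trans hxg) h3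
          have h7 : (s * x * s⁻¹) • a = a := hHa h5
          have h8 := card_fix_invol hZ hab hodd ((hos x).trans hx)
          have h9 : Odd (Fintype.card Ω) := by
            by_contra h10
            rw [if_neg h10] at h8
            haveI : Nonempty {c : Ω // (s * x * s⁻¹) • c = c} := ⟨⟨a, h7⟩⟩
            exact Nat.card_pos.ne' h8
          refine ⟨h9, ?_, h7, ?_⟩
          · rw [← hos g, hs]; exact h4
          · intro h11
            have h12 : s * (x * g) * s⁻¹ = 1 := by
              rw [h11] at h3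
              exact mul_eq_left.mp h3
            have h13 : x * g = 1 := by
              have : x * g = s⁻¹ * (s * (x * g) * s⁻¹) * s := by group
              rw [this, h12]; group
            rw [h13] at hxg
            simp at hxg
        by_cases hemp : Nonempty {x : G // orderOf x = 2 ∧ orderOf (x * g) = 2}
        · obtain ⟨⟨x, hx, hxg⟩⟩ := hemp
          obtain ⟨hno, hg2, -, -⟩ := key x hx hxg
          rw [if_pos ⟨hno, hg2⟩]
          have hy2 : orderOf y = 2 := by rw [← hs, hos]; exact hg2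
          have h3 := card_invol_fix hZ hab hodd hG hno
          have h4 : Nat.card {x : G // (orderOf x = 2 ∧ x • a = a) ∧ x ≠ y} + 1 =
              Nat.card {x : G // orderOf x = 2 ∧ x • a = a} :=
            card_ne_add_one (P := fun x : G => orderOf x = 2 ∧ x • a = a) ⟨hy2, hHa hyH⟩
          have h5 : N g ≤ Nat.card {x : G // (orderOf x = 2 ∧ x • a = a) ∧ x ≠ y} := by
            apply Nat.card_le_card_of_injective (fun x : {x : G // orderOf x = 2 ∧ orderOf (x * g) = 2} =>
              (⟨s * x.1 * s⁻¹, ⟨⟨(hos x.1).trans x.2.1, (key x.1 x.2.1 x.2.2).2.2.1⟩, (key x.1 x.2.1 x.2.2).2.2.2⟩⟩ :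
                {x : G // (orderOf x = 2 ∧ x • a = a) ∧ x ≠ y}))
            intro u v huv
            apply Subtype.ext
            have := congrArg Subtype.val huv
            exact mul_left_cancel (mul_right_cancel this)
          omega
        · rw [not_nonempty_iff] at hemp
          change Nat.card _ ≤ _
          rw [Nat.card_of_isEmpty]
          exact Nat.zero_le _
  have hsum := Finset.sum_le_sum (fun g (_ : g ∈ Finset.univ) => hNG g)
  rw [hpairs, Finset.sum_add_distrib, Finset.sum_add_distrib, hcls, Finset.sum_ite_eq' Finset.univ (1 : G),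
    if_pos (Finset.mem_univ _)] at hsum
  have h3 : ∑ g : G, (if Odd (Fintype.card Ω) ∧ orderOf g = 2 then e - 1 else 0) =
      if Odd (Fintype.card Ω) then I * (e - 1) else 0 := by
    by_cases ho : Odd (Fintype.card Ω)
    · simp only [ho, true_and, if_true]
      rw [Finset.sum_ite, Finset.sum_const_zero, add_zero, Finset.sum_const, smul_eq_mul, ← Fintype.card_subtype,
        ← Nat.card_eq_fintype_card]
    · simp [ho]
  rw [h3] at hsum
  have hcI := card_invol hZ hab hodd hG
  rw [← hI, ← he] at hcI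
  have hcG := card_group hZ hab
  rw [← he] at hcG
  rw [← hcG, hcI] at hsum
  have he1 := hn2.1
  obtain ⟨n, hn⟩ : ∃ n, Fintype.card Ω = n + 1 := ⟨Fintype.card Ω - 1, by omega⟩
  obtain ⟨f, hf⟩ : ∃ f, e = f + 1 := ⟨e - 1, by omega⟩
  rw [hn, hf] at hsum hlt
  rw [hf]
  by_contra hlt2
  push Not at hlt2
  have hkf : k ≤ f := by omega
  split_ifs at hsum with ho
  · simp only [Nat.add_sub_cancel] at hsum
    have h5 : k * ((n + 1) * n * (f + 1)) ≤ f * ((n + 1) * n * (f + 1)) := Nat.mul_le_mul_right _ hkf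
    have h6 : 0 < n := by omega
    nlinarith [mul_pos (mul_pos (Nat.succ_pos n) h6) (Nat.succ_pos f)]
  · simp only [Nat.add_sub_cancel, add_zero] at hsum
    have h5 : k * ((n + 1) * n * (f + 1)) ≤ f * ((n + 1) * n * (f + 1)) := Nat.mul_le_mul_right _ hkf
    have h6 : f + 1 < n := by omega
    have h7 : 0 < n * (f + 1) := Nat.mul_pos (by omega) (Nat.succ_pos f)
    have h8 : ((f + 1) * n) ^ 2 ≤ f * ((n + 1) * n * (f + 1)) + (f + 1) * n := by omega
    have h9 : (n * (f + 1)) * ((f + 1) * n) ≤ (n * (f + 1)) * (f * (n + 1) + 1) := by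
      calc (n * (f + 1)) * ((f + 1) * n) = ((f + 1) * n) ^ 2 := by ring
        _ ≤ _ := h8
        _ = _ := by ring
    have h10 := Nat.le_of_mul_le_mul_left h9 h7
    nlinarith

end cls

end

end

end Cfsg.Agent.Lib.ZassInv
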