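import Cfsg.Agent.Lib.ZassInv

set_option autoImplicit false

namespace Cfsg.Agent.Lib.ZassNorm

open Cfsg MulAction Cfsg.Agent.Lib.Zass Cfsg.Agent.Lib.ZassChar Cfsg.Agent.Lib.ZassInv

noncomputable section

section trans

variable {G Ω : Type*} [Group G] [MulAction G Ω]

/-- nontrivial normal subgroups of a faithful doubly transitive group are transitive -/
theorem normal_trans [FaithfulSMul G Ω] (h2 : MulAction.IsMultiplyPretransitive G Ω 2) (N : Subgroup G) [N.Normal]
    (hN : N ≠ ⊥) : MulAction.IsPretransitive N Ω := by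
  haveI := isPreprimitive_of_is_two_pretransitive h2
  apply IsQuasiPreprimitive.isPretransitive_of_normal
  intro h
  apply hN
  rw [eq_bot_iff]
  intro x hx
  rw [Subgroup.mem_bot]
  apply FaithfulSMul.eq_of_smul_eq_smul (α := Ω)
  intro c
  rw [one_smul]
  have h1 : c ∈ fixedPoints N Ω := by rw [h]; exact Set.mem_univ c
  exact h1 ⟨x, hx⟩

theorem two_trans (hZ : IsZassenhausGroup G Ω) {a b c d : Ω} (hab : a ≠ b) (hcd : c ≠ d) :
    ∃ g : G, g • a = c ∧ g • b = d := by
  obtain ⟨-, h2, -, -, -⟩ := hZ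
  rw [MulAction.is_two_pretransitive_iff] at h2
  exact h2 hab hcd

end trans

section finite

variable {G Ω : Type*} [Group G] [Finite G] [MulAction G Ω] [Fintype Ω]

/-- the regular kernel of a point stabilizer -/
theorem exists_H (hZ : IsZassenhausGroup G Ω) {a b : Ω} (hab : a ≠ b) :
    ∃ H : Subgroup G, H ≤ stabilizer G a ∧ Nat.card H + 1 = Fintype.card Ω ∧
      ∀ u ∈ H, u ≠ 1 → ∀ c : Ω, u • c = c → c = a := by
  have hF := frob_compl hZ hab
  obtain ⟨N, hN, hNn, hnil⟩ := S0042.result _ hF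
  have hcard := Cfsg.Agent.Lib.Frob.card_kernel (H := (stabilizer G b).subgroupOf (stabilizer G a)) hF.2.2
  rw [← hN] at hcard
  have hidx := S0878.index_eq hZ hab
  have hn := two_lt hZ hab
  refine ⟨N.map (stabilizer G a).subtype, Subgroup.map_subtype_le N, ?_, ?_⟩
  · have h1 : Nat.card (N.map (stabilizer G a).subtype) = Nat.card N :=
      Subgroup.card_map_of_injective Subtype.val_injective
    have h2 : Nat.card N = ((stabilizer G b).subgroupOf (stabilizer G a)).index := hcard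
    rw [h1, h2]
    omega
  · rintro u hu hu1 c hc
    obtain ⟨v, hv, rfl⟩ := Subgroup.mem_map.mp hu
    by_contra hca
    have hv1 : v ≠ 1 := by rintro rfl; exact hu1 rfl
    have h3 : v ∈ frobeniusKernel ((stabilizer G b).subgroupOf (stabilizer G a)) := by rw [← hN]; exact hv
    rcases h3 with h3 | h3
    · exact hv1 h3
    obtain ⟨g, hga, hgb⟩ := two_trans hZ hab (Ne.symm hca)
    apply h3 ⟨g, hga⟩
    rw [Cfsg.Agent.Lib.SchurZas.mem_conj_smul_iff, Subgroup.mem_subgroupOf]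
    change (g⁻¹ * (v : G) * g) • b = b
    rw [mul_smul, mul_smul, hgb, inv_smul_eq_iff, hgb]
    exact hc

/-- the kernel is transitive on the remaining points -/
theorem H_trans {a : Ω} (H : Subgroup G) (hHa : H ≤ stabilizer G a) (hHcard : Nat.card H + 1 = Fintype.card Ω)
    (hHfix : ∀ u ∈ H, u ≠ 1 → ∀ c : Ω, u • c = c → c = a) {c d : Ω} (hc : c ≠ a) (hd : d ≠ a) :
    ∃ u ∈ H, u • c = d := by
  classical
  have hmap : ∀ u : H, u.1 • c ≠ a := by
    intro u h
    apply hc
    have h1 : u.1 • a = a := hHa u.2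
    exact MulAction.injective u.1 (h.trans h1.symm)
  let f : H → {x : Ω // x ≠ a} := fun u => ⟨u.1 • c, hmap u⟩
  have hinj : Function.Injective f := by
    intro u v huv
    have h1 : u.1 • c = v.1 • c := congrArg Subtype.val huv
    by_contra hne
    have h2 : (v.1⁻¹ * u.1) • c = c := by rw [mul_smul, h1, inv_smul_smul]
    exact hc (hHfix _ (mul_mem (inv_mem v.2) u.2) (fun h => hne (Subtype.ext (inv_mul_eq_one.mp h).symm)) c h2)
  have hcard : Nat.card {x : Ω // x ≠ a} = Nat.card H := by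
    have h1 := card_ne_add_one (A := Ω) (P := fun _ => True) (y := a) trivial
    have h2 : Nat.card {x : Ω // True ∧ x ≠ a} = Nat.card {x : Ω // x ≠ a} :=
      Nat.card_congr (Equiv.subtypeEquivRight fun x => by simp)
    have h3 : Nat.card {x : Ω // True} = Fintype.card Ω := by
      rw [← Nat.card_eq_fintype_card]
      exact Nat.card_congr (Equiv.subtypeUnivEquiv fun _ => trivial)
    omega
  have hsurj : Function.Surjective f := by
    have hbij : Function.Bijective f := by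
      rw [Nat.bijective_iff_injective_and_card]
      exact ⟨hinj, hcard.symm⟩
    exact hbij.2
  obtain ⟨u, hu⟩ := hsurj ⟨d, hd⟩
  exact ⟨u.1, u.2, congrArg Subtype.val hu⟩

/-- a nontrivial normal subgroup contains a nonidentity element with two fixed points -/
theorem normal_two (hZ : IsZassenhausGroup G Ω) {a b : Ω} (hab : a ≠ b) (N : Subgroup G) [hNn : N.Normal] (hN : N ≠ ⊥) :
    ∃ x ∈ N, x ≠ 1 ∧ x • a = a ∧ x • b = b := by
  by_contra hcon
  push Not at hcon
  haveI := hZ.1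
  haveI hNt : IsPretransitive N Ω := normal_trans hZ.2.1 N hN
  haveI hGt : IsPretransitive G Ω := pretransitive hZ
  have hn := two_lt hZ hab
  -- no two fixed points at all
  have hno : ∀ x ∈ N, x ≠ 1 → ∀ c d : Ω, c ≠ d → x • c = c → x • d = d → False := by
    intro x hx hx1 c d hcd hc hd
    obtain ⟨g, hga, hgb⟩ := two_trans hZ hab hcd
    apply hcon (g⁻¹ * x * g) (by have := hNn.conj_mem x hx g⁻¹; rwa [inv_inv] at this)
    · intro h
      apply hx1
      have : x = g * (g⁻¹ * x * g) * g⁻¹ := by group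
      rw [this, h]; group
    · rw [mul_smul, mul_smul, hga, hc, inv_smul_eq_iff, hga]
    · rw [mul_smul, mul_smul, hgb, hd, inv_smul_eq_iff, hgb]
  obtain ⟨a₀, ha₀⟩ := hZ.2.2.2.2 N hNn hNt
  have hNa : stabilizer N a ≠ ⊥ := by
    obtain ⟨g, hg⟩ := MulAction.exists_smul_eq G a a₀
    rw [Subgroup.ne_bot_iff_exists_ne_one] at ha₀ ⊢
    obtain ⟨⟨⟨x, hx⟩, hxa⟩, hx1⟩ := ha₀
    have hxa' : x • a₀ = a₀ := hxa
    refine ⟨⟨⟨g⁻¹ * x * g, by have := hNn.conj_mem x hx g⁻¹; rwa [inv_inv] at this⟩, ?_⟩, ?_⟩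
    · change (g⁻¹ * x * g) • a = a
      rw [mul_smul, mul_smul, hg, hxa', inv_smul_eq_iff, hg]
    · intro h
      apply hx1
      have h1 : g⁻¹ * x * g = 1 := congrArg Subtype.val (congrArg Subtype.val h)
      apply Subtype.ext
      apply Subtype.ext
      change x = 1
      have : x = g * (g⁻¹ * x * g) * g⁻¹ := by group
      rw [this, h1]; group
  have hF : IsFrobeniusComplement (stabilizer N a) := by
    refine ⟨hNa, ?_, ?_⟩
    · intro h
      obtain ⟨g, hg⟩ := MulAction.exists_smul_eq N a b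
      have h1 : g ∈ stabilizer N a := by rw [h]; exact Subgroup.mem_top g
      exact hab (h1.symm.trans hg)
    · intro g hg
      rw [eq_bot_iff]
      intro x hx
      obtain ⟨h1, h2⟩ := Subgroup.mem_inf.mp hx
      rw [Cfsg.Agent.Lib.SchurZas.mem_conj_smul_iff] at h2
      rw [Subgroup.mem_bot]
      by_contra hx1
      have h3 : (g⁻¹ * x * g) • a = a := h2
      rw [mul_smul, mul_smul, inv_smul_eq_iff] at h3
      exact hno x.1 x.2 (fun h => hx1 (Subtype.ext h)) a (g • a) (fun h => hg h.symm) h1 h3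
  obtain ⟨M, hM, hMn, -⟩ := S0042.result _ hF
  have hcard := Cfsg.Agent.Lib.Frob.card_kernel (H := stabilizer N a) hF.2.2
  rw [← hM] at hcard
  have hMcard : Nat.card M = Fintype.card Ω := by
    have h1 : Nat.card M = (stabilizer N a).index := hcard
    rw [h1, index_stabilizer_of_transitive, Nat.card_eq_fintype_card]
  have hMmem : ∀ x : N, x ∈ M ↔ x = 1 ∨ ∀ c : Ω, x • c ≠ c := by
    intro x
    have h1 : x ∈ M ↔ x ∈ frobeniusKernel (stabilizer N a) := by rw [← hM]; exact Iff.rfl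
    rw [h1]
    constructor
    · rintro (h | h)
      · exact Or.inl h
      · right
        intro c hc
        obtain ⟨g, hg⟩ := MulAction.exists_smul_eq N a c
        apply h g
        rw [Cfsg.Agent.Lib.SchurZas.mem_conj_smul_iff, mem_stabilizer_iff, mul_smul, mul_smul, hg, hc, inv_smul_eq_iff, hg]
    · rintro (h | h)
      · exact Or.inl h
      · right
        intro g hg
        rw [Cfsg.Agent.Lib.SchurZas.mem_conj_smul_iff, mem_stabilizer_iff, mul_smul, mul_smul, inv_smul_eq_iff] at hg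
        exact h _ hg
  let M' : Subgroup G := M.map N.subtype
  have hM'mem : ∀ x : G, x ∈ M' ↔ x ∈ N ∧ (x = 1 ∨ ∀ c : Ω, x • c ≠ c) := by
    intro x
    constructor
    · intro hx
      obtain ⟨y, hy, rfl⟩ := Subgroup.mem_map.mp hx
      refine ⟨y.2, ?_⟩
      rcases (hMmem y).mp hy with h | h
      · left; rw [h]; rfl
      · right; exact h
    · rintro ⟨hx, h⟩
      refine Subgroup.mem_map.mpr ⟨⟨x, hx⟩, ?_, rfl⟩
      rw [hMmem]
      rcases h with h | h
      · left; exact Subtype.ext h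
      · right; exact h
  have hM'n : M'.Normal := by
    constructor
    intro x hx g
    rw [hM'mem] at hx ⊢
    refine ⟨hNn.conj_mem x hx.1 g, ?_⟩
    rcases hx.2 with h | h
    · left; rw [h]; group
    · right
      intro c hc
      rw [mul_smul, mul_smul, smul_eq_iff_eq_inv_smul] at hc
      exact h _ hc
  have hM't : IsPretransitive M' Ω := by
    apply normal_trans hZ.2.1 M'
    intro h
    have h1 : Nat.card M' = Nat.card M := Subgroup.card_map_of_injective Subtype.val_injective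
    rw [h, Subgroup.card_bot, hMcard] at h1
    omega
  obtain ⟨c, hc⟩ := hZ.2.2.2.2 M' hM'n hM't
  rw [Subgroup.ne_bot_iff_exists_ne_one] at hc
  obtain ⟨⟨⟨x, hx⟩, hxc⟩, hx1⟩ := hc
  rcases ((hM'mem x).mp hx).2 with h | h
  · apply hx1
    exact Subtype.ext (Subtype.ext h)
  · exact h c hxc

/-- a nontrivial normal subgroup contains the kernels of the point stabilizers -/
theorem H_le_normal (hZ : IsZassenhausGroup G Ω) {a b : Ω} (hab : a ≠ b) (H : Subgroup G)
    (hHa : H ≤ stabilizer G a) (hHcard : Nat.card H + 1 = Fintype.card Ω)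
    (hHfix : ∀ u ∈ H, u ≠ 1 → ∀ c : Ω, u • c = c → c = a) (N : Subgroup G) [hNn : N.Normal] (hN : N ≠ ⊥) : H ≤ N := by
  obtain ⟨x, hxN, hx1, hxa, hxb⟩ := normal_two hZ hab N hN
  have hn := (kernel_struct hZ hab H hHa hHcard hHfix).1
  have hconj : ∀ u ∈ H, x⁻¹ * u * x ∈ H := by
    intro u hu
    have h4 := hn.conj_mem ⟨u, hHa hu⟩ (Subgroup.mem_subgroupOf.mpr hu) (⟨x, hxa⟩⁻¹)
    rw [Subgroup.mem_subgroupOf] at h4
    simpa using h4
  let f : H → (H ⊓ N : Subgroup G) := fun u => ⟨x⁻¹ * u.1⁻¹ * x * u.1, by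
    refine Subgroup.mem_inf.mpr ⟨?_, ?_⟩
    · exact mul_mem (hconj _ (inv_mem u.2)) u.2
    · have : x⁻¹ * u.1⁻¹ * x * u.1 = x⁻¹ * (u.1⁻¹ * x * u.1) := by group
      rw [this]
      refine mul_mem (inv_mem hxN) ?_
      have := hNn.conj_mem x hxN u.1⁻¹
      rwa [inv_inv] at this⟩
  have hinj : Function.Injective f := by
    intro u v huv
    have h1 : x⁻¹ * u.1⁻¹ * x * u.1 = x⁻¹ * v.1⁻¹ * x * v.1 := congrArg Subtype.val huv
    by_contra hne
    have hw : u.1 * v.1⁻¹ ∈ H := mul_mem u.2 (inv_mem v.2)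
    have hw1 : u.1 * v.1⁻¹ ≠ 1 := fun h => hne (Subtype.ext (mul_inv_eq_one.mp h))
    have hcomm : x * (u.1 * v.1⁻¹) = (u.1 * v.1⁻¹) * x := by
      have h2 : u.1⁻¹ * x * u.1 = v.1⁻¹ * x * v.1 := by
        have h3 : x * (x⁻¹ * u.1⁻¹ * x * u.1) = x * (x⁻¹ * v.1⁻¹ * x * v.1) := by rw [h1]
        calc u.1⁻¹ * x * u.1 = x * (x⁻¹ * u.1⁻¹ * x * u.1) := by group
          _ = x * (x⁻¹ * v.1⁻¹ * x * v.1) := h3
          _ = _ := by group
      calc x * (u.1 * v.1⁻¹) = u.1 * (u.1⁻¹ * x * u.1) * v.1⁻¹ := by group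
        _ = u.1 * (v.1⁻¹ * x * v.1) * v.1⁻¹ := by rw [h2]
        _ = _ := by group
    have hwb : x • ((u.1 * v.1⁻¹) • b) = (u.1 * v.1⁻¹) • b := by
      rw [← mul_smul, hcomm, mul_smul, hxb]
    have hwa : (u.1 * v.1⁻¹) • a = a := hHa hw
    apply hx1
    apply hZ.2.2.1 x a b ((u.1 * v.1⁻¹) • b) hab _ _ hxa hxb hwb
    · intro h
      exact hab (hHfix _ hw hw1 b h.symm).symm
    · intro h
      apply hab
      exact MulAction.injective (u.1 * v.1⁻¹) (hwa.trans h)
  have h1 : Nat.card H ≤ Nat.card (H ⊓ N : Subgroup G) := Nat.card_le_card_of_injective f hinj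
  have h2 : H ⊓ N = H := by
    apply Subgroup.eq_of_le_of_card_ge inf_le_left h1
  exact inf_eq_left.mp h2

end finite
noncomputable section

section odddeg

variable {G Ω : Type*} [Group G] [Finite G] [MulAction G Ω] [Fintype Ω]

theorem card_fix_odd (hZ : IsZassenhausGroup G Ω) (hn : Odd (Fintype.card Ω)) {x : G} (hx : orderOf x = 2) :
    Nat.card {c : Ω // x • c = c} = 1 := by
  classical
  have h2 : Nat.card {c : Ω // x • c = c} ≡ Fintype.card Ω [MOD 2] := by
    haveI : Fact (Nat.Prime 2) := ⟨Nat.prime_two⟩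
    have hp : IsPGroup 2 (Subgroup.zpowers x) := IsPGroup.of_card (n := 1) (by rw [Nat.card_zpowers, hx, pow_one])
    have h3 := hp.card_modEq_card_fixedPoints Ω
    rw [Nat.card_eq_fintype_card] at h3
    have h4 : Nat.card (MulAction.fixedPoints (Subgroup.zpowers x) Ω) = Nat.card {c : Ω // x • c = c} := by
      apply Nat.card_congr
      refine Equiv.subtypeEquivRight (fun c => ?_)
      rw [MulAction.mem_fixedPoints]
      constructor
      · intro h
        exact h ⟨x, Subgroup.mem_zpowers x⟩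
      · rintro h ⟨g, hg⟩
        rw [Subgroup.mem_zpowers_iff] at hg
        obtain ⟨k, rfl⟩ := hg
        exact (Subgroup.zpow_mem (stabilizer G c) (show x ∈ stabilizer G c from h) k)
    rw [h4] at h3
    exact h3.symm
  have h3 : Nat.card {c : Ω // x • c = c} ≤ 2 := by
    by_contra h
    push Not at h
    rw [Nat.card_eq_fintype_card, Fintype.two_lt_card_iff] at h
    obtain ⟨c, d, e, h1, h2, h3⟩ := h
    apply invol_ne hx
    exact hZ.2.2.1 x c d e (fun h => h1 (Subtype.ext h)) (fun h => h3 (Subtype.ext h)) (fun h => h2 (Subtype.ext h))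
      c.2 d.2 e.2
  rw [Nat.odd_iff] at hn
  have h4 : Nat.card {c : Ω // x • c = c} % 2 = 1 := by rw [h2]; exact hn
  omega

theorem odd_of_degree (hZ : IsZassenhausGroup G Ω) {a b : Ω} (hab : a ≠ b) (hn : Odd (Fintype.card Ω)) :
    Odd (Nat.card (stabilizer G a ⊓ stabilizer G b : Subgroup G)) := by
  rw [← Nat.not_even_iff_odd, even_iff_two_dvd]
  intro h
  haveI : Fact (Nat.Prime 2) := ⟨Nat.prime_two⟩
  obtain ⟨x, hx⟩ := exists_prime_orderOf_dvd_card' 2 h
  have hx' : orderOf (x : G) = 2 := by rw [Subgroup.orderOf_coe]; exact hx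
  have h1 := card_fix_odd hZ hn hx'
  obtain ⟨hxa, hxb⟩ := mem_two.mp x.2
  rw [Nat.card_eq_one_iff_unique] at h1
  have := h1.1.elim ⟨a, hxa⟩ ⟨b, hxb⟩
  exact hab (congrArg Subtype.val this)

/-- number of involutions fixing `a` = number of involutions moving `a` to `b`, odd degree -/
theorem invol_swap_count (hZ : IsZassenhausGroup G Ω) {a b : Ω} (hab : a ≠ b) (hn : Odd (Fintype.card Ω)) :
    Nat.card {x : G // orderOf x = 2 ∧ x • a = a} = Nat.card {x : G // orderOf x = 2 ∧ x • a = b} := by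
  classical
  haveI := pretransitive hZ
  have hn2 := two_lt hZ hab
  have hos : ∀ g x : G, orderOf (g * x * g⁻¹) = orderOf x := by
    intro g x
    have := (MulAut.conj g).orderOf_eq x
    simpa using this
  have h1 : ∀ c : Ω, Nat.card {x : G // orderOf x = 2 ∧ x • c = c} = Nat.card {x : G // orderOf x = 2 ∧ x • a = a} := by
    intro c
    obtain ⟨g, rfl⟩ := MulAction.exists_smul_eq G a c
    apply Nat.card_congr
    refine (Equiv.subtypeEquiv (MulAut.conj g).toEquiv (fun x => ?_)).symm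
    change _ ↔ orderOf (g * x * g⁻¹) = 2 ∧ (g * x * g⁻¹) • g • a = g • a
    rw [mul_smul, mul_smul, inv_smul_smul, smul_left_cancel_iff, hos]
  have h1' : ∀ c d : Ω, c ≠ d → Nat.card {x : G // orderOf x = 2 ∧ x • c = d} =
      Nat.card {x : G // orderOf x = 2 ∧ x • a = b} := by
    intro c d hcd
    obtain ⟨g, rfl, rfl⟩ := two_trans hZ hab hcd
    apply Nat.card_congr
    refine (Equiv.subtypeEquiv (MulAut.conj g).toEquiv (fun x => ?_)).symm
    change _ ↔ orderOf (g * x * g⁻¹) = 2 ∧ (g * x * g⁻¹) • g • a = g • b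
    rw [mul_smul, mul_smul, inv_smul_smul, smul_left_cancel_iff, hos]
  have h2 : Nat.card (Σ x : {x : G // orderOf x = 2}, {c : Ω // x.1 • c = c}) =
      Nat.card (Σ c : Ω, {x : G // orderOf x = 2 ∧ x • c = c}) := by
    apply Nat.card_congr
    exact
      { toFun := fun p => ⟨p.2.1, ⟨p.1.1, p.1.2, p.2.2⟩⟩
        invFun := fun p => ⟨⟨p.2.1, p.2.2.1⟩, ⟨p.1, p.2.2.2⟩⟩
        left_inv := fun p => rfl
        right_inv := fun p => rfl }
  have h3 : Nat.card (Σ x : {x : G // orderOf x = 2}, {c : Ω // c ≠ x.1 • c}) =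
      Nat.card (Σ q : {q : Ω × Ω // q.1 ≠ q.2}, {x : G // orderOf x = 2 ∧ x • q.1.1 = q.1.2}) := by
    apply Nat.card_congr
    exact
      { toFun := fun p => ⟨⟨(p.2.1, p.1.1 • p.2.1), p.2.2⟩, ⟨p.1.1, p.1.2, rfl⟩⟩
        invFun := fun p => ⟨⟨p.2.1, p.2.2.1⟩, ⟨p.1.1.1, by rw [p.2.2.2]; exact p.1.2⟩⟩
        left_inv := fun p => rfl
        right_inv := by
          rintro ⟨⟨⟨c, d⟩, hcd⟩, x, hx, hxc⟩
          change x • c = d at hxc
          subst hxc
          rfl }
  haveI : Fintype {x : G // orderOf x = 2} := Fintype.ofFinite _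
  haveI : Fintype {q : Ω × Ω // q.1 ≠ q.2} := Fintype.ofFinite _
  rw [Nat.card_sigma, Nat.card_sigma] at h2
  rw [Nat.card_sigma, Nat.card_sigma] at h3
  have h4 : ∀ x : {x : G // orderOf x = 2}, Nat.card {c : Ω // c ≠ x.1 • c} = Fintype.card Ω - 1 := by
    intro x
    rw [← card_fix_odd hZ hn x.2, Nat.card_eq_fintype_card, Nat.card_eq_fintype_card, ← Fintype.card_subtype_compl]
    exact Fintype.card_congr (Equiv.subtypeEquivRight (fun c => by rw [ne_comm]))
  rw [Finset.sum_congr rfl (fun x _ => card_fix_odd hZ hn x.2), Finset.sum_const,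
    Finset.sum_congr rfl (fun c _ => h1 c), Finset.sum_const, smul_eq_mul, smul_eq_mul, mul_one, Finset.card_univ,
    Finset.card_univ] at h2
  rw [Finset.sum_congr rfl (fun x _ => h4 x), Finset.sum_const, Finset.sum_congr rfl (fun q _ => h1' _ _ q.2),
    Finset.sum_const, smul_eq_mul, smul_eq_mul, Finset.card_univ, Finset.card_univ] at h3
  have h5 : Fintype.card {q : Ω × Ω // q.1 ≠ q.2} = Fintype.card Ω * (Fintype.card Ω - 1) := by
    have h4 : Fintype.card {q : Ω × Ω // q.1 ≠ q.2} = (Finset.univ : Finset Ω).offDiag.card := by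
      rw [Fintype.card_subtype]
      congr 1
      ext q
      simp
    rw [h4, Finset.offDiag_card, Finset.card_univ, Nat.mul_sub_one]
  rw [h5, h2] at h3
  have h6 : 0 < Fintype.card Ω * (Fintype.card Ω - 1) := Nat.mul_pos (by omega) (by omega)
  apply Nat.eq_of_mul_eq_mul_left h6
  rw [← h3]; ring

/-- odd degree: every nontrivial normal subgroup is everything -/
theorem odd_degree_top (hZ : IsZassenhausGroup G Ω) {a b : Ω} (hab : a ≠ b) (hn : Odd (Fintype.card Ω))
    (N : Subgroup G) [hNn : N.Normal] (hN : N ≠ ⊥) : N = ⊤ := by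
  classical
  haveI hNt : IsPretransitive N Ω := by
    haveI := hZ.1
    exact normal_trans hZ.2.1 N hN
  haveI := pretransitive hZ
  have hos : ∀ g x : G, orderOf (g * x * g⁻¹) = orderOf x := by
    intro g x
    have := (MulAut.conj g).orderOf_eq x
    simpa using this
  have hn2 := two_lt hZ hab
  -- all involutions are in `N`
  have hinv : ∀ x : G, orderOf x = 2 → x ∈ N := by
    intro x hx
    have h1 := card_fix_odd hZ hn hx
    rw [Nat.card_eq_one_iff_unique] at h1
    obtain ⟨hsub, ⟨⟨c, hc⟩⟩⟩ := h1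
    obtain ⟨d, hdc⟩ : ∃ d : Ω, c ≠ d := by
      haveI : Nontrivial Ω := Fintype.one_lt_card_iff_nontrivial.mp (by omega)
      obtain ⟨d, hd⟩ := exists_ne c
      exact ⟨d, hd.symm⟩
    obtain ⟨H, hHa, hHcard, hHfix⟩ := exists_H hZ hdc
    apply H_le_normal hZ hdc H hHa hHcard hHfix N hN
    by_contra hxH
    obtain ⟨e, he, hxe⟩ := fix_of_not_mem hZ hdc H hHa hHcard hHfix hc hxH
    exact he (congrArg Subtype.val (hsub.elim ⟨c, hc⟩ ⟨e, hxe⟩))
  -- two-point stabilizers are in `N`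
  have hE : ∀ c : Ω, a ≠ c → ∀ x : G, x • a = a → x • c = c → x ∈ N := by
    intro c hac x hxa hxc
    obtain ⟨t, ht, hta, htc⟩ := (S0740.result hZ hac).1
    obtain ⟨H, hHa, hHcard, hHfix⟩ := exists_H hZ hac
    -- an involution fixing `a`
    obtain ⟨z, hz, hza⟩ : ∃ z : G, orderOf z = 2 ∧ z • a = a := by
      have h1 := card_fix_odd hZ hn ht
      rw [Nat.card_eq_one_iff_unique] at h1
      obtain ⟨-, ⟨⟨d, hd⟩⟩⟩ := h1
      obtain ⟨g, hg⟩ := MulAction.exists_smul_eq G a d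
      refine ⟨g⁻¹ * t * g, ?_, ?_⟩
      · have := hos g⁻¹ t; rw [inv_inv] at this; rw [this, ht]
      · rw [mul_smul, mul_smul, hg, hd, inv_smul_eq_iff, hg]
    have h1 : Nat.card (stabilizer G a ⊓ stabilizer G c : Subgroup G) ≤ Nat.card {x : G // orderOf x = 2 ∧ x • a = a} := by
      apply Nat.card_le_card_of_injective (fun y : (stabilizer G a ⊓ stabilizer G c : Subgroup G) =>
        (⟨y.1 * z * y.1⁻¹, (hos _ _).trans hz, by
          have h3 : y.1 • a = a := (mem_two.mp y.2).1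
          have h4 : y.1⁻¹ • a = a := by rw [inv_smul_eq_iff]; exact h3.symm
          rw [mul_smul, mul_smul, h4, hza]
          exact h3⟩ : {x : G // orderOf x = 2 ∧ x • a = a}))
      intro y y' hyy
      have h2 : y.1 * z * y.1⁻¹ = y'.1 * z * y'.1⁻¹ := congrArg Subtype.val hyy
      by_contra hne
      have hw : y'.1⁻¹ * y.1 ∈ (stabilizer G a ⊓ stabilizer G c : Subgroup G) := mul_mem (inv_mem y'.2) y.2
      have hw1 : y'.1⁻¹ * y.1 ≠ 1 := fun h => hne (Subtype.ext (inv_mul_eq_one.mp h).symm)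
      have hcomm : (y'.1⁻¹ * y.1) * z = z * (y'.1⁻¹ * y.1) := by
        calc (y'.1⁻¹ * y.1) * z = y'.1⁻¹ * (y.1 * z * y.1⁻¹) * y.1 := by group
          _ = y'.1⁻¹ * (y'.1 * z * y'.1⁻¹) * y.1 := by rw [h2]
          _ = _ := by group
      obtain ⟨hwa, hwc⟩ := mem_two.mp hw
      have hzc : (y'.1⁻¹ * y.1) • z • c = z • c := by rw [← mul_smul, hcomm, mul_smul, hwc]
      have hzfix := card_fix_odd hZ hn hz
      rw [Nat.card_eq_one_iff_unique] at hzfix
      apply hw1
      apply hZ.2.2.1 _ a c (z • c) hac _ _ hwa hwc hzc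
      · intro h
        exact hac (congrArg Subtype.val (hzfix.1.elim ⟨a, hza⟩ ⟨c, h.symm⟩))
      · intro h
        exact hac (MulAction.injective z (hza.trans h))
    let f : {x : G // orderOf x = 2 ∧ x • a = c} → (stabilizer G a ⊓ stabilizer G c : Subgroup G) := fun y =>
      ⟨t⁻¹ * y.1, by
        have h3 : y.1 • c = a := by
          rw [← invol_inv y.2.1, inv_smul_eq_iff]; exact y.2.2.symm
        exact mem_two.mpr ⟨by rw [mul_smul, y.2.2, inv_smul_eq_iff, hta], by rw [mul_smul, h3, inv_smul_eq_iff, htc]⟩⟩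
    have hf : Function.Injective f := by
      intro y y' hyy
      exact Subtype.ext (mul_left_cancel (congrArg Subtype.val hyy))
    have h3 := invol_swap_count hZ hac hn
    have h4 : Nat.card {x : G // orderOf x = 2 ∧ x • a = c} ≤ Nat.card (stabilizer G a ⊓ stabilizer G c : Subgroup G) :=
      Nat.card_le_card_of_injective f hf
    have hbij : Function.Bijective f := by
      rw [Nat.bijective_iff_injective_and_card]
      exact ⟨hf, by omega⟩
    obtain ⟨y, hy⟩ := hbij.2 ⟨x, mem_two.mpr ⟨hxa, hxc⟩⟩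
    have h5 : t⁻¹ * y.1 = x := congrArg Subtype.val hy
    rw [← h5]
    exact mul_mem (inv_mem (hinv t ht)) (hinv y.1 y.2.1)
  obtain ⟨H, hHa, hHcard, hHfix⟩ := exists_H hZ hab
  have hHN := H_le_normal hZ hab H hHa hHcard hHfix N hN
  rw [eq_top_iff]
  intro g _
  obtain ⟨m, hm⟩ := MulAction.exists_smul_eq N (g • a) a
  have hm' : m.1 • g • a = a := hm
  have h1 : m.1 * g ∈ N := by
    by_cases hH : m.1 * g ∈ H
    · exact hHN hH
    · obtain ⟨c, hac, hc⟩ := fix_of_not_mem hZ hab H hHa hHcard hHfix (k := m.1 * g) (by rw [mul_smul]; exact hm') hH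
      exact hE c hac _ (by rw [mul_smul]; exact hm') hc
  have h2 : g = m.1⁻¹ * (m.1 * g) := by group
  rw [h2]
  exact mul_mem (inv_mem m.2) h1

end odddeg

end
noncomputable section

section sub

variable {G Ω : Type*} [Group G] [Finite G] [MulAction G Ω] [Fintype Ω]

/-- a nontrivial normal subgroup is doubly transitive -/
theorem normal_two_trans (hZ : IsZassenhausGroup G Ω) (N : Subgroup G) [hNn : N.Normal] (hN : N ≠ ⊥)
    {a b c d : Ω} (hab : a ≠ b) (hcd : c ≠ d) : ∃ n ∈ N, n • a = c ∧ n • b = d := by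
  haveI hNt : IsPretransitive N Ω := by
    haveI := hZ.1
    exact normal_trans hZ.2.1 N hN
  obtain ⟨⟨m, hm⟩, hma⟩ := MulAction.exists_smul_eq N a c
  have hma' : m • a = c := hma
  obtain ⟨H, hHa, hHcard, hHfix⟩ := exists_H hZ hcd
  have hHN := H_le_normal hZ hcd H hHa hHcard hHfix N hN
  have h1 : m • b ≠ c := by
    intro h
    exact hab (MulAction.injective m (hma'.trans h.symm))
  obtain ⟨u, hu, hub⟩ := H_trans H hHa hHcard hHfix h1 hcd.symm
  refine ⟨u * m, mul_mem (hHN hu) hm, ?_, ?_⟩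
  · rw [mul_smul, hma']; exact hHa hu
  · rw [mul_smul]; exact hub

/-- no regular subgroup normalized by `N` -/
theorem no_regular (hZ : IsZassenhausGroup G Ω) {a b : Ω} (hab : a ≠ b) (N : Subgroup G) [hNn : N.Normal] (hN : N ≠ ⊥)
    (R : Subgroup G) (hRN : R ≤ N) (hRn : ∀ n ∈ N, ∀ r ∈ R, n * r * n⁻¹ ∈ R)
    (hfree : ∀ r ∈ R, ∀ c : Ω, r • c = c → r = 1) (htrans : ∀ c d : Ω, ∃ r ∈ R, r • c = d) : False := by
  classical
  haveI := hZ.1
  haveI hGt := pretransitive hZ
  have huniq : ∀ r ∈ R, ∀ s ∈ R, ∀ c : Ω, r • c = s • c → r = s := by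
    intro r hr s hs c h
    have h1 := hfree (s⁻¹ * r) (mul_mem (inv_mem hs) hr) c (by rw [mul_smul, h, inv_smul_smul])
    exact (inv_mul_eq_one.mp h1).symm
  -- all nonidentity elements are conjugate
  have hconj : ∀ r ∈ R, r ≠ 1 → ∀ s ∈ R, s ≠ 1 → ∃ n ∈ N, n * r * n⁻¹ = s := by
    intro r hr hr1 s hs hs1
    have h1 : a ≠ r • a := fun h => hr1 (hfree r hr a h.symm)
    have h2 : a ≠ s • a := fun h => hs1 (hfree s hs a h.symm)
    obtain ⟨n, hn, hna, hnr⟩ := normal_two_trans hZ N hN h1 h2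
    refine ⟨n, hn, ?_⟩
    apply huniq _ (hRn n hn r hr) s hs a
    have h3 : n⁻¹ • a = a := by rw [inv_smul_eq_iff]; exact hna.symm
    rw [mul_smul, mul_smul, h3, hnr]
  obtain ⟨r₀, hr₀, hr₀a⟩ := htrans a b
  have hr₀1 : r₀ ≠ 1 := by rintro rfl; rw [one_smul] at hr₀a; exact hab hr₀a
  -- `R` is abelian
  have hcomm : ∀ r ∈ R, ∀ s ∈ R, r * s = s * r := by
    haveI : Nontrivial R := ⟨⟨r₀, hr₀⟩, 1, fun h => hr₀1 (congrArg Subtype.val h)⟩
    obtain ⟨p, hp, hdvd⟩ := Nat.exists_prime_and_dvd (n := Nat.card R) (Finite.one_lt_card (α := R)).ne'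
    haveI : Fact p.Prime := ⟨hp⟩
    obtain ⟨x, hx⟩ := exists_prime_orderOf_dvd_card' p hdvd
    have hx1 : (x : G) ≠ 1 := by
      intro h
      rw [← Subgroup.orderOf_coe, h, orderOf_one] at hx
      exact hp.one_lt.ne hx
    have hR : IsPGroup p R := by
      intro y
      by_cases hy : (y : G) = 1
      · exact ⟨0, by rw [pow_zero, pow_one]; exact Subtype.ext hy⟩
      · obtain ⟨n, hn, h1⟩ := hconj x x.2 hx1 y y.2 hy
        refine ⟨1, Subtype.ext ?_⟩
        have h2 : orderOf (x : G) = p := by rw [Subgroup.orderOf_coe]; exact hx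
        have h3 : (x : G) ^ p = 1 := by rw [← h2]; exact pow_orderOf_eq_one _
        rw [pow_one, Subgroup.coe_pow, ← h1, conj_pow, h3, mul_one, mul_inv_cancel, Subgroup.coe_one]
    haveI : Nontrivial (Subgroup.center R) := hR.center_nontrivial
    obtain ⟨z, hz⟩ := exists_ne (1 : Subgroup.center R)
    have hz1 : ((z : R) : G) ≠ 1 := fun h => hz (Subtype.ext (Subtype.ext h))
    have hzc : ∀ s ∈ R, (z : R) * s = s * (z : R).1 := by
      intro s hs
      have := Subgroup.mem_center_iff.mp z.2 ⟨s, hs⟩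
      exact (congrArg Subtype.val this).symm
    intro r hr s hs
    by_cases hr1 : r = 1
    · rw [hr1, one_mul, mul_one]
    · obtain ⟨n, hn, h1⟩ := hconj _ z.1.2 hz1 r hr hr1
      have h2 : n⁻¹ * s * n ∈ R := by
        have := hRn n⁻¹ (inv_mem hn) s hs
        rwa [inv_inv] at this
      have h3 := hzc _ h2
      rw [← h1]
      calc n * (z : R).1 * n⁻¹ * s = n * ((z : R).1 * (n⁻¹ * s * n)) * n⁻¹ := by group
        _ = n * ((n⁻¹ * s * n) * (z : R).1) * n⁻¹ := by rw [h3]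
        _ = _ := by group
  -- `R` is normal in `G`
  have hnorm : ∀ g : G, ∀ r ∈ R, g⁻¹ * r * g ∈ R := by
    intro g
    let S : Subgroup G := R.map (MulAut.conj g).toMonoidHom
    have hSmem : ∀ x : G, x ∈ S ↔ g⁻¹ * x * g ∈ R := by
      intro x
      constructor
      · intro hx
        obtain ⟨y, hy, rfl⟩ := Subgroup.mem_map.mp hx
        have : g⁻¹ * (MulAut.conj g).toMonoidHom y * g = y := by
          change g⁻¹ * (g * y * g⁻¹) * g = y
          group
        rw [this]; exact hy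
      · intro hx
        refine Subgroup.mem_map.mpr ⟨_, hx, ?_⟩
        change g * (g⁻¹ * x * g) * g⁻¹ = x
        group
    have hSn : ∀ n ∈ N, ∀ s ∈ S, n * s * n⁻¹ ∈ S := by
      intro n hn s hs
      rw [hSmem] at hs ⊢
      have h1 : g⁻¹ * n * g ∈ N := by
        have := hNn.conj_mem n hn g⁻¹
        rwa [inv_inv] at this
      have h2 := hRn _ h1 _ hs
      have h3 : g⁻¹ * n * g * (g⁻¹ * s * g) * (g⁻¹ * n * g)⁻¹ = g⁻¹ * (n * s * n⁻¹) * g := by group
      rwa [h3] at h2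
    have hSN : S ≤ N := by
      intro x hx
      rw [hSmem] at hx
      have h1 := hNn.conj_mem _ (hRN hx) g
      have h2 : g * (g⁻¹ * x * g) * g⁻¹ = x := by group
      rwa [h2] at h1
    have hSt : ∀ c d : Ω, ∃ s ∈ S, s • c = d := by
      intro c d
      obtain ⟨r, hr, hrc⟩ := htrans (g⁻¹ • c) (g⁻¹ • d)
      refine ⟨g * r * g⁻¹, ?_, ?_⟩
      · rw [hSmem]
        have : g⁻¹ * (g * r * g⁻¹) * g = r := by group
        rw [this]; exact hr
      · rw [mul_smul, mul_smul, hrc, smul_inv_smul]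
    by_cases hD : R ⊓ S = ⊥
    · exfalso
      have hc2 : ∀ r ∈ R, ∀ s ∈ S, r * s = s * r := by
        intro r hr s hs
        have h1 : r * s * r⁻¹ * s⁻¹ ∈ R ⊓ S := by
          refine Subgroup.mem_inf.mpr ⟨?_, ?_⟩
          · have h2 : s * r⁻¹ * s⁻¹ ∈ R := hRn s (hSN hs) _ (inv_mem hr)
            have h3 : r * s * r⁻¹ * s⁻¹ = r * (s * r⁻¹ * s⁻¹) := by group
            rw [h3]; exact mul_mem hr h2
          · exact mul_mem (hSn r (hRN hr) s hs) (inv_mem hs)
        rw [hD, Subgroup.mem_bot] at h1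
        calc r * s = (r * s * r⁻¹ * s⁻¹) * (s * r) := by group
          _ = s * r := by rw [h1, one_mul]
      obtain ⟨s, hs, hsa⟩ := hSt a b
      have h1 : r₀ = s := by
        apply FaithfulSMul.eq_of_smul_eq_smul (α := Ω)
        intro c
        obtain ⟨r, hr, hrc⟩ := htrans a c
        rw [← hrc, ← mul_smul, ← mul_smul, hcomm r₀ hr₀ r hr, ← hc2 r hr s hs, mul_smul, mul_smul, hr₀a, hsa]
      have h2 : r₀ ∈ R ⊓ S := Subgroup.mem_inf.mpr ⟨hr₀, h1 ▸ hs⟩
      rw [hD, Subgroup.mem_bot] at h2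
      exact hr₀1 h2
    · -- the intersection is transitive
      haveI : FaithfulSMul N Ω := ⟨fun h => Subtype.ext (FaithfulSMul.eq_of_smul_eq_smul (α := Ω) h)⟩
      have hN2 : MulAction.IsMultiplyPretransitive N Ω 2 := by
        rw [MulAction.is_two_pretransitive_iff]
        intro c d e f h1 h2
        obtain ⟨n, hn, h3, h4⟩ := normal_two_trans hZ N hN h1 h2
        exact ⟨⟨n, hn⟩, h3, h4⟩
      haveI hDn : ((R ⊓ S).subgroupOf N).Normal := by
        constructor
        intro x hx n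
        rw [Subgroup.mem_subgroupOf] at hx ⊢
        exact ⟨hRn n n.2 _ hx.1, hSn n n.2 _ hx.2⟩
      have hDne : (R ⊓ S).subgroupOf N ≠ ⊥ := by
        intro h
        apply hD
        rw [eq_bot_iff]
        intro x hx
        have h1 : (⟨x, hRN hx.1⟩ : N) ∈ (R ⊓ S).subgroupOf N := hx
        rw [h, Subgroup.mem_bot] at h1
        rw [Subgroup.mem_bot]
        exact congrArg Subtype.val h1
      haveI hDt := normal_trans hN2 _ hDne
      intro r hr
      obtain ⟨⟨⟨d, hdN⟩, hd⟩, hda⟩ := MulAction.exists_smul_eq ((R ⊓ S).subgroupOf N) a (r • a)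
      have hda' : d • a = r • a := hda
      have hd' : d ∈ R ⊓ S := hd
      have h1 := huniq d hd'.1 r hr a hda'
      rw [← h1]
      exact (hSmem d).mp hd'.2
  have hRnormal : R.Normal := by
    constructor
    intro r hr g
    have := hnorm g⁻¹ r hr
    rwa [inv_inv] at this
  have hRt : IsPretransitive R Ω := by
    constructor
    intro c d
    obtain ⟨r, hr, hrc⟩ := htrans c d
    exact ⟨⟨r, hr⟩, hrc⟩
  obtain ⟨c, hc⟩ := hZ.2.2.2.2 R hRnormal hRt
  rw [Subgroup.ne_bot_iff_exists_ne_one] at hc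
  obtain ⟨⟨⟨x, hx⟩, hxc⟩, hx1⟩ := hc
  exact hx1 (Subtype.ext (Subtype.ext (hfree x hx c hxc)))

/-- **S0339 core** -/
theorem normal_zass (hZ : IsZassenhausGroup G Ω) (N : Subgroup G) [hNn : N.Normal] (hN : N ≠ ⊥) :
    IsZassenhausGroup N Ω := by
  haveI := hZ.1
  obtain ⟨-, -, a, b, hab, -, -⟩ := hZ.2.2.2.1
  refine ⟨⟨fun h => Subtype.ext (FaithfulSMul.eq_of_smul_eq_smul (α := Ω) h)⟩, ?_, ?_, ?_, ?_⟩
  · rw [MulAction.is_two_pretransitive_iff]
    intro c d e f h1 h2
    obtain ⟨n, hn, h3, h4⟩ := normal_two_trans hZ N hN h1 h2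
    exact ⟨⟨n, hn⟩, h3, h4⟩
  · intro g c d e h1 h2 h3 h4 h5 h6
    exact Subtype.ext (hZ.2.2.1 g c d e h1 h2 h3 h4 h5 h6)
  · obtain ⟨x, hx, hx1, hxa, hxb⟩ := normal_two hZ hab N hN
    exact ⟨⟨x, hx⟩, fun h => hx1 (congrArg Subtype.val h), a, b, hab, hxa, hxb⟩
  · intro R hRn hRt
    by_contra hcon
    push Not at hcon
    apply no_regular hZ hab N hN (R.map N.subtype) (Subgroup.map_subtype_le R)
    · rintro n hn r hr
      obtain ⟨y, hy, rfl⟩ := Subgroup.mem_map.mp hr
      exact Subgroup.mem_map.mpr ⟨⟨n, hn⟩ * y * ⟨n, hn⟩⁻¹, hRn.conj_mem y hy _, rfl⟩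
    · rintro r hr c hc
      obtain ⟨y, hy, rfl⟩ := Subgroup.mem_map.mp hr
      have h1 : (⟨y, hy⟩ : R) ∈ stabilizer R c := hc
      rw [hcon c, Subgroup.mem_bot] at h1
      exact congrArg Subtype.val (congrArg Subtype.val h1)
    · intro c d
      obtain ⟨⟨y, hy⟩, hyc⟩ := MulAction.exists_smul_eq R c d
      exact ⟨y.1, Subgroup.mem_map.mpr ⟨y, hy, rfl⟩, hyc⟩

end sub

end
noncomputable section

section even

variable {G Ω : Type*} [Group G] [Finite G] [MulAction G Ω] [Fintype Ω]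

/-- **S0741 core** -/
theorem even_large (hZ : IsZassenhausGroup G Ω) {a b : Ω} (hab : a ≠ b)
    (heven : Even (Nat.card (stabilizer G a ⊓ stabilizer G b : Subgroup G))) :
    Fintype.card Ω - 2 ≤ 2 * Nat.card (stabilizer G a ⊓ stabilizer G b : Subgroup G) := by
  classical
  have hn2 := two_lt hZ hab
  have hos : ∀ g x : G, orderOf (g * x * g⁻¹) = orderOf x := by
    intro g x
    have := (MulAut.conj g).orderOf_eq x
    simpa using this
  haveI : Fintype {x : G // orderOf x = 2} := Fintype.ofFinite _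
  haveI : Fintype {q : Ω × Ω // q.1 ≠ q.2} := Fintype.ofFinite _
  set m := Nat.card {x : G // orderOf x = 2 ∧ x • a = a ∧ x • b = b} with hm
  set s := Nat.card {x : G // orderOf x = 2 ∧ x • a = b} with hs
  have h1 : ∀ q : {q : Ω × Ω // q.1 ≠ q.2}, Nat.card {x : G // orderOf x = 2 ∧ x • q.1.1 = q.1.1 ∧ x • q.1.2 = q.1.2} = m := by
    rintro ⟨⟨c, d⟩, hcd⟩
    obtain ⟨g, rfl, rfl⟩ := two_trans hZ hab hcd
    apply Nat.card_congr
    refine (Equiv.subtypeEquiv (MulAut.conj g).toEquiv (fun x => ?_)).symm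
    change _ ↔ orderOf (g * x * g⁻¹) = 2 ∧ (g * x * g⁻¹) • g • a = g • a ∧ (g * x * g⁻¹) • g • b = g • b
    rw [mul_smul, mul_smul, inv_smul_smul, smul_left_cancel_iff, hos, mul_smul, mul_smul, inv_smul_smul,
      smul_left_cancel_iff]
  have h1' : ∀ q : {q : Ω × Ω // q.1 ≠ q.2}, Nat.card {x : G // orderOf x = 2 ∧ x • q.1.1 = q.1.2} = s := by
    rintro ⟨⟨c, d⟩, hcd⟩
    obtain ⟨g, rfl, rfl⟩ := two_trans hZ hab hcd
    apply Nat.card_congr
    refine (Equiv.subtypeEquiv (MulAut.conj g).toEquiv (fun x => ?_)).symm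
    change _ ↔ orderOf (g * x * g⁻¹) = 2 ∧ (g * x * g⁻¹) • g • a = g • b
    rw [mul_smul, mul_smul, inv_smul_smul, smul_left_cancel_iff, hos]
  have h2 : Nat.card (Σ x : {x : G // orderOf x = 2}, {q : {q : Ω × Ω // q.1 ≠ q.2} // x.1 • q.1.1 = q.1.1 ∧ x.1 • q.1.2 = q.1.2}) =
      Nat.card (Σ q : {q : Ω × Ω // q.1 ≠ q.2}, {x : G // orderOf x = 2 ∧ x • q.1.1 = q.1.1 ∧ x • q.1.2 = q.1.2}) := by
    apply Nat.card_congr
    exact
      { toFun := fun p => ⟨p.2.1, ⟨p.1.1, p.1.2, p.2.2⟩⟩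
        invFun := fun p => ⟨⟨p.2.1, p.2.2.1⟩, ⟨p.1, p.2.2.2⟩⟩
        left_inv := fun p => rfl
        right_inv := fun p => rfl }
  have h3 : Nat.card (Σ x : {x : G // orderOf x = 2}, {c : Ω // c ≠ x.1 • c}) =
      Nat.card (Σ q : {q : Ω × Ω // q.1 ≠ q.2}, {x : G // orderOf x = 2 ∧ x • q.1.1 = q.1.2}) := by
    apply Nat.card_congr
    exact
      { toFun := fun p => ⟨⟨(p.2.1, p.1.1 • p.2.1), p.2.2⟩, ⟨p.1.1, p.1.2, rfl⟩⟩
        invFun := fun p => ⟨⟨p.2.1, p.2.2.1⟩, ⟨p.1.1.1, by rw [p.2.2.2]; exact p.1.2⟩⟩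
        left_inv := fun p => rfl
        right_inv := by
          rintro ⟨⟨⟨c, d⟩, hcd⟩, x, hx, hxc⟩
          change x • c = d at hxc
          subst hxc
          rfl }
  rw [Nat.card_sigma, Nat.card_sigma, Finset.sum_congr rfl (fun q _ => h1 q), Finset.sum_const, smul_eq_mul,
    Finset.card_univ] at h2
  rw [Nat.card_sigma, Nat.card_sigma, Finset.sum_congr rfl (fun q _ => h1' q), Finset.sum_const, smul_eq_mul,
    Finset.card_univ] at h3
  have h5 : Fintype.card {q : Ω × Ω // q.1 ≠ q.2} = Fintype.card Ω * (Fintype.card Ω - 1) := by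
    have h4 : Fintype.card {q : Ω × Ω // q.1 ≠ q.2} = (Finset.univ : Finset Ω).offDiag.card := by
      rw [Fintype.card_subtype]
      congr 1
      ext q
      simp
    rw [h4, Finset.offDiag_card, Finset.card_univ, Nat.mul_sub_one]
  -- fixed points
  have hfix : ∀ x : {x : G // orderOf x = 2}, Nat.card {c : Ω // x.1 • c = c} ≤ 2 := by
    intro x
    by_contra h
    push Not at h
    rw [Nat.card_eq_fintype_card, Fintype.two_lt_card_iff] at h
    obtain ⟨c, d, e, h1, h2, h3⟩ := h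
    apply invol_ne x.2
    exact hZ.2.2.1 x.1 c d e (fun h => h1 (Subtype.ext h)) (fun h => h3 (Subtype.ext h)) (fun h => h2 (Subtype.ext h))
      c.2 d.2 e.2
  have hA : ∀ x : {x : G // orderOf x = 2},
      Nat.card {q : {q : Ω × Ω // q.1 ≠ q.2} // x.1 • q.1.1 = q.1.1 ∧ x.1 • q.1.2 = q.1.2} ≤ 2 := by
    intro x
    refine le_trans ?_ (hfix x)
    apply Nat.card_le_card_of_injective (fun q : {q : {q : Ω × Ω // q.1 ≠ q.2} // x.1 • q.1.1 = q.1.1 ∧ x.1 • q.1.2 = q.1.2} =>
      (⟨q.1.1.1, q.2.1⟩ : {c : Ω // x.1 • c = c}))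
    rintro ⟨⟨⟨p, q⟩, hpq⟩, hp, hq⟩ ⟨⟨⟨p', q'⟩, hpq'⟩, hp', hq'⟩ h
    have h4 : p = p' := congrArg Subtype.val h
    subst h4
    have h6 : q = q' := by
      by_contra hne
      exact invol_ne x.2 (hZ.2.2.1 x.1 p q q' hpq hne hpq' hp hq hq')
    subst h6
    rfl
  have hB : ∀ x : {x : G // orderOf x = 2}, Fintype.card Ω - 2 ≤ Nat.card {c : Ω // c ≠ x.1 • c} := by
    intro x
    have h4 : Nat.card {c : Ω // c ≠ x.1 • c} = Fintype.card Ω - Nat.card {c : Ω // x.1 • c = c} := by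
      rw [Nat.card_eq_fintype_card, Nat.card_eq_fintype_card, ← Fintype.card_subtype_compl]
      exact Fintype.card_congr (Equiv.subtypeEquivRight (fun c => by rw [ne_comm]))
    rw [h4]
    exact Nat.sub_le_sub_left (hfix x) _
  have hsum : (∑ x : {x : G // orderOf x = 2},
      Nat.card {q : {q : Ω × Ω // q.1 ≠ q.2} // x.1 • q.1.1 = q.1.1 ∧ x.1 • q.1.2 = q.1.2}) * (Fintype.card Ω - 2) ≤
      2 * ∑ x : {x : G // orderOf x = 2}, Nat.card {c : Ω // c ≠ x.1 • c} := by
    rw [Finset.sum_mul, Finset.mul_sum]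
    apply Finset.sum_le_sum
    intro x _
    exact Nat.mul_le_mul (hA x) (hB x)
  rw [h2, h3, h5] at hsum
  have hpos : 0 < Fintype.card Ω * (Fintype.card Ω - 1) := Nat.mul_pos (by omega) (by omega)
  have h6 : m * (Fintype.card Ω - 2) ≤ 2 * s := by
    apply Nat.le_of_mul_le_mul_left _ hpos
    calc _ = Fintype.card Ω * (Fintype.card Ω - 1) * m * (Fintype.card Ω - 2) := by ring
      _ ≤ _ := hsum
      _ = _ := by ring
  have hm1 : 1 ≤ m := by
    haveI : Fact (Nat.Prime 2) := ⟨Nat.prime_two⟩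
    obtain ⟨x, hx⟩ := exists_prime_orderOf_dvd_card' 2 heven.two_dvd
    haveI : Nonempty {x : G // orderOf x = 2 ∧ x • a = a ∧ x • b = b} :=
      ⟨⟨x.1, by rw [Subgroup.orderOf_coe]; exact hx, (mem_two.mp x.2).1, (mem_two.mp x.2).2⟩⟩
    exact Nat.card_pos
  have hsd : s ≤ Nat.card (stabilizer G a ⊓ stabilizer G b : Subgroup G) := by
    obtain ⟨t, hta, htb⟩ := exists_swap hZ hab
    apply Nat.card_le_card_of_injective (fun y : {x : G // orderOf x = 2 ∧ x • a = b} =>
      (⟨t⁻¹ * y.1, by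
        have h3 : y.1 • b = a := by
          rw [← invol_inv y.2.1, inv_smul_eq_iff]; exact y.2.2.symm
        exact mem_two.mpr ⟨by rw [mul_smul, y.2.2, inv_smul_eq_iff, hta], by rw [mul_smul, h3, inv_smul_eq_iff, htb]⟩⟩ :
        (stabilizer G a ⊓ stabilizer G b : Subgroup G)))
    intro y y' hyy
    exact Subtype.ext (mul_left_cancel (congrArg Subtype.val hyy))
  have h7 : 1 * (Fintype.card Ω - 2) ≤ m * (Fintype.card Ω - 2) := Nat.mul_le_mul_right _ hm1
  omega

end even

end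

end

end Cfsg.Agent.Lib.ZassNorm
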