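import Cfsg.Agent.Lib.ZassNorm

set_option autoImplicit false

namespace Cfsg.Agent.Lib.ZassReg

open Cfsg MulAction Cfsg.Agent.Lib.Zass Cfsg.Agent.Lib.ZassChar Cfsg.Agent.Lib.ZassInv Cfsg.Agent.Lib.ZassNorm

noncomputable section

section field

/-- If an abelian group `H` acts regularly on the nonzero vectors of `V`, and `σ` is an additive automorphism of prime
order `r` normalizing the action and fixing exactly `0` and `v₀`, then `|V| = 2 ^ r`. -/
theorem card_of_regular {V H : Type*} [AddCommGroup V] [Finite V] [Group H] (hcomm : ∀ h k : H, h * k = k * h)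
    (act : H → V → V) (h_one : ∀ v, act 1 v = v) (h_mul : ∀ h k v, act (h * k) v = act h (act k v))
    (h_add : ∀ h v w, act h (v + w) = act h v + act h w) (v₀ : V) (hv₀ : v₀ ≠ 0)
    (hex : ∀ w : V, w ≠ 0 → ∃ h : H, act h v₀ = w) (hinj : ∀ h k : H, act h v₀ = act k v₀ → h = k)
    (σ : V ≃+ V) (τ : H → H) (hστ : ∀ h v, σ (act h v) = act (τ h) (σ v)) (hσ₀ : σ v₀ = v₀)
    {r : ℕ} (hr : r.Prime) (hσr : ∀ v, (σ : V → V)^[r] v = v) (hfix : ∀ v, σ v = v → v = 0 ∨ v = v₀)
    (hbig : 2 < Nat.card V) : Nat.card V = 2 ^ r := by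
  classical
  have h_zero : ∀ h, act h 0 = 0 := by
    intro h
    have := h_add h 0 0
    rw [add_zero] at this
    exact left_eq_add.mp this
  choose k hk using hex
  have hk' : ∀ w (hw : w ≠ 0) (h : H), act h v₀ = w → k w hw = h := fun w hw h hh => hinj _ _ ((hk w hw).trans hh.symm)
  have hne : ∀ (h : H) (v : V), v ≠ 0 → act h v ≠ 0 := by
    intro h v hv h0
    apply hv
    have h1 : act h⁻¹ (act h v) = v := by rw [← h_mul, inv_mul_cancel, h_one]
    rw [← h1, h0, h_zero]
  let m : V → V → V := fun w s => if hw : w = 0 then 0 else act (k w hw) s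
  have m0 : ∀ s, m 0 s = 0 := fun s => dif_pos rfl
  have m1 : ∀ w (hw : w ≠ 0) s, m w s = act (k w hw) s := fun w hw s => dif_neg hw
  have mz : ∀ w, m w 0 = 0 := by
    intro w
    by_cases hw : w = 0
    · rw [hw, m0]
    · rw [m1 w hw, h_zero]
  have mcomm : ∀ w s, m w s = m s w := by
    intro w s
    by_cases hw : w = 0
    · rw [hw, m0, mz]
    by_cases hs : s = 0
    · rw [hs, m0, mz]
    rw [m1 w hw, m1 s hs]
    have e1 : act (k w hw) s = act (k w hw * k s hs) v₀ := by rw [h_mul, hk s hs]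
    have e2 : act (k s hs) w = act (k s hs * k w hw) v₀ := by rw [h_mul, hk w hw]
    rw [e1, e2, hcomm]
  have mne : ∀ w s, w ≠ 0 → s ≠ 0 → m w s ≠ 0 := by
    intro w s hw hs
    rw [m1 w hw]
    exact hne _ _ hs
  have mk : ∀ w s (hw : w ≠ 0) (hs : s ≠ 0), k (m w s) (mne w s hw hs) = k w hw * k s hs := by
    intro w s hw hs
    apply hk'
    rw [h_mul, hk s hs, m1 w hw]
  have massoc : ∀ w s t, m (m w s) t = m w (m s t) := by
    intro w s t
    by_cases hw : w = 0
    · rw [hw, m0, m0, m0]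
    by_cases hs : s = 0
    · rw [hs, mz, m0, mz]
    rw [m1 _ (mne w s hw hs), mk w s hw hs, h_mul, m1 w hw, m1 s hs]
  have madd : ∀ w s t, m w (s + t) = m w s + m w t := by
    intro w s t
    by_cases hw : w = 0
    · rw [hw, m0, m0, m0, add_zero]
    rw [m1 w hw, m1 w hw, m1 w hw, h_add]
  have mone : ∀ w, m v₀ w = w := by
    intro w
    rw [m1 v₀ hv₀, hk' v₀ hv₀ 1 (h_one v₀), h_one]
  letI R : CommRing V :=
    { (inferInstance : AddCommGroup V) with
      mul := m
      one := v₀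
      left_distrib := madd
      right_distrib := fun a b c => by
        change m (a + b) c = m a c + m b c
        rw [mcomm, madd, mcomm c a, mcomm c b]
      zero_mul := m0
      mul_zero := mz
      mul_assoc := massoc
      one_mul := mone
      mul_one := fun a => by
        change m a v₀ = a
        rw [mcomm, mone]
      mul_comm := mcomm }
  have hmul : ∀ a b : V, a * b = m a b := fun _ _ => rfl
  have hone : (1 : V) = v₀ := rfl
  have hF : IsField V :=
    { exists_pair_ne := ⟨v₀, 0, hv₀⟩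
      mul_comm := mcomm
      mul_inv_cancel := fun {a} ha => ⟨act (k a ha)⁻¹ v₀, by
        rw [hmul, m1 a ha, ← h_mul, mul_inv_cancel, h_one]; rfl⟩ }
  letI F : Field V := hF.toField
  have hσm : ∀ a b : V, σ (a * b) = σ a * σ b := by
    intro a b
    by_cases ha : a = 0
    · rw [ha, zero_mul, map_zero, zero_mul]
    have hσa : σ a ≠ 0 := fun h => ha (by rw [← map_zero σ] at h; exact σ.injective h)
    rw [hmul, hmul, m1 a ha, m1 _ hσa, hστ]
    congr 1
    symm
    apply hk'
    have h1 := hστ (k a ha) v₀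
    rw [hk a ha, hσ₀] at h1
    exact h1.symm
  let S : V ≃+* V := { σ with map_mul' := hσm }
  have hS : ∀ v, S v = σ v := fun _ => rfl
  have hSn : ∀ (n : ℕ) v, (S ^ n) v = (σ : V → V)^[n] v := by
    intro n
    induction n with
    | zero => intro v; rfl
    | succ n ih =>
      intro v
      rw [pow_succ', Function.iterate_succ_apply', ← ih]
      rfl
  have hSr : S ^ r = 1 := by
    apply RingEquiv.ext
    intro v
    rw [hSn, hσr]; rfl
  have hS1 : S ≠ 1 := by
    intro h
    have h1 : ∀ v : V, v = 0 ∨ v = v₀ := by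
      intro v
      apply hfix
      rw [← hS, h]; rfl
    have h2 : Nat.card V ≤ 2 := by
      haveI := Fintype.ofFinite V
      rw [Nat.card_eq_fintype_card, ← Finset.card_univ]
      calc (Finset.univ : Finset V).card ≤ ({0, v₀} : Finset V).card := by
            apply Finset.card_le_card
            intro v _
            rcases h1 v with h | h <;> simp [h]
        _ ≤ 2 := Finset.card_le_two
    omega
  have hord : orderOf S = r := by
    haveI : Fact r.Prime := ⟨hr⟩
    exact orderOf_eq_prime hSr hS1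
  let Z : Subgroup (V ≃+* V) := Subgroup.zpowers S
  haveI : Finite (V ≃+* V) := Finite.of_injective (fun f => (f : V → V)) DFunLike.coe_injective
  haveI : Fintype Z := Fintype.ofFinite Z
  haveI : FaithfulSMul Z V := ⟨fun {g h} hgh => Subtype.ext (RingEquiv.ext hgh)⟩
  have hfr := FixedPoints.finrank_eq_card Z V
  haveI : Fintype V := Fintype.ofFinite V
  haveI : Fintype (FixedPoints.subfield Z V) := Fintype.ofFinite _
  have hc := Module.card_eq_pow_finrank (K := FixedPoints.subfield Z V) (V := V)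
  rw [hfr] at hc
  have hZc : Fintype.card Z = r := by
    rw [← Nat.card_eq_fintype_card, Nat.card_zpowers, hord]
  have hK : Fintype.card (FixedPoints.subfield Z V) = 2 := by
    have h1 : ∀ v : V, v ∈ FixedPoints.subfield Z V ↔ v = 0 ∨ v = v₀ := by
      intro v
      constructor
      · intro hv
        apply hfix
        exact hv ⟨S, Subgroup.mem_zpowers S⟩
      · rintro (rfl | rfl)
        · exact zero_mem _
        · exact one_mem _
    rw [← Nat.card_eq_fintype_card]
    have h2 : Nat.card (FixedPoints.subfield Z V) = Nat.card {v : V // v ∈ ({0, v₀} : Finset V)} := by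
      apply Nat.card_congr
      refine Equiv.subtypeEquivRight (fun v => ?_)
      rw [h1 v]; simp
    rw [h2, Nat.card_eq_fintype_card, Fintype.card_coe, Finset.card_pair hv₀.symm]
  rw [hK, hZc] at hc
  rw [Nat.card_eq_fintype_card, hc]

end field
noncomputable section

section reg

/-- an odd order nilpotent group acting without fixed points on a normal subgroup is commutative -/
theorem comm_of_fpf {G : Type*} [Group G] [Finite G] (N H : Subgroup G) [hNn : N.Normal] (hN : N ≠ ⊥)
    (hodd : Odd (Nat.card H)) (hnil : Group.IsNilpotent H)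
    (hfpf : ∀ u ∈ H, u ≠ 1 → ∀ r ∈ N, u * r = r * u → r = 1) (hdisj : N ⊓ H = ⊥) :
    ∀ u ∈ H, ∀ v ∈ H, u * v = v * u := by
  classical
  let S : Subgroup G := N ⊔ H
  let K₁ : Subgroup S := N.subgroupOf S
  let H₁ : Subgroup S := H.subgroupOf S
  haveI : K₁.Normal := inferInstance
  have hc : Subgroup.IsComplement' K₁ H₁ := by
    apply Subgroup.isComplement'_of_disjoint_and_mul_eq_univ
    · rw [disjoint_iff, eq_bot_iff]
      intro x hx
      have h1 : (x : G) ∈ N ⊓ H := ⟨hx.1, hx.2⟩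
      rw [hdisj, Subgroup.mem_bot] at h1
      rw [Subgroup.mem_bot]
      exact Subtype.ext h1
    · rw [Set.eq_univ_iff_forall]
      rintro ⟨x, hx⟩
      have h1 : x ∈ ((N ⊔ H : Subgroup G) : Set G) := hx
      rw [Subgroup.normal_mul] at h1
      obtain ⟨n, hn, u, hu, rfl⟩ := h1
      exact ⟨⟨n, (le_sup_left : N ≤ N ⊔ H) hn⟩, hn, ⟨u, (le_sup_right : H ≤ N ⊔ H) hu⟩, hu, rfl⟩
  have hK₁ : K₁ ≠ ⊥ := by
    intro h
    apply hN
    rw [eq_bot_iff]
    intro x hx
    have h1 : (⟨x, (le_sup_left : N ≤ N ⊔ H) hx⟩ : S) ∈ K₁ := hx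
    rw [h, Subgroup.mem_bot] at h1
    rw [Subgroup.mem_bot]
    exact congrArg Subtype.val h1
  have hfpf' : ∀ h ∈ H₁, h ≠ 1 → K₁ ⊓ Subgroup.centralizer {h} = ⊥ := by
    intro h hh h1
    rw [eq_bot_iff]
    intro x hx
    obtain ⟨hx1, hx2⟩ := Subgroup.mem_inf.mp hx
    rw [Subgroup.mem_centralizer_singleton_iff] at hx2
    rw [Subgroup.mem_bot]
    apply Subtype.ext
    exact hfpf h hh (fun e => h1 (Subtype.ext e)) x hx1 (congrArg Subtype.val hx2).symm
  let e : H₁ ≃* H := Subgroup.subgroupOfEquivOfLe (le_sup_right : H ≤ N ⊔ H)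
  have hZ : IsZGroup H₁ := by
    rw [isZGroup_iff]
    intro p hp P
    haveI : Fact p.Prime := ⟨hp⟩
    rcases S0040.result K₁ H₁ hc hK₁ hfpf' p P with h | ⟨n, ⟨f⟩⟩
    · exact h
    · exfalso
      have h1 : Nat.card P = Nat.card (QuaternionGroup (2 ^ n)) := Nat.card_congr f.toEquiv
      rw [Nat.card_eq_fintype_card (α := QuaternionGroup (2 ^ n)), QuaternionGroup.card] at h1
      have h2 : Nat.card P ∣ Nat.card H₁ := Subgroup.card_subgroup_dvd_card _
      have h3 : Nat.card H₁ = Nat.card H := Nat.card_congr e.toEquiv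
      rw [h1, h3] at h2
      have h4 := Odd.of_dvd_nat hodd h2
      rw [← Nat.not_even_iff_odd] at h4
      exact h4 ⟨2 * 2 ^ n, by ring⟩
  haveI : IsZGroup H := IsZGroup.of_surjective (f := e.toMonoidHom) e.surjective
  haveI : IsCyclic H := inferInstance
  letI : CommGroup H := IsCyclic.commGroup
  intro u hu v hv
  have h1 : (⟨u, hu⟩ : H) * ⟨v, hv⟩ = ⟨v, hv⟩ * ⟨u, hu⟩ := mul_comm _ _
  exact congrArg Subtype.val h1

theorem index_two {G Ω : Type*} [Group G] [Finite G] [MulAction G Ω] [Fintype Ω]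
    (h2 : MulAction.IsMultiplyPretransitive G Ω 2) {a b : Ω} (hab : a ≠ b) :
    ((stabilizer G b).subgroupOf (stabilizer G a)).index + 1 = Fintype.card Ω := by
  classical
  have h1 : (stabilizer G b).subgroupOf (stabilizer G a) = stabilizer (stabilizer G a) b := by
    ext x
    rw [Subgroup.mem_subgroupOf, mem_stabilizer_iff, mem_stabilizer_iff]
    rfl
  rw [h1, index_stabilizer]
  have h2 : orbit (stabilizer G a) b = {a}ᶜ := by
    ext c
    rw [mem_orbit_iff, Set.mem_compl_iff, Set.mem_singleton_iff]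
    constructor
    · rintro ⟨g, rfl⟩ h
      apply hab
      have h3 : (g : G) • a = a := g.2
      have h4 : (g : G) • b = a := h
      exact MulAction.injective (g : G) (h3.trans h4.symm)
    · intro hc
      rw [MulAction.is_two_pretransitive_iff] at h2
      obtain ⟨g, hg1, hg2⟩ := h2 hab (Ne.symm hc)
      exact ⟨⟨g, hg1⟩, hg2⟩
  rw [h2, Set.ncard_compl, Set.ncard_singleton, Nat.card_eq_fintype_card]
  have : 0 < Fintype.card Ω := Fintype.card_pos_iff.mpr ⟨a⟩
  omega

/-- **S0341 core** -/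
theorem regular_degree {G Ω : Type*} [Group G] [Finite G] [MulAction G Ω] [Fintype Ω] [FaithfulSMul G Ω]
    (h2 : MulAction.IsMultiplyPretransitive G Ω 2)
    (h3 : ∀ g : G, ∀ a b c : Ω, a ≠ b → b ≠ c → a ≠ c → g • a = a → g • b = b → g • c = c → g = 1)
    (hfix : ∃ g : G, g ≠ 1 ∧ ∃ a b : Ω, a ≠ b ∧ g • a = a ∧ g • b = b)
    (R : Subgroup G) [hRn : R.Normal] (htrans : ∀ c d : Ω, ∃ r ∈ R, r • c = d)
    (hfree : ∀ r ∈ R, ∀ c : Ω, r • c = c → r = 1) : ∃ p : ℕ, p.Prime ∧ Fintype.card Ω = 2 ^ p := by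
  classical
  obtain ⟨x₀, hx₀1, a, b, hab, hx₀a, hx₀b⟩ := hfix
  have h2' := h2
  rw [MulAction.is_two_pretransitive_iff] at h2'
  have huniq : ∀ r ∈ R, ∀ s ∈ R, ∀ c : Ω, r • c = s • c → r = s := by
    intro r hr s hs c h
    have h1 := hfree (s⁻¹ * r) (mul_mem (inv_mem hs) hr) c (by rw [mul_smul, h, inv_smul_smul])
    exact (inv_mul_eq_one.mp h1).symm
  have hconj : ∀ r ∈ R, r ≠ 1 → ∀ s ∈ R, s ≠ 1 → ∃ n : G, n * r * n⁻¹ = s := by
    intro r hr hr1 s hs hs1
    have e1 : a ≠ r • a := fun h => hr1 (hfree r hr a h.symm)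
    have e2 : a ≠ s • a := fun h => hs1 (hfree s hs a h.symm)
    obtain ⟨n, hna, hnr⟩ := h2' e1 e2
    refine ⟨n, ?_⟩
    apply huniq _ (hRn.conj_mem r hr n) s hs a
    have e3 : n⁻¹ • a = a := by rw [inv_smul_eq_iff]; exact hna.symm
    rw [mul_smul, mul_smul, e3, hnr]
  obtain ⟨r₀, hr₀, hr₀a⟩ := htrans a b
  have hr₀1 : r₀ ≠ 1 := by rintro rfl; rw [one_smul] at hr₀a; exact hab hr₀a
  have hcomm : ∀ r ∈ R, ∀ s ∈ R, r * s = s * r := by
    haveI : Nontrivial R := ⟨⟨r₀, hr₀⟩, 1, fun h => hr₀1 (congrArg Subtype.val h)⟩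
    obtain ⟨p, hp, hdvd⟩ := Nat.exists_prime_and_dvd (n := Nat.card R) (Finite.one_lt_card (α := R)).ne'
    haveI : Fact p.Prime := ⟨hp⟩
    obtain ⟨x, hx⟩ := exists_prime_orderOf_dvd_card' p hdvd
    have hx1 : (x : G) ≠ 1 := by
      intro h
      rw [← Subgroup.orderOf_coe, h, orderOf_one] at hx
      exact hp.one_lt.ne hx
    have hR : IsPGroup p R := by
      intro y
      by_cases hy : (y : G) = 1
      · exact ⟨0, by rw [pow_zero, pow_one]; exact Subtype.ext hy⟩
      · obtain ⟨n, h1⟩ := hconj x x.2 hx1 y y.2 hy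
        refine ⟨1, Subtype.ext ?_⟩
        have h2 : orderOf (x : G) = p := by rw [Subgroup.orderOf_coe]; exact hx
        have h3 : (x : G) ^ p = 1 := by rw [← h2]; exact pow_orderOf_eq_one _
        rw [pow_one, Subgroup.coe_pow, ← h1, conj_pow, h3, mul_one, mul_inv_cancel, Subgroup.coe_one]
    haveI : Nontrivial (Subgroup.center R) := hR.center_nontrivial
    obtain ⟨z, hz⟩ := exists_ne (1 : Subgroup.center R)
    have hz1 : ((z : R) : G) ≠ 1 := fun h => hz (Subtype.ext (Subtype.ext h))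
    have hzc : ∀ s ∈ R, (z : R) * s = s * (z : R).1 := by
      intro s hs
      have := Subgroup.mem_center_iff.mp z.2 ⟨s, hs⟩
      exact (congrArg Subtype.val this).symm
    intro r hr s hs
    by_cases hr1 : r = 1
    · rw [hr1, one_mul, mul_one]
    · obtain ⟨n, h1⟩ := hconj _ z.1.2 hz1 r hr hr1
      have h2 : n⁻¹ * s * n ∈ R := by
        have := hRn.conj_mem s hs n⁻¹
        rwa [inv_inv] at this
      have h3 := hzc _ h2
      rw [← h1]
      calc n * (z : R).1 * n⁻¹ * s = n * ((z : R).1 * (n⁻¹ * s * n)) * n⁻¹ := by group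
        _ = n * ((n⁻¹ * s * n) * (z : R).1) * n⁻¹ := by rw [h3]
        _ = _ := by group
  -- centralizers of elements fixing `a` and `b`
  have hcent : ∀ x : G, x ≠ 1 → x • a = a → x • b = b → ∀ w ∈ R, x * w * x⁻¹ = w → w = 1 ∨ w = r₀ := by
    intro x hx1 hxa hxb w hw hxw
    have e1 : x • (w • a) = w • a := by
      have e2 : x⁻¹ • a = a := by rw [inv_smul_eq_iff]; exact hxa.symm
      nth_rw 2 [← hxw]
      rw [mul_smul, mul_smul, e2]
    by_cases hwa : w • a = a
    · exact Or.inl (hfree w hw a hwa)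
    by_cases hwb : w • a = b
    · exact Or.inr (huniq w hw r₀ hr₀ a (hwb.trans hr₀a.symm))
    · exact absurd (h3 x a b (w • a) hab (Ne.symm hwb) (Ne.symm hwa) hxa hxb e1) hx1
  have hfixr₀ : ∀ x : G, x • a = a → x • b = b → x * r₀ * x⁻¹ = r₀ := by
    intro x hxa hxb
    apply huniq _ (hRn.conj_mem r₀ hr₀ x) r₀ hr₀ a
    have e2 : x⁻¹ • a = a := by rw [inv_smul_eq_iff]; exact hxa.symm
    rw [mul_smul, mul_smul, e2, hr₀a, hxb]
  have hr₀sq : r₀ * r₀ = 1 := by
    have e1 : x₀ * (r₀ * r₀) * x₀⁻¹ = r₀ * r₀ := by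
      have e2 := hfixr₀ x₀ hx₀a hx₀b
      calc x₀ * (r₀ * r₀) * x₀⁻¹ = (x₀ * r₀ * x₀⁻¹) * (x₀ * r₀ * x₀⁻¹) := by group
        _ = _ := by rw [e2]
    rcases hcent x₀ hx₀1 hx₀a hx₀b _ (mul_mem hr₀ hr₀) e1 with h | h
    · exact h
    · exact absurd (mul_eq_left.mp h) hr₀1
  have hsq : ∀ r ∈ R, r * r = 1 := by
    intro r hr
    by_cases hr1 : r = 1
    · rw [hr1, one_mul]
    · obtain ⟨n, h1⟩ := hconj _ hr₀ hr₀1 r hr hr1
      rw [← h1]
      calc n * r₀ * n⁻¹ * (n * r₀ * n⁻¹) = n * (r₀ * r₀) * n⁻¹ := by group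
        _ = 1 := by rw [hr₀sq]; group
  -- number of points
  have hRcard : Nat.card R = Fintype.card Ω := by
    rw [← Nat.card_eq_fintype_card]
    apply Nat.card_congr
    refine Equiv.ofBijective (fun r : R => r.1 • a) ⟨?_, ?_⟩
    · intro r s hrs
      exact Subtype.ext (huniq r.1 r.2 s.1 s.2 a hrs)
    · intro c
      obtain ⟨r, hr, hrc⟩ := htrans a c
      exact ⟨⟨r, hr⟩, hrc⟩
  obtain ⟨c₀, hc₀a, hc₀b⟩ : ∃ c : Ω, a ≠ c ∧ b ≠ c := by
    by_contra hcon
    push Not at hcon
    apply hx₀1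
    apply FaithfulSMul.eq_of_smul_eq_smul (α := Ω)
    intro c
    rw [one_smul]
    by_cases hc : a = c
    · rw [← hc]; exact hx₀a
    · rw [← hcon c hc]; exact hx₀b
  have hΩ : 2 < Fintype.card Ω := Fintype.two_lt_card_iff.mpr ⟨a, b, c₀, hab, hc₀a, hc₀b⟩
  -- the Frobenius kernel of the point stabilizer
  have hF : IsFrobeniusComplement ((stabilizer G b).subgroupOf (stabilizer G a)) := by
    refine ⟨?_, ?_, ?_⟩
    · intro h
      have : (⟨x₀, hx₀a⟩ : stabilizer G a) ∈ (stabilizer G b).subgroupOf (stabilizer G a) := hx₀b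
      rw [h, Subgroup.mem_bot] at this
      exact hx₀1 (congrArg Subtype.val this)
    · intro h
      obtain ⟨g, hga, hgb⟩ := h2' hab hc₀a
      have h1 : (⟨g, hga⟩ : stabilizer G a) ∈ (stabilizer G b).subgroupOf (stabilizer G a) := by
        rw [h]; exact Subgroup.mem_top _
      have h4 : g • b = b := h1
      exact hc₀b (h4.symm.trans hgb)
    · intro g hg
      rw [eq_bot_iff]
      intro x hx
      obtain ⟨hx1, hx2⟩ := Subgroup.mem_inf.mp hx
      rw [Cfsg.Agent.Lib.SchurZas.mem_conj_smul_iff] at hx2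
      rw [Subgroup.mem_subgroupOf] at hx1
      rw [Subgroup.mem_subgroupOf] at hx2 hg
      rw [Subgroup.mem_bot]
      apply Subtype.ext
      have hx1' : (x : G) • b = b := hx1
      have hxa : (x : G) • a = a := x.2
      have hx2' : (x : G) • ((g : G) • b) = (g : G) • b := by
        have h4 : ((g : G)⁻¹ * x * g) • b = b := hx2
        rw [mul_smul, mul_smul, inv_smul_eq_iff] at h4
        exact h4
      have hga : (g : G) • a = a := g.2
      apply h3 (x : G) a b ((g : G) • b) hab (fun h => hg h.symm) _ hxa hx1' hx2'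
      intro h
      apply hab
      exact MulAction.injective (g : G) (hga.trans h)
  obtain ⟨M, hM, hMn, hMnil⟩ := S0042.result _ hF
  have hcard := Cfsg.Agent.Lib.Frob.card_kernel (H := (stabilizer G b).subgroupOf (stabilizer G a)) hF.2.2
  rw [← hM] at hcard
  have hidx := index_two h2 hab
  let H : Subgroup G := M.map (stabilizer G a).subtype
  have hHa : H ≤ stabilizer G a := Subgroup.map_subtype_le M
  have hHc : Nat.card H = Nat.card M := Subgroup.card_map_of_injective Subtype.val_injective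
  have hHcard : Nat.card H + 1 = Fintype.card Ω := by
    have e2 : Nat.card M = ((stabilizer G b).subgroupOf (stabilizer G a)).index := hcard
    rw [hHc, e2]; exact hidx
  have hHfix : ∀ u ∈ H, u ≠ 1 → ∀ c : Ω, u • c = c → c = a := by
    rintro u hu hu1 c hc
    obtain ⟨v, hv, rfl⟩ := Subgroup.mem_map.mp hu
    by_contra hca
    have hv1 : v ≠ 1 := by rintro rfl; exact hu1 rfl
    have h3 : v ∈ frobeniusKernel ((stabilizer G b).subgroupOf (stabilizer G a)) := by rw [← hM]; exact hv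
    rcases h3 with h3 | h3
    · exact hv1 h3
    obtain ⟨g, hga, hgb⟩ := h2' hab (Ne.symm hca)
    apply h3 ⟨g, hga⟩
    rw [Cfsg.Agent.Lib.SchurZas.mem_conj_smul_iff, Subgroup.mem_subgroupOf]
    change (g⁻¹ * (v : G) * g) • b = b
    rw [mul_smul, mul_smul, hgb, inv_smul_eq_iff, hgb]
    exact hc
  have hHn : ∀ g : G, g • a = a → ∀ u ∈ H, g * u * g⁻¹ ∈ H := by
    intro g hg u hu
    obtain ⟨v, hv, rfl⟩ := Subgroup.mem_map.mp hu
    exact Subgroup.mem_map.mpr ⟨⟨g, hg⟩ * v * ⟨g, hg⟩⁻¹, hMn.conj_mem v hv _, rfl⟩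
  have hHnil : Group.IsNilpotent H :=
    (Group.isNilpotent_congr (Subgroup.equivMapOfInjective M _ Subtype.val_injective)).mp hMnil
  have hHodd : Odd (Nat.card H) := by
    have e1 : Even (Fintype.card Ω) := by
      rw [← hRcard, even_iff_two_dvd]
      have e2 : orderOf (⟨r₀, hr₀⟩ : R) = 2 := by
        apply orderOf_eq_prime
        · exact Subtype.ext (by rw [pow_two]; exact hr₀sq)
        · intro h; exact hr₀1 (congrArg Subtype.val h)
      rw [← e2]; exact orderOf_dvd_natCard _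
    rw [← hHcard, Nat.even_add_one, Nat.not_even_iff_odd] at e1
    exact e1
  have hHcomm : ∀ u ∈ H, ∀ v ∈ H, u * v = v * u := by
    apply comm_of_fpf R H _ hHodd hHnil
    · intro u hu hu1 r hr hur
      apply hfree r hr a
      apply hHfix u hu hu1
      have hua : u • a = a := hHa hu
      rw [← mul_smul, hur, mul_smul, hua]
    · rw [eq_bot_iff]
      intro x hx
      obtain ⟨hx1, hx2⟩ := Subgroup.mem_inf.mp hx
      rw [Subgroup.mem_bot]
      exact hfree x hx1 a (hHa hx2)
    · intro h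
      rw [h, Subgroup.mem_bot] at hr₀
      exact hr₀1 hr₀
  -- an element of prime order fixing `a` and `b`
  obtain ⟨q, hq, x, hx1, hxq, hxa, hxb⟩ : ∃ q : ℕ, q.Prime ∧ ∃ x : G, x ≠ 1 ∧ x ^ q = 1 ∧ x • a = a ∧ x • b = b := by
    haveI : Nontrivial (stabilizer G a ⊓ stabilizer G b : Subgroup G) :=
      ⟨⟨x₀, mem_two.mpr ⟨hx₀a, hx₀b⟩⟩, 1, fun h => hx₀1 (congrArg Subtype.val h)⟩
    obtain ⟨q, hq, hdvd⟩ := Nat.exists_prime_and_dvd
      (n := Nat.card (stabilizer G a ⊓ stabilizer G b : Subgroup G)) Finite.one_lt_card.ne'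
    haveI : Fact q.Prime := ⟨hq⟩
    obtain ⟨y, hy⟩ := exists_prime_orderOf_dvd_card' q hdvd
    refine ⟨q, hq, y.1, ?_, ?_, (mem_two.mp y.2).1, (mem_two.mp y.2).2⟩
    · intro h
      have : y = 1 := Subtype.ext h
      rw [this, orderOf_one] at hy
      exact hq.one_lt.ne hy
    · have : y ^ q = 1 := by rw [← hy]; exact pow_orderOf_eq_one y
      have e1 := congrArg Subtype.val this
      simpa using e1
  refine ⟨q, hq, ?_⟩
  letI instR : CommGroup R :=
    { (inferInstance : Group R) with mul_comm := fun r s => Subtype.ext (hcomm r.1 r.2 s.1 s.2) }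
  let act : H → Additive R → Additive R := fun u r =>
    Additive.ofMul ⟨u.1 * (Additive.toMul r).1 * u.1⁻¹, hRn.conj_mem _ (Additive.toMul r).2 _⟩
  let σm : R ≃* R :=
    { toFun := fun r => ⟨x * r.1 * x⁻¹, hRn.conj_mem _ r.2 _⟩
      invFun := fun r => ⟨x⁻¹ * r.1 * x, by have := hRn.conj_mem _ r.2 x⁻¹; rwa [inv_inv] at this⟩
      left_inv := fun r => Subtype.ext (by change x⁻¹ * (x * r.1 * x⁻¹) * x = r.1; group)
      right_inv := fun r => Subtype.ext (by change x * (x⁻¹ * r.1 * x) * x⁻¹ = r.1; group)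
      map_mul' := fun r s => Subtype.ext (by
        change x * (r.1 * s.1) * x⁻¹ = x * r.1 * x⁻¹ * (x * s.1 * x⁻¹)
        group) }
  let σ : Additive R ≃+ Additive R := MulEquiv.toAdditive σm
  have hσ : ∀ v : Additive R, (Additive.toMul (σ v)).1 = x * (Additive.toMul v).1 * x⁻¹ := fun _ => rfl
  let τ : H → H := fun u => ⟨x * u.1 * x⁻¹, hHn x hxa u.1 u.2⟩
  have hext : ∀ v w : Additive R, (Additive.toMul v).1 = (Additive.toMul w).1 → v = w := fun v w h =>
    Additive.toMul.injective (Subtype.ext h)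
  have hmain := card_of_regular (V := Additive R) (H := H) (fun u v => Subtype.ext (hHcomm u.1 u.2 v.1 v.2)) act
    (fun v => hext _ _ (by change (1 : G) * _ * (1 : G)⁻¹ = _; group))
    (fun u w v => hext _ _ (by
      change u.1 * w.1 * (Additive.toMul v).1 * (u.1 * w.1)⁻¹ = u.1 * (w.1 * (Additive.toMul v).1 * w.1⁻¹) * u.1⁻¹
      group))
    (fun u v w => hext _ _ (by
      change u.1 * ((Additive.toMul v).1 * (Additive.toMul w).1) * u.1⁻¹ =
        (u.1 * (Additive.toMul v).1 * u.1⁻¹) * (u.1 * (Additive.toMul w).1 * u.1⁻¹)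
      group))
    (Additive.ofMul ⟨r₀, hr₀⟩) (fun h => hr₀1 (congrArg (fun v : Additive R => (Additive.toMul v).1) h))
    (by
      intro w hw
      have hw1 : (Additive.toMul w).1 ≠ 1 := fun h => hw (hext _ _ h)
      have e1 : (Additive.toMul w).1 • a ≠ a := fun h => hw1 (hfree _ (Additive.toMul w).2 a h)
      obtain ⟨u, hu, hub⟩ := H_trans H hHa hHcard hHfix (Ne.symm hab) e1
      refine ⟨⟨u, hu⟩, hext _ _ ?_⟩
      change u * r₀ * u⁻¹ = (Additive.toMul w).1
      apply huniq _ (hRn.conj_mem _ hr₀ _) _ (Additive.toMul w).2 a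
      have e2 : u⁻¹ • a = a := by rw [inv_smul_eq_iff]; exact (hHa hu : u • a = a).symm
      rw [mul_smul, mul_smul, e2, hr₀a, hub])
    (by
      intro u v huv
      have e1 : u.1 * r₀ * u.1⁻¹ = v.1 * r₀ * v.1⁻¹ := congrArg (fun v : Additive R => (Additive.toMul v).1) huv
      by_contra hne
      have hua : u.1⁻¹ • a = a := by rw [inv_smul_eq_iff]; exact (hHa u.2 : u.1 • a = a).symm
      have hva : v.1⁻¹ • a = a := by rw [inv_smul_eq_iff]; exact (hHa v.2 : v.1 • a = a).symm
      have e2 : u.1 • b = v.1 • b := by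
        have e3 : (u.1 * r₀ * u.1⁻¹) • a = (v.1 * r₀ * v.1⁻¹) • a := by rw [e1]
        rw [mul_smul, mul_smul, hua, hr₀a, mul_smul, mul_smul, hva, hr₀a] at e3
        exact e3
      have e4 := hHfix (v.1⁻¹ * u.1) (mul_mem (inv_mem v.2) u.2)
        (fun h => hne (Subtype.ext (inv_mul_eq_one.mp h).symm)) b (by rw [mul_smul, e2, inv_smul_smul])
      exact hab e4.symm)
    σ τ
    (fun u v => hext _ _ (by
      change x * (u.1 * (Additive.toMul v).1 * u.1⁻¹) * x⁻¹ =
        (x * u.1 * x⁻¹) * (x * (Additive.toMul v).1 * x⁻¹) * (x * u.1 * x⁻¹)⁻¹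
      group))
    (hext _ _ (hfixr₀ x hxa hxb)) hq
    (by
      intro v
      have e1 : ∀ n : ℕ, (Additive.toMul ((σ : Additive R → Additive R)^[n] v)).1 = x ^ n * (Additive.toMul v).1 * (x ^ n)⁻¹ := by
        intro n
        induction n with
        | zero => simp
        | succ n ih =>
          rw [Function.iterate_succ_apply', hσ, ih, pow_succ']; group
      apply hext
      rw [e1, hxq]; group)
    (by
      intro v hv
      have e1 : x * (Additive.toMul v).1 * x⁻¹ = (Additive.toMul v).1 :=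
        congrArg (fun v : Additive R => (Additive.toMul v).1) hv
      rcases hcent x hx1 hxa hxb _ (Additive.toMul v).2 e1 with h | h
      · left; exact hext _ _ h
      · right; exact hext _ _ h)
    (by
      change 2 < Nat.card R
      rw [hRcard]; exact hΩ)
  change Nat.card R = 2 ^ q at hmain
  rw [← hRcard]; exact hmain

end reg

end

end

end Cfsg.Agent.Lib.ZassReg
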