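import Mathlib

/-!
# Arithmetic for the order of simple Zassenhaus groups with nonabelian kernel
-/

set_option autoImplicit false

namespace Cfsg.Agent.Lib.ZassSuzA

section arith

/-- `2 q` is a square only for odd exponents -/
theorem odd_of_sq {k : ℕ} {w : ℤ} (h : w ^ 2 = 2 * 2 ^ k) : Odd k := by
  have h1 : (w.natAbs) ^ 2 = 2 ^ (k + 1) := by
    have : ((w.natAbs ^ 2 : ℕ) : ℤ) = ((2 ^ (k + 1) : ℕ) : ℤ) := by
      push_cast
      rw [sq_abs, h]; ring
    exact_mod_cast this
  have h2 := congrArg (fun m => m.factorization 2) h1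
  simp only [Nat.factorization_pow, Finsupp.smul_apply, smul_eq_mul, Nat.Prime.factorization Nat.prime_two,
    Finsupp.single_eq_same, mul_one] at h2
  rw [← Nat.not_even_iff_odd]
  rintro ⟨j, hj⟩
  omega

theorem not_sq_three {k : ℕ} {w : ℤ} (h : w ^ 2 = 3 * 2 ^ k) : False := by
  have h3 : Prime (3 : ℤ) := Int.prime_three
  have h1 : (3 : ℤ) ∣ w := h3.dvd_of_dvd_pow (n := 2) ⟨2 ^ k, h⟩
  obtain ⟨v, rfl⟩ := h1
  have h2 : (3 : ℤ) ∣ 2 ^ k := ⟨v ^ 2, by linarith⟩
  have h4 : (3 : ℤ) ∣ 2 := h3.dvd_of_dvd_pow h2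
  omega

theorem not_sq_sub_one {k : ℕ} (hk : 2 ≤ k) {w : ℤ} (h : w ^ 2 = 2 ^ k - 1) : False := by
  obtain ⟨j, rfl⟩ := Nat.exists_eq_add_of_le hk
  have h1 : (2 : ℤ) ^ (2 + j) = 4 * 2 ^ j := by rw [pow_add]; norm_num
  rw [h1] at h
  have h2 : w ^ 2 % 4 = 3 := by rw [h]; omega
  rcases Int.even_or_odd w with ⟨v, rfl⟩ | ⟨v, rfl⟩
  · have : (v + v) ^ 2 = 4 * v ^ 2 := by ring
    omega
  · have : (2 * v + 1) ^ 2 = 4 * (v ^ 2 + v) + 1 := by ring
    omega

/-- Case I -/
theorem case_one {ι : Type*} [DecidableEq ι] (Y : Finset ι) (s q F : ℤ) (hs : 1 ≤ s) (hq : q = 2 * s + 2) (hq4 : q = 4 ∨ 8 ≤ q)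
    (hF : 1 ≤ F) (D C : ι → ℤ) (hD : ∀ i ∈ Y, 0 < D i) (hC : ∀ i ∈ Y, 0 < C i) (hodd : ∀ i ∈ Y, Odd (C i))
    (hDC : ∀ i ∈ Y, D i * C i = (q - 1) * F + 2)
    (hcard : (Y.card : ℤ) = s + 1) (hsum : ∑ i ∈ Y, D i = 1 + s * F) {i₁ : ι} (hi₁ : i₁ ∈ Y)
    (hsq : ∑ i ∈ Y, D i ^ 2 + q * D i₁ ^ 2 ≤ F + s * F ^ 2) : False := by
  have hne : ∀ i ∈ Y, C i ≠ q - 1 := by
    intro i hi h
    have h1 : (q - 1) ∣ 2 := by
      have h2 := hDC i hi
      rw [h] at h2
      exact ⟨D i - F, by linarith⟩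
    have h2 := Int.le_of_dvd (by norm_num) h1
    omega
  -- each deviation is large
  have ht : ∀ i ∈ Y, 4 * (F - 1) ^ 2 ≤ ((q + 1) * (F - D i)) ^ 2 := by
    intro i hi
    have hDi := hD i hi
    have hCi := hC i hi
    have hdc := hDC i hi
    obtain ⟨c, hc⟩ := hodd i hi
    have hCne := hne i hi
    rcases lt_or_gt_of_ne hCne with hlt | hgt
    · -- C ≤ q - 3
      have hC3 : C i ≤ q - 3 := by omega
      have h1 : 2 * (F - 1) ≤ (q + 1) * (D i - F) := by
        have h2 : C i * (2 * (F - 1)) ≤ C i * ((q + 1) * (D i - F)) := by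
          have h3 : C i * ((q + 1) * (D i - F)) = (q + 1) * ((q - 1) * F + 2 - C i * F) := by
            linear_combination (q + 1) * hdc
          rw [h3]
          nlinarith [mul_nonneg (show (0:ℤ) ≤ q - 3 - C i by omega) (show (0:ℤ) ≤ F by omega),
            mul_nonneg (show (0:ℤ) ≤ q - 3 - C i by omega) (show (0:ℤ) ≤ q by omega)]
        exact le_of_mul_le_mul_left h2 hCi
      nlinarith
    · have hC3 : q + 1 ≤ C i := by omega
      have h1 : 2 * (F - 1) ≤ (q + 1) * (F - D i) := by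
        have h2 : C i * (2 * (F - 1)) ≤ C i * ((q + 1) * (F - D i)) := by
          have h3 : C i * ((q + 1) * (F - D i)) = (q + 1) * (C i * F - ((q - 1) * F + 2)) := by
            linear_combination (-(q + 1)) * hdc
          rw [h3]
          nlinarith [mul_nonneg (show (0:ℤ) ≤ C i - (q + 1) by omega) (mul_nonneg (show (0:ℤ) ≤ F by omega) (show (0:ℤ) ≤ q - 1 by omega))]
        exact le_of_mul_le_mul_left h2 hCi
      nlinarith
  have hsumt : ∑ i ∈ Y.erase i₁, (F - D i) = D i₁ - 1 := by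
    have h1 := Finset.add_sum_erase Y D hi₁
    rw [Finset.sum_sub_distrib, Finset.sum_const, nsmul_eq_mul, Finset.card_erase_of_mem hi₁]
    have h2 : ((Y.card - 1 : ℕ) : ℤ) = s := by
      have : 1 ≤ Y.card := Finset.card_pos.mpr ⟨i₁, hi₁⟩
      push_cast [Nat.cast_sub this]; linarith
    rw [h2]
    linarith
  have hsumt2 : ∑ i ∈ Y.erase i₁, (F - D i) ^ 2 ≤ 2 * F * D i₁ - F - (q + 1) * D i₁ ^ 2 := by
    have h1 := Finset.add_sum_erase Y (fun i => D i ^ 2) hi₁
    have h3 := Finset.add_sum_erase Y D hi₁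
    have h2 : ((Y.card - 1 : ℕ) : ℤ) = s := by
      have : 1 ≤ Y.card := Finset.card_pos.mpr ⟨i₁, hi₁⟩
      push_cast [Nat.cast_sub this]; linarith
    have h4 : ∑ i ∈ Y.erase i₁, (F - D i) ^ 2 = s * F ^ 2 - 2 * F * ∑ i ∈ Y.erase i₁, D i + ∑ i ∈ Y.erase i₁, D i ^ 2 := by
      rw [Finset.mul_sum, ← h2, ← Finset.card_erase_of_mem hi₁]
      rw [show ((Y.erase i₁).card : ℤ) * F ^ 2 = ∑ i ∈ Y.erase i₁, F ^ 2 by rw [Finset.sum_const, nsmul_eq_mul]]
      rw [← Finset.sum_sub_distrib, ← Finset.sum_add_distrib]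
      exact Finset.sum_congr rfl fun i _ => by ring
    rw [h4]
    have h5 : ∑ i ∈ Y.erase i₁, D i = 1 + s * F - D i₁ := by linarith
    have h6 : ∑ i ∈ Y.erase i₁, D i ^ 2 ≤ F + s * F ^ 2 - q * D i₁ ^ 2 - D i₁ ^ 2 := by linarith
    rw [h5]
    nlinarith
  have hlow : 4 * (F - 1) ^ 2 * s ≤ (q + 1) ^ 2 * ∑ i ∈ Y.erase i₁, (F - D i) ^ 2 := by
    have h2 : ((Y.card - 1 : ℕ) : ℤ) = s := by
      have : 1 ≤ Y.card := Finset.card_pos.mpr ⟨i₁, hi₁⟩
      push_cast [Nat.cast_sub this]; linarith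
    rw [Finset.mul_sum, ← h2, ← Finset.card_erase_of_mem hi₁, mul_comm, ← nsmul_eq_mul, ← Finset.sum_const]
    apply Finset.sum_le_sum
    intro i hi
    have := ht i (Finset.mem_of_mem_erase hi)
    calc 4 * (F - 1) ^ 2 ≤ ((q + 1) * (F - D i)) ^ 2 := this
      _ = (q + 1) ^ 2 * (F - D i) ^ 2 := by ring
  have hmain : 4 * (F - 1) ^ 2 * s ≤ (q + 1) * (F ^ 2 - (q + 1) * F - ((q + 1) * D i₁ - F) ^ 2) := by
    have h1 : (q + 1) ^ 2 * ∑ i ∈ Y.erase i₁, (F - D i) ^ 2 ≤ (q + 1) ^ 2 * (2 * F * D i₁ - F - (q + 1) * D i₁ ^ 2) :=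
      mul_le_mul_of_nonneg_left hsumt2 (sq_nonneg _)
    calc 4 * (F - 1) ^ 2 * s ≤ _ := hlow
      _ ≤ _ := h1
      _ = _ := by ring
  rcases hq4 with h4 | h8
  · -- q = 4
    have hs1 : s = 1 := by omega
    subst h4
    rw [hs1] at hmain hcard
    have hc1 : (Y.erase i₁).card = 1 := by
      rw [Finset.card_erase_of_mem hi₁]
      have : Y.card = 2 := by exact_mod_cast hcard
      omega
    obtain ⟨i₀, hi₀⟩ := Finset.card_eq_one.mp hc1
    rw [hi₀, Finset.sum_singleton] at hsumt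
    have hi₀Y : i₀ ∈ Y := Finset.mem_of_mem_erase (by rw [hi₀]; exact Finset.mem_singleton_self _)
    have h5 := ht i₀ hi₀Y
    have hD1 := hD i₁ hi₁
    rw [hsumt] at h5
    have h6 : 2 * (F - 1) ≤ 5 * (D i₁ - 1) := by
      by_contra h
      push Not at h
      nlinarith
    have h7 : F + 3 ≤ 5 * D i₁ - F := by linarith
    nlinarith
  · nlinarith [sq_nonneg ((q + 1) * D i₁ - F), mul_nonneg (show (0:ℤ) ≤ q - 8 by omega) (sq_nonneg F),
      mul_nonneg (show (0:ℤ) ≤ q - 8 by omega) (show (0:ℤ) ≤ F by omega),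
      mul_nonneg (mul_nonneg (show (0:ℤ) ≤ q - 8 by omega) (show (0:ℤ) ≤ F by omega)) (show (0:ℤ) ≤ q by omega),
      mul_nonneg (show (0:ℤ) ≤ q + 1 by omega) (sq_nonneg ((q + 1) * D i₁ - F))]

end arith

section arith2

theorem case_two {ι : Type*} (Y : Finset ι) {k d : ℕ} (hk : 2 ≤ k) {s q n F : ℤ} (hq : q = 2 ^ k) (hqs : q = 2 * s + 2)
    (hn : n = q ^ 2 * q ^ d) (hF : (q - 1) * F = n - 1) (D C z A B : ι → ℤ)
    (hD : ∀ i ∈ Y, 0 < D i) (hC : ∀ i ∈ Y, 0 < C i) (hDC : ∀ i ∈ Y, D i * C i = n + 1)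
    (hAodd : ∀ i ∈ Y, Odd (A i)) (hApos : ∀ i ∈ Y, 0 < A i) (hAB : ∀ i ∈ Y, A i + B i = D i)
    (hz : ∀ i ∈ Y, z i = q * A i - D i) (hB : ∀ i ∈ Y, q ^ d ∣ B i)
    (hcard : (Y.card : ℤ) = s + 1) (hsumD : ∑ i ∈ Y, D i = 1 + s * F) (hsumz : ∑ i ∈ Y, z i = s + 1)
    (hsumzz : ∑ i ∈ Y, z i ^ 2 * C i = (q - 1) * (n + 1 + s))
    (hB2 : q ^ 2 * ∑ i ∈ Y, B i ^ 2 ≤ q * n + s * n ^ 2) : d = 0 ∧ Odd k := by
  classical
  have hq4 : 4 ≤ q := by
    rw [hq]
    calc (4 : ℤ) = 2 ^ 2 := by norm_num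
      _ ≤ 2 ^ k := pow_le_pow_right₀ (by norm_num) hk
  have hq0 : q ≠ 0 := by omega
  have hs1 : 1 ≤ s := by omega
  have h2s : 2 * s = q - 2 := by omega
  obtain ⟨r, hr⟩ : ∃ r, r = q ^ d := ⟨_, rfl⟩
  rw [← hr] at hn hB
  have hrpos : 0 < r := by rw [hr]; positivity
  have hnpos : 0 < n := by rw [hn]; positivity
  have hqeven : Even q := by
    rw [hqs]; exact ⟨s + 1, by ring⟩
  have hneven : Even n := by
    rw [hn, pow_two, mul_assoc, ]
    exact hqeven.mul_right _
  -- parity
  have hodd : ∀ i ∈ Y, Odd (D i) ∧ Odd (C i) := by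
    intro i hi
    have h1 : Odd (D i * C i) := by rw [hDC i hi]; exact hneven.add_one
    exact Int.odd_mul.mp h1
  choose! β hβ using hB
  -- sum of β
  have hsumβ : ∑ i ∈ Y, β i = s * q := by
    have h1 : q * r * ∑ i ∈ Y, β i = q * r * (s * q) := by
      have h2 : ∑ i ∈ Y, (q * (r * β i)) = ∑ i ∈ Y, ((q - 1) * D i - z i) := by
        refine Finset.sum_congr rfl fun i hi => ?_
        rw [← hβ i hi, hz i hi]
        have := hAB i hi
        linear_combination q * this
      have h2' : ∑ i ∈ Y, ((q - 1) * D i - z i) = (q - 1) * ∑ i ∈ Y, D i - ∑ i ∈ Y, z i := by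
        rw [Finset.sum_sub_distrib, Finset.mul_sum]
      rw [h2', hsumD, hsumz] at h2
      have h3 : ∑ i ∈ Y, (q * (r * β i)) = q * r * ∑ i ∈ Y, β i := by
        rw [Finset.mul_sum]
        exact Finset.sum_congr rfl fun i _ => by ring
      rw [h3] at h2
      rw [h2]
      rw [hn] at hF
      linear_combination s * hF - h2s
    exact mul_left_cancel₀ (mul_ne_zero hq0 hrpos.ne') h1
  have hmul : (q - 1) * (1 + s * F) = (q - 1) + s * (n - 1) := by linear_combination s * hF
  -- m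
  obtain ⟨m, hm⟩ : ∃ m : ι → ℤ, ∀ i, m i = β i * C i - q * (q - 1) := ⟨_, fun _ => rfl⟩
  have hsummD : ∑ i ∈ Y, m i * D i = -q := by
    have h1 : ∑ i ∈ Y, m i * D i = ∑ i ∈ Y, ((n + 1) * β i - q * (q - 1) * D i) := by
      refine Finset.sum_congr rfl fun i hi => ?_
      rw [hm, ← hDC i hi]; ring
    rw [h1, Finset.sum_sub_distrib, ← Finset.mul_sum, ← Finset.mul_sum, hsumβ, hsumD]
    linear_combination -q * hmul + q * h2s
  have hsumββ : ∑ i ∈ Y, β i ^ 2 * C i = (q - 1) * s * q ^ 2 := by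
    have h1 : ∑ i ∈ Y, z i ^ 2 * C i = ∑ i ∈ Y, ((q - 1) ^ 2 * (n + 1) * D i - 2 * (q - 1) * q * r * (n + 1) * β i +
        q ^ 2 * r ^ 2 * (β i ^ 2 * C i)) := by
      refine Finset.sum_congr rfl fun i hi => ?_
      have h2 : z i = (q - 1) * D i - q * (r * β i) := by
        rw [← hβ i hi, hz i hi]
        have := hAB i hi
        linear_combination q * this
      rw [h2]
      have h3 := hDC i hi
      linear_combination ((q - 1) ^ 2 * D i - 2 * (q - 1) * q * r * β i) * h3
    rw [hsumzz, Finset.sum_add_distrib, Finset.sum_sub_distrib, ← Finset.mul_sum, ← Finset.mul_sum, ← Finset.mul_sum,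
      hsumD, hsumβ] at h1
    have h4 : q ^ 2 * r ^ 2 * ∑ i ∈ Y, β i ^ 2 * C i = q ^ 2 * r ^ 2 * ((q - 1) * s * q ^ 2) := by
      have h5 : q ^ 2 * r ^ 2 * q ^ 2 = n ^ 2 := by rw [hn]; ring
      have h6 : q * r * q = n := by rw [hn]; ring
      linear_combination -h1 + (-(q - 1) * (n + 1)) * hmul - (q - 1) * s * h5 + 2 * (q - 1) * (n + 1) * s * h6 +
        (q - 1) * (n + 1) * h2s
    exact mul_left_cancel₀ (mul_ne_zero (pow_ne_zero 2 hq0) (pow_ne_zero 2 hrpos.ne')) h4
  have hsummm : ∑ i ∈ Y, m i ^ 2 * D i = (q - 1) * q ^ 2 := by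
    have h1 : ∑ i ∈ Y, m i ^ 2 * D i = ∑ i ∈ Y, ((n + 1) * (β i ^ 2 * C i) - 2 * q * (q - 1) * (n + 1) * β i +
        q ^ 2 * (q - 1) ^ 2 * D i) := by
      refine Finset.sum_congr rfl fun i hi => ?_
      rw [hm, ← hDC i hi]; ring
    rw [h1, Finset.sum_add_distrib, Finset.sum_sub_distrib, ← Finset.mul_sum, ← Finset.mul_sum, ← Finset.mul_sum,
      hsumββ, hsumβ, hsumD]
    linear_combination q ^ 2 * (q - 1) * hmul - q ^ 2 * (q - 1) * h2s
  -- D is smaller than n + 1
  have hDlt : ∀ i ∈ Y, D i < n + 1 := by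
    intro i hi
    have h1 : D i ≤ 1 + s * F := by
      rw [← hsumD]
      exact Finset.single_le_sum (f := D) (fun j hj => (hD j hj).le) hi
    have h2 : (q - 1) * D i < (q - 1) * (n + 1) := by
      calc (q - 1) * D i ≤ (q - 1) * (1 + s * F) := mul_le_mul_of_nonneg_left h1 (by omega)
        _ = (q - 1) + s * (n - 1) := hmul
        _ < (q - 1) * (n + 1) := by nlinarith
    exact lt_of_mul_lt_mul_left h2 (by omega)
  have hCne : ∀ i ∈ Y, C i ≠ 1 := by
    intro i hi h
    have h1 := hDC i hi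
    rw [h, mul_one] at h1
    exact absurd h1 (hDlt i hi).ne
  have hcop2 : ∀ i ∈ Y, IsCoprime (C i) 2 := by
    intro i hi
    obtain ⟨c, hc⟩ := (hodd i hi).2
    exact ⟨1, -c, by rw [hc]; ring⟩
  have hcopq : ∀ i ∈ Y, IsCoprime (C i) q := by
    intro i hi
    refine ⟨D i, -(q * r), ?_⟩
    have h1 := hDC i hi
    rw [hn] at h1
    linear_combination h1
  have hcopq1 : ∀ i ∈ Y, IsCoprime (C i) (q - 1) := by
    intro i hi
    have h1 : IsCoprime (C i) ((q - 1) * F) := by
      have h2 : (q - 1) * F = -2 + C i * D i := by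
        have := hDC i hi
        linear_combination hF - this
      rw [h2]
      exact (IsCoprime.neg_right (hcop2 i hi)).add_mul_left_right (D i)
    exact h1.of_mul_right_left
  have hunit : ∀ i ∈ Y, ¬ IsUnit (C i) := by
    intro i hi h
    rcases Int.isUnit_iff.mp h with h1 | h1
    · exact hCne i hi h1
    · have := hC i hi
      omega
  have hm0 : ∀ i ∈ Y, m i ≠ 0 := by
    intro i hi h
    apply hunit i hi
    have h1 : IsCoprime (C i) (q * (q - 1)) := (hcopq i hi).mul_right (hcopq1 i hi)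
    apply h1.isUnit_of_dvd' (dvd_refl _)
    refine ⟨β i, ?_⟩
    have h2 := hm i
    rw [h] at h2
    linear_combination h2
  have hlow : ∑ i ∈ Y, D i ≤ ∑ i ∈ Y, m i ^ 2 * D i := by
    apply Finset.sum_le_sum
    intro i hi
    have h1 : 1 ≤ m i ^ 2 := by
      have := hm0 i hi
      have h3 : 0 < m i ^ 2 := by positivity
      omega
    have := hD i hi
    nlinarith
  rw [hsumD, hsummm] at hlow
  rcases Nat.lt_or_ge d 2 with hd | hd
  · interval_cases d
    · -- d = 0
      refine ⟨rfl, ?_⟩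
      rw [pow_zero] at hr
      subst hr
      rw [mul_one] at hn
      have hFq : F = q + 1 := by
        have h1 : (q - 1) * F = (q - 1) * (q + 1) := by rw [hF, hn]; ring
        exact mul_left_cancel₀ (by omega) h1
      have hBβ : ∀ i ∈ Y, B i = β i := fun i hi => by rw [hβ i hi, one_mul]
      have hA1 : ∀ i ∈ Y, A i = 1 := by
        have h1 : ∑ i ∈ Y, (A i - 1) = 0 := by
          rw [Finset.sum_sub_distrib, Finset.sum_const, nsmul_eq_mul, hcard, mul_one]
          have h2 : ∑ i ∈ Y, A i = ∑ i ∈ Y, D i - ∑ i ∈ Y, β i := by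
            rw [← Finset.sum_sub_distrib]
            exact Finset.sum_congr rfl fun i hi => by rw [← hBβ i hi]; linarith [hAB i hi]
          rw [h2, hsumD, hsumβ, hFq]; ring
        have h2 := (Finset.sum_eq_zero_iff_of_nonneg (fun i hi => by have := hApos i hi; omega)).mp h1
        intro i hi
        have := h2 i hi
        omega
      by_contra hkodd
      -- sum of squares
      have hx : ∀ i ∈ Y, 2 * D i + 2 * q ≤ (q + 1 - D i) ^ 2 := by
        intro i hi
        have hdc := hDC i hi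
        rw [hn] at hdc
        obtain ⟨⟨u, hu⟩, ⟨v, hv⟩⟩ := hodd i hi
        have hDi := hD i hi
        have hCi := hC i hi
        have h1 : 2 * q < D i + C i := by
          by_contra h
          push Not at h
          nlinarith [sq_nonneg (D i - C i)]
        have h2 : D i + C i ≠ 2 * q + 2 := by
          intro h
          apply hkodd
          have h3 : (u - v) ^ 2 = 2 * 2 ^ k := by
            rw [← hq]
            have h4 : C i = 2 * q + 2 - D i := by linarith
            have h5 : v = q - u := by omega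
            rw [h4] at hdc
            rw [hu] at hdc
            rw [h5]
            nlinarith
          exact odd_of_sq h3
        have h3 : 2 * q + 4 ≤ D i + C i := by omega
        nlinarith
      have hsumx : ∑ i ∈ Y, (q + 1 - D i) ^ 2 ≤ q ^ 2 + q := by
        have h1 : ∑ i ∈ Y, (q + 1 - D i) ^ 2 = ∑ i ∈ Y, (q ^ 2 - 2 * q * β i + B i ^ 2) := by
          refine Finset.sum_congr rfl fun i hi => ?_
          rw [← hAB i hi, hA1 i hi, hBβ i hi]; ring
        rw [h1, Finset.sum_add_distrib, Finset.sum_sub_distrib, ← Finset.mul_sum, hsumβ, Finset.sum_const, nsmul_eq_mul,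
          hcard]
        have h2 : ∑ i ∈ Y, B i ^ 2 ≤ q + s * q ^ 2 := by
          have h3 : q ^ 2 * ∑ i ∈ Y, B i ^ 2 ≤ q ^ 2 * (q + s * q ^ 2) := by
            rw [hn] at hB2
            linarith
          exact le_of_mul_le_mul_left h3 (by positivity)
        nlinarith
      have h1 := Finset.sum_le_sum hx
      rw [Finset.sum_add_distrib, ← Finset.mul_sum, Finset.sum_const, nsmul_eq_mul, hcard, hsumD, hFq] at h1
      nlinarith
    · -- d = 1
      exfalso
      rw [pow_one] at hr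
      subst hr
      have hn3 : n = r ^ 3 := by rw [hn]; ring
      have hFq : F = r ^ 2 + r + 1 := by
        have h1 : (r - 1) * F = (r - 1) * (r ^ 2 + r + 1) := by rw [hF, hn3]; ring
        exact mul_left_cancel₀ (by omega) h1
      have hm1 : ∀ i ∈ Y, m i ≠ -1 := by
        intro i hi h
        apply hunit i hi
        apply (hcop2 i hi).isUnit_of_dvd' (dvd_refl _)
        have h2 := hm i
        rw [h] at h2
        have h3 := hDC i hi
        rw [hn3] at h3
        -- C ∣ q^2-q-1 and C ∣ q^3+1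
        refine ⟨2 * β i - (r - 2) * (D i - (r + 1) * β i), ?_⟩
        linear_combination (2 + (r + 1) * (r - 2)) * h2 + (r - 2) * h3
      have hkey : ∀ i ∈ Y, 0 ≤ (m i - 1) * (m i + 2) * D i := by
        intro i hi
        have h1 := hm0 i hi
        have h2 := hm1 i hi
        have h3 := hD i hi
        apply mul_nonneg _ h3.le
        rcases le_or_gt (m i) (-2) with h4 | h4
        · nlinarith
        · have : 1 ≤ m i := by omega
          nlinarith
      have hkey0 : ∑ i ∈ Y, (m i - 1) * (m i + 2) * D i = 0 := by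
        have h1 : ∑ i ∈ Y, (m i - 1) * (m i + 2) * D i = ∑ i ∈ Y, (m i ^ 2 * D i + m i * D i - 2 * D i) :=
          Finset.sum_congr rfl fun i _ => by ring
        rw [h1, Finset.sum_sub_distrib, Finset.sum_add_distrib, ← Finset.mul_sum, hsummm, hsummD, hsumD, hFq]
        linear_combination (-(r ^ 2 + r + 1)) * h2s
      have hm12 : ∀ i ∈ Y, m i = 1 ∨ m i = -2 := by
        intro i hi
        have h1 := (Finset.sum_eq_zero_iff_of_nonneg hkey).mp hkey0 i hi
        rcases mul_eq_zero.mp h1 with h2 | h2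
        · rcases mul_eq_zero.mp h2 with h3 | h3
          · left; linarith
          · right; linarith
        · exact absurd h2 (hD i hi).ne'
      -- weights
      obtain ⟨Y1, hY1⟩ : ∃ Y1 : Finset ι, Y1 = Y.filter fun i => m i = 1 := ⟨_, rfl⟩
      have hP : 3 * ∑ i ∈ Y1, D i = r * (r - 2) * (r + 1) := by
        have h1 : ∑ i ∈ Y, (m i + 2) * m i * D i = 3 * ∑ i ∈ Y1, D i := by
          rw [hY1, Finset.mul_sum, Finset.sum_filter]
          refine Finset.sum_congr rfl fun i hi => ?_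
          rcases hm12 i hi with h | h
          · rw [if_pos h, h]; ring
          · rw [if_neg (by rw [h]; norm_num), h]; ring
        rw [← h1]
        have h2 : ∑ i ∈ Y, (m i + 2) * m i * D i = ∑ i ∈ Y, m i ^ 2 * D i + 2 * ∑ i ∈ Y, m i * D i := by
          rw [Finset.mul_sum, ← Finset.sum_add_distrib]
          exact Finset.sum_congr rfl fun i _ => by ring
        rw [h2, hsummm, hsummD]; ring
      have hY1m : ∀ i ∈ Y1, i ∈ Y ∧ m i = 1 := by
        intro i hi
        rw [hY1] at hi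
        exact Finset.mem_filter.mp hi
      have hDβ : ∀ i ∈ Y1, D i = (r + 1) * β i := by
        intro i hi
        obtain ⟨hiY, hmi⟩ := hY1m i hi
        have h1 := hm i
        rw [hmi] at h1
        have h2 := hDC i hiY
        rw [hn3] at h2
        have h3 : C i * D i = C i * ((r + 1) * β i) := by
          linear_combination h2 + (r + 1) * h1
        exact mul_left_cancel₀ (hC i hiY).ne' h3
      have hPβ : 3 * ∑ i ∈ Y1, β i = r * (r - 2) := by
        have h1 : ∑ i ∈ Y1, D i = (r + 1) * ∑ i ∈ Y1, β i := by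
          rw [Finset.mul_sum]
          exact Finset.sum_congr rfl hDβ
        rw [h1] at hP
        have h2 : (r + 1) * (3 * ∑ i ∈ Y1, β i) = (r + 1) * (r * (r - 2)) := by linarith
        exact mul_left_cancel₀ (by omega) h2
      have hβpos : ∀ i ∈ Y1, 0 < β i := by
        intro i hi
        obtain ⟨hiY, -⟩ := hY1m i hi
        have h1 := hD i hiY
        rw [hDβ i hi] at h1
        by_contra h
        push Not at h
        nlinarith
      have hbig : ∀ i ∈ Y1, 4 * β i + (r - 1) ≤ (r - β i) ^ 2 := by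
        intro i hi
        obtain ⟨hiY, hmi⟩ := hY1m i hi
        have h1 := hm i
        rw [hmi] at h1
        have hβC : β i * C i = r ^ 2 - r + 1 := by linarith
        have hβi := hβpos i hi
        have hCi := hC i hiY
        have hβodd : Odd (β i) := by
          have h2 : Odd (β i * C i) := by
            rw [hβC]
            have h3 : Even (r ^ 2 - r) := by
              have : r ^ 2 - r = (r - 1) * r := by ring
              rw [this]
              exact hqeven.mul_left _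
            exact h3.add_one
          exact (Int.odd_mul.mp h2).1
        obtain ⟨u, hu⟩ := hβodd
        obtain ⟨v, hv⟩ := (hodd i hiY).2
        have h2 : 2 * r - 1 < β i + C i := by
          by_contra h
          push Not at h
          nlinarith [sq_nonneg (β i - C i)]
        have h3 : β i + C i ≠ 2 * r := by
          intro h
          apply not_sq_sub_one hk (w := u - v)
          rw [← hq]
          have h4 : C i = 2 * r - β i := by linarith
          have h5 : v = r - 1 - u := by omega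
          rw [h4, hu] at hβC
          rw [h5]
          nlinarith
        have h4 : β i + C i ≠ 2 * r + 2 := by
          intro h
          apply not_sq_three (k := k) (w := u - v)
          rw [← hq]
          have h4 : C i = 2 * r + 2 - β i := by linarith
          have h5 : v = r - u := by omega
          rw [h4, hu] at hβC
          rw [h5]
          nlinarith
        have h5 : 2 * r + 4 ≤ β i + C i := by omega
        nlinarith
      have hsumq : ∑ i ∈ Y, (r - β i) ^ 2 ≤ r ^ 2 + 1 := by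
        have h1 : ∑ i ∈ Y, (r - β i) ^ 2 = (s + 1) * r ^ 2 - 2 * r * (s * r) + ∑ i ∈ Y, β i ^ 2 := by
          have h2 : ∑ i ∈ Y, (r - β i) ^ 2 = ∑ i ∈ Y, (r ^ 2 - 2 * r * β i + β i ^ 2) :=
            Finset.sum_congr rfl fun i _ => by ring
          rw [h2, Finset.sum_add_distrib, Finset.sum_sub_distrib, ← Finset.mul_sum, hsumβ, Finset.sum_const, nsmul_eq_mul,
            hcard]
        have h3 : ∑ i ∈ Y, β i ^ 2 ≤ 1 + s * r ^ 2 := by
          have h4 : ∑ i ∈ Y, B i ^ 2 = r ^ 2 * ∑ i ∈ Y, β i ^ 2 := by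
            rw [Finset.mul_sum]
            exact Finset.sum_congr rfl fun i hi => by rw [hβ i hi]; ring
          rw [h4, hn3] at hB2
          have h5 : r ^ 4 * ∑ i ∈ Y, β i ^ 2 ≤ r ^ 4 * (1 + s * r ^ 2) := by
            calc r ^ 4 * ∑ i ∈ Y, β i ^ 2 = r ^ 2 * (r ^ 2 * ∑ i ∈ Y, β i ^ 2) := by ring
              _ ≤ _ := hB2
              _ = _ := by ring
          exact le_of_mul_le_mul_left h5 (by positivity)
        rw [h1]
        nlinarith
      have hsub : ∑ i ∈ Y1, (r - β i) ^ 2 ≤ ∑ i ∈ Y, (r - β i) ^ 2 := by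
        apply Finset.sum_le_sum_of_subset_of_nonneg
        · rw [hY1]; exact Finset.filter_subset _ _
        · intro i _ _; exact sq_nonneg _
      have hne : Y1.Nonempty := by
        by_contra h
        rw [Finset.not_nonempty_iff_eq_empty] at h
        rw [h, Finset.sum_empty] at hPβ
        nlinarith
      have h1 := Finset.sum_le_sum hbig
      rw [Finset.sum_add_distrib, ← Finset.mul_sum, Finset.sum_const, nsmul_eq_mul] at h1
      have h2 : (1 : ℤ) ≤ Y1.card := by exact_mod_cast Finset.card_pos.mpr hne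
      have h3 : (r - 1) ≤ (Y1.card : ℤ) * (r - 1) := by nlinarith
      have h4 : (r - 6) * (r + 1) ≤ 0 := by nlinarith
      have h5 : r ≤ 6 := by
        by_contra h
        push Not at h
        nlinarith
      have h6 : r = 4 := by
        have hk3 : k < 3 := by
          by_contra h
          push Not at h
          have : (8 : ℤ) ≤ 2 ^ k := by
            calc (8 : ℤ) = 2 ^ 3 := by norm_num
              _ ≤ 2 ^ k := pow_le_pow_right₀ (by norm_num) h
          omega
        have : k = 2 := by omega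
        rw [hq, this]; norm_num
      rw [h6] at hPβ
      omega
  · exfalso
    obtain ⟨j, rfl⟩ := Nat.exists_eq_add_of_le hd
    have h1 : q ^ 2 ≤ r := by
      rw [hr, pow_add]
      have : 1 ≤ q ^ j := one_le_pow₀ (by omega)
      nlinarith [sq_nonneg q]
    have h2 : (q - 1) * (1 + s * F) ≤ (q - 1) * ((q - 1) * q ^ 2) := mul_le_mul_of_nonneg_left hlow (by omega)
    rw [hmul, hn] at h2
    have h3 : q ^ 2 * q ^ 2 ≤ q ^ 2 * r := mul_le_mul_of_nonneg_left h1 (sq_nonneg q)
    have h4 : (q - 1) + s * (q ^ 2 * q ^ 2 - 1) ≤ (q - 1) * ((q - 1) * q ^ 2) := by nlinarith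
    have h5 : 2 * (q - 1) + (q - 2) * (q ^ 4 - 1) ≤ 2 * (q - 1) ^ 2 * q ^ 2 := by
      rw [← h2s]; linarith
    nlinarith [pow_pos (show (0:ℤ) < q by omega) 2, pow_pos (show (0:ℤ) < q by omega) 3,
      mul_nonneg (show (0:ℤ) ≤ q - 4 by omega) (pow_pos (show (0:ℤ) < q by omega) 4).le,
      mul_nonneg (show (0:ℤ) ≤ q - 4 by omega) (pow_pos (show (0:ℤ) < q by omega) 3).le,
      mul_nonneg (show (0:ℤ) ≤ q - 4 by omega) (pow_pos (show (0:ℤ) < q by omega) 2).le]

end arith2

end Cfsg.Agent.Lib.ZassSuzA
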