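import Cfsg.Agent.Lib.ZassSuz
import Cfsg.Agent.Lib.ZassSuzA

set_option autoImplicit false

namespace Cfsg.Agent.Lib.ZassSuzB

open Cfsg MulAction Cfsg.Agent.Lib.Zass Cfsg.Agent.Lib.ZassChar Cfsg.Agent.Lib.ZassInv Cfsg.Agent.Lib.ZassNorm
open Cfsg.Agent.Lib.ZassFeit Cfsg.Agent.Lib.ZassFeitB Cfsg.Agent.Lib.ZassEven Cfsg.Agent.Lib.ZassSuz Cfsg.Agent.Lib.ZassSuzA
open Cfsg.Agent.Lib.CharBasic Cfsg.Agent.Lib.CharInd Cfsg.Agent.Lib.CharLin Cfsg.Agent.Lib.CharExc Cfsg.Agent.Lib.OddTIFN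
open scoped ComplexConjugate

noncomputable section

section Y

open Classical

variable {G : Type*} [Group G] [Fintype G]

theorem Y_sum {X : G → ℂ}
    (hmf : ∀ χ : IrrCharacter G, classInner X χ.1 = 0 ∨ classInner X χ.1 = 1)
    {St : IrrCharacter G} {P Y : Finset (IrrCharacter G)} (hSt : classInner X St.1 = 1)
    (hP : ∀ ψ ∈ P, classInner X ψ.1 = 1) (hStP : St ∉ P)
    (hY : ∀ χ, χ ∈ Y ↔ classInner X χ.1 = 1 ∧ χ ≠ St ∧ χ ∉ P) (f : IrrCharacter G → ℂ) :
    ∑ χ : IrrCharacter G, f χ * classInner X χ.1 = f St + (∑ χ ∈ P, f χ + ∑ χ ∈ Y, f χ) := by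
  have h1 : ∑ χ : IrrCharacter G, f χ * classInner X χ.1 =
      ∑ χ ∈ Finset.univ.filter (fun χ : IrrCharacter G => classInner X χ.1 = 1), f χ := by
    rw [Finset.sum_filter]
    refine Finset.sum_congr rfl fun χ _ => ?_
    rcases hmf χ with h | h
    · rw [h, if_neg (by norm_num), mul_zero]
    · rw [h, if_pos rfl, mul_one]
  have h2 : Finset.univ.filter (fun χ : IrrCharacter G => classInner X χ.1 = 1) = insert St (P ∪ Y) := by
    ext χ
    simp only [Finset.mem_filter, Finset.mem_univ, true_and, Finset.mem_insert, Finset.mem_union]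
    constructor
    · intro h
      by_cases h3 : χ = St
      · exact Or.inl h3
      · by_cases h4 : χ ∈ P
        · exact Or.inr (Or.inl h4)
        · exact Or.inr (Or.inr ((hY χ).mpr ⟨h, h3, h4⟩))
    · rintro (h | h | h)
      · rw [h]; exact hSt
      · exact hP χ h
      · exact ((hY χ).mp h).1
  have h3 : St ∉ P ∪ Y := by
    rw [Finset.mem_union]
    rintro (h | h)
    · exact hStP h
    · exact ((hY St).mp h).2.1 rfl
  have h4 : Disjoint P Y := by
    rw [Finset.disjoint_left]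
    intro χ h5 h6
    exact ((hY χ).mp h6).2.2 h5
  rw [h1, h2, Finset.sum_insert h3, Finset.sum_union h4]

theorem norm_eq_sum {X : G → ℂ} (hX : IsCharacter G X)
    (hmf : ∀ χ : IrrCharacter G, classInner X χ.1 = 0 ∨ classInner X χ.1 = 1) :
    classInner X X = ∑ χ : IrrCharacter G, 1 * classInner X χ.1 := by
  have h1 := classFn_expand X (isChar_classFn hX)
  have h2 : classInner X X = classInner (∑ χ : IrrCharacter G, classInner X χ.1 • χ.1) X :=
    congrArg (fun a => classInner a X) h1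
  rw [h2, classInner_sum_left]
  refine Finset.sum_congr rfl fun χ _ => ?_
  rw [classInner_smul_left, ← classInner_conj_symm X χ.1]
  rcases hmf χ with h | h
  · rw [h]; simp
  · rw [h]; simp

theorem val_eq_sum {X : G → ℂ} (hX : IsCharacter G X) (g : G) :
    X g = ∑ χ : IrrCharacter G, χ.1 g * classInner X χ.1 := by
  have h1 := congrFun (classFn_expand X (isChar_classFn hX)) g
  rw [Finset.sum_apply] at h1
  rw [h1]
  refine Finset.sum_congr rfl fun χ _ => ?_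
  rw [Pi.smul_apply, smul_eq_mul, mul_comm]

end Y

section ints

open Classical

variable {G Ω : Type*} [Group G] [Fintype G] [MulAction G Ω] [Fintype Ω]

theorem psi_ints (hZ : IsZassenhausGroup G Ω) {a b : Ω} (hab : a ≠ b) (H : Subgroup G)
    (hHa : H ≤ stabilizer G a) (hHcard : Nat.card H + 1 = Fintype.card Ω)
    (hHfix : ∀ u ∈ H, u ≠ 1 → ∀ c : Ω, u • c = c → c = a)
    [hKn : (H.subgroupOf (stabilizer G a)).Normal]
    (hodd : Odd (Nat.card (stabilizer G a ⊓ stabilizer G b : Subgroup G))) (hG : commutator G = ⊤)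
    (hn : Odd (Fintype.card Ω)) (h2 : IsPGroup 2 H) (hna : ∃ u v : H, u * v ≠ v * u)
    {z : G} (hz : orderOf z = 2) (hzH : z ∈ H) (ψ : IrrCharacter G)
    (hC : ∀ φ : IrrCharacter (stabilizer G a), ¬ φ.1 ∈ inducedIrrAbove (H.subgroupOf (stabilizer G a)) ⊥ →
      classInner (fun x : stabilizer G a => ψ.1 x) φ.1 = 0) {t : ℕ} (ht : Odd t)
    (ht' : (t : ℂ) = ∑ φ ∈ Finset.univ.filter (fun φ : IrrCharacter (stabilizer G a) =>
        φ.1 ∈ inducedIrrAbove (H.subgroupOf (stabilizer G a)) ⊥ ∧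
          φ.1 1 = (Nat.card (stabilizer G a ⊓ stabilizer G b : Subgroup G) : ℂ)),
        classInner (indFun (stabilizer G a) φ.1) ψ.1) :
    ∃ D C m A B : ℤ, 0 < D ∧ 0 < C ∧ D * C = (Nat.card H : ℤ) + 1 ∧ Odd A ∧ 0 < A ∧ A + B = D ∧
      m = ((Nat.card (stabilizer G a ⊓ stabilizer G b : Subgroup G) : ℤ) + 1) * A - D ∧
      ψ.1 1 = (Nat.card (stabilizer G a ⊓ stabilizer G b : Subgroup G) : ℂ) * D ∧ ψ.1 z = m ∧
      (Nat.card H : ℤ) ∣ ((Nat.card (stabilizer G a ⊓ stabilizer G b : Subgroup G) : ℤ) + 1) ^ 2 * (A * B) ∧ Odd D := by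
  obtain ⟨hv, t', u, v, h3, h4, h5⟩ := psi_struct hZ hab H hHa hHcard hHfix hodd hG hn h2 hna
    (z := ⟨z, hHa hzH⟩) (by rw [← Subgroup.orderOf_coe]; exact hz) hzH (isChar_of_irr ψ.2) hC
  have htt : t' = t := by
    have : (t' : ℂ) = t := by rw [h3, ht']
    exact_mod_cast this
  subst htt
  have hGc := card_G hZ hab H hHcard
  obtain ⟨c, hc⟩ := ht
  obtain ⟨D, hD⟩ : ∃ D : ℕ, D = t' + 2 * u := ⟨_, rfl⟩
  obtain ⟨A, hA⟩ : ∃ A : ℕ, A = t' + 2 * v := ⟨_, rfl⟩
  have hψ1 : ψ.1 1 = (Nat.card (stabilizer G a ⊓ stabilizer G b : Subgroup G) : ℂ) * ((D : ℤ) : ℂ) := by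
    rw [h4, hD]; push_cast; ring
  have hDodd : Odd D := ⟨c + u, by omega⟩
  have hAodd : Odd A := ⟨c + v, by omega⟩
  have hDpos : 0 < D := hDodd.pos
  have hApos : 0 < A := hAodd.pos
  obtain ⟨C, hC'⟩ : D ∣ Nat.card H + 1 := by
    have h6 := OddFeit.ideg_dvd ψ
    have h7 := OddFeit.ideg_spec ψ
    rw [hψ1] at h7
    have h8 : Nat.card (stabilizer G a ⊓ stabilizer G b : Subgroup G) * D = OddFeit.ideg ψ := by exact_mod_cast h7
    rw [← h8, hGc] at h6
    have h9 : D ∣ Nat.card H * (Nat.card H + 1) := by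
      obtain ⟨w, hw⟩ := h6
      refine ⟨w, ?_⟩
      apply Nat.eq_of_mul_eq_mul_left (Nat.card_pos (α := (stabilizer G a ⊓ stabilizer G b : Subgroup G)))
      calc Nat.card (stabilizer G a ⊓ stabilizer G b : Subgroup G) * (Nat.card H * (Nat.card H + 1))
          = (Nat.card H + 1) * Nat.card H * Nat.card (stabilizer G a ⊓ stabilizer G b : Subgroup G) := by ring
        _ = _ := hw
        _ = _ := by ring
    apply Nat.Coprime.dvd_of_dvd_mul_left _ h9
    obtain ⟨N, hN⟩ := h2.exists_card_eq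
    rw [hN]
    exact (Nat.Coprime.pow_left N (Nat.coprime_two_left.mpr hDodd)).symm
  have hCpos : 0 < C := by
    rcases Nat.eq_zero_or_pos C with h | h
    · rw [h, mul_zero] at hC'; omega
    · exact h
  have hDC : (D : ℤ) * C = (Nat.card H : ℤ) + 1 := by exact_mod_cast hC'.symm
  obtain ⟨m, hm⟩ : ∃ m : ℤ, m = ((Nat.card (stabilizer G a ⊓ stabilizer G b : Subgroup G) : ℤ) + 1) * A - D := ⟨_, rfl⟩
  have hmz : ψ.1 z = m := by
    rw [hm, hA, hD]
    push_cast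
    linear_combination h5
  refine ⟨D, C, m, A, D - A, by exact_mod_cast hDpos, by exact_mod_cast hCpos, hDC, by exact_mod_cast hAodd,
    by exact_mod_cast hApos, by ring, hm, hψ1, hmz, ?_, by exact_mod_cast hDodd⟩
  obtain ⟨J, hJ⟩ := psi_div hZ hab H hHa hHcard hHfix hodd hG hn h2 ψ.2 hv hz hψ1 (by exact_mod_cast hDpos) hmz hDC
  refine ⟨m ^ 2 - D * J, ?_⟩
  subst hm
  linear_combination ((((Nat.card (stabilizer G a ⊓ stabilizer G b : Subgroup G) : ℤ) + 1) * A - D) ^ 2) * hDC - (D : ℤ) * hJ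

end ints
section sums

open Classical

variable {G Ω : Type*} [Group G] [Fintype G] [MulAction G Ω] [Fintype Ω]

theorem xi_z (hZ : IsZassenhausGroup G Ω) {a b : Ω} (hab : a ≠ b) (H : Subgroup G)
    (hHa : H ≤ stabilizer G a) (hHcard : Nat.card H + 1 = Fintype.card Ω)
    [hKn : (H.subgroupOf (stabilizer G a)).Normal]
    (hodd : Odd (Nat.card (stabilizer G a ⊓ stabilizer G b : Subgroup G))) (hG : commutator G = ⊤)
    (h2 : IsPGroup 2 H) (hna : ∃ u v : H, u * v ≠ v * u)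
    {ξ : stabilizer G a → ℂ} (hξ : ξ ∈ inducedIrrAbove (H.subgroupOf (stabilizer G a)) ⊥)
    (hξ1 : ξ 1 = (Nat.card (stabilizer G a ⊓ stabilizer G b : Subgroup G) : ℂ))
    (z : stabilizer G a) (hz : orderOf z = 2) (hzK : z ∈ H.subgroupOf (stabilizer G a)) :
    ξ z = (Nat.card (stabilizer G a ⊓ stabilizer G b : Subgroup G) : ℂ) := by
  obtain ⟨j, h1, h3⟩ := deg_S hZ hab H hHa hHcard hodd hG h2 hna hξ hz hzK
  have he0 : (Nat.card (stabilizer G a ⊓ stabilizer G b : Subgroup G) : ℂ) ≠ 0 := Nat.cast_ne_zero.mpr Nat.card_pos.ne'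
  have h4 : j = 0 := by
    rw [hξ1] at h1
    have h5 : (2 : ℂ) ^ j = 1 := by
      have : (Nat.card (stabilizer G a ⊓ stabilizer G b : Subgroup G) : ℂ) * 2 ^ j =
        (Nat.card (stabilizer G a ⊓ stabilizer G b : Subgroup G) : ℂ) * 1 := by rw [← h1, mul_one]
      exact mul_left_cancel₀ he0 this
    have h6 : 2 ^ j = 1 := by exact_mod_cast h5
    by_contra h7
    exact absurd h6 (Nat.one_lt_pow h7 (by norm_num)).ne'
  rw [h3 h4, hξ1]

theorem sums (hZ : IsZassenhausGroup G Ω) {a b : Ω} (hab : a ≠ b) (H : Subgroup G)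
    (hHa : H ≤ stabilizer G a) (hHcard : Nat.card H + 1 = Fintype.card Ω)
    (hHfix : ∀ u ∈ H, u ≠ 1 → ∀ c : Ω, u • c = c → c = a)
    [hKn : (H.subgroupOf (stabilizer G a)).Normal]
    (hodd : Odd (Nat.card (stabilizer G a ⊓ stabilizer G b : Subgroup G))) (hG : commutator G = ⊤)
    (hn : Odd (Fintype.card Ω)) (h2 : IsPGroup 2 H) (hna : ∃ u v : H, u * v ≠ v * u)
    {z : G} (hz : orderOf z = 2) (hzH : z ∈ H)
    {ξ : stabilizer G a → ℂ} (hξ : ξ ∈ inducedIrrAbove (H.subgroupOf (stabilizer G a)) ⊥)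
    (hξ1 : ξ 1 = (Nat.card (stabilizer G a ⊓ stabilizer G b : Subgroup G) : ℂ))
    (hmf : ∀ χ : IrrCharacter G, classInner (indFun (stabilizer G a) ξ) χ.1 = 0 ∨
      classInner (indFun (stabilizer G a) ξ) χ.1 = 1)
    {St : IrrCharacter G} {P Y : Finset (IrrCharacter G)}
    (hPcard : 2 * P.card + 1 = Nat.card (stabilizer G a ⊓ stabilizer G b : Subgroup G))
    (hStP : St ∉ P) (hSt1 : St.1 1 = Nat.card H) (hStz : St.1 z = 0)
    (hP1 : ∀ ψ ∈ P, ψ.1 1 = (Nat.card H : ℂ) + 1) (hPz : ∀ ψ ∈ P, ψ.1 z = 1)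
    (hXSt : classInner (indFun (stabilizer G a) ξ) St.1 = 1)
    (hXP : ∀ ψ ∈ P, classInner (indFun (stabilizer G a) ξ) ψ.1 = 1)
    (hY : ∀ χ, χ ∈ Y ↔ classInner (indFun (stabilizer G a) ξ) χ.1 = 1 ∧ χ ≠ St ∧ χ ∉ P)
    {D C m A B : IrrCharacter G → ℤ} (hD0 : ∀ ψ ∈ Y, 0 < D ψ)
    (hDC : ∀ ψ ∈ Y, D ψ * C ψ = (Nat.card H : ℤ) + 1) (hAB : ∀ ψ ∈ Y, A ψ + B ψ = D ψ)
    (hm : ∀ ψ ∈ Y, m ψ = ((Nat.card (stabilizer G a ⊓ stabilizer G b : Subgroup G) : ℤ) + 1) * A ψ - D ψ)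
    (hψ1 : ∀ ψ ∈ Y, ψ.1 1 = (Nat.card (stabilizer G a ⊓ stabilizer G b : Subgroup G) : ℂ) * D ψ)
    (hψz : ∀ ψ ∈ Y, ψ.1 z = m ψ)
    {F : ℤ} (hF : (Nat.card (stabilizer G a ⊓ stabilizer G b : Subgroup G) : ℤ) * F = (Nat.card H : ℤ) - 1) :
    (Y.card : ℤ) = P.card + 1 ∧ ∑ ψ ∈ Y, D ψ = 1 + P.card * F ∧ ∑ ψ ∈ Y, m ψ = P.card + 1 ∧
      ∑ ψ ∈ Y, m ψ ^ 2 * C ψ = (Nat.card (stabilizer G a ⊓ stabilizer G b : Subgroup G) : ℤ) * ((Nat.card H : ℤ) + 1 + P.card) ∧
      ((Nat.card (stabilizer G a ⊓ stabilizer G b : Subgroup G) : ℤ) + 1) ^ 2 * ∑ ψ ∈ Y, B ψ ^ 2 ≤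
        ((Nat.card (stabilizer G a ⊓ stabilizer G b : Subgroup G) : ℤ) + 1) * Nat.card H + P.card * (Nat.card H : ℤ) ^ 2 := by
  have hXc : IsCharacter G (indFun (stabilizer G a) ξ) :=
    isChar_ind _ (isChar_of_irr (iia_irr' (kfpf hZ hab H hHa hHcard hHfix) hξ))
  have hXX := X_inner hZ hab H hHa hHcard hHfix hξ hξ hξ1 hξ1
  rw [if_pos rfl, norm_eq_sum hXc hmf, Y_sum hmf hXSt hXP hStP hY (fun _ => 1)] at hXX
  have hX1 := val_eq_sum hXc 1
  rw [Y_sum hmf hXSt hXP hStP hY (fun χ => χ.1 1), indFun_one, index_stab hZ, ← hHcard, hξ1, hSt1,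
    Finset.sum_congr rfl hP1, Finset.sum_congr rfl hψ1] at hX1
  have hXz := val_eq_sum hXc z
  rw [Y_sum hmf hXSt hXP hStP hY (fun χ => χ.1 z),
    ind_H H hHa hHfix (isChar_classFn (isChar_of_irr (iia_irr' (kfpf hZ hab H hHa hHcard hHfix) hξ))) hzH (invol_ne hz),
    xi_z hZ hab H hHa hHcard hodd hG h2 hna hξ hξ1 ⟨z, hHa hzH⟩ (by rw [← Subgroup.orderOf_coe]; exact hz) hzH, hStz,
    Finset.sum_congr rfl hPz, Finset.sum_congr rfl hψz] at hXz
  have hXzz := X_zz hZ hab H hHa hHcard hHfix hodd hG hn hξ hξ1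
    (fun y hy hyK => xi_z hZ hab H hHa hHcard hodd hG h2 hna hξ hξ1 y hy hyK) hz
  rw [Y_sum hmf hXSt hXP hStP hY (fun χ => χ.1 z ^ 2 / χ.1 1), hStz] at hXzz
  have hcol := col_z hZ hab H hHcard hodd hG hn hz
  have hGc := card_G hZ hab H hHcard
  obtain ⟨e, he⟩ : ∃ e : ℕ, e = Nat.card (stabilizer G a ⊓ stabilizer G b : Subgroup G) := ⟨_, rfl⟩
  have hepos : 0 < e := by rw [he]; exact Nat.card_pos
  have he0 : (e : ℂ) ≠ 0 := Nat.cast_ne_zero.mpr hepos.ne'
  obtain ⟨n, hnn⟩ : ∃ n : ℕ, n = Nat.card H := ⟨_, rfl⟩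
  have hnpos : 0 < n := by rw [hnn]; exact Nat.card_pos
  have hn0 : (n : ℂ) ≠ 0 := Nat.cast_ne_zero.mpr hnpos.ne'
  have hn1 : (n : ℂ) + 1 ≠ 0 := by exact_mod_cast Nat.succ_ne_zero n
  simp only [← he, ← hnn] at *
  simp only [Finset.sum_const, nsmul_eq_mul, mul_one] at hXX hX1 hXz
  have hes : (e : ℤ) = 2 * P.card + 1 := by exact_mod_cast hPcard.symm
  -- cardinality
  have r1 : (Y.card : ℤ) = P.card + 1 := by
    have h3 : (1 : ℤ) + (P.card + Y.card) = 1 + e := by exact_mod_cast hXX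
    linarith
  have r2 : ∑ ψ ∈ Y, D ψ = 1 + P.card * F := by
    rw [← Finset.mul_sum] at hX1
    have h3 : ((n : ℤ) + 1) * e = n + (P.card * (n + 1) + e * ∑ ψ ∈ Y, D ψ) := by
      have h4 : (((n : ℤ) + 1) * e : ℤ) = ((n + (P.card * (n + 1) + e * ∑ ψ ∈ Y, D ψ) : ℤ) : ℂ) := by
        push_cast
        push_cast at hX1
        exact hX1
      exact_mod_cast h4
    have h5 : (e : ℤ) * ∑ ψ ∈ Y, D ψ = e * (1 + P.card * F) := by
      linear_combination -h3 - P.card * hF + n * hes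
    exact mul_left_cancel₀ (by exact_mod_cast hepos.ne') h5
  have r3 : ∑ ψ ∈ Y, m ψ = P.card + 1 := by
    have h4 : (e : ℤ) = 0 + (P.card + ∑ ψ ∈ Y, m ψ) := by
      have h5 : ((e : ℤ) : ℂ) = ((0 + (P.card + ∑ ψ ∈ Y, m ψ) : ℤ) : ℂ) := by
        push_cast
        push_cast at hXz
        exact hXz
      exact_mod_cast h5
    linarith
  refine ⟨r1, r2, r3, ?_, ?_⟩
  · have h3 : ∀ ψ ∈ P, ψ.1 z ^ 2 / ψ.1 1 = 1 / ((n : ℂ) + 1) := by
      intro ψ hψ
      rw [hPz ψ hψ, hP1 ψ hψ, one_pow]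
    have h4 : ∀ ψ ∈ Y, ψ.1 z ^ 2 / ψ.1 1 = ((e : ℂ) * (n + 1))⁻¹ * ((m ψ ^ 2 * C ψ : ℤ) : ℂ) := by
      intro ψ hψ
      have h5 : (D ψ : ℂ) ≠ 0 := by exact_mod_cast (hD0 ψ hψ).ne'
      have h6 : (D ψ : ℂ) * C ψ = n + 1 := by exact_mod_cast hDC ψ hψ
      have h7 : (C ψ : ℂ) ≠ 0 := by
        intro h; rw [h, mul_zero] at h6; exact hn1 h6.symm
      rw [hψz ψ hψ, hψ1 ψ hψ, ← h6]
      push_cast
      field_simp
    rw [Finset.sum_congr rfl h3, Finset.sum_congr rfl h4, ← Finset.mul_sum, Finset.sum_const, nsmul_eq_mul] at hXzz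
    have h5 : ((∑ ψ ∈ Y, m ψ ^ 2 * C ψ : ℤ) : ℂ) = ((e * ((n : ℤ) + 1 + P.card) : ℤ) : ℂ) := by
      have h6 : ((e : ℂ) * (n + 1))⁻¹ * ((∑ ψ ∈ Y, m ψ ^ 2 * C ψ : ℤ) : ℂ) =
          ((n : ℂ) + e) / (n + 1) - P.card * (1 / (n + 1)) := by
        rw [← hXzz]
        push_cast
        ring
      have h7 : ((∑ ψ ∈ Y, m ψ ^ 2 * C ψ : ℤ) : ℂ) = ((e : ℂ) * (n + 1)) * (((n : ℂ) + e) / (n + 1) - P.card * (1 / (n + 1))) := by
        rw [← h6, mul_inv_cancel_left₀ (mul_ne_zero he0 hn1)]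
      have h8 : (e : ℂ) = 2 * P.card + 1 := by exact_mod_cast hPcard.symm
      rw [h7]
      push_cast
      field_simp
      rw [h8]; ring
    exact_mod_cast h5
  · choose w hw using fun χ : IrrCharacter G => int_of_invol (isChar_of_irr χ.2) hz
    choose d hd using fun χ : IrrCharacter G => isChar_one_eq (isChar_of_irr χ.2)
    have h3 : ∑ χ : IrrCharacter G, ((d χ : ℤ) - w χ) ^ 2 = (n + 1) * n * e + n := by
      have h4 : ((∑ χ : IrrCharacter G, ((d χ : ℤ) - w χ) ^ 2 : ℤ) : ℂ) = (((n + 1) * n * e + n : ℤ) : ℂ) := by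
        push_cast
        have h5 : ∀ χ : IrrCharacter G, (χ.1 1 - χ.1 z) ^ 2 = ((d χ : ℂ) - w χ) ^ 2 := fun χ => by rw [hd, hw]
        rw [← Finset.sum_congr rfl fun χ _ => h5 χ, hcol, hGc]
        push_cast; ring
      exact_mod_cast h4
    have h4 : ∑ χ ∈ insert St (P ∪ Y), ((d χ : ℤ) - w χ) ^ 2 ≤ ∑ χ : IrrCharacter G, ((d χ : ℤ) - w χ) ^ 2 :=
      Finset.sum_le_sum_of_subset_of_nonneg (Finset.subset_univ _) (fun _ _ _ => sq_nonneg _)
    have h5 : St ∉ P ∪ Y := by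
      rw [Finset.mem_union]
      rintro (h | h)
      · exact hStP h
      · exact ((hY St).mp h).2.1 rfl
    have h6 : Disjoint P Y := by
      rw [Finset.disjoint_left]
      intro χ h5 h6
      exact ((hY χ).mp h6).2.2 h5
    rw [Finset.sum_insert h5, Finset.sum_union h6, h3] at h4
    have h7 : (d St : ℤ) - w St = n := by
      have h8 : (d St : ℂ) - w St = n := by rw [← hd, ← hw, hSt1, hStz, sub_zero]
      exact_mod_cast h8
    have h8 : ∀ ψ ∈ P, ((d ψ : ℤ) - w ψ) ^ 2 = (n : ℤ) ^ 2 := by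
      intro ψ hψ
      have h9 : (d ψ : ℂ) - w ψ = n := by rw [← hd, ← hw, hP1 ψ hψ, hPz ψ hψ]; ring
      have h10 : (d ψ : ℤ) - w ψ = n := by exact_mod_cast h9
      rw [h10]
    have h9 : ∀ ψ ∈ Y, ((d ψ : ℤ) - w ψ) ^ 2 = ((e : ℤ) + 1) ^ 2 * B ψ ^ 2 := by
      intro ψ hψ
      have h10 : (d ψ : ℂ) - w ψ = ((e * D ψ - m ψ : ℤ) : ℂ) := by rw [← hd, ← hw, hψ1 ψ hψ, hψz ψ hψ]; push_cast; ring
      have h11 : (d ψ : ℤ) - w ψ = e * D ψ - m ψ := by exact_mod_cast h10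
      rw [h11, hm ψ hψ, ← hAB ψ hψ]; ring
    rw [h7, Finset.sum_congr rfl h8, Finset.sum_congr rfl h9, ← Finset.mul_sum, Finset.sum_const, nsmul_eq_mul] at h4
    have h10 : ((n : ℤ) + 1) * n * e + n - n ^ 2 - P.card * n ^ 2 = ((e : ℤ) + 1) * n + P.card * n ^ 2 := by
      rw [hes]; ring
    linarith

end sums
section exc

open Classical

variable {G Ω : Type*} [Group G] [Fintype G] [MulAction G Ω] [Fintype Ω]

theorem exc_part (hZ : IsZassenhausGroup G Ω) {a b : Ω} (hab : a ≠ b) (H : Subgroup G)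
    (hHa : H ≤ stabilizer G a) (hHcard : Nat.card H + 1 = Fintype.card Ω)
    (hHfix : ∀ u ∈ H, u ≠ 1 → ∀ c : Ω, u • c = c → c = a)
    [hKn : (H.subgroupOf (stabilizer G a)).Normal]
    {T : Finset (IrrCharacter (stabilizer G a))}
    (hT : ∀ φ, φ ∈ T ↔ φ.1 ∈ inducedIrrAbove (H.subgroupOf (stabilizer G a)) ⊥ ∧
      φ.1 1 = (Nat.card (stabilizer G a ⊓ stabilizer G b : Subgroup G) : ℂ))
    (hTcard : Nat.card (stabilizer G a ⊓ stabilizer G b : Subgroup G) + 1 < T.card)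
    {ξ : IrrCharacter (stabilizer G a)} (hξ : ξ ∈ T)
    (hmf : ∀ χ : IrrCharacter G, classInner (indFun (stabilizer G a) ξ.1) χ.1 = 0 ∨
      classInner (indFun (stabilizer G a) ξ.1) χ.1 = 1)
    {St : IrrCharacter G} (hSt : ∀ φ ∈ T, classInner (indFun (stabilizer G a) φ.1) St.1 = 1) :
    ∃ θ : IrrCharacter (stabilizer G a) → IrrCharacter G, (∀ φ ∈ T, ∀ φ' ∈ T, θ φ = θ φ' → φ = φ') ∧
      classInner (indFun (stabilizer G a) ξ.1) (θ ξ).1 = 1 ∧
      (∀ φ ∈ T, φ ≠ ξ → classInner (indFun (stabilizer G a) ξ.1) (θ φ).1 = 0) ∧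
      (∀ φ ∈ T, (θ φ).1 1 = (θ ξ).1 1) ∧
      (∀ φ ∈ T, ∀ ψ : IrrCharacter G, classInner (indFun (stabilizer G a) φ.1) ψ.1 =
        classInner (indFun (stabilizer G a) ξ.1) ψ.1 - ((if θ ξ = ψ then 1 else 0) - (if θ φ = ψ then 1 else 0))) := by
  have hXX := fun (φ : IrrCharacter (stabilizer G a)) (hφ : φ ∈ T) => X_inner hZ hab H hHa hHcard hHfix
    ((hT ξ).mp hξ).1 ((hT φ).mp hφ).1 ((hT ξ).mp hξ).2 ((hT φ).mp hφ).2
  obtain ⟨ε, hε, θ', hθ1, hθ2, hθ3⟩ := exceptional_ti (stabilizer G a) (H : Set G)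
    (by
      intro g hg s hs hgs
      by_contra hs1
      apply hg
      rw [mem_stabilizer_iff]
      apply hHfix _ hgs
      · intro h
        apply hs1
        have : s = g⁻¹ * (g * s * g⁻¹) * g := by group
        rw [this, h]; group
      · have hsa : s • a = a := hHa hs
        rw [mul_smul, mul_smul, inv_smul_smul, hsa])
    T.card (by omega) (fun i => ((T.equivFin.symm i).1).1) (fun i => ((T.equivFin.symm i).1).2)
    (by
      intro i j hij
      apply T.equivFin.symm.injective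
      exact Subtype.ext (Subtype.ext hij))
    (by
      intro i j x hx
      rw [S_van H ((hT _).mp (T.equivFin.symm i).2).1 x (fun h => hx h),
        S_van H ((hT _).mp (T.equivFin.symm j).2).1 x (fun h => hx h)])
    (by
      intro i j
      rw [((hT _).mp (T.equivFin.symm i).2).2, ((hT _).mp (T.equivFin.symm j).2).2])
  obtain ⟨θ, hθ⟩ : ∃ θ : IrrCharacter (stabilizer G a) → IrrCharacter G, ∀ φ (hφ : φ ∈ T),
      θ φ = ⟨θ' (T.equivFin ⟨φ, hφ⟩), hθ1 _⟩ :=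
    ⟨fun φ => if hφ : φ ∈ T then ⟨θ' (T.equivFin ⟨φ, hφ⟩), hθ1 _⟩ else ⟨fun _ => 1, isIrr_trivial⟩,
      fun φ hφ => dif_pos hφ⟩
  have hinj : ∀ φ ∈ T, ∀ φ' ∈ T, θ φ = θ φ' → φ = φ' := by
    intro φ hφ φ' hφ' h
    rw [hθ φ hφ, hθ φ' hφ'] at h
    have h1 := hθ2 (congrArg Subtype.val h)
    exact congrArg Subtype.val (T.equivFin.injective h1)
  have hdiff : ∀ φ ∈ T, indFun (stabilizer G a) ξ.1 - indFun (stabilizer G a) φ.1 = ε • ((θ ξ).1 - (θ φ).1) := by
    intro φ hφ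
    have h1 := hθ3 (T.equivFin ⟨ξ, hξ⟩) (T.equivFin ⟨φ, hφ⟩)
    simp only [Equiv.symm_apply_apply] at h1
    rw [h1, hθ ξ hξ, hθ φ hφ]
  have hεc : conj ε = ε := by
    rcases hε with h | h
    · rw [h, map_one]
    · rw [h, map_neg, map_one]
  have hεε : ε * ε = 1 := by
    rcases hε with h | h
    · rw [h, one_mul]
    · rw [h]; norm_num
  have hval : ∀ φ ∈ T, ∀ ψ : IrrCharacter G, classInner (indFun (stabilizer G a) φ.1) ψ.1 =
      classInner (indFun (stabilizer G a) ξ.1) ψ.1 - ε * ((if θ ξ = ψ then 1 else 0) - (if θ φ = ψ then 1 else 0)) := by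
    intro φ hφ ψ
    have h1 := congrArg (fun f => classInner f ψ.1) (hdiff φ hφ)
    simp only [classInner_sub_left, classInner_smul_left] at h1
    rw [irr_inner (θ ξ).2 ψ.2, irr_inner (θ φ).2 ψ.2] at h1
    simp only [← Subtype.ext_iff] at h1
    linear_combination -h1
  have hone : ∀ φ ∈ T, φ ≠ ξ → ε * (classInner (indFun (stabilizer G a) ξ.1) (θ ξ).1 -
      classInner (indFun (stabilizer G a) ξ.1) (θ φ).1) = 1 := by
    intro φ hφ hne
    have h1 := congrArg (fun f => classInner (indFun (stabilizer G a) ξ.1) f) (hdiff φ hφ)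
    simp only [classInner_sub_right, classInner_smul_right, hεc] at h1
    rw [hXX ξ hξ, hXX φ hφ, if_pos rfl, if_neg (fun h => hne (Subtype.ext h.symm))] at h1
    rw [← h1]; ring
  -- the sign
  have hε1 : ε = 1 := by
    rcases hε with h | h
    · exact h
    · exfalso
      have hc1 : ∀ φ ∈ T, φ ≠ ξ → classInner (indFun (stabilizer G a) ξ.1) (θ φ).1 = 1 := by
        intro φ hφ hne
        have h1 := hone φ hφ hne
        rw [h] at h1
        rcases hmf (θ ξ) with h2 | h2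
        · rw [h2] at h1; linear_combination h1
        · rw [h2] at h1
          rcases hmf (θ φ) with h3 | h3
          · rw [h3] at h1; norm_num at h1
          · exact h3
      have hStne : ∀ φ ∈ T, φ ≠ ξ → θ φ ≠ St := by
        intro φ hφ hne h3
        have h4 := hval φ hφ St
        rw [hSt φ hφ, hSt ξ hξ, h, if_pos h3, if_neg (fun h5 => hne (hinj φ hφ ξ hξ (h3.trans h5.symm)))] at h4
        norm_num at h4
      have h5 : insert St ((T.erase ξ).image θ) ⊆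
          Finset.univ.filter (fun χ : IrrCharacter G => classInner (indFun (stabilizer G a) ξ.1) χ.1 = 1) := by
        intro χ hχ
        rw [Finset.mem_filter]
        refine ⟨Finset.mem_univ _, ?_⟩
        rcases Finset.mem_insert.mp hχ with h6 | h6
        · rw [h6]; exact hSt ξ hξ
        · obtain ⟨φ, hφ, rfl⟩ := Finset.mem_image.mp h6
          exact hc1 φ (Finset.mem_of_mem_erase hφ) (Finset.ne_of_mem_erase hφ)
      have h6 := Finset.card_le_card h5
      rw [Finset.card_insert_of_notMem (by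
        intro h7
        obtain ⟨φ, hφ, h8⟩ := Finset.mem_image.mp h7
        exact hStne φ (Finset.mem_of_mem_erase hφ) (Finset.ne_of_mem_erase hφ) h8),
        Finset.card_image_of_injOn (by
          intro φ hφ φ' hφ' h7
          exact hinj φ (Finset.mem_of_mem_erase hφ) φ' (Finset.mem_of_mem_erase hφ') h7),
        Finset.card_erase_of_mem hξ] at h6
      have h7 := norm_eq_sum (isChar_ind _ (isChar_of_irr ξ.2)) hmf
      rw [hXX ξ hξ, if_pos rfl] at h7
      have h8 : ∑ χ : IrrCharacter G, 1 * classInner (indFun (stabilizer G a) ξ.1) χ.1 =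
          ((Finset.univ.filter (fun χ : IrrCharacter G => classInner (indFun (stabilizer G a) ξ.1) χ.1 = 1)).card : ℂ) := by
        rw [Finset.card_filter]
        push_cast
        refine Finset.sum_congr rfl fun χ _ => ?_
        rcases hmf χ with h9 | h9
        · rw [h9, if_neg (by norm_num)]; ring
        · rw [h9, if_pos rfl]; ring
      rw [h8] at h7
      have h9 : 1 + Nat.card (stabilizer G a ⊓ stabilizer G b : Subgroup G) =
        (Finset.univ.filter (fun χ : IrrCharacter G => classInner (indFun (stabilizer G a) ξ.1) χ.1 = 1)).card := by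
        exact_mod_cast h7
      omega
  subst hε1
  obtain ⟨φ₀, hφ₀, hφ₀ne⟩ : ∃ φ ∈ T, φ ≠ ξ := by
    by_contra h
    push Not at h
    have h1 : T ⊆ {ξ} := fun φ hφ => Finset.mem_singleton.mpr (h φ hφ)
    have := Finset.card_le_card h1
    rw [Finset.card_singleton] at this
    omega
  have hξ1 : classInner (indFun (stabilizer G a) ξ.1) (θ ξ).1 = 1 := by
    have h1 := hone φ₀ hφ₀ hφ₀ne
    rcases hmf (θ ξ) with h2 | h2
    · rw [h2] at h1
      rcases hmf (θ φ₀) with h3 | h3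
      · rw [h3] at h1; norm_num at h1
      · rw [h3] at h1; norm_num at h1
    · exact h2
  refine ⟨θ, hinj, hξ1, ?_, ?_, ?_⟩
  · intro φ hφ hne
    have h1 := hone φ hφ hne
    rw [hξ1] at h1
    linear_combination -h1
  · intro φ hφ
    have h1 := congrFun (hdiff φ hφ) 1
    simp only [Pi.sub_apply, Pi.smul_apply, smul_eq_mul, one_mul] at h1
    rw [indFun_one, indFun_one, ((hT ξ).mp hξ).2, ((hT φ).mp hφ).2] at h1
    linear_combination h1
  · intro φ hφ ψ
    rw [hval φ hφ ψ, one_mul]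

end exc
section prelim

open Classical

theorem dvd_of_pow_sub {k N : ℕ} (h : 2 ^ k - 1 ∣ 2 ^ N - 1) : k ∣ N := by
  have h1 := Nat.pow_sub_one_gcd_pow_sub_one 2 k N
  rw [Nat.gcd_eq_left h] at h1
  have h2 : 1 ≤ 2 ^ k := Nat.one_le_two_pow
  have h3 : 1 ≤ 2 ^ k.gcd N := Nat.one_le_two_pow
  have h4 : 2 ^ k = 2 ^ k.gcd N := by omega
  have h5 := Nat.pow_right_injective (le_refl 2) h4
  rw [h5]
  exact Nat.gcd_dvd_right k N

variable {G Ω : Type*} [Group G] [Fintype G] [MulAction G Ω] [Fintype Ω]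

theorem exists_z_H (H : Subgroup G) (h2 : IsPGroup 2 H) (hna : ∃ u v : H, u * v ≠ v * u) :
    ∃ z : G, orderOf z = 2 ∧ z ∈ H := by
  haveI : Fact (Nat.Prime 2) := ⟨Nat.prime_two⟩
  obtain ⟨N, hN⟩ := h2.exists_card_eq
  have h1 : 2 ∣ Nat.card H := by
    rw [hN]
    apply dvd_pow_self
    rintro rfl
    obtain ⟨u, v, huv⟩ := hna
    rw [pow_zero] at hN
    haveI : Subsingleton H := (Nat.card_eq_one_iff_unique.mp hN).1
    exact huv (Subsingleton.elim _ _)
  obtain ⟨z, hz⟩ := exists_prime_orderOf_dvd_card' 2 h1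
  exact ⟨z, by rw [← hz]; exact Subgroup.orderOf_coe z, z.2⟩

theorem odd_card (H : Subgroup G) (hHcard : Nat.card H + 1 = Fintype.card Ω) (h2 : IsPGroup 2 H)
    (hna : ∃ u v : H, u * v ≠ v * u) : Odd (Fintype.card Ω) := by
  haveI : Fact (Nat.Prime 2) := ⟨Nat.prime_two⟩
  obtain ⟨z, hz, hzH⟩ := exists_z_H H h2 hna
  have h1 : 2 ∣ Nat.card H := by
    rw [← hz]
    have := orderOf_dvd_natCard (⟨z, hzH⟩ : H)
    rwa [Subgroup.orderOf_mk] at this
  rw [← hHcard]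
  exact (even_iff_two_dvd.mpr h1).add_one

theorem prelims (hZ : IsZassenhausGroup G Ω) {a b : Ω} (hab : a ≠ b) (H : Subgroup G)
    (hHa : H ≤ stabilizer G a) (hHcard : Nat.card H + 1 = Fintype.card Ω)
    (hHfix : ∀ u ∈ H, u ≠ 1 → ∀ c : Ω, u • c = c → c = a)
    [hKn : (H.subgroupOf (stabilizer G a)).Normal]
    (hodd : Odd (Nat.card (stabilizer G a ⊓ stabilizer G b : Subgroup G))) (hG : commutator G = ⊤)
    (h2 : IsPGroup 2 H) (hna : ∃ u v : H, u * v ≠ v * u) :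
    ∃ k c j : ℕ, 2 ≤ k ∧ Nat.card (stabilizer G a ⊓ stabilizer G b : Subgroup G) + 1 = 2 ^ k ∧
      Nat.card H = (2 ^ k) ^ c ∧ 2 ≤ c ∧ (j = 1 ∨ j = 2) ∧
      (commutator (H.subgroupOf (stabilizer G a))).index = (2 ^ k) ^ j := by
  haveI : Fact (Nat.Prime 2) := ⟨Nat.prime_two⟩
  have hn := odd_card H hHcard h2 hna
  have hlt := two_lt hZ hab
  have hedvd := e_dvd hZ hab
  obtain ⟨N, hN⟩ := h2.exists_card_eq
  obtain ⟨Z, hZn, hZc, hZm⟩ := exists_Z hZ hab H hHa hHcard hHfix hodd hG hn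
  have hZ2 : IsPGroup 2 Z := fun x => ⟨1, by
    rw [pow_one, pow_two]
    exact Subtype.ext ((hZm x).mp x.2)⟩
  obtain ⟨k, hk⟩ := hZ2.exists_card_eq
  have hfeit := feit_perfect hZ hab H hHa hHcard hHfix hodd hG
  have hKc := kcard (a := a) H hHa
  have hidx := kindex hZ hab H hHa hHcard
  have hfpf := kfpf hZ hab H hHa hHcard hHfix
  have hcomm := index_commutator_congr (Subgroup.subgroupOfEquivOfLe hHa)
  have hZK : Z ≤ H.subgroupOf (stabilizer G a) := by
    intro x hx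
    by_cases hx1 : x = 1
    · rw [hx1]; exact one_mem _
    · have hx2 : orderOf (x : G) = 2 := by
        rw [Subgroup.orderOf_coe]
        exact orderOf_eq_prime (by rw [pow_two]; exact (hZm x).mp hx) hx1
      exact invol_stab hZ hab H hHa hHcard hHfix hodd hx2 x.2
  obtain ⟨e, he⟩ : ∃ e : ℕ, e = Nat.card (stabilizer G a ⊓ stabilizer G b : Subgroup G) := ⟨_, rfl⟩
  rw [← he] at hodd hlt hedvd hZc hfeit hidx ⊢
  have hek : e + 1 = 2 ^ k := by rw [← hZc, hk]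
  have hk2 : 2 ≤ k := by
    obtain ⟨m, hm⟩ := hodd
    by_contra h
    push Not at h
    have : 2 ^ k ≤ 2 := by
      calc 2 ^ k ≤ 2 ^ 1 := Nat.pow_le_pow_right (by norm_num) (by omega)
        _ = 2 := by norm_num
    omega
  have hkN : k ∣ N := by
    apply dvd_of_pow_sub
    rw [← hek, ← hN, Nat.add_sub_cancel]
    have : Nat.card H - 1 = Fintype.card Ω - 2 := by omega
    rw [this]; exact hedvd
  obtain ⟨c, hc⟩ := hkN
  have hnc : Nat.card H = (2 ^ k) ^ c := by rw [hN, hc, pow_mul]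
  have hc2 : 2 ≤ c := by
    by_contra h
    push Not at h
    interval_cases c
    · rw [pow_zero] at hnc; omega
    · rw [pow_one] at hnc
      obtain ⟨u, v, huv⟩ := hna
      apply huv
      have h3 : Z = H.subgroupOf (stabilizer G a) := by
        apply Subgroup.eq_of_le_of_card_ge hZK
        rw [hKc, hnc, hZc, hek]
      have h4 : ∀ x : H, (x : G) * x = 1 := by
        intro x
        have h5 : (⟨x, hHa x.2⟩ : stabilizer G a) ∈ Z := by rw [h3]; exact x.2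
        exact congrArg Subtype.val ((hZm _).mp h5)
      have h5 : ∀ x : H, x * x = 1 := fun x => Subtype.ext (h4 x)
      calc u * v = (u * v)⁻¹ := (inv_eq_of_mul_eq_one_left (h5 (u * v))).symm
        _ = v⁻¹ * u⁻¹ := mul_inv_rev u v
        _ = v * u := by rw [inv_eq_of_mul_eq_one_left (h5 v), inv_eq_of_mul_eq_one_left (h5 u)]
  have hbig : (e + 1) ^ 2 ≤ Nat.card H := by
    rw [hnc, hek]
    exact Nat.pow_le_pow_right (by positivity) hc2
  have hbound : (commutator (H.subgroupOf (stabilizer G a))).index ≤ 4 * e ^ 2 + 1 := by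
    rcases hfeit with h | h
    · exfalso
      have : 2 * e + 1 < (e + 1) ^ 2 := by nlinarith [hlt.1]
      omega
    · rw [hcomm]; exact h.2.2
  -- the index of the commutator subgroup
  have hidxdvd : (commutator (H.subgroupOf (stabilizer G a))).index ∣ 2 ^ N := by
    rw [← hN, ← hKc]
    exact Subgroup.index_dvd_card _
  rw [Nat.dvd_prime_pow Nat.prime_two] at hidxdvd
  obtain ⟨M, -, hM⟩ := hidxdvd
  have hcm : ∃ t : ℕ, t * e + 1 = (commutator (H.subgroupOf (stabilizer G a))).index := by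
    obtain ⟨T, hT⟩ : ∃ T : Finset (stabilizer G a → ℂ), (↑T : Set (stabilizer G a → ℂ)) =
        inducedIrrAbove (H.subgroupOf (stabilizer G a)) ⊥ :=
      ⟨(OddCohD.iia_finite (K := H.subgroupOf (stabilizer G a)) ⊥).toFinset, Set.Finite.coe_toFinset _⟩
    have hd : ∀ ξ ∈ T, ∃ d : ℕ, ξ 1 = d := by
      intro ξ hξ
      have h3 : ξ ∈ inducedIrrAbove (H.subgroupOf (stabilizer G a)) ⊥ := by rw [← hT]; exact hξ
      exact isChar_one_eq (isChar_of_irr (iia_irr' hfpf h3))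
    choose! d hd' using hd
    have h3 := OddFeit.card_min hfpf hT hd'
    rw [hidx] at h3
    exact ⟨_, h3⟩
  obtain ⟨t, ht⟩ := hcm
  have hkM : k ∣ M := by
    apply dvd_of_pow_sub
    rw [← hM, ← ht, ← hek, Nat.add_sub_cancel, Nat.add_sub_cancel]
    exact Dvd.intro_left t rfl
  obtain ⟨j, hj⟩ := hkM
  have hindex : (commutator (H.subgroupOf (stabilizer G a))).index = (2 ^ k) ^ j := by rw [hM, hj, pow_mul]
  refine ⟨k, c, j, hk2, hek, hnc, hc2, ?_, hindex⟩
  have hj3 : j < 3 := by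
    by_contra h
    push Not at h
    have h3 : (e + 1) ^ 3 ≤ (2 ^ k) ^ j := by
      rw [hek]; exact Nat.pow_le_pow_right (by positivity) h
    rw [← hindex] at h3
    have h4 : (e + 1) ^ 3 ≤ 4 * e ^ 2 + 1 := h3.trans hbound
    have h5 : 3 ≤ e := by
      obtain ⟨m, hm⟩ := hodd
      have := hlt.1
      omega
    nlinarith
  have hj0 : j ≠ 0 := by
    rintro rfl
    rw [pow_zero, Subgroup.index_eq_one] at hindex
    haveI := (kernel_struct hZ hab H hHa hHcard hHfix).2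
    haveI : Group.IsNilpotent (H.subgroupOf (stabilizer G a)) :=
      (Group.isNilpotent_congr (Subgroup.subgroupOfEquivOfLe hHa)).mpr inferInstance
    have hsolv : Group.IsSolvable (H.subgroupOf (stabilizer G a)) := inferInstance
    haveI : Nontrivial (H.subgroupOf (stabilizer G a)) := by
      rw [← Finite.one_lt_card_iff_nontrivial, hKc]
      omega
    exact absurd hindex (IsSolvable.commutator_lt_top_of_nontrivial _).ne
  omega

end prelim

end

end Cfsg.Agent.Lib.ZassSuzB
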