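import Cfsg.Agent.Lib.ZassSuzB
import Cfsg.Agent.Lib.ZassOdd

set_option autoImplicit false

namespace Cfsg.Agent.Lib.ZassSuzC

open Cfsg MulAction Cfsg.Agent.Lib.Zass Cfsg.Agent.Lib.ZassChar Cfsg.Agent.Lib.ZassInv Cfsg.Agent.Lib.ZassNorm
open Cfsg.Agent.Lib.ZassFeit Cfsg.Agent.Lib.ZassFeitB Cfsg.Agent.Lib.ZassEven Cfsg.Agent.Lib.ZassSuz
open Cfsg.Agent.Lib.ZassSuzA Cfsg.Agent.Lib.ZassSuzB
open Cfsg.Agent.Lib.CharBasic Cfsg.Agent.Lib.CharInd Cfsg.Agent.Lib.CharLin Cfsg.Agent.Lib.CharExc Cfsg.Agent.Lib.OddTIFN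
open scoped ComplexConjugate

noncomputable section

section core

open Classical

variable {G Ω : Type*} [Group G] [Fintype G] [MulAction G Ω] [Fintype Ω]

theorem T1_card (hZ : IsZassenhausGroup G Ω) {a b : Ω} (hab : a ≠ b) (H : Subgroup G)
    (hHa : H ≤ stabilizer G a) (hHcard : Nat.card H + 1 = Fintype.card Ω)
    (hHfix : ∀ u ∈ H, u ≠ 1 → ∀ c : Ω, u • c = c → c = a)
    [hKn : (H.subgroupOf (stabilizer G a)).Normal] :
    (Finset.univ.filter (fun φ : IrrCharacter (stabilizer G a) =>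
        φ.1 ∈ inducedIrrAbove (H.subgroupOf (stabilizer G a)) ⊥ ∧
          φ.1 1 = (Nat.card (stabilizer G a ⊓ stabilizer G b : Subgroup G) : ℂ))).card *
      Nat.card (stabilizer G a ⊓ stabilizer G b : Subgroup G) + 1 =
      (commutator (H.subgroupOf (stabilizer G a))).index := by
  have hfpf := kfpf hZ hab H hHa hHcard hHfix
  have hidx := kindex hZ hab H hHa hHcard
  obtain ⟨T, hT⟩ : ∃ T : Finset (stabilizer G a → ℂ), (↑T : Set (stabilizer G a → ℂ)) =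
      inducedIrrAbove (H.subgroupOf (stabilizer G a)) ⊥ :=
    ⟨(OddCohD.iia_finite (K := H.subgroupOf (stabilizer G a)) ⊥).toFinset, Set.Finite.coe_toFinset _⟩
  have hTm : ∀ ξ, ξ ∈ T ↔ ξ ∈ inducedIrrAbove (H.subgroupOf (stabilizer G a)) ⊥ := by
    intro ξ; rw [← hT]; exact Finset.mem_coe.symm
  have hd : ∀ ξ ∈ T, ∃ d : ℕ, ξ 1 = d := by
    intro ξ hξ
    exact isChar_one_eq (isChar_of_irr (iia_irr' hfpf ((hTm ξ).mp hξ)))
  choose! d hd' using hd
  have h3 := OddFeit.card_min hfpf hT hd'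
  rw [hidx] at h3
  rw [← h3]
  congr 2
  have h4 : T.filter (fun φ => d φ = Nat.card (stabilizer G a ⊓ stabilizer G b : Subgroup G)) =
      (Finset.univ.filter (fun φ : IrrCharacter (stabilizer G a) =>
        φ.1 ∈ inducedIrrAbove (H.subgroupOf (stabilizer G a)) ⊥ ∧
          φ.1 1 = (Nat.card (stabilizer G a ⊓ stabilizer G b : Subgroup G) : ℂ))).image (fun φ => φ.1) := by
    ext ξ
    rw [Finset.mem_filter, Finset.mem_image]
    constructor
    · rintro ⟨h5, h6⟩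
      have h7 := (hTm ξ).mp h5
      refine ⟨⟨ξ, iia_irr' hfpf h7⟩, ?_, rfl⟩
      rw [Finset.mem_filter]
      exact ⟨Finset.mem_univ _, h7, by show ξ 1 = _; rw [hd' ξ h5, h6]⟩
    · rintro ⟨φ, hφ, rfl⟩
      rw [Finset.mem_filter] at hφ
      have h5 := (hTm φ.1).mpr hφ.2.1
      refine ⟨h5, ?_⟩
      have h6 := hφ.2.2
      rw [hd' φ.1 h5] at h6
      exact_mod_cast h6
  rw [h4, Finset.card_image_of_injective _ Subtype.val_injective]

theorem core (hZ : IsZassenhausGroup G Ω) {a b : Ω} (hab : a ≠ b) (H : Subgroup G)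
    (hHa : H ≤ stabilizer G a) (hHcard : Nat.card H + 1 = Fintype.card Ω)
    (hHfix : ∀ u ∈ H, u ≠ 1 → ∀ c : Ω, u • c = c → c = a)
    (hodd : Odd (Nat.card (stabilizer G a ⊓ stabilizer G b : Subgroup G))) (hG : commutator G = ⊤)
    (h2 : IsPGroup 2 H) (hna : ∃ u v : H, u * v ≠ v * u) :
    ∃ k : ℕ, 2 ≤ k ∧ Odd k ∧ Nat.card (stabilizer G a ⊓ stabilizer G b : Subgroup G) + 1 = 2 ^ k ∧
      Nat.card H = (2 ^ k) ^ 2 := by
  haveI hKn := (kernel_struct hZ hab H hHa hHcard hHfix).1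
  have hn := odd_card H hHcard h2 hna
  have hfpf := kfpf hZ hab H hHa hHcard hHfix
  obtain ⟨z, hz, hzH⟩ := exists_z_H H h2 hna
  obtain ⟨k, c, j, hk2, hek, hnc, hc2, hj, hindex⟩ := prelims hZ hab H hHa hHcard hHfix hodd hG h2 hna
  obtain ⟨T1, hT1⟩ : ∃ T1 : Finset (IrrCharacter (stabilizer G a)), T1 =
      (Finset.univ.filter (fun φ : IrrCharacter (stabilizer G a) =>
        φ.1 ∈ inducedIrrAbove (H.subgroupOf (stabilizer G a)) ⊥ ∧
          φ.1 1 = (Nat.card (stabilizer G a ⊓ stabilizer G b : Subgroup G) : ℂ))) := ⟨_, rfl⟩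
  have hT1c := T1_card hZ hab H hHa hHcard hHfix
  rw [← hT1, hindex] at hT1c
  have hT1m : ∀ φ, φ ∈ T1 ↔ φ.1 ∈ inducedIrrAbove (H.subgroupOf (stabilizer G a)) ⊥ ∧
      φ.1 1 = (Nat.card (stabilizer G a ⊓ stabilizer G b : Subgroup G) : ℂ) := by
    intro φ; rw [hT1, Finset.mem_filter]; exact ⟨fun h => h.2, fun h => ⟨Finset.mem_univ _, h⟩⟩
  -- the real character
  obtain ⟨ξ, hξ, hξmf⟩ : ∃ ξ ∈ T1, ∀ χ : IrrCharacter G, classInner (indFun (stabilizer G a) ξ.1) χ.1 = 0 ∨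
      classInner (indFun (stabilizer G a) ξ.1) χ.1 = 1 := by
    have hK2 : IsPGroup 2 (H.subgroupOf (stabilizer G a)) := h2.of_equiv (Subgroup.subgroupOfEquivOfLe hHa).symm
    haveI : Nontrivial (H.subgroupOf (stabilizer G a)) := by
      rw [← Finite.one_lt_card_iff_nontrivial, kcard H hHa]
      have := (two_lt hZ hab).2
      omega
    obtain ⟨l, hl1, hl2⟩ := exists_real_lin hK2
    have hmem : indFun (H.subgroupOf (stabilizer G a)) (linFn l) ∈ inducedIrrAbove (H.subgroupOf (stabilizer G a)) ⊥ := by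
      refine ⟨linFn l, linFn_isIrr l, ?_, ?_, rfl⟩
      · intro h
        apply hl1
        apply linFn_injective
        rw [h, linFn_one]
      · intro x hx
        have : x = 1 := Subtype.ext (Subgroup.mem_bot.mp hx)
        rw [this]
    have hdeg : indFun (H.subgroupOf (stabilizer G a)) (linFn l) 1 =
        (Nat.card (stabilizer G a ⊓ stabilizer G b : Subgroup G) : ℂ) := by
      rw [indFun_one, linFn_apply_one, mul_one, kindex hZ hab H hHa hHcard]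
    refine ⟨⟨_, iia_irr' hfpf hmem⟩, (hT1m _).mpr ⟨hmem, hdeg⟩, ?_⟩
    apply mult_free (isChar_ind _ (isChar_of_irr (iia_irr' hfpf hmem))) (N := 1 +
      (Nat.card (stabilizer G a ⊓ stabilizer G b : Subgroup G) : ℂ))
    · rw [X_inner hZ hab H hHa hHcard hHfix hmem hmem hdeg hdeg, if_pos rfl]
    · exact X_fs hZ hab H hHa hHcard hHfix hodd hG hn l hl2
  obtain ⟨one, St, P, hPcard, hoSt, hoP, hStP, hone, hStv, hPv, hXs, hCond⟩ :=
    exists_special hZ hab H hHa hHcard hHfix hodd hG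
  obtain ⟨Y, hY⟩ : ∃ Y : Finset (IrrCharacter G), ∀ χ, χ ∈ Y ↔ classInner (indFun (stabilizer G a) ξ.1) χ.1 = 1 ∧ χ ≠ St ∧
      χ ∉ P := ⟨Finset.univ.filter (fun χ => classInner (indFun (stabilizer G a) ξ.1) χ.1 = 1 ∧ χ ≠ St ∧ χ ∉ P), fun χ => by
        rw [Finset.mem_filter]; exact ⟨fun h => h.2, fun h => ⟨Finset.mem_univ _, h⟩⟩⟩
  have hξS := (hT1m ξ).mp hξ
  have hYone : ∀ ψ ∈ Y, ψ ≠ one := by
    intro ψ hψ h
    have h1 := ((hY ψ).mp hψ).1
    rw [h, (hXs ξ.1 hξS.1 hξS.2).1] at h1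
    exact zero_ne_one h1
  have hz1 := invol_ne hz
  -- integers from the multiplicities
  have hdata : (∀ ψ ∈ Y, ∃ t : ℕ, Odd t ∧ (t : ℂ) = ∑ φ ∈ T1, classInner (indFun (stabilizer G a) φ.1) ψ.1) →
      ∃ D C m A B : IrrCharacter G → ℤ, (∀ ψ ∈ Y, 0 < D ψ ∧ 0 < C ψ ∧ D ψ * C ψ = (Nat.card H : ℤ) + 1 ∧ Odd (A ψ) ∧
        0 < A ψ ∧ A ψ + B ψ = D ψ ∧
        m ψ = ((Nat.card (stabilizer G a ⊓ stabilizer G b : Subgroup G) : ℤ) + 1) * A ψ - D ψ ∧
        ψ.1 1 = (Nat.card (stabilizer G a ⊓ stabilizer G b : Subgroup G) : ℂ) * D ψ ∧ ψ.1 z = m ψ ∧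
        (Nat.card H : ℤ) ∣ ((Nat.card (stabilizer G a ⊓ stabilizer G b : Subgroup G) : ℤ) + 1) ^ 2 * (A ψ * B ψ) ∧
        Odd (D ψ)) := by
    intro ht
    have h3 : ∀ ψ ∈ Y, ∃ D C m A B : ℤ, 0 < D ∧ 0 < C ∧ D * C = (Nat.card H : ℤ) + 1 ∧ Odd A ∧ 0 < A ∧ A + B = D ∧
        m = ((Nat.card (stabilizer G a ⊓ stabilizer G b : Subgroup G) : ℤ) + 1) * A - D ∧
        ψ.1 1 = (Nat.card (stabilizer G a ⊓ stabilizer G b : Subgroup G) : ℂ) * D ∧ ψ.1 z = m ∧
        (Nat.card H : ℤ) ∣ ((Nat.card (stabilizer G a ⊓ stabilizer G b : Subgroup G) : ℤ) + 1) ^ 2 * (A * B) ∧ Odd D := by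
      intro ψ hψ
      obtain ⟨t, ht1, ht2⟩ := ht ψ hψ
      rw [hT1] at ht2
      exact psi_ints hZ hab H hHa hHcard hHfix hodd hG hn h2 hna hz hzH ψ
        (hCond ψ (hYone ψ hψ) ((hY ψ).mp hψ).2.1 ((hY ψ).mp hψ).2.2) ht1 ht2
    choose! D C m A B h4 using h3
    exact ⟨D, C, m, A, B, h4⟩
  obtain ⟨F, hF⟩ : ∃ F : ℤ, (Nat.card (stabilizer G a ⊓ stabilizer G b : Subgroup G) : ℤ) * F = (Nat.card H : ℤ) - 1 := by
    obtain ⟨w, hw⟩ := e_dvd hZ hab
    have hlt := two_lt hZ hab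
    refine ⟨w, ?_⟩
    have h3 : Nat.card H = Nat.card (stabilizer G a ⊓ stabilizer G b : Subgroup G) * w + 1 := by omega
    rw [h3]; push_cast; ring
  have hekz : (Nat.card (stabilizer G a ⊓ stabilizer G b : Subgroup G) : ℤ) + 1 = 2 ^ k := by exact_mod_cast hek
  have hPz : (Nat.card (stabilizer G a ⊓ stabilizer G b : Subgroup G) : ℤ) = 2 * P.card + 1 := by exact_mod_cast hPcard.symm
  have hsum := fun (D C m A B : IrrCharacter G → ℤ)
    (h : ∀ ψ ∈ Y, 0 < D ψ ∧ 0 < C ψ ∧ D ψ * C ψ = (Nat.card H : ℤ) + 1 ∧ Odd (A ψ) ∧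
        0 < A ψ ∧ A ψ + B ψ = D ψ ∧
        m ψ = ((Nat.card (stabilizer G a ⊓ stabilizer G b : Subgroup G) : ℤ) + 1) * A ψ - D ψ ∧
        ψ.1 1 = (Nat.card (stabilizer G a ⊓ stabilizer G b : Subgroup G) : ℂ) * D ψ ∧ ψ.1 z = m ψ ∧
        (Nat.card H : ℤ) ∣ ((Nat.card (stabilizer G a ⊓ stabilizer G b : Subgroup G) : ℤ) + 1) ^ 2 * (A ψ * B ψ) ∧
        Odd (D ψ)) =>
    sums hZ hab H hHa hHcard hHfix hodd hG hn h2 hna hz hzH hξS.1 hξS.2 hξmf hPcard hStP hStv.1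
      (hStv.2 z hzH hz1) (fun ψ hψ => (hPv ψ hψ).1) (fun ψ hψ => (hPv ψ hψ).2 z hzH hz1)
      (hXs ξ.1 hξS.1 hξS.2).2.1 (hXs ξ.1 hξS.1 hξS.2).2.2 hY (D := D) (C := C) (m := m) (A := A) (B := B)
      (fun ψ hψ => (h ψ hψ).1) (fun ψ hψ => (h ψ hψ).2.2.1) (fun ψ hψ => (h ψ hψ).2.2.2.2.2.1)
      (fun ψ hψ => (h ψ hψ).2.2.2.2.2.2.1) (fun ψ hψ => (h ψ hψ).2.2.2.2.2.2.2.1)
      (fun ψ hψ => (h ψ hψ).2.2.2.2.2.2.2.2.1) hF
  rcases hj with rfl | rfl
  · -- one character of minimal degree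
    have hT11 : T1 = {ξ} := by
      have h3 : T1.card = 1 := by
        rw [pow_one, ← hek] at hT1c
        have h4 : T1.card * Nat.card (stabilizer G a ⊓ stabilizer G b : Subgroup G) =
          1 * Nat.card (stabilizer G a ⊓ stabilizer G b : Subgroup G) := by omega
        exact Nat.eq_of_mul_eq_mul_right Nat.card_pos h4
      obtain ⟨φ, hφ⟩ := Finset.card_eq_one.mp h3
      rw [hφ] at hξ ⊢
      rw [Finset.mem_singleton.mp hξ]
    obtain ⟨D, C, m, A, B, h⟩ := hdata (fun ψ hψ => ⟨1, odd_one, by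
      rw [hT11, Finset.sum_singleton, ((hY ψ).mp hψ).1]; norm_num⟩)
    obtain ⟨r1, r2, r3, r4, r5⟩ := hsum D C m A B h
    obtain ⟨d, hd⟩ : ∃ d, c = 2 + d := Nat.exists_eq_add_of_le hc2
    have hnz : (Nat.card H : ℤ) = (2 ^ k) ^ 2 * (2 ^ k) ^ d := by
      rw [hnc, hd, pow_add]; push_cast; ring
    have hq1 : (2 ^ k : ℤ) - 1 = (Nat.card (stabilizer G a ⊓ stabilizer G b : Subgroup G) : ℤ) := by rw [← hekz]; ring
    have hres := case_two (s := P.card) (q := 2 ^ k) (n := Nat.card H) (F := F) Y (k := k) (d := d) hk2 rfl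
      (by rw [← hekz, hPz]; ring) hnz (by rw [hq1]; exact hF) D C m A B
      (fun ψ hψ => (h ψ hψ).1) (fun ψ hψ => (h ψ hψ).2.1) (fun ψ hψ => (h ψ hψ).2.2.1)
      (fun ψ hψ => (h ψ hψ).2.2.2.1) (fun ψ hψ => (h ψ hψ).2.2.2.2.1) (fun ψ hψ => (h ψ hψ).2.2.2.2.2.1)
      (fun ψ hψ => by rw [(h ψ hψ).2.2.2.2.2.2.1, hekz])
      (fun ψ hψ => by
        have h3 := (h ψ hψ).2.2.2.2.2.2.2.2.2.1
        rw [hekz, hnz] at h3
        have h4 : ((2 : ℤ) ^ k) ^ d ∣ A ψ * B ψ := (mul_dvd_mul_iff_left (by positivity)).mp h3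
        have h5 : IsCoprime (((2 : ℤ) ^ k) ^ d) (A ψ) := by
          apply IsCoprime.pow_left
          apply IsCoprime.pow_left
          obtain ⟨w, hw⟩ := (h ψ hψ).2.2.2.1
          exact ⟨-w, 1, by rw [hw]; ring⟩
        exact h5.dvd_of_dvd_mul_left h4)
      r1 r2 r3 (by rw [hq1]; exact r4) (by rw [← hekz]; exact r5)
    refine ⟨k, hk2, hres.2, hek, ?_⟩
    rw [hnc, hd, hres.1]
  · -- exceptional characters
    exfalso
    have hT12 : T1.card = Nat.card (stabilizer G a ⊓ stabilizer G b : Subgroup G) + 2 := by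
      rw [← hek] at hT1c
      have h4 : T1.card * Nat.card (stabilizer G a ⊓ stabilizer G b : Subgroup G) =
          (Nat.card (stabilizer G a ⊓ stabilizer G b : Subgroup G) + 2) *
            Nat.card (stabilizer G a ⊓ stabilizer G b : Subgroup G) := by
        have : (Nat.card (stabilizer G a ⊓ stabilizer G b : Subgroup G) + 1) ^ 2 =
          (Nat.card (stabilizer G a ⊓ stabilizer G b : Subgroup G) + 2) *
            Nat.card (stabilizer G a ⊓ stabilizer G b : Subgroup G) + 1 := by ring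
        omega
      exact Nat.eq_of_mul_eq_mul_right Nat.card_pos h4
    obtain ⟨θ, hθinj, hθξ, hθ0, hθdeg, hθval⟩ := exc_part hZ hab H hHa hHcard hHfix hT1m (by omega) hξ hξmf (St := St)
      (fun φ hφ => (hXs φ.1 ((hT1m φ).mp hφ).1 ((hT1m φ).mp hφ).2).2.1)
    obtain ⟨φ₀, hφ₀, hφ₀ne⟩ : ∃ φ ∈ T1, φ ≠ ξ := by
      by_contra h
      push Not at h
      have h1 : T1 ⊆ {ξ} := fun φ hφ => Finset.mem_singleton.mpr (h φ hφ)
      have := Finset.card_le_card h1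
      rw [Finset.card_singleton] at this
      omega
    have hθne : θ φ₀ ≠ θ ξ := fun h => hφ₀ne (hθinj φ₀ hφ₀ ξ hξ h)
    -- the first exceptional character belongs to `Y`
    have hθY : θ ξ ∈ Y := by
      rw [hY]
      refine ⟨hθξ, ?_, ?_⟩
      · intro h
        have h3 := hθval φ₀ hφ₀ St
        rw [(hXs φ₀.1 ((hT1m φ₀).mp hφ₀).1 ((hT1m φ₀).mp hφ₀).2).2.1, (hXs ξ.1 hξS.1 hξS.2).2.1, if_pos h,
          if_neg (fun h4 => hθne (h4.trans h.symm))] at h3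
        norm_num at h3
      · intro h
        have h3 := hθval φ₀ hφ₀ (θ ξ)
        rw [(hXs φ₀.1 ((hT1m φ₀).mp hφ₀).1 ((hT1m φ₀).mp hφ₀).2).2.2 _ h, (hXs ξ.1 hξS.1 hξS.2).2.2 _ h, if_pos rfl,
          if_neg hθne] at h3
        norm_num at h3
    -- the other ones are new
    have hnew : ∀ φ ∈ T1, φ ≠ ξ → θ φ ≠ one ∧ θ φ ≠ St ∧ θ φ ∉ P ∧ θ φ ∉ Y := by
      intro φ hφ hne
      have h0 := hθ0 φ hφ hne
      refine ⟨?_, ?_, ?_, ?_⟩
      · intro h
        have h3 := hθval φ hφ one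
        rw [(hXs φ.1 ((hT1m φ).mp hφ).1 ((hT1m φ).mp hφ).2).1, (hXs ξ.1 hξS.1 hξS.2).1, if_pos h,
          if_neg (fun h4 => hne (hθinj φ hφ ξ hξ (h.trans h4.symm)))] at h3
        norm_num at h3
      · intro h
        rw [h, (hXs ξ.1 hξS.1 hξS.2).2.1] at h0
        exact one_ne_zero h0
      · intro h
        rw [(hXs ξ.1 hξS.1 hξS.2).2.2 _ h] at h0
        exact one_ne_zero h0
      · intro h
        rw [((hY _).mp h).1] at h0
        exact one_ne_zero h0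
    obtain ⟨D, C, m, A, B, h⟩ := hdata (fun ψ hψ => by
      by_cases hψθ : θ ξ = ψ
      · refine ⟨1, odd_one, ?_⟩
        rw [← Finset.add_sum_erase T1 _ hξ, ((hY ψ).mp hψ).1, Finset.sum_eq_zero, add_zero, Nat.cast_one]
        intro φ hφ
        have hφT := Finset.mem_of_mem_erase hφ
        have hφne := Finset.ne_of_mem_erase hφ
        rw [hθval φ hφT ψ, ((hY ψ).mp hψ).1, if_pos hψθ,
          if_neg (fun h4 => hφne (hθinj φ hφT ξ hξ (h4.trans hψθ.symm)))]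
        norm_num
      · refine ⟨T1.card, ?_, ?_⟩
        · rw [hT12]
          exact hodd.add_even (by norm_num)
        · rw [Finset.sum_congr rfl (g := fun _ => (1 : ℂ)), Finset.sum_const, nsmul_eq_mul, mul_one]
          intro φ hφ
          have h4 : ¬ θ φ = ψ := by
            intro h5
            by_cases h6 : φ = ξ
            · exact hψθ (h6 ▸ h5)
            · exact (hnew φ hφ h6).2.2.2 (h5 ▸ hψ)
          rw [hθval φ hφ ψ, ((hY ψ).mp hψ).1, if_neg hψθ, if_neg h4]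
          norm_num)
    obtain ⟨r1, r2, -, -, -⟩ := hsum D C m A B h
    -- the sum of the squares of the degrees
    have hsq : ∑ ψ ∈ Y, D ψ ^ 2 + 2 ^ k * D (θ ξ) ^ 2 ≤ F + P.card * F ^ 2 := by
      have hcol := column_orth_one (1 : G)
      rw [if_pos rfl, card_G hZ hab H hHcard] at hcol
      choose d hd using fun χ : IrrCharacter G => isChar_one_eq (isChar_of_irr χ.2)
      obtain ⟨e, he⟩ : ∃ e : ℕ, e = Nat.card (stabilizer G a ⊓ stabilizer G b : Subgroup G) := ⟨_, rfl⟩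
      obtain ⟨n, hnn⟩ : ∃ n : ℕ, n = Nat.card H := ⟨_, rfl⟩
      have h3 : ∑ χ : IrrCharacter G, (d χ : ℤ) ^ 2 = (n + 1) * n * e := by
        have h4 : ((∑ χ : IrrCharacter G, (d χ : ℤ) ^ 2 : ℤ) : ℂ) = (((n + 1) * n * e : ℤ) : ℂ) := by
          rw [← he, ← hnn] at hcol
          push_cast
          push_cast at hcol
          rw [← hcol]
          refine Finset.sum_congr rfl fun χ _ => ?_
          rw [hd]; ring
        exact_mod_cast h4
      have hdis1 : one ∉ insert St (P ∪ (Y ∪ (T1.erase ξ).image θ)) := by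
        simp only [Finset.mem_insert, Finset.mem_union, Finset.mem_image]
        rintro (h5 | h5 | h5 | ⟨φ, hφ, h5⟩)
        · exact hoSt h5
        · exact hoP h5
        · exact hYone one h5 rfl
        · exact (hnew φ (Finset.mem_of_mem_erase hφ) (Finset.ne_of_mem_erase hφ)).1 h5
      have hdis2 : St ∉ P ∪ (Y ∪ (T1.erase ξ).image θ) := by
        simp only [Finset.mem_union, Finset.mem_image]
        rintro (h5 | h5 | ⟨φ, hφ, h5⟩)
        · exact hStP h5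
        · exact ((hY St).mp h5).2.1 rfl
        · exact (hnew φ (Finset.mem_of_mem_erase hφ) (Finset.ne_of_mem_erase hφ)).2.1 h5
      have hdis3 : Disjoint P (Y ∪ (T1.erase ξ).image θ) := by
        rw [Finset.disjoint_left]
        intro χ h5 h6
        rcases Finset.mem_union.mp h6 with h7 | h7
        · exact ((hY χ).mp h7).2.2 h5
        · obtain ⟨φ, hφ, h8⟩ := Finset.mem_image.mp h7
          exact (hnew φ (Finset.mem_of_mem_erase hφ) (Finset.ne_of_mem_erase hφ)).2.2.1 (h8 ▸ h5)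
      have hdis4 : Disjoint Y ((T1.erase ξ).image θ) := by
        rw [Finset.disjoint_left]
        intro χ h5 h6
        obtain ⟨φ, hφ, h8⟩ := Finset.mem_image.mp h6
        exact (hnew φ (Finset.mem_of_mem_erase hφ) (Finset.ne_of_mem_erase hφ)).2.2.2 (h8 ▸ h5)
      have h4 : ∑ χ ∈ insert one (insert St (P ∪ (Y ∪ (T1.erase ξ).image θ))), (d χ : ℤ) ^ 2 ≤
          ∑ χ : IrrCharacter G, (d χ : ℤ) ^ 2 :=
        Finset.sum_le_sum_of_subset_of_nonneg (Finset.subset_univ _) (fun _ _ _ => sq_nonneg _)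
      rw [Finset.sum_insert hdis1, Finset.sum_insert hdis2, Finset.sum_union hdis3, Finset.sum_union hdis4, h3] at h4
      have e1 : (d one : ℤ) = 1 := by
        have : (d one : ℂ) = 1 := by rw [← hd, hone]
        exact_mod_cast this
      have e2 : (d St : ℤ) = n := by
        have : (d St : ℂ) = n := by rw [← hd, hStv.1, hnn]
        exact_mod_cast this
      have e3 : ∀ ψ ∈ P, (d ψ : ℤ) ^ 2 = ((n : ℤ) + 1) ^ 2 := by
        intro ψ hψ
        have h5 : (d ψ : ℂ) = n + 1 := by rw [← hd, (hPv ψ hψ).1, hnn]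
        have h6 : (d ψ : ℤ) = n + 1 := by exact_mod_cast h5
        rw [h6]
      have e4 : ∀ ψ ∈ Y, (d ψ : ℤ) ^ 2 = (e : ℤ) ^ 2 * D ψ ^ 2 := by
        intro ψ hψ
        have h5 : (d ψ : ℂ) = ((e * D ψ : ℤ) : ℂ) := by
          rw [← hd, (h ψ hψ).2.2.2.2.2.2.2.1, he]; push_cast; ring
        have h6 : (d ψ : ℤ) = e * D ψ := by exact_mod_cast h5
        rw [h6]; ring
      have e5 : ∀ χ ∈ (T1.erase ξ).image θ, (d χ : ℤ) ^ 2 = (e : ℤ) ^ 2 * D (θ ξ) ^ 2 := by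
        intro χ hχ
        obtain ⟨φ, hφ, rfl⟩ := Finset.mem_image.mp hχ
        have h5 : (d (θ φ) : ℂ) = ((e * D (θ ξ) : ℤ) : ℂ) := by
          rw [← hd, hθdeg φ (Finset.mem_of_mem_erase hφ), (h (θ ξ) hθY).2.2.2.2.2.2.2.1, he]; push_cast; ring
        have h6 : (d (θ φ) : ℤ) = e * D (θ ξ) := by exact_mod_cast h5
        rw [h6]; ring
      have e6 : (((T1.erase ξ).image θ).card : ℤ) = 2 ^ k := by
        rw [Finset.card_image_of_injOn (by
          intro φ hφ φ' hφ' h7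
          exact hθinj φ (Finset.mem_of_mem_erase hφ) φ' (Finset.mem_of_mem_erase hφ') h7),
          Finset.card_erase_of_mem hξ, hT12, ← hekz]
        push_cast [Nat.add_sub_cancel]
        omega
      rw [e1, e2, Finset.sum_congr rfl e3, Finset.sum_congr rfl e4, Finset.sum_congr rfl e5, ← Finset.mul_sum,
        Finset.sum_const, Finset.sum_const, nsmul_eq_mul, nsmul_eq_mul, e6] at h4
      rw [← he, ← hnn] at hF
      rw [← he] at hPz
      have hepos : (0 : ℤ) < e := by rw [he]; exact_mod_cast Nat.card_pos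
      have h5 : (e : ℤ) ^ 2 * (∑ ψ ∈ Y, D ψ ^ 2 + 2 ^ k * D (θ ξ) ^ 2) ≤ (e : ℤ) ^ 2 * (F + P.card * F ^ 2) := by
        have h6 : (n : ℤ) = e * F + 1 := by linarith
        have h7 : ((n : ℤ) + 1) * n * e - 1 - n ^ 2 - P.card * (n + 1) ^ 2 = (e : ℤ) ^ 2 * (F + P.card * F ^ 2) := by
          rw [h6, hPz]; ring
        linarith
      exact le_of_mul_le_mul_left h5 (by positivity)
    have hk4 : (4 : ℤ) ≤ 2 ^ k := by
      calc (4 : ℤ) = 2 ^ 2 := by norm_num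
        _ ≤ 2 ^ k := pow_le_pow_right₀ (by norm_num) hk2
    have hlt := two_lt hZ hab
    refine case_one Y P.card (2 ^ k) F ?_ ?_ ?_ ?_ D C (fun ψ hψ => (h ψ hψ).1) (fun ψ hψ => (h ψ hψ).2.1) ?_ ?_ r1 r2 hθY hsq
    · rw [← hekz, hPz] at hk4
      omega
    · rw [← hekz, hPz]; ring
    · rcases Nat.eq_or_lt_of_le hk2 with h3 | h3
      · left; rw [← h3]; norm_num
      · right
        calc (8 : ℤ) = 2 ^ 3 := by norm_num
          _ ≤ 2 ^ k := pow_le_pow_right₀ (by norm_num) h3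
    · by_contra h3
      push Not at h3
      have h4 : (2 : ℤ) ≤ Nat.card H := by exact_mod_cast (by omega : 2 ≤ Nat.card H)
      have h5 : (0 : ℤ) < Nat.card (stabilizer G a ⊓ stabilizer G b : Subgroup G) := by exact_mod_cast Nat.card_pos
      nlinarith
    · intro ψ hψ
      have h3 : Odd (D ψ * C ψ) := by
        have h4 : D ψ * C ψ = ((Fintype.card Ω : ℕ) : ℤ) := by
          rw [(h ψ hψ).2.2.1, ← hHcard]; push_cast; ring
        rw [h4]
        exact_mod_cast hn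
      exact (Int.odd_mul.mp h3).2
    · intro ψ hψ
      rw [(h ψ hψ).2.2.1, ← hekz]
      linear_combination -hF

end core
section suzuki

variable {G Ω : Type*} [Group G] [Finite G] [MulAction G Ω] [Fintype Ω]

theorem core' (hZ : IsZassenhausGroup G Ω) {a b : Ω} (hab : a ≠ b) (H : Subgroup G)
    (hHa : H ≤ stabilizer G a) (hHcard : Nat.card H + 1 = Fintype.card Ω)
    (hHfix : ∀ u ∈ H, u ≠ 1 → ∀ c : Ω, u • c = c → c = a)
    (hodd : Odd (Nat.card (stabilizer G a ⊓ stabilizer G b : Subgroup G))) (hG : commutator G = ⊤)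
    (h2 : IsPGroup 2 H) (hna : ∃ u v : H, u * v ≠ v * u) :
    ∃ k : ℕ, 2 ≤ k ∧ Odd k ∧ Nat.card (stabilizer G a ⊓ stabilizer G b : Subgroup G) + 1 = 2 ^ k ∧
      Nat.card H = (2 ^ k) ^ 2 := by
  haveI : Fintype G := Fintype.ofFinite G
  exact core hZ hab H hHa hHcard hHfix hodd hG h2 hna

theorem suzuki [IsSimpleGroup G] (hZ : IsZassenhausGroup G Ω) {a b : Ω} (hab : a ≠ b) (H : Subgroup G)
    (hHa : H ≤ stabilizer G a) (hHcard : Nat.card H + 1 = Fintype.card Ω)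
    (hHfix : ∀ u ∈ H, u ≠ 1 → ∀ c : Ω, u • c = c → c = a)
    (hodd : Odd (Nat.card (stabilizer G a ⊓ stabilizer G b : Subgroup G)))
    (h2 : IsPGroup 2 H) (hna : ∃ u v : H, u * v ≠ v * u) : IsSuzuki G := by
  obtain ⟨k, hk2, ⟨m, hm⟩, hek, hnc⟩ := core' hZ hab H hHa hHcard hHfix hodd (perfect' hZ hab) h2 hna
  refine ⟨inferInstance, m, by omega, ?_⟩
  have h1 := card_group hZ hab
  rw [← h1, ← hHcard, Nat.add_sub_cancel, hnc, ← hm]
  have h3 : Nat.card (stabilizer G a ⊓ stabilizer G b : Subgroup G) = 2 ^ k - 1 := by omega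
  rw [h3]; ring

theorem simple_class [IsSimpleGroup G] (hZ : IsZassenhausGroup G Ω) {a b : Ω} (hab : a ≠ b) :
    (∃ (K : Type) (_ : Field K) (_ : Fintype K), Nonempty (G ≃* Matrix.ProjectiveSpecialLinearGroup (Fin 2) K)) ∨
      IsSuzuki G := by
  obtain ⟨H, hHa, hHcard, hHfix⟩ := exists_H hZ hab
  rcases ZassOdd.simple_psl_or hZ hab H hHa hHcard hHfix with h | ⟨h1, h2, h3⟩
  · exact Or.inl h
  · exact Or.inr (suzuki hZ hab H hHa hHcard hHfix h1 h2 h3)

end suzuki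

end

end Cfsg.Agent.Lib.ZassSuzC
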